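import Cfsg.Statements.S0285
import Mathlib
import Cfsg.Agent.Lib.Helper5.HermCount

set_option autoImplicit false
open Cfsg

namespace Cfsg.Agent.S0285

/-- The standard Hermitian form on F^n, |F| = q^2, has exactly (q^n - (-1)^n)(q^(n-1) + (-1)^n) non-zero isotropic vectors; counting the zero vector too: -/
theorem result {F : Type*} [Field F] [Fintype F] {q : ℕ} (hF : Fintype.card F = q ^ 2) (n : ℕ) : Nat.card {v : Fin n → F // Cfsg.hermForm n F q v v = 0} = (if Even n then (q ^ n - 1) * (q ^ (n - 1) + 1) else (q ^ n + 1) * (q ^ (n - 1) - 1)) + 1 := by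
  have hq := Cfsg.Agent.Lib.Helper13.two_le_of_card_sq hF
  have h := Cfsg.Agent.Lib.Helper5.hcnt_zero_int hF n
  change Cfsg.Agent.Lib.Helper5.hcnt F q n 0 = _
  have hq0 : (q : ℤ) ≠ 0 := by
    have : (2 : ℤ) ≤ q := by exact_mod_cast hq
    omega
  rcases n with _ | k
  · simp only [Nat.mul_zero, pow_zero, zero_add, pow_one, one_mul] at h
    have h' : (q : ℤ) * (Cfsg.Agent.Lib.Helper5.hcnt F q 0 0 : ℤ) = q * 1 := by
      rw [h]; ring
    have h'' := mul_left_cancel₀ hq0 h'
    simp
    exact_mod_cast h''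
  · have h1 : 1 ≤ q ^ (k + 1) := Nat.one_le_pow _ _ (by omega)
    have h2 : 1 ≤ q ^ k := Nat.one_le_pow _ _ (by omega)
    rw [Nat.add_sub_cancel]
    zify
    apply mul_left_cancel₀ hq0
    rw [h]
    split_ifs with he
    · rw [he.neg_one_pow]
      push_cast [Nat.cast_sub h1]
      ring
    · rw [(Nat.not_even_iff_odd.1 he).neg_one_pow]
      push_cast [Nat.cast_sub h2]
      ring

end Cfsg.Agent.S0285
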