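import Cfsg.Statements.S3116

set_option autoImplicit false
open Cfsg

namespace Cfsg.Agent.S3116

/-- Key lemma: a group with a cyclic subgroup `⟨x⟩` of index two and order `2 ^ n`, such that no element
outside has order `2 ^ n`, has a 2-group of automorphisms. -/
theorem key {X : Type*} [Group X] (x : X) (n : ℕ) (hx : orderOf x = 2 ^ n)
    (hidx : (Subgroup.zpowers x).index = 2)
    (hout : ∀ a : X, a ∉ Subgroup.zpowers x → orderOf a ≠ 2 ^ n) : IsPGroup 2 (MulAut X) := by
  intro φ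
  have hfin : IsOfFinOrder x := by
    rw [← orderOf_pos_iff, hx]; positivity
  -- φ x is a power of x
  have h1 : φ x ∈ Subgroup.zpowers x := by
    by_contra hcon
    exact hout _ hcon (by rw [MulEquiv.orderOf_eq φ x, hx])
  obtain ⟨m, hm⟩ : ∃ m : ℕ, x ^ m = φ x := by
    have := (hfin.mem_powers_iff_mem_zpowers).2 h1
    exact this
  have hcop : Nat.Coprime m (2 ^ n) := by
    have h2 : orderOf (x ^ m) = 2 ^ n := by rw [hm, MulEquiv.orderOf_eq φ x, hx]
    rw [hfin.orderOf_pow, hx, Nat.div_eq_self] at h2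
    rcases h2 with h2 | h2
    · exact absurd h2 (by positivity)
    · rw [Nat.coprime_comm]; exact h2
  have hpow : ∀ k : ℕ, (φ ^ k) x = x ^ (m ^ k) := by
    intro k
    induction k with
    | zero => simp
    | succ k ih =>
      rw [pow_succ', MulAut.mul_apply, ih, map_pow, ← hm, ← pow_mul, pow_succ']
  -- some 2-power of φ fixes x
  obtain ⟨a, ha⟩ : ∃ a : ℕ, (φ ^ (2 ^ a)) x = x := by
    rcases Nat.eq_zero_or_pos n with hn | hn
    · refine ⟨0, ?_⟩
      subst hn
      have : x = 1 := by simpa using hx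
      subst this
      simp
    · refine ⟨n - 1, ?_⟩
      rw [hpow]
      have h3 := Nat.ModEq.pow_totient hcop
      rw [Nat.totient_prime_pow Nat.prime_two hn] at h3
      simp only [Nat.add_one_sub_one, mul_one] at h3
      have h4 : x ^ (m ^ 2 ^ (n - 1)) = x ^ 1 := by
        rw [hfin.pow_eq_pow_iff_modEq, hx]; exact h3
      rw [h4, pow_one]
  set ψ := φ ^ (2 ^ a) with hψ
  have hψC : ∀ c ∈ Subgroup.zpowers x, ψ c = c := by
    intro c hc
    obtain ⟨j, rfl⟩ := hc
    simp only [map_zpow, ha]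
  have hψk : ∀ (y c : X), c ∈ Subgroup.zpowers x → ψ y = y * c → ∀ k : ℕ, (ψ ^ k) y = y * c ^ k := by
    intro y c hc hy k
    induction k with
    | zero => simp
    | succ k ih =>
      rw [pow_succ', MulAut.mul_apply, ih, map_mul, map_pow, hψC c hc, hy, mul_assoc, ← pow_succ']
  refine ⟨a + n, ?_⟩
  rw [pow_add, pow_mul, ← hψ]
  ext y
  rw [MulAut.one_apply]
  have hc : y⁻¹ * ψ y ∈ Subgroup.zpowers x := by
    rw [Subgroup.mul_mem_iff_of_index_two hidx, inv_mem_iff]
    constructor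
    · intro hy; rw [hψC y hy]; exact hy
    · intro hy
      have : ψ (ψ y) = ψ y := hψC _ hy
      have h5 : ψ y = y := ψ.injective this
      rw [← h5]; exact hy
  rw [hψk y (y⁻¹ * ψ y) hc (by group)]
  obtain ⟨j, hj⟩ := hc
  rw [← hj, ← zpow_natCast, ← zpow_mul, mul_comm, zpow_mul, zpow_natCast, ← hx, pow_orderOf_eq_one]
  simp

theorem dihedral (n : ℕ) (hn : 4 ≤ n) (h2 : IsPGroup 2 (DihedralGroup n)) :
    IsPGroup 2 (MulAut (DihedralGroup n)) := by
  obtain ⟨k, hk⟩ := (IsPGroup.iff_orderOf.1 h2) (DihedralGroup.r 1)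
  rw [DihedralGroup.orderOf_r_one] at hk
  have hmem : ∀ a : DihedralGroup n, a ∈ Subgroup.zpowers (DihedralGroup.r (1 : ZMod n)) ↔ ∃ i, a = DihedralGroup.r i := by
    intro a
    constructor
    · rintro ⟨j, rfl⟩
      exact ⟨_, DihedralGroup.r_one_zpow j⟩
    · rintro ⟨i, rfl⟩
      have : NeZero n := ⟨by omega⟩
      refine ⟨(i.val : ℤ), ?_⟩
      simp
  refine key (DihedralGroup.r 1) k (by rw [DihedralGroup.orderOf_r_one, hk]) ?_ ?_
  · have h1 := Subgroup.card_mul_index (Subgroup.zpowers (DihedralGroup.r (1 : ZMod n)))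
    rw [Nat.card_zpowers, DihedralGroup.orderOf_r_one, DihedralGroup.nat_card, mul_comm] at h1
    exact Nat.eq_of_mul_eq_mul_right (by omega) h1
  · intro a ha
    cases a with
    | r i => exact absurd ((hmem _).2 ⟨i, rfl⟩) ha
    | sr i => rw [DihedralGroup.orderOf_sr, ← hk]; omega

theorem quasi {X : Type*} [Group X] [Finite X] (h : Cfsg.IsQuasiDihedral X) : IsPGroup 2 (MulAut X) := by
  obtain ⟨n, hn, hcard, x, y, hx, hy, hyx⟩ := h
  have hidx : (Subgroup.zpowers x).index = 2 := by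
    have h1 := Subgroup.card_mul_index (Subgroup.zpowers x)
    rw [Nat.card_zpowers, hx, hcard, pow_succ] at h1
    exact Nat.eq_of_mul_eq_mul_left (by positivity) h1
  have h2n : 4 ≤ 2 ^ (n - 1) := by
    calc 4 = 2 ^ 2 := by norm_num
      _ ≤ 2 ^ (n - 1) := Nat.pow_le_pow_right (by norm_num) (by omega)
  have h2n' : 2 ^ n = 2 * 2 ^ (n - 1) := by
    rw [← pow_succ']; congr 1; omega
  generalize 2 ^ (n - 1) = N at h2n h2n' hyx
  have hyC : y ∉ Subgroup.zpowers x := by
    intro hmem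
    obtain ⟨j, rfl⟩ := hmem
    have h3 : x ^ j * x * (x ^ j)⁻¹ = x := by group
    rw [h3] at hyx
    have h4 : x ^ 1 = x ^ (N - 1) := by rw [pow_one]; exact hyx
    rw [pow_eq_pow_iff_modEq, hx] at h4
    have h5 := h4
    rw [Nat.modEq_iff_dvd' (by omega)] at h5
    have h6 := Nat.le_of_dvd (by omega) h5
    omega
  refine key x n hx hidx ?_
  intro a ha hord
  -- a = c * y with c in ⟨x⟩
  have hc : a * y⁻¹ ∈ Subgroup.zpowers x := by
    rw [Subgroup.mul_mem_iff_of_index_two hidx, inv_mem_iff]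
    exact ⟨fun h => absurd h ha, fun h => absurd h hyC⟩
  obtain ⟨j, hj⟩ := hc
  have hay : a = x ^ j * y := by
    have : x ^ j = a * y⁻¹ := hj
    rw [this]; group
  have hy2 : y * y = 1 := by
    rw [← pow_two, ← hy, pow_orderOf_eq_one]
  have hconj : y * x ^ j * y⁻¹ = (x ^ (N - 1)) ^ j := by
    rw [← hyx]
    exact (map_zpow (MulAut.conj y) x j)
  have hyinv : y⁻¹ = y := by
    exact inv_eq_of_mul_eq_one_left hy2
  have hsq : a * a = (x ^ N) ^ j := by
    have h7 : a * a = x ^ j * (y * x ^ j * y⁻¹) := by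
      rw [hay, hyinv]; simp only [mul_assoc]
    rw [h7, hconj, ← zpow_natCast, ← zpow_natCast, ← zpow_mul, ← zpow_mul, ← zpow_add]
    congr 1
    have : ((N - 1 : ℕ) : ℤ) = (N : ℤ) - 1 := by
      push_cast [Nat.cast_sub (by omega : 1 ≤ N)]; ring
    rw [this]; ring
  have h4 : a ^ 4 = 1 := by
    have : a ^ 4 = (a * a) * (a * a) := by
      rw [show (4 : ℕ) = 2 + 2 from rfl, pow_add, pow_two]
    have h9 : x ^ N * x ^ N = 1 := by
      rw [← pow_add, ← two_mul, ← h2n', ← hx, pow_orderOf_eq_one]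
    rw [this, hsq, ← (Commute.refl (x ^ N)).mul_zpow, h9, one_zpow]
  have h8 := orderOf_le_of_pow_eq_one (by norm_num) h4
  omega

theorem result {X : Type*} [Group X] [Finite X] (h2 : IsPGroup 2 X)
    (h : (∃ n : ℕ, 4 ≤ n ∧ Nonempty (X ≃* DihedralGroup n)) ∨ Cfsg.IsQuasiDihedral X) : IsPGroup 2 (MulAut X) := by
  rcases h with ⟨n, hn, ⟨e⟩⟩ | h
  · have := dihedral n hn (h2.of_equiv e)
    exact this.of_equiv (MulAut.congr e).symm
  · exact quasi h

end Cfsg.Agent.S3116
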