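import Mathlib
import Cfsg.Statements.S2623
import Cfsg.Agent.Lib.Helper14.DiscQuad

set_option autoImplicit false
open Cfsg

namespace Cfsg.Agent.S2623

/-- Over a finite field of odd order, two quadratic forms on F^n with non-degenerate polar forms are isometric (related by an invertible linear change of variables) if and only if their discriminants (determinants of the Gram matrices of their polar forms) lie in the same square class. -/
theorem result {F : Type*} [Field F] [Fintype F] (h2 : (2 : F) ≠ 0) {n : ℕ} (Q₁ Q₂ : QuadraticForm F (Fin n → F)) (h₁ : (QuadraticMap.polarBilin Q₁).Nondegenerate) (h₂ : (QuadraticMap.polarBilin Q₂).Nondegenerate) : (∃ g : (Fin n → F) ≃ₗ[F] (Fin n → F), ∀ v, Q₂ (g v) = Q₁ v) ↔ IsSquare ((Matrix.of (fun i j : Fin n => QuadraticMap.polar ⇑Q₁ (Pi.single i 1) (Pi.single j 1))).det * (Matrix.of (fun i j : Fin n => QuadraticMap.polar ⇑Q₂ (Pi.single i 1) (Pi.single j 1))).det) := by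
  have hD₁ := Cfsg.Agent.Lib.Helper14.hasDisc_polarBilin Q₁
  have hD₂ := Cfsg.Agent.Lib.Helper14.hasDisc_polarBilin Q₂
  constructor
  · rintro ⟨g, hg⟩
    have hpol : ∀ x y, QuadraticMap.polarBilin Q₂ (g x) (g y) = QuadraticMap.polarBilin Q₁ x y := by
      intro x y
      have := Cfsg.Agent.Lib.Helper14.polar_map_of_quad_map Q₁ Q₂ 1 g.toLinearMap
        (by intro v; simpa using hg v) x y
      simpa using this
    have hD₁' := hD₁.of_equiv g hpol
    obtain ⟨t, -, hrel⟩ := hD₁'.rel hD₂
    rw [hrel]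
    exact ⟨t * _, by ring⟩
  · intro hsq
    obtain ⟨g, hg⟩ := Cfsg.Agent.Lib.Helper14.exists_isometry_of_disc h2 n
      (QuadraticMap.polarBilin Q₁) (QuadraticMap.polarBilin Q₂)
      (Cfsg.Agent.Lib.Helper14.polarBilin_isSymm Q₁) (Cfsg.Agent.Lib.Helper14.polarBilin_isSymm Q₂)
      h₁ h₂ (by simp) (by simp) _ _ hD₁ hD₂ hsq
    refine ⟨g, fun v => ?_⟩
    have := Cfsg.Agent.Lib.Helper14.quad_eq_of_polar_eq h2 Q₁ Q₂ 1 v (g v)
      (by simpa using hg v v)
    simpa using this

end Cfsg.Agent.S2623
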