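import Cfsg.Statements.S0264
import Mathlib
import Cfsg.Agent.Lib.Helper5.SLGen
import Cfsg.Agent.Lib.Helper5.LinearCard

set_option autoImplicit false
open Cfsg

namespace Cfsg.Agent.S0264

open Matrix Cfsg.Agent.Lib.Helper5
open scoped commutatorElement

lemma aux {F : Type*} [Field F] (a : F) (ha0 : a ≠ 0) (ha1 : a ≠ 1) (i j : Fin 2) (hij : i ≠ j) (c : F) :
    Matrix.SpecialLinearGroup.toGL (Matrix.SpecialLinearGroup.transvection hij c) ∈ commutator (Matrix.GeneralLinearGroup (Fin 2) F) := by
  have hdet : (diagonal (fun k => if k = i then a else 1) : Matrix (Fin 2) (Fin 2) F).det ≠ 0 := by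
    rw [det_diagonal]
    fin_cases i <;> simp [ha0]
  set d : Matrix.GeneralLinearGroup (Fin 2) F := Matrix.GeneralLinearGroup.mkOfDetNeZero _ hdet with hd
  have ha1' : a - 1 ≠ 0 := sub_ne_zero.2 ha1
  have key : ⁅d, Matrix.SpecialLinearGroup.toGL (Matrix.SpecialLinearGroup.transvection hij (c / (a - 1)))⁆ = Matrix.SpecialLinearGroup.toGL (Matrix.SpecialLinearGroup.transvection hij c) := by
    rw [commutatorElement_def, mul_inv_eq_iff_eq_mul, mul_inv_eq_iff_eq_mul]
    apply Units.ext
    simp only [Units.val_mul, Matrix.SpecialLinearGroup.coe_GL_coe_matrix, Matrix.SpecialLinearGroup.transvection_coe, hd]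
    change diagonal _ * _ = _ * _ * diagonal _
    ext k l
    fin_cases i <;> fin_cases j <;> first | exact absurd rfl hij | skip
    all_goals fin_cases k <;> fin_cases l <;> simp [Matrix.mul_apply, Matrix.single_apply, Matrix.one_apply] <;> field_simp <;> ring
  rw [← key]
  exact Subgroup.commutator_mem_commutator (Subgroup.mem_top _) (Subgroup.mem_top _)

/-- GL_n(F)' = SL_n(F) (as the kernel of det), for every field F and every n, except n = 2 over the field of two elements. -/
theorem result {F : Type*} [Field F] (n : ℕ) (h : n = 2 → ∃ a : F, a ≠ 0 ∧ a ≠ 1) : commutator (Matrix.GeneralLinearGroup (Fin n) F) = (Matrix.GeneralLinearGroup.det : Matrix.GeneralLinearGroup (Fin n) F →* Fˣ).ker := by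
  apply le_antisymm
  · exact Abelianization.commutator_subset_ker _
  · rw [← range_toGL_eq_ker_det]
    rintro _ ⟨s, rfl⟩
    rcases Nat.lt_or_ge n 2 with hn | hn
    · have : Subsingleton (Fin n) := by
        constructor
        intro a b
        ext
        omega
      rw [Subsingleton.elim s 1, map_one]
      exact one_mem _
    · rcases Nat.lt_or_ge n 3 with hn3 | hn3
      · obtain rfl : n = 2 := by omega
        obtain ⟨a, ha0, ha1⟩ := h rfl
        refine SL_transvection_induction (fun s => Matrix.SpecialLinearGroup.toGL s ∈ commutator (Matrix.GeneralLinearGroup (Fin 2) F)) ?_ ?_ s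
        · intro i j hij c
          exact aux a ha0 ha1 i j hij c
        · intro A B hA hB
          simp only [map_mul]
          exact mul_mem hA hB
      · have h1 : s ∈ commutator (Matrix.SpecialLinearGroup (Fin n) F) := by
          rw [SL_commutator_eq_top (by simpa using hn3)]
          trivial
        have h2 := Subgroup.mem_map_of_mem Matrix.SpecialLinearGroup.toGL h1
        rw [commutator_def, Subgroup.map_commutator] at h2
        exact Subgroup.commutator_mono le_top le_top h2

end Cfsg.Agent.S0264
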