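import Mathlib
import Cfsg.Statements.S0299
import Cfsg.Agent.Lib.Helper14.Omega4Plus
import Cfsg.Agent.Lib.Helper5.POmegaOrder
import Cfsg.Agent.Lib.Helper5.LinearCard
import Cfsg.Agent.S0287

set_option autoImplicit false
open Cfsg

namespace Cfsg.Agent.S0299

open Cfsg.Agent.Lib.Helper14 Cfsg.Agent.Lib.Helper44 Matrix

/-- PΩ^+_4(q) is isomorphic to PSL_2(q) x PSL_2(q) for q at least 3. -/
theorem result {F : Type*} [Field F] [Fintype F] (hF : 3 ≤ Fintype.card F) : Nonempty (Cfsg.POmega F (Cfsg.quadFormPlus 2 F) ≃* Matrix.ProjectiveSpecialLinearGroup (Fin 2) F × Matrix.ProjectiveSpecialLinearGroup (Fin 2) F) := by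
  classical
  have ht : ∃ t : F, t ≠ 0 ∧ t ≠ 1 := exists_ne_zero_one_of_card (by omega)
  set q := Fintype.card F with hq
  have hO := Cfsg.Agent.S0287.result (F := F) rfl 2 (by norm_num)
  simp only [Nat.add_one_sub_one, mul_one, Finset.prod_range_one, zero_add] at hO
  rw [← hq] at hO
  have hSL := Cfsg.Agent.Lib.Helper5.card_SL2 (F := F)
  rw [← hq] at hSL
  have hZ := Cfsg.Agent.Lib.Helper5.card_center_SL (F := F) (n := Fin 2)
  rw [← hq, Fintype.card_fin] at hZ
  have hidx := Subgroup.card_mul_index (Cfsg.Omega F ⇑(plusQF 2 F))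
  have hcard : Nat.card (Matrix.SpecialLinearGroup (Fin 2) F × Matrix.SpecialLinearGroup (Fin 2) F)
      = Nat.card (rho4SL (F := F)).ker * Nat.card (Cfsg.Omega F ⇑(plusQF 2 F)) := by
    rw [card_rho4SL_ker, Nat.card_prod, hSL, hZ]
    rcases Nat.even_or_odd q with hev | hodd
    · have hchar : CharP F 2 := by
        have h := FiniteField.even_card_iff_char_two.mpr (Nat.even_iff.mp hev)
        exact h ▸ ringChar.charP F
      have e3 : (Cfsg.Omega F ⇑(plusQF 2 F)).index = 2 := by
        rw [Cfsg.Omega, index_commutator_of_mulEquiv (isoEquiv (plusQF 2 F))]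
        exact index_commutator_char_two (plusQF_nondeg 2 F) (Or.inl ht) (by simp)
      rw [e3] at hidx
      rw [plusQF_coe] at hidx ⊢
      rw [hO] at hidx
      have hg : Nat.gcd (q - 1) 2 = 1 := by
        obtain ⟨k, hk⟩ := hev
        have hk1 : q - 1 = 2 * (k - 1) + 1 := by omega
        rw [hk1]; simp
      rw [hg, one_mul]
      have : Nat.card (Cfsg.Omega F (Cfsg.quadFormPlus 2 F)) * 2 = (q * (q ^ 2 - 1) * (q * (q ^ 2 - 1))) * 2 := by
        rw [hidx]; ring
      omega
    · have h2 : (2 : F) ≠ 0 := Cfsg.Agent.Lib.Helper44.two_ne_zero_of_odd_card hodd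
      have e3 := Cfsg.Agent.Lib.Helper5.index_Omega_odd h2 (plusQF 2 F) (plusQF_nondeg 2 F) (by simp)
      rw [e3] at hidx
      rw [plusQF_coe] at hidx ⊢
      rw [hO] at hidx
      have hg : Nat.gcd (q - 1) 2 = 2 := by
        obtain ⟨k, hk⟩ := hodd
        rw [hk]; simp
      rw [hg]
      have : Nat.card (Cfsg.Omega F (Cfsg.quadFormPlus 2 F)) * 4 = (q * (q ^ 2 - 1) * (q * (q ^ 2 - 1))) * 2 := by
        rw [hidx]; ring
      omega
  have := exc_iso (plusQF 2 F) rho4SL (rho4SL_mem_commutator ht) hcard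
    (MonoidHom.prodMap (QuotientGroup.mk' (Subgroup.center (Matrix.SpecialLinearGroup (Fin 2) F)))
      (QuotientGroup.mk' (Subgroup.center (Matrix.SpecialLinearGroup (Fin 2) F))))
    (Function.Surjective.prodMap (QuotientGroup.mk'_surjective _) (QuotientGroup.mk'_surjective _))
    (by
      rw [Subgroup.center_prod]
      erw [psl2_center_eq_bot]
      simp)
    (by
      intro p hp
      rw [mem_rho4SL_ker] at hp
      rw [MonoidHom.mem_ker]
      apply Prod.ext
      · exact (QuotientGroup.eq_one_iff _).mpr hp.2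
      · have h2 : p.2 ∈ Subgroup.center (Matrix.SpecialLinearGroup (Fin 2) F) := hp.1 ▸ hp.2
        exact (QuotientGroup.eq_one_iff _).mpr h2)
    (by
      intro p hp
      rw [MonoidHom.mem_ker] at hp
      rw [Subgroup.center_prod, Subgroup.mem_prod]
      exact ⟨(QuotientGroup.eq_one_iff _).mp (congrArg Prod.fst hp),
        (QuotientGroup.eq_one_iff _).mp (congrArg Prod.snd hp)⟩)
  rwa [plusQF_coe] at this

end Cfsg.Agent.S0299
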