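import Cfsg.Statements.S0806
import Cfsg.Agent.Lib.Helper41.Dickson.Cards

set_option autoImplicit false
set_option linter.style.haveILetI false
open Cfsg

namespace Cfsg.Agent.S0806

open Cfsg.Agent.Lib.Helper41.Dickson

theorem exists_char_prime (F : Type*) [Field F] [Finite F] :
    ∃ p : ℕ, p.Prime ∧ CharP F p := by
  obtain ⟨p, hp⟩ := CharP.exists F
  refine ⟨p, (CharP.char_is_prime_or_zero F p).resolve_right (fun h0 => ?_), hp⟩
  subst h0
  haveI := CharP.charP_to_charZero F
  exact not_finite F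

theorem sq_sub_one (q : ℕ) (hq : 1 ≤ q) : q ^ 2 - 1 = (q - 1) * (q + 1) := by
  obtain ⟨t, rfl⟩ : ∃ t, q = t + 1 := ⟨q - 1, by omega⟩
  have : (t + 1) ^ 2 = (t + 1 - 1) * (t + 1 + 1) + 1 := by
    simp only [Nat.add_sub_cancel]; ring
  omega

/-- the key bound -/
theorem card_bound {F : Type*} [Field F] [Fintype F] (hq : Fintype.card F ∉ ({2, 3, 5, 7, 9, 11} : Finset ℕ))
    (H : Subgroup (Matrix.ProjectiveSpecialLinearGroup (Fin 2) F)) (hH : H ≠ ⊤) :
    Nat.gcd 2 (Fintype.card F - 1) * Nat.card H ≤ Fintype.card F * (Fintype.card F - 1) := by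
  obtain ⟨p, hp, hch⟩ := exists_char_prime F
  haveI := fact_iff.2 hp
  have hq2 : 2 ≤ Fintype.card F := Fintype.one_lt_card
  have hg := natCard_PSL2 F
  rw [Nat.card_eq_fintype_card] at hg
  have hdvd : Nat.card H ∣ Nat.card (Matrix.ProjectiveSpecialLinearGroup (Fin 2) F) :=
    Subgroup.card_subgroup_dvd_card H
  have hne : Nat.card H ≠ Nat.card (Matrix.ProjectiveSpecialLinearGroup (Fin 2) F) :=
    fun h => hH (Subgroup.eq_top_of_card_eq H h)
  have hd : Nat.gcd 2 (Fintype.card F - 1) ≤ 2 := Nat.gcd_le_left _ (by norm_num)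
  have hd0 : 0 < Nat.gcd 2 (Fintype.card F - 1) := Nat.gcd_pos_of_pos_left _ (by norm_num)
  simp only [Finset.mem_insert, Finset.mem_singleton, not_or] at hq
  obtain ⟨n2, n3, n5, n7, n9, n11⟩ := hq
  generalize hqq : Fintype.card F = q at *
  generalize hdd : Nat.gcd 2 (q - 1) = d at *
  generalize hgg : Nat.card (Matrix.ProjectiveSpecialLinearGroup (Fin 2) F) = g at *
  have hq4 : 4 ≤ q := by omega
  obtain ⟨t, rfl⟩ : ∃ t, q = t + 4 := ⟨q - 4, by omega⟩
  have hsub : t + 4 - 1 = t + 3 := by omega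
  rcases dickson_card p H with ⟨-, h2⟩ | ⟨k, hk, -, h2⟩ | ⟨P, hP⟩ | ⟨-, h⟩ | ⟨-, h⟩ | ⟨-, h⟩ |
    ⟨K, m, hm, hqm, hK2, hK⟩
  · rw [hqq, hdd] at h2
    have h3 : d * Nat.card H ≤ t + 4 + 1 := by
      rcases h2 with h2 | h2
      · have := Nat.le_of_dvd (by omega) h2; omega
      · exact Nat.le_of_dvd (by omega) h2
    rw [hsub]
    nlinarith
  · rw [hqq, hdd] at hk
    have h3 : d * k ≤ t + 4 + 1 := by
      rcases hk with h2 | h2
      · have := Nat.le_of_dvd (by omega) h2; omega
      · exact Nat.le_of_dvd (by omega) h2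
    rw [hsub, h2]
    nlinarith
  · obtain ⟨-, -, h3, -⟩ := borel_package p P
    rw [hqq, hdd] at h3
    rw [← h3]
    exact Nat.mul_le_mul_left _ (Subgroup.card_le_of_le hP)
  · rw [h, hsub]
    rcases (by omega : t = 0 ∨ 2 ≤ t) with rfl | ht
    · have : d = 1 := by rw [← hdd]; decide
      rw [this]
    · nlinarith
  · rw [h, hsub]
    rw [h] at hdvd
    rcases (by omega : t = 0 ∨ t = 2 ∨ 4 ≤ t) with rfl | rfl | ht
    · exfalso
      have : d = 1 := by rw [← hdd]; decide
      rw [this] at hg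
      have : g = 60 := by omega
      rw [this] at hdvd
      revert hdvd; decide
    · exfalso
      have : d = 1 := by rw [← hdd]; decide
      rw [this] at hg
      have : g = 210 := by omega
      rw [this] at hdvd
      revert hdvd; decide
    · nlinarith
  · rw [h, hsub]
    rw [h] at hdvd hne
    rcases (by omega : t = 0 ∨ t = 2 ∨ t = 4 ∨ t = 6 ∨ 8 ≤ t) with rfl | rfl | rfl | rfl | ht
    · exfalso
      have : d = 1 := by rw [← hdd]; decide
      rw [this] at hg
      have : g = 60 := by omega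
      exact hne this.symm
    · exfalso
      have : d = 1 := by rw [← hdd]; decide
      rw [this] at hg
      have : g = 210 := by omega
      rw [this] at hdvd
      revert hdvd; decide
    · exfalso
      have : d = 1 := by rw [← hdd]; decide
      rw [this] at hg
      have : g = 504 := by omega
      rw [this] at hdvd
      revert hdvd; decide
    · exfalso
      have : d = 1 := by rw [← hdd]; decide
      rw [this] at hg
      have : g = 990 := by omega
      rw [this] at hdvd
      revert hdvd; decide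
    · nlinarith
  · rw [hqq] at hqm
    generalize Nat.card K = q₁ at *
    rcases (by omega : m = 1 ∨ 2 ≤ m) with rfl | hm2
    · exfalso
      rw [pow_one] at hqm
      subst hqm
      rcases hK with ⟨-, h⟩ | ⟨-, h⟩
      · rw [hqq, hdd, ← hg] at h
        exact hne (Nat.eq_of_mul_eq_mul_left hd0 h)
      · rw [← hg] at h
        have h1 : Nat.card H ≤ g := Nat.le_of_dvd (by rw [← hgg]; exact Nat.card_pos) hdvd
        have h2 : g ≤ d * g := Nat.le_mul_of_pos_left _ hd0
        omega
    · have h1 : q₁ ^ 2 ≤ t + 4 := by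
        rw [hqm]; exact Nat.pow_le_pow_right (by omega) hm2
      have h2 : q₁ ^ 2 - 1 ≤ t + 3 := by omega
      have h3 : q₁ * 2 ≤ q₁ ^ 2 := by rw [sq]; exact Nat.mul_le_mul_left _ hK2
      rw [hsub]
      rcases hK with ⟨-, h⟩ | ⟨-, h⟩
      · rw [hqq, hdd] at h
        rw [h]
        exact Nat.mul_le_mul (by nlinarith) h2
      · rw [h]
        calc d * (q₁ * (q₁ ^ 2 - 1)) ≤ 2 * (q₁ * (q₁ ^ 2 - 1)) := Nat.mul_le_mul_right _ hd
          _ = (q₁ * 2) * (q₁ ^ 2 - 1) := by ring
          _ ≤ (t + 4) * (t + 3) := Nat.mul_le_mul (by omega) h2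

/-- Minimal index (Galois): if q ∉ {2, 3, 5, 7, 9, 11} then every proper subgroup of PSL_2(q) has index ≥ q + 1, and some subgroup has index exactly q + 1. -/
theorem result {F : Type*} [Field F] [Fintype F] {q : ℕ} (hF : Fintype.card F = q) (hq : q ∉ ({2, 3, 5, 7, 9, 11} : Finset ℕ)) : (∀ H : Subgroup (Matrix.ProjectiveSpecialLinearGroup (Fin 2) F), H ≠ ⊤ → q + 1 ≤ H.index) ∧ ∃ H : Subgroup (Matrix.ProjectiveSpecialLinearGroup (Fin 2) F), H.index = q + 1 := by
  subst hF
  constructor
  · intro H hH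
    have h1 := card_bound hq H hH
    have hg := natCard_PSL2 F
    rw [Nat.card_eq_fintype_card, sq_sub_one _ Fintype.card_pos, ← H.card_mul_index] at hg
    by_contra hcon
    push Not at hcon
    have hq2 : 2 ≤ Fintype.card F := Fintype.one_lt_card
    have h2 : Nat.gcd 2 (Fintype.card F - 1) * (Nat.card H * H.index) <
        Fintype.card F * ((Fintype.card F - 1) * (Fintype.card F + 1)) := by
      calc Nat.gcd 2 (Fintype.card F - 1) * (Nat.card H * H.index)
          = (Nat.gcd 2 (Fintype.card F - 1) * Nat.card H) * H.index := by ring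
        _ ≤ (Fintype.card F * (Fintype.card F - 1)) * H.index := Nat.mul_le_mul_right _ h1
        _ < (Fintype.card F * (Fintype.card F - 1)) * (Fintype.card F + 1) :=
            Nat.mul_lt_mul_of_pos_left hcon (Nat.mul_pos (by omega) (by omega))
        _ = _ := by ring
    omega
  · obtain ⟨p, hp, hch⟩ := exists_char_prime F
    haveI := fact_iff.2 hp
    obtain ⟨P⟩ : Nonempty (Sylow p (Matrix.ProjectiveSpecialLinearGroup (Fin 2) F)) := inferInstance
    exact ⟨_, (borel_package p P).1⟩

end Cfsg.Agent.S0806
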