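import Cfsg.Statements.S0932
import Mathlib
import Cfsg.Agent.Lib.Helper16.BlockDict
import Cfsg.Agent.Lib.Helper15.CharTools

set_option autoImplicit false
open Cfsg

namespace Cfsg.Agent.S0932

open Cfsg.Agent.Lib.Helper78 Cfsg.Agent.Lib.Helper15 Cfsg.Agent.Lib.Helper16 in
open scoped ComplexConjugate in
/-- the statement for an arbitrary function `ξ` on `H`. -/
theorem inducedCentralChar_eq {G : Type*} [Group G] [Fintype G] (H : Subgroup G) (ξ : H → ℂ)
    (g : G) : Cfsg.inducedCentralChar H ξ g = Cfsg.centralChar (Cfsg.indFun H ξ) g := by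
  classical
  have : Fintype H := Fintype.ofFinite H
  rw [inducedCentralChar_eq_omega, ← omega_classInd (indFun_isClassFunction H ξ) g]
  unfold omega
  have hfr := classInner_indFun_left H ξ (classInd g) (classInd_isClassFunction g)
  have hreal : ∀ x : G, conj (classInd g x) = classInd g x := by
    intro x
    unfold classInd
    split_ifs <;> simp
  unfold Cfsg.classInner at hfr
  simp only [hreal] at hfr
  have hG : (Nat.card G : ℂ) ≠ 0 := card_ne_zero G
  have hH : (Nat.card H : ℂ) ≠ 0 := card_ne_zero H
  have hidx : (H.index : ℂ) ≠ 0 := by exact_mod_cast H.index_ne_zero_of_finite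
  have hcard : (Nat.card G : ℂ) = (Nat.card H : ℂ) * (H.index : ℂ) := by
    rw [← H.card_mul_index]; push_cast; ring
  have h1 : ∑ x : G, classInd g x * Cfsg.indFun H ξ x =
      (H.index : ℂ) * ∑ h : H, classInd g (h : G) * ξ h := by
    have e1 : ∑ x : G, classInd g x * Cfsg.indFun H ξ x =
        ∑ x : G, Cfsg.indFun H ξ x * classInd g x :=
      Finset.sum_congr rfl fun x _ => mul_comm _ _
    have e2 : ∑ h : H, classInd g (h : G) * ξ h = ∑ h : H, ξ h * classInd g (h : G) :=
      Finset.sum_congr rfl fun x _ => mul_comm _ _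
    rw [e1, e2]
    have : ∑ x : G, Cfsg.indFun H ξ x * classInd g x =
        (Nat.card G : ℂ) * ((Nat.card H : ℂ)⁻¹ * ∑ h : H, ξ h * classInd g (h : G)) := by
      rw [← hfr, mul_inv_cancel_left₀ hG]
    rw [this, hcard]
    field_simp
  rw [h1, indFun_one]
  by_cases hξ : ξ 1 = 0
  · simp [hξ]
  · field_simp

/-- Let H be a subgroup of the finite group G and ξ a character of H. For every g ∈ G, the sum of ξ h / ξ 1 over the elements h ∈ H that are conjugate in G to g equals the central character at g of the character of G induced from ξ (class size times value divided by degree). -/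
theorem result {G : Type*} [Group G] [Fintype G] (H : Subgroup G) (ξ : H → ℂ) (hξ : Cfsg.IsCharacter H ξ) (g : G) : Cfsg.inducedCentralChar H ξ g = Cfsg.centralChar (Cfsg.indFun H ξ) g := by
  exact inducedCentralChar_eq H ξ g

end Cfsg.Agent.S0932
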