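import Cfsg.Statements.S0933
import Mathlib
import Cfsg.Agent.S0932
import Cfsg.Agent.Lib.Helper78.Osima

set_option autoImplicit false
open Cfsg

namespace Cfsg.Agent.S0933

/-- Let H be a subgroup of the finite group G and ξ an irreducible character of H such that the induced function ξ^G is an irreducible character of G. Then, relative to any maximal ideal M of the algebraic integers containing the prime p, the block of ξ induces the block of ξ^G. -/
theorem result {G : Type*} [Group G] [Fintype G] (p : ℕ) [Fact p.Prime] (M : Ideal Cfsg.AlgInt) (hM : Cfsg.IsPModular p M) (H : Subgroup G) (ξ : Cfsg.IrrCharacter H) (hind : Cfsg.IsIrrCharacter G (Cfsg.indFun H (ξ : H → ℂ))) : Cfsg.IsInducedBlock M H (Cfsg.blockOf M (ξ : H → ℂ)) (Cfsg.blockOf M (Cfsg.indFun H (ξ : H → ℂ))) := by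
  classical
  have : Fintype H := Fintype.ofFinite H
  have hMp := Cfsg.Agent.Lib.Helper78.pmod_isPrime hM
  have : M.IsMaximal := hM.2.1
  refine ⟨⟨ξ, rfl⟩, ⟨⟨Cfsg.indFun H (ξ : H → ℂ), hind⟩, rfl⟩, ?_⟩
  intro ξ' hξ' χ hχ g
  have h1 : Cfsg.MemLocalIdeal M (Cfsg.inducedCentralChar H (ξ' : H → ℂ) g -
      Cfsg.inducedCentralChar H (ξ : H → ℂ) g) := by
    rw [Cfsg.Agent.Lib.Helper16.inducedCentralChar_eq_omega,
      Cfsg.Agent.Lib.Helper16.inducedCentralChar_eq_omega]
    apply Cfsg.Agent.Lib.Helper78.memLocalIdeal_omega_sub hMp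
      (Cfsg.Agent.Lib.Helper78.sameBlock_symm hξ')
    · intro a b
      exact Cfsg.Agent.Lib.Helper78.classInd_isClassFunction g (a : G) (b : G)
    · intro a
      exact Cfsg.Agent.Lib.Helper16.classInd_mem M g a
  have h2 : Cfsg.MemLocalIdeal M (Cfsg.centralChar (Cfsg.indFun H (ξ : H → ℂ)) g -
      Cfsg.centralChar (χ : G → ℂ) g) := hχ g
  rw [← Cfsg.Agent.S0932.inducedCentralChar_eq] at h2
  have h3 := Cfsg.Agent.Lib.Helper78.MemLocalIdeal.add hMp h1 h2
  rwa [sub_add_sub_cancel] at h3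

end Cfsg.Agent.S0933
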