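import Cfsg.Statements.S4435
import Cfsg.Agent.Lib.Helper74.FongReynolds
import Cfsg.Agent.S0933

set_option autoImplicit false
open Cfsg

namespace Cfsg.Agent.S4435

open Cfsg.Agent.Lib.Helper15 Cfsg.Agent.Lib.Helper78 Cfsg.Agent.Lib.Helper35 Cfsg.Agent.Lib.Helper74

section

variable {G : Type*} [Group G] [Fintype G] {p : ℕ} [Fact p.Prime] {M : Ideal Cfsg.AlgInt}
  (hM : Cfsg.IsPModular p M) (N : Subgroup G) [hN : N.Normal] [Fintype N]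
  {b : Set (Cfsg.IrrCharacter N)} (hb : Cfsg.IsPBlock M b) {T : Subgroup G} [Fintype T]
  (hT : ∀ g : G, g ∈ T ↔ ∀ θ ∈ b, cjIrr N g θ ∈ b) (hNT : N ≤ T)

omit [Fintype N] [Fintype T] [Fact p.Prime] in
/-- the stabilizer hypothesis in terms of `cjIrr`. -/
theorem stab_iff
    (hT : ∀ g : G, g ∈ T ↔ ∀ θ ∈ b, ∀ θ' : Cfsg.IrrCharacter N, (∀ n : N, (θ' : N → ℂ) n = (θ : N → ℂ) ⟨g * n * g⁻¹, hN.conj_mem n n.2 g⟩) → θ' ∈ b) :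
    ∀ g : G, g ∈ T ↔ ∀ θ ∈ b, cjIrr N g θ ∈ b := by
  intro g
  rw [hT g]
  constructor
  · intro h θ hθ
    exact h θ hθ _ (fun n => rfl)
  · intro h θ hθ θ' hθ'
    have : θ' = cjIrr N g θ := Subtype.ext (funext hθ')
    rw [this]
    exact h θ hθ

include hM hb hT in
/-- the block of `ψ ∈ Irr(T | b)` induces the block of `ψ^G`, which consists of the induced
characters. -/
theorem mem_blockOf_indFun_iff {ψ₀ : IrrCharacter T} (h₀ : OverBlock N hNT b ψ₀)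
    (χ : IrrCharacter G) :
    χ ∈ blockOf M (indFun T (ψ₀ : T → ℂ)) ↔
      ∃ ψ ∈ blockOf M (ψ₀ : T → ℂ), (χ : G → ℂ) = indFun T (ψ : T → ℂ) := by
  have hMp := pmod_isPrime hM
  have hi₀ := irr_indFun_of_over N hMp hb hNT hT ψ₀.2 h₀
  have hind := Cfsg.Agent.S0933.result p M hM T ψ₀ hi₀
  constructor
  · intro hχ
    -- the block of `ψ₀^G` covers `b`
    obtain ⟨θ₀, hθ₀, h0⟩ := h₀
    have hcov : Covers N (blockOf M (indFun T (ψ₀ : T → ℂ))) b :=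
      ⟨⟨_, hi₀⟩, mem_blockOf_self hMp ⟨_, hi₀⟩, θ₀, hθ₀,
        indFun_over_of_over N hMp hb hNT hT ψ₀.2 hθ₀ h0⟩
    have hB : IsPBlock M (blockOf M (indFun T (ψ₀ : T → ℂ))) := ⟨⟨_, hi₀⟩, rfl⟩
    obtain ⟨φ, hφ⟩ := Cfsg.Agent.Lib.Helper80.exists_constituent_restrict χ N
    obtain ⟨g, hg⟩ := exists_cjIrr_mem_of_covers N hMp hB hb
      (Covers.memLocalIdeal N hMp hB hb hcov) hχ hφ
    have hφ' := (over_cjIrr_iff N χ g φ).mpr hφ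
    obtain ⟨ψ, hψ, hψχ⟩ := exists_of_over N hMp hb hNT hT χ.2 hg hφ'
    refine ⟨ψ, ?_, hψχ.symm⟩
    apply sameBlock_of_sameBlock_indFun N hMp hb hNT hT ⟨θ₀, hθ₀, h0⟩ hψ
    rw [hψχ]
    exact hχ
  · rintro ⟨ψ, hψ, hχψ⟩
    intro g
    have h1 := hind.2.2 ψ hψ ⟨_, hi₀⟩ (mem_blockOf_self hMp ⟨_, hi₀⟩) g
    rw [Cfsg.Agent.S0932.inducedCentralChar_eq, ← hχψ] at h1
    have h2 := MemLocalIdeal.neg h1
    rwa [neg_sub] at h2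

end

/-- Let N be a normal subgroup of the finite group G, b a block of N (relative to a maximal ideal M of the algebraic integers containing p), and T the stabilizer of b in G (the elements g such that conjugating any member of b by g gives a member of b); N ≤ T. Say that a block of T (or of G) covers b when some member has a constituent in b on restriction to N. Then: (i) every block B′ of T covering b induces a block B of G, B covers b, every ψ ∈ B′ induces to an irreducible character of G, and B consists exactly of the characters induced from members of B′; (ii) distinct blocks of T covering b induce distinct blocks of G; (iii) every block of G covering b is induced by some block of T covering b. -/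
theorem result {G : Type*} [Group G] [Fintype G] (p : ℕ) [Fact p.Prime] (M : Ideal Cfsg.AlgInt) (hM : Cfsg.IsPModular p M) (N : Subgroup G) [hN : N.Normal] [Fintype N] (b : Set (Cfsg.IrrCharacter N)) (hb : Cfsg.IsPBlock M b) (T : Subgroup G) [Fintype T] (hT : ∀ g : G, g ∈ T ↔ ∀ θ ∈ b, ∀ θ' : Cfsg.IrrCharacter N, (∀ n : N, (θ' : N → ℂ) n = (θ : N → ℂ) ⟨g * n * g⁻¹, hN.conj_mem n n.2 g⟩) → θ' ∈ b) (hNT : N ≤ T) : (∀ B' : Set (Cfsg.IrrCharacter T), Cfsg.IsPBlock M B' → (∃ ψ ∈ B', ∃ θ ∈ b, Cfsg.classInner (fun n : N => (ψ : T → ℂ) ⟨(n : G), hNT n.2⟩) (θ : N → ℂ) ≠ 0) → ∃ B : Set (Cfsg.IrrCharacter G), Cfsg.IsInducedBlock M T B' B ∧ (∃ χ ∈ B, ∃ θ ∈ b, Cfsg.classInner (fun n : N => (χ : G → ℂ) n) (θ : N → ℂ) ≠ 0) ∧ (∀ ψ ∈ B', Cfsg.IsIrrCharacter G (Cfsg.indFun T (ψ : T → ℂ))) ∧ ∀ χ : Cfsg.IrrCharacter G, χ ∈ B ↔ ∃ ψ ∈ B', (χ : G → ℂ) = Cfsg.indFun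 T (ψ : T → ℂ)) ∧ (∀ B'₁ B'₂ : Set (Cfsg.IrrCharacter T), Cfsg.IsPBlock M B'₁ → Cfsg.IsPBlock M B'₂ → (∃ ψ ∈ B'₁, ∃ θ ∈ b, Cfsg.classInner (fun n : N => (ψ : T → ℂ) ⟨(n : G), hNT n.2⟩) (θ : N → ℂ) ≠ 0) → (∃ ψ ∈ B'₂, ∃ θ ∈ b, Cfsg.classInner (fun n : N => (ψ : T → ℂ) ⟨(n : G), hNT n.2⟩) (θ : N → ℂ) ≠ 0) → ∀ B : Set (Cfsg.IrrCharacter G), Cfsg.IsInducedBlock M T B'₁ B → Cfsg.IsInducedBlock M T B'₂ B → B'₁ = B'₂) ∧ (∀ B : Set (Cfsg.IrrCharacter G), Cfsg.IsPBlock M B → (∃ χ ∈ B, ∃ θ ∈ b, Cfsg.classInner (fun n : N => (χ : G → ℂ) n) (θ : N → ℂ) ≠ 0) → ∃ B' : Set (Cfsg.IrrCharacter T), Cfsg.IsPBlock M B' ∧ (∃ ψ ∈ B', ∃ θ ∈ b, Cfsg.classInner (fun n : N => (ψ : T → ℂ) ⟨(n : G), hNT n.2⟩) (θ : N → ℂ) ≠ 0) ∧ Cfsg.IsInducedBlock M T B' B) := by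
  have hMp := pmod_isPrime hM
  have hT' : ∀ g : G, g ∈ T ↔ ∀ θ ∈ b, cjIrr N g θ ∈ b := stab_iff N hT
  refine ⟨?_, ?_, ?_⟩
  · rintro B' hB' ⟨ψ₀, hψ₀, θ₀, hθ₀, h0⟩
    have h₀ : OverBlock N hNT b ψ₀ := ⟨θ₀, hθ₀, h0⟩
    have hi₀ := irr_indFun_of_over N hMp hb hNT hT' ψ₀.2 h₀
    have hBeq : B' = blockOf M (ψ₀ : T → ℂ) := IsPBlock.eq_blockOf hMp hB' hψ₀
    refine ⟨blockOf M (indFun T (ψ₀ : T → ℂ)), ?_, ?_, ?_, ?_⟩
    · rw [hBeq]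
      exact Cfsg.Agent.S0933.result p M hM T ψ₀ hi₀
    · exact ⟨⟨_, hi₀⟩, mem_blockOf_self hMp ⟨_, hi₀⟩, θ₀, hθ₀,
        indFun_over_of_over N hMp hb hNT hT' ψ₀.2 hθ₀ h0⟩
    · intro ψ hψ
      exact irr_indFun_of_over N hMp hb hNT hT' ψ.2
        (overBlock_of_sameBlock N hMp hb hNT hT' (IsPBlock.sameBlock hMp hB' hψ₀ hψ) h₀)
    · intro χ
      rw [hBeq]
      exact mem_blockOf_indFun_iff hM N hb hT' hNT h₀ χ
  · rintro B'₁ B'₂ hB'₁ hB'₂ ⟨ψ₁, hψ₁, θ₁, hθ₁, h1⟩ ⟨ψ₂, hψ₂, θ₂, hθ₂, h2⟩ B hi₁ hi₂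
    obtain ⟨χ, hχ⟩ := IsPBlock.nonempty hMp hi₁.2.1
    have hsame : SameBlock M (indFun T (ψ₁ : T → ℂ)) (indFun T (ψ₂ : T → ℂ)) := by
      intro g
      have e1 := hi₁.2.2 ψ₁ hψ₁ χ hχ g
      have e2 := hi₂.2.2 ψ₂ hψ₂ χ hχ g
      rw [Cfsg.Agent.S0932.inducedCentralChar_eq] at e1 e2
      have e3 := MemLocalIdeal.sub hMp e1 e2
      rwa [sub_sub_sub_cancel_right] at e3
    have h3 := sameBlock_of_sameBlock_indFun N hMp hb hNT hT' ⟨θ₁, hθ₁, h1⟩ ⟨θ₂, hθ₂, h2⟩ hsame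
    exact IsPBlock.eq_of_mem_mem hMp hB'₁ hB'₂ (IsPBlock.mem_of_sameBlock hMp hB'₁ hψ₁ h3) hψ₂
  · rintro B hB ⟨χ, hχ, θ, hθ, h0⟩
    obtain ⟨ψ, hψ, hψχ⟩ := exists_of_over N hMp hb hNT hT' χ.2 hθ h0
    refine ⟨blockOf M (ψ : T → ℂ), ⟨ψ, rfl⟩, ⟨ψ, mem_blockOf_self hMp ψ, hψ⟩, ?_⟩
    have hi : IsIrrCharacter G (indFun T (ψ : T → ℂ)) := hψχ ▸ χ.2
    have h1 := Cfsg.Agent.S0933.result p M hM T ψ hi
    rw [hψχ, ← IsPBlock.eq_blockOf hMp hB hχ] at h1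
    exact h1

end Cfsg.Agent.S4435
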