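import Cfsg.Statements.S4436
import Cfsg.Agent.S4435
import Cfsg.Agent.S0917
import Cfsg.Agent.S0908

set_option autoImplicit false
open Cfsg

namespace Cfsg.Agent.S4436

open Cfsg.Agent.Lib.Helper15 Cfsg.Agent.Lib.Helper78 Cfsg.Agent.Lib.Helper35 Cfsg.Agent.Lib.Helper74

/-- infimum of a translated nonempty set of naturals -/
theorem sInf_add_image {S S' : Set ℕ} (k : ℕ) (hS' : S'.Nonempty) (h : S = (fun n => k + n) '' S') :
    sInf S = k + sInf S' := by
  have hS : S.Nonempty := by rw [h]; exact hS'.image _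
  apply le_antisymm
  · apply Nat.sInf_le
    rw [h]
    exact ⟨_, Nat.sInf_mem hS', rfl⟩
  · have h1 := Nat.sInf_mem hS
    rw [h] at h1
    obtain ⟨n, hn, hn'⟩ := h1
    rw [h, ← hn']
    exact Nat.add_le_add_left (Nat.sInf_le hn) k

/-- Let N be a normal subgroup of the finite group G, b a block of N (relative to a maximal ideal M of the algebraic integers containing p), T the stabilizer of b in G, N ≤ T, and B′ a block of T covering b (some member of B′ has a constituent in b on restriction to N) that induces the block B of G. Then every defect group of B′ is a defect group of B, and for every ψ ∈ B′ the induced character ψ^G is an irreducible character of G lying in B with the same height as ψ. -/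
theorem result {G : Type*} [Group G] [Fintype G] (p : ℕ) [Fact p.Prime] (M : Ideal Cfsg.AlgInt) (hM : Cfsg.IsPModular p M) (N : Subgroup G) [hN : N.Normal] [Fintype N] (b : Set (Cfsg.IrrCharacter N)) (hb : Cfsg.IsPBlock M b) (T : Subgroup G) [Fintype T] (hT : ∀ g : G, g ∈ T ↔ ∀ θ ∈ b, ∀ θ' : Cfsg.IrrCharacter N, (∀ n : N, (θ' : N → ℂ) n = (θ : N → ℂ) ⟨g * n * g⁻¹, hN.conj_mem n n.2 g⟩) → θ' ∈ b) (hNT : N ≤ T) (B' : Set (Cfsg.IrrCharacter T)) (hB' : Cfsg.IsPBlock M B') (hcov : (∃ ψ ∈ B', ∃ θ ∈ b, Cfsg.classInner (fun n : N => (ψ : T → ℂ) ⟨(n : G), hNT n.2⟩) (θ : N → ℂ) ≠ 0)) (B : Set (Cfsg.IrrCharacter G)) (hind : Cfsg.IsInducedBlock M T B' B) : (∀ D : Subgroup T, Cfsg.IsDefectGroup p M B' D → Cfsg.IsDefectGroup p M B (D.map T.subtype)) ∧ ∀ ψ ∈ B', ∃ χ ∈ B, (χ : G → ℂ) = Cfsg.indFun T (ψ : T → ℂ) ∧ Cfsg.blockHeight p B (χ : G → ℂ) = Cfsg.blockHeight p B' (ψ : T → ℂ) := by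
  have hMp := pmod_isPrime hM
  have hp : p.Prime := hM.1
  have hT' : ∀ g : G, g ∈ T ↔ ∀ θ ∈ b, cjIrr N g θ ∈ b := Cfsg.Agent.S4435.stab_iff N hT
  obtain ⟨ψ₀, hψ₀, θ₀, hθ₀, h0⟩ := hcov
  have h₀ : OverBlock N hNT b ψ₀ := ⟨θ₀, hθ₀, h0⟩
  have hi₀ := irr_indFun_of_over N hMp hb hNT hT' ψ₀.2 h₀
  have hB'eq : B' = blockOf M (ψ₀ : T → ℂ) := IsPBlock.eq_blockOf hMp hB' hψ₀
  have hB : IsPBlock M B := hind.2.1
  -- `B` is the block of `ψ₀^G`
  have hmem₀ : (⟨_, hi₀⟩ : IrrCharacter G) ∈ B := by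
    obtain ⟨χ, hχ⟩ := IsPBlock.nonempty hMp hB
    apply IsPBlock.mem_of_sameBlock hMp hB hχ
    intro g
    have e1 := hind.2.2 ψ₀ hψ₀ χ hχ g
    rw [Cfsg.Agent.S0932.inducedCentralChar_eq] at e1
    have e2 := MemLocalIdeal.neg e1
    rwa [neg_sub] at e2
  have hBeq : B = blockOf M (indFun T (ψ₀ : T → ℂ)) :=
    IsPBlock.eq_blockOf hMp hB (χ := ⟨_, hi₀⟩) hmem₀
  have hiff : ∀ χ : IrrCharacter G, χ ∈ B ↔ ∃ ψ ∈ B', (χ : G → ℂ) = indFun T (ψ : T → ℂ) := by
    intro χ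
    rw [hBeq, hB'eq]
    exact Cfsg.Agent.S4435.mem_blockOf_indFun_iff hM N hb hT' hNT h₀ χ
  -- degrees
  have hidx : T.index ≠ 0 := T.index_ne_zero_of_finite
  set k := T.index.factorization p with hk
  have hdeg : ∀ (χ : IrrCharacter G) (ψ : IrrCharacter T), (χ : G → ℂ) = indFun T (ψ : T → ℂ) →
      (charDegree (χ : G → ℂ)).factorization p = k + (charDegree (ψ : T → ℂ)).factorization p := by
    intro χ ψ h
    rw [h, Cfsg.Agent.Lib.Helper80.charDegree_indFun T (irr_char ψ.2),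
      Nat.factorization_mul hidx (irr_charDegree_pos ψ).ne']
    rfl
  have hinf : sInf ((fun χ : IrrCharacter G => (charDegree (χ : G → ℂ)).factorization p) '' B)
      = k + sInf ((fun ψ : IrrCharacter T => (charDegree (ψ : T → ℂ)).factorization p) '' B') := by
    apply sInf_add_image k ((IsPBlock.nonempty hMp hB').image _)
    ext n
    constructor
    · rintro ⟨χ, hχ, rfl⟩
      obtain ⟨ψ, hψ, h⟩ := (hiff χ).1 hχ
      exact ⟨_, ⟨ψ, hψ, rfl⟩, (hdeg χ ψ h).symm⟩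
    · rintro ⟨_, ⟨ψ, hψ, rfl⟩, rfl⟩
      have hi := irr_indFun_of_over N hMp hb hNT hT' ψ.2
        (overBlock_of_sameBlock N hMp hb hNT hT' (IsPBlock.sameBlock hMp hB' hψ₀ hψ) h₀)
      exact ⟨⟨_, hi⟩, (hiff _).2 ⟨ψ, hψ, rfl⟩, hdeg ⟨_, hi⟩ ψ rfl⟩
  constructor
  · intro D hD
    obtain ⟨E, hE, hDE⟩ := Cfsg.Agent.S0917.result p M hM T B' hB' B hB hind D hD
    have hcD := Cfsg.Agent.S0908.result p M hM B' hB' D hD
    have hcE := Cfsg.Agent.S0908.result p M hM B hB E hE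
    have hdef : blockDefect p B = blockDefect p B' := by
      unfold blockDefect
      rw [hinf, ← T.card_mul_index,
        Nat.factorization_mul Nat.card_pos.ne' hidx]
      simp only [Finsupp.coe_add, Pi.add_apply]
      rw [← hk]
      generalize sInf ((fun ψ : IrrCharacter T => (charDegree (ψ : T → ℂ)).factorization p) '' B') = m
      generalize (Nat.card T).factorization p = c
      omega
    have hcard : Nat.card (D.map T.subtype) = Nat.card D :=
      Subgroup.card_map_of_injective T.subtype_injective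
    have : D.map T.subtype = E := by
      apply Subgroup.eq_of_le_of_card_ge hDE
      rw [hcard, hcD, hcE, hdef]
    rw [this]
    exact hE
  · intro ψ hψ
    have hi := irr_indFun_of_over N hMp hb hNT hT' ψ.2
      (overBlock_of_sameBlock N hMp hb hNT hT' (IsPBlock.sameBlock hMp hB' hψ₀ hψ) h₀)
    refine ⟨⟨_, hi⟩, (hiff _).2 ⟨ψ, hψ, rfl⟩, rfl, ?_⟩
    unfold blockHeight
    rw [hinf, hdeg ⟨_, hi⟩ ψ rfl]
    exact Nat.add_sub_add_left _ _ _

end Cfsg.Agent.S4436
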