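import Cfsg.Statements.S0973
import Cfsg.Agent.Lib.Helper16.ExtFirstMain
-- import your own Cfsg.Agent.* helpers here

set_option autoImplicit false
open Cfsg Cfsg.Agent.Lib.Helper78 Cfsg.Agent.Lib.Helper16 Cfsg.Agent.Lib

namespace Cfsg.Agent.S0973

/-- Let B be a block of the finite group G with defect group P (relative to a maximal ideal M of the algebraic integers containing p), and let L = P ⊔ C_G(P). Then (i) some block b of L with defect group P (viewed in L) induces B, and (ii) if b and b' are blocks of L both inducing B, there is n ∈ N_G(P) carrying b to b': for every θ ∈ b there is θ' ∈ b' with θ' x = θ (n x n⁻¹) for all x ∈ L. -/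
theorem result {G : Type*} [Group G] [Finite G] (p : ℕ) [Fact p.Prime] (M : Ideal Cfsg.AlgInt) (hM : Cfsg.IsPModular p M) (B : Set (Cfsg.IrrCharacter G)) (hB : Cfsg.IsPBlock M B) (P : Subgroup G) (hP : Cfsg.IsDefectGroup p M B P) : (∃ b : Set (Cfsg.IrrCharacter ↥(P ⊔ Subgroup.centralizer (P : Set G))), Cfsg.IsDefectGroup p M b (P.subgroupOf (P ⊔ Subgroup.centralizer (P : Set G))) ∧ Cfsg.IsInducedBlock M (P ⊔ Subgroup.centralizer (P : Set G)) b B) ∧ ∀ b b' : Set (Cfsg.IrrCharacter ↥(P ⊔ Subgroup.centralizer (P : Set G))), Cfsg.IsInducedBlock M (P ⊔ Subgroup.centralizer (P : Set G)) b B → Cfsg.IsInducedBlock M (P ⊔ Subgroup.centralizer (P : Set G)) b' B → ∃ n ∈ Subgroup.normalizer (P : Set G), ∀ θ ∈ b, ∃ θ' ∈ b', ∀ x : ↥(P ⊔ Subgroup.centralizer (P : Set G)), ∀ hx : n * (x : G) * n⁻¹ ∈ P ⊔ Subgroup.centralizer (P : Set G), (θ' : ↥(P ⊔ Subgroup.centralizer (P : Set G)) → ℂ) x = (θ : ↥(P ⊔ Subgroup.centralizer (P : Set G)) → ℂ) ⟨n * (x : G) * n⁻¹, hx⟩ := by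
  classical
  cases nonempty_fintype G
  haveI : M.IsMaximal := hM.2.1
  haveI : CharP (FM M) p := charP_FM hM
  have hPp : IsPGroup p P := IsDefectGroup.isPGroup hP
  have hPH : P ≤ P ⊔ Subgroup.centralizer (P : Set G) := le_sup_left
  have hCH : Subgroup.centralizer (P : Set G) ≤ P ⊔ Subgroup.centralizer (P : Set G) := le_sup_right
  have hHN : P ⊔ Subgroup.centralizer (P : Set G) ≤ Subgroup.normalizer (P : Set G) :=
    sup_le Subgroup.le_normalizer (Subgroup.centralizer_le_normalizer _)
  have hnorm : ((P ⊔ Subgroup.centralizer (P : Set G)).subgroupOf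
      (Subgroup.normalizer (P : Set G))).Normal := by
    rw [Subgroup.normal_subgroupOf_iff_le_normalizer hHN]
    intro n hn
    have hn' : n⁻¹ ∈ Subgroup.normalizer (P : Set G) := inv_mem hn
    have key : ∀ m ∈ Subgroup.normalizer (P : Set G), ∀ x ∈ P ⊔ Subgroup.centralizer (P : Set G),
        m * x * m⁻¹ ∈ P ⊔ Subgroup.centralizer (P : Set G) := by
      intro m hm x hx
      have h1 : (P ⊔ Subgroup.centralizer (P : Set G)).map (MulAut.conj m).toMonoidHom ≤
          P ⊔ Subgroup.centralizer (P : Set G) := by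
        rw [Subgroup.map_sup]
        apply sup_le_sup
        · rintro _ ⟨y, hy, rfl⟩
          exact (Subgroup.mem_normalizer_iff.1 hm y).1 hy
        · rintro _ ⟨y, hy, rfl⟩
          exact conj_mem_centralizer_of_mem_normalizer hm hy
      exact h1 ⟨x, hx, rfl⟩
    rw [Subgroup.mem_normalizer_iff]
    intro x
    constructor
    · exact key n hn x
    · intro hx
      have := key n⁻¹ hn' _ hx
      simpa [mul_assoc] using this
  refine ⟨?_, ?_⟩
  · obtain ⟨b, hb⟩ := exists_induced_of_le_defect M p _ hM hPp hPH hCH hHN hB hP le_rfl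
    exact ⟨b, isDefectGroup_subgroupOf_of_induced M p _ hM hPH hHN hb hP, hb⟩
  · intro b b' hb hb'
    exact exists_conj_of_induced M p hM hP _ hPH hCH hHN hnorm hb hb'

end Cfsg.Agent.S0973
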