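import Mathlib
import Cfsg.Statements.S2395

set_option autoImplicit false
open Cfsg Cfsg.Lie

namespace Cfsg.Agent.S2395

section general

variable (D : ChevalleyDatum) (K : Type*) [Field K]

/-- all root elements `x̄_k(v)` lie in the commutator subgroup -/
def Good (k : ℕ) : Prop := ∀ v : K, D.scGen K k v ∈ commutator (D.SteinbergCover K)

theorem scGen_add {r : ℕ} (hr : r < D.nroots) (t₁ t₂ : K) :
    D.scGen K r t₁ * D.scGen K r t₂ = D.scGen K r (t₁ + t₂) := by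
  have h : D.stX r t₁ * D.stX r t₂ * (D.stX r (t₁ + t₂))⁻¹ ∈ D.steinbergRelsAB K :=
    Or.inl ⟨r, t₁, t₂, hr, rfl⟩
  have h1 := PresentedGroup.one_of_mem h
  rw [map_mul, map_mul, map_inv] at h1
  exact mul_inv_eq_one.1 h1

theorem mk_stWord (w : List (ℕ × K)) :
    PresentedGroup.mk (D.steinbergRelsAB K) (D.stWord w) = (w.map fun p => D.scGen K p.1 p.2).prod := by
  unfold ChevalleyDatum.stWord
  rw [map_list_prod, List.map_map]
  rfl

theorem comm_rel {r s : ℕ} (hr : r < D.nroots) (hs : s < D.nroots) (h1 : s ≠ r) (h2 : s ≠ D.neg r)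
    (t u : K) :
    ((D.commWord K r s t u).map fun p => D.scGen K p.1 p.2).prod ∈
      commutator (D.SteinbergCover K) := by
  have h : (D.stX s u)⁻¹ * (D.stX r t)⁻¹ * D.stX s u * D.stX r t *
      (D.stWord (D.commWord K r s t u))⁻¹ ∈ D.steinbergRelsAB K :=
    Or.inr ⟨r, s, t, u, hr, hs, h1, h2, rfl⟩
  have h3 := PresentedGroup.one_of_mem h
  rw [map_mul, map_inv, mk_stWord] at h3
  rw [← mul_inv_eq_one.1 h3, map_mul, map_mul, map_mul, map_inv, map_inv, commutator_def]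
  have := Subgroup.commutator_mem_commutator
    (Subgroup.mem_top ((PresentedGroup.mk (D.steinbergRelsAB K) (D.stX s u))⁻¹))
    (Subgroup.mem_top ((PresentedGroup.mk (D.steinbergRelsAB K) (D.stX r t))⁻¹))
  rw [commutatorElement_def, inv_inv, inv_inv] at this
  exact this

/-- condition for a single-term commutator relation -/
abbrev CondA (k : ℕ) (w : ℕ × ℕ × ℤ) : Prop :=
  w.1 < D.nroots ∧ w.2.1 < D.nroots ∧ w.2.1 ≠ w.1 ∧ w.2.1 ≠ D.neg w.1 ∧ (w.2.2 = 1 ∨ w.2.2 = -1) ∧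
    D.commTerms w.1 w.2.1 = [(k, w.2.2, 1, 1)]

theorem good_of_condA {k : ℕ} {w : ℕ × ℕ × ℤ} (h : CondA D k w) : Good D K k := by
  obtain ⟨r, s, c⟩ := w
  obtain ⟨hr, hs, h1, h2, hc, hT⟩ := h
  intro v
  have h3 := comm_rel D K hr hs h1 h2 (-(c : K) * v) 1
  simp only at hT hc
  unfold ChevalleyDatum.commWord at h3
  rw [hT] at h3
  have hcc : (c : K) * (c : K) = 1 := by
    rcases hc with rfl | rfl <;> simp
  have : (c : K) * (-(-(c : K) * v)) ^ 1 * 1 ^ 1 = v := by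
    calc (c : K) * (-(-(c : K) * v)) ^ 1 * 1 ^ 1 = ((c : K) * (c : K)) * v := by ring
      _ = v := by rw [hcc, one_mul]
  simp only [List.map_cons, List.map_nil, List.prod_cons, List.prod_nil, mul_one] at h3
  rw [this] at h3
  exact h3

/-- condition for the two-leading-term commutator relation -/
abbrev CondB (good : List ℕ) (k₁ k₂ : ℕ) (w : ℕ × ℕ × ℤ × ℤ) (rest : List (ℕ × ℤ × ℕ × ℕ)) : Prop :=
  w.1 < D.nroots ∧ w.2.1 < D.nroots ∧ w.2.1 ≠ w.1 ∧ w.2.1 ≠ D.neg w.1 ∧ k₁ < D.nroots ∧ k₂ < D.nroots ∧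
    (w.2.2.1 = 1 ∨ w.2.2.1 = -1) ∧ (w.2.2.2 = 1 ∨ w.2.2.2 = -1) ∧
    D.commTerms w.1 w.2.1 = (k₁, w.2.2.1, 1, 1) :: (k₂, w.2.2.2, 2, 1) :: rest ∧
    ∀ x ∈ rest, x.1 ∈ good

theorem prod_mem_of_good (l : List (ℕ × K)) (h : ∀ x ∈ l, Good D K x.1) :
    (l.map fun p => D.scGen K p.1 p.2).prod ∈ commutator (D.SteinbergCover K) := by
  apply Subgroup.list_prod_mem
  intro y hy
  obtain ⟨x, hx, rfl⟩ := List.mem_map.1 hy
  exact h x hx x.2

theorem good_of_condB {good : List ℕ} (hgood : ∀ k ∈ good, Good D K k) {k₁ k₂ : ℕ}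
    {w : ℕ × ℕ × ℤ × ℤ} {rest : List (ℕ × ℤ × ℕ × ℕ)} (h : CondB D good k₁ k₂ w rest)
    (hK : ∃ x : K, x ≠ 0 ∧ x ≠ 1) : Good D K k₁ ∧ Good D K k₂ := by
  obtain ⟨r, s, c₁, c₂⟩ := w
  obtain ⟨hr, hs, h1, h2, hk1, hk2, hc1, hc2, hT, hrest⟩ := h
  simp only at hT hc1 hc2 hr hs h1 h2
  obtain ⟨l, hl0, hl1⟩ := hK
  have hcc1 : (c₁ : K) * (c₁ : K) = 1 := by
    rcases hc1 with rfl | rfl <;> simp
  have hcc2 : (c₂ : K) * (c₂ : K) = 1 := by
    rcases hc2 with rfl | rfl <;> simp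
  -- the two-term product lies in the commutator subgroup
  have hE : ∀ t u : K, D.scGen K k₁ ((c₁ : K) * (-t) * u) * D.scGen K k₂ ((c₂ : K) * t ^ 2 * u) ∈
      commutator (D.SteinbergCover K) := by
    intro t u
    have h3 := comm_rel D K hr hs h1 h2 t u
    unfold ChevalleyDatum.commWord at h3
    rw [hT] at h3
    simp only [List.map_cons, List.prod_cons] at h3
    rw [← mul_assoc] at h3
    have h4 : ((List.map (fun p : ℕ × K => D.scGen K p.1 p.2)
        (List.map (fun c : ℕ × ℤ × ℕ × ℕ => (c.1, (c.2.1 : K) * (-t) ^ c.2.2.1 * u ^ c.2.2.2)) rest))).prod ∈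
        commutator (D.SteinbergCover K) := by
      apply prod_mem_of_good
      intro x hx
      obtain ⟨y, hy, rfl⟩ := List.mem_map.1 hx
      exact hgood _ (hrest y hy)
    have h5 := (Subgroup.mul_mem_cancel_right _ h4).1 h3
    have e1 : (c₁ : K) * (-t) ^ 1 * u ^ 1 = (c₁ : K) * (-t) * u := by ring
    have e2 : (c₂ : K) * (-t) ^ 2 * u ^ 1 = (c₂ : K) * t ^ 2 * u := by ring
    rw [e1, e2] at h5
    exact h5
  have hg2 : Good D K k₂ := by
    intro v
    have hl1' : l - 1 ≠ 0 := sub_ne_zero.2 hl1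
    set u : K := (c₂ : K) * v / (l - 1) with hu
    have a1 := hE 1 u
    have a2 := hE l (u / l)
    have e1 : (c₁ : K) * (-l) * (u / l) = (c₁ : K) * (-1) * u := by field_simp
    rw [e1] at a2
    have a3 := Subgroup.mul_mem _ (Subgroup.inv_mem _ a1) a2
    have e2 : (D.scGen K k₁ ((c₁ : K) * (-1) * u) * D.scGen K k₂ ((c₂ : K) * 1 ^ 2 * u))⁻¹ *
        (D.scGen K k₁ ((c₁ : K) * (-1) * u) * D.scGen K k₂ ((c₂ : K) * l ^ 2 * (u / l))) =
        (D.scGen K k₂ ((c₂ : K) * 1 ^ 2 * u))⁻¹ * D.scGen K k₂ ((c₂ : K) * l ^ 2 * (u / l)) := by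
      group
    rw [e2] at a3
    have e3 : D.scGen K k₂ ((c₂ : K) * l ^ 2 * (u / l)) =
        D.scGen K k₂ ((c₂ : K) * 1 ^ 2 * u) * D.scGen K k₂ v := by
      rw [scGen_add D K hk2]
      congr 1
      have hcu : (c₂ : K) * u = v / (l - 1) := by
        rw [hu, ← mul_div_assoc, ← mul_assoc, hcc2, one_mul]
      calc (c₂ : K) * l ^ 2 * (u / l) = l * ((c₂ : K) * u) := by field_simp
        _ = (c₂ : K) * u + v := by
          rw [hcu]
          field_simp
          ring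
        _ = (c₂ : K) * 1 ^ 2 * u + v := by ring
    rw [e3, inv_mul_cancel_left] at a3
    exact a3
  refine ⟨?_, hg2⟩
  intro v
  have a1 := hE (-(c₁ : K) * v) 1
  have a2 := (Subgroup.mul_mem_cancel_right _ (hg2 _)).1 a1
  have : (c₁ : K) * (-(-(c₁ : K) * v)) * 1 = v := by
    calc (c₁ : K) * (-(-(c₁ : K) * v)) * 1 = ((c₁ : K) * (c₁ : K)) * v := by ring
      _ = v := by rw [hcc1, one_mul]
  rw [this] at a2
  exact a2

theorem top_of_good (h : ∀ k < D.nroots, Good D K k) : commutator (D.SteinbergCover K) = ⊤ := by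
  rw [eq_top_iff]
  intro x _
  apply PresentedGroup.generated_by
  rintro ⟨⟨r, hr⟩, t⟩
  have := h r hr t
  unfold ChevalleyDatum.scGen ChevalleyDatum.stX at this
  rw [dif_pos hr] at this
  exact this

end general

/-- witnesses for type D4 -/
def witD4 : Array (ℕ × ℕ × ℤ) := #[
  (1, 9, 1), (0, 14, 1), (0, 15, -1), (0, 16, -1), (0, 17, 1), (1, 17, 1), (0, 19, -1), (0, 20, 1),
  (0, 21, 1), (0, 22, -1), (1, 20, -1), (1, 21, -1), (2, 22, -1), (3, 22, -1), (1, 23, -1),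
  (2, 23, 1), (3, 23, 1), (4, 23, -1), (6, 22, 1), (6, 23, 1), (7, 23, -1), (8, 23, -1),
  (9, 23, 1), (14, 22, 1)]

theorem allA_D4 : ∀ k ∈ List.range 24, CondA chevD4 k (witD4.getD k (0, 0, 0)) := by
  decide +kernel

/-- witnesses for type F4 -/
def witF4 : Array (ℕ × ℕ × ℤ) := #[
  (1, 23, 1), (0, 24, 1), (0, 26, 1), (7, 14, 1), (0, 31, -1), (0, 32, 1), (1, 32, 1), (3, 33, 1),
  (3, 34, 1), (3, 35, -1), (3, 36, 1), (3, 37, -1), (3, 38, 1), (3, 39, -1), (3, 40, -1),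
  (0, 42, -1), (0, 43, 1), (1, 43, 1), (7, 37, -1), (7, 38, 1), (7, 39, -1), (0, 45, -1),
  (1, 45, -1), (0, 46, -1), (1, 47, -1), (2, 46, -1), (2, 47, -1), (8, 40, -1), (9, 40, 1),
  (10, 40, -1), (4, 46, 1), (4, 47, 1), (5, 47, -1), (7, 44, -1), (8, 44, -1), (9, 44, 1),
  (10, 44, -1), (11, 44, 1), (12, 44, -1), (13, 44, 1), (14, 44, 1), (15, 46, 1), (15, 47, 1),
  (16, 47, -1), (33, 40, 1), (21, 47, 1), (23, 47, 1), (24, 46, 1)]

theorem allA_F4 : ∀ k ∈ List.range 48, CondA chevF4 k (witF4.getD k (0, 0, 0)) := by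
  decide +kernel

/-- witnesses for type E6 -/
def witE6 : Array (ℕ × ℕ × ℤ) := #[
  (1, 25, 1), (0, 46, 1), (0, 47, -1), (0, 48, 1), (0, 49, -1), (0, 50, 1), (0, 51, -1),
  (0, 52, 1), (0, 53, 1), (0, 54, -1), (0, 55, 1), (1, 53, 1), (1, 54, -1), (1, 55, 1), (2, 55, 1),
  (5, 55, 1), (0, 61, -1), (0, 62, 1), (0, 63, -1), (0, 64, -1), (0, 65, 1), (0, 66, -1),
  (0, 67, 1), (0, 68, -1), (0, 69, 1), (0, 70, -1), (1, 64, -1), (1, 65, 1), (1, 66, -1),
  (2, 66, -1), (1, 67, -1), (1, 68, 1), (1, 69, -1), (2, 67, 1), (2, 68, -1), (3, 67, -1),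
  (4, 68, -1), (3, 69, -1), (4, 69, 1), (2, 70, -1), (3, 70, 1), (4, 70, -1), (5, 69, -1),
  (5, 70, -1), (6, 70, 1), (7, 70, -1), (1, 71, -1), (2, 71, 1), (3, 71, -1), (4, 71, 1),
  (5, 71, -1), (6, 71, 1), (7, 71, -1), (8, 71, -1), (9, 71, 1), (10, 71, -1), (16, 66, 1),
  (16, 69, 1), (16, 70, 1), (17, 70, -1), (18, 70, 1), (16, 71, 1), (17, 71, -1), (18, 71, 1),
  (19, 71, 1), (20, 71, -1), (21, 71, 1), (22, 71, -1), (23, 71, 1), (24, 71, -1), (25, 71, 1),
  (46, 70, 1)]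

theorem allA_E6 : ∀ k ∈ List.range 72, CondA chevE6 k (witE6.getD k (0, 0, 0)) := by
  decide +kernel

/-- witnesses for type E7 -/
def witE7 : Array (ℕ × ℕ × ℤ) := #[
  (1, 32, 1), (0, 93, 1), (0, 94, -1), (0, 95, 1), (0, 96, -1), (0, 97, 1), (0, 98, -1),
  (0, 99, -1), (0, 100, 1), (0, 101, -1), (0, 102, 1), (0, 103, -1), (0, 104, 1), (0, 105, -1),
  (0, 106, -1), (0, 107, 1), (0, 108, -1), (0, 109, 1), (0, 110, -1), (0, 111, 1), (0, 112, 1),
  (0, 113, -1), (0, 114, 1), (0, 115, -1), (0, 116, 1), (0, 117, -1), (0, 118, 1), (0, 119, 1),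
  (0, 120, -1), (0, 121, 1), (0, 122, -1), (0, 123, 1), (0, 124, -1), (1, 109, -1), (1, 110, 1),
  (1, 111, -1), (1, 112, -1), (1, 113, 1), (1, 114, -1), (1, 115, 1), (1, 116, -1), (1, 117, 1),
  (1, 118, -1), (2, 115, 1), (2, 116, -1), (2, 117, 1), (2, 118, -1), (3, 118, -1), (1, 119, -1),
  (1, 120, 1), (1, 121, -1), (1, 122, 1), (1, 123, -1), (2, 119, 1), (2, 120, -1), (2, 121, 1),
  (2, 122, -1), (3, 119, -1), (3, 120, 1), (3, 121, -1), (4, 119, 1), (4, 120, -1), (5, 119, -1),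
  (6, 120, -1), (5, 121, -1), (6, 121, 1), (4, 122, -1), (5, 122, 1), (6, 122, -1), (3, 123, -1),
  (4, 123, 1), (5, 123, -1), (6, 123, 1), (2, 124, -1), (3, 124, 1), (4, 124, -1), (5, 124, 1),
  (6, 124, -1), (7, 122, -1), (7, 123, -1), (8, 123, 1), (9, 123, -1), (10, 123, 1), (7, 124, -1),
  (8, 124, 1), (9, 124, -1), (10, 124, 1), (11, 124, -1), (12, 124, 1), (13, 124, -1),
  (14, 124, -1), (15, 124, 1), (16, 124, -1), (1, 125, -1), (2, 125, 1), (3, 125, -1), (4, 125, 1),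
  (5, 125, -1), (6, 125, 1), (7, 125, 1), (8, 125, -1), (9, 125, 1), (10, 125, -1), (11, 125, 1),
  (12, 125, -1), (13, 125, 1), (14, 125, 1), (15, 125, -1), (16, 125, 1), (17, 125, -1),
  (18, 125, 1), (19, 125, -1), (20, 125, -1), (21, 125, 1), (22, 125, -1), (23, 125, 1),
  (24, 125, -1), (25, 125, 1), (26, 125, -1), (27, 125, -1), (28, 125, 1), (29, 125, -1),
  (30, 125, 1), (31, 125, -1), (32, 125, 1), (93, 124, 1)]

theorem allA_E7 : ∀ k ∈ List.range 126, CondA chevE7 k (witE7.getD k (0, 0, 0)) := by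
  decide +kernel

/-- witnesses for type E8 -/
def witE8 : Array (ℕ × ℕ × ℤ) := #[
  (1, 119, 1), (0, 120, 1), (0, 122, 1), (0, 125, 1), (0, 129, 1), (0, 134, 1), (0, 140, 1),
  (0, 146, 1), (0, 151, -1), (0, 155, 1), (0, 158, -1), (0, 160, 1), (0, 161, -1), (1, 161, -1),
  (0, 168, 1), (0, 173, -1), (0, 177, 1), (0, 180, -1), (0, 182, 1), (0, 183, -1), (1, 183, -1),
  (0, 187, -1), (0, 190, 1), (0, 192, -1), (0, 193, 1), (1, 193, 1), (0, 196, -1), (0, 198, 1),
  (0, 199, -1), (1, 199, -1), (0, 201, -1), (0, 202, 1), (1, 202, 1), (0, 203, -1), (1, 203, -1),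
  (2, 203, -1), (0, 206, 1), (0, 208, -1), (0, 209, 1), (1, 209, 1), (0, 211, 1), (0, 212, -1),
  (1, 212, -1), (0, 213, 1), (1, 213, 1), (2, 213, 1), (0, 215, -1), (0, 216, 1), (1, 216, 1),
  (0, 217, -1), (1, 217, -1), (2, 217, -1), (0, 218, 1), (1, 218, 1), (2, 218, 1), (3, 218, 1),
  (0, 220, 1), (0, 221, -1), (1, 221, -1), (0, 222, 1), (1, 222, 1), (2, 222, 1), (0, 223, -1),
  (1, 223, -1), (2, 223, -1), (3, 223, -1), (0, 224, 1), (1, 224, 1), (2, 224, 1), (3, 224, 1),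
  (4, 224, 1), (0, 225, -1), (1, 225, -1), (2, 225, -1), (3, 225, -1), (4, 225, -1), (5, 225, -1),
  (6, 225, -1), (0, 227, 1), (0, 228, -1), (1, 228, -1), (0, 229, 1), (1, 229, 1), (2, 229, 1),
  (0, 230, -1), (1, 230, -1), (2, 230, -1), (3, 230, -1), (0, 231, 1), (1, 231, 1), (2, 231, 1),
  (3, 231, 1), (4, 231, 1), (0, 232, -1), (1, 232, -1), (2, 232, -1), (3, 232, -1), (4, 232, -1),
  (5, 232, -1), (0, 233, -1), (1, 233, -1), (2, 233, -1), (3, 233, -1), (4, 233, -1), (5, 233, -1),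
  (0, 234, -1), (1, 234, -1), (2, 234, -1), (3, 234, -1), (4, 234, -1), (0, 235, -1), (1, 235, -1),
  (2, 235, -1), (3, 235, -1), (0, 236, -1), (1, 236, -1), (2, 236, -1), (0, 237, -1), (1, 237, -1),
  (0, 238, -1), (1, 239, -1), (2, 238, -1), (2, 239, -1), (3, 237, -1), (3, 238, -1), (3, 239, -1),
  (4, 236, -1), (4, 237, -1), (4, 238, -1), (4, 239, -1), (5, 235, -1), (5, 236, -1), (5, 237, -1),
  (5, 238, -1), (5, 239, -1), (6, 234, -1), (6, 235, -1), (6, 236, -1), (6, 237, -1), (6, 238, -1),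
  (6, 239, -1), (7, 234, -1), (7, 235, -1), (7, 236, -1), (7, 237, -1), (7, 238, -1), (7, 239, -1),
  (8, 235, 1), (8, 236, 1), (8, 237, 1), (8, 238, 1), (8, 239, 1), (9, 236, -1), (9, 237, -1),
  (9, 238, -1), (9, 239, -1), (10, 237, 1), (10, 238, 1), (10, 239, 1), (11, 238, -1),
  (11, 239, -1), (12, 239, 1), (14, 233, -1), (14, 234, -1), (14, 235, -1), (14, 236, -1),
  (14, 237, -1), (14, 238, -1), (14, 239, -1), (15, 235, 1), (15, 236, 1), (15, 237, 1),
  (15, 238, 1), (15, 239, 1), (16, 236, -1), (16, 237, -1), (16, 238, -1), (16, 239, -1),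
  (17, 237, 1), (17, 238, 1), (17, 239, 1), (18, 238, -1), (18, 239, -1), (19, 239, 1),
  (21, 236, 1), (21, 237, 1), (21, 238, 1), (21, 239, 1), (22, 237, -1), (22, 238, -1),
  (22, 239, -1), (23, 238, 1), (23, 239, 1), (24, 239, -1), (26, 237, 1), (26, 238, 1),
  (26, 239, 1), (27, 238, -1), (27, 239, -1), (28, 239, 1), (30, 238, 1), (30, 239, 1),
  (31, 239, -1), (33, 239, 1), (36, 237, -1), (36, 238, -1), (36, 239, -1), (37, 238, 1),
  (37, 239, 1), (38, 239, -1), (40, 238, -1), (40, 239, -1), (41, 239, 1), (43, 239, -1),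
  (46, 238, 1), (46, 239, 1), (47, 239, -1), (49, 239, 1), (52, 239, -1), (56, 238, -1),
  (56, 239, -1), (57, 239, 1), (59, 239, -1), (62, 239, 1), (66, 239, -1), (71, 239, 1),
  (78, 238, -1), (78, 239, -1), (79, 239, 1), (81, 239, -1), (84, 239, 1), (88, 239, -1),
  (93, 239, 1), (99, 239, 1), (105, 239, 1), (110, 239, 1), (114, 239, 1), (117, 239, 1),
  (119, 239, 1), (120, 238, 1)]

theorem allA_E8 : ∀ k ∈ List.range 240, CondA chevE8 k (witE8.getD k (0, 0, 0)) := by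
  decide +kernel

theorem good_of_allA (D : ChevalleyDatum) (K : Type*) [Field K] (W : Array (ℕ × ℕ × ℤ))
    (h : ∀ k ∈ List.range D.nroots, CondA D k (W.getD k (0, 0, 0))) :
    commutator (D.SteinbergCover K) = ⊤ :=
  top_of_good D K fun k hk => good_of_condA D K (h k (List.mem_range.2 hk))

theorem top_B2 (K : Type*) [Field K] (hK : ∃ x : K, x ≠ 0 ∧ x ≠ 1) :
    commutator (chevB2.SteinbergCover K) = ⊤ := by
  have hnil : ∀ k ∈ ([] : List ℕ), Good chevB2 K k := by simp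
  have b1 : CondB chevB2 [] 2 0 (1, 4, 1, 1) [] := by decide +kernel
  have b2 : CondB chevB2 [] 5 3 (1, 7, -1, 1) [] := by decide +kernel
  have b3 : CondB chevB2 [] 6 4 (2, 7, 1, -1) [] := by decide +kernel
  have b4 : CondB chevB2 [] 1 3 (5, 0, -1, -1) [] := by decide +kernel
  have b5 : CondB chevB2 [] 6 7 (5, 4, -1, -1) [] := by decide +kernel
  have g1 := good_of_condB chevB2 K hnil b1 hK
  have g2 := good_of_condB chevB2 K hnil b2 hK
  have g3 := good_of_condB chevB2 K hnil b3 hK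
  have g4 := good_of_condB chevB2 K hnil b4 hK
  have g5 := good_of_condB chevB2 K hnil b5 hK
  apply top_of_good
  intro k hk
  have hk' : k < 8 := hk
  interval_cases k
  · exact g1.2
  · exact g4.1
  · exact g1.1
  · exact g2.2
  · exact g3.2
  · exact g2.1
  · exact g3.1
  · exact g5.2

theorem top_G2 (K : Type*) [Field K] (hK : ∃ x : K, x ≠ 0 ∧ x ≠ 1) :
    commutator (chevG2.SteinbergCover K) = ⊤ := by
  have a0 : CondA chevG2 0 (1, 5, 1) := by decide +kernel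
  have a1 : CondA chevG2 1 (0, 6, 1) := by decide +kernel
  have a5 : CondA chevG2 5 (0, 10, -1) := by decide +kernel
  have a6 : CondA chevG2 6 (1, 11, -1) := by decide +kernel
  have a10 : CondA chevG2 10 (5, 11, 1) := by decide +kernel
  have a11 : CondA chevG2 11 (6, 10, 1) := by decide +kernel
  have hlong : ∀ k ∈ [0, 1, 5, 6, 10, 11], Good chevG2 K k := by
    intro k hk
    simp only [List.mem_cons, List.not_mem_nil, or_false] at hk
    rcases hk with rfl | rfl | rfl | rfl | rfl | rfl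
    · exact good_of_condA _ K a0
    · exact good_of_condA _ K a1
    · exact good_of_condA _ K a5
    · exact good_of_condA _ K a6
    · exact good_of_condA _ K a10
    · exact good_of_condA _ K a11
  have b1 : CondB chevG2 [0, 1, 5, 6, 10, 11] 8 9 (7, 6, -1, 1) ((chevG2.commTerms 7 6).drop 2) := by
    decide +kernel
  have b2 : CondB chevG2 [0, 1, 5, 6, 10, 11] 2 3 (7, 1, -1, -1) ((chevG2.commTerms 7 1).drop 2) := by
    decide +kernel
  have b3 : CondB chevG2 [0, 1, 5, 6, 10, 11] 2 4 (8, 0, -1, 1) ((chevG2.commTerms 8 0).drop 2) := by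
    decide +kernel
  have b4 : CondB chevG2 [0, 1, 5, 6, 10, 11] 7 9 (8, 5, -1, -1) ((chevG2.commTerms 8 5).drop 2) := by
    decide +kernel
  have g1 := good_of_condB chevG2 K hlong b1 hK
  have g2 := good_of_condB chevG2 K hlong b2 hK
  have g3 := good_of_condB chevG2 K hlong b3 hK
  have g4 := good_of_condB chevG2 K hlong b4 hK
  apply top_of_good
  intro k hk
  have hk' : k < 12 := hk
  interval_cases k
  · exact good_of_condA _ K a0
  · exact good_of_condA _ K a1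
  · exact g2.1
  · exact g2.2
  · exact g3.2
  · exact good_of_condA _ K a5
  · exact good_of_condA _ K a6
  · exact g4.1
  · exact g1.1
  · exact g1.2
  · exact good_of_condA _ K a10
  · exact good_of_condA _ K a11

/-- The group presented by Steinberg's generators x̄_r(t) subject only to (R1) (additivity) and (R2) (the commutator formula) is perfect, for each of the types G₂, B₂, D₄, F₄, E₆, E₇, E₈ over any field (for types B₂ and G₂ the field must have more than two elements — the cases where the Chevalley group is not simple are set aside). -/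
theorem result {K : Type*} [Field K] (D : Cfsg.Lie.ChevalleyDatum) (hD : D ∈ [Cfsg.Lie.chevG2, Cfsg.Lie.chevB2, Cfsg.Lie.chevD4, Cfsg.Lie.chevF4, Cfsg.Lie.chevE6, Cfsg.Lie.chevE7, Cfsg.Lie.chevE8]) (hK : D ∈ [Cfsg.Lie.chevB2, Cfsg.Lie.chevG2] → ∃ x : K, x ≠ 0 ∧ x ≠ 1) :
    commutator (D.SteinbergCover K) = ⊤ := by
  simp only [List.mem_cons, List.not_mem_nil, or_false] at hD hK
  rcases hD with rfl | rfl | rfl | rfl | rfl | rfl | rfl
  · exact top_G2 K (hK (Or.inr rfl))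
  · exact top_B2 K (hK (Or.inl rfl))
  · exact good_of_allA _ K witD4 allA_D4
  · exact good_of_allA _ K witF4 allA_F4
  · exact good_of_allA _ K witE6 allA_E6
  · exact good_of_allA _ K witE7 allA_E7
  · exact good_of_allA _ K witE8 allA_E8

end Cfsg.Agent.S2395
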