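import Cfsg.Statements.S1077
import Cfsg.Agent.Lib.Helper17.StPres

set_option autoImplicit false
open Cfsg

namespace Cfsg.Agent.S1077

/-- Steinberg's Theorem: there is a homomorphism `x̄_r(t) ↦ x_r(t)` from the presented group onto the Chevalley group whose kernel is precisely the centre; hence `L(K) ≅ Ḡ/Z(Ḡ)`. -/
theorem result {K : Type*} [Field K] (D : Cfsg.Lie.ChevalleyDatum) (hD : D ∈ [Cfsg.Lie.chevG2, Cfsg.Lie.chevB2, Cfsg.Lie.chevD4, Cfsg.Lie.chevF4, Cfsg.Lie.chevE6, Cfsg.Lie.chevE7, Cfsg.Lie.chevE8]) :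
    ∃ θ : D.SteinbergGroup K →* ↥(D.group K), Function.Surjective θ ∧ θ.ker = Subgroup.center (D.SteinbergGroup K) ∧
      ∀ (r : ℕ) (t : K), r < D.nroots → ((θ (D.stGen K r t) : GL D.Idx K) : Matrix D.Idx D.Idx K) = D.x K r t := by
  obtain ⟨T, W, A⟩ := Cfsg.Agent.Lib.Helper17.exists_allH K hD
  have hrel := Cfsg.Agent.Lib.Helper17.lift_rels hD A.hB
  obtain ⟨h1, h2, h3⟩ := Cfsg.Agent.Lib.Helper17.generic_main A.hB (D.steinbergRels K)
    (Set.subset_union_left) hrel A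
  refine ⟨Cfsg.Agent.Lib.Helper17.thetaOf A.hB (D.steinbergRels K) hrel, h1, le_antisymm h2 ?_, h3⟩
  intro z hz
  rw [MonoidHom.mem_ker]
  have hc : Cfsg.Agent.Lib.Helper17.thetaOf A.hB (D.steinbergRels K) hrel z ∈
      Subgroup.center ↥(D.group K) := by
    rw [Subgroup.mem_center_iff]
    intro g
    obtain ⟨x, rfl⟩ := h1 g
    rw [← map_mul, ← map_mul, Subgroup.mem_center_iff.mp hz x]
  rw [Cfsg.Agent.Lib.Helper17.center_group hD] at hc
  exact hc

end Cfsg.Agent.S1077
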