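import Cfsg.Statements.S0321
import Cfsg.Agent.Lib.Helper6.BN2

set_option autoImplicit false
open Cfsg

namespace Cfsg.Agent.S0321

/-- For `n ∈ N` not in `B`, the union `B ∪ B n B` is (the underlying set of) a subgroup exactly when `n` agrees
modulo `B ⊓ N` with one of the distinguished representatives; thus the distinguished involutions are
determined by `B` and `N`. -/
theorem result {G : Type*} [Group G] (P : Cfsg.BNPair G) {n : G}
    (hn : n ∈ P.N) (hnB : n ∉ P.B) :
    (∃ H : Subgroup G, (H : Set G) = (P.B : Set G) ∪ DoubleCoset.doubleCoset n (P.B : Set G) P.B) ↔ ∃ s ∈ P.S, s⁻¹ * n ∈ P.B := by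
  constructor
  · rintro ⟨H, hH⟩
    have hBH : P.B ≤ H := by
      intro b hb
      have : b ∈ (H : Set G) := by rw [hH]; exact Or.inl hb
      exact this
    have hnH : n ∈ H := by
      have : n ∈ (H : Set G) := by rw [hH]; exact Or.inr (DoubleCoset.mem_doubleCoset_self _ _ _)
      exact this
    have hpar := Cfsg.Agent.Lib.Helper6.BN.eq_parabolic_of_le hBH
    have hne : ({s | s ∈ P.S ∧ s ∈ H} : Set G).Nonempty := by
      by_contra hemp
      rw [Set.not_nonempty_iff_eq_empty] at hemp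
      rw [hemp, Cfsg.Agent.Lib.Helper6.BN.parabolic_empty] at hpar
      exact hnB (hpar ▸ hnH)
    obtain ⟨s, hs, hsH⟩ := hne
    refine ⟨s, hs, ?_⟩
    have h1 : s ∈ (H : Set G) := hsH
    rw [hH] at h1
    rcases h1 with h1 | h1
    · exact absurd h1 (Cfsg.Agent.Lib.Helper6.BN.S_not_mem_B hs)
    · exact (Cfsg.Agent.Lib.Helper6.BN.bruhat_unique hn (P.subset hs) h1).symm
  · rintro ⟨s, hs, hsn⟩
    refine ⟨P.parabolic {s}, ?_⟩
    ext g
    have h1 : DoubleCoset.doubleCoset n (P.B : Set G) P.B = DoubleCoset.doubleCoset s (P.B : Set G) P.B :=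
      (Cfsg.Agent.Lib.Helper6.BN.Rel.dc_eq hsn).symm
    rw [h1]
    exact Cfsg.Agent.Lib.Helper6.BN.mem_parabolic_singleton hs g

end Cfsg.Agent.S0321
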