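import Cfsg.Statements.S1048
import Cfsg.Agent.Lib.Helper17.ChevLevi

set_option autoImplicit false
open Cfsg

namespace Cfsg.Agent.S1048

/-- `U_J ⊴ P_J`, `P_J = U_J L_J` and `U_J ∩ L_J = 1` (Levi decomposition of the standard parabolic subgroup). -/
theorem result {F : Type*} [Field F] (D : Cfsg.Lie.ChevalleyDatum) (hD : D ∈ [Cfsg.Lie.chevG2, Cfsg.Lie.chevB2, Cfsg.Lie.chevD4, Cfsg.Lie.chevF4, Cfsg.Lie.chevE6, Cfsg.Lie.chevE7, Cfsg.Lie.chevE8]) (J : Set ℕ) :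
    D.parabolicSubgroup F J ≤ Subgroup.normalizer (D.unipotentRadical F J : Set (GL D.Idx F)) ∧
      D.unipotentRadical F J ⊔ D.leviSubgroup F J = D.parabolicSubgroup F J ∧
      D.unipotentRadical F J ⊓ D.leviSubgroup F J = ⊥ := by
  obtain ⟨T, W, h⟩ := Cfsg.Agent.Lib.Helper36.exists_checks D hD
  have hB := Cfsg.Agent.Lib.Helper18.base_of_mem F hD
  have hT := Cfsg.Agent.Lib.Helper18.tab_of_mem hD
  have hl := Cfsg.Agent.Lib.Helper17.lvOK_of_mem hD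
  have hP := Cfsg.Agent.Lib.Helper17.parabolic_eq_parGen hB (Cfsg.Agent.Lib.Helper17.descOK_of_mem hD) hT J
  refine ⟨?_, ?_, ?_⟩
  · rw [hP]
    exact Cfsg.Agent.Lib.Helper17.parGen_le_normalizer_urad h hB hl hT J
  · rw [hP]
    exact Cfsg.Agent.Lib.Helper17.urad_sup_levi J
  · exact Cfsg.Agent.Lib.Helper17.urad_inf_levi h hB hl (Cfsg.Agent.Lib.Helper17.triOK_of_mem hD) J

end Cfsg.Agent.S1048
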