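import Cfsg.Statements.S1125
import Cfsg.Agent.Lib.Helper19.RankOneFix

set_option autoImplicit false
open Cfsg

namespace Cfsg.Agent.S1125

/-- In the rank-one set-up (`G` finite and doubly transitive on `Ω`, `t` an involution moving `a`, `Q` normal in `G_a` with `G_a = Q D`, `Q ⊓ D = 1` for the two-point stabiliser `D = G_a ⊓ G_{t • a}`, `|Q|` even, `|D|` odd), let `X ⊆ D` fix at least three points of `Ω`. Then `C_G(X)` is doubly transitive on the fixed-point set of `X`, `|C_Q(X)|` is even, and `C_{G_a}(X) = C_Q(X) C_D(X)`. -/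
theorem result {G Ω : Type*} [Group G] [Finite G] [MulAction G Ω] {a : Ω} {t : G} {Q : Subgroup G}
    (hS : Cfsg.IsRankOneSetup G Ω a t Q)
    (X : Set G) (hX : X ⊆ ((MulAction.stabilizer G a ⊓ MulAction.stabilizer G (t • a)) : Set G))
    (h3 : ∃ b c d : Ω, b ≠ c ∧ b ≠ d ∧ c ≠ d ∧ ∀ x ∈ X, x • b = b ∧ x • c = c ∧ x • d = d) :
    (∀ b₁ b₂ c₁ c₂ : Ω, (∀ x ∈ X, x • b₁ = b₁ ∧ x • b₂ = b₂ ∧ x • c₁ = c₁ ∧ x • c₂ = c₂) →
        b₁ ≠ b₂ → c₁ ≠ c₂ → ∃ g ∈ Subgroup.centralizer X, g • b₁ = c₁ ∧ g • b₂ = c₂) ∧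
      Even (Nat.card ↥(Subgroup.centralizer X ⊓ Q)) ∧
      (Subgroup.centralizer X ⊓ Q) ⊔ (Subgroup.centralizer X ⊓ (MulAction.stabilizer G a ⊓ MulAction.stabilizer G (t • a))) = Subgroup.centralizer X ⊓ MulAction.stabilizer G a := by
  open Cfsg.Agent.Lib.Helper19 in
  have hXa : X ⊆ (MulAction.stabilizer G a : Set G) := fun x hx => (Subgroup.mem_inf.mp (hX hx)).1
  have hfa : ∀ x ∈ X, x • a = a := fun x hx => (Subgroup.mem_inf.mp (hX hx)).1
  have hfb : ∀ x ∈ X, x • (t • a) = t • a := fun x hx => (Subgroup.mem_inf.mp (hX hx)).2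
  refine ⟨?_, ?_, ?_⟩
  · intro b₁ b₂ c₁ c₂ hfix hb hc
    obtain ⟨g, hg, hg1, hg2⟩ := exists_centralizer_smul_pair hS hX h3 hb
      (fun x hx => (hfix x hx).1) (fun x hx => (hfix x hx).2.1)
    obtain ⟨h, hh, hh1, hh2⟩ := exists_centralizer_smul_pair hS hX h3 hc
      (fun x hx => (hfix x hx).2.2.1) (fun x hx => (hfix x hx).2.2.2)
    refine ⟨h⁻¹ * g, mul_mem (inv_mem hh) hg, ?_, ?_⟩
    · rw [mul_smul, hg1, ← hh1, inv_smul_smul]
    · rw [mul_smul, hg2, ← hh2, inv_smul_smul]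
  · obtain ⟨u, huX, hu2, hua, hub⟩ := exists_centralizer_invol_swap hS hX h3
    have hu1 : u ≠ 1 := by
      rintro rfl
      rw [one_smul] at hua
      exact ta_ne hS hua.symm
    obtain ⟨e, he, -⟩ := invol_existsUnique_fix hS hu1 hu2
    have heX : ∀ x ∈ X, x • e = e := by
      intro x hx
      have h1 : u • (x • e) = x • e := by
        rw [smul_smul, ← (Subgroup.mem_centralizer_iff.mp huX) x hx, mul_smul, he]
      exact invol_fix_eq hS hu1 hu2 h1 he
    obtain ⟨h, hh, hhe⟩ := exists_centralizer_smul_eq_a hS hX h3 heX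
    have hsa : (h * u * h⁻¹) • a = a := by
      rw [← hhe]; simp [mul_smul, he]
    have hsQ : h * u * h⁻¹ ∈ Q := invol_stab_mem_Q hS hsa (conj_invol_sq hu2)
    have hsX : h * u * h⁻¹ ∈ Subgroup.centralizer X := mul_mem (mul_mem hh huX) (inv_mem hh)
    have hmem : h * u * h⁻¹ ∈ Subgroup.centralizer X ⊓ Q := Subgroup.mem_inf.mpr ⟨hsX, hsQ⟩
    have hord : orderOf (⟨h * u * h⁻¹, hmem⟩ : ↥(Subgroup.centralizer X ⊓ Q)) = 2 := by
      rw [Subgroup.orderOf_mk]
      exact orderOf_eq_prime (by rw [pow_two]; exact conj_invol_sq hu2) (conj_invol_ne_one hu1)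
    rw [even_iff_two_dvd, ← hord]
    exact orderOf_dvd_natCard _
  · apply le_antisymm
    · apply sup_le
      · exact inf_le_inf_left _ hS.le
      · exact inf_le_inf_left _ inf_le_left
    · intro g hg
      obtain ⟨hgX, hga⟩ := Subgroup.mem_inf.mp hg
      have hga : g • a = a := hga
      have h1 : g • (t • a) ≠ a := by
        intro h
        exact ta_ne hS (smul_left_cancel g (h.trans hga.symm))
      obtain ⟨r, hr, hrX, hrb⟩ := exists_centralizer_Q_smul hS hXa (ta_ne hS) h1 hfb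
        (mem_centralizer_smul_fix hgX hfb)
      have h2 : g = r * (r⁻¹ * g) := by group
      rw [h2]
      apply Subgroup.mul_mem_sup
      · exact Subgroup.mem_inf.mpr ⟨hrX, hr⟩
      · refine Subgroup.mem_inf.mpr ⟨mul_mem (inv_mem hrX) hgX, Subgroup.mem_inf.mpr ⟨?_, ?_⟩⟩
        · rw [MulAction.mem_stabilizer_iff, mul_smul, hga, inv_smul_eq_iff, Q_smul_a hS hr]
        · rw [MulAction.mem_stabilizer_iff, mul_smul, ← hrb, inv_smul_smul]

end Cfsg.Agent.S1125
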