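import Cfsg.Statements.S1498

set_option autoImplicit false
open Cfsg

namespace Cfsg.Agent.S1498

variable {G : Type*} [Group G]

open scoped Pointwise in
/-- Under the Dade hypothesis an element of `C_G(b)` of order prime to `|C_L(b)|` lies in `H b`. -/
theorem mem_H_of_coprime (A : Set G) (L : Subgroup G) (H : G → Subgroup G)
    (hD : Cfsg.DadeHypothesis A L H) (b : G) (hb : b ∈ A) (u : G)
    (hu : u ∈ Subgroup.centralizer ({b} : Set G))
    (hcop : Nat.Coprime (orderOf u) (Nat.card ↥(L ⊓ Subgroup.centralizer ({b} : Set G)))) :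
    u ∈ H b := by
  have hnorm : (L ⊓ Subgroup.centralizer ({b} : Set G)) ≤ Subgroup.normalizer (H b : Set G) := by
    intro c hc
    rw [Subgroup.mem_normalizer_iff]
    intro h
    constructor
    · exact fun hh => hD.conj_mem_H b hb c hc.2 h hh
    · intro hh
      have := hD.conj_mem_H b hb c⁻¹ (inv_mem hc.2) _ hh
      simpa [mul_assoc] using this
  have hu' : u ∈ H b ⊔ (L ⊓ Subgroup.centralizer ({b} : Set G)) := by
    rw [hD.sup_eq b hb]; exact hu
  rw [← SetLike.mem_coe, Subgroup.coe_mul_of_right_le_normalizer_left _ _ hnorm] at hu'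
  obtain ⟨h, hh, c, hc, hhc⟩ := hu'
  simp only at hhc
  subst hhc
  rw [SetLike.mem_coe] at hh hc
  have hpow : ∀ n : ℕ, ∃ h' ∈ H b, (h * c) ^ n = h' * c ^ n := by
    intro n
    induction n with
    | zero => exact ⟨1, one_mem _, by simp⟩
    | succ n ih =>
      obtain ⟨h', hh', he⟩ := ih
      refine ⟨h' * (c ^ n * h * (c ^ n)⁻¹), mul_mem hh'
        (hD.conj_mem_H b hb (c ^ n) (pow_mem hc.2 n) h hh), ?_⟩
      rw [pow_succ, he, pow_succ]
      group
  obtain ⟨h', hh', he⟩ := hpow (orderOf (h * c))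
  rw [pow_orderOf_eq_one] at he
  have hcn : c ^ orderOf (h * c) = h'⁻¹ := by
    exact eq_inv_of_mul_eq_one_right he.symm
  have hcn1 : c ^ orderOf (h * c) = 1 := by
    have h1 : c ^ orderOf (h * c) ∈ H b ⊓ (L ⊓ Subgroup.centralizer ({b} : Set G)) :=
      ⟨hcn ▸ (H b).inv_mem hh', pow_mem hc _⟩
    rw [hD.inf_eq_bot b hb] at h1
    exact Subgroup.mem_bot.1 h1
  have h1 : orderOf c ∣ orderOf (h * c) := orderOf_dvd_of_pow_eq_one hcn1
  have h2 : orderOf c ∣ Nat.card ↥(L ⊓ Subgroup.centralizer ({b} : Set G)) := by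
    have := orderOf_dvd_natCard (⟨c, hc⟩ : ↥(L ⊓ Subgroup.centralizer ({b} : Set G)))
    rwa [Subgroup.orderOf_mk] at this
  have h3 : orderOf c = 1 := Nat.eq_one_of_dvd_coprimes hcop h1 h2
  rw [orderOf_eq_one_iff] at h3
  rw [h3, mul_one]
  exact hh

theorem map_le (A : Set G) (L : Subgroup G) (H : G → Subgroup G) (hD : Cfsg.DadeHypothesis A L H)
    (a : G) (ha : a ∈ A) (x : G) (hx : x ∈ L) :
    (H a).map (MulAut.conj x).toMonoidHom ≤ H (x * a * x⁻¹) := by
  rintro _ ⟨w, hw, rfl⟩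
  have ha' : x * a * x⁻¹ ∈ A := hD.conj_mem x hx a ha
  apply mem_H_of_coprime A L H hD _ ha'
  · have hwa := hD.le_centralizer a ha hw
    rw [Subgroup.mem_centralizer_singleton_iff] at hwa ⊢
    simp only [MulEquiv.coe_toMonoidHom, MulAut.conj_apply]
    calc x * w * x⁻¹ * (x * a * x⁻¹) = x * (w * a) * x⁻¹ := by group
      _ = x * (a * w) * x⁻¹ := by rw [hwa]
      _ = x * a * x⁻¹ * (x * w * x⁻¹) := by group
  · have h1 : orderOf ((MulAut.conj x).toMonoidHom w) = orderOf w :=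
      orderOf_injective _ (MulAut.conj x).injective w
    rw [h1]
    have h2 : orderOf w ∣ Nat.card (H a) := by
      have := orderOf_dvd_natCard (⟨w, hw⟩ : ↥(H a))
      rwa [Subgroup.orderOf_mk] at this
    exact Nat.Coprime.coprime_dvd_left h2 (hD.coprime a ha _ ha')

theorem result {G : Type*} [Group G] [Finite G] (A : Set G) (L : Subgroup G) (H : G → Subgroup G) (hD : Cfsg.DadeHypothesis A L H) (a : G) (ha : a ∈ A) (x : G) (hx : x ∈ L) : H (x * a * x⁻¹) = (H a).map (MulAut.conj x).toMonoidHom := by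
  apply le_antisymm _ (map_le A L H hD a ha x hx)
  have ha' : x * a * x⁻¹ ∈ A := hD.conj_mem x hx a ha
  have h1 := map_le A L H hD _ ha' x⁻¹ (inv_mem hx)
  have h2 : x⁻¹ * (x * a * x⁻¹) * x⁻¹⁻¹ = a := by group
  rw [h2] at h1
  intro u hu
  refine ⟨x⁻¹ * u * x, ?_, ?_⟩
  · apply h1
    exact ⟨u, hu, by simp⟩
  · simp [mul_assoc]

end Cfsg.Agent.S1498
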