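import Cfsg.Statements.S1525
import Mathlib
set_option autoImplicit false
open Cfsg
open scoped Pointwise

namespace Cfsg.Agent.S1525

variable {G : Type*} [Group G] [Fintype G] {A : Set G} {L : Subgroup G} {H : G → Subgroup G}

theorem eq_of_pow_eq {a b : G} {m n : ℕ} (hmn : Nat.Coprime m n) (ha : a ^ n = 1) (hb : b ^ n = 1)
    (h : a ^ m = b ^ m) : a = b := by
  have key : ∀ c : G, c ^ n = 1 → c = (c ^ m) ^ (Nat.gcdA m n) := by
    intro c hc
    have h1 : ((Nat.gcd m n : ℕ) : ℤ) = m * Nat.gcdA m n + n * Nat.gcdB m n := Nat.gcd_eq_gcd_ab m n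
    rw [hmn] at h1
    have h2 : c = c ^ ((1 : ℕ) : ℤ) := by simp
    rw [h1, zpow_add, zpow_mul, zpow_mul, zpow_natCast, zpow_natCast, hc, one_zpow, mul_one] at h2
    exact h2
  rw [key a ha, key b hb, h]

theorem dade_unique (hD : DadeHypothesis A L H) {a b u v y : G} (ha : a ∈ A) (hb : b ∈ A)
    (hu : u ∈ H a) (hv : v ∈ H b) (h : a * u = y * (b * v) * y⁻¹) : a = y * b * y⁻¹ := by
  set m := Nat.card (H a) * Nat.card (H b) with hm
  set n := Nat.card ↥(L ⊓ Subgroup.centralizer ({a} : Set G)) *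
    Nat.card ↥(L ⊓ Subgroup.centralizer ({b} : Set G)) with hn
  have hmn : Nat.Coprime m n := by
    apply Nat.Coprime.mul_left <;> apply Nat.Coprime.mul_right
    · exact hD.coprime a ha a ha
    · exact hD.coprime a ha b hb
    · exact hD.coprime b hb a ha
    · exact hD.coprime b hb b hb
  have powcard : ∀ (K : Subgroup G) (x : G), x ∈ K → x ^ Nat.card K = 1 := by
    intro K x hx
    have := pow_card_eq_one' (G := K) (x := ⟨x, hx⟩)
    exact congrArg Subtype.val this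
  have hum : u ^ m = 1 := by rw [hm, pow_mul, powcard _ _ hu, one_pow]
  have hvm : v ^ m = 1 := by rw [hm, mul_comm, pow_mul, powcard _ _ hv, one_pow]
  have haC : a ∈ L ⊓ Subgroup.centralizer ({a} : Set G) :=
    ⟨hD.subset ha, by simp [Subgroup.mem_centralizer_iff]⟩
  have hbC : b ∈ L ⊓ Subgroup.centralizer ({b} : Set G) :=
    ⟨hD.subset hb, by simp [Subgroup.mem_centralizer_iff]⟩
  have han : a ^ n = 1 := by rw [hn, pow_mul, powcard _ _ haC, one_pow]
  have hbn : b ^ n = 1 := by rw [hn, mul_comm, pow_mul, powcard _ _ hbC, one_pow]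
  have hcau : Commute a u := by
    have := hD.le_centralizer a ha hu
    rw [Subgroup.mem_centralizer_iff] at this
    exact (this a rfl)
  have hcbv : Commute b v := by
    have := hD.le_centralizer b hb hv
    rw [Subgroup.mem_centralizer_iff] at this
    exact (this b rfl)
  apply eq_of_pow_eq hmn han
  · rw [conj_pow, hbn]; simp
  · have h1 : (a * u) ^ m = a ^ m := by rw [hcau.mul_pow, hum, mul_one]
    have h2 : (y * (b * v) * y⁻¹) ^ m = (y * b * y⁻¹) ^ m := by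
      rw [conj_pow, conj_pow, hcbv.mul_pow, hvm, mul_one]
    rw [← h1, ← h2, h]

theorem card_cent (hD : DadeHypothesis A L H) {a : G} (ha : a ∈ A) :
    Nat.card (H a) * Nat.card ↥(L ⊓ Subgroup.centralizer ({a} : Set G)) =
      Nat.card (Subgroup.centralizer ({a} : Set G)) := by
  set C := Subgroup.centralizer ({a} : Set G) with hC
  set K := L ⊓ C with hK
  have hnorm : K ≤ Subgroup.normalizer (H a : Set G) := by
    intro c hc
    rw [Subgroup.mem_normalizer_iff]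
    intro u
    constructor
    · intro hu; exact hD.conj_mem_H a ha c hc.2 u hu
    · intro hu
      have := hD.conj_mem_H a ha c⁻¹ (inv_mem hc.2) _ hu
      simpa [mul_assoc] using this
  have hset : ((H a ⊔ K : Subgroup G) : Set G) = (H a : Set G) * (K : Set G) :=
    Subgroup.coe_mul_of_right_le_normalizer_left (H a) K hnorm
  rw [← Nat.card_prod]
  let f : (H a) × K → C := fun p => ⟨(p.1 : G) * (p.2 : G), by
    rw [hC, ← hD.sup_eq a ha]
    exact Subgroup.mul_mem_sup p.1.2 p.2.2⟩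
  apply Nat.card_congr (Equiv.ofBijective f ⟨?_, ?_⟩)
  · rintro ⟨⟨h1, hh1⟩, ⟨k1, hk1⟩⟩ ⟨⟨h2, hh2⟩, ⟨k2, hk2⟩⟩ hEq
    have hEq' : h1 * k1 = h2 * k2 := congrArg Subtype.val hEq
    have h3 : h2⁻¹ * h1 = k2 * k1⁻¹ := by
      rw [eq_mul_inv_iff_mul_eq, mul_assoc, hEq', inv_mul_cancel_left]
    have h4 : h2⁻¹ * h1 ∈ H a ⊓ K :=
      Subgroup.mem_inf.2 ⟨mul_mem (inv_mem hh2) hh1, h3 ▸ mul_mem hk2 (inv_mem hk1)⟩
    rw [hD.inf_eq_bot a ha, Subgroup.mem_bot] at h4
    have h5 : h1 = h2 := by rw [inv_mul_eq_one] at h4; exact h4.symm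
    subst h5
    have h6 : k1 = k2 := mul_left_cancel hEq'
    subst h6
    rfl
  · rintro ⟨c, hc⟩
    have : c ∈ ((H a ⊔ K : Subgroup G) : Set G) := by
      rw [hD.sup_eq a ha]; exact hc
    rw [hset] at this
    obtain ⟨h, hh, k, hk, rfl⟩ := this
    exact ⟨⟨⟨h, hh⟩, ⟨k, hk⟩⟩, rfl⟩

theorem card_cent_conj (a l : G) :
    Nat.card (Subgroup.centralizer ({l * a * l⁻¹} : Set G)) =
      Nat.card (Subgroup.centralizer ({a} : Set G)) := by
  symm
  refine Nat.card_congr ⟨fun c => ⟨l * c * l⁻¹, ?_⟩, fun c => ⟨l⁻¹ * c * l, ?_⟩, ?_, ?_⟩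
  · have := c.2
    rw [Subgroup.mem_centralizer_singleton_iff] at this ⊢
    calc l * c * l⁻¹ * (l * a * l⁻¹) = l * (c * a) * l⁻¹ := by group
      _ = l * (a * c) * l⁻¹ := by rw [this]
      _ = _ := by group
  · have := c.2
    rw [Subgroup.mem_centralizer_singleton_iff] at this ⊢
    calc l⁻¹ * c * l * a = l⁻¹ * (c * (l * a * l⁻¹)) * l := by group
      _ = l⁻¹ * ((l * a * l⁻¹) * c) * l := by rw [this]
      _ = _ := by group
  · intro c; apply Subtype.ext; simp [mul_assoc]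
  · intro c; apply Subtype.ext; simp [mul_assoc]

theorem card_centL_conj (a l : G) (hl : l ∈ L) :
    Nat.card ↥(L ⊓ Subgroup.centralizer ({l * a * l⁻¹} : Set G)) =
      Nat.card ↥(L ⊓ Subgroup.centralizer ({a} : Set G)) := by
  symm
  refine Nat.card_congr ⟨fun c => ⟨l * c * l⁻¹, Subgroup.mem_inf.2 ⟨?_, ?_⟩⟩,
    fun c => ⟨l⁻¹ * c * l, Subgroup.mem_inf.2 ⟨?_, ?_⟩⟩, ?_, ?_⟩
  · exact mul_mem (mul_mem hl (Subgroup.mem_inf.1 c.2).1) (inv_mem hl)
  · have := (Subgroup.mem_inf.1 c.2).2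
    rw [Subgroup.mem_centralizer_singleton_iff] at this ⊢
    calc l * c * l⁻¹ * (l * a * l⁻¹) = l * (c * a) * l⁻¹ := by group
      _ = l * (a * c) * l⁻¹ := by rw [this]
      _ = _ := by group
  · exact mul_mem (mul_mem (inv_mem hl) (Subgroup.mem_inf.1 c.2).1) hl
  · have := (Subgroup.mem_inf.1 c.2).2
    rw [Subgroup.mem_centralizer_singleton_iff] at this ⊢
    calc l⁻¹ * c * l * a = l⁻¹ * (c * (l * a * l⁻¹)) * l := by group
      _ = l⁻¹ * ((l * a * l⁻¹) * c) * l := by rw [this]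
      _ = _ := by group
  · intro c; apply Subtype.ext; simp [mul_assoc]
  · intro c; apply Subtype.ext; simp [mul_assoc]

theorem card_H_conj (hD : DadeHypothesis A L H) {a l : G} (ha : a ∈ A) (hl : l ∈ L) :
    Nat.card (H (l * a * l⁻¹)) = Nat.card (H a) := by
  have h1 := card_cent hD ha
  have h2 := card_cent hD (hD.conj_mem l hl a ha)
  rw [card_cent_conj, card_centL_conj a l hl, ← h1] at h2
  exact Nat.eq_of_mul_eq_mul_right Nat.card_pos h2

/-- if `y a y⁻¹ ∈ A` then `y ∈ L * H a` and the orders of `H` agree -/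
theorem conj_mem_A (hD : DadeHypothesis A L H) {a y : G} (ha : a ∈ A) (hy : y * a * y⁻¹ ∈ A) :
    (∃ l ∈ L, ∃ h ∈ H a, y = l * h) ∧ Nat.card (H (y * a * y⁻¹)) = Nat.card (H a) := by
  obtain ⟨l, hl, hla⟩ := hD.fusion a ha y hy
  refine ⟨?_, by rw [← hla]; exact card_H_conj hD ha hl⟩
  have hc : l⁻¹ * y ∈ Subgroup.centralizer ({a} : Set G) := by
    rw [Subgroup.mem_centralizer_singleton_iff]
    calc l⁻¹ * y * a = l⁻¹ * (y * a * y⁻¹) * y := by group
      _ = l⁻¹ * (l * a * l⁻¹) * y := by rw [hla]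
      _ = _ := by group
  set K := L ⊓ Subgroup.centralizer ({a} : Set G) with hK
  have hnorm : K ≤ Subgroup.normalizer (H a : Set G) := by
    intro c hc
    rw [Subgroup.mem_normalizer_iff]
    intro u
    constructor
    · intro hu; exact hD.conj_mem_H a ha c hc.2 u hu
    · intro hu
      have := hD.conj_mem_H a ha c⁻¹ (inv_mem hc.2) _ hu
      simpa [mul_assoc] using this
  have hset : ((K ⊔ H a : Subgroup G) : Set G) = (K : Set G) * (H a : Set G) :=
    Subgroup.coe_mul_of_left_le_normalizer_right K (H a) hnorm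
  have : l⁻¹ * y ∈ ((K ⊔ H a : Subgroup G) : Set G) := by
    rw [sup_comm, hD.sup_eq a ha]; exact hc
  rw [hset] at this
  obtain ⟨k, hk, h, hh, hkh⟩ := this
  refine ⟨l * k, mul_mem hl hk.1, h, hh, ?_⟩
  have hkh' : k * h = l⁻¹ * y := hkh
  rw [mul_assoc, hkh', mul_inv_cancel_left]

open Classical in
theorem fiber_bound (hD : DadeHypothesis A L H) (g : G) :
    ∑ i ∈ (Finset.univ : Finset (G × G × G)).filter
      (fun i => (i.2.1 ∈ A ∧ i.2.2 ∈ H i.2.1) ∧ i.1⁻¹ * (i.2.1 * i.2.2) * i.1 = g),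
      ((Nat.card (H i.2.1) : ℝ))⁻¹ ≤ Nat.card L := by
  set fib := (Finset.univ : Finset (G × G × G)).filter
      (fun i => (i.2.1 ∈ A ∧ i.2.2 ∈ H i.2.1) ∧ i.1⁻¹ * (i.2.1 * i.2.2) * i.1 = g) with hfib
  rcases fib.eq_empty_or_nonempty with hemp | ⟨⟨x0, a0, u0⟩, hi0⟩
  · rw [hemp]; simp
  · simp only [hfib, Finset.mem_filter, Finset.mem_univ, true_and] at hi0
    obtain ⟨⟨ha0, hu0⟩, hg0⟩ := hi0
    have key : ∀ i ∈ fib, (∃ l ∈ L, ∃ h ∈ H a0, i = (l * h * x0, (l * h) * a0 * (l * h)⁻¹,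
        (l * h) * u0 * (l * h)⁻¹)) ∧ Nat.card (H i.2.1) = Nat.card (H a0) := by
      rintro ⟨x, a, u⟩ hi
      simp only [hfib, Finset.mem_filter, Finset.mem_univ, true_and] at hi
      obtain ⟨⟨ha, hu⟩, hg⟩ := hi
      have h1 : a * u = (x * x0⁻¹) * (a0 * u0) * (x * x0⁻¹)⁻¹ := by
        have : x⁻¹ * (a * u) * x = x0⁻¹ * (a0 * u0) * x0 := by rw [hg, hg0]
        calc a * u = x * (x⁻¹ * (a * u) * x) * x⁻¹ := by group
          _ = x * (x0⁻¹ * (a0 * u0) * x0) * x⁻¹ := by rw [this]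
          _ = _ := by group
      have h2 := dade_unique hD ha ha0 hu hu0 h1
      have h3 := conj_mem_A hD (y := x * x0⁻¹) ha0 (h2 ▸ ha)
      obtain ⟨⟨l, hl, h, hh, hy⟩, hcard⟩ := h3
      refine ⟨⟨l, hl, h, hh, ?_⟩, by rw [← h2] at hcard; exact hcard⟩
      have hx : x = l * h * x0 := by rw [← hy]; group
      have hu' : u = (x * x0⁻¹) * u0 * (x * x0⁻¹)⁻¹ := by
        have : a * u = a * ((x * x0⁻¹) * u0 * (x * x0⁻¹)⁻¹) := by
          rw [h1]; conv_rhs => rw [h2]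
          group
        exact mul_left_cancel this
      rw [← hy]
      ext
      · simp
      · exact h2
      · exact hu'
    have hsum : ∑ i ∈ fib, ((Nat.card (H i.2.1) : ℝ))⁻¹ = fib.card * ((Nat.card (H a0) : ℝ))⁻¹ := by
      rw [Finset.sum_congr rfl (fun i hi => by rw [(key i hi).2])]
      simp
    rw [hsum]
    have hcard : fib.card ≤ Nat.card L * Nat.card (H a0) := by
      have hsub : fib ⊆ (Finset.univ : Finset (L × H a0)).image
          (fun p => ((p.1 : G) * (p.2 : G) * x0, ((p.1 : G) * (p.2 : G)) * a0 * ((p.1 : G) * (p.2 : G))⁻¹,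
            ((p.1 : G) * (p.2 : G)) * u0 * ((p.1 : G) * (p.2 : G))⁻¹)) := by
        intro i hi
        obtain ⟨⟨l, hl, h, hh, rfl⟩, -⟩ := key i hi
        exact Finset.mem_image.2 ⟨(⟨l, hl⟩, ⟨h, hh⟩), Finset.mem_univ _, rfl⟩
      calc fib.card ≤ _ := Finset.card_le_card hsub
        _ ≤ (Finset.univ : Finset (L × H a0)).card := Finset.card_image_le
        _ = Nat.card L * Nat.card (H a0) := by
          rw [Finset.card_univ, Fintype.card_prod, Nat.card_eq_fintype_card, Nat.card_eq_fintype_card]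
    have hpos : (0 : ℝ) < Nat.card (H a0) := by exact_mod_cast Nat.card_pos
    rw [← div_eq_mul_inv, div_le_iff₀ hpos]
    exact_mod_cast hcard

open Classical in
theorem main_count (hD : DadeHypothesis A L H) (F : G → ℝ) (hF0 : ∀ g, 0 ≤ F g)
    (hFc : ∀ g x, F (x⁻¹ * g * x) = F g) :
    (Nat.card G : ℝ) * ∑ a ∈ Finset.univ.filter (· ∈ A), (Nat.card (H a) : ℝ)⁻¹ *
        ∑ u ∈ Finset.univ.filter (· ∈ H a), F (a * u)
      ≤ (Nat.card L : ℝ) * ∑ g ∈ Finset.univ.filter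
        (fun g => ∃ a ∈ A, ∃ u ∈ H a, ∃ x : G, x * g * x⁻¹ = a * u), F g := by
  set I := (Finset.univ : Finset (G × G × G)).filter (fun i => i.2.1 ∈ A ∧ i.2.2 ∈ H i.2.1) with hI
  have h1 : ∑ i ∈ I, (Nat.card (H i.2.1) : ℝ)⁻¹ * F (i.1⁻¹ * (i.2.1 * i.2.2) * i.1) =
      (Nat.card G : ℝ) * ∑ a ∈ Finset.univ.filter (· ∈ A), (Nat.card (H a) : ℝ)⁻¹ *
        ∑ u ∈ Finset.univ.filter (· ∈ H a), F (a * u) := by
    simp only [hFc, hI, Finset.sum_filter, Fintype.sum_prod_type]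
    rw [Finset.sum_const, Finset.card_univ, nsmul_eq_mul, Nat.card_eq_fintype_card]
    congr 1
    apply Finset.sum_congr rfl
    intro a _
    by_cases ha : a ∈ A
    · simp [ha, Finset.mul_sum]
    · simp [ha]
  rw [← h1, ← Finset.sum_fiberwise I (fun i => i.1⁻¹ * (i.2.1 * i.2.2) * i.1), Finset.mul_sum,
    Finset.sum_filter]
  apply Finset.sum_le_sum
  intro g _
  have h2 : ∑ i ∈ I with i.1⁻¹ * (i.2.1 * i.2.2) * i.1 = g,
      (Nat.card (H i.2.1) : ℝ)⁻¹ * F (i.1⁻¹ * (i.2.1 * i.2.2) * i.1) =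
      (∑ i ∈ I with i.1⁻¹ * (i.2.1 * i.2.2) * i.1 = g, (Nat.card (H i.2.1) : ℝ)⁻¹) * F g := by
    rw [Finset.sum_mul]
    apply Finset.sum_congr rfl
    intro i hi
    rw [(Finset.mem_filter.1 hi).2]
  rw [h2]
  split_ifs with hg
  · apply mul_le_mul_of_nonneg_right _ (hF0 g)
    have := fiber_bound hD g
    rw [hI, Finset.filter_filter]
    exact this
  · have hemp : (I.filter (fun i => i.1⁻¹ * (i.2.1 * i.2.2) * i.1 = g)) = ∅ := by
      rw [Finset.eq_empty_iff_forall_notMem]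
      rintro ⟨x, a, u⟩ hi
      simp only [hI, Finset.mem_filter, Finset.mem_univ, true_and] at hi
      apply hg
      refine ⟨a, hi.1.1, u, hi.1.2, x, ?_⟩
      rw [← hi.2]; group
    rw [hemp]; simp

theorem result {G : Type*} [Group G] [Fintype G] (A : Set G) (L : Subgroup G) [Fintype L] (H : G → Subgroup G) (hD : Cfsg.DadeHypothesis A L H) (χ : G → ℂ) (hχ : Cfsg.IsClassFunction G χ) (ψ : L → ℂ) (hψ : ∀ a : L, (a : G) ∈ A → ψ a = (Nat.card (H a) : ℂ)⁻¹ * ∑ᶠ u ∈ (H a : Set G), χ (a * u)) : (Nat.card L : ℝ)⁻¹ * ∑ᶠ a ∈ {a : L | (a : G) ∈ A}, ‖ψ a‖ ^ 2 ≤ (Nat.card G : ℝ)⁻¹ * ∑ᶠ g ∈ {g : G | ∃ a ∈ A, ∃ u ∈ H a, ∃ x : G, x * g * x⁻¹ = a * u}, ‖χ g‖ ^ 2 := by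
  classical
  have hmain := main_count hD (fun g => ‖χ g‖ ^ 2) (fun g => by positivity) (fun g x => by
    have := hχ g x⁻¹
    simp only [inv_inv] at this
    simp only [this])
  rw [finsum_mem_eq_toFinset_sum, finsum_mem_eq_toFinset_sum]
  simp only [Set.toFinset_ofPred]
  have hLpos : (0 : ℝ) < Nat.card L := by exact_mod_cast Nat.card_pos
  have hGpos : (0 : ℝ) < Nat.card G := by exact_mod_cast Nat.card_pos
  -- Cauchy-Schwarz part
  have hCS : ∑ a ∈ Finset.univ.filter (fun a : L => (a : G) ∈ A), ‖ψ a‖ ^ 2 ≤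
      ∑ a ∈ Finset.univ.filter (· ∈ A), (Nat.card (H a) : ℝ)⁻¹ *
        ∑ u ∈ Finset.univ.filter (· ∈ H a), ‖χ (a * u)‖ ^ 2 := by
    have hmap : (Finset.univ.filter (· ∈ A) : Finset G) =
        (Finset.univ.filter (fun a : L => (a : G) ∈ A)).map ⟨Subtype.val, Subtype.val_injective⟩ := by
      ext a
      simp only [Finset.mem_filter, Finset.mem_univ, true_and, Finset.mem_map,
        Function.Embedding.coeFn_mk, Subtype.exists, exists_and_left, exists_prop, exists_eq_right_right]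
      exact ⟨fun h => ⟨h, hD.subset h⟩, fun h => h.1⟩
    rw [hmap, Finset.sum_map]
    apply Finset.sum_le_sum
    intro a ha
    simp only [Finset.mem_filter, Finset.mem_univ, true_and] at ha
    simp only [Function.Embedding.coeFn_mk]
    rw [hψ a ha, finsum_mem_eq_toFinset_sum]
    have hts : (H (a : G) : Set G).toFinset = Finset.univ.filter (· ∈ H (a : G)) := by
      ext u; simp
    rw [hts]
    set s := Finset.univ.filter (· ∈ H (a : G)) with hs
    have hcard : (s.card : ℝ) = Nat.card (H (a : G)) := by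
      rw [hs, Nat.card_eq_fintype_card, Fintype.card_subtype]
    have hpos : (0 : ℝ) < Nat.card (H (a : G)) := by exact_mod_cast Nat.card_pos
    rw [norm_mul, mul_pow, norm_inv, Complex.norm_natCast]
    have h1 : ‖∑ u ∈ s, χ (a * u)‖ ^ 2 ≤ (Nat.card (H (a : G)) : ℝ) * ∑ u ∈ s, ‖χ (a * u)‖ ^ 2 := by
      calc ‖∑ u ∈ s, χ (a * u)‖ ^ 2 ≤ (∑ u ∈ s, ‖χ (a * u)‖) ^ 2 := by
            apply pow_le_pow_left₀ (norm_nonneg _) (norm_sum_le _ _)
        _ ≤ s.card * ∑ u ∈ s, ‖χ (a * u)‖ ^ 2 := sq_sum_le_card_mul_sum_sq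
        _ = _ := by rw [hcard]
    calc ((Nat.card (H (a : G)) : ℝ))⁻¹ ^ 2 * ‖∑ u ∈ s, χ (a * u)‖ ^ 2
        ≤ ((Nat.card (H (a : G)) : ℝ))⁻¹ ^ 2 * ((Nat.card (H (a : G)) : ℝ) * ∑ u ∈ s, ‖χ (a * u)‖ ^ 2) :=
          mul_le_mul_of_nonneg_left h1 (by positivity)
      _ = _ := by field_simp
  rw [inv_mul_le_iff₀ hLpos]
  calc _ ≤ _ := hCS
    _ = (Nat.card G : ℝ)⁻¹ * ((Nat.card G : ℝ) * ∑ a ∈ Finset.univ.filter (· ∈ A), (Nat.card (H a) : ℝ)⁻¹ *
        ∑ u ∈ Finset.univ.filter (· ∈ H a), ‖χ (a * u)‖ ^ 2) := by field_simp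
    _ ≤ (Nat.card G : ℝ)⁻¹ * _ := mul_le_mul_of_nonneg_left hmain (by positivity)
    _ = _ := by ring

end Cfsg.Agent.S1525
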