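import Cfsg.Statements.S1500
import Cfsg.Agent.S1498
import Cfsg.Agent.S1525
import Mathlib
set_option autoImplicit false
open Cfsg
open scoped Pointwise

namespace Cfsg.Agent.S1500

open Cfsg.Agent.S1525

variable {G : Type*} [Group G] [Fintype G] {A : Set G} {L : Subgroup G} {H : G → Subgroup G}

open Classical in
theorem fiber_eq (hD : DadeHypothesis A L H) (g : G)
    (hg : ∃ a ∈ A, ∃ u ∈ H a, ∃ x : G, x * g * x⁻¹ = a * u) :
    ∑ i ∈ (Finset.univ : Finset (G × G × G)).filter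
      (fun i => (i.2.1 ∈ A ∧ i.2.2 ∈ H i.2.1) ∧ i.1⁻¹ * (i.2.1 * i.2.2) * i.1 = g),
      ((Nat.card (H i.2.1) : ℂ))⁻¹ = Nat.card L := by
  set fib := (Finset.univ : Finset (G × G × G)).filter
      (fun i => (i.2.1 ∈ A ∧ i.2.2 ∈ H i.2.1) ∧ i.1⁻¹ * (i.2.1 * i.2.2) * i.1 = g) with hfib
  obtain ⟨a0, ha0, u0, hu0, x0, hg0'⟩ := hg
  have hg0 : x0⁻¹ * (a0 * u0) * x0 = g := by rw [← hg0']; group
  have key : ∀ i ∈ fib, (∃ l ∈ L, ∃ h ∈ H a0, i = (l * h * x0, (l * h) * a0 * (l * h)⁻¹,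
      (l * h) * u0 * (l * h)⁻¹)) ∧ Nat.card (H i.2.1) = Nat.card (H a0) := by
    rintro ⟨x, a, u⟩ hi
    simp only [hfib, Finset.mem_filter, Finset.mem_univ, true_and] at hi
    obtain ⟨⟨ha, hu⟩, hg⟩ := hi
    have h1 : a * u = (x * x0⁻¹) * (a0 * u0) * (x * x0⁻¹)⁻¹ := by
      have : x⁻¹ * (a * u) * x = x0⁻¹ * (a0 * u0) * x0 := by rw [hg, hg0]
      calc a * u = x * (x⁻¹ * (a * u) * x) * x⁻¹ := by group
        _ = x * (x0⁻¹ * (a0 * u0) * x0) * x⁻¹ := by rw [this]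
        _ = _ := by group
    have h2 := dade_unique hD ha ha0 hu hu0 h1
    have h3 := conj_mem_A hD (y := x * x0⁻¹) ha0 (h2 ▸ ha)
    obtain ⟨⟨l, hl, h, hh, hy⟩, hcard⟩ := h3
    refine ⟨⟨l, hl, h, hh, ?_⟩, by rw [← h2] at hcard; exact hcard⟩
    have hx : x = l * h * x0 := by rw [← hy]; group
    have hu' : u = (x * x0⁻¹) * u0 * (x * x0⁻¹)⁻¹ := by
      have : a * u = a * ((x * x0⁻¹) * u0 * (x * x0⁻¹)⁻¹) := by
        rw [h1]; conv_rhs => rw [h2]
        group
      exact mul_left_cancel this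
    rw [← hy]
    ext
    · simp
    · exact h2
    · exact hu'
  have hsum : ∑ i ∈ fib, ((Nat.card (H i.2.1) : ℂ))⁻¹ = fib.card * ((Nat.card (H a0) : ℂ))⁻¹ := by
    rw [Finset.sum_congr rfl (fun i hi => by rw [(key i hi).2])]
    simp
  rw [hsum]
  have hcard : fib.card = Nat.card L * Nat.card (H a0) := by
    have himg : fib = (Finset.univ : Finset (L × H a0)).image
        (fun p => ((p.1 : G) * (p.2 : G) * x0, ((p.1 : G) * (p.2 : G)) * a0 * ((p.1 : G) * (p.2 : G))⁻¹,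
          ((p.1 : G) * (p.2 : G)) * u0 * ((p.1 : G) * (p.2 : G))⁻¹)) := by
      apply Finset.Subset.antisymm
      · intro i hi
        obtain ⟨⟨l, hl, h, hh, rfl⟩, -⟩ := key i hi
        exact Finset.mem_image.2 ⟨(⟨l, hl⟩, ⟨h, hh⟩), Finset.mem_univ _, rfl⟩
      · intro i hi
        obtain ⟨⟨⟨l, hl⟩, ⟨h, hh⟩⟩, -, rfl⟩ := Finset.mem_image.1 hi
        simp only [hfib, Finset.mem_filter, Finset.mem_univ, true_and]
        have hcomm : h * a0 = a0 * h := by
          have := hD.le_centralizer a0 ha0 hh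
          rw [Subgroup.mem_centralizer_singleton_iff] at this
          exact this
        have e1 : l * h * a0 * (l * h)⁻¹ = l * a0 * l⁻¹ := by
          calc l * h * a0 * (l * h)⁻¹ = l * (h * a0) * h⁻¹ * l⁻¹ := by group
            _ = l * (a0 * h) * h⁻¹ * l⁻¹ := by rw [hcomm]
            _ = _ := by group
        refine ⟨⟨?_, ?_⟩, ?_⟩
        · rw [e1]; exact hD.conj_mem l hl a0 ha0
        · rw [e1, Cfsg.Agent.S1498.result A L H hD a0 ha0 l hl]
          refine ⟨h * u0 * h⁻¹, mul_mem (mul_mem hh hu0) (inv_mem hh), ?_⟩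
          simp [mul_assoc]
        · rw [← hg0]; group
    rw [himg, Finset.card_image_of_injective, Finset.card_univ, Fintype.card_prod,
      Nat.card_eq_fintype_card, Nat.card_eq_fintype_card]
    rintro ⟨⟨l, hl⟩, ⟨h, hh⟩⟩ ⟨⟨l', hl'⟩, ⟨h', hh'⟩⟩ hEq
    have h1 : l * h * x0 = l' * h' * x0 := congrArg Prod.fst hEq
    have h2 : l * h = l' * h' := mul_right_cancel h1
    have h3 : l'⁻¹ * l = h' * h⁻¹ := by
      rw [eq_mul_inv_iff_mul_eq, mul_assoc, h2, inv_mul_cancel_left]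
    have h4 : h' * h⁻¹ ∈ H a0 ⊓ (L ⊓ Subgroup.centralizer ({a0} : Set G)) := by
      have h5 : h' * h⁻¹ ∈ H a0 := mul_mem hh' (inv_mem hh)
      exact Subgroup.mem_inf.2 ⟨h5, Subgroup.mem_inf.2
        ⟨h3 ▸ mul_mem (inv_mem hl') hl, hD.le_centralizer a0 ha0 h5⟩⟩
    rw [hD.inf_eq_bot a0 ha0, Subgroup.mem_bot] at h4
    have h5 : h' = h := by rwa [mul_inv_eq_one] at h4
    subst h5
    have h6 : l = l' := mul_right_cancel h2
    subst h6
    rfl
  have hpos : (Nat.card (H a0) : ℂ) ≠ 0 := by exact_mod_cast Nat.card_pos.ne'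
  rw [hcard]; push_cast; field_simp

open Classical in
theorem exact_count (hD : DadeHypothesis A L H) (F : G → ℂ)
    (hFc : ∀ g x, F (x⁻¹ * g * x) = F g) :
    (Nat.card G : ℂ) * ∑ a ∈ Finset.univ.filter (· ∈ A), (Nat.card (H a) : ℂ)⁻¹ *
        ∑ u ∈ Finset.univ.filter (· ∈ H a), F (a * u)
      = (Nat.card L : ℂ) * ∑ g ∈ Finset.univ.filter
        (fun g => ∃ a ∈ A, ∃ u ∈ H a, ∃ x : G, x * g * x⁻¹ = a * u), F g := by
  set I := (Finset.univ : Finset (G × G × G)).filter (fun i => i.2.1 ∈ A ∧ i.2.2 ∈ H i.2.1) with hI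
  have h1 : ∑ i ∈ I, (Nat.card (H i.2.1) : ℂ)⁻¹ * F (i.1⁻¹ * (i.2.1 * i.2.2) * i.1) =
      (Nat.card G : ℂ) * ∑ a ∈ Finset.univ.filter (· ∈ A), (Nat.card (H a) : ℂ)⁻¹ *
        ∑ u ∈ Finset.univ.filter (· ∈ H a), F (a * u) := by
    simp only [hFc, hI, Finset.sum_filter, Fintype.sum_prod_type]
    rw [Finset.sum_const, Finset.card_univ, nsmul_eq_mul, Nat.card_eq_fintype_card]
    congr 1
    apply Finset.sum_congr rfl
    intro a _
    by_cases ha : a ∈ A
    · simp [ha, Finset.mul_sum]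
    · simp [ha]
  rw [← h1, ← Finset.sum_fiberwise I (fun i => i.1⁻¹ * (i.2.1 * i.2.2) * i.1), Finset.mul_sum,
    Finset.sum_filter]
  apply Finset.sum_congr rfl
  intro g _
  have h2 : ∑ i ∈ I with i.1⁻¹ * (i.2.1 * i.2.2) * i.1 = g,
      (Nat.card (H i.2.1) : ℂ)⁻¹ * F (i.1⁻¹ * (i.2.1 * i.2.2) * i.1) =
      (∑ i ∈ I with i.1⁻¹ * (i.2.1 * i.2.2) * i.1 = g, (Nat.card (H i.2.1) : ℂ)⁻¹) * F g := by
    rw [Finset.sum_mul]
    apply Finset.sum_congr rfl
    intro i hi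
    rw [(Finset.mem_filter.1 hi).2]
  rw [h2]
  split_ifs with hg
  · have := fiber_eq hD g hg
    rw [hI, Finset.filter_filter, this]
  · have hemp : (I.filter (fun i => i.1⁻¹ * (i.2.1 * i.2.2) * i.1 = g)) = ∅ := by
      rw [Finset.eq_empty_iff_forall_notMem]
      rintro ⟨x, a, u⟩ hi
      simp only [hI, Finset.mem_filter, Finset.mem_univ, true_and] at hi
      apply hg
      refine ⟨a, hi.1.1, u, hi.1.2, x, ?_⟩
      rw [← hi.2]; group
    rw [hemp]; simp

theorem dade_apply (hD : DadeHypothesis A L H) (α : L → ℂ) (hα : IsClassFunction L α)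
    (a : L) (ha : (a : G) ∈ A) (u : G) (hu : u ∈ H (a : G)) (x : G) :
    dadeIsometry A L H α (x⁻¹ * ((a : G) * u) * x) = α a := by
  have hex : ∃ a' : ↥L, (a' : G) ∈ A ∧ ∃ y : G, ∃ u' ∈ H (a' : G),
      y * (x⁻¹ * ((a : G) * u) * x) * y⁻¹ = (a' : G) * u' :=
    ⟨a, ha, x, u, hu, by group⟩
  unfold dadeIsometry
  rw [dif_pos hex]
  obtain ⟨ha', y, u', hu', hy⟩ := Classical.choose_spec hex
  set a' := Classical.choose hex
  have h1 : (a' : G) * u' = (y * x⁻¹) * ((a : G) * u) * (y * x⁻¹)⁻¹ := by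
    rw [← hy]; group
  have h2 := dade_unique hD ha' ha hu' hu h1
  obtain ⟨l, hl, hla⟩ := hD.fusion a ha (y * x⁻¹) (h2 ▸ ha')
  have h3 : a' = (⟨l, hl⟩ : L) * a * (⟨l, hl⟩ : L)⁻¹ := by
    apply Subtype.ext
    rw [h2, ← hla]; rfl
  rw [h3, hα]

theorem dade_apply_not (α : L → ℂ) (g : G)
    (hg : ¬ ∃ a ∈ A, ∃ u ∈ H a, ∃ x : G, x * g * x⁻¹ = a * u) :
    dadeIsometry A L H α g = 0 := by
  unfold dadeIsometry
  rw [dif_neg]
  rintro ⟨a, ha, x, u, hu, hx⟩
  exact hg ⟨a, ha, u, hu, x, hx⟩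

theorem dade_class (hD : DadeHypothesis A L H) (α : L → ℂ) (hα : IsClassFunction L α) (g x : G) :
    dadeIsometry A L H α (x⁻¹ * g * x) = dadeIsometry A L H α g := by
  by_cases hg : ∃ a ∈ A, ∃ u ∈ H a, ∃ y : G, y * g * y⁻¹ = a * u
  · obtain ⟨a, ha, u, hu, y, hy⟩ := hg
    have h1 : g = y⁻¹ * (((⟨a, hD.subset ha⟩ : L) : G) * u) * y := by
      show g = y⁻¹ * (a * u) * y
      rw [← hy]; group
    have h2 : x⁻¹ * g * x = (y * x)⁻¹ * (((⟨a, hD.subset ha⟩ : L) : G) * u) * (y * x) := by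
      rw [h1]; group
    rw [h2, dade_apply hD α hα _ ha u hu, h1, dade_apply hD α hα _ ha u hu]
  · rw [dade_apply_not α g hg, dade_apply_not]
    rintro ⟨a, ha, u, hu, y, hy⟩
    exact hg ⟨a, ha, u, hu, y * x⁻¹, by rw [← hy]; group⟩

theorem part_two [Fintype L] (hD : DadeHypothesis A L H) (α : L → ℂ) (hα : IsClassFunction L α)
    (hαA : ∀ x : L, (x : G) ∉ A → α x = 0) (χ : G → ℂ) (ψ : L → ℂ) (hχ : IsClassFunction G χ)
    (hψ : ∀ a : L, (a : G) ∈ A → ψ a = (Nat.card (H a) : ℂ)⁻¹ * ∑ᶠ u ∈ (H a : Set G), χ (a * u)) :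
    classInner (dadeIsometry A L H α) χ = classInner α ψ := by
  classical
  have hcount := exact_count hD (fun g => dadeIsometry A L H α g * (starRingEnd ℂ) (χ g))
    (fun g x => by
      have := hχ g x⁻¹
      simp only [inv_inv] at this
      simp only [this, dade_class hD α hα])
  unfold classInner
  have hLpos : (Nat.card L : ℂ) ≠ 0 := by exact_mod_cast Nat.card_pos.ne'
  have hGpos : (Nat.card G : ℂ) ≠ 0 := by exact_mod_cast Nat.card_pos.ne'
  have h1 : ∑ g : G, dadeIsometry A L H α g * (starRingEnd ℂ) (χ g) =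
      ∑ g ∈ Finset.univ.filter (fun g => ∃ a ∈ A, ∃ u ∈ H a, ∃ x : G, x * g * x⁻¹ = a * u),
        dadeIsometry A L H α g * (starRingEnd ℂ) (χ g) := by
    rw [Finset.sum_filter]
    apply Finset.sum_congr rfl
    intro g _
    split_ifs with hg
    · rfl
    · rw [dade_apply_not α g hg, zero_mul]
  have h2 : ∑ a : L, α a * (starRingEnd ℂ) (ψ a) =
      ∑ a ∈ Finset.univ.filter (· ∈ A), (Nat.card (H a) : ℂ)⁻¹ *
        ∑ u ∈ Finset.univ.filter (· ∈ H a),
          dadeIsometry A L H α (a * u) * (starRingEnd ℂ) (χ (a * u)) := by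
    have hmap : (Finset.univ.filter (· ∈ A) : Finset G) =
        (Finset.univ.filter (fun a : L => (a : G) ∈ A)).map ⟨Subtype.val, Subtype.val_injective⟩ := by
      ext a
      simp only [Finset.mem_filter, Finset.mem_univ, true_and, Finset.mem_map,
        Function.Embedding.coeFn_mk, Subtype.exists, exists_and_left, exists_prop, exists_eq_right_right]
      exact ⟨fun h => ⟨h, hD.subset h⟩, fun h => h.1⟩
    rw [hmap, Finset.sum_map, Finset.sum_filter]
    apply Finset.sum_congr rfl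
    intro a _
    split_ifs with ha
    · simp only [Function.Embedding.coeFn_mk]
      rw [hψ a ha, finsum_mem_eq_toFinset_sum]
      have hts : (H (a : G) : Set G).toFinset = Finset.univ.filter (· ∈ H (a : G)) := by
        ext u; simp
      rw [hts, map_mul, map_inv₀, Complex.conj_natCast, map_sum, mul_left_comm, Finset.mul_sum]
      congr 1
      apply Finset.sum_congr rfl
      intro u hu
      simp only [Finset.mem_filter, Finset.mem_univ, true_and] at hu
      have := dade_apply hD α hα a ha u hu 1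
      simp only [inv_one, one_mul, mul_one] at this
      rw [this]
    · rw [hαA a ha, zero_mul]
  rw [h1, h2]
  set X := ∑ g ∈ Finset.univ.filter (fun g => ∃ a ∈ A, ∃ u ∈ H a, ∃ x : G, x * g * x⁻¹ = a * u),
        dadeIsometry A L H α g * (starRingEnd ℂ) (χ g)
  set Y := ∑ a ∈ Finset.univ.filter (· ∈ A), (Nat.card (H a) : ℂ)⁻¹ *
        ∑ u ∈ Finset.univ.filter (· ∈ H a),
          dadeIsometry A L H α (a * u) * (starRingEnd ℂ) (χ (a * u))
  have hcount' : (Nat.card G : ℂ) * Y = (Nat.card L : ℂ) * X := hcount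
  field_simp
  rw [mul_comm X, ← hcount']

theorem result {G : Type*} [Group G] [Fintype G] (A : Set G) (L : Subgroup G) [Fintype L] (H : G → Subgroup G) (hD : Cfsg.DadeHypothesis A L H) (α : L → ℂ) (hα : Cfsg.IsClassFunction L α) (hαA : ∀ x : L, (x : G) ∉ A → α x = 0) : (∀ β : L → ℂ, Cfsg.IsClassFunction L β → (∀ x : L, (x : G) ∉ A → β x = 0) → Cfsg.classInner (Cfsg.dadeIsometry A L H α) (Cfsg.dadeIsometry A L H β) = Cfsg.classInner α β) ∧ (∀ (χ : G → ℂ) (ψ : L → ℂ), Cfsg.IsClassFunction G χ → (∀ a : L, (a : G) ∈ A → ψ a = (Nat.card (H a) : ℂ)⁻¹ * ∑ᶠ u ∈ (H a : Set G), χ (a * u)) → Cfsg.classInner (Cfsg.dadeIsometry A L H α) χ = Cfsg.classInner α ψ) := by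
  classical
  refine ⟨fun β hβ _ => ?_, fun χ ψ hχ hψ => part_two hD α hα hαA χ ψ hχ hψ⟩
  apply part_two hD α hα hαA
  · intro g h
    have := dade_class hD β hβ g h⁻¹
    simpa using this
  · intro a ha
    rw [finsum_mem_eq_toFinset_sum]
    have hts : (H (a : G) : Set G).toFinset = Finset.univ.filter (· ∈ H (a : G)) := by
      ext u; simp
    rw [hts]
    have : ∀ u ∈ Finset.univ.filter (· ∈ H (a : G)), dadeIsometry A L H β (a * u) = β a := by
      intro u hu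
      simp only [Finset.mem_filter, Finset.mem_univ, true_and] at hu
      have := dade_apply hD β hβ a ha u hu 1
      simpa using this
    rw [Finset.sum_congr rfl this, Finset.sum_const, nsmul_eq_mul]
    have hcard : ((Finset.univ.filter (· ∈ H (a : G))).card : ℂ) = Nat.card (H (a : G)) := by
      rw [Nat.card_eq_fintype_card, Fintype.card_subtype]
    have hpos : (Nat.card (H (a : G)) : ℂ) ≠ 0 := by exact_mod_cast Nat.card_pos.ne'
    rw [hcard]; field_simp

end Cfsg.Agent.S1500
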