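import Mathlib
import Cfsg.Statements.S1280
import Cfsg.Agent.Lib.Helper22.CoprimeP
import Cfsg.Agent.Lib.Helper22.SupLemmas

set_option autoImplicit false
open Cfsg
open Cfsg.Agent.Lib.Helper22

namespace Cfsg.Agent.S1280

/-- Let θ be a solvable A-signalizer functor (A a noncyclic elementary abelian p-subgroup of the finite group G), and X, Y members of its family with Y ≤ N_G(X). Then X ⊔ Y (= XY) is again in the family. -/
theorem result {G : Type*} [Group G] [Finite G] (p : ℕ) [Fact p.Prime] (A : Subgroup G) (hA : Cfsg.IsElementaryAbelian p A) (hA2 : p ^ 2 ≤ Nat.card ↥A) (θ : G → Subgroup G) (hθ : Cfsg.IsSolvableSignalizerFunctor p A θ) (X Y : Subgroup G) (hX : X ∈ Cfsg.signalizerFamily p A θ) (hY : Y ∈ Cfsg.signalizerFamily p A θ) (hn : Y ≤ Subgroup.normalizer (X : Set G)) : X ⊔ Y ∈ Cfsg.signalizerFamily p A θ := by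
  obtain ⟨hXs, hXp, hXA, hXθ⟩ := hX
  obtain ⟨hYs, hYp, hYA, hYθ⟩ := hY
  have hAX : A ≤ Subgroup.normalizer (X : Set G) := Subgroup.le_normalizer_iff.mpr hXA
  have hAY : A ≤ Subgroup.normalizer (Y : Set G) := Subgroup.le_normalizer_iff.mpr hYA
  refine ⟨isSolvable_sup hn hXs hYs, not_dvd_card_sup Fact.out hn hXp hYp, ?_, ?_⟩
  · exact Subgroup.le_normalizer_iff.mp
      ((le_inf hAX hAY).trans (Subgroup.normalizer_inf_normalizer_le_normalizer_sup X Y))
  · intro a ha ha1 g hg
    rw [Subgroup.mem_inf] at hg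
    obtain ⟨x, hx, y, hy, rfl⟩ := (mem_sup_of_le_normalizer hn).mp hg.1
    have hza : Subgroup.zpowers a ≤ A := Subgroup.zpowers_le.mpr ha
    obtain ⟨x', hx', y', hy', he⟩ := exists_centralizer_factorization (Subgroup.zpowers a) X Y
      (isPGroup_zpowers (hA.2 a ha)) (not_dvd_card_of_le inf_le_left hXp)
      (hza.trans hAX) (hza.trans hAY) x y hx hy (by rw [centralizer_zpowers]; exact hg.2)
    rw [centralizer_zpowers] at hx' hy'
    rw [he]
    exact mul_mem (hXθ a ha ha1 hx') (hYθ a ha ha1 hy')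

end Cfsg.Agent.S1280
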