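import Mathlib
import Cfsg.Statements.S1282
import Cfsg.Agent.Lib.Helper22.Generation

set_option autoImplicit false
open Cfsg
open Cfsg.Agent.Lib.Helper22

namespace Cfsg.Agent.S1282

theorem exists_hyperplane_not_le {G : Type*} [Group G] [Finite G] (p : ℕ) [Fact p.Prime]
    (A : Subgroup G) (hA : Cfsg.IsElementaryAbelian p A) (q : ℕ) [Fact q.Prime] (hqp : q ≠ p)
    (Q D : Subgroup G) (h : IsPGroup q ↥Q) (hAQ : A ≤ Subgroup.normalizer (Q : Set G))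
    (hAD : A ≤ Subgroup.normalizer (D : Set G)) (hDQ : D < Q) :
    ∃ B : Subgroup G, B ≤ A ∧ B.relIndex A ≤ p ∧
      ¬ (Subgroup.normalizer (D : Set G) ⊓ Q ⊓ Subgroup.centralizer (B : Set G) ≤ D) := by
  have hAc : ∀ x ∈ A, ∀ y ∈ A, x * y = y * x := by
    intro x hx y hy
    have := hA.1.is_comm.comm ⟨x, hx⟩ ⟨y, hy⟩
    exact congrArg Subtype.val this
  have hpQ : ¬ p ∣ Nat.card Q := by
    obtain ⟨k, hk⟩ := IsPGroup.iff_card.mp h
    rw [hk]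
    intro hdvd
    have := (Nat.prime_dvd_prime_iff_eq Fact.out Fact.out).mp (Nat.Prime.dvd_of_dvd_pow Fact.out hdvd)
    exact hqp this.symm
  have hAN : A ≤ Subgroup.normalizer ((Subgroup.normalizer (D : Set G) ⊓ Q : Subgroup G) : Set G) := by
    rw [inf_comm]
    exact le_normalizer_inf_normalizer hAQ hAD
  have key := eq_iSup_centralizer_hyperplane A (Subgroup.normalizer (D : Set G) ⊓ Q) hAc hA.2
    (not_dvd_card_of_le inf_le_right hpQ) hAN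
  by_contra hcon
  push Not at hcon
  obtain ⟨x, hxQ, hxN, hxD⟩ := exists_mem_normalizer_not_mem h hDQ
  apply hxD
  have h1 : Subgroup.normalizer (D : Set G) ⊓ Q ≤ D := by
    rw [key]
    refine iSup_le ?_
    rintro ⟨B, hB1, hB2⟩
    exact hcon B hB1 hB2
  exact h1 (Subgroup.mem_inf.mpr ⟨hxN, hxQ⟩)

/-- Let A be an elementary abelian p-subgroup of rank at least 3 of the finite group G, q ≠ p a prime, and Q₁, Q₂ q-subgroups normalized by A with D = Q₁ ∩ Q₂ different from both. Then there is a non-identity a ∈ A such that, for i = 1 and i = 2, N_{Q_i}(D) ∩ C_G(a) is not contained in D. -/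
theorem result {G : Type*} [Group G] [Finite G] (p : ℕ) [Fact p.Prime] (A : Subgroup G) (hA : Cfsg.IsElementaryAbelian p A) (hA3 : p ^ 3 ≤ Nat.card ↥A) (q : ℕ) [Fact q.Prime] (hqp : q ≠ p) (Q₁ Q₂ : Subgroup G) (h₁ : IsPGroup q ↥Q₁) (h₂ : IsPGroup q ↥Q₂) (hA₁ : A ≤ Subgroup.normalizer (Q₁ : Set G)) (hA₂ : A ≤ Subgroup.normalizer (Q₂ : Set G)) (hD₁ : Q₁ ⊓ Q₂ ≠ Q₁) (hD₂ : Q₁ ⊓ Q₂ ≠ Q₂) : ∃ a ∈ A, a ≠ 1 ∧ ¬ (Subgroup.normalizer ((Q₁ ⊓ Q₂ : Subgroup G) : Set G) ⊓ Q₁ ⊓ Subgroup.centralizer {a} ≤ Q₁ ⊓ Q₂) ∧ ¬ (Subgroup.normalizer ((Q₁ ⊓ Q₂ : Subgroup G) : Set G) ⊓ Q₂ ⊓ Subgroup.centralizer {a} ≤ Q₁ ⊓ Q₂) := by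
  have hp : p.Prime := Fact.out
  have hAD : A ≤ Subgroup.normalizer ((Q₁ ⊓ Q₂ : Subgroup G) : Set G) := le_normalizer_inf hA₁ hA₂
  obtain ⟨B₁, hB₁A, hB₁p, hB₁⟩ := exists_hyperplane_not_le p A hA q hqp Q₁ (Q₁ ⊓ Q₂) h₁ hA₁ hAD
    (lt_of_le_of_ne inf_le_left hD₁)
  obtain ⟨B₂, hB₂A, hB₂p, hB₂⟩ := exists_hyperplane_not_le p A hA q hqp Q₂ (Q₁ ⊓ Q₂) h₂ hA₂ hAD
    (lt_of_le_of_ne inf_le_right hD₂)
  have hne : B₁ ⊓ B₂ ≠ ⊥ := by
    intro hbot
    have h1 : (B₁ ⊓ B₂).relIndex A ≤ B₁.relIndex A * B₂.relIndex A := Subgroup.relIndex_inf_le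
    rw [hbot, Subgroup.relIndex_bot_left] at h1
    have h2 : B₁.relIndex A * B₂.relIndex A ≤ p * p := Nat.mul_le_mul hB₁p hB₂p
    have h3 : p * p < p ^ 3 := by
      have := hp.two_le
      calc p * p = p * p * 1 := by ring
        _ < p * p * p := by
          apply Nat.mul_lt_mul_of_pos_left (by omega) (by positivity)
        _ = p ^ 3 := by ring
    omega
  obtain ⟨a, ha1⟩ := (Subgroup.ne_bot_iff_exists_ne_one).mp hne
  have ha' := Subgroup.mem_inf.mp a.2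
  refine ⟨a, hB₁A ha'.1, fun h => ha1 (Subtype.ext h), ?_, ?_⟩
  · intro hle
    apply hB₁
    refine le_trans (inf_le_inf_left _ (Subgroup.centralizer_le ?_)) hle
    simpa using ha'.1
  · intro hle
    apply hB₂
    refine le_trans (inf_le_inf_left _ (Subgroup.centralizer_le ?_)) hle
    simpa using ha'.2

end Cfsg.Agent.S1282
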