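import Cfsg.Statements.S1453
import Cfsg.Agent.Lib.Helper24.PGroup2

set_option autoImplicit false
open Cfsg
open Cfsg.Agent.Lib.Helper24
open scoped commutatorElement

namespace Cfsg.Agent.S1453

/-- `Ω₁(Z(R))` as a subgroup. -/
def omegaCenter (R : Type*) [Group R] (p : ℕ) : Subgroup R where
  carrier := {x | x ∈ Subgroup.center R ∧ x ^ p = 1}
  one_mem' := ⟨Subgroup.one_mem _, one_pow p⟩
  mul_mem' := by
    rintro a b ⟨ha, hap⟩ ⟨hb, hbp⟩
    refine ⟨Subgroup.mul_mem _ ha hb, ?_⟩
    have hc : Commute a b := (Subgroup.mem_center_iff.1 ha b).symm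
    rw [hc.mul_pow, hap, hbp, one_mul]
  inv_mem' := by
    rintro a ⟨ha, hap⟩
    exact ⟨Subgroup.inv_mem _ ha, by rw [inv_pow, hap, inv_one]⟩

/-- `Ω₁(Z₂(R))` as a subgroup, for odd `p`. -/
def omegaCenter2 (R : Type*) [Group R] (p : ℕ) [Fact p.Prime] (hp : p ≠ 2) : Subgroup R where
  carrier := {x | x ∈ Subgroup.upperCentralSeries R 2 ∧ x ^ p = 1}
  one_mem' := ⟨Subgroup.one_mem _, one_pow p⟩
  mul_mem' := by
    rintro a b ⟨ha, hap⟩ ⟨hb, hbp⟩
    refine ⟨Subgroup.mul_mem _ ha hb, ?_⟩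
    have h1 : ⁅b, a⁆ ∈ Subgroup.center R := by
      have := (Subgroup.mem_upperCentralSeries_succ_iff (n := 1)).1 hb a
      rwa [Subgroup.upperCentralSeries_one] at this
    have h2 : ∀ g : R, Commute ⁅b, a⁆ g := fun g => (Subgroup.mem_center_iff.1 h1 g).symm
    rw [mul_pow_prime_of_commute p hp a b (h2 a) (h2 b) (by rw [hbp]; exact Commute.one_left a),
      hap, hbp, one_mul]
  inv_mem' := by
    rintro a ⟨ha, hap⟩
    exact ⟨Subgroup.inv_mem _ ha, by rw [inv_pow, hap, inv_one]⟩

/-- If `⁅w, g⁆` is central and `w ^ n = 1` then `⁅w, g⁆ ^ n = 1`. -/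
theorem commutator_pow_eq_one {R : Type*} [Group R] (w g : R) (n : ℕ)
    (hc : ⁅w, g⁆ ∈ Subgroup.center R) (hw : w ^ n = 1) : ⁅w, g⁆ ^ n = 1 := by
  have h2 : ∀ y : R, Commute ⁅w, g⁆ y := fun y => (Subgroup.mem_center_iff.1 hc y).symm
  have h1 := pow_mul_eq_of_commute g w (h2 g) (h2 w) n
  rw [hw, one_mul, mul_one] at h1
  exact (mul_eq_right.1 h1.symm)

/-- Let p be an odd prime and R a finite p-group with an elementary abelian subgroup of order p ^ 3 and an elementary abelian subgroup E of order p ^ 2 contained in no larger elementary abelian subgroup. Let Z₂ be the second centre of R, W the subgroup generated by the elements of Z₂ of order dividing p, and T = C_R(W). Then E is not contained in T; the elements of order dividing p of the centre of R generate a group of order p; W is elementary abelian of order p ^ 2; and T is characteristic in R of index p. -/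
theorem result {R : Type*} [Group R] [Finite R] (p : ℕ) [Fact p.Prime] (hp : p ≠ 2) (hR : IsPGroup p R) (hr : ¬ Cfsg.PRankLE p 2 R)
    (E : Subgroup R) (hE : Cfsg.IsElementaryAbelian p E) (hE2 : Nat.card E = p ^ 2)
    (hEmax : ∀ B : Subgroup R, Cfsg.IsElementaryAbelian p B → E ≤ B → B = E) :
    ¬ E ≤ Subgroup.centralizer ((Subgroup.closure {x : R | x ∈ Subgroup.upperCentralSeries R 2 ∧ x ^ p = 1} : Subgroup R) : Set R) ∧
      Nat.card ↥(Subgroup.closure {x : R | x ∈ Subgroup.center R ∧ x ^ p = 1}) = p ∧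
      (Cfsg.IsElementaryAbelian p (Subgroup.closure {x : R | x ∈ Subgroup.upperCentralSeries R 2 ∧ x ^ p = 1}) ∧
        Nat.card ↥(Subgroup.closure {x : R | x ∈ Subgroup.upperCentralSeries R 2 ∧ x ^ p = 1}) = p ^ 2) ∧
      (Subgroup.centralizer ((Subgroup.closure {x : R | x ∈ Subgroup.upperCentralSeries R 2 ∧ x ^ p = 1} : Subgroup R) : Set R)).Characteristic ∧
      (Subgroup.centralizer ((Subgroup.closure {x : R | x ∈ Subgroup.upperCentralSeries R 2 ∧ x ^ p = 1} : Subgroup R) : Set R)).index = p := by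
  classical
  have hpp : p.Prime := Fact.out
  obtain ⟨hEc, hEp⟩ := hE
  unfold Cfsg.PRankLE at hr
  push Not at hr
  obtain ⟨B, hBc, hBp, hB⟩ := hr
  have hZeq : Subgroup.closure {x : R | x ∈ Subgroup.center R ∧ x ^ p = 1} = omegaCenter R p :=
    Subgroup.closure_eq (omegaCenter R p)
  have hWeq : Subgroup.closure {x : R | x ∈ Subgroup.upperCentralSeries R 2 ∧ x ^ p = 1} =
      omegaCenter2 R p hp := Subgroup.closure_eq (omegaCenter2 R p hp)
  rw [hZeq, hWeq]
  set Z := omegaCenter R p with hZ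
  set W := omegaCenter2 R p hp with hW
  have hTop : IsPGroup p (⊤ : Subgroup R) := hR.to_subgroup ⊤
  have hp2lt : p < p ^ 2 := by
    calc p = p ^ 1 := (pow_one p).symm
      _ < p ^ 2 := Nat.pow_lt_pow_right hpp.one_lt (by norm_num)
  -- maximality of `E`: elements of order `p` centralizing `E` lie in `E`
  have hmaxE : ∀ y : R, y ∈ Subgroup.centralizer (E : Set R) → y ^ p = 1 → y ∈ E := by
    intro y hy hyp
    have h1 := hEmax (adjoin E y hy) ⟨adjoin_comm hy hEc, adjoin_pow hy p hEp hyp⟩ (le_adjoin E y hy)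
    exact h1 ▸ self_mem_adjoin E y hy
  have hcenter_cent : ∀ (S : Subgroup R), Subgroup.center R ≤ Subgroup.centralizer (S : Set R) :=
    fun S => Subgroup.center_le_centralizer _
  have hZcenter : Z ≤ Subgroup.center R := fun z hz => hz.1
  have hZE : Z ≤ E := fun z hz => hmaxE z (hcenter_cent E hz.1) hz.2
  -- `E` is not central
  have hEnc : ¬ E ≤ Subgroup.center R := by
    intro h
    have hBE : ¬ B ≤ E := fun h2 => by
      have := Subgroup.card_le_of_le h2
      omega
    obtain ⟨b, hbB, hbE⟩ := SetLike.not_le_iff_exists.1 hBE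
    apply hbE
    apply hmaxE b _ (hBp b hbB)
    rw [Subgroup.mem_centralizer_iff]
    intro e he
    exact (Subgroup.mem_center_iff.1 (h he) b).symm
  have hZltE : Z < E := by
    refine lt_of_le_of_ne hZE ?_
    intro h
    exact hEnc (h ▸ hZcenter)
  -- `Z ≠ ⊥`
  have hEbot : ¬ E ≤ ⊥ := by
    intro h
    have : E = ⊥ := le_bot_iff.1 h
    rw [this, Subgroup.card_bot] at hE2
    exact absurd hE2.symm (Nat.one_lt_pow (by norm_num) hpp.one_lt).ne'
  have hZbot : Z ≠ ⊥ := by
    have : Nontrivial R := by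
      obtain ⟨e, he, he1⟩ := SetLike.not_le_iff_exists.1 hEbot
      exact ⟨⟨e, 1, fun h => he1 (Subgroup.mem_bot.2 h)⟩⟩
    have hnt : Nontrivial (Subgroup.center R) := hR.center_nontrivial
    obtain ⟨c, hc1⟩ := exists_ne (1 : Subgroup.center R)
    have hc1' : (c : R) ≠ 1 := fun h => hc1 (Subtype.ext h)
    obtain ⟨k, hk⟩ := (IsPGroup.iff_orderOf.1 hR) (c : R)
    have hk0 : k ≠ 0 := by
      rintro rfl
      rw [pow_zero, orderOf_eq_one_iff] at hk
      exact hc1' hk
    obtain ⟨m, rfl⟩ : ∃ m, k = m + 1 := ⟨k - 1, by omega⟩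
    intro hbot
    have hmem : (c : R) ^ (p ^ m) ∈ Z := by
      refine ⟨Subgroup.pow_mem _ c.2 _, ?_⟩
      rw [← pow_mul, ← pow_succ, ← hk, pow_orderOf_eq_one]
    rw [hbot, Subgroup.mem_bot] at hmem
    have := orderOf_dvd_of_pow_eq_one hmem
    rw [hk] at this
    have h2 := Nat.le_of_dvd (pow_pos hpp.pos m) this
    have h3 : p ^ m < p ^ (m + 1) := Nat.pow_lt_pow_right hpp.one_lt (Nat.lt_succ_self m)
    omega
  have hZcard : Nat.card Z = p := by
    apply eq_of_dvd_sq_of_lt_of_lt hpp (hE2 ▸ Subgroup.card_dvd_of_le hZE)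
    · exact (Subgroup.one_lt_card_iff_ne_bot Z).2 hZbot
    · rw [← hE2]; exact card_lt_of_lt hZltE
  -- basic facts on `W`
  have hWcomm : ∀ w ∈ W, ∀ g : R, ⁅w, g⁆ ∈ Z := by
    intro w hw g
    have h1 : ⁅w, g⁆ ∈ Subgroup.center R := by
      have := (Subgroup.mem_upperCentralSeries_succ_iff (n := 1)).1 hw.1 g
      rwa [Subgroup.upperCentralSeries_one] at this
    exact ⟨h1, commutator_pow_eq_one w g p h1 hw.2⟩
  have hZW : Z ≤ W := by
    intro z hz
    refine ⟨?_, hz.2⟩
    have : Subgroup.upperCentralSeries R 1 ≤ Subgroup.upperCentralSeries R 2 :=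
      Subgroup.upperCentralSeries_mono R (by norm_num)
    apply this
    rw [Subgroup.upperCentralSeries_one]; exact hz.1
  have hZcentS : ∀ S : Subgroup R, Z ≤ Subgroup.centralizer (S : Set R) :=
    fun S => hZcenter.trans (hcenter_cent S)
  -- `E` is not contained in `W`
  have hEW : ¬ E ≤ W := by
    intro h
    have hEn : E.Normal := by
      rw [← Subgroup.normalizer_eq_top_iff, eq_top_iff, Subgroup.le_normalizer_iff]
      intro g _ e he
      have h1 : ⁅g, e⁆ ∈ E := by
        rw [← commutatorElement_inv]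
        exact E.inv_mem (hZE (hWcomm e (h he) g))
      have h2 : g * e * g⁻¹ = ⁅g, e⁆ * e := by rw [commutatorElement_def]; group
      rw [h2]; exact E.mul_mem h1 he
    obtain ⟨x, hxB, hxc, hxE⟩ := exists_centralizing_not_mem p hR E hEp hE2 B hBc hB
    exact hxE (hmaxE x hxc (hBp x hxB))
  have hWE : W ⊓ E = Z := by
    symm
    apply Subgroup.eq_of_le_of_card_ge (le_inf hZW hZE)
    rw [hZcard]
    have hlt : W ⊓ E < E := lt_of_le_of_ne inf_le_right (fun h => hEW (h ▸ inf_le_left))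
    have h1 : Nat.card (W ⊓ E : Subgroup R) ∣ p ^ 2 := hE2 ▸ Subgroup.card_dvd_of_le inf_le_right
    have h2 : Nat.card (W ⊓ E : Subgroup R) < p ^ 2 := hE2 ▸ card_lt_of_lt hlt
    obtain ⟨k, hk, hk2⟩ := (Nat.dvd_prime_pow hpp).1 h1
    rw [hk2] at h2 ⊢
    have : k < 2 := (Nat.pow_lt_pow_iff_right hpp.one_lt).1 h2
    calc p ^ k ≤ p ^ 1 := Nat.pow_le_pow_right hpp.pos (by omega)
      _ = p := pow_one p
  -- pick `e ∈ E \ Z`
  obtain ⟨e, heE, heZ⟩ := SetLike.exists_of_lt hZltE
  have heZc : e ∈ Subgroup.centralizer (Z : Set R) := by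
    rw [Subgroup.mem_centralizer_iff]
    intro y hy
    exact ((Subgroup.mem_center_iff.1 (hZcenter hy)) e).symm
  have hadjE : adjoin Z e heZc = E := by
    have hle : adjoin Z e heZc ≤ E := adjoin_le heZc hZE heE
    apply Subgroup.eq_of_le_of_card_ge hle
    have h1 : Nat.card (adjoin Z e heZc) ∣ p ^ 2 := hE2 ▸ Subgroup.card_dvd_of_le hle
    have h2 : p < Nat.card (adjoin Z e heZc) := by
      rw [← hZcard]
      apply card_lt_of_lt
      refine lt_of_le_of_ne (le_adjoin Z e heZc) ?_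
      intro h
      exact heZ (h ▸ self_mem_adjoin Z e heZc)
    rw [eq_sq_of_dvd_of_lt hpp h1 h2, hE2]
  have hmemZc : ∀ g : R, g ∈ Subgroup.centralizer (Z : Set R) := by
    intro g
    rw [Subgroup.mem_centralizer_iff]
    intro y hy
    exact ((Subgroup.mem_center_iff.1 (hZcenter hy)) g).symm
  -- `C_W(e) = Z`
  have hCWe : W ⊓ Subgroup.centralizer ({e} : Set R) = Z := by
    apply le_antisymm
    · intro w hw
      rw [← hWE]
      refine ⟨hw.1, hmaxE w ?_ hw.1.2⟩
      rw [← hadjE]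
      exact mem_centralizer_adjoin heZc (hmemZc w) ((Subgroup.mem_centralizer_iff.1 hw.2) e rfl)
    · refine le_inf hZW ?_
      intro x hx
      rw [Subgroup.mem_centralizer_iff]
      intro y _
      exact (Subgroup.mem_center_iff.1 (hZcenter hx) y)
  have hWle : Nat.card W ≤ p ^ 2 := by
    have hdvd := relIndex_centralizer_dvd e W Z (fun g hg => by
      rw [← commutatorElement_inv]; exact Z.inv_mem (hWcomm g hg e)) (hZcentS W)
    rw [hCWe, hZcard] at hdvd
    have h1 := relIndex_mul_card' hZW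
    rw [hZcard] at h1
    rw [← h1, sq]
    exact Nat.mul_le_mul_right p (Nat.le_of_dvd hpp.pos hdvd)
  -- an element of `W` outside `Z`
  have hTZ : (⊤ : Subgroup R) ≤ Subgroup.normalizer (Z : Set R) := by
    rw [Subgroup.le_normalizer_iff]
    intro g _ z hz
    have : g * z * g⁻¹ = z := by
      rw [(Subgroup.mem_center_iff.1 (hZcenter hz) g)]; group
    rw [this]; exact hz
  obtain ⟨f, -, hfc, hfZ, hfp, hf⟩ := exists_central_mod_of_order_p p hp Z ⊤ hTop le_top hTZ e
    (Subgroup.mem_top e) heZc heZ (hEp e heE)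
  have hfW : f ∈ W := by
    refine ⟨?_, hfp⟩
    rw [Subgroup.mem_upperCentralSeries_succ_iff]
    intro y
    rw [Subgroup.upperCentralSeries_one]
    exact hZcenter (hf y (Subgroup.mem_top y))
  have hZltW : Z < W := lt_of_le_of_ne hZW (fun h => hfZ (h ▸ hfW))
  have hWcard : Nat.card W = p ^ 2 := by
    obtain ⟨k, hk⟩ := IsPGroup.iff_card.1 (hR.to_subgroup W)
    have h1 : p < Nat.card W := hZcard ▸ card_lt_of_lt hZltW
    rw [hk] at h1 hWle ⊢
    have h2 : 1 < k := by
      have : p ^ 1 < p ^ k := by rwa [pow_one]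
      exact (Nat.pow_lt_pow_iff_right hpp.one_lt).1 this
    have h3 : k ≤ 2 := (Nat.pow_le_pow_iff_right hpp.one_lt).1 hWle
    have : k = 2 := by omega
    rw [this]
  have hWc : IsMulCommutative W := IsPGroup.isMulCommutative_of_card_eq_prime_sq hWcard
  have hnot : ¬ E ≤ Subgroup.centralizer (W : Set R) := by
    intro h
    have h1 : W ≤ Subgroup.centralizer (E : Set R) := Subgroup.le_centralizer_iff.1 h
    have h2 : W ≤ Z := by
      intro w hw
      rw [← hWE]
      exact ⟨hw, hmaxE w (h1 hw) hw.2⟩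
    exact absurd (hZltW.trans_le h2) (lt_irrefl _)
  have hWchar : W.Characteristic := by
    rw [Subgroup.characteristic_iff_le_comap]
    intro φ w hw
    refine ⟨?_, ?_⟩
    · have hchar : (Subgroup.upperCentralSeries R 2).Characteristic := inferInstance
      exact (Subgroup.characteristic_iff_le_comap.1 hchar φ) hw.1
    · show (φ w) ^ p = 1
      rw [← map_pow, hw.2, map_one]
  refine ⟨hnot, hZcard, ⟨⟨hWc, fun a ha => ha.2⟩, hWcard⟩, inferInstance, ?_⟩
  -- the index of `T`
  have hadjW : adjoin Z f hfc = W := by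
    have hle : adjoin Z f hfc ≤ W := adjoin_le hfc hZW hfW
    apply Subgroup.eq_of_le_of_card_ge hle
    have h1 : Nat.card (adjoin Z f hfc) ∣ p ^ 2 := hWcard ▸ Subgroup.card_dvd_of_le hle
    have h2 : p < Nat.card (adjoin Z f hfc) := by
      rw [← hZcard]
      apply card_lt_of_lt
      refine lt_of_le_of_ne (le_adjoin Z f hfc) ?_
      intro h
      exact hfZ (h ▸ self_mem_adjoin Z f hfc)
    rw [eq_sq_of_dvd_of_lt hpp h1 h2, hWcard]
  have hT : Subgroup.centralizer (W : Set R) = ⊤ ⊓ Subgroup.centralizer ({f} : Set R) := by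
    rw [top_inf_eq]
    apply le_antisymm
    · exact Subgroup.centralizer_le (by simpa using hfW)
    · intro g hg
      rw [← hadjW]
      exact mem_centralizer_adjoin hfc (hmemZc g) ((Subgroup.mem_centralizer_iff.1 hg) f rfl)
  have hdvd := relIndex_centralizer_dvd f ⊤ Z (fun g hg => hf g hg) (hZcentS ⊤)
  rw [← hT, hZcard, Subgroup.relIndex_top_right] at hdvd
  rcases (Nat.dvd_prime hpp).1 hdvd with h1 | h1
  · rw [Subgroup.index_eq_one] at h1
    exact absurd (h1 ▸ le_top) hnot
  · exact h1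

end Cfsg.Agent.S1453
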