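import Cfsg.Statements.S1462
import Cfsg.Agent.Lib.Helper63.PLength2
import Cfsg.Agent.Lib.Helper24.PGroup
import Cfsg.Agent.Lib.Helper76.PSolvable
import Cfsg.Agent.Lib.Helper25.NilpotentCoprime

set_option autoImplicit false
open Cfsg

namespace Cfsg.Agent.S1462

open Cfsg.Agent.Lib.Helper63 Cfsg.Agent.Lib.Helper25

variable {G : Type*} [Group G] [Finite G]

theorem isPSolvable_of_pLengthLE {p k : ℕ} (hp : p.Prime) (h : PLengthLE p k G) :
    IsPSolvable p G := by
  refine ⟨2 * k + 1, fun i => ups p G i.val, ups_zero p, h, ?_, fun i => inferInstance, ?_⟩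
  · intro i j hij
    exact ups_mono p hij
  · intro i
    have := ups_stepOK (G := G) hp i.val
    by_cases he : Even i.val
    · right; exact this.1 he
    · left; exact this.2 he

omit [Finite G] in
/-- adjoining a commuting element of order dividing `p` to an elementary abelian subgroup -/
theorem isElementaryAbelian_sup {p : ℕ} {E : Subgroup G} (hE : Cfsg.IsElementaryAbelian p E) {u : G}
    (hu : u ^ p = 1) (hc : ∀ e ∈ E, e * u = u * e) :
    Cfsg.IsElementaryAbelian p (Subgroup.closure ((E : Set G) ∪ {u})) := by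
  set S : Set G := (E : Set G) ∪ {u} with hS
  have hEc : ∀ a ∈ E, ∀ b ∈ E, a * b = b * a := by
    intro a ha b hb
    have := hE.1
    exact congrArg Subtype.val (mul_comm' (⟨a, ha⟩ : E) ⟨b, hb⟩)
  have hSS : ∀ a ∈ S, ∀ b ∈ S, a * b = b * a := by
    rintro a (ha | ha) b (hb | hb)
    · exact hEc a ha b hb
    · rw [Set.mem_singleton_iff.1 hb]; exact hc a ha
    · rw [Set.mem_singleton_iff.1 ha]; exact (hc b hb).symm
    · rw [Set.mem_singleton_iff.1 ha, Set.mem_singleton_iff.1 hb]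
  have h1 : Subgroup.closure S ≤ Subgroup.centralizer S := by
    rw [Subgroup.closure_le]
    intro a ha
    rw [SetLike.mem_coe, Subgroup.mem_centralizer_iff]
    intro b hb
    exact hSS b hb a ha
  have h2 : ∀ a ∈ Subgroup.closure S, ∀ b ∈ Subgroup.closure S, a * b = b * a := by
    intro a ha b hb
    have h3 := Subgroup.closure_le_centralizer_centralizer S hb
    rw [Subgroup.mem_centralizer_iff] at h3
    exact h3 a (h1 ha)
  refine ⟨⟨⟨fun a b => Subtype.ext (h2 a a.2 b b.2)⟩⟩, ?_⟩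
  intro a ha
  induction ha using Subgroup.closure_induction with
  | mem x hx =>
    rcases hx with hx | hx
    · exact hE.2 x hx
    · rw [Set.mem_singleton_iff.1 hx]; exact hu
  | one => exact one_pow p
  | mul x y hx hy ihx ihy =>
    rw [(show Commute x y from h2 x hx y hy).mul_pow, ihx, ihy, one_mul]
  | inv x hx ih => rw [inv_pow, ih, inv_one]

theorem lift_lemma (p : ℕ) [hp : Fact p.Prime] (K : Subgroup G) [K.Normal]
    (hK : (Nat.card K).Coprime p) (E : Subgroup G) (hE : Cfsg.IsElementaryAbelian p E)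
    (hEmax : ∀ B : Subgroup G, Cfsg.IsElementaryAbelian p B → E ≤ B → B = E)
    (xb : G ⧸ K) (hx : xb ^ p = 1)
    (hcomm : ∀ e ∈ E, (QuotientGroup.mk' K e) * xb = xb * (QuotientGroup.mk' K e)) :
    xb ∈ E.map (QuotientGroup.mk' K) := by
  have hEp : IsPGroup p E := fun x => ⟨1, by
    rw [pow_one]; exact Subtype.ext (by rw [Subgroup.coe_pow, hE.2 x x.2, Subgroup.coe_one])⟩
  let T := {g : G // QuotientGroup.mk' K g = xb}
  let act : MulAction E T :=
    { smul := fun e t => ⟨(e : G) * t.1 * (e : G)⁻¹, by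
        rw [map_mul, map_mul, t.2, hcomm e e.2, map_inv, mul_inv_cancel_right]⟩
      one_smul := fun t => Subtype.ext (by
        show ((1 : E) : G) * t.1 * ((1 : E) : G)⁻¹ = t.1
        simp)
      mul_smul := fun a b t => Subtype.ext (by
        show ((a * b : E) : G) * t.1 * ((a * b : E) : G)⁻¹
          = (a : G) * ((b : G) * t.1 * (b : G)⁻¹) * (a : G)⁻¹
        rw [Subgroup.coe_mul]
        group) }
  obtain ⟨x, hxx⟩ := QuotientGroup.mk'_surjective K xb
  have hcard : Nat.card T = Nat.card K := by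
    symm
    apply Nat.card_congr
    refine Equiv.ofBijective (fun k : K => (⟨x * k, by
      have hk1 : QuotientGroup.mk' K (k : G) = 1 := (QuotientGroup.eq_one_iff (k : G)).2 k.2
      rw [map_mul, hxx, hk1, mul_one]⟩ : T)) ⟨?_, ?_⟩
    · intro a b hab
      have := congrArg Subtype.val hab
      exact Subtype.ext (mul_left_cancel this)
    · rintro ⟨t, ht⟩
      refine ⟨⟨x⁻¹ * t, ?_⟩, ?_⟩
      · rw [← QuotientGroup.eq_one_iff]
        show QuotientGroup.mk' K (x⁻¹ * t) = 1
        rw [map_mul, map_inv, hxx, ht, inv_mul_cancel]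
      · apply Subtype.ext
        show x * (x⁻¹ * t) = t
        group
  obtain ⟨⟨x₁, hx₁⟩, hfix⟩ := hEp.nonempty_fixed_point_of_prime_not_dvd_card T (by
    rw [hcard]
    intro hd
    exact hp.out.one_lt.ne' (Nat.eq_one_of_dvd_coprimes hK hd dvd_rfl))
  have hx₁c : ∀ e ∈ E, e * x₁ = x₁ * e := by
    intro e he
    have h1 := congrArg Subtype.val (hfix ⟨e, he⟩)
    have h2 : e * x₁ * e⁻¹ = x₁ := h1
    calc e * x₁ = (e * x₁ * e⁻¹) * e := by group
      _ = x₁ * e := by rw [h2]
  obtain ⟨u, hu, v, hv, huv, ⟨k, hk⟩, hvp⟩ := exists_pPart_mul_pPrimePart p hp.out x₁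
  -- the image of `v` is trivial
  have hvK : QuotientGroup.mk' K v = 1 := by
    obtain ⟨i, rfl⟩ := Subgroup.mem_zpowers_iff.1 hv
    have d1 : orderOf (QuotientGroup.mk' K (x₁ ^ i)) ∣ p := by
      apply orderOf_dvd_of_pow_eq_one
      rw [map_zpow, hx₁, ← zpow_natCast, ← zpow_mul, mul_comm, zpow_mul, zpow_natCast, hx, one_zpow]
    have d2 : orderOf (QuotientGroup.mk' K (x₁ ^ i)) ∣ orderOf (x₁ ^ i) := orderOf_map_dvd _ _
    exact orderOf_eq_one_iff.1 (Nat.eq_one_of_dvd_coprimes hvp d2 d1)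
  have huK : QuotientGroup.mk' K u = xb := by
    rw [← hx₁, huv, map_mul, hvK, mul_one]
  have hup : u ^ p = 1 := by
    have h1 : u ^ p ∈ K := by
      rw [← QuotientGroup.eq_one_iff]
      show QuotientGroup.mk' K (u ^ p) = 1
      rw [map_pow, huK, hx]
    have d1 : orderOf (u ^ p) ∣ Nat.card K := by
      have := orderOf_dvd_natCard (⟨u ^ p, h1⟩ : K)
      simpa using this
    have d2 : orderOf (u ^ p) ∣ p ^ k := by
      rw [← hk]; exact orderOf_pow_dvd p
    exact orderOf_eq_one_iff.1 (Nat.eq_one_of_dvd_coprimes (Nat.Coprime.pow_right k hK) d1 d2)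
  have huc : ∀ e ∈ E, e * u = u * e := by
    intro e he
    obtain ⟨i, rfl⟩ := Subgroup.mem_zpowers_iff.1 hu
    exact (Commute.zpow_right (show Commute e x₁ from hx₁c e he) i).eq
  have hB := hEmax _ (isElementaryAbelian_sup hE hup huc)
    (fun e he => Subgroup.subset_closure (Or.inl he))
  have huE : u ∈ E := by
    rw [← hB]
    exact Subgroup.subset_closure (Or.inr rfl)
  exact ⟨u, huE, huK⟩

/-- Let G be a finite solvable group, p an odd prime with G = O_{p',p,p'}(G), E an elementary abelian p-subgroup contained in no larger elementary abelian p-subgroup of G, and L a subgroup of order coprime to p normalized by E. Then L ≤ O_{p'}(G). -/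
theorem result {G : Type*} [Group G] [Finite G] [Group.IsSolvable G] (p : ℕ) [Fact p.Prime] (hp : p ≠ 2) (hpl : Cfsg.PLengthLE p 1 G) (E L : Subgroup G) (hE : Cfsg.IsElementaryAbelian p E)
    (hEmax : ∀ B : Subgroup G, Cfsg.IsElementaryAbelian p B → E ≤ B → B = E) (hL : (Nat.card L).Coprime p) (hEL : E ≤ Subgroup.normalizer (L : Set G)) :
    L ≤ Cfsg.pPrimeCore p G := by
  have hpp : p.Prime := Fact.out
  rw [← ups_one_eq hpp]
  set K := ups p G 1 with hKdef
  have hK : (Nat.card K).Coprime p := card_ups_one_coprime hpp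
  set π := QuotientGroup.mk' K with hπ
  have hsurj : Function.Surjective π := QuotientGroup.mk'_surjective K
  set Pb := pCore p (G ⧸ K) with hPb
  have hPbp : IsPGroup p Pb := Cfsg.Agent.Lib.Lead.pCore_isPGroup p _
  have hPbn : Pb.Normal := inferInstance
  have hPbi : ¬ p ∣ Pb.index := by
    have s2 := (ups_stepOK (G := G) hpp 2).1 (by simp)
    have h3 : ups p G 3 = ⊤ := hpl
    simp only [Nat.reduceAdd] at s2
    rw [h3, Subgroup.relIndex_top_right, ups_two_eq, Subgroup.index_comap_of_surjective _ hsurj] at s2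
    intro hd
    exact hpp.one_lt.ne' (Nat.eq_one_of_dvd_coprimes s2 hd dvd_rfl)
  have hCP : Subgroup.centralizer (Pb : Set (G ⧸ K)) ≤ Pb :=
    Cfsg.Agent.Lib.Helper76.centralizer_pCore_le
      (Cfsg.Agent.Lib.Helper76.isPSolvable_quotient K (isPSolvable_of_pLengthLE hpp hpl))
      (pPrimeCore_quotient_ups_one hpp)
  have hEp : IsPGroup p E := fun x => ⟨1, by
    rw [pow_one]; exact Subtype.ext (by rw [Subgroup.coe_pow, hE.2 x x.2, Subgroup.coe_one])⟩
  set Eb := E.map π with hEb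
  set Lb := L.map π with hLb
  have hEbp : IsPGroup p Eb := hEp.map π
  have hEbP : Eb ≤ Pb := Cfsg.Agent.Lib.Helper76.le_of_isPGroup_of_not_dvd_index Pb hPbi Eb hEbp
  have hLbc : (Nat.card Lb).Coprime p :=
    Nat.Coprime.coprime_dvd_left (Subgroup.card_map_dvd L π) hL
  have hdisj : ∀ z, z ∈ Lb → z ∈ Pb → z = 1 := by
    intro z hzL hzP
    obtain ⟨k, hk⟩ := (IsPGroup.iff_orderOf.1 hPbp) ⟨z, hzP⟩
    have d1 : orderOf z ∣ p ^ k := by rw [← hk]; simp
    have d2 : orderOf z ∣ Nat.card Lb := by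
      have := orderOf_dvd_natCard (⟨z, hzL⟩ : Lb)
      simpa using this
    exact orderOf_eq_one_iff.1 (Nat.eq_one_of_dvd_coprimes (Nat.Coprime.pow_right k hLbc) d2 d1)
  -- `Lb` centralizes `Eb`
  have hLE : Lb ≤ Subgroup.centralizer (Eb : Set (G ⧸ K)) := by
    rintro _ ⟨l, hl, rfl⟩
    rw [Subgroup.mem_centralizer_iff]
    rintro _ ⟨e, he, rfl⟩
    have h1 : l * e * l⁻¹ * e⁻¹ ∈ L := by
      have h2 : e * l⁻¹ * e⁻¹ ∈ L := (Subgroup.mem_normalizer_iff.1 (hEL he) l⁻¹).1 (L.inv_mem hl)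
      have : l * e * l⁻¹ * e⁻¹ = l * (e * l⁻¹ * e⁻¹) := by group
      rw [this]
      exact L.mul_mem hl h2
    have h3 : π (l * e * l⁻¹ * e⁻¹) ∈ Pb := by
      have h4 : π e ∈ Pb := hEbP ⟨e, he, rfl⟩
      have h5 := hPbn.conj_mem _ h4 (π l)
      have : π (l * e * l⁻¹ * e⁻¹) = (π l * π e * (π l)⁻¹) * (π e)⁻¹ := by
        simp only [map_mul, map_inv]
      rw [this]
      exact Pb.mul_mem h5 (Pb.inv_mem h4)
    have h6 := hdisj _ ⟨_, h1, rfl⟩ h3
    have h7 : π l * π e * (π l)⁻¹ * (π e)⁻¹ = 1 := by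
      rw [← h6]; simp only [map_mul, map_inv]
    calc π e * π l = (π l * π e * (π l)⁻¹ * (π e)⁻¹)⁻¹ * (π l * π e) := by group
      _ = π l * π e := by rw [h7, inv_one, one_mul]
  have hLP : Lb ≤ Subgroup.normalizer (Pb : Set (G ⧸ K)) := by
    rw [Subgroup.normalizer_eq_top]; exact le_top
  have hEP : Eb ≤ Subgroup.normalizer (Pb : Set (G ⧸ K)) := by
    rw [Subgroup.normalizer_eq_top]; exact le_top
  have hfix : Pb ⊓ Subgroup.centralizer (Eb : Set (G ⧸ K)) ≤
      Subgroup.centralizer (Lb : Set (G ⧸ K)) := by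
    apply Cfsg.Agent.Lib.Helper24.le_centralizer_of_centralizes_omega p hp Lb hLbc _
      (hPbp.to_le inf_le_left)
    · intro l hl
      rw [Subgroup.mem_normalizer_iff]
      intro z
      have hlc := Subgroup.mem_centralizer_iff.1 (hLE hl)
      have key : ∀ (l : G ⧸ K), (∀ e ∈ (Eb : Set (G ⧸ K)), e * l = l * e) → ∀ z,
          z ∈ Pb ⊓ Subgroup.centralizer (Eb : Set (G ⧸ K)) →
          l * z * l⁻¹ ∈ Pb ⊓ Subgroup.centralizer (Eb : Set (G ⧸ K)) := by
        intro l hlc z hz
        refine ⟨hPbn.conj_mem z hz.1 l, ?_⟩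
        show l * z * l⁻¹ ∈ Subgroup.centralizer (Eb : Set (G ⧸ K))
        rw [Subgroup.mem_centralizer_iff]
        intro e he
        have h1 := Subgroup.mem_centralizer_iff.1 hz.2 e he
        have h2 := hlc e he
        have h3 : e * l⁻¹ = l⁻¹ * e := by
          calc e * l⁻¹ = l⁻¹ * (l * e) * l⁻¹ := by group
            _ = l⁻¹ * (e * l) * l⁻¹ := by rw [h2]
            _ = l⁻¹ * e := by group
        calc e * (l * z * l⁻¹) = (e * l) * z * l⁻¹ := by group
          _ = l * (e * z) * l⁻¹ := by rw [h2]; group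
          _ = l * z * (e * l⁻¹) := by rw [h1]; group
          _ = l * z * l⁻¹ * e := by rw [h3]; group
      constructor
      · exact key l hlc z
      · intro hz
        have hlc' : ∀ e ∈ (Eb : Set (G ⧸ K)), e * l⁻¹ = l⁻¹ * e :=
          Subgroup.mem_centralizer_iff.1 (Subgroup.inv_mem _ (hLE hl))
        have := key l⁻¹ hlc' _ hz
        have e1 : l⁻¹ * (l * z * l⁻¹) * l⁻¹⁻¹ = z := by group
        rwa [e1] at this
    · intro z hz hzp
      have hzE : z ∈ Eb := by
        apply lift_lemma p K hK E hE hEmax z hzp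
        intro e he
        exact Subgroup.mem_centralizer_iff.1 hz.2 _ ⟨e, he, rfl⟩
      rw [Subgroup.mem_centralizer_iff]
      intro l hl
      exact (Subgroup.mem_centralizer_iff.1 (hLE hl) z hzE).symm
  have hPL := Cfsg.Agent.Lib.Helper24.thompson_AxB p Lb Eb Pb hPbp hEbp hLbc hLE hLP hEP hfix
  intro l hl
  rw [← QuotientGroup.eq_one_iff]
  have hlb : π l ∈ Lb := ⟨l, hl, rfl⟩
  apply hdisj _ hlb
  apply hCP
  rw [Subgroup.mem_centralizer_iff]
  intro z hz
  exact (Subgroup.mem_centralizer_iff.1 (hPL hz) _ hlb).symm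

end Cfsg.Agent.S1462
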