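import Mathlib
import Cfsg.Statements.S1395
import Cfsg.Agent.Lib.Helper22.PiCoreOf
import Cfsg.Agent.Lib.Helper22.SupLemmas
import Cfsg.Agent.Lib.Helper1.CoprimeSylow

set_option autoImplicit false
set_option linter.unusedSectionVars false
set_option linter.style.haveILetI false
open Cfsg
open Cfsg.Agent.Lib.Helper22

namespace Cfsg.Agent.S1395

open Subgroup
open scoped Pointwise commutatorElement

variable {G : Type*} [Group G] [Finite G]

/-- the standing data -/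
structure Setup (A : Subgroup G) : Prop where
  simple : IsSimpleGroup G
  solv : ∀ H : Subgroup G, H ≠ ⊤ → Group.IsSolvable H
  hyp : TransitivityHypothesis A

/-- admissible overgroups of `A` -/
def Adm (A B : Subgroup G) : Prop :=
  B ≠ ⊤ ∧ A ≤ B ∧ ∀ r : ℕ, r.Prime → r ∣ Nat.card B → r ∣ Nat.card A

/-- `O_{π(A)'}(C_G(B))` -/
abbrev KK (A B : Subgroup G) : Subgroup G :=
  piCoreOf (primesNotDvd (Nat.card A)) (centralizer (B : Set G))

/-- transitivity of `KK A B` on the maximal `B`-invariant `q`-subgroups -/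
def Trans (A B : Subgroup G) (q : ℕ) : Prop :=
  ∀ Q₁ ∈ maxInvSubgroups ⊤ B {q}, ∀ Q₂ ∈ maxInvSubgroups ⊤ B {q},
    ∃ k ∈ KK A B, Q₂ = Q₁.map (MulAut.conj k).toMonoidHom

theorem le_core {A : Subgroup G} (hA : TransitivityHypothesis A) {X Y : Subgroup G} (hX : X ≠ ⊤)
    (hAX : A ≤ X) (hYX : Y ≤ X)
    (hYπ : ∀ p : ℕ, p.Prime → p ∣ Nat.card Y → p ∈ primesNotDvd (Nat.card A))
    (hAY : A ≤ normalizer (Y : Set G)) : Y ≤ piCoreOf (primesNotDvd (Nat.card A)) X := by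
  rw [← hA.2.2 X hX hAX]
  exact le_sSup ⟨hYX, hYπ, hAY⟩

theorem normalizer_ne_top (hG : IsSimpleGroup G) {H : Subgroup G} (h1 : H ≠ ⊥) (h2 : H ≠ ⊤) :
    normalizer (H : Set G) ≠ ⊤ := by
  intro h
  have hn : H.Normal := normalizer_eq_top_iff.mp h
  rcases hn.eq_bot_or_eq_top with h | h
  · exact h1 h
  · exact h2 h

theorem Adm.ne_bot {A B : Subgroup G} (hA : TransitivityHypothesis A) (hB : Adm A B) : B ≠ ⊥ := by
  intro h
  apply hA.1
  rw [eq_bot_iff, ← h]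
  exact hB.2.1

theorem normalizer_le_normalizer_centralizer' (P : Subgroup G) :
    normalizer (P : Set G) ≤ normalizer ((centralizer (P : Set G) : Subgroup G) : Set G) := by
  have := le_normalizer_inf_centralizer (A := normalizer (P : Set G)) (K := ⊤) (B := P)
    (by rw [normalizer_eq_top (H := (⊤ : Subgroup G))]; exact le_top) le_rfl
  simpa using this

theorem normalizer_le_normalizer_KK (A B : Subgroup G) :
    normalizer (B : Set G) ≤ normalizer ((KK A B : Subgroup G) : Set G) :=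
  (normalizer_le_normalizer_centralizer' B).trans (normalizer_le_normalizer_piCoreOf _ _)

theorem KK_le_centralizer (A B : Subgroup G) : KK A B ≤ centralizer (B : Set G) :=
  piCoreOf_le _ _

theorem Adm.coprime {A B L : Subgroup G} (hB : Adm A B)
    (hL : ∀ p : ℕ, p.Prime → p ∣ Nat.card L → p ∈ primesNotDvd (Nat.card A)) :
    (Nat.card B).Coprime (Nat.card L) :=
  coprime_of_primes hB.2.2 hL

/-- `O_{π'}(N_G(B)) ≤ O_{π'}(C_G(B))` -/
theorem core_normalizer_le_KK {A B : Subgroup G} (hB : Adm A B) :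
    piCoreOf (primesNotDvd (Nat.card A)) (normalizer (B : Set G)) ≤ KK A B := by
  set L := piCoreOf (primesNotDvd (Nat.card A)) (normalizer (B : Set G)) with hL
  have hLN : L ≤ normalizer (B : Set G) := piCoreOf_le _ _
  have hNL : normalizer (B : Set G) ≤ normalizer (L : Set G) := le_normalizer_piCoreOf _ _
  have hcop : (Nat.card B).Coprime (Nat.card L) := hB.coprime (piCoreOf_primes _ _)
  have hd : Disjoint B L := by
    exact disjoint_of_coprime_natCard hcop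
  apply le_piCoreOf
  · intro x hx
    exact Cfsg.Agent.Lib.Helper1.mem_centralizer_of_mem_normalizer (le_normalizer.trans hNL) hd hx
      (hLN hx)
  · exact (centralizer_le_normalizer _).trans hNL
  · exact piCoreOf_primes _ _

theorem KK_inf {A : Subgroup G} (S : Setup A) {B B₁ : Subgroup G} (hB : Adm A B) (hB₁ : Adm A B₁)
    (hBB₁ : B ≤ B₁) : KK A B ⊓ centralizer (B₁ : Set G) = KK A B₁ := by
  have hCC : centralizer (B₁ : Set G) ≤ centralizer (B : Set G) := centralizer_le hBB₁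
  apply le_antisymm
  · apply le_piCoreOf _ inf_le_right
    · apply le_normalizer_inf
      · exact hCC.trans (le_normalizer_piCoreOf _ _)
      · exact le_normalizer
    · intro p hp hd
      exact piCoreOf_primes _ _ p hp (hd.trans (card_dvd_of_le inf_le_left))
  · refine le_inf ?_ (piCoreOf_le _ _)
    refine le_trans ?_ (core_normalizer_le_KK hB)
    apply le_core S.hyp (normalizer_ne_top S.simple (hB.ne_bot S.hyp) hB.1)
      (hB.2.1.trans le_normalizer)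
      ((piCoreOf_le _ _).trans (hCC.trans (centralizer_le_normalizer _)))
      (piCoreOf_primes _ _)
    refine le_trans ?_ (centralizer_le_normalizer _)
    rw [le_centralizer_iff]
    exact (piCoreOf_le _ _).trans (centralizer_le hB₁.2.1)

theorem mem_invSubgroups_top {B Y : Subgroup G} {q : ℕ} (hq : q.Prime) :
    Y ∈ invSubgroups ⊤ B {q} ↔ IsPGroup q Y ∧ B ≤ normalizer (Y : Set G) := by
  constructor
  · rintro ⟨-, h1, h2⟩
    exact ⟨isPGroup_of_primes h1, h2⟩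
  · rintro ⟨h1, h2⟩
    exact ⟨le_top, primes_of_isPGroup hq h1, h2⟩

theorem le_normalizer_conjS {B Y : Subgroup G} {c : G} (hc : c ∈ normalizer (B : Set G))
    (h : B ≤ normalizer (Y : Set G)) : B ≤ normalizer ((conjS c Y : Subgroup G) : Set G) := by
  have h1 := (Cfsg.Agent.Lib.Helper1.le_normalizer_conj_smul_iff (A := B) (P := Y) c).mpr (by
    have : MulAut.conj c⁻¹ • B = B :=
      Cfsg.Agent.Lib.Helper1.conj_smul_eq_of_mem_normalizer (inv_mem hc)
    rw [this]; exact h)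
  exact h1

theorem conjS_inv_conjS' (c : G) (Y : Subgroup G) : conjS c⁻¹ (conjS c Y) = Y := by
  rw [← conjS_mul, inv_mul_cancel, conjS_one]

theorem conjS_conjS_inv' (c : G) (Y : Subgroup G) : conjS c (conjS c⁻¹ Y) = Y := by
  rw [← conjS_mul, mul_inv_cancel, conjS_one]

theorem maxInv_conj {B Q : Subgroup G} {q : ℕ} (hq : q.Prime) {c : G}
    (hc : c ∈ normalizer (B : Set G)) (hQ : Q ∈ maxInvSubgroups ⊤ B {q}) :
    conjS c Q ∈ maxInvSubgroups ⊤ B {q} := by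
  obtain ⟨h1, h2⟩ := hQ
  rw [mem_invSubgroups_top hq] at h1
  refine ⟨(mem_invSubgroups_top hq).mpr ⟨h1.1.map _, le_normalizer_conjS hc h1.2⟩, ?_⟩
  intro R hR hle
  rw [mem_invSubgroups_top hq] at hR
  have h3 := h2 (conjS c⁻¹ R) ((mem_invSubgroups_top hq).mpr
    ⟨hR.1.map _, le_normalizer_conjS (inv_mem hc) hR.2⟩) (by
      have : conjS c⁻¹ (conjS c Q) ≤ conjS c⁻¹ R :=
        map_mono (f := (MulAut.conj c⁻¹).toMonoidHom) hle
      rwa [conjS_inv_conjS'] at this)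
  rw [← h3, conjS_conjS_inv']

theorem exists_maxInv (B : Subgroup G) {q : ℕ} (hq : q.Prime) :
    ∃ Q, Q ∈ maxInvSubgroups ⊤ B {q} := by
  obtain ⟨Q, -, hQ⟩ := (Set.toFinite (invSubgroups ⊤ B {q})).exists_le_maximal (a := ⊥)
    ((mem_invSubgroups_top hq).mpr ⟨IsPGroup.of_bot, by
      rw [normalizer_eq_top (H := (⊥ : Subgroup G))]; exact le_top⟩)
  exact ⟨Q, hQ.prop, fun R hR hle => le_antisymm (hQ.le_of_ge hR hle) hle⟩

/-- a nontrivial maximal `B₁`-invariant `q`-subgroup is a maximal `B`-invariant one -/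
theorem max_of_max {A : Subgroup G} (S : Setup A) {B B₁ : Subgroup G} (hB : Adm A B)
    (hB₁ : Adm A B₁) (hBB₁ : B ≤ B₁) {q : ℕ} (hq : q.Prime) (hqA : ¬ q ∣ Nat.card A)
    {Q : Subgroup G} (hQ : Q ∈ maxInvSubgroups ⊤ B₁ {q}) (hne : Q ≠ ⊥) :
    Q ∈ maxInvSubgroups ⊤ B {q} := by
  haveI : Fact q.Prime := ⟨hq⟩
  obtain ⟨h1, h2⟩ := hQ
  rw [mem_invSubgroups_top hq] at h1
  obtain ⟨hQq, hB₁Q⟩ := h1
  have hqπ : ∀ Y : Subgroup G, IsPGroup q Y →
      ∀ p : ℕ, p.Prime → p ∣ Nat.card Y → p ∈ primesNotDvd (Nat.card A) := by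
    intro Y hY p hp hd
    have : p = q := primes_of_isPGroup hq hY p hp hd
    rw [this]; exact ⟨hq, hqA⟩
  have hQtop : Q ≠ ⊤ := by
    intro h
    obtain ⟨r, hr, hrA⟩ := Nat.exists_prime_and_dvd (n := Nat.card A) (by
      intro h1
      exact S.hyp.1 (card_eq_one.mp h1))
    have h3 : r ∣ Nat.card Q := hrA.trans (card_dvd_of_le (h ▸ le_top))
    exact (hqπ Q hQq r hr h3).2 hrA
  set H := normalizer (Q : Set G) with hH
  have hHtop : H ≠ ⊤ := normalizer_ne_top S.simple hne hQtop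
  set L := piCoreOf (primesNotDvd (Nat.card A)) H with hL
  have hAH : A ≤ H := hB₁.2.1.trans hB₁Q
  have hQL : Q ≤ L := le_core S.hyp hHtop hAH le_normalizer (hqπ Q hQq) hAH
  have hLsolv : Group.IsSolvable L := by
    haveI := S.solv H hHtop
    exact Group.isSolvable_of_isSolvable_injective (f := inclusion (piCoreOf_le _ H)) (inclusion_injective _)
  obtain ⟨T, hQT, hTL, hTq, hTi, hB₁T⟩ :=
    Cfsg.Agent.Lib.Helper1.invariant_pSubgroup_le_invariant_sylow B₁ L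
      (hB₁Q.trans (le_normalizer_piCoreOf _ _)) (hB₁.coprime (piCoreOf_primes _ _))
      (Or.inr hLsolv) q Q hQL hQq hB₁Q
  have hTQ : T = Q := h2 T ((mem_invSubgroups_top hq).mpr ⟨hTq, hB₁T⟩) hQT
  rw [hTQ] at hTi
  refine ⟨(mem_invSubgroups_top hq).mpr ⟨hQq, hBB₁.trans hB₁Q⟩, ?_⟩
  intro R hR hle
  rw [mem_invSubgroups_top hq] at hR
  by_contra hcon
  have hlt : Q < R := lt_of_le_of_ne hle (fun h => hcon h.symm)
  obtain ⟨x, hxR, hxN, hxQ⟩ := exists_mem_normalizer_not_mem hR.1 hlt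
  have h3 : R ⊓ H ≤ L := by
    apply le_core S.hyp hHtop hAH inf_le_right (hqπ _ (hR.1.to_le inf_le_left))
    apply le_normalizer_inf_normalizer (hB.2.1.trans hR.2) hAH
  have h4 : R ⊓ H = Q := Cfsg.Agent.Lib.Helper1.eq_of_le_of_sylow_rel hTi
    (le_inf hle le_normalizer) h3 (hR.1.to_le inf_le_left)
  exact hxQ (h4 ▸ mem_inf.mpr ⟨hxR, hxN⟩)

/-- existence of a `B₁`-invariant member -/
theorem exists_invariant {A : Subgroup G} (S : Setup A) {B B₁ : Subgroup G}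
    (hB₁ : Adm A B₁) (hn : B₁ ≤ normalizer (B : Set G)) {q : ℕ} (hq : q.Prime)
    (htr : Trans A B q) :
    ∃ Q ∈ maxInvSubgroups ⊤ B {q}, B₁ ≤ normalizer (Q : Set G) := by
  obtain ⟨Q₀, hQ₀⟩ := exists_maxInv B hq
  set K := KK A B with hK
  have hB₁K : B₁ ≤ normalizer (K : Set G) := hn.trans (normalizer_le_normalizer_KK A B)
  have hcop : (Nat.card B₁).Coprime (Nat.card K) := hB₁.coprime (piCoreOf_primes _ _)
  have hsolv : Group.IsSolvable B₁ := S.solv B₁ hB₁.1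
  have hKN : K ≤ normalizer (B : Set G) :=
    (KK_le_centralizer A B).trans (centralizer_le_normalizer _)
  set R : Subgroup G := normalizer (Q₀ : Set G) ⊓ (B₁ ⊔ K) with hR
  have hRK : R ⊔ K = B₁ ⊔ K := by
    apply le_antisymm (sup_le inf_le_right le_sup_right)
    refine sup_le ?_ le_sup_right
    intro b hb
    obtain ⟨k, hk, hkb⟩ := htr Q₀ hQ₀ (conjS b Q₀) (maxInv_conj hq (hn hb) hQ₀)
    have h1 : k⁻¹ * b ∈ normalizer (Q₀ : Set G) := by
      rw [mem_normalizer_iff_map_conj_eq]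
      show conjS (k⁻¹ * b) Q₀ = Q₀
      rw [conjS_mul, hkb, conjS_inv_conjS']
    have h2 : k⁻¹ * b ∈ R :=
      mem_inf.mpr ⟨h1, mul_mem (inv_mem (mem_sup_right hk)) (mem_sup_left hb)⟩
    have h3 : b = (k⁻¹ * b) * ((k⁻¹ * b)⁻¹ * k * (k⁻¹ * b)) := by group
    rw [h3]
    refine mul_mem (mem_sup_left h2) (mem_sup_right ?_)
    have h4 : (k⁻¹ * b)⁻¹ ∈ normalizer (K : Set G) :=
      inv_mem (mul_mem (inv_mem (le_normalizer hk)) (hB₁K hb))
    have := (mem_normalizer_iff.mp h4 k).mp hk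
    simpa using this
  obtain ⟨k, hk, hkR⟩ := Cfsg.Agent.Lib.Helper1.exists_conj_le_of_sup_eq B₁ K R hB₁K hcop
    (Or.inl hsolv) hRK
  refine ⟨conjS k⁻¹ Q₀, maxInv_conj hq (inv_mem (hKN hk)) hQ₀, ?_⟩
  have := (Cfsg.Agent.Lib.Helper1.le_normalizer_conj_smul_iff (A := B₁) (P := Q₀) k⁻¹).mpr (by
    rw [inv_inv]; exact hkR.trans inf_le_left)
  exact this

/-- transitivity on the `B₁`-invariant members -/
theorem trans_invariant {A : Subgroup G} (S : Setup A) {B B₁ : Subgroup G}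
    (hB₁ : Adm A B₁) (hn : B₁ ≤ normalizer (B : Set G)) {q : ℕ}
    (htr : Trans A B q) {Q₁ Q₂ : Subgroup G} (h₁ : Q₁ ∈ maxInvSubgroups ⊤ B {q})
    (h₂ : Q₂ ∈ maxInvSubgroups ⊤ B {q}) (hi₁ : B₁ ≤ normalizer (Q₁ : Set G))
    (hi₂ : B₁ ≤ normalizer (Q₂ : Set G)) :
    ∃ z ∈ KK A B ⊓ centralizer (B₁ : Set G), Q₂ = conjS z Q₁ := by
  set K := KK A B with hK
  have hB₁K : B₁ ≤ normalizer (K : Set G) := hn.trans (normalizer_le_normalizer_KK A B)
  have hcop : (Nat.card B₁).Coprime (Nat.card K) := hB₁.coprime (piCoreOf_primes _ _)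
  have hsolv : Group.IsSolvable B₁ := S.solv B₁ hB₁.1
  obtain ⟨k, hk, hkQ⟩ := htr Q₁ h₁ Q₂ h₂
  obtain ⟨c, hc, z, hz, hkcz⟩ := Cfsg.Agent.Lib.Helper1.exists_mul_of_conj_le B₁ K
    (normalizer (Q₂ : Set G)) hB₁K hcop (Or.inl hsolv) hi₂ k hk (by
      have := (Cfsg.Agent.Lib.Helper1.le_normalizer_conj_smul_iff (A := MulAut.conj k • B₁)
        (P := Q₁) k).mpr (by
          rw [smul_smul, ← map_mul, inv_mul_cancel, map_one, one_smul]; exact hi₁)
      rw [hkQ]; exact this)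
  refine ⟨z, hz, ?_⟩
  have h3 : conjS c (conjS z Q₁) = Q₂ := by rw [← conjS_mul, ← hkcz, hkQ]
  have h4 : conjS c⁻¹ Q₂ = Q₂ := conjS_eq_of_mem_normalizer (inv_mem (mem_inf.mp hc).1)
  rw [← h4, ← h3, conjS_inv_conjS']

/-- the normal step -/
theorem normal_step {A : Subgroup G} (S : Setup A) {B B₁ : Subgroup G} (hB : Adm A B)
    (hB₁ : Adm A B₁) (hBB₁ : B ≤ B₁) (hn : B₁ ≤ normalizer (B : Set G)) {q : ℕ} (hq : q.Prime)
    (hqA : ¬ q ∣ Nat.card A) (htr : Trans A B q) :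
    Trans A B₁ q ∧ maxInvSubgroups ⊤ B₁ {q} ⊆ maxInvSubgroups ⊤ B {q} := by
  have hsub : maxInvSubgroups ⊤ B₁ {q} ⊆ maxInvSubgroups ⊤ B {q} := by
    intro Q hQ
    by_cases hne : Q = ⊥
    · obtain ⟨Q', hQ', hi⟩ := exists_invariant S hB₁ hn hq htr
      have h1 : Q' = Q := hQ.2 Q' ((mem_invSubgroups_top hq).mpr
        ⟨((mem_invSubgroups_top hq).mp hQ'.1).1, hi⟩) (hne ▸ bot_le)
      rw [← h1]; exact hQ'
    · exact max_of_max S hB hB₁ hBB₁ hq hqA hQ hne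
  refine ⟨?_, hsub⟩
  intro Q₁ h₁ Q₂ h₂
  obtain ⟨z, hz, hzQ⟩ := trans_invariant S hB₁ hn htr (hsub h₁) (hsub h₂)
    ((mem_invSubgroups_top hq).mp h₁.1).2 ((mem_invSubgroups_top hq).mp h₂.1).2
  rw [KK_inf S hB hB₁ hBB₁] at hz
  exact ⟨z, hz, hzQ⟩

/-- the subnormal induction -/
theorem subnormal_step {A : Subgroup G} (S : Setup A) {P : Subgroup G} (hP : Adm A P) {q : ℕ}
    (hq : q.Prime) (hqA : ¬ q ∣ Nat.card A) (H : Subgroup P) (hH : H.IsSubnormal) :
    A ≤ H.map P.subtype → Trans A (H.map P.subtype) q →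
    Trans A P q ∧ maxInvSubgroups ⊤ P {q} ⊆ maxInvSubgroups ⊤ (H.map P.subtype) {q} := by
  induction hH with
  | top =>
    intro _ htr
    have : (⊤ : Subgroup P).map P.subtype = P := by
      rw [← MonoidHom.range_eq_map, range_subtype]
    rw [this] at htr ⊢
    exact ⟨htr, subset_rfl⟩
  | step H K hle _ hN ih =>
    intro hAH htr
    have hadm : ∀ U : Subgroup P, A ≤ U.map P.subtype → Adm A (U.map P.subtype) := by
      intro U hU
      refine ⟨?_, hU, ?_⟩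
      · intro h
        apply hP.1
        rw [eq_top_iff, ← h]
        exact map_subtype_le _
      · intro r hr hd
        exact hP.2.2 r hr (hd.trans (card_dvd_of_le (map_subtype_le _)))
    have hHK : H.map P.subtype ≤ K.map P.subtype := map_mono hle
    have hn : K.map P.subtype ≤ normalizer ((H.map P.subtype : Subgroup G) : Set G) := by
      rw [le_normalizer_iff]
      rintro _ ⟨k, hk, rfl⟩ _ ⟨h, hh, rfl⟩
      have := hN.conj_mem ⟨h, hle hh⟩ (mem_subgroupOf.mpr hh) ⟨k, hk⟩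
      exact ⟨k * h * k⁻¹, mem_subgroupOf.mp this, rfl⟩
    obtain ⟨h1, h2⟩ := normal_step S (hadm H hAH) (hadm K (hAH.trans hHK)) hHK hn hq hqA htr
    obtain ⟨h3, h4⟩ := ih (hAH.trans hHK) h1
    exact ⟨h3, h4.trans h2⟩

/-- Let G be a minimal simple group of odd order, A a subgroup satisfying the transitivity hypothesis with K = O_{π(A)'}(C_G(A)), q a prime not dividing the order of A, and P a proper subgroup all of whose prime divisors divide the order of A, containing A as a subnormal subgroup, such that any two maximal A-invariant q-subgroups are conjugate under K. Then (a) K ∩ C_G(P) = O_{π(A)'}(C_G(P)); (b) any two maximal P-invariant q-subgroups are conjugate under O_{π(A)'}(C_G(P)); (c) every maximal P-invariant q-subgroup is a maximal A-invariant q-subgroup; (d) for every maximal P-invariant q-subgroup Q, P ∩ N_G(P)' ≤ N_G(Q)' and N_G(P) is generated by O_{π(A)'}(C_G(P)) and N_G(P) ∩ N_G(Q). -/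
theorem result {G : Type*} [Group G] [Finite G] (hG : Cfsg.IsMinSimpleOddOrder G)
    (A : Subgroup G) (hA : Cfsg.TransitivityHypothesis A) (q : ℕ) (hq : q.Prime) (hqA : ¬ q ∣ Nat.card A)
    (P : Subgroup G) (hP : P ≠ ⊤) (hPπ : (∀ r : ℕ, r.Prime → r ∣ Nat.card P → r ∣ Nat.card A)) (hAP : A ≤ P) (hsn : (A.subgroupOf P).IsSubnormal)
    (htr : ∀ Q₁ ∈ Cfsg.maxInvSubgroups ⊤ A {q}, ∀ Q₂ ∈ Cfsg.maxInvSubgroups ⊤ A {q}, ∃ k ∈ Cfsg.piCoreOf (Cfsg.primesNotDvd (Nat.card A)) (Subgroup.centralizer (A : Set G)), Q₂ = Q₁.map (MulAut.conj k).toMonoidHom) :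
    Cfsg.piCoreOf (Cfsg.primesNotDvd (Nat.card A)) (Subgroup.centralizer (A : Set G)) ⊓ Subgroup.centralizer (P : Set G) = Cfsg.piCoreOf (Cfsg.primesNotDvd (Nat.card A)) (Subgroup.centralizer (P : Set G)) ∧
      (∀ Q₁ ∈ Cfsg.maxInvSubgroups ⊤ P {q}, ∀ Q₂ ∈ Cfsg.maxInvSubgroups ⊤ P {q}, ∃ k ∈ Cfsg.piCoreOf (Cfsg.primesNotDvd (Nat.card A)) (Subgroup.centralizer (P : Set G)), Q₂ = Q₁.map (MulAut.conj k).toMonoidHom) ∧
      Cfsg.maxInvSubgroups ⊤ P {q} ⊆ Cfsg.maxInvSubgroups ⊤ A {q} ∧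
      ∀ Q ∈ Cfsg.maxInvSubgroups ⊤ P {q},
        P ⊓ ⁅Subgroup.normalizer (P : Set G), Subgroup.normalizer (P : Set G)⁆ ≤ ⁅Subgroup.normalizer (Q : Set G), Subgroup.normalizer (Q : Set G)⁆ ∧
        Subgroup.normalizer (P : Set G) = Cfsg.piCoreOf (Cfsg.primesNotDvd (Nat.card A)) (Subgroup.centralizer (P : Set G)) ⊔ (Subgroup.normalizer (P : Set G) ⊓ Subgroup.normalizer (Q : Set G)) := by
  obtain ⟨-, hsimple, -, hsolv⟩ := hG
  have S : Setup A := ⟨hsimple, hsolv, hA⟩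
  have hAdmA : Adm A A := ⟨hA.2.1, le_rfl, fun r _ h => h⟩
  have hAdmP : Adm A P := ⟨hP, hAP, hPπ⟩
  have hmap : (A.subgroupOf P).map P.subtype = A := by
    rw [subgroupOf_map_subtype, inf_of_le_left hAP]
  obtain ⟨hT, hsub⟩ := subnormal_step S hAdmP hq hqA (A.subgroupOf P) hsn (by rw [hmap])
    (by rw [hmap]; exact htr)
  rw [hmap] at hsub
  refine ⟨KK_inf S hAdmA hAdmP hAP, hT, hsub, ?_⟩
  intro Q hQ
  set N := normalizer (P : Set G) with hN
  set K := KK A P with hK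
  set N₁ := N ⊓ normalizer (Q : Set G) with hN₁
  have hKN : K ≤ N := (KK_le_centralizer A P).trans (centralizer_le_normalizer _)
  have hNK : N ≤ normalizer (K : Set G) := normalizer_le_normalizer_KK A P
  have hPQ : P ≤ normalizer (Q : Set G) := ((mem_invSubgroups_top hq).mp hQ.1).2
  have hfr : N = K ⊔ N₁ := by
    apply le_antisymm _ (sup_le hKN inf_le_left)
    intro g hg
    obtain ⟨k, hk, hkg⟩ := hT Q hQ (conjS g Q) (maxInv_conj hq hg hQ)
    have h1 : k⁻¹ * g ∈ normalizer (Q : Set G) := by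
      rw [mem_normalizer_iff_map_conj_eq]
      show conjS (k⁻¹ * g) Q = Q
      rw [conjS_mul, hkg, conjS_inv_conjS']
    have h2 : g = k * (k⁻¹ * g) := by group
    rw [h2]
    exact mul_mem (mem_sup_left hk)
      (mem_sup_right (mem_inf.mpr ⟨mul_mem (inv_mem (hKN hk)) hg, h1⟩))
  refine ⟨?_, hfr⟩
  have hN₁K : N₁ ≤ normalizer (K : Set G) := inf_le_left.trans hNK
  have hcomm : ⁅N, N⁆ ≤ K ⊔ ⁅N₁, N₁⁆ := by
    rw [commutator_le]
    intro g₁ hg₁ g₂ hg₂
    rw [hfr] at hg₁ hg₂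
    obtain ⟨k₁, hk₁, n₁, hn₁, rfl⟩ := (mem_sup_of_le_normalizer hN₁K).mp hg₁
    obtain ⟨k₂, hk₂, n₂, hn₂, rfl⟩ := (mem_sup_of_le_normalizer hN₁K).mp hg₂
    have e : ⁅k₁ * n₁, k₂ * n₂⁆ = k₁ * (n₁ * k₂ * n₁⁻¹) *
        ((n₁ * n₂ * n₁⁻¹) * k₁⁻¹ * (n₁ * n₂ * n₁⁻¹)⁻¹) * (⁅n₁, n₂⁆ * k₂⁻¹ * ⁅n₁, n₂⁆⁻¹) * ⁅n₁, n₂⁆ := by
      simp only [commutatorElement_def]; group
    rw [e]
    have hc : ⁅n₁, n₂⁆ ∈ ⁅N₁, N₁⁆ := commutator_mem_commutator hn₁ hn₂
    have hcN : ⁅n₁, n₂⁆ ∈ N₁ := commutator_le_self N₁ hc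
    refine mul_mem (mem_sup_left ?_) (mem_sup_right hc)
    refine mul_mem (mul_mem (mul_mem hk₁ ?_) ?_) ?_
    · exact (mem_normalizer_iff.mp (hN₁K hn₁) _).mp hk₂
    · exact (mem_normalizer_iff.mp (hN₁K (mul_mem (mul_mem hn₁ hn₂) (inv_mem hn₁))) _).mp
        (inv_mem hk₁)
    · exact (mem_normalizer_iff.mp (hN₁K hcN) _).mp (inv_mem hk₂)
  intro x hx
  obtain ⟨hxP, hxN⟩ := mem_inf.mp hx
  have hle : ⁅N₁, N₁⁆ ≤ N₁ := commutator_le_self N₁
  obtain ⟨k, hk, c, hc, hkc⟩ := (mem_sup_of_le_normalizer (hle.trans hN₁K)).mp (hcomm hxN)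
  have hxN₁ : x ∈ N₁ := mem_inf.mpr ⟨le_normalizer hxP, hPQ hxP⟩
  have hkN₁ : k ∈ N₁ := by
    have : k = x * c⁻¹ := by rw [← hkc]; group
    rw [this]; exact mul_mem hxN₁ (inv_mem (hle hc))
  have hcc : (⟨c, hle hc⟩ : N₁) ∈ _root_.commutator N₁ := by
    have h1 : c ∈ (_root_.commutator N₁).map N₁.subtype := by
      rw [map_subtype_commutator]; exact hc
    obtain ⟨y, hy, hyc⟩ := h1
    have : y = ⟨c, hle hc⟩ := Subtype.ext hyc
    rwa [← this]
  have hfx : (Abelianization.of (⟨x, hxN₁⟩ : N₁)) = Abelianization.of (⟨k, hkN₁⟩ : N₁) := by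
    have h1 : (⟨x, hxN₁⟩ : N₁) = ⟨k, hkN₁⟩ * ⟨c, hle hc⟩ := Subtype.ext hkc.symm
    rw [h1, map_mul]
    have h2 : Abelianization.of (⟨c, hle hc⟩ : N₁) = 1 := by
      rw [← MonoidHom.mem_ker, Abelianization.ker_of]; exact hcc
    rw [h2, mul_one]
  have hpK : k ^ Nat.card K = 1 := by
    have := pow_card_eq_one' (x := (⟨k, hk⟩ : K))
    exact congrArg Subtype.val this
  have hpP : x ^ Nat.card P = 1 := by
    have := pow_card_eq_one' (x := (⟨x, hxP⟩ : P))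
    exact congrArg Subtype.val this
  have h1 : (Abelianization.of (⟨x, hxN₁⟩ : N₁)) ^ Nat.card K = 1 := by
    rw [hfx, ← map_pow]
    have : (⟨k, hkN₁⟩ : N₁) ^ Nat.card K = 1 := Subtype.ext hpK
    rw [this, map_one]
  have h2 : (Abelianization.of (⟨x, hxN₁⟩ : N₁)) ^ Nat.card P = 1 := by
    rw [← map_pow]
    have : (⟨x, hxN₁⟩ : N₁) ^ Nat.card P = 1 := Subtype.ext hpP
    rw [this, map_one]
  have hcop : (Nat.card P).Coprime (Nat.card K) := hAdmP.coprime (piCoreOf_primes _ _)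
  have h3 : Abelianization.of (⟨x, hxN₁⟩ : N₁) = 1 := by
    have := pow_gcd_eq_one.mpr ⟨h2, h1⟩
    rwa [hcop.gcd_eq_one, pow_one] at this
  have h4 : (⟨x, hxN₁⟩ : N₁) ∈ _root_.commutator N₁ := by
    rw [← Abelianization.ker_of, MonoidHom.mem_ker]; exact h3
  have h5 : x ∈ ⁅N₁, N₁⁆ := by
    rw [← map_subtype_commutator]
    exact ⟨_, h4, rfl⟩
  exact commutator_mono inf_le_right inf_le_right h5

end Cfsg.Agent.S1395
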