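import Cfsg.Statements.S1450
import Cfsg.Agent.Lib.Helper24.Rank2Solv

set_option autoImplicit false
open Cfsg
open Cfsg.Agent.Lib.Helper24

namespace Cfsg.Agent.S1450

/-- Let G be a solvable group of odd order, p a prime dividing its order with G having no elementary abelian subgroup of order p ^ 3. Then every prime dividing the index of O_{p'}(G) is at most p; if p = 3 or p is the smallest prime divisor of #G then G has a normal p-complement; the derived subgroup G' has a normal p-complement; every subgroup of G' of order coprime to p lies in O_{p'}(G'); and G/O_{p',p}(G) is abelian of order coprime to p. -/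
theorem result {G : Type*} [Group G] [Finite G] [Group.IsSolvable G] (hodd : Odd (Nat.card G)) (p : ℕ) [Fact p.Prime] (hpG : p ∣ Nat.card G) (hr : Cfsg.PRankLE p 2 G) :
    (∀ q : ℕ, q.Prime → q ∣ (Cfsg.pPrimeCore p G).index → q ≤ p) ∧
      ((p = 3 ∨ ∀ q : ℕ, q.Prime → q ∣ Nat.card G → p ≤ q) → Cfsg.HasNormalPComplement p G) ∧
      Cfsg.HasNormalPComplement p ↥(commutator G) ∧
      (∀ L : Subgroup ↥(commutator G), (Nat.card L).Coprime p → L ≤ Cfsg.pPrimeCore p ↥(commutator G)) ∧
      commutator G ≤ Cfsg.pPrimePCore p G ∧ ((Cfsg.pPrimePCore p G).index).Coprime p := by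
  have hp : p.Prime := Fact.out
  have hp2 : p ≠ 2 := by
    rintro rfl
    exact (Nat.not_even_iff_odd.2 hodd) (even_iff_two_dvd.2 hpG)
  set K := Cfsg.pPrimeCore p G with hKdef
  have hKcop : (Nat.card K).Coprime p := Cfsg.Agent.Lib.Lead.card_pPrimeCore_coprime p
  have hoddH : Odd (Nat.card (G ⧸ K)) := Odd.of_dvd_nat hodd (Subgroup.card_quotient_dvd_card _)
  have hcore : Cfsg.pPrimeCore p (G ⧸ K) = ⊥ := Cfsg.Agent.Lib.Lead.pPrimeCore_quotient_pPrimeCore p G
  have hrH : Cfsg.PRankLE p 2 (G ⧸ K) := pRankLE_quotient p 2 K hKcop hr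
  obtain ⟨h1, h2, h3⟩ := rank2_solvable_core p hoddH hp2 hcore hrH
  have hRp : IsPGroup p (Cfsg.pCore p (G ⧸ K)) := Cfsg.Agent.Lib.Lead.pCore_isPGroup p _
  have hmap : ∀ x ∈ commutator G, QuotientGroup.mk' K x ∈ commutator (G ⧸ K) := by
    intro x hx
    have h4 : (commutator G).map (QuotientGroup.mk' K) ≤ commutator (G ⧸ K) := by
      rw [commutator_def, Subgroup.map_commutator, commutator_def]
      exact Subgroup.commutator_mono le_top le_top
    exact h4 ⟨x, hx, rfl⟩
  have hpow : ∀ x ∈ commutator G, ∃ k : ℕ, x ^ p ^ k ∈ K := by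
    intro x hx
    obtain ⟨k, hk⟩ := hRp ⟨_, h1 (hmap x hx)⟩
    refine ⟨k, ?_⟩
    have h5 : (QuotientGroup.mk' K x) ^ p ^ k = 1 := congrArg Subtype.val hk
    rw [← map_pow] at h5
    exact (QuotientGroup.eq_one_iff _).1 h5
  set N := K.subgroupOf (commutator G) with hNdef
  have hNcop : (Nat.card N).Coprime p := by
    have h6 : Nat.card N ∣ Nat.card K := by
      rw [← Subgroup.card_map_of_injective (commutator G).subtype_injective, hNdef,
        Subgroup.subgroupOf_map_subtype]
      exact Subgroup.card_dvd_of_le inf_le_left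
    exact Nat.Coprime.of_dvd_left h6 hKcop
  have hNn : N.Normal := inferInstance
  have hpowN : ∀ x : commutator G, ∃ k : ℕ, x ^ p ^ k ∈ N := by
    intro x
    obtain ⟨k, hk⟩ := hpow x x.2
    exact ⟨k, by rw [hNdef, Subgroup.mem_subgroupOf]; simpa using hk⟩
  refine ⟨?_, ?_, ?_, ?_, ?_, ?_⟩
  · intro q hq hqd
    rw [Subgroup.index_eq_card] at hqd
    exact h2 q hq hqd
  · intro hcase
    apply Cfsg.Agent.Lib.Helper34.hasNormalPComplement_of_normal K inferInstance hKcop
    have hcard : Nat.card (G ⧸ K) = p ^ (Nat.card (G ⧸ K)).primeFactorsList.length := by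
      apply Nat.eq_prime_pow_of_unique_prime_dvd Nat.card_pos.ne'
      intro q hq hqd
      have hle := h2 q hq hqd
      rcases hcase with rfl | hmin
      · have hq2 : q ≠ 2 := by
          rintro rfl
          exact (Nat.not_even_iff_odd.2 hoddH) (even_iff_two_dvd.2 hqd)
        have := hq.two_le
        omega
      · exact le_antisymm hle (hmin q hq (hqd.trans (Subgroup.card_quotient_dvd_card _)))
    exact IsPGroup.of_card hcard
  · apply Cfsg.Agent.Lib.Helper34.hasNormalPComplement_of_normal N hNn hNcop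
    intro y
    obtain ⟨x, rfl⟩ := QuotientGroup.mk'_surjective N y
    obtain ⟨k, hk⟩ := hpowN x
    exact ⟨k, by rw [← map_pow]; exact (QuotientGroup.eq_one_iff _).2 hk⟩
  · intro L hL
    refine le_trans ?_ (Cfsg.Agent.Lib.Lead.le_pPrimeCore hNn hNcop)
    intro x hx
    obtain ⟨k, hk⟩ := hpowN x
    apply mem_of_pow_mem_of_coprime N x _ hk
    have h7 : orderOf x ∣ Nat.card L := by
      have := orderOf_dvd_natCard (⟨x, hx⟩ : L)
      rwa [← Subgroup.orderOf_coe] at this
    exact (Nat.Coprime.pow_right k (Nat.Coprime.of_dvd_left h7 hL)).symm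
  · intro x hx
    exact h1 (hmap x hx)
  · have h8 : (Cfsg.pPrimePCore p G).index = (Cfsg.pCore p (G ⧸ K)).index :=
      Subgroup.index_comap_of_surjective _ (QuotientGroup.mk'_surjective K)
    rw [h8]; exact h3

end Cfsg.Agent.S1450
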