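import Cfsg.Statements.S1460
import Cfsg.Agent.Lib.Helper25.SZAmbient

set_option autoImplicit false
open Cfsg

namespace Cfsg.Agent.S1460

open scoped Pointwise commutatorElement

variable {G : Type*} [Group G] [Finite G] [Group.IsSolvable G]

omit [Finite G] [Group.IsSolvable G] in
theorem exists_mul_of_sup_eq_top (K U : Subgroup G) [K.Normal] (hKU : K ⊔ U = ⊤) (g : G) :
    ∃ u ∈ U, ∃ k ∈ K, g = u * k := by
  have h : g ∈ U ⊔ K := by rw [sup_comm, hKU]; exact Subgroup.mem_top g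
  rw [← SetLike.mem_coe, Subgroup.mul_normal] at h
  obtain ⟨u, hu, k, hk, h⟩ := h
  exact ⟨u, hu, k, hk, h.symm⟩

omit [Group.IsSolvable G] in
theorem inf_eq_bot_of_coprime (K H : Subgroup G) (hcop : (Nat.card H).Coprime (Nat.card K)) :
    ∀ x, x ∈ K → x ∈ H → x = 1 := by
  intro x hxK hxH
  have := (Subgroup.disjoint_of_coprime_natCard hcop).le_bot ⟨hxH, hxK⟩
  exact Subgroup.mem_bot.1 this

theorem part3 (K U H : Subgroup G) [K.Normal] (hKU : K ⊔ U = ⊤) (hH : H ≤ U)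
    (hcop : (Nat.card H).Coprime (Nat.card K)) (g : G)
    (hg : H.map (MulAut.conj g).toMonoidHom ≤ U) :
    ∃ u ∈ U, ∃ c ∈ K ⊓ Subgroup.centralizer (H : Set G), g = u * c := by
  obtain ⟨u₀, hu₀, k, hk, rfl⟩ := exists_mul_of_sup_eq_top K U hKU g
  have hkU : ∀ h ∈ H, k * h * k⁻¹ ∈ U := by
    intro h hh
    have h1 : (u₀ * k) * h * (u₀ * k)⁻¹ ∈ U := hg ⟨h, hh, by simp [MulAut.conj_apply, mul_assoc]⟩
    have h2 := U.mul_mem (U.mul_mem (U.inv_mem hu₀) h1) hu₀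
    have h3 : u₀⁻¹ * (u₀ * k * h * (u₀ * k)⁻¹) * u₀ = k * h * k⁻¹ := by group
    rwa [h3] at h2
  set N : Subgroup G := K ⊓ U with hN
  have hHN : H ≤ Subgroup.normalizer (N : Set G) := by
    intro h hh
    rw [Subgroup.mem_normalizer_iff]
    intro n
    have hhU := hH hh
    constructor
    · rintro ⟨h1, h2⟩
      exact ⟨‹K.Normal›.conj_mem n h1 h, U.mul_mem (U.mul_mem hhU h2) (U.inv_mem hhU)⟩
    · rintro ⟨h1, h2⟩
      have e : n = h⁻¹ * (h * n * h⁻¹) * h⁻¹⁻¹ := by group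
      rw [e]
      exact ⟨‹K.Normal›.conj_mem _ h1 h⁻¹,
        U.mul_mem (U.mul_mem (U.inv_mem hhU) h2) (U.inv_mem (U.inv_mem hhU))⟩
  have hB : H.map (MulAut.conj k).toMonoidHom ≤ N ⊔ H := by
    rintro _ ⟨h, hh, rfl⟩
    have e : (MulAut.conj k).toMonoidHom h = (k * h * k⁻¹ * h⁻¹) * h := by
      simp [MulAut.conj_apply]
    rw [e]
    apply Subgroup.mul_mem_sup _ hh
    refine ⟨?_, U.mul_mem (hkU h hh) (U.inv_mem (hH hh))⟩
    have e2 : k * h * k⁻¹ * h⁻¹ = k * (h * k⁻¹ * h⁻¹) := by group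
    rw [e2]
    exact K.mul_mem hk (‹K.Normal›.conj_mem _ (K.inv_mem hk) h)
  have hcopN : Nat.Coprime (Nat.card N) (Nat.card H) :=
    (Nat.Coprime.coprime_dvd_right (Subgroup.card_dvd_of_le inf_le_left) hcop).symm
  have hcard : Nat.card (H.map (MulAut.conj k).toMonoidHom) = Nat.card H :=
    Subgroup.card_map_of_injective (MulAut.conj k).injective
  obtain ⟨x, hx, hxe⟩ := Cfsg.Agent.Lib.Helper25.sz_conj_ambient N H _ hHN hB hcopN hcard
    (Or.inl inferInstance)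
  -- c = x⁻¹ k normalizes H
  have hcH : ∀ h ∈ H, (x⁻¹ * k) * h * (x⁻¹ * k)⁻¹ ∈ H := by
    intro h hh
    have h1 : (MulAut.conj k).toMonoidHom h ∈ H.map (MulAut.conj x).toMonoidHom := by
      rw [← hxe]; exact ⟨h, hh, rfl⟩
    obtain ⟨h', hh', he⟩ := h1
    have e : (x⁻¹ * k) * h * (x⁻¹ * k)⁻¹ = h' := by
      simp only [MulEquiv.coe_toMonoidHom, MulAut.conj_apply] at he
      calc (x⁻¹ * k) * h * (x⁻¹ * k)⁻¹ = x⁻¹ * (k * h * k⁻¹) * x := by group
        _ = x⁻¹ * (x * h' * x⁻¹) * x := by rw [he]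
        _ = h' := by group
    rw [e]; exact hh'
  have hcK : x⁻¹ * k ∈ K := K.mul_mem (K.inv_mem hx.1) hk
  refine ⟨u₀ * x, U.mul_mem hu₀ hx.2, x⁻¹ * k, ⟨hcK, ?_⟩, by group⟩
  show x⁻¹ * k ∈ Subgroup.centralizer (H : Set G)
  rw [Subgroup.mem_centralizer_iff]
  intro h hh
  have h1 : (x⁻¹ * k) * h * (x⁻¹ * k)⁻¹ * h⁻¹ = 1 := by
    apply inf_eq_bot_of_coprime K H hcop
    · have e2 : (x⁻¹ * k) * h * (x⁻¹ * k)⁻¹ * h⁻¹ = (x⁻¹ * k) * (h * (x⁻¹ * k)⁻¹ * h⁻¹) := by group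
      rw [e2]
      exact K.mul_mem hcK (‹K.Normal›.conj_mem _ (K.inv_mem hcK) h)
    · exact H.mul_mem (hcH h hh) (H.inv_mem hh)
  have h2 : (x⁻¹ * k) * h = h * (x⁻¹ * k) := by
    have := congrArg (· * (h * (x⁻¹ * k))) h1
    simpa [mul_assoc] using this
  exact h2.symm

omit [Group.IsSolvable G] in
theorem part1 (K U H : Subgroup G) [K.Normal] (hKU : K ⊔ U = ⊤) (hH : H ≤ U)
    (hcop : (Nat.card H).Coprime (Nat.card K)) : H ⊓ commutator G = H ⊓ ⁅U, U⁆ := by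
  apply le_antisymm
  · have hG' : commutator G ≤ K ⊔ ⁅U, U⁆ := by
      rw [commutator_def, Subgroup.commutator_le]
      intro g₁ _ g₂ _
      obtain ⟨u₁, hu₁, k₁, hk₁, rfl⟩ := exists_mul_of_sup_eq_top K U hKU g₁
      obtain ⟨u₂, hu₂, k₂, hk₂, rfl⟩ := exists_mul_of_sup_eq_top K U hKU g₂
      have h1 : ⁅u₁ * k₁, u₂ * k₂⁆ * ⁅u₁, u₂⁆⁻¹ ∈ K := by
        rw [← QuotientGroup.eq_one_iff]
        have hk₁' : ((k₁ : G) : G ⧸ K) = 1 := (QuotientGroup.eq_one_iff _).2 hk₁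
        have hk₂' : ((k₂ : G) : G ⧸ K) = 1 := (QuotientGroup.eq_one_iff _).2 hk₂
        simp [commutatorElement_def, hk₁', hk₂']
      have h2 : ⁅u₁ * k₁, u₂ * k₂⁆ = (⁅u₁ * k₁, u₂ * k₂⁆ * ⁅u₁, u₂⁆⁻¹) * ⁅u₁, u₂⁆ := by group
      rw [h2]
      exact Subgroup.mul_mem_sup h1 (Subgroup.commutator_mem_commutator hu₁ hu₂)
    rintro x ⟨hxH, hxG⟩
    refine ⟨hxH, ?_⟩
    have hx := hG' hxG
    rw [← SetLike.mem_coe, Subgroup.normal_mul] at hx
    obtain ⟨k, hk, u', hu', hku⟩ := hx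
    simp only at hku
    rw [SetLike.mem_coe] at hk hu'
    have hu'U : u' ∈ U := Subgroup.commutator_le_self U hu'
    have hxU : x ∈ U := hH hxH
    have hkU : k ∈ U := by
      have : k = x * u'⁻¹ := by rw [← hku]; group
      rw [this]; exact U.mul_mem hxU (U.inv_mem hu'U)
    -- pass to the abelianization of U
    have hu'' : (⟨u', hu'U⟩ : U) ∈ commutator U := by
      rw [← Subgroup.map_subtype_commutator] at hu'
      obtain ⟨y, hy, hye⟩ := hu'
      have : y = ⟨u', hu'U⟩ := Subtype.ext hye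
      rwa [← this]
    have f1 : Abelianization.of (⟨u', hu'U⟩ : U) = 1 := by
      rw [← MonoidHom.mem_ker, Abelianization.ker_of]; exact hu''
    have f2 : Abelianization.of (⟨x, hxU⟩ : U) = Abelianization.of (⟨k, hkU⟩ : U) := by
      have : (⟨x, hxU⟩ : U) = ⟨k, hkU⟩ * ⟨u', hu'U⟩ := Subtype.ext hku.symm
      rw [this, map_mul, f1, mul_one]
    have o1 : orderOf (Abelianization.of (⟨x, hxU⟩ : U)) ∣ Nat.card H := by
      refine (orderOf_map_dvd _ _).trans ?_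
      rw [Subgroup.orderOf_mk]
      have := orderOf_dvd_natCard (⟨x, hxH⟩ : H)
      rwa [Subgroup.orderOf_mk] at this
    have o2 : orderOf (Abelianization.of (⟨x, hxU⟩ : U)) ∣ Nat.card K := by
      rw [f2]
      refine (orderOf_map_dvd _ _).trans ?_
      rw [Subgroup.orderOf_mk]
      have := orderOf_dvd_natCard (⟨k, hk⟩ : K)
      rwa [Subgroup.orderOf_mk] at this
    have o3 : orderOf (Abelianization.of (⟨x, hxU⟩ : U)) = 1 := Nat.eq_one_of_dvd_coprimes hcop o1 o2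
    rw [orderOf_eq_one_iff, ← MonoidHom.mem_ker, Abelianization.ker_of] at o3
    rw [← Subgroup.map_subtype_commutator]
    exact ⟨⟨x, hxU⟩, o3, rfl⟩
  · apply inf_le_inf_left
    rw [commutator_def]
    exact Subgroup.commutator_mono le_top le_top

theorem result {G : Type*} [Group G] [Finite G] [Group.IsSolvable G] (K U H : Subgroup G) [K.Normal] (hKU : K ⊔ U = ⊤) (hH : H ≤ U) (hcop : (Nat.card H).Coprime (Nat.card K)) :
    H ⊓ commutator G = H ⊓ ⁅U, U⁆ ∧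
      Subgroup.normalizer (H : Set G) = (K ⊓ Subgroup.centralizer (H : Set G)) ⊔ (U ⊓ Subgroup.normalizer (H : Set G)) ∧
      ∀ g : G, H.map (MulAut.conj g).toMonoidHom ≤ U → ∃ u ∈ U, ∃ c ∈ K ⊓ Subgroup.centralizer (H : Set G), g = u * c := by
  refine ⟨part1 K U H hKU hH hcop, ?_, part3 K U H hKU hH hcop⟩
  have hCN : Subgroup.centralizer (H : Set G) ≤ Subgroup.normalizer (H : Set G) :=
    Subgroup.centralizer_le_normalizer (H : Set G)
  apply le_antisymm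
  · intro g hg
    have h1 : H.map (MulAut.conj g).toMonoidHom ≤ U := by
      rw [show (MulAut.conj g).toMonoidHom = ((MulAut.conj g : G ≃* G) : G →* G) from rfl,
        Subgroup.mem_normalizer_iff_map_conj_eq.1 hg]
      exact hH
    obtain ⟨u, hu, c, hc, rfl⟩ := part3 K U H hKU hH hcop g h1
    rw [sup_comm]
    apply Subgroup.mul_mem_sup _ hc
    refine ⟨hu, ?_⟩
    have := (Subgroup.normalizer (H : Set G)).mul_mem hg (inv_mem (hCN hc.2))
    simpa using this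
  · exact sup_le (inf_le_right.trans hCN) inf_le_right

end Cfsg.Agent.S1460
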