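import Cfsg.Statements.S1461
import Cfsg.Agent.S1460
import Cfsg.Agent.Lib.Helper63.PLength

set_option autoImplicit false
open Cfsg

namespace Cfsg.Agent.S1461

open Cfsg.Agent.Lib.Helper63

theorem key {G : Type*} [Group G] [Finite G] (p : ℕ) [hp : Fact p.Prime]
    (hpl : Cfsg.PLengthLE p 1 G) (S : Sylow p G) :
    ∃ K : Subgroup G, K.Normal ∧ (Nat.card K).Coprime p ∧
      K ⊔ Subgroup.normalizer ((S : Subgroup G) : Set G) = ⊤ := by
  have h3 : ups p G 3 = ⊤ := hpl
  have s0 := (ups_stepOK (G := G) hp.out 0).1 (by simp)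
  obtain ⟨m, s1⟩ := (ups_stepOK (G := G) hp.out 1).2 (by simp)
  have s2 := (ups_stepOK (G := G) hp.out 2).1 (by simp)
  rw [ups_zero, Subgroup.relIndex_bot_left] at s0
  simp only [Nat.reduceAdd] at s0 s1 s2
  rw [h3, Subgroup.relIndex_top_right] at s2
  have h12 : ups p G 1 ≤ ups p G 2 := ups_le_succ p 1
  -- S ≤ U2
  have hS2 : (S : Subgroup G) ≤ ups p G 2 := by
    intro x hx
    rw [← QuotientGroup.eq_one_iff]
    obtain ⟨k, hk⟩ := (IsPGroup.iff_orderOf.1 S.2) ⟨x, hx⟩
    have hk' : orderOf x = p ^ k := by rw [← hk]; simp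
    have h1 : orderOf ((x : G ⧸ ups p G 2)) ∣ p ^ k := by
      rw [← hk']
      exact orderOf_map_dvd (QuotientGroup.mk' (ups p G 2)) x
    have h2 : orderOf ((x : G ⧸ ups p G 2)) ∣ (ups p G 2).index := by
      rw [Subgroup.index_eq_card]
      exact orderOf_dvd_natCard _
    have h4 : orderOf ((x : G ⧸ ups p G 2)) = 1 :=
      Nat.eq_one_of_dvd_coprimes (Nat.Coprime.pow_right k s2) h2 h1
    exact orderOf_eq_one_iff.1 h4
  have hle : ups p G 1 ⊔ (S : Subgroup G) ≤ ups p G 2 := sup_le h12 hS2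
  have hge : ups p G 2 ≤ ups p G 1 ⊔ (S : Subgroup G) := by
    rw [← Subgroup.relIndex_eq_one]
    have d1 : (ups p G 1 ⊔ (S : Subgroup G)).relIndex (ups p G 2) ∣ p ^ m := by
      rw [← s1]
      exact Subgroup.relIndex_dvd_of_le_left _ le_sup_left
    have d2 : (ups p G 1 ⊔ (S : Subgroup G)).relIndex (ups p G 2) ∣ (S : Subgroup G).index := by
      refine (Subgroup.relIndex_dvd_of_le_left _ (le_sup_right : (S : Subgroup G) ≤ _)).trans ?_
      exact Subgroup.relIndex_dvd_index_of_le hS2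
    have hc : ((S : Subgroup G).index).Coprime (p ^ m) := by
      apply Nat.Coprime.pow_right
      exact ((Nat.Prime.coprime_iff_not_dvd hp.out).2 S.not_dvd_index).symm
    exact Nat.eq_one_of_dvd_coprimes hc d2 d1
  have heq : ups p G 2 = ups p G 1 ⊔ (S : Subgroup G) := le_antisymm hge hle
  have hfr := Sylow.normalizer_sup_eq_top' (N := ups p G 2) S hS2
  refine ⟨ups p G 1, inferInstance, s0, ?_⟩
  rw [heq] at hfr
  rw [← hfr]
  apply le_antisymm
  · exact sup_le (le_sup_left.trans le_sup_right) le_sup_left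
  · refine sup_le le_sup_right (sup_le le_sup_left ?_)
    exact (Subgroup.le_normalizer).trans le_sup_right

/-- Let G be a finite solvable group, p a prime with G = O_{p',p,p'}(G), and S a Sylow p-subgroup. Then: if S ≤ G' then S ≤ [N_G(S), N_G(S)]; if Y ⊆ S and xYx⁻¹ ⊆ S then x = g c for some g ∈ N_G(S) and c centralizing Y; and for every p-subgroup Q there is x ∈ C_G(Q ∩ S) with xQx⁻¹ ≤ S. -/
theorem result {G : Type*} [Group G] [Finite G] [Group.IsSolvable G] (p : ℕ) [Fact p.Prime] (hpl : Cfsg.PLengthLE p 1 G) (S : Sylow p G) :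
    ((S : Subgroup G) ≤ commutator G → (S : Subgroup G) ≤ ⁅Subgroup.normalizer ((S : Subgroup G) : Set G), Subgroup.normalizer ((S : Subgroup G) : Set G)⁆) ∧
      (∀ (Y : Set G) (x : G), Y ⊆ (S : Subgroup G) → (fun y => x * y * x⁻¹) '' Y ⊆ (S : Subgroup G) →
        ∃ g ∈ Subgroup.normalizer ((S : Subgroup G) : Set G), ∃ c ∈ Subgroup.centralizer Y, g * c = x) ∧
      ∀ Q : Subgroup G, IsPGroup p Q → ∃ x ∈ Subgroup.centralizer ((Q ⊓ (S : Subgroup G) : Subgroup G) : Set G), Q.map (MulAut.conj x).toMonoidHom ≤ (S : Subgroup G) := by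
  obtain ⟨K, hKn, hKp, hKU⟩ := key p hpl S
  have hSN : (S : Subgroup G) ≤ Subgroup.normalizer ((S : Subgroup G) : Set G) :=
    Subgroup.le_normalizer
  have hcop : ∀ H : Subgroup G, H ≤ (S : Subgroup G) → (Nat.card H).Coprime (Nat.card K) := by
    intro H hH
    obtain ⟨k, hk⟩ := (IsPGroup.iff_card.1 (S.2.to_le hH))
    rw [hk]
    exact (Nat.Coprime.pow_right k hKp).symm
  have part2 : ∀ (Y : Set G) (x : G), Y ⊆ (S : Subgroup G) →
      (fun y => x * y * x⁻¹) '' Y ⊆ (S : Subgroup G) →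
        ∃ g ∈ Subgroup.normalizer ((S : Subgroup G) : Set G),
          ∃ c ∈ Subgroup.centralizer Y, g * c = x := by
    intro Y x hY hxY
    have hH : Subgroup.closure Y ≤ (S : Subgroup G) := (Subgroup.closure_le _).2 hY
    have h := (Cfsg.Agent.S1460.result K _ (Subgroup.closure Y) hKU (hH.trans hSN)
      (hcop _ hH)).2.2 x (by
        rw [MonoidHom.map_closure, Subgroup.closure_le]
        rintro _ ⟨y, hy, rfl⟩
        exact hSN (hxY ⟨y, hy, by simp [MulAut.conj_apply]⟩))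
    obtain ⟨u, hu, c, hc, rfl⟩ := h
    refine ⟨u, hu, c, ?_, rfl⟩
    exact Subgroup.centralizer_le Subgroup.subset_closure hc.2
  refine ⟨?_, part2, ?_⟩
  · intro hS
    have h := (Cfsg.Agent.S1460.result K _ (S : Subgroup G) hKU hSN (hcop _ le_rfl)).1
    rw [inf_eq_left.2 hS] at h
    intro z hz
    have hz' : z ∈ (S : Subgroup G) ⊓ ⁅Subgroup.normalizer ((S : Subgroup G) : Set G),
        Subgroup.normalizer ((S : Subgroup G) : Set G)⁆ := h ▸ hz
    exact hz'.2
  · intro Q hQ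
    obtain ⟨T, hT⟩ := hQ.exists_le_sylow
    obtain ⟨y, rfl⟩ := MulAction.exists_smul_eq G S T
    -- Q ≤ y S y⁻¹
    have hy : ∀ q ∈ Q, y⁻¹ * q * y ∈ (S : Subgroup G) := by
      intro q hq
      have := hT hq
      rw [Sylow.coe_subgroup_smul, Subgroup.mem_pointwise_smul_iff_inv_smul_mem] at this
      simpa [MulAut.smul_def, MulAut.conj_apply] using this
    obtain ⟨g, hg, c, hc, hgc⟩ := part2 ((Q ⊓ (S : Subgroup G) : Subgroup G) : Set G) y⁻¹
      (fun z hz => hz.2) (by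
        rintro _ ⟨z, hz, rfl⟩
        have := hy z hz.1
        simp only [inv_inv]
        exact this)
    refine ⟨c, hc, ?_⟩
    rintro _ ⟨q, hq, rfl⟩
    have h1 := hy q hq
    have h2 : c = g⁻¹ * y⁻¹ := by rw [← hgc]; group
    have h3 : (MulAut.conj c).toMonoidHom q = g⁻¹ * (y⁻¹ * q * y) * g⁻¹⁻¹ := by
      simp only [MulEquiv.coe_toMonoidHom, MulAut.conj_apply, h2]; group
    rw [h3]
    exact ((Subgroup.mem_normalizer_iff.1 (Subgroup.inv_mem _ hg)) _).1 h1

end Cfsg.Agent.S1461
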