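import Cfsg.Statements.S0073
import Cfsg.Agent.Lib.Helper2.NCLemma
import Cfsg.Agent.Lib.Helper2.PComplement

set_option autoImplicit false
open Cfsg

namespace Cfsg.Agent.S0073

open Cfsg.Agent.Lib.Helper2

/-- For a finite non-abelian simple group, either the cube of the least prime divisor of the order divides the order, or 12 does. -/
theorem result {G : Type*} [Group G] [Finite G] [IsSimpleGroup G] (hG : ∃ x y : G, x * y ≠ y * x) : (Nat.card G).minFac ^ 3 ∣ Nat.card G ∨ 12 ∣ Nat.card G := by
  by_contra hcon
  rw [not_or] at hcon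
  obtain ⟨hcube, h12⟩ := hcon
  have hcard1 : Nat.card G ≠ 1 := by
    intro h
    have := (Nat.card_eq_one_iff_unique.mp h).1
    obtain ⟨x, y, hxy⟩ := hG
    exact hxy (Subsingleton.elim _ _)
  set p := (Nat.card G).minFac with hpdef
  have hp : p.Prime := Nat.minFac_prime hcard1
  haveI : Fact p.Prime := ⟨hp⟩
  have hpG : p ∣ Nat.card G := Nat.minFac_dvd _
  obtain ⟨P⟩ : Nonempty (Sylow p G) := inferInstance
  obtain ⟨k, hk⟩ := P.2.exists_card_eq
  have hk' : Nat.card P = p ^ k := hk
  have hk3 : k < 3 := by
    by_contra h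
    apply hcube
    have h1 : p ^ 3 ∣ p ^ k := pow_dvd_pow p (by omega)
    rw [← hk'] at h1
    exact h1.trans (Subgroup.card_subgroup_dvd_card _)
  have hk0 : k ≠ 0 := by
    rintro rfl
    rw [pow_zero] at hk
    exact P.ne_bot_of_dvd_card hpG (Subgroup.card_eq_one.mp hk)
  have hc : IsMulCommutative P := by
    have : k = 1 ∨ k = 2 := by omega
    rcases this with rfl | rfl
    · rw [pow_one] at hk'
      haveI : IsCyclic P := isCyclic_of_prime_card hk'
      infer_instance
    · exact IsPGroup.isMulCommutative_of_card_eq_prime_sq hk'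
  have hNC : Subgroup.normalizer (P : Set G) ≤ Subgroup.centralizer (P : Set G) := by
    apply normalizer_le_centralizer_of_not_dvd_sub (k := k) P hc hk'
    intro q hq hqp hqG j hj hd
    have hpq : p < q := lt_of_le_of_ne (Nat.minFac_le_of_dvd hq.two_le hqG) (Ne.symm hqp)
    have hnd1 : ¬ q ∣ p - 1 := by
      intro h
      have := Nat.le_of_dvd (by have := hp.two_le; omega) h
      omega
    have hndp : ¬ q ∣ p := by
      intro h
      exact hqp ((Nat.prime_dvd_prime_iff_eq hq hp).mp h)
    have hcases : (k = 1 ∧ j = 0) ∨ (k = 2 ∧ j = 0) ∨ (k = 2 ∧ j = 1) := by omega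
    rcases hcases with ⟨rfl, rfl⟩ | ⟨rfl, rfl⟩ | ⟨rfl, rfl⟩
    · rw [pow_one, pow_zero] at hd
      exact hnd1 hd
    · rw [pow_zero] at hd
      have h1 : p ^ 2 - 1 = (p + 1) * (p - 1) := by
        have := Nat.sq_sub_sq p 1
        simpa using this
      rw [h1] at hd
      rcases (Nat.Prime.dvd_mul hq).mp hd with h | h
      · have hle := Nat.le_of_dvd (by omega) h
        have hq1 : q = p + 1 := by omega
        -- p and p+1 both prime so p = 2
        have hp2 : p = 2 := by
          rcases hp.eq_two_or_odd with h2 | h2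
          · exact h2
          · rcases hq.eq_two_or_odd with h3 | h3
            · have := hp.two_le; omega
            · omega
        apply h12
        have h4 : 4 ∣ Nat.card G := by
          have : Nat.card P ∣ Nat.card G := Subgroup.card_subgroup_dvd_card _
          rw [hk', hp2] at this
          simpa using this
        have h3 : 3 ∣ Nat.card G := by
          rw [hq1, hp2] at hqG
          exact hqG
        have : Nat.Coprime 4 3 := by norm_num
        exact Nat.Coprime.mul_dvd_of_dvd_of_dvd this h4 h3
      · exact hnd1 h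
    · rw [pow_one] at hd
      have h1 : p ^ 2 - p = p * (p - 1) := by
        rw [Nat.mul_sub, mul_one, sq]
      rw [h1] at hd
      rcases (Nat.Prime.dvd_mul hq).mp hd with h | h
      · exact hndp h
      · exact hnd1 h
  have hcompl := MonoidHom.ker_transferSylow_isComplement' P hNC
  rcases (inferInstance : (MonoidHom.transferSylow P hNC).ker.Normal).eq_bot_or_eq_top with h | h
  · rw [h, Subgroup.isComplement'_bot_left] at hcompl
    obtain ⟨x, y, hxy⟩ := hG
    apply hxy
    have hx : x ∈ (P : Subgroup G) := by rw [hcompl]; exact Subgroup.mem_top x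
    have hy : y ∈ (P : Subgroup G) := by rw [hcompl]; exact Subgroup.mem_top y
    have := hc.is_comm.comm (⟨x, hx⟩ : P) ⟨y, hy⟩
    exact congrArg Subtype.val this
  · rw [h, Subgroup.isComplement'_top_left] at hcompl
    exact P.ne_bot_of_dvd_card hpG hcompl

end Cfsg.Agent.S0073
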