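import Cfsg.Statements.S0499
import Cfsg.Agent.S0071

set_option autoImplicit false
open Cfsg

namespace Cfsg.Agent.S0499

/-- An automorphism of prime order `r` of a finite group `Q`: `r` divides `|Q| - |Fix|`, and the
fixed points form a proper subgroup. -/
theorem exists_fix {Q : Type*} [Group Q] [Finite Q] (τ : MulAut Q) (r : ℕ) [Fact r.Prime]
    (hτ : orderOf τ = r) :
    ∃ c : ℕ, c ∣ Nat.card Q ∧ c < Nat.card Q ∧ Nat.card Q ≡ c [MOD r] := by
  have hp : IsPGroup r (Subgroup.zpowers τ) := by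
    apply IsPGroup.of_card (n := 1)
    rw [Nat.card_zpowers, hτ, pow_one]
  have h1 := hp.card_modEq_card_fixedPoints Q
  let F : Subgroup Q := (τ.toMonoidHom).eqLocus (MonoidHom.id Q)
  have hF : (MulAction.fixedPoints (Subgroup.zpowers τ) Q) = (F : Set Q) := by
    ext x
    rw [MulAction.mem_fixedPoints]
    constructor
    · intro h
      exact h ⟨τ, Subgroup.mem_zpowers τ⟩
    · intro h s
      have h2 : τ ∈ MulAction.stabilizer (MulAut Q) x := h
      exact (Subgroup.zpowers_le.2 h2) s.2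
  have hcard : Nat.card (MulAction.fixedPoints (Subgroup.zpowers τ) Q) = Nat.card F := by
    rw [hF]; rfl
  rw [hcard] at h1
  refine ⟨Nat.card F, Subgroup.card_subgroup_dvd_card F, ?_, h1⟩
  have hne : F ≠ ⊤ := by
    intro htop
    have : τ = 1 := by
      ext x
      have hx : x ∈ F := htop ▸ Subgroup.mem_top x
      exact hx
    rw [this, orderOf_one] at hτ
    exact (Fact.out : r.Prime).one_lt.ne hτ
  have hle : Nat.card F ≤ Nat.card Q := Nat.le_of_dvd Nat.card_pos (Subgroup.card_subgroup_dvd_card F)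
  rcases hle.lt_or_eq with h | h
  · exact h
  · exact absurd ((Subgroup.card_eq_iff_eq_top F).1 h) hne

theorem arith (j q c r : ℕ) (hj : j ≤ 3) (hq : q = 2 ^ j) (hc : c ∣ q) (hlt : c < q) (hr : r.Prime)
    (hr2 : r ≠ 2) (hmod : q ≡ c [MOD r]) : (r = 3 ∧ 4 ∣ q) ∨ (r = 7 ∧ q = 8) := by
  have hd : r ∣ q - c := (Nat.modEq_iff_dvd' hlt.le).1 hmod.symm
  subst hq
  obtain ⟨i, hi, rfl⟩ := (Nat.dvd_prime_pow Nat.prime_two).1 hc
  have hr7 : r ≤ 7 := by
    have hpos : 0 < 2 ^ j - 2 ^ i := Nat.sub_pos_of_lt hlt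
    have h8 : 2 ^ j ≤ 8 := by
      calc 2 ^ j ≤ 2 ^ 3 := Nat.pow_le_pow_right (by norm_num) hj
        _ = 8 := by norm_num
    have h1 := Nat.le_of_dvd hpos hd
    have h2 : 1 ≤ 2 ^ i := Nat.one_le_two_pow
    omega
  clear hmod hc
  interval_cases j <;> interval_cases i <;> interval_cases r <;>
    first
    | (exfalso; revert hr; norm_num; done)
    | (exfalso; revert hd; norm_num; done)
    | (exfalso; revert hlt; norm_num; done)
    | (exfalso; exact hr2 rfl)
    | norm_num

/-- A non-abelian finite simple group of even order has order divisible by 12, 16 or 56. -/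
theorem result {G : Type*} [Group G] [Finite G] [IsSimpleGroup G]
    (hG : ¬ IsMulCommutative G) (h2 : Even (Nat.card G)) :
    12 ∣ Nat.card G ∨ 16 ∣ Nat.card G ∨ 56 ∣ Nat.card G := by
  by_contra hcon
  push Not at hcon
  obtain ⟨h12, h16, h56⟩ := hcon
  obtain ⟨S⟩ : Nonempty (Sylow 2 G) := inferInstance
  obtain ⟨k, hk⟩ := IsPGroup.iff_card.1 S.isPGroup'
  have hSd : Nat.card S ∣ Nat.card G := Subgroup.card_subgroup_dvd_card _
  have hk3 : k ≤ 3 := by
    by_contra hk4
    push Not at hk4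
    apply h16
    refine dvd_trans ?_ hSd
    rw [hk]
    exact pow_dvd_pow 2 hk4
  have hfrob : ∃ N : Subgroup G, N.Normal ∧ N.IsComplement' (S : Subgroup G) := by
    rw [Cfsg.Agent.S0071.result S]
    intro Q hQS g hg hgo
    by_contra hgc
    set φ := Subgroup.normalizerMonoidHom Q with hφ
    set σ := φ ⟨g, hg⟩ with hσ
    have hσ1 : σ ≠ 1 := by
      intro h1
      have h3 : (⟨g, hg⟩ : Subgroup.normalizer (Q : Set G)) ∈ φ.ker := h1
      rw [hφ, Subgroup.normalizerMonoidHom_ker] at h3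
      exact hgc h3
    have hσo : orderOf σ ∣ orderOf g := by
      have := orderOf_map_dvd φ ⟨g, hg⟩
      rwa [Subgroup.orderOf_mk] at this
    have hσne : orderOf σ ≠ 1 := fun h => hσ1 (orderOf_eq_one_iff.1 h)
    obtain ⟨r, hr, hrd⟩ := Nat.exists_prime_and_dvd hσne
    have : Fact r.Prime := ⟨hr⟩
    have hσ0 : orderOf σ ≠ 0 := (orderOf_pos σ).ne'
    have hτ := orderOf_pow_orderOf_div hσ0 hrd
    obtain ⟨c, hc1, hc2, hc3⟩ := exists_fix _ r hτ
    have hrg : r ∣ orderOf g := hrd.trans hσo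
    have hrG : r ∣ Nat.card G := hrg.trans (orderOf_dvd_natCard g)
    have hr2 : r ≠ 2 := by
      rintro rfl
      have := Nat.Coprime.eq_one_of_dvd hgo.symm hrg
      omega
    have hQd : Nat.card Q ∣ Nat.card S := Subgroup.card_dvd_of_le hQS
    rw [hk] at hQd
    obtain ⟨j, hj, hjq⟩ := (Nat.dvd_prime_pow Nat.prime_two).1 hQd
    have hQG : Nat.card Q ∣ Nat.card G := Subgroup.card_subgroup_dvd_card _
    rcases arith j _ c r (hj.trans hk3) hjq hc1 hc2 hr hr2 hc3 with ⟨rfl, h4⟩ | ⟨rfl, h8⟩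
    · exact h12 (Nat.Coprime.mul_dvd_of_dvd_of_dvd (by norm_num : Nat.Coprime 3 4) hrG
        (h4.trans hQG))
    · exact h56 (Nat.Coprime.mul_dvd_of_dvd_of_dvd (by norm_num : Nat.Coprime 7 8) hrG
        (h8 ▸ hQG))
  obtain ⟨N, hNn, hNc⟩ := hfrob
  have hcard := hNc.card_mul_card
  have h2S : 2 ∣ Nat.card S := S.dvd_card_of_dvd_card h2.two_dvd
  rcases hNn.eq_bot_or_eq_top with rfl | rfl
  · rw [Subgroup.card_bot, one_mul] at hcard
    have hGp : IsPGroup 2 G := IsPGroup.of_card (hcard ▸ hk)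
    have hnt := hGp.center_nontrivial
    have hcn : (Subgroup.center G).Normal := inferInstance
    rcases hcn.eq_bot_or_eq_top with h | h
    · rw [h] at hnt
      exact not_nontrivial _ hnt
    · apply hG
      refine ⟨⟨fun a b => ?_⟩⟩
      have : b ∈ Subgroup.center G := h ▸ Subgroup.mem_top b
      exact (Subgroup.mem_center_iff.1 this a)
  · rw [Subgroup.card_top] at hcard
    have : Nat.card S = 1 := by
      have hpos : 0 < Nat.card G := Nat.card_pos
      exact Nat.eq_of_mul_eq_mul_left hpos (by rw [hcard, mul_one])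
    rw [this] at h2S
    omega

end Cfsg.Agent.S0499
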