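import Mathlib
import Cfsg.Statements.S0988
import Cfsg.Agent.Lib.Helper17.Basic
import Cfsg.Agent.Lib.Helper17.Burn

set_option autoImplicit false
open Cfsg

namespace Cfsg.Agent.S0988

open Cfsg.Agent.Lib.Helper17

lemma two_three {p s : ℕ} (hp : p.Prime) (hs : s.Prime) (hlt : p < s) (h : s ∣ p ^ 2 - 1) :
    p = 2 ∧ s = 3 := by
  have e : p ^ 2 - 1 = (p + 1) * (p - 1) := by
    have := Nat.sq_sub_sq p 1
    simpa using this
  rw [e] at h
  have hp2 := hp.two_le
  rcases hs.dvd_mul.mp h with h1 | h1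
  · have h2 : s ≤ p + 1 := Nat.le_of_dvd (by omega) h1
    have h3 : s = p + 1 := by omega
    rcases hp.eq_two_or_odd' with h4 | h4
    · exact ⟨h4, by omega⟩
    · exfalso
      have h5 : Even s := by rw [h3]; exact h4.add_one
      have h6 : s = 2 := hs.even_iff.mp h5
      omega
  · exfalso
    have h2 : s ≤ p - 1 := Nat.le_of_dvd (by omega) h1
    omega

lemma dvd_sub_one_of_mod {n s : ℕ} (h : n % s = 1) : s ∣ n - 1 := by
  have := Nat.div_add_mod n s
  rw [h] at this
  exact ⟨n / s, by omega⟩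

lemma mod_ne_one_of_lt {p s : ℕ} (hp : p.Prime) (hlt : p < s) : p % s ≠ 1 := by
  rw [Nat.mod_eq_of_lt hlt]
  exact hp.one_lt.ne'

variable {G : Type*} [Group G] [Finite G] [IsSimpleGroup G]

lemma caseB (p s : ℕ) (hp : p.Prime) (hs : s.Prime) (hne : p ≠ s) (h : Nat.card G = p ^ 3 * s) :
    False := by
  have : Fact p.Prime := ⟨hp⟩
  have : Fact s.Prime := ⟨hs⟩
  have hps : ¬ p ∣ s := fun hd => hne ((Nat.prime_dvd_prime_iff_eq hp hs).mp hd)
  have hsp : ¬ s ∣ p ^ 3 := fun hd => hne ((Nat.prime_dvd_prime_iff_eq hs hp).mp (hs.dvd_of_dvd_pow hd)).symm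
  rcases lt_or_gt_of_ne hne with hlt | hlt
  · -- p < s
    have hfac : Nat.card G = s ^ 1 * p ^ 3 := by rw [h]; ring
    have hm1 : p ^ 3 ≠ 1 := (Nat.one_lt_pow (by norm_num) hp.one_lt).ne'
    obtain ⟨t, ht, ht1, ht2⟩ := exists_prime_of_sylow_prime hfac hsp hm1
    obtain ⟨d1, d2⟩ := card_sylow_mem (p := s) hfac hsp
    have hn1 := card_sylow_ne_one (p := s) hfac hsp (by norm_num) hm1
    obtain ⟨k, hk, hk'⟩ := (Nat.dvd_prime_pow hp).mp d1
    rw [hk'] at ht2 d2 hn1
    have htp : t = p := (Nat.prime_dvd_prime_iff_eq ht hp).mp (ht.dvd_of_dvd_pow ((Dvd.intro _ rfl).trans ht2))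
    rw [htp, ← pow_succ'] at ht2
    have hk3 : k + 1 ≤ 3 := (Nat.pow_dvd_pow_iff_le_right hp.one_lt).mp ht2
    have hk0 : k ≠ 0 := by rintro rfl; simp at hn1
    have hk12 : k = 1 ∨ k = 2 := by omega
    rcases hk12 with rfl | rfl
    · rw [pow_one] at d2
      exact mod_ne_one_of_lt hp hlt d2
    · obtain ⟨rfl, rfl⟩ := two_three hp hs hlt (dvd_sub_one_of_mod d2)
      obtain ⟨T⟩ : Nonempty (Sylow 2 G) := inferInstance
      have hT := sylow_card_index T h (by norm_num)
      have hne : (T : Subgroup G) ≠ ⊤ := by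
        intro h'
        have := hT.2
        rw [h', Subgroup.index_top] at this
        omega
      have := card_dvd_factorial_index _ hne
      rw [hT.2, h] at this
      revert this
      decide
  · -- s < p
    obtain ⟨d1, d2⟩ := card_sylow_mem (p := p) h hps
    have hn1 := card_sylow_ne_one (p := p) h hps (by norm_num) hs.one_lt.ne'
    rcases (Nat.dvd_prime hs).mp d1 with h1 | h1
    · exact hn1 h1
    · rw [h1] at d2
      exact mod_ne_one_of_lt hs hlt d2

lemma caseC (p s : ℕ) (hp : p.Prime) (hs : s.Prime) (hlt : p < s) (h : Nat.card G = p ^ 2 * s ^ 2) :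
    False := by
  have : Fact p.Prime := ⟨hp⟩
  have : Fact s.Prime := ⟨hs⟩
  have hne : p ≠ s := hlt.ne
  have hsp : ¬ s ∣ p ^ 2 := fun hd => hne ((Nat.prime_dvd_prime_iff_eq hs hp).mp (hs.dvd_of_dvd_pow hd)).symm
  have hfac : Nat.card G = s ^ 2 * p ^ 2 := by rw [h]; ring
  have hm1 : p ^ 2 ≠ 1 := (Nat.one_lt_pow (by norm_num) hp.one_lt).ne'
  obtain ⟨d1, d2⟩ := card_sylow_mem (p := s) hfac hsp
  have hn1 := card_sylow_ne_one (p := s) hfac hsp (by norm_num) hm1
  obtain ⟨k, hk, hk'⟩ := (Nat.dvd_prime_pow hp).mp d1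
  rw [hk'] at d2 hn1
  have hk0 : k ≠ 0 := by rintro rfl; simp at hn1
  have hk12 : k = 1 ∨ k = 2 := by omega
  rcases hk12 with rfl | rfl
  · rw [pow_one] at d2
    exact mod_ne_one_of_lt hp hlt d2
  · obtain ⟨rfl, rfl⟩ := two_three hp hs hlt (dvd_sub_one_of_mod d2)
    obtain ⟨T⟩ : Nonempty (Sylow 3 G) := inferInstance
    have hT := sylow_card_index T hfac (by norm_num)
    have hne : (T : Subgroup G) ≠ ⊤ := by
      intro h'
      have := hT.2
      rw [h', Subgroup.index_top] at this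
      omega
    have := card_dvd_factorial_index _ hne
    rw [hT.2, h] at this
    revert this
    decide

lemma caseD (p q r : ℕ) (hp : p.Prime) (hq : q.Prime) (hr : r.Prime) (hpq : p ≠ q) (hpr : p ≠ r)
    (hqr : q < r) (h : Nat.card G = p ^ 2 * q * r) : Nat.card G = 60 := by
  have : Fact p.Prime := ⟨hp⟩
  have : Fact q.Prime := ⟨hq⟩
  have : Fact r.Prime := ⟨hr⟩
  have hp2 := hp.two_le
  have hq2 := hq.two_le
  -- p < q
  have hlt : p < q := by
    by_contra hcon
    have hqp : q < p := by omega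
    have hfac : Nat.card G = q ^ 1 * (p ^ 2 * r) := by rw [h]; ring
    have hnd : ¬ q ∣ p ^ 2 * r := by
      intro hd
      rcases hq.dvd_mul.mp hd with h1 | h1
      · exact hpq ((Nat.prime_dvd_prime_iff_eq hq hp).mp (hq.dvd_of_dvd_pow h1)).symm
      · exact hqr.ne ((Nat.prime_dvd_prime_iff_eq hq hr).mp h1)
    have hm1 : p ^ 2 * r ≠ 1 := by
      have : 1 < p ^ 2 * r := by nlinarith [hr.two_le]
      omega
    obtain ⟨t, ht, ht1, ht2⟩ := exists_prime_of_sylow_prime hfac hnd hm1
    have htq : t ≤ q - 1 := Nat.le_of_dvd (by omega) ht1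
    have ht3 : t ∣ p ^ 2 * r := (Dvd.intro _ rfl).trans ht2
    rcases ht.dvd_mul.mp ht3 with h1 | h1
    · have := (Nat.prime_dvd_prime_iff_eq ht hp).mp (ht.dvd_of_dvd_pow h1)
      omega
    · have := (Nat.prime_dvd_prime_iff_eq ht hr).mp h1
      omega
  -- p = 2, q = 3
  have hfacp : Nat.card G = p ^ 2 * (q * r) := by rw [h]; ring
  have hndp : ¬ p ∣ q * r := by
    intro hd
    rcases hp.dvd_mul.mp hd with h1 | h1
    · exact hpq ((Nat.prime_dvd_prime_iff_eq hp hq).mp h1)
    · exact hpr ((Nat.prime_dvd_prime_iff_eq hp hr).mp h1)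
  have hm1 : q * r ≠ 1 := by
    have : 1 < q * r := by nlinarith [hr.two_le]
    omega
  obtain ⟨t, ht, ht1, ht2⟩ := exists_prime_of_sylow_prime_sq hfacp hndp hm1
  have ht3 : t ∣ q * r := (Dvd.intro _ rfl).trans ht2
  have htqr : t = q ∨ t = r := by
    rcases ht.dvd_mul.mp ht3 with h1 | h1
    · left; exact (Nat.prime_dvd_prime_iff_eq ht hq).mp h1
    · right; exact (Nat.prime_dvd_prime_iff_eq ht hr).mp h1
  have hpt : p < t := by rcases htqr with rfl | rfl <;> omega
  have h23 : p = 2 ∧ t = 3 := by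
    rcases ht.dvd_mul.mp ht1 with h1 | h1
    · exact two_three hp ht hpt h1
    · exfalso
      have e : p ^ 2 - p = p * (p - 1) := by
        rw [Nat.mul_sub, mul_one, sq]
      rw [e] at h1
      rcases ht.dvd_mul.mp h1 with h2 | h2
      · have := Nat.le_of_dvd hp.pos h2; omega
      · have := Nat.le_of_dvd (by omega) h2; omega
  obtain ⟨rfl, rfl⟩ := h23
  have hq3 : q = 3 := by rcases htqr with h1 | h1 <;> omega
  subst hq3
  -- |G| = 12 r
  have hfacr : Nat.card G = r ^ 1 * 12 := by rw [h]; ring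
  have hndr : ¬ r ∣ 12 := by
    intro hd
    have h12 : (12 : ℕ) = 2 ^ 2 * 3 := by norm_num
    rw [h12] at hd
    rcases hr.dvd_mul.mp hd with h1 | h1
    · have := (Nat.prime_dvd_prime_iff_eq hr Nat.prime_two).mp (hr.dvd_of_dvd_pow h1); omega
    · have := (Nat.prime_dvd_prime_iff_eq hr Nat.prime_three).mp h1; omega
  obtain ⟨t', ht', ht1', ht2'⟩ := exists_prime_of_sylow_prime hfacr hndr (by norm_num)
  obtain ⟨d1, d2⟩ := card_sylow_mem (p := r) hfacr hndr
  have hn1 := card_sylow_ne_one (p := r) hfacr hndr (by norm_num) (by norm_num)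
  set n := Nat.card (Sylow r G) with hn
  have hmem : n ∈ Nat.divisors 12 := Nat.mem_divisors.mpr ⟨d1, by norm_num⟩
  rw [show Nat.divisors 12 = {1, 2, 3, 4, 6, 12} by decide] at hmem
  simp only [Finset.mem_insert, Finset.mem_singleton] at hmem
  have hr5 : 5 ≤ r := by
    by_contra hcon
    have : r = 4 := by omega
    rw [this] at hr
    exact absurd hr (by norm_num)
  rcases hmem with h1 | h1 | h1 | h1 | h1 | h1
  · exact absurd h1 hn1
  · rw [h1, Nat.mod_eq_of_lt (by omega)] at d2; omega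
  · rw [h1, Nat.mod_eq_of_lt (by omega)] at d2; omega
  · rw [h1, Nat.mod_eq_of_lt (by omega)] at d2; omega
  · rw [h1] at d2
    have h5 : r ∣ 5 := dvd_sub_one_of_mod d2
    have : r = 5 := (Nat.prime_dvd_prime_iff_eq hr (by norm_num)).mp h5
    rw [h, this]; norm_num
  · exfalso
    rw [h1] at ht2'
    have := Nat.le_of_dvd (by norm_num) ht2'
    have := ht'.two_le
    omega

/-- If a finite simple group has order p^2 * q * r with p, q and r prime, then its order is 60. -/
theorem result {G : Type*} [Group G] [Finite G] [IsSimpleGroup G] (p q r : ℕ) (hp : p.Prime) (hq : q.Prime) (hr : r.Prime) (hG : Nat.card G = p ^ 2 * q * r) : Nat.card G = 60 := by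
  by_cases hpq : p = q
  · subst hpq
    by_cases hpr : p = r
    · subst hpr
      exfalso
      have h4 : Nat.card G = p ^ 4 := by rw [hG]; ring
      have := prime_card_of_card_prime_pow hp h4
      rw [h4] at this
      exact (Nat.Prime.not_prime_pow (by norm_num)) this
    · exact (caseB p r hp hr hpr (by rw [hG]; ring)).elim
  · by_cases hpr : p = r
    · subst hpr
      exact (caseB p q hp hq hpq (by rw [hG]; ring)).elim
    · by_cases hqr : q = r
      · subst hqr
        rcases lt_or_gt_of_ne hpq with hlt | hlt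
        · exact (caseC p q hp hq hlt (by rw [hG]; ring)).elim
        · exact (caseC q p hq hp hlt (by rw [hG]; ring)).elim
      · rcases lt_or_gt_of_ne hqr with hlt | hlt
        · exact caseD p q r hp hq hr hpq hpr hlt hG
        · exact caseD p r q hp hr hq hpr hpq hlt (by rw [hG]; ring)

end Cfsg.Agent.S0988
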