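import Cfsg.Statements.S1505
import Cfsg.Agent.Lib.Helper80.CycTI

set_option autoImplicit false
open Cfsg

namespace Cfsg.Agent.S1505

open Classical Cfsg.Agent.Lib.Helper80 Cfsg.Agent.Lib.Helper25 in
/-- Let W₁, W₂ ≤ G form a self-normalising cyclic subgroup W = W₁ ⊔ W₂. For nontrivial linear characters φ, φ' of W trivial on W₂ and ψ, ψ' trivial on W₁, put α = (1 − φ)(1 − ψ) and α' = (1 − φ')(1 − ψ'). Then the function induced from α to G has inner product 1 with the principal character, and the inner product of the functions induced from α and α' is 1 + a + b + ab where a = 1 if φ = φ' (else 0) and b = 1 if ψ = ψ' (else 0). -/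
theorem result {G : Type*} [Group G] [Fintype G] (W₁ W₂ : Subgroup G) (hW : Cfsg.IsSelfNormalizingCyclic W₁ W₂) (φ φ' ψ ψ' : ↥(W₁ ⊔ W₂) →* ℂˣ) (hφ : φ ≠ 1) (hφ' : φ' ≠ 1) (hψ : ψ ≠ 1) (hψ' : ψ' ≠ 1) (hφ₂ : ∀ w : ↥(W₁ ⊔ W₂), (w : G) ∈ W₂ → φ w = 1 ∧ φ' w = 1) (hψ₁ : ∀ w : ↥(W₁ ⊔ W₂), (w : G) ∈ W₁ → ψ w = 1 ∧ ψ' w = 1) : Cfsg.classInner (Cfsg.indFun (W₁ ⊔ W₂) (fun w => 1 - (φ w : ℂ) - (ψ w : ℂ) + (φ w : ℂ) * (ψ w : ℂ))) (fun _ => 1) = 1 ∧ Cfsg.classInner (Cfsg.indFun (W₁ ⊔ W₂) (fun w => 1 - (φ w : ℂ) - (ψ w : ℂ) + (φ w : ℂ) * (ψ w : ℂ))) (Cfsg.indFun (W₁ ⊔ W₂) (fun w => 1 - (φ' w : ℂ) - (ψ' w : ℂ) + (φ' w : ℂ) * (ψ' w : ℂ))) = 1 + (if φ = φ' then 1 else 0) + (if ψ = ψ' then 1 else 0) + (if φ = φ' then 1 else 0) * (if ψ = ψ' then 1 else 0) := by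
  classical
  let _ : Fintype ↥(W₁ ⊔ W₂) := Fintype.ofFinite _
  have m1 : φ ∈ dualOf (subB W₁ W₂) := mem_dualOf_subB.2 (fun w hw => (hφ₂ w hw).1)
  have m2 : φ' ∈ dualOf (subB W₁ W₂) := mem_dualOf_subB.2 (fun w hw => (hφ₂ w hw).2)
  have m3 : ψ ∈ dualOf (subA W₁ W₂) := mem_dualOf_subA.2 (fun w hw => (hψ₁ w hw).1)
  have m4 : ψ' ∈ dualOf (subA W₁ W₂) := mem_dualOf_subA.2 (fun w hw => (hψ₁ w hw).2)
  change classInner (indFun (W₁ ⊔ W₂) (alphaFun φ ψ)) (fun _ => 1) = 1 ∧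
    classInner (indFun (W₁ ⊔ W₂) (alphaFun φ ψ)) (indFun (W₁ ⊔ W₂) (alphaFun φ' ψ')) = _
  constructor
  · rw [Cfsg.Agent.Lib.Helper15.classInner_indFun_left _ _ _ (fun _ _ => rfl)]
    have := classInner_alphaFun_one m1 m3 hφ hψ
    rwa [linFun_one] at this
  · rw [classInner_indFun_indFun hW _ _
      (alphaFun_eq_zero φ ψ (mem_dualOf_subB.1 m1) (mem_dualOf_subA.1 m3))
      (alphaFun_eq_zero φ' ψ' (mem_dualOf_subB.1 m2) (mem_dualOf_subA.1 m4))]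
    rw [alphaFun_eq φ' ψ', Cfsg.Agent.Lib.Helper74.classInner_add_right,
      Cfsg.Agent.Lib.Helper74.classInner_sub_right, Cfsg.Agent.Lib.Helper74.classInner_sub_right,
      classInner_alphaFun_one m1 m3 hφ hψ, classInner_alphaFun_linFun_left m1 m2 m3 hφ' hψ,
      classInner_alphaFun_linFun_right m1 m3 m4 hφ hψ', classInner_alphaFun_linFun m1 m2 m3 m4 hφ' hψ']
    by_cases h1 : φ = φ' <;> by_cases h2 : ψ = ψ' <;> simp [h1, h2]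

end Cfsg.Agent.S1505
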