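import Cfsg.Statements.S1508
import Cfsg.Agent.Lib.Helper80.CycTITwist
import Cfsg.Agent.Lib.Helper15.CyclicGl

set_option autoImplicit false
open Cfsg

namespace Cfsg.Agent.S1508

open Cfsg.Agent.Lib.Helper80

theorem pow_eq_self_of_modEq {M : Type*} [Group M] (x : M) (k : ℕ) (h : k ≡ 1 [MOD orderOf x]) :
    x ^ k = x := by
  conv_rhs => rw [← pow_one x]
  exact pow_eq_pow_iff_modEq.2 h

theorem hom_pow_eq_self {X : Type*} [Group X] (ω : X →* ℂˣ) (k : ℕ) (h : k ≡ 1 [MOD orderOf ω]) :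
    ω ^ k = ω := by
  have h1 := pow_eq_self_of_modEq ω k h
  ext w
  have h2 := congrArg (fun f : X →* ℂˣ => f w) h1
  beta_reduce at h2
  rw [MonoidHom.pow_apply] at h2
  rw [MonoidHom.pow_apply, h2]

theorem exists_lift (N a b k : ℕ) (hN : 0 < N) (ha : a ∣ N) (hb : b ∣ N) (hab : a.Coprime b)
    (hk : k.Coprime a) : ∃ k₁ : ℕ, k₁.Coprime N ∧ k₁ ≡ k [MOD a] ∧ k₁ ≡ 1 [MOD b] := by
  obtain ⟨k₀, h1, h2⟩ := Nat.chineseRemainder hab k 1
  have c1 : k₀.Coprime a := by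
    have := h1.gcd_eq
    rw [Nat.Coprime, this]; exact hk
  have c2 : k₀.Coprime b := by
    have := h2.gcd_eq
    rw [Nat.Coprime, this]; exact Nat.gcd_one_left b
  have c3 : k₀.Coprime (a * b) := Nat.Coprime.mul_right c1 c2
  have hdvd : a * b ∣ N := hab.mul_dvd_of_dvd_of_dvd ha hb
  have : NeZero N := ⟨hN.ne'⟩
  obtain ⟨u, hu⟩ := ZMod.unitsMap_surjective hdvd (ZMod.unitOfCoprime k₀ c3)
  have h3 : ((u : ZMod N).val : ZMod (a * b)) = (k₀ : ZMod (a * b)) := by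
    have := congrArg Units.val hu
    rw [ZMod.unitsMap_val, ZMod.coe_unitOfCoprime] at this
    rw [← this, ZMod.natCast_val]
  rw [ZMod.natCast_eq_natCast_iff] at h3
  refine ⟨(u : ZMod N).val, ZMod.val_coe_unit_coprime u, ?_, ?_⟩
  · exact (h3.of_dvd (Dvd.intro _ rfl)).trans h1
  · exact (h3.of_dvd (Dvd.intro_left _ rfl)).trans h2

/-- Let W₁, W₂ ≤ G form a self-normalising cyclic subgroup W = W₁ ⊔ W₂ of odd order and χ an orthonormal family of irreducible characters of G up to sign, indexed by the linear characters ω of W, with χ_1 = 1, χ_ω = ω on W outside W₁ ∪ W₂, and the induction identity for (1 − φ)(1 − ψ). Let ω be a linear character of W and g an element of G whose order is coprime to the order of ω. Then χ ω g is an integer. -/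
theorem result {G : Type*} [Group G] [Fintype G] (W₁ W₂ : Subgroup G) (hW : Cfsg.IsSelfNormalizingCyclic W₁ W₂) (hodd : Odd (Nat.card ↥(W₁ ⊔ W₂))) (χ : (↥(W₁ ⊔ W₂) →* ℂˣ) → (G → ℂ)) (hχ : Cfsg.IsCyclicTIFamily W₁ W₂ χ) (ω : ↥(W₁ ⊔ W₂) →* ℂˣ) (g : G) (hg : Nat.Coprime (orderOf g) (orderOf ω)) : ∃ n : ℤ, χ ω g = n := by
  have hωN : orderOf ω ∣ Nat.card G := by
    refine dvd_trans ?_ (Subgroup.card_subgroup_dvd_card (W₁ ⊔ W₂))
    apply orderOf_dvd_of_pow_eq_one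
    ext w
    rw [MonoidHom.pow_apply, ← map_pow, pow_card_eq_one', map_one, MonoidHom.one_apply]
  have key : ∀ k : ℕ, k.Coprime (Nat.card G) → χ ω (g ^ k) = χ ω g := by
    intro k hk
    obtain ⟨k₁, c1, c2, c3⟩ := exists_lift (Nat.card G) (orderOf g) (orderOf ω) k Nat.card_pos
      (orderOf_dvd_natCard g) hωN hg (hk.coprime_dvd_right (orderOf_dvd_natCard g))
    obtain ⟨k', -, hk'⟩ := Nat.exists_mul_mod_eq_of_coprime 1 c1 (Nat.card_pos (α := G)).ne'
    have hk'' : k₁ * k' ≡ 1 [MOD Nat.card G] := hk'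
    have e1 := family_pow hW hodd hχ hk'' ω g
    have e2 : k' ≡ 1 [MOD orderOf ω] := by
      have h1 : k₁ * k' ≡ 1 [MOD orderOf ω] := hk''.of_dvd hωN
      have h2 : k₁ * k' ≡ 1 * k' [MOD orderOf ω] := c3.mul_right k'
      rw [one_mul] at h2
      exact h2.symm.trans h1
    have e3 : ω ^ k' = ω := hom_pow_eq_self ω k' e2
    have e4 : g ^ k = g ^ k₁ := pow_eq_pow_iff_modEq.2 c2.symm
    rw [e4, ← e1, e3]
  rcases hχ.irr_or_neg ω with h | h
  · exact Cfsg.Agent.Lib.Helper15.exists_int_of_pow_eq (Cfsg.Agent.Lib.Helper15.irr_char h) g key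
  · obtain ⟨z, hz⟩ := Cfsg.Agent.Lib.Helper15.exists_int_of_pow_eq (Cfsg.Agent.Lib.Helper15.irr_char h) g (fun k hk => by
      simp only [Pi.neg_apply]; rw [key k hk])
    refine ⟨-z, ?_⟩
    simp only [Pi.neg_apply] at hz
    push_cast
    rw [← hz, neg_neg]

end Cfsg.Agent.S1508
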