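import Cfsg.Statements.S1602
import Cfsg.Agent.Lib.Helper30.DodecadExt
import Cfsg.Agent.Lib.Helper27.DFlag
import Cfsg.Agent.Lib.Helper30.SetStabMax

set_option autoImplicit false
open scoped Pointwise
open Cfsg

namespace Cfsg.Agent.S1602

open Cfsg.Agent.Lib.Helper27 Cfsg.Agent.Lib.Helper30

/-- an octad through `p, q, q'` meeting the dodecad in six points. -/
theorem exists_octad_pair {d : Finset GolayPt} (hd : d ∈ dodecads) {p q q' : GolayPt} (hp : p ∈ d)
    (hq : q ∉ d) (hq' : q' ∉ d) (hqq' : q ≠ q') :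
    ∃ o ∈ octads, p ∈ o ∧ q ∈ o ∧ q' ∈ o ∧ (o ∩ d).card = 6 := by
  obtain ⟨g, hg, h⟩ := eflag2 hd hp hq hq' hqq'
  simp only [E1, maps_cons] at h
  obtain ⟨h1, h2, h3, h4, _⟩ := h
  rw [smul_singleton_eq (by norm_num)] at h1 h2 h3
  have hm : unmask 262637 ∈ octads := unmask_mem_octads (by decide +kernel) (by decide +kernel)
  have hmem : ∀ x : GolayPt, g x ∈ unmask 262637 → x ∈ g⁻¹ • unmask 262637 := by
    intro x hx
    rw [Finset.mem_inv_smul_finset_iff]
    exact hx
  refine ⟨g⁻¹ • unmask 262637, smul_mem_octads (M24.inv_mem hg) hm, ?_, ?_, ?_, ?_⟩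
  · apply hmem; rw [h3]; decide +kernel
  · apply hmem; rw [h2]; decide +kernel
  · apply hmem; rw [h1]; decide +kernel
  · rw [← Finset.card_smul_finset g, Finset.smul_finset_inter, smul_inv_smul, h4, ← unmask_and,
      card_unmask]
    decide +kernel

/-- uniqueness of that octad. -/
theorem octad_pair_unique {d o o' : Finset GolayPt} (hd : d ∈ dodecads) (ho : o ∈ octads)
    (ho' : o' ∈ octads) {p : GolayPt} (hp : p ∈ d) (hpo : p ∈ o) (hpo' : p ∈ o')
    (hout : o \ d = o' \ d) : o = o' := by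
  have hsub : symmDiff o o' ⊆ d := by
    intro x hx
    by_contra hxd
    rcases Finset.mem_symmDiff.mp hx with ⟨h1, h2⟩ | ⟨h1, h2⟩
    · have : x ∈ o' \ d := by rw [← hout]; exact Finset.mem_sdiff.mpr ⟨h1, hxd⟩
      exact h2 (Finset.mem_sdiff.mp this).1
    · have : x ∈ o \ d := by rw [hout]; exact Finset.mem_sdiff.mpr ⟨h1, hxd⟩
      exact h2 (Finset.mem_sdiff.mp this).1
  have hpn : p ∉ symmDiff o o' := by
    intro h
    rcases Finset.mem_symmDiff.mp h with ⟨_, h2⟩ | ⟨_, h2⟩
    · exact h2 hpo'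
    · exact h2 hpo
  have hlt : (symmDiff o o').card < 12 := by
    rw [← hd.2]
    exact Finset.card_lt_card ⟨hsub, fun h => hpn (h hp)⟩
  rw [mem_octads_iff] at ho ho'
  rw [mem_dodecads_iff] at hd
  have hx := isCode_xor ho.1 ho'.1
  rw [card_eq_pc, mask_symmDiff] at hlt
  rw [subset_iff_mask, mask_symmDiff] at hsub
  have e1 := pc_xor_add (isCode_lt hx) (mask_lt d)
  rw [hsub] at e1
  have h1 := pc_of_isCode hx
  have h2 := pc_of_isCode (isCode_xor hx hd.1)
  have h0 : pc (mask o ^^^ mask o') = 0 := by omega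
  apply mask_injective
  exact Nat.xor_eq_zero_iff.1 (eq_zero_of_pc_eq_zero (isCode_lt hx) h0)

/-- In the 12-point action of the smallest Mathieu group the setwise stabiliser of a pair is isomorphic to the symmetric group of degree 5. -/
theorem result (d : Finset Cfsg.GolayPt) (hd : d ∈ Cfsg.dodecads) (p q q' : Cfsg.GolayPt) (hp : p ∈ d) (hq : q ∉ d) (hq' : q' ∉ d) (hqq' : q ≠ q') : Nonempty (↥(MulAction.stabilizer Cfsg.M24 d ⊓ MulAction.stabilizer Cfsg.M24 p ⊓ MulAction.stabilizer Cfsg.M24 ({q, q'} : Finset Cfsg.GolayPt)) ≃* Equiv.Perm (Fin 5)) := by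
  obtain ⟨o, ho, hpo, hqo, hq'o, h6⟩ := exists_octad_pair hd hp hq hq' hqq'
  have hh : o ∩ d ∈ hexadsOn d := ⟨h6, o, ho, rfl⟩
  have hph : p ∈ o ∩ d := Finset.mem_inter.mpr ⟨hpo, hp⟩
  have hC5 : ((o ∩ d).erase p).card = 5 := by rw [Finset.card_erase_of_mem hph, h6]
  have hCh : (o ∩ d).erase p ⊆ o ∩ d := Finset.erase_subset _ _
  have hCd : (o ∩ d).erase p ⊆ d := hCh.trans Finset.inter_subset_right
  have hout : o \ d = {q, q'} := by
    symm
    apply Finset.eq_of_subset_of_card_le
    · intro x hx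
      rw [Finset.mem_insert, Finset.mem_singleton] at hx
      rcases hx with rfl | rfl
      · exact Finset.mem_sdiff.mpr ⟨hqo, hq⟩
      · exact Finset.mem_sdiff.mpr ⟨hq'o, hq'⟩
    · have := Finset.card_sdiff_add_card_inter o d
      rw [h6, ho.2] at this
      rw [Finset.card_pair hqq']
      omega
  have key : ∀ k : Equiv.Perm GolayPt, k ∈ M24 → k • d = d → k p = p →
      k • ({q, q'} : Finset GolayPt) = {q, q'} → k • (o ∩ d).erase p = (o ∩ d).erase p := by
    intro k hk hgd hgp hgq
    have hgo : k • o = o := by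
      apply octad_pair_unique hd (smul_mem_octads hk ho) ho hp _ hpo
      · conv_lhs => rw [← hgd]
        rw [← Finset.smul_finset_sdiff, hout, hgq]
      · rw [← hgp]; exact Finset.smul_mem_smul_finset hpo
    rw [Finset.erase_eq, Finset.smul_finset_sdiff, Finset.smul_finset_inter, hgo, hgd,
      Finset.smul_finset_singleton]
    congr 2
  apply nonempty_mulEquiv_perm_fin (α := GolayPt) ((o ∩ d).erase p) 5 hC5
  · intro g
    exact key g.1.1 g.1.2 g.2.1.1 g.2.1.2 g.2.2
  · intro g h
    apply Subtype.ext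
    apply Subtype.ext
    exact dodecad_eq_one hd _ hC5.ge hCd g.1.2 g.2.1.1 h
  · intro σ
    classical
    let f : GolayPt → GolayPt := fun a =>
      if h : a ∈ (o ∩ d).erase p then (σ ⟨a, h⟩ : GolayPt) else a
    have hf : ∀ a (h : a ∈ (o ∩ d).erase p), f a = σ ⟨a, h⟩ := fun a h => dif_pos h
    obtain ⟨g, hg, hgd, hga⟩ := dodecad_extend hd _ hC5 hCd f (by
      intro a ha b hb hab
      rw [hf a ha, hf b hb] at hab
      exact congrArg Subtype.val (σ.injective (Subtype.ext hab))) (by
      intro a ha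
      rw [hf a ha]
      exact hCd (σ _).2)
    have hgh : g • (o ∩ d) = o ∩ d := smul_hexad_eq hh hg hgd _ hC5.ge hCh (by
      intro a ha
      rw [hga a ha, hf a ha]
      exact hCh (σ _).2)
    have hgC : g • (o ∩ d).erase p = (o ∩ d).erase p := by
      apply smul_finset_eq_of_forall_mem
      intro a ha
      change g a ∈ _
      rw [hga a ha, hf a ha]
      exact (σ _).2
    have hgp : g p = p := by
      have h1 : g p ∈ o ∩ d := by
        rw [← hgh]; exact Finset.smul_mem_smul_finset hph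
      by_contra hne
      have h2 : g p ∈ (o ∩ d).erase p := Finset.mem_erase.mpr ⟨hne, h1⟩
      rw [← hgC] at h2
      have h3 : p ∈ (o ∩ d).erase p := (Finset.smul_mem_smul_finset_iff g).mp h2
      exact Finset.notMem_erase p _ h3
    have hgo : g • o = o := by
      apply octads_eq_of_inter (smul_mem_octads hg ho) ho
      calc 5 ≤ (o ∩ d).card := by rw [h6]; norm_num
        _ ≤ (g • o ∩ o).card := by
          apply Finset.card_le_card
          intro x hx
          rw [Finset.mem_inter]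
          refine ⟨?_, (Finset.mem_inter.mp hx).1⟩
          rw [← hgh] at hx
          exact Finset.smul_finset_subset_smul_finset Finset.inter_subset_left hx
    have hgq : g • ({q, q'} : Finset GolayPt) = {q, q'} := by
      rw [← hout, Finset.smul_finset_sdiff, hgo, hgd]
    refine ⟨⟨⟨g, hg⟩, ⟨hgd, hgp⟩, hgq⟩, ?_⟩
    intro a
    change g a = σ a
    rw [hga a a.2, hf a a.2]

end Cfsg.Agent.S1602
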