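import Cfsg.Statements.S1467

set_option autoImplicit false
open Cfsg

namespace Cfsg.Agent.S1467

variable {G : Type*} [Group G]

theorem puigStep_anti {X Y : Subgroup G} (h : X ≤ Y) : puigStep Y ≤ puigStep X := by
  unfold puigStep
  apply sSup_le_sSup
  rintro A ⟨hA, hY⟩
  exact ⟨hA, h.trans hY⟩

theorem puigSeq_succ (n : ℕ) : puigSeq G (n + 1) = puigStep (puigSeq G n) := rfl

theorem puigSeq_one : puigSeq G 1 = ⊤ := by
  rw [eq_top_iff]
  intro g _
  have h : Subgroup.zpowers g ≤ puigSeq G 1 := by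
    show _ ≤ puigStep (puigSeq G 0)
    unfold puigStep
    apply le_sSup
    refine ⟨inferInstance, ?_⟩
    show (⊥ : Subgroup G) ≤ _
    exact bot_le
  exact h (Subgroup.mem_zpowers g)

theorem even_le_succ (n : ℕ) : puigSeq G (2 * n) ≤ puigSeq G (2 * n + 2) := by
  induction n with
  | zero => exact bot_le
  | succ n ih =>
    have h1 : puigSeq G (2 * n + 3) ≤ puigSeq G (2 * n + 1) := puigStep_anti ih
    have h2 : puigSeq G (2 * n + 2) ≤ puigSeq G (2 * n + 4) := puigStep_anti h1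
    exact h2

theorem odd_succ_le (m : ℕ) : puigSeq G (2 * m + 3) ≤ puigSeq G (2 * m + 1) :=
  puigStep_anti (even_le_succ m)

theorem even_mono : Monotone (fun n => puigSeq G (2 * n)) :=
  monotone_nat_of_le_succ even_le_succ

theorem odd_anti : Antitone (fun n => puigSeq G (2 * n + 1)) :=
  antitone_nat_of_succ_le odd_succ_le

theorem even_le_odd_same (n : ℕ) : puigSeq G (2 * n) ≤ puigSeq G (2 * n + 1) := by
  induction n with
  | zero => exact bot_le
  | succ n ih =>
    have h1 : puigSeq G (2 * n + 2) ≤ puigSeq G (2 * n + 1) := puigStep_anti ih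
    have h2 : puigSeq G (2 * n + 2) ≤ puigSeq G (2 * n + 3) := puigStep_anti h1
    exact h2

theorem even_le_odd (n m : ℕ) : puigSeq G (2 * n) ≤ puigSeq G (2 * m + 1) :=
  calc puigSeq G (2 * n) ≤ puigSeq G (2 * (max n m)) := even_mono (le_max_left n m)
    _ ≤ puigSeq G (2 * (max n m) + 1) := even_le_odd_same _
    _ ≤ puigSeq G (2 * m + 1) := odd_anti (le_max_right n m)

theorem result {G : Type*} [Group G] [Finite G] :
    Cfsg.puigSeq G 0 = ⊥ ∧ Cfsg.puigSeq G 1 = ⊤ ∧
      (∀ n m : ℕ, Cfsg.puigSeq G (2 * n) ≤ Cfsg.puigSeq G (2 * n + 2) ∧ Cfsg.puigSeq G (2 * n) ≤ Cfsg.puigSeq G (2 * m + 1) ∧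
        Cfsg.puigSeq G (2 * m + 3) ≤ Cfsg.puigSeq G (2 * m + 1)) ∧
      (∃ k : ℕ, ∀ n : ℕ, k ≤ n → Cfsg.puigSeq G (2 * n) = Cfsg.puigLower G ∧ Cfsg.puigSeq G (2 * n + 1) = Cfsg.puigSubgroup G) ∧
      Cfsg.puigLower G ≤ Cfsg.puigSubgroup G ∧
      Cfsg.puigStep (Cfsg.puigLower G) = Cfsg.puigSubgroup G ∧ Cfsg.puigStep (Cfsg.puigSubgroup G) = Cfsg.puigLower G := by
  obtain ⟨k, hk⟩ := WellFoundedGT.monotone_chain_condition
    (⟨fun n => puigSeq G (2 * n), even_mono⟩ : ℕ →o Subgroup G)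
  simp only [OrderHom.coe_mk] at hk
  have hlow : puigLower G = puigSeq G (2 * k) := by
    unfold puigLower
    apply le_antisymm
    · apply iSup_le
      intro n
      rcases le_total k n with h | h
      · rw [hk n h]
      · exact even_mono h
    · exact le_iSup (fun n => puigSeq G (2 * n)) k
  have hodd : ∀ n, k ≤ n → puigSeq G (2 * n + 1) = puigSeq G (2 * k + 1) := by
    intro n hn
    rw [puigSeq_succ, puigSeq_succ, hk n hn]
  have hsub : puigSubgroup G = puigSeq G (2 * k + 1) := by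
    unfold puigSubgroup
    apply le_antisymm
    · exact iInf_le (fun n => puigSeq G (2 * n + 1)) k
    · apply le_iInf
      intro n
      rcases le_total k n with h | h
      · rw [hodd n h]
      · exact odd_anti h
  refine ⟨rfl, puigSeq_one, fun n m => ⟨even_le_succ n, even_le_odd n m, odd_succ_le m⟩,
    ⟨k, fun n hn => ⟨?_, ?_⟩⟩, ?_, ?_, ?_⟩
  · rw [hlow, hk n hn]
  · rw [hsub, hodd n hn]
  · rw [hlow, hsub]; exact even_le_odd_same k
  · rw [hlow, hsub]; rfl
  · rw [hlow, hsub, hk (k + 1) (Nat.le_succ k)]; rfl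

end Cfsg.Agent.S1467
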