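import Cfsg.Statements.S4726
import Cfsg.Agent.Lib.Helper16.NestedDefect
-- import your own Cfsg.Agent.* helpers here

set_option autoImplicit false
open Cfsg Cfsg.Agent.Lib.Helper78 Cfsg.Agent.Lib.Helper16 Cfsg.Agent.Lib

namespace Cfsg.Agent.S4726

/-- Let p be a prime, M a maximal ideal of the algebraic integers containing p, H a subgroup of the finite group G and b a p-block of H with defect group D₀ such that C_G(D₀) ≤ H. Then b induces a block of G, and for every block B of G induced by b there is a defect group D of B with Z(D) ≤ Z(D₀) ≤ D₀ ≤ D (as subgroups of G). In particular, if the defect groups of B are abelian then D₀ is a defect group of B. -/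
theorem result {G : Type*} [Group G] [Finite G] (p : ℕ) [Fact p.Prime] (M : Ideal Cfsg.AlgInt) (hM : Cfsg.IsPModular p M) (H : Subgroup G) (b : Set (Cfsg.IrrCharacter ↥H)) (hb : Cfsg.IsPBlock M b) (D₀ : Subgroup ↥H) (hD₀ : Cfsg.IsDefectGroup p M b D₀) (hC : Subgroup.centralizer ((D₀.map H.subtype : Subgroup G) : Set G) ≤ H) : Cfsg.InducedBlockDefined M H b ∧ ∀ B : Set (Cfsg.IrrCharacter G), Cfsg.IsInducedBlock M H b B → (∃ D : Subgroup G, Cfsg.IsDefectGroup p M B D ∧ (Subgroup.center ↥D).map D.subtype ≤ ((Subgroup.center ↥D₀).map D₀.subtype).map H.subtype ∧ ((Subgroup.center ↥D₀).map D₀.subtype).map H.subtype ≤ D₀.map H.subtype ∧ D₀.map H.subtype ≤ D) ∧ (∀ D : Subgroup G, Cfsg.IsDefectGroup p M B D → IsMulCommutative ↥D → Cfsg.IsDefectGroup p M B (D₀.map H.subtype)) := by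
  classical
  cases nonempty_fintype G
  haveI : M.IsMaximal := hM.2.1
  haveI : CharP (FM M) p := charP_FM hM
  set P : Subgroup G := D₀.map H.subtype with hP
  have hPH : P ≤ H := Subgroup.map_subtype_le _
  have hPs : P.subgroupOf H = D₀ :=
    Subgroup.comap_map_eq_self_of_injective (Subgroup.subtype_injective _) _
  obtain ⟨B₀, hind₀, D, hD, hPD, hZ⟩ := nested_aux M p hM _ H P hPH hC b hb
    (by rw [hPs]; exact hD₀) rfl
  refine ⟨⟨B₀, hind₀⟩, fun B hind => ?_⟩
  have hBB : B = B₀ := induced_unique M H hind hind₀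
  subst hBB
  constructor
  · refine ⟨D, hD, ?_, Subgroup.map_mono (Subgroup.map_subtype_le _), hPD⟩
    rintro _ ⟨z, hz, rfl⟩
    have hzc : ∀ d ∈ D, d * (z : G) = (z : G) * d := fun d hd =>
      congrArg Subtype.val (Subgroup.mem_center_iff.1 hz ⟨d, hd⟩)
    have hzP : (z : G) ∈ P := hZ z z.2 hzc
    obtain ⟨w, hw, hwz⟩ := hzP
    refine ⟨w, ⟨⟨w, hw⟩, ?_, rfl⟩, hwz⟩
    rw [SetLike.mem_coe, Subgroup.mem_center_iff]
    intro d
    apply Subtype.ext
    apply Subtype.ext
    show ((d : H) : G) * (w : G) = (w : G) * ((d : H) : G)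
    have hd : ((d : H) : G) ∈ D := hPD ⟨d, d.2, rfl⟩
    have hwz' : (w : G) = (z : G) := hwz
    rw [hwz']
    exact hzc _ hd
  · intro D' hD' hcomm
    obtain ⟨x, rfl⟩ := IsDefectGroup.exists_conj_eq hM hind.2.1 hD hD'
    have hDP : D ≤ P := by
      intro z hz
      apply hZ z hz
      intro d hd
      have h1 : (⟨x * d * x⁻¹, conj_mem_cj hd⟩ : cj x D) * ⟨x * z * x⁻¹, conj_mem_cj hz⟩ =
          ⟨x * z * x⁻¹, conj_mem_cj hz⟩ * ⟨x * d * x⁻¹, conj_mem_cj hd⟩ := hcomm.is_comm.comm _ _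
      have h2 : x * d * x⁻¹ * (x * z * x⁻¹) = x * z * x⁻¹ * (x * d * x⁻¹) :=
        congrArg Subtype.val h1
      have h3 : x * (d * z) * x⁻¹ = x * (z * d) * x⁻¹ := by
        calc x * (d * z) * x⁻¹ = x * d * x⁻¹ * (x * z * x⁻¹) := by group
          _ = x * z * x⁻¹ * (x * d * x⁻¹) := h2
          _ = x * (z * d) * x⁻¹ := by group
      exact mul_left_cancel (mul_right_cancel h3)
    have : P = D := le_antisymm hPD hDP
    rw [this]; exact hD

end Cfsg.Agent.S4726
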