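import Cfsg.Statements.S4669
import Cfsg.Agent.Lib.Helper77.CentralDef
import Cfsg.Agent.S0968

set_option autoImplicit false
open Cfsg Cfsg.Agent.Lib.Helper77
open Cfsg

namespace Cfsg.Agent.S4669

/-- Fix a prime p and a maximal ideal M of the algebraic integers containing p. If the p-block B of the finite group G has a defect group P contained in the centre of G, then B has p-regular rank one (a single irreducible Brauer character). -/
theorem result {G : Type*} [Group G] [Fintype G] (p : ℕ) [Fact p.Prime] (M : Ideal Cfsg.AlgInt) (hM : Cfsg.IsPModular p M) (B : Set (Cfsg.IrrCharacter G)) (hB : Cfsg.IsPBlock M B) (P : Subgroup G) (hD : Cfsg.IsDefectGroup p M B P) (hPZ : P ≤ Subgroup.center G) : Cfsg.blockRank p B = 1 := by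
  classical
  have hPp : IsPGroup p P := Cfsg.Agent.Lib.Helper16.IsDefectGroup.isPGroup hD
  have hcen : Subgroup.centralizer (P : Set G) = ⊤ := by
    rw [eq_top_iff]
    intro g _
    rw [Subgroup.mem_centralizer_iff]
    intro u hu
    exact (Subgroup.mem_center_iff.1 (hPZ hu) g).symm
  have h1 := (Cfsg.Agent.S0968.result p M hM P hPp (by rw [hcen, sup_top_eq]) B hB hD).2.2
  have h2 : Nat.card (ConjClasses P) = Nat.card P := by
    symm
    apply Nat.card_congr
    refine Equiv.ofBijective ConjClasses.mk ⟨?_, ConjClasses.mk_surjective⟩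
    intro a b hab
    obtain ⟨c, hc⟩ := _root_.isConj_iff.1 (ConjClasses.mk_eq_mk_iff_isConj.1 hab)
    have h3 : (c : G) * a = a * c := (Subgroup.mem_center_iff.1 (hPZ a.2) c)
    have h4 : c * a = a * c := Subtype.ext h3
    rw [← hc, h4, mul_inv_cancel_right]
  have h3 := card_eq_card_mul_blockRank hM hB hD hPZ
  rw [h1, h2] at h3
  have hpos : 0 < Nat.card P := Nat.card_pos
  have : Nat.card P * 1 = Nat.card P * Cfsg.blockRank p B := by rw [mul_one]; exact h3
  exact (Nat.eq_of_mul_eq_mul_left hpos this).symm

end Cfsg.Agent.S4669
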