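import Cfsg.Statements.S4637
import Cfsg.Agent.Lib.Helper77.Klein

set_option autoImplicit false
open Cfsg Cfsg.Agent.Lib.Helper77
open Cfsg

namespace Cfsg.Agent.S4637

/-- Let B be a block of the finite group G relative to a maximal ideal M of the algebraic integers containing 2, with a Klein four defect group P. Let c be a block of C_G(P) inducing B, T the stabilizer of c in N_G(P) and e the index of C_G(P) in T (the inertial index). Then e is 1 or 3, B contains exactly four irreducible characters, and the 2-regular rank of B (its number of irreducible Brauer characters) equals e. -/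
theorem result {G : Type*} [Group G] [Finite G] (M : Ideal Cfsg.AlgInt) (hM : Cfsg.IsPModular 2 M) (B : Set (Cfsg.IrrCharacter G)) (hB : Cfsg.IsPBlock M B) (P : Subgroup G) (hPD : Cfsg.IsDefectGroup 2 M B P) (hV : IsKleinFour P) (c : Set (Cfsg.IrrCharacter (Subgroup.centralizer (P : Set G)))) (hc : Cfsg.IsInducedBlock M (Subgroup.centralizer (P : Set G)) c B) (T : Subgroup G) (hT : ∀ g : G, g ∈ T ↔ (g ∈ Subgroup.normalizer (P : Set G) ∧ Cfsg.StabilizesBlock (Subgroup.centralizer (P : Set G)) c g)) (e : ℕ) (he : (Subgroup.centralizer (P : Set G)).relIndex T = e) : (e = 1 ∨ e = 3) ∧ Nat.card B = 4 ∧ Cfsg.blockRank 2 B = e := by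
  classical
  haveI : Fact (Nat.Prime 2) := ⟨Nat.prime_two⟩
  haveI : M.IsPrime := Cfsg.Agent.Lib.Helper78.pmod_isPrime hM
  haveI := Fintype.ofFinite G
  have hab := le_cen_of_isKleinFour hV
  obtain ⟨hmax, hblk⟩ := isAMax_of_induced M hM hB hPD hab hc
  have hTeq : T = stabP (toA M ⟨P, c⟩) := by
    ext g; rw [hT, mem_stabP_toA_iff M hc.1]
  have hTN : T ≤ Subgroup.normalizer (P : Set G) := fun g hg => ((hT g).1 hg).1
  have hodd : ∀ g ∈ T, g ^ 2 ∈ Cen P → g ∈ Cen P := fun g hg h =>
    mem_cen_of_pow_mem_of_abelian M hM hmax hab (hTeq ▸ hg) (a := 1)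
      (by rw [pow_one]; exact h)
  obtain ⟨h13, hfree, htrans⟩ := klein_index hV hTN hodd
  have hcardP : Nat.card P = 4 := hV.card_four
  have hd : blockDefect 2 B = 2 := by
    have h1 := Cfsg.Agent.Lib.Helper78.card_of_isDefectGroup hM hB hPD
    rw [hcardP] at h1
    exact (Nat.pow_right_injective (le_refl 2) (by simpa using h1 : 2 ^ 2 = 2 ^ blockDefect 2 B)).symm
  have h4 := four_le_card_of_defect hM hB (by omega)
  have hne : P ≠ ⊥ := by
    intro h
    rw [h, Subgroup.card_bot] at hcardP
    omega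
  rw [he] at h13 htrans
  rw [hTeq] at hfree htrans
  rcases h13 with h1 | h3
  · have hTC : stabP (toA M ⟨P, c⟩) ≤ Cen P := by
      rw [← hTeq]
      exact Subgroup.relIndex_eq_one.1 (he.trans h1)
    have hnil := (isANil_iff_of_abelian M hM hB hmax hblk hab).2 hTC
    obtain ⟨hl, hk⟩ := blockRank_eq_one_of_nil_abelian M hM hB hPD hab hnil
    exact ⟨Or.inl h1, by rw [hk, hcardP], by rw [hl, h1]⟩
  · have hk1 := card_eq_of_transitive M hM hB hmax hblk hab hfree (htrans h3) hne
    have hk2 := card_le_of_free M hM hB hmax hblk hab hfree hne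
    have hk3 : Nat.card B ≤ 4 := hcardP ▸ hk2
    exact ⟨Or.inr h3, by omega, by omega⟩

end Cfsg.Agent.S4637
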