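import Cfsg.Statements.S2311
import Cfsg.Agent.Lib.Helper36.BNSt.G3
import Cfsg.Agent.Lib.Helper36.BNSt.H

set_option autoImplicit false
open Cfsg

namespace Cfsg.Agent.S2311

/-- In a Chevalley group of type G₂, B₂, D₄, F₄, E₆, E₇ or E₈ over a finite field, the alternating sum over all sets J of fundamental roots of (−1)^|J| times the permutation character on the cosets of the standard parabolic subgroup P_J is an irreducible complex character: the Steinberg character. -/
theorem result {F : Type*} [Field F] [Fintype F] (D : Cfsg.Lie.ChevalleyDatum) (hD : D ∈ [Cfsg.Lie.chevG2, Cfsg.Lie.chevB2, Cfsg.Lie.chevD4, Cfsg.Lie.chevF4, Cfsg.Lie.chevE6, Cfsg.Lie.chevE7, Cfsg.Lie.chevE8]) :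
    Cfsg.IsIrrCharacter ↥(D.group F) (D.steinbergCharacter F) := by
  classical
  obtain ⟨L, hL⟩ := Cfsg.Agent.Lib.Helper18.exists_isLong hD
  have : Fintype ↥(D.group F) := Fintype.ofFinite _
  have h1 := Cfsg.Agent.Lib.Helper36.BNSt.steinberg_one_aux (Cfsg.Agent.Lib.Helper18.bnData_of_mem F hD) hL
  rw [Cfsg.Agent.Lib.Helper36.BNSt.steinbergCharacter_eq (Cfsg.Agent.Lib.Helper18.bnData_of_mem F hD)] at h1 ⊢
  apply Cfsg.Agent.Lib.Helper36.BNSt.isIrrCharacter_stChar
  rw [h1, Complex.natCast_re]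
  exact_mod_cast Nat.card_pos

end Cfsg.Agent.S2311
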