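import Mathlib
import Cfsg.Statements.S0808
import Cfsg.Agent.Lib.Helper14.PSL2Klein
import Cfsg.Agent.Lib.Helper14.KleinClasses
import Cfsg.Agent.Lib.Helper5.LinearCard
import Cfsg.Agent.S0807

set_option autoImplicit false
open Cfsg

namespace Cfsg.Agent.S0808

open Cfsg.Agent.Lib.Helper14
open scoped Pointwise

theorem conj_of_card_four_of_not_eight_dvd {G : Type*} [Group G] [Finite G]
    (h8 : ¬ 8 ∣ Nat.card G) (V W : Subgroup G) (hV : Nat.card V = 4) (hW : Nat.card W = 4) :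
    ∃ g : G, W = V.map (MulAut.conj g).toMonoidHom := by
  have : Fact (Nat.Prime 2) := ⟨Nat.prime_two⟩
  have key : ∀ U : Subgroup G, Nat.card U = 4 → ∃ P : Sylow 2 G, (P : Subgroup G) = U := by
    intro U hU
    obtain ⟨P, hP⟩ := (IsPGroup.of_card (p := 2) (n := 2) (by rw [hU]; norm_num)).exists_le_sylow
    refine ⟨P, ?_⟩
    symm
    apply Subgroup.eq_of_le_of_card_ge hP
    obtain ⟨n, hn⟩ := P.2.exists_card_eq
    have hdvd : Nat.card (P : Subgroup G) ∣ Nat.card G := Subgroup.card_subgroup_dvd_card _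
    rw [hU, hn]
    rw [hn] at hdvd
    by_contra hlt
    push Not at hlt
    have hn3 : 3 ≤ n := by
      by_contra h
      push Not at h
      interval_cases n <;> omega
    exact h8 ((pow_dvd_pow 2 hn3).trans hdvd)
  obtain ⟨P, hP⟩ := key V hV
  obtain ⟨Q, hQ⟩ := key W hW
  obtain ⟨g, hg⟩ := MulAction.exists_smul_eq G P Q
  refine ⟨g, ?_⟩
  rw [← hP, ← hQ, ← hg]
  rfl

/-- Conjugacy classes of four-groups in PSL_2(q), q odd: if q ≡ 3 or 5 (mod 8) all Klein four-subgroups are conjugate; if q ≡ 1 or 7 (mod 8) there are two Klein four-subgroups which are not conjugate, and every Klein four-subgroup is conjugate to one of them. -/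
theorem result {F : Type*} [Field F] [Fintype F] {q : ℕ} (hF : Fintype.card F = q) (hodd : Odd q) : ((q % 8 = 3 ∨ q % 8 = 5) → ∀ V W : Subgroup (Matrix.ProjectiveSpecialLinearGroup (Fin 2) F), IsKleinFour V → IsKleinFour W → ∃ g : Matrix.ProjectiveSpecialLinearGroup (Fin 2) F, W = V.map (MulAut.conj g).toMonoidHom) ∧ ((q % 8 = 1 ∨ q % 8 = 7) → ∃ V₁ V₂ : Subgroup (Matrix.ProjectiveSpecialLinearGroup (Fin 2) F), IsKleinFour V₁ ∧ IsKleinFour V₂ ∧ (¬ ∃ g : Matrix.ProjectiveSpecialLinearGroup (Fin 2) F, V₂ = V₁.map (MulAut.conj g).toMonoidHom) ∧ ∀ W : Subgroup (Matrix.ProjectiveSpecialLinearGroup (Fin 2) F), IsKleinFour W → (∃ g : Matrix.ProjectiveSpecialLinearGroup (Fin 2) F, W = V₁.map (MulAut.conj g).toMonoidHom) ∨ (∃ g : Matrix.ProjectiveSpecialLinearGroup (Fin 2) F, W = V₂.map (MulAut.conj g).toMonoidHom)) := by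
  have hodd' : Fintype.card F % 2 = 1 := by rw [hF]; exact Nat.odd_iff.mp hodd
  have h2 : (2 : F) ≠ 0 := Cfsg.Agent.Lib.Helper41.two_ne_zero_of_odd_card hodd'
  have hcount := Cfsg.Agent.S0807.result hF hodd
  have hcard : 2 * Nat.card (Matrix.ProjectiveSpecialLinearGroup (Fin 2) F) = q * (q ^ 2 - 1) := by
    have := Cfsg.Agent.Lib.Helper5.card_PSL2 (F := F)
    rw [hF] at this
    have hg : Nat.gcd (q - 1) 2 = 2 := by
      obtain ⟨k, rfl⟩ := hodd
      simp
    rwa [hg] at this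
  have hq1 : 1 ≤ q ^ 2 := Nat.one_le_pow _ _ (by rw [← hF]; exact Fintype.card_pos)
  constructor
  · intro hq V W hV hW
    have h8 : ¬ 8 ∣ Nat.card (Matrix.ProjectiveSpecialLinearGroup (Fin 2) F) := by
      have hr : q % 16 = 3 ∨ q % 16 = 5 ∨ q % 16 = 11 ∨ q % 16 = 13 := by omega
      have h1 : q ^ 2 % 16 = 9 := by
        rw [Nat.pow_mod]
        rcases hr with h | h | h | h <;> rw [h]
      have h3 : (q ^ 2 - 1) % 16 = 8 := by omega
      have h4 : (q * (q ^ 2 - 1)) % 16 = 8 := by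
        rw [Nat.mul_mod, h3]
        rcases hr with h | h | h | h <;> rw [h]
      omega
    exact conj_of_card_four_of_not_eight_dvd h8 V W hV.card_four hW.card_four
  · intro hq
    have h8 : 8 ∣ Nat.card (Matrix.ProjectiveSpecialLinearGroup (Fin 2) F) := by
      have hr : q % 16 = 1 ∨ q % 16 = 7 ∨ q % 16 = 9 ∨ q % 16 = 15 := by omega
      have h1 : q ^ 2 % 16 = 1 := by
        rw [Nat.pow_mod]
        rcases hr with h | h | h | h <;> rw [h]
      have h3 : (q ^ 2 - 1) % 16 = 0 := by omega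
      have h4 : (q * (q ^ 2 - 1)) % 16 = 0 := by
        rw [Nat.mul_mod, h3]
        simp
      omega
    exact two_classes_klein hcount (fun V hV =>
      card_normalizer_klein hcount h8 V hV (psl2_centralizer_klein h2 V hV))

end Cfsg.Agent.S0808
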