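import Cfsg.Statements.S1685
import Cfsg.Agent.Lib.Helper40.Fi.L9
import Cfsg.Agent.Lib.Helper40.Fi.F22P14080o
import Cfsg.Agent.Lib.Helper40.Fi.F22P14080c0
import Cfsg.Agent.Lib.Helper40.Fi.F22P14080c1
import Cfsg.Agent.Lib.Helper40.Fi.F22P14080c2
import Cfsg.Agent.Lib.Helper40.Fi.F22P14080c3
import Cfsg.Agent.Lib.Helper40.PresTrans

set_option autoImplicit false
open Cfsg

namespace Cfsg.Agent.S1685

open Cfsg.Agent.Lib.Helper40.PE in
theorem H_eq : ((Subgroup.closure ({Cfsg.Spor.Fi22.b, Cfsg.Spor.Fi22.c, Cfsg.Spor.Fi22.d, Cfsg.Spor.Fi22.e, Cfsg.Spor.Fi22.f, Cfsg.Spor.Fi22.g, Cfsg.Spor.Fi22.h, Cfsg.Spor.Fi22.i} : Set (FreeGroup Cfsg.Spor.Fi22.Gen))).map (PresentedGroup.mk (Cfsg.Spor.coxRelators Cfsg.Spor.Fi22.edges ∪ {r | r ∈ Cfsg.Spor.Fi22.extra}))) = Hs F22.s F22P14080.Sw := by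
  rw [MonoidHom.map_closure]
  apply le_antisymm
  · rw [Subgroup.closure_le]
    rintro _ ⟨x, hx, rfl⟩
    simp only [Set.mem_insert_iff, Set.mem_singleton_iff] at hx
    rcases hx with rfl | rfl | rfl | rfl | rfl | rfl | rfl | rfl
    · exact Subgroup.subset_closure ⟨[5], by simp [F22P14080.Sw], by simp; rfl⟩
    · exact Subgroup.subset_closure ⟨[0], by simp [F22P14080.Sw], by simp; rfl⟩
    · exact Subgroup.subset_closure ⟨[1], by simp [F22P14080.Sw], by simp; rfl⟩
    · exact Subgroup.subset_closure ⟨[2], by simp [F22P14080.Sw], by simp; rfl⟩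
    · exact Subgroup.subset_closure ⟨[4], by simp [F22P14080.Sw], by simp; rfl⟩
    · exact Subgroup.subset_closure ⟨[7], by simp [F22P14080.Sw], by simp; rfl⟩
    · exact Subgroup.subset_closure ⟨[3], by simp [F22P14080.Sw], by simp; rfl⟩
    · exact Subgroup.subset_closure ⟨[6], by simp [F22P14080.Sw], by simp; rfl⟩
  · unfold Hs
    rw [Subgroup.closure_le]
    rintro _ ⟨w, hw, rfl⟩
    simp only [F22P14080.Sw, List.mem_cons, List.not_mem_nil, or_false] at hw
    rcases hw with rfl | rfl | rfl | rfl | rfl | rfl | rfl | rfl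
    · exact Subgroup.subset_closure ⟨Cfsg.Spor.Fi22.c, by simp, by simp; rfl⟩
    · exact Subgroup.subset_closure ⟨Cfsg.Spor.Fi22.d, by simp, by simp; rfl⟩
    · exact Subgroup.subset_closure ⟨Cfsg.Spor.Fi22.e, by simp, by simp; rfl⟩
    · exact Subgroup.subset_closure ⟨Cfsg.Spor.Fi22.h, by simp, by simp; rfl⟩
    · exact Subgroup.subset_closure ⟨Cfsg.Spor.Fi22.f, by simp, by simp; rfl⟩
    · exact Subgroup.subset_closure ⟨Cfsg.Spor.Fi22.b, by simp, by simp; rfl⟩
    · exact Subgroup.subset_closure ⟨Cfsg.Spor.Fi22.i, by simp, by simp; rfl⟩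
    · exact Subgroup.subset_closure ⟨Cfsg.Spor.Fi22.g, by simp, by simp; rfl⟩

open Cfsg.Agent.Lib.Helper40.PE in
theorem good : F22P14080.P.Good F22.B := by
  refine ⟨fun x hx => ?_, F22.B_letters, F22.B_kk⟩
  have hx' : x < 14080 := hx
  by_cases h0 : x < 3520
  · exact F22P14080.pt0 x (Nat.zero_le _) h0
  by_cases h1 : x < 7040
  · exact F22P14080.pt1 x (by omega) h1
  by_cases h2 : x < 10560
  · exact F22P14080.pt2 x (by omega) h2
  · exact F22P14080.pt3 x (by omega) hx'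

open Cfsg.Agent.Lib.Helper40.PE in
theorem L9_B : ∀ b ∈ L9.B, wp F22.s b = 1 := by
  intro b hb
  apply F22.s_B
  rcases List.mem_append.mp hb with hb | hb
  · exact List.mem_append_left _ hb
  · apply List.mem_append_right
    simp only [List.mem_cons, List.not_mem_nil, or_false] at hb ⊢
    rcases hb with rfl | rfl
    · exact Or.inl rfl
    · exact Or.inr (Or.inl rfl)

open Cfsg.Agent.Lib.Helper40.PE in
theorem main : (Hs F22.s F22P14080.Sw).index = 14080 := by
  obtain ⟨ρ, hρ⟩ := F22.exists_rho (p := F22P14080.P) rfl good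
  have hcov := L9.cov (s := F22.s) F22.s_inv L9_B (Hs F22.s F22P14080.Sw) (fun w hw => wp_mem_Hs _ hw)
  have hub := card_quot_le_of_cover (H := Hs F22.s F22P14080.Sw) (N := 14080) _
    (fun g => hcov g (by rw [F22.pre_top]; trivial))
  exact index_trans good hρ (by decide +kernel) (by decide +kernel) hub (by decide) F22P14080.orb0 F22P14080.orbG

/-- In the presented Fischer group Fi₂₂ (generators a, …, i), the subgroup generated by the images of b, c, d, e, f, g, h, i has index 14080. -/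
theorem result : (((Subgroup.closure ({Cfsg.Spor.Fi22.b, Cfsg.Spor.Fi22.c, Cfsg.Spor.Fi22.d, Cfsg.Spor.Fi22.e, Cfsg.Spor.Fi22.f, Cfsg.Spor.Fi22.g, Cfsg.Spor.Fi22.h, Cfsg.Spor.Fi22.i} : Set (FreeGroup Cfsg.Spor.Fi22.Gen))).map (PresentedGroup.mk (Cfsg.Spor.coxRelators Cfsg.Spor.Fi22.edges ∪ {r | r ∈ Cfsg.Spor.Fi22.extra})))).index = 14080 := by
  rw [H_eq]
  exact main

end Cfsg.Agent.S1685
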