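import Cfsg.Statements.S2594
import Cfsg.Agent.Lib.Helper5.SpOrder
import Cfsg.Agent.Lib.Helper43.TransvMat
import Cfsg.Agent.Lib.Helper43.TransvCent

set_option autoImplicit false
open Cfsg

namespace Cfsg.Agent.S2594

open Matrix Module Cfsg.Agent.Lib.Helper13 Cfsg.Agent.Lib.Helper5 Cfsg.Agent.Lib.Helper43

variable {F : Type*} [Field F] {m : ℕ}

/-- An element `t` of the symplectic group with `t - 1` of rank one is a symplectic transvection. -/
theorem rank_one_form (t : Matrix.symplecticGroup (Fin m) F)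
    (ht : ((t : Matrix (Fin m ⊕ Fin m) (Fin m ⊕ Fin m) F) - 1).rank = 1) :
    ∃ (a : Fin m ⊕ Fin m → F) (c : F), a ≠ 0 ∧ c ≠ 0 ∧
      ∀ x, (t : Matrix (Fin m ⊕ Fin m) (Fin m ⊕ Fin m) F) *ᵥ x
        = x + (c * Cfsg.sympForm m F x a) • a := by
  obtain ⟨φ, a, ha, hφ, hu⟩ := rank_one_decomp_matrix _ ht
  have htx : ∀ x, (t : Matrix (Fin m ⊕ Fin m) (Fin m ⊕ Fin m) F) *ᵥ x = x + φ x • a := by
    intro x
    have := hu x
    rw [Matrix.sub_mulVec, Matrix.one_mulVec] at this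
    rw [← this]; abel
  have key : ∀ x y, φ y * Cfsg.sympForm m F x a = φ x * Cfsg.sympForm m F y a := by
    intro x y
    have h := sp_preserves t x y
    rw [htx, htx] at h
    simp only [sympForm_add_left, sympForm_add_right, sympForm_smul_left, sympForm_smul_right,
      sympForm_self] at h
    rw [sympForm_swap a y] at h
    linear_combination h
  obtain ⟨y0, hy0⟩ : ∃ y, φ y ≠ 0 := by
    by_contra h; push Not at h; exact hφ (LinearMap.ext h)
  have hf0 : Cfsg.sympForm m F y0 a ≠ 0 := by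
    intro h0
    apply ha
    apply sympForm_nondeg
    intro x
    have := key x y0
    rw [h0, mul_zero] at this
    rw [sympForm_swap, (mul_eq_zero.mp this).resolve_left hy0, neg_zero]
  refine ⟨a, φ y0 / Cfsg.sympForm m F y0 a, ha, div_ne_zero hy0 hf0, fun x => ?_⟩
  rw [htx]
  congr 2
  have := key x y0
  field_simp
  linear_combination -this

theorem exists_form_eq_one (v : Fin m ⊕ Fin m → F) (hv : v ≠ 0) :
    ∃ x, Cfsg.sympForm m F x v = 1 := by
  obtain ⟨x, hx⟩ : ∃ x, Cfsg.sympForm m F x v ≠ 0 := by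
    by_contra h
    push Not at h
    apply hv
    apply sympForm_nondeg
    intro x
    rw [sympForm_swap, h x, neg_zero]
  exact ⟨(Cfsg.sympForm m F x v)⁻¹ • x, by rw [sympForm_smul_left, inv_mul_cancel₀ hx]⟩

theorem centralizer_eq_stabilizer (h2 : (2 : F) = 0) (t : Matrix.symplecticGroup (Fin m) F)
    (v : Fin m ⊕ Fin m → F) (hv : v ≠ 0)
    (htv : ∀ x, (t : Matrix (Fin m ⊕ Fin m) (Fin m ⊕ Fin m) F) *ᵥ x
        = x + Cfsg.sympForm m F x v • v) (g : Matrix.symplecticGroup (Fin m) F) :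
    g ∈ Subgroup.centralizer ({t} : Set (Matrix.symplecticGroup (Fin m) F)) ↔
      (g : Matrix (Fin m ⊕ Fin m) (Fin m ⊕ Fin m) F) *ᵥ v = v := by
  rw [Subgroup.mem_centralizer_singleton_iff]
  constructor
  · intro h
    have h1 : ∀ x, Cfsg.sympForm m F x v • ((g : Matrix (Fin m ⊕ Fin m) (Fin m ⊕ Fin m) F) *ᵥ v)
        = Cfsg.sympForm m F ((g : Matrix (Fin m ⊕ Fin m) (Fin m ⊕ Fin m) F) *ᵥ x) v • v := by
      intro x
      have h3 : ((g * t : Matrix.symplecticGroup (Fin m) F) :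
          Matrix (Fin m ⊕ Fin m) (Fin m ⊕ Fin m) F) *ᵥ x
          = ((t * g : Matrix.symplecticGroup (Fin m) F) :
          Matrix (Fin m ⊕ Fin m) (Fin m ⊕ Fin m) F) *ᵥ x := by rw [h]
      change ((g : Matrix (Fin m ⊕ Fin m) (Fin m ⊕ Fin m) F) * (t : Matrix _ _ F)) *ᵥ x
        = ((t : Matrix (Fin m ⊕ Fin m) (Fin m ⊕ Fin m) F) * (g : Matrix _ _ F)) *ᵥ x at h3
      rw [← Matrix.mulVec_mulVec, ← Matrix.mulVec_mulVec, htv, htv, Matrix.mulVec_add,
        Matrix.mulVec_smul] at h3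
      exact add_left_cancel h3
    obtain ⟨x0, hx0⟩ := exists_form_eq_one v hv
    set l := Cfsg.sympForm m F ((g : Matrix (Fin m ⊕ Fin m) (Fin m ⊕ Fin m) F) *ᵥ x0) v with hl
    have h4 : (g : Matrix (Fin m ⊕ Fin m) (Fin m ⊕ Fin m) F) *ᵥ v = l • v := by
      have := h1 x0
      rwa [hx0, one_smul] at this
    have h5 := sp_preserves g x0 v
    rw [h4, sympForm_smul_right, ← hl, hx0] at h5
    have h6 : (l - 1) ^ 2 = 0 := by linear_combination h5 + (1 - l) * h2
    have h7 : l = 1 := sub_eq_zero.mp (pow_eq_zero_iff (by norm_num) |>.mp h6)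
    rw [h4, h7, one_smul]
  · intro h
    apply Subtype.ext
    change (g : Matrix (Fin m ⊕ Fin m) (Fin m ⊕ Fin m) F) * (t : Matrix _ _ F)
      = (t : Matrix (Fin m ⊕ Fin m) (Fin m ⊕ Fin m) F) * (g : Matrix _ _ F)
    apply mulVec_ext
    intro x
    rw [← Matrix.mulVec_mulVec, ← Matrix.mulVec_mulVec, htv, htv, Matrix.mulVec_add,
      Matrix.mulVec_smul, h]
    congr 2
    have := sp_preserves g x v
    rw [h] at this
    exact this.symm

/-- Over a finite field with q elements, q even, an element t of Sp_2m(F) with rank(t − 1) = 1 (a symplectic transvection) has centraliser in Sp_2m(F) of order q^(2m−1) · |Sp_(2m−2)(q)| = q^(2m−1) · q^((m−1)²) · Π_(i=1)^(m−1) (q^(2i) − 1). -/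
theorem result {F : Type*} [Field F] [Fintype F] [CharP F 2] {q : ℕ} (hF : Fintype.card F = q) {m : ℕ} (hm : 1 ≤ m) (t : Matrix.symplecticGroup (Fin m) F) (ht : ((t : Matrix (Fin m ⊕ Fin m) (Fin m ⊕ Fin m) F) - 1).rank = 1) : Nat.card ↥(Subgroup.centralizer ({t} : Set ↥(Matrix.symplecticGroup (Fin m) F))) = q ^ (2 * m - 1) * (q ^ ((m - 1) ^ 2) * ∏ i : Fin (m - 1), (q ^ (2 * ((i : ℕ) + 1)) - 1)) := by
  classical
  have h2 : (2 : F) = 0 := by
    have := CharP.cast_eq_zero F 2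
    exact_mod_cast this
  obtain ⟨a, c, ha, hc, hta⟩ := rank_one_form t ht
  obtain ⟨d, hd⟩ := FiniteField.isSquare_of_char_two (ringChar.eq F 2) c
  have hd0 : d ≠ 0 := by
    rintro rfl
    exact hc (by simpa using hd)
  set v := d • a with hv
  have hv0 : v ≠ 0 := smul_ne_zero hd0 ha
  have htv : ∀ x, (t : Matrix (Fin m ⊕ Fin m) (Fin m ⊕ Fin m) F) *ᵥ x
        = x + Cfsg.sympForm m F x v • v := by
    intro x
    rw [hta, hv, sympForm_smul_right, smul_smul, hd]
    congr 2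
    ring
  have hsmul : ∀ (g : Matrix.symplecticGroup (Fin m) F) (x : Fin m ⊕ Fin m → F),
      g • x = (g : Matrix (Fin m ⊕ Fin m) (Fin m ⊕ Fin m) F) *ᵥ x := fun _ _ => rfl
  have hcs : Subgroup.centralizer ({t} : Set (Matrix.symplecticGroup (Fin m) F))
      = MulAction.stabilizer (Matrix.symplecticGroup (Fin m) F) v := by
    ext g
    rw [centralizer_eq_stabilizer h2 t v hv0 htv, MulAction.mem_stabilizer_iff, hsmul]
  have horb : MulAction.orbit (Matrix.symplecticGroup (Fin m) F) v = {x | x ≠ 0} := by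
    ext x
    constructor
    · rintro ⟨g, rfl⟩ h0
      apply hv0
      have := sp_inv_mulVec_mulVec g v
      rw [← this]
      have h0' : (g : Matrix (Fin m ⊕ Fin m) (Fin m ⊕ Fin m) F) *ᵥ v = 0 := h0
      rw [h0', Matrix.mulVec_zero]
    · intro hx
      obtain ⟨A, -, hA⟩ := exists_tv_vec (⊤ : Submodule F (Fin m ⊕ Fin m → F))
        (fun u _ hu => by
          obtain ⟨y, hy⟩ := exists_form_eq_one u hu
          refine ⟨y, Submodule.mem_top, ?_⟩
          rw [sympForm_swap, hy]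
          simp) (Submodule.mem_top (x := v)) (Submodule.mem_top (x := x)) hv0 hx
      exact ⟨A, hA⟩
  have h1 : Nat.card (Matrix.symplecticGroup (Fin m) F)
      = (q ^ (2 * m) - 1) * Nat.card (MulAction.stabilizer (Matrix.symplecticGroup (Fin m) F) v) := by
    rw [← Nat.card_congr (MulAction.orbitProdStabilizerEquivGroup
      (Matrix.symplecticGroup (Fin m) F) v), Nat.card_prod]
    congr 1
    rw [horb]
    have := card_ne_zero (K := F) (Fin m ⊕ Fin m → F)
    rw [hF] at this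
    have hfr : finrank F (Fin m ⊕ Fin m → F) = 2 * m := by
      simp; ring
    rw [hfr] at this
    exact this
  rw [hcs]
  rw [card_symplecticGroup, hF] at h1
  obtain ⟨k, rfl⟩ : ∃ k, m = k + 1 := ⟨m - 1, by omega⟩
  rw [Finset.prod_range_succ] at h1
  have hq : 2 ≤ q := hF ▸ Fintype.one_lt_card
  have hpos : 0 < q ^ (2 * (k + 1)) - 1 := by
    have : 2 ≤ q ^ (2 * (k + 1)) := by
      calc 2 ≤ q := hq
        _ = q ^ 1 := (pow_one q).symm
        _ ≤ q ^ (2 * (k + 1)) := Nat.pow_le_pow_right (by omega) (by omega)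
    omega
  apply Nat.eq_of_mul_eq_mul_left hpos
  rw [← h1]
  show _ = (q ^ (2 * (k + 1)) - 1) * (q ^ (2 * (k + 1) - 1) * (q ^ (k ^ 2) *
    ∏ i : Fin k, (q ^ (2 * ((i : ℕ) + 1)) - 1)))
  rw [← Fin.prod_univ_eq_prod_range (fun i => q ^ (2 * (i + 1)) - 1) k]
  have e1 : (k + 1) ^ 2 = (2 * (k + 1) - 1) + k ^ 2 := by
    have : 2 * (k + 1) - 1 = 2 * k + 1 := by omega
    rw [this]; ring
  rw [e1, pow_add]
  generalize (∏ i : Fin k, (q ^ (2 * ((i : ℕ) + 1)) - 1)) = P
  generalize q ^ (2 * (k + 1)) - 1 = Z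
  ring

end Cfsg.Agent.S2594
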