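import Cfsg.Statements.S2639
import Cfsg.Agent.Lib.Helper45.FiniteFieldEmb
import Cfsg.Agent.Lib.Helper45.DescMat
import Cfsg.Agent.Lib.Helper45.Symp
import Cfsg.Agent.Lib.Helper45.QuadExt

set_option autoImplicit false
open Cfsg

namespace Cfsg.Agent.S2639

open Matrix Cfsg.Agent.Lib.Helper45

theorem mem_GU {n : ℕ} {K : Type*} [Field K] {q : ℕ} (g : Matrix.GeneralLinearGroup (Fin n) K) :
    g ∈ Cfsg.GU n K q ↔ ∀ u v, Cfsg.hermForm n K q (g.1 *ᵥ u) (g.1 *ᵥ v) = Cfsg.hermForm n K q u v :=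
  Iff.rfl

section

variable {F K : Type*} [Field F] [Fintype F] [Field K] [Fintype K] [Algebra F K]

/-- coordinates in a basis of `K / F`. -/
noncomputable def T₀ (m : ℕ) (b : Module.Basis (Fin 2) F K) :
    (Fin m → K) →ₗ[F] (Fin m ⊕ Fin m → F) where
  toFun u := Sum.elim (fun i => b.repr (u i) 0) (fun i => b.repr (u i) 1)
  map_add' u v := by
    ext x
    rcases x with x | x <;> simp
  map_smul' t v := by
    ext x
    rcases x with x | x <;> simp

omit [Fintype F] [Fintype K] in
theorem T₀_injective (m : ℕ) (b : Module.Basis (Fin 2) F K) :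
    Function.Injective (T₀ m b) := by
  rw [injective_iff_map_eq_zero]
  intro u hu
  ext j
  have : b.repr (u j) = 0 := by
    ext s
    fin_cases s
    · exact congrFun hu (.inl j)
    · exact congrFun hu (.inr j)
  simpa using this

/-- the alternating form `(x, y) ↦ Tr(ε x y^q)` on `K`. -/
noncomputable def B (ε : K) : K →ₗ[F] K →ₗ[F] F :=
  (Algebra.traceForm F K).compl₁₂ (LinearMap.mulLeft F ε) (conjL F K)

omit [Fintype K] in
theorem B_apply (ε x y : K) : B (F := F) ε x y = Algebra.trace F K (ε * x * y ^ Fintype.card F) := rfl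

theorem B_self (hfr : Module.finrank F K = 2) (ε : K) (hε : Algebra.trace F K ε = 0) (x : K) :
    B (F := F) ε x x = 0 := by
  rw [B_apply, mul_assoc, ← algebraMap_norm_quad hfr, mul_comm, ← Algebra.smul_def, map_smul, hε,
    smul_zero]

theorem B_expand (hfr : Module.finrank F K = 2) (ε : K) (hε : Algebra.trace F K ε = 0)
    (b : Module.Basis (Fin 2) F K) (x y : K) :
    B (F := F) ε x y = B (F := F) ε (b 0) (b 1) *
      (b.repr x 0 * b.repr y 1 - b.repr x 1 * b.repr y 0) := by
  have halt : (B (F := F) ε).IsAlt := B_self hfr ε hε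
  have h10 : B (F := F) ε (b 1) (b 0) = - B (F := F) ε (b 0) (b 1) := by
    rw [← halt.neg]
  conv_lhs => rw [← b.sum_repr x, ← b.sum_repr y]
  simp only [Fin.sum_univ_two, map_add, map_smul, LinearMap.add_apply, LinearMap.smul_apply,
    smul_eq_mul, h10, halt (b 0), halt (b 1)]
  ring

theorem form_T₀ (hfr : Module.finrank F K = 2) (ε : K) (hε : Algebra.trace F K ε = 0)
    (m : ℕ) (b : Module.Basis (Fin 2) F K) (u v : Fin m → K) :
    B (F := F) ε (b 0) (b 1) * ((T₀ m b u) ⬝ᵥ (J (Fin m) F *ᵥ (T₀ m b v)))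
      = - Algebra.trace F K (ε * Cfsg.hermForm m K (Fintype.card F) u v) := by
  rw [dotProduct_J_mulVec, Cfsg.hermForm, Finset.mul_sum, map_sum]
  simp only [T₀, LinearMap.coe_mk, AddHom.coe_mk, Sum.elim_inl, Sum.elim_inr]
  rw [← Finset.sum_sub_distrib, Finset.mul_sum, ← Finset.sum_neg_distrib]
  refine Finset.sum_congr rfl fun j _ => ?_
  rw [← mul_assoc, ← B_apply, B_expand hfr ε hε b (u j) (v j)]
  ring

theorem B_ne_zero (hfr : Module.finrank F K = 2) (ε : K) (hε0 : ε ≠ 0)
    (hε : Algebra.trace F K ε = 0) (b : Module.Basis (Fin 2) F K) :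
    B (F := F) ε (b 0) (b 1) ≠ 0 := by
  intro h0
  obtain ⟨θ, hθ⟩ := exists_trace_quad (F := F) (K := K) 1
  have h1 := B_expand hfr ε hε b (ε⁻¹ * θ) 1
  rw [h0, zero_mul, B_apply, one_pow, mul_one, mul_inv_cancel_left₀ hε0, hθ] at h1
  exact one_ne_zero h1

end

theorem main {K F : Type*} [Field K] [Fintype K] [Field F] [Fintype F]
    (hK : Fintype.card K = Fintype.card F ^ 2) (m : ℕ) :
    ∃ φ : ↥(Cfsg.GU m K (Fintype.card F)) →* ↥(Matrix.symplecticGroup (Fin m) F),
      Function.Injective φ := by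
  obtain ⟨i⟩ := exists_ringHom_of_card_pow hK
  let _ : Algebra F K := i.toAlgebra
  have hfr : Module.finrank F K = 2 := finrank_eq_two_of_card hK
  let b : Module.Basis (Fin 2) F K := Module.finBasisOfFinrankEq F K hfr
  obtain ⟨ε, hε0, hε⟩ := exists_trace_zero (F := F) (K := K) hfr
  let T : (Fin m → K) ≃ₗ[F] (Fin m ⊕ Fin m → F) :=
    LinearMap.linearEquivOfInjective (T₀ m b) (T₀_injective m b) (by
      rw [Module.finrank_pi_fintype]
      simp only [Module.finrank_fintype_fun_eq_card, Fintype.card_sum, Fintype.card_fin, hfr]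
      simp
      ring)
  have hT : ∀ u v, B (F := F) ε (b 0) (b 1) * ((T u) ⬝ᵥ (J (Fin m) F *ᵥ (T v)))
      = - Algebra.trace F K (ε * Cfsg.hermForm m K (Fintype.card F) u v) :=
    fun u v => form_T₀ hfr ε hε m b u v
  have hκ := B_ne_zero hfr ε hε0 hε b
  have hmem : ∀ g : ↥(Cfsg.GU m K (Fintype.card F)),
      descMat T g.1.1 ∈ Matrix.symplecticGroup (Fin m) F := by
    intro g
    rw [mem_symplecticGroup_iff_form]
    intro x y
    apply mul_left_cancel₀ hκ
    rw [descMat_mulVec, descMat_mulVec, hT, (mem_GU g.1).1 g.2, ← hT,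
      LinearEquiv.apply_symm_apply, LinearEquiv.apply_symm_apply]
  refine ⟨MonoidHom.mk' (fun g => ⟨descMat T g.1.1, hmem g⟩) ?_, ?_⟩
  · intro g h
    apply Subtype.ext
    exact map_mul (descMat T) g.1.1 h.1.1
  · intro g h hgh
    apply Subtype.ext
    apply Units.ext
    exact descMat_injective T (congrArg Subtype.val hgh)

theorem result {K F : Type*} [Field K] [Fintype K] [Field F] [Fintype F] {q : ℕ} (hK : Fintype.card K = q ^ 2) (hF : Fintype.card F = q) (m : ℕ) : ∃ φ : ↥(Cfsg.GU m K q) →* ↥(Matrix.symplecticGroup (Fin m) F), Function.Injective φ := by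
  subst hF
  exact main hK m

end Cfsg.Agent.S2639
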