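import Mathlib
import Cfsg.Statements.S1082
import Cfsg.Agent.Lib.Helper14.D4Iso

set_option autoImplicit false
open Cfsg

namespace Cfsg.Agent.S1082

/-- D₄(F) ≅ PΩ₈⁺(F), the commutator subgroup of the orthogonal group of `Σ xᵢ yᵢ` modulo its centre. -/
theorem result {F : Type*} [Field F] : Nonempty (↥(Cfsg.Lie.chevD4.group F) ≃* Cfsg.POmega F (Cfsg.quadFormPlus 4 F)) := by
  exact Cfsg.Agent.Lib.Helper14.chevD4_equiv_pomega

end Cfsg.Agent.S1082
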