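import Cfsg.Statements.S4282
import Mathlib
import Cfsg.Agent.Lib.Helper82.HHMain

set_option autoImplicit false
open Cfsg

namespace Cfsg.Agent.S4282

open Module Cfsg.Agent.Lib.Helper58.HH Cfsg.Agent.Lib.Helper82.HH

/-- A critical case behind the Hall–Higman theorem. Let p ≠ q be primes and G a finite group generated by a normal q-subgroup Q and a cyclic p-subgroup generated by x, such that the centralizer of every non-identity element of that cyclic subgroup is its product with the centre of G. Let K be an algebraically closed field of characteristic p and ρ a faithful representation of G on a nonzero finite-dimensional K-space whose restriction to Q is irreducible. If s is the least exponent with (ρ(x) − 1)^s = 0, then |⟨x⟩| − 1 ≤ s ≤ |⟨x⟩|; and if s = |⟨x⟩| − 1 then |⟨x⟩| − 1 is a power of q and Q is non-abelian. -/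
theorem result {G : Type*} [Group G] [Finite G] (p q : ℕ) [Fact p.Prime] [Fact q.Prime] (hpq : p ≠ q) (Q : Subgroup G) [Q.Normal] (hQ : IsPGroup q Q) (x : G) (hx : IsPGroup p (Subgroup.zpowers x)) (hgen : Q ⊔ Subgroup.zpowers x = ⊤) (hC : ∀ y ∈ Subgroup.zpowers x, y ≠ 1 → Subgroup.centralizer ({y} : Set G) = Subgroup.zpowers x ⊔ Subgroup.center G) {K : Type*} [Field K] [IsAlgClosed K] [CharP K p] {V : Type*} [AddCommGroup V] [Module K V] [FiniteDimensional K V] [Nontrivial V] (ρ : Representation K G V) (hfaith : Function.Injective ρ) (hirr : ∀ W : Submodule K V, (∀ g ∈ Q, Submodule.map (ρ g) W ≤ W) → W = ⊥ ∨ W = ⊤) (s : ℕ) (hs : (ρ x - 1) ^ s = 0) (hmin : ∀ k < s, (ρ x - 1) ^ k ≠ 0) : Nat.card (Subgroup.zpowers x) - 1 ≤ s ∧ s ≤ Nat.card (Subgroup.zpowers x) ∧ (s = Nat.card (Subgroup.zpowers x) - 1 → (∃ b : ℕ, Nat.card (Subgroup.zpowers x) - 1 = q ^ b) ∧ ¬ IsMulCommutative Q) := by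
  classical
  have hNo : Nat.card (Subgroup.zpowers x) = orderOf x := Nat.card_zpowers x
  obtain ⟨n, hn⟩ := IsPGroup.iff_card.mp hx
  set N := Nat.card (Subgroup.zpowers x) with hN
  have hXN : (ρ x) ^ (p ^ n) = 1 := by rw [← map_pow, ← hn, hNo, pow_orderOf_eq_one, map_one]
  have hνN : (ρ x - 1) ^ N = 0 := by rw [hn]; exact sub_one_pow_eq_zero p (ρ x) n hXN
  have hsN : s ≤ N := by
    by_contra h
    exact hmin N (not_le.mp h) hνN
  have hs0 : s ≠ 0 := by
    rintro rfl
    simp at hs
  by_cases hs1 : s = 1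
  · subst hs1
    have h1 : ρ x = 1 := by simpa [sub_eq_zero] using hs
    have hx1 : x = 1 := hfaith (by rw [h1, map_one])
    have hN1 : N = 1 := by rw [hNo, hx1, orderOf_one]
    exact ⟨by omega, by omega, fun h => by omega⟩
  have hs2 : 2 ≤ s := by omega
  by_cases hsN' : s = N
  · exact ⟨by omega, by omega, fun h => by omega⟩
  have hsN1 : s + 1 ≤ N := by omega
  have hsd : s ≤ finrank K V := by
    by_contra h
    exact hmin (finrank K V) (not_le.mp h) (pow_finrank_eq_zero _ ⟨s, hs⟩)
  have h1 := sq_finrank_le_mul_finrank_cen s (ρ x - 1) hs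
  have h2 := main_bound p q hpq Q hQ x hx hC ρ hirr
  rw [← hNo] at h2
  obtain ⟨e1, e2⟩ := arith_core hs2 hsN1 hsd h1 h2
  have hirrσ : ∀ W : Submodule K V, (∀ g, Submodule.map ((ρ.comp Q.subtype : Representation K Q V) g) W ≤ W) →
      W = ⊥ ∨ W = ⊤ := by
    intro W hW
    exact hirr W (fun g hg => hW ⟨g, hg⟩)
  refine ⟨by omega, hsN, fun _ => ⟨?_, ?_⟩⟩
  · obtain ⟨b, hb⟩ := exists_finrank_eq_pow q hQ (ρ.comp Q.subtype : Representation K Q V) hirrσ
    exact ⟨b, by omega⟩
  · intro hcomm
    have := finrank_eq_one_of_comm (ρ.comp Q.subtype : Representation K Q V) hirrσ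
      (fun a b => by rw [← map_mul, ← map_mul, hcomm.is_comm.comm a b])
    omega

end Cfsg.Agent.S4282
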