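import Cfsg.Statements.S0633
import Cfsg.Agent.Lib.Helper53.HH.Main
import Cfsg.Agent.Lib.Helper53.HH.R8
import Cfsg.Agent.Lib.Helper81.HHR9

set_option autoImplicit false
set_option linter.style.haveILetI false
open Cfsg

namespace Cfsg.Agent.S0633

open Cfsg.Agent.Lib.Helper53.HH Cfsg.Agent.Lib.Helper81.HH

theorem sylow_not_comm {H : Type*} [Group H] [Finite H] (q : ℕ) [Fact q.Prime] (Q : Subgroup H)
    (hQ : IsPGroup q Q) (hnc : ¬ IsMulCommutative Q) (S : Sylow q H) :
    ¬ IsMulCommutative S := by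
  intro hS
  apply hnc
  obtain ⟨S0, hS0⟩ := hQ.exists_le_sylow
  obtain ⟨g, hg⟩ := MulAction.exists_smul_eq H S S0
  have hS' := (comm_iff (S : Subgroup H)).1 hS
  rw [comm_iff]
  have key : ∀ a ∈ Q, ∃ a' ∈ (S : Subgroup H), a = g * a' * g⁻¹ := by
    intro a ha
    have h1 : a ∈ ((g • S : Sylow q H) : Subgroup H) := by
      rw [hg]
      exact hS0 ha
    rw [Sylow.coe_subgroup_smul] at h1
    obtain ⟨a', ha', rfl⟩ := h1
    exact ⟨a', ha', rfl⟩
  intro a ha b hb
  obtain ⟨a', ha', rfl⟩ := key a ha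
  obtain ⟨b', hb', rfl⟩ := key b hb
  have := hS' a' ha' b' hb'
  calc g * a' * g⁻¹ * (g * b' * g⁻¹) = g * (a' * b') * g⁻¹ := by group
    _ = g * (b' * a') * g⁻¹ := by rw [this]
    _ = g * b' * g⁻¹ * (g * a' * g⁻¹) := by group

/-- Theorem B of Hall and Higman on the minimal polynomial of a p-element of order p^n in a p-solvable linear group on a nonzero vector space in characteristic p with no nontrivial normal p-subgroup: its degree is p^n, except when some p^n₀ - 1 (n₀ ≤ n) is a power of a prime q for which the Sylow q-subgroups are non-abelian, in which case the degree is at least p^(n-n₀)(p^n₀ - 1). -/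
theorem result {F : Type*} [Field F] {p : ℕ} [Fact p.Prime] [CharP F p] {V : Type*} [AddCommGroup V] [Module F V] [FiniteDimensional F V] [Nontrivial V] (H : Subgroup (V ≃ₗ[F] V)) [Finite H] (hsol : Cfsg.IsPSolvable p H) (hOp : Cfsg.pCore p H = ⊥) (x : V ≃ₗ[F] V) (hx : x ∈ H) (n : ℕ) (hn : orderOf x = p ^ n) (r : ℕ) (hr : minpoly F (x : Module.End F V) = (Polynomial.X - 1) ^ r) : r = p ^ n ∨ ∃ n₀ q m : ℕ, 1 ≤ n₀ ∧ n₀ ≤ n ∧ q.Prime ∧ 1 ≤ m ∧ p ^ n₀ - 1 = q ^ m ∧ (∀ Q : Sylow q H, ¬ IsMulCommutative Q) ∧ p ^ (n - n₀) * (p ^ n₀ - 1) ≤ r := by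
  have hp := (Fact.out : p.Prime)
  have hxr : (x.toLinearMap - 1 : Module.End F V) ^ r = 0 := by
    have h1 := minpoly.aeval F (x : Module.End F V)
    rw [hr] at h1
    simpa using h1
  have hxpow : x ^ p ^ n = 1 := hn ▸ pow_orderOf_eq_one x
  have hcoe : ∀ k : ℕ, ((x ^ k : V ≃ₗ[F] V).toLinearMap : Module.End F V) =
      (x.toLinearMap : Module.End F V) ^ k := by
    intro k
    induction k with
    | zero => rfl
    | succ k ih =>
      rw [pow_succ, pow_succ, ← ih]
      rfl
  have hxP : (x.toLinearMap - 1 : Module.End F V) ^ p ^ n = 0 := by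
    haveI : CharP (Module.End F V) p := by
      exact charP_of_injective_algebraMap (algebraMap F (Module.End F V)).injective p
    rw [sub_pow_char_pow_of_commute p n (Commute.one_right _), one_pow, ← hcoe, hxpow]
    exact sub_self _
  have hrle : r ≤ p ^ n := by
    have h1 : minpoly F (x : Module.End F V) ∣ (Polynomial.X - 1) ^ p ^ n := by
      apply minpoly.dvd
      simpa using hxP
    rw [hr] at h1
    have hne : ((Polynomial.X - 1 : Polynomial F) ^ p ^ n) ≠ 0 := by
      have := pow_ne_zero (p ^ n) (Polynomial.X_sub_C_ne_zero (1 : F))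
      simpa using this
    have h2 := Polynomial.natDegree_le_of_dvd h1 hne
    have h3 : ∀ k : ℕ, ((Polynomial.X - 1 : Polynomial F) ^ k).natDegree = k := by
      intro k
      have : (Polynomial.X - 1 : Polynomial F) = Polynomial.X - Polynomial.C 1 := by simp
      rw [this, Polynomial.natDegree_pow, Polynomial.natDegree_X_sub_C, mul_one]
    rwa [h3, h3] at h2
  rcases Nat.eq_zero_or_pos n with rfl | hnpos
  · left
    have : r ≠ 0 := by
      rintro rfl
      rw [pow_zero] at hxr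
      exact one_ne_zero hxr
    simp at hrle ⊢
    omega
  set y := x ^ p ^ (n - 1) with hy
  have hy1 : y ≠ 1 := by
    intro h
    have h1 := orderOf_dvd_of_pow_eq_one h
    rw [hn] at h1
    have h2 := Nat.le_of_dvd (pow_pos hp.pos _) h1
    have h3 : p ^ (n - 1) < p ^ n := Nat.pow_lt_pow_right hp.one_lt (by omega)
    omega
  obtain ⟨q, Q, hq, hqp, hQ, hQx, a, ha, hya⟩ := exists_q_subgroup (H := H) hsol hOp ⟨x, hx⟩ n
    (Subtype.ext (by simpa using hxpow)) (⟨x, hx⟩ ^ p ^ (n - 1))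
    (Subgroup.pow_mem _ (Subgroup.mem_zpowers _) _) (by
      intro h
      apply hy1
      have := congrArg Subtype.val h
      simpa using this)
  haveI : Fact q.Prime := ⟨hq⟩
  set K := AlgebraicClosure F with hK
  haveI : CharP K p := charP_of_injective_algebraMap (algebraMap F K).injective p
  obtain ⟨Φ, hΦinj, hΦ⟩ := exists_baseChange (F := F) (V := V) K
  set Ψ : H →* (TensorProduct F K V ≃ₗ[K] TensorProduct F K V) := Φ.comp H.subtype with hΨ
  have hΨinj : Function.Injective Ψ := hΦinj.comp Subtype.val_injective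
  set 𝒬 := Q.map Ψ with h𝒬
  haveI : Finite 𝒬 := by
    have : ((𝒬 : Subgroup _) : Set (TensorProduct F K V ≃ₗ[K] TensorProduct F K V)).Finite := by
      rw [h𝒬, Subgroup.coe_map]
      exact (Set.toFinite _).image _
    exact this.to_subtype
  have hmain := main_aux K p q hqp.symm (Module.finrank K (TensorProduct F K V))
    (TensorProduct F K V) rfl (Nat.card 𝒬) 𝒬 rfl (hQ.map Ψ) (Ψ ⟨x, hx⟩) (by
      rintro _ ⟨b, hb, rfl⟩
      rw [← map_inv, ← map_mul, ← map_mul]
      exact ⟨_, hQx b hb, rfl⟩) n hnpos (by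
      rw [← map_pow]
      have : (⟨x, hx⟩ : H) ^ p ^ n = 1 := Subtype.ext (by simpa using hxpow)
      rw [this, map_one]) ⟨Ψ a, ⟨a, ha, rfl⟩, by
      rw [← map_pow, ← map_mul, ← map_mul]
      exact fun h => hya (hΨinj h)⟩ r ((hΦ x r).2 hxr)
  rcases hmain with h | ⟨n₀, m, h1, h2, h3, h4, h5, h6⟩
  · exact Or.inl (le_antisymm hrle h)
  · refine Or.inr ⟨n₀, q, m, h1, h2, hq, h3, h4, ?_, h6⟩
    apply sylow_not_comm q Q hQ
    intro hc
    apply h5
    rw [comm_iff] at hc ⊢
    rintro _ ⟨b, hb, rfl⟩ _ ⟨c, hc', rfl⟩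
    rw [← map_mul, ← map_mul, hc b hb c hc']

end Cfsg.Agent.S0633
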