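import Mathlib
import Cfsg.Statements.S1284
import Cfsg.Agent.Lib.Helper22.Signalizer

set_option autoImplicit false
open Cfsg
open Cfsg.Agent.Lib.Helper22

namespace Cfsg.Agent.S1284

theorem partA {G : Type*} [Group G] [Finite G] (p : ℕ) [Fact p.Prime] (A : Subgroup G)
    (hA : Cfsg.IsElementaryAbelian p A) (hA3 : p ^ 3 ≤ Nat.card ↥A) (θ : G → Subgroup G)
    (hθ : Cfsg.IsSolvableSignalizerFunctor p A θ) (q : ℕ) [Fact q.Prime] (Q : Subgroup G)
    (hQ : Q ∈ maxQFamily p A θ q) (H : Subgroup G) (hH : H ∈ Cfsg.signalizerFamily p A θ) :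
    ∃ c ∈ Cfsg.signalizerInf A θ, IsSylowIn q (conjS c Q ⊓ H) H := by
  have hAp : IsPGroup p A := elemAb_isPGroup hA
  obtain ⟨S, hS, hAS⟩ := exists_invariant_isSylowIn A H hAp hH.2.1 (family_le_normalizer hH) q
  obtain ⟨T, hT, hST⟩ := exists_maxQFamily_ge (family_of_le hH hS.le hAS) hS.isPGroup
  obtain ⟨c, hc, rfl⟩ := transitivity hA hA3 hθ _ Q T hQ hT rfl
  refine ⟨c, hc, ?_⟩
  have h1 : conjS c Q ⊓ H = S :=
    hS.eq_of_le (hT.2.1.to_le inf_le_left) inf_le_right (le_inf hST hS.le)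
  rw [h1]
  exact hS

/-- Let θ be a solvable A-signalizer functor on the finite group G, A elementary abelian of rank at least 3, q a prime dividing some |θ a|, and Q maximal among the q-subgroups in the family of θ. Then (a) for every member H of the family, some c in the intersection of the θ a (a ∈ A non-identity) makes c Q c⁻¹ ∩ H a Sylow q-subgroup of H; and (b) for every nontrivial subgroup B ≤ A, C_Q(B) is a Sylow q-subgroup of the intersection of the θ b over the non-identity b ∈ B. -/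
theorem result {G : Type*} [Group G] [Finite G] (p : ℕ) [Fact p.Prime] (A : Subgroup G) (hA : Cfsg.IsElementaryAbelian p A) (hA3 : p ^ 3 ≤ Nat.card ↥A) (θ : G → Subgroup G) (hθ : Cfsg.IsSolvableSignalizerFunctor p A θ) (q : ℕ) [Fact q.Prime] (hq : ∃ a ∈ A, a ≠ 1 ∧ q ∣ Nat.card ↥(θ a)) (Q : Subgroup G) (hQW : Q ∈ Cfsg.signalizerFamily p A θ) (hQq : IsPGroup q ↥Q) (hQmax : ∀ R ∈ Cfsg.signalizerFamily p A θ, IsPGroup q ↥R → Q ≤ R → R = Q) : (∀ H : Subgroup G, H ∈ Cfsg.signalizerFamily p A θ → ∃ c ∈ Cfsg.signalizerInf A θ, ∃ S : Sylow q ↥H, (S : Subgroup ↥H).map H.subtype = Q.map (MulAut.conj c).toMonoidHom ⊓ H) ∧ (∀ B : Subgroup G, B ≤ A → B ≠ ⊥ → ∃ S : Sylow q ↥(Cfsg.signalizerInf B θ), (S : Subgroup ↥(Cfsg.signalizerInf B θ)).map (Cfsg.signalizerInf B θ).subtype = Q ⊓ Subgroup.centralizer (B : Set G)) := by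
  have hQ : Q ∈ maxQFamily p A θ q := ⟨hQW, hQq, hQmax⟩
  constructor
  · intro H hH
    obtain ⟨c, hc, S, hS⟩ := partA p A hA hA3 θ hθ q Q hQ H hH
    exact ⟨c, hc, S, hS⟩
  · intro B hB hB1
    obtain ⟨b, hb1⟩ := (Subgroup.ne_bot_iff_exists_ne_one).mp hB1
    have hbB : (b : G) ∈ B := b.2
    have hb1' : (b : G) ≠ 1 := fun h => hb1 (Subtype.ext h)
    set H := Cfsg.signalizerInf B θ with hHdef
    have hHb : H ≤ θ b := signalizerInf_le hbB hb1'
    have hAH : A ≤ Subgroup.normalizer (H : Set G) := by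
      refine le_trans ?_ (Subgroup.iInf_normalizer_le_normalizer_iInf _)
      refine le_iInf ?_
      rintro ⟨d, hd, hd1⟩
      exact family_le_normalizer (family_theta hθ (hB hd) hd1)
    have hHF : H ∈ Cfsg.signalizerFamily p A θ :=
      family_of_le (family_theta hθ (hB hbB) hb1') hHb hAH
    obtain ⟨c, hc, hS⟩ := partA p A hA hA3 θ hθ q Q hQ H hHF
    have hcH : c ∈ H := by
      refine (Subgroup.mem_iInf).mpr ?_
      rintro ⟨d, hd, hd1⟩
      exact signalizerInf_le (hB hd) hd1 hc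
    -- `Q ⊓ H = Q ⊓ C(B)`
    have h1 : Q ⊓ H = Q ⊓ Subgroup.centralizer (B : Set G) := by
      apply le_antisymm
      · refine inf_le_inf_left _ ?_
        intro x hx
        rw [Subgroup.mem_centralizer_iff]
        intro d hd
        by_cases hd1 : d = 1
        · simp [hd1]
        · have h2 : x ∈ θ d := signalizerInf_le hd hd1 hx
          have h3 := hθ.1.1 d (hB hd) hd1 h2
          exact (Subgroup.mem_centralizer_singleton_iff.mp h3).symm
      · refine le_inf inf_le_left ?_
        refine le_iInf ?_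
        rintro ⟨d, hd, hd1⟩
        refine le_trans (inf_le_inf_left _ (Subgroup.centralizer_le ?_)) (hQW.2.2.2 d (hB hd) hd1)
        simpa using hd
    -- conjugate back by `c ∈ H`
    have h2 : conjS c⁻¹ (conjS c Q ⊓ H) = Q ⊓ H := by
      ext x
      simp only [mem_conjS, Subgroup.mem_inf, inv_inv]
      constructor
      · rintro ⟨h3, h4⟩
        refine ⟨by convert h3 using 1; group, ?_⟩
        have := mul_mem (mul_mem (inv_mem hcH) h4) hcH
        convert this using 1; group
      · rintro ⟨h3, h4⟩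
        refine ⟨by convert h3 using 1; group, ?_⟩
        exact mul_mem (mul_mem hcH h4) (inv_mem hcH)
    have h3 : IsSylowIn q (Q ⊓ H) H := by
      rw [← h2, isSylowIn_iff]
      have hS' := isSylowIn_iff.mp hS
      refine ⟨?_, isPGroup_conjS hS'.2.1, ?_⟩
      · rw [h2]; exact inf_le_right
      · intro R hR hRH hle
        have h4 : conjS c Q ⊓ H ≤ conjS c R := by
          have := conjS_le_conjS (c := c) hle
          rwa [conjS_conjS_inv] at this
        have h5 : conjS c R ≤ H := by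
          rintro _ ⟨r, hr, rfl⟩
          exact mul_mem (mul_mem hcH (hRH hr)) (inv_mem hcH)
        have h6 := hS'.2.2 _ (isPGroup_conjS hR) h5 h4
        rw [← h6, conjS_inv_conjS]
    rw [h1] at h3
    exact h3

end Cfsg.Agent.S1284
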