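import Cfsg.Statements.S0293
import Mathlib
import Cfsg.Agent.Lib.Helper5.POmegaOrder
import Cfsg.Agent.S0287
import Cfsg.Agent.S0790

set_option autoImplicit false
open Cfsg Cfsg.Agent.Lib.Helper5 Cfsg.Agent.Lib.Helper44 QuadraticMap

namespace Cfsg.Agent.S0293

/-- gcd(4, q^m - 1) |PΩ^+_{2m}(q)| = q^(m(m-1)) (q^m - 1) prod_{i=1}^{m-1} (q^(2i) - 1), m at least 4 (type D_m). -/
theorem result {F : Type*} [Field F] [Fintype F] {q : ℕ} (hF : Fintype.card F = q) (m : ℕ) (hm : 4 ≤ m) : Nat.gcd 4 (q ^ m - 1) * Nat.card (Cfsg.POmega F (Cfsg.quadFormPlus m F)) = q ^ (m * (m - 1)) * (q ^ m - 1) * ∏ i ∈ Finset.range (m - 1), (q ^ (2 * (i + 1)) - 1) := by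
  have hO := Cfsg.Agent.S0287.result hF m (by omega)
  have hmul := card_POmega_mul (F := F) (Cfsg.quadFormPlus m F)
  have hq1 : 1 ≤ q := by rw [← hF]; exact Fintype.card_pos
  have hqm : 1 ≤ q ^ m := Nat.one_le_pow _ _ hq1
  let i0 : Fin m := ⟨0, by omega⟩
  let i1 : Fin m := ⟨1, by omega⟩
  have h01 : i0 ≠ i1 := by simp [i0, i1]
  have he : plusQF m F (Pi.single (Sum.inl i0) 1) = 0 := by rw [plusQF_apply]; simp
  have hf : plusQF m F (Pi.single (Sum.inr i0) 1) = 0 := by rw [plusQF_apply]; simp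
  have hef : polar (plusQF m F) (Pi.single (Sum.inl i0) 1) (Pi.single (Sum.inr i0) 1) = 1 := by
    rw [plusQF_polar_single_inl]; simp
  have hw0 : plusQF m F (Pi.single (Sum.inl i1) 1 + Pi.single (Sum.inr i1) 1) ≠ 0 := by
    rw [plusQF_apply, Finset.sum_eq_single i1]
    · simp
    · intro j _ hj
      simp [hj]
    · simp
  have hw0e : polar (plusQF m F) (Pi.single (Sum.inl i0) 1)
      (Pi.single (Sum.inl i1) 1 + Pi.single (Sum.inr i1) 1) = 0 := by
    rw [plusQF_polar_single_inl]; simp [h01]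
  have hw0f : polar (plusQF m F) (Pi.single (Sum.inr i0) 1)
      (Pi.single (Sum.inl i1) 1 + Pi.single (Sum.inr i1) 1) = 0 := by
    rw [plusQF_polar_single_inr]; simp [h01]
  have e : 2 * q ^ (m * (m - 1)) * (q ^ m - 1) * ∏ i ∈ Finset.range (m - 1), (q ^ (2 * (i + 1)) - 1)
      = 2 * (q ^ (m * (m - 1)) * (q ^ m - 1) * ∏ i ∈ Finset.range (m - 1), (q ^ (2 * (i + 1)) - 1)) := by
    ring
  rw [hO, e] at hmul
  have : Nonempty (Fin m ⊕ Fin m) := ⟨Sum.inl i0⟩
  rcases Nat.even_or_odd q with heven | hodd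
  · -- characteristic two
    have hchar : CharP F 2 := by
      have h1 : ringChar F = 2 := FiniteField.even_card_iff_char_two.2 (by
        rw [hF]; exact Nat.even_iff.1 heven)
      exact ringChar.of_eq h1
    have h20 : (2 : F) = 0 := CharTwo.two_eq_zero
    have hidx : (Cfsg.Omega F (Cfsg.quadFormPlus m F)).index = 2 := by
      have := index_Omega_even (plusQF m F) (plusQF_nondeg m F) (by simp; omega)
      rwa [plusQF_coe] at this
    have hZ : Nat.card (Subgroup.center (Cfsg.Omega F (Cfsg.quadFormPlus m F))) = 1 := by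
      have := card_center_Omega_eq_one (plusQF m F) (plusQF_nondeg m F) he hf hef hw0 hw0e hw0f
        (Or.inl h20)
      rwa [plusQF_coe] at this
    have hg : Nat.gcd 4 (q ^ m - 1) = 1 := by
      have h3 : Even (q ^ m) := (Nat.even_pow.2 ⟨heven, by omega⟩)
      have h4 : (q ^ m - 1) % 4 = 1 ∨ (q ^ m - 1) % 4 = 3 := by
        obtain ⟨k, hk⟩ := h3
        omega
      rw [gcd_four]
      rcases h4 with h | h <;> rw [h] <;> decide
    rw [hidx, hZ] at hmul
    rw [hg]
    omega
  · have h2 : (2 : F) ≠ 0 := two_ne_zero_of_odd_card (by rw [hF]; exact hodd)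
    have hidx : (Cfsg.Omega F (Cfsg.quadFormPlus m F)).index = 4 := by
      have := index_Omega_odd h2 (plusQF m F) (plusQF_nondeg m F) (by simp; omega)
      rwa [plusQF_coe] at this
    have hiff := Cfsg.Agent.S0790.result hF hodd m (by omega)
    have hoddm : Odd (q ^ m) := hodd.pow
    have h4 : q ^ m % 4 = 1 ∨ q ^ m % 4 = 3 := by
      obtain ⟨k, hk⟩ := hoddm
      omega
    rcases h4 with h | h
    · have hZ : Nat.card (Subgroup.center (Cfsg.Omega F (Cfsg.quadFormPlus m F))) = 2 := by
        have := card_center_Omega_eq_two (plusQF m F) (plusQF_nondeg m F) he hf hef hw0 hw0e hw0f h2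
          (by rw [plusQF_coe]; exact hiff.2 h)
        rwa [plusQF_coe] at this
      have hg : Nat.gcd 4 (q ^ m - 1) = 4 := by
        rw [gcd_four]
        have : (q ^ m - 1) % 4 = 0 := by omega
        rw [this]; decide
      rw [hidx, hZ] at hmul
      rw [hg]
      omega
    · have hZ : Nat.card (Subgroup.center (Cfsg.Omega F (Cfsg.quadFormPlus m F))) = 1 := by
        have := card_center_Omega_eq_one (plusQF m F) (plusQF_nondeg m F) he hf hef hw0 hw0e hw0f
          (Or.inr (by
            rw [plusQF_coe]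
            intro hc
            have := hiff.1 hc
            omega))
        rwa [plusQF_coe] at this
      have hg : Nat.gcd 4 (q ^ m - 1) = 2 := by
        rw [gcd_four]
        have : (q ^ m - 1) % 4 = 2 := by omega
        rw [this]; decide
      rw [hidx, hZ] at hmul
      rw [hg]
      omega

end Cfsg.Agent.S0293
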