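import Cfsg.Statements.S0294
import Cfsg.Agent.Lib.Helper44.CenterOmega
import Cfsg.Agent.S0288
import Cfsg.Agent.S0791

set_option autoImplicit false
open Cfsg

namespace Cfsg.Agent.S0294

open Cfsg.Agent.Lib.Helper44

/-- gcd(4, q^m + 1) |PΩ^-_{2m}(q)| = q^(m(m-1)) (q^m + 1) prod_{i=1}^{m-1} (q^(2i) - 1), m at least 4 (type ²D_m). -/
theorem result {F : Type*} [Field F] [Fintype F] {q : ℕ} (hF : Fintype.card F = q) (m : ℕ) (hm : 4 ≤ m) (a b : F) (hab : ∀ z₁ z₂ : F, z₁ ^ 2 + a * z₁ * z₂ + b * z₂ ^ 2 = 0 → z₁ = 0 ∧ z₂ = 0) : Nat.gcd 4 (q ^ m + 1) * Nat.card (Cfsg.POmega F (Cfsg.quadFormMinus (m - 1) F a b)) = q ^ (m * (m - 1)) * (q ^ m + 1) * ∏ i ∈ Finset.range (m - 1), (q ^ (2 * (i + 1)) - 1) := by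
  have hQ := minusQF_nondeg (m - 1) F hab
  have hcard : Fintype.card ((Fin (m - 1) ⊕ Fin (m - 1)) ⊕ Fin 2) = 2 * m := by simp; omega
  have : Nonempty ((Fin (m - 1) ⊕ Fin (m - 1)) ⊕ Fin 2) := ⟨Sum.inr 0⟩
  have h1 := card_isometryGroup_eq (F := F) ⇑(minusQF (m - 1) F a b)
  have hq1 : 1 ≤ q ^ m := Nat.one_le_pow _ _ (by rw [← hF]; exact Fintype.card_pos)
  rw [gcd_four]
  rcases Nat.even_or_odd q with he | hodd
  · have h2 : (2 : F) = 0 := two_eq_zero_of_even_card (by rw [hF]; exact he)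
    rw [index_Omega_char_two h2 _ hQ (Or.inr (by omega)) (by omega),
      card_center_Omega_eq_one _ hQ (by omega) (Or.inl h2), minusQF_coe,
      Cfsg.Agent.S0288.result hF m (by omega) a b hab] at h1
    have h3 : Even (q ^ m) := he.pow_of_ne_zero (by omega)
    have h4 : (q ^ m + 1) % 4 ≠ 0 ∧ (q ^ m + 1) % 4 ≠ 2 := by
      obtain ⟨k, hk⟩ := h3
      omega
    rw [if_neg h4.1, if_neg h4.2]
    linarith
  · have h2 : (2 : F) ≠ 0 := two_ne_zero_of_odd_card (by rw [hF]; exact hodd)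
    have h5 := Cfsg.Agent.S0791.result hF hodd m (by omega) a b hab
    have h3 : Odd (q ^ m) := hodd.pow
    by_cases h6 : q ^ m % 4 = 3
    · rw [index_Omega_odd h2 _ hQ (by omega),
        card_center_Omega_eq_two _ hQ (by omega) h2 (by rw [minusQF_coe]; exact h5.2 h6), minusQF_coe,
        Cfsg.Agent.S0288.result hF m (by omega) a b hab] at h1
      rw [if_pos (by omega)]
      linarith
    · rw [index_Omega_odd h2 _ hQ (by omega),
        card_center_Omega_eq_one _ hQ (by omega)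
          (Or.inr (by rw [minusQF_coe]; exact fun h => h6 (h5.1 h))), minusQF_coe,
        Cfsg.Agent.S0288.result hF m (by omega) a b hab] at h1
      have h7 : (q ^ m + 1) % 4 = 2 := by
        obtain ⟨k, hk⟩ := h3
        omega
      rw [if_neg (by omega), if_pos h7]
      linarith

end Cfsg.Agent.S0294
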