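import Cfsg.Statements.S0056
import Cfsg.Agent.S0055

set_option autoImplicit false
open Cfsg

namespace Cfsg.Agent.S0056

open Subgroup

theorem result {G : Type*} [Group G] [Finite G] (A V : Subgroup G) [IsMulCommutative V]
    (hAV : A ≤ Subgroup.normalizer (V : Set G)) (hcop : (Nat.card A).Coprime (Nat.card V))
    (hΩ : ∀ v ∈ V, (orderOf v).Prime → ∀ a ∈ A, a * v = v * a) : A ≤ Subgroup.centralizer (V : Set G) := by
  obtain ⟨h1, h2⟩ := Cfsg.Agent.S0055.result A V hAV hcop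
  have hVA : ⁅V, A⁆ ≤ V := le_sup_right.trans_eq h2
  rw [le_centralizer_iff, ← commutator_eq_bot_iff_le_centralizer]
  by_contra hne
  have hcard : Nat.card (⁅V, A⁆ : Subgroup G) ≠ 1 := fun h => hne (eq_bot_of_card_eq _ h)
  have hp : (Nat.card (⁅V, A⁆ : Subgroup G)).minFac.Prime := Nat.minFac_prime hcard
  have : Fact (Nat.card (⁅V, A⁆ : Subgroup G)).minFac.Prime := ⟨hp⟩
  obtain ⟨x, hx⟩ := exists_prime_orderOf_dvd_card' (G := (⁅V, A⁆ : Subgroup G)) _ (Nat.minFac_dvd _)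
  have hx' : (orderOf (x : G)).Prime := by rw [Subgroup.orderOf_coe, hx]; exact hp
  have hmem : (x : G) ∈ (V ⊓ Subgroup.centralizer (A : Set G)) ⊓ ⁅V, A⁆ := by
    refine mem_inf.2 ⟨mem_inf.2 ⟨hVA x.2, ?_⟩, x.2⟩
    rw [mem_centralizer_iff]
    intro a ha
    exact hΩ x (hVA x.2) hx' a ha
  rw [h1, mem_bot] at hmem
  rw [hmem, orderOf_one] at hx'
  exact Nat.not_prime_one hx'

end Cfsg.Agent.S0056
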