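import Mathlib
import Cfsg.Statements.S1593
import Cfsg.Agent.Lib.Helper56.TGCode

set_option autoImplicit false
open Cfsg

namespace Cfsg.Agent.S1593

open Cfsg.Agent.Lib.Helper56.TG

/-- the information positions. -/
def Ipt (j : ℕ) : ArrayPt := pt (([0, 1, 2, 3, 4, 6] : List ℕ).getD j 0)

theorem g_Ipt : ∀ j < 6, ∀ k < 6, g j (Ipt k) = if j = k then 1 else 0 := by decide +kernel

theorem eq_zero_of_Ipt {y : Wd} (hy : y ∈ ternaryGolayCode) (h : ∀ k < 6, y (Ipt k) = 0) :
    y = 0 := by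
  apply eq_zero_of_info hy
  have h0 : y (pt 0) = 0 := h 0 (by decide)
  have h1 : y (pt 1) = 0 := h 1 (by decide)
  have h2 : y (pt 2) = 0 := h 2 (by decide)
  have h3 : y (pt 3) = 0 := h 3 (by decide)
  have h4 : y (pt 4) = 0 := h 4 (by decide)
  have h5 : y (pt 6) = 0 := h 5 (by decide)
  simp [info, h0, h1, h2, h3, h4, h5]

theorem connected : ∀ p : ArrayPt, ∃ j, j < 6 ∧ ∃ p' : ArrayPt, g j p ≠ 0 ∧ g j p' ≠ 0 ∧ g 0 p' ≠ 0 := by
  decide +kernel

theorem units3 : ∀ u : (ZMod 3)ˣ, u = 1 ∨ u = -1 := by decide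

/-- The only sign changes preserving the length-12 ternary code are the identity and negation of all coordinates. -/
theorem result (c : Cfsg.ArrayPt → (ZMod 3)ˣ) (h : (∀ x ∈ Cfsg.ternaryGolayCode, Cfsg.monomialMap 1 c x ∈ Cfsg.ternaryGolayCode)) : (∀ p, c p = 1) ∨ (∀ p, c p = -1) := by
  have key : ∀ j < 6, ∀ p, g j p ≠ 0 → c p = c (Ipt j) := by
    intro j hj p hp
    have hz : Cfsg.monomialMap 1 c (g j) - (c (Ipt j) : ZMod 3) • g j = 0 := by
      apply eq_zero_of_Ipt
      · exact Submodule.sub_mem _ (h _ (g_mem j hj)) (Submodule.smul_mem _ _ (g_mem j hj))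
      · intro k hk
        simp only [Cfsg.monomialMap, Pi.sub_apply, Pi.smul_apply, smul_eq_mul, Equiv.Perm.one_symm,
          Equiv.Perm.coe_one, id_eq]
        rw [g_Ipt j hj k hk]
        split_ifs with e
        · subst e; simp
        · simp
    have hp' := congrFun hz p
    simp only [Cfsg.monomialMap, Pi.sub_apply, Pi.smul_apply, smul_eq_mul, Equiv.Perm.one_symm,
      Equiv.Perm.coe_one, id_eq, Pi.zero_apply] at hp'
    have : ((c p : ZMod 3) - c (Ipt j)) * g j p = 0 := by rw [sub_mul]; exact hp'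
    rcases mul_eq_zero.1 this with h1 | h1
    · exact Units.ext (sub_eq_zero.1 h1)
    · exact absurd h1 hp
  have all : ∀ p, c p = c (Ipt 0) := by
    intro p
    obtain ⟨j, hj, p', h1, h2, h3⟩ := connected p
    rw [key j hj p h1, ← key j hj p' h2, key 0 (by decide) p' h3]
  rcases units3 (c (Ipt 0)) with h0 | h0
  · left; intro p; rw [all p, h0]
  · right; intro p; rw [all p, h0]

end Cfsg.Agent.S1593
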