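import Mathlib
import Cfsg.Statements.S1594
import Cfsg.Agent.Lib.Helper56.TGAut
import Cfsg.Agent.S1593

set_option autoImplicit false
open Cfsg

namespace Cfsg.Agent.S1594

open Cfsg.Agent.Lib.Helper56 Cfsg.Agent.Lib.Helper56.TG
open Cfsg.Agent.Lib.Helper27 (pc)
open scoped Pointwise

/-! ### the five point stabiliser in the automorphism group of the hexad system is trivial -/

theorem six {s : Finset ArrayPt} (hs : s.card = 5) {z z' : ArrayPt} (hz : z ∉ s)
    (h : insert z s ∈ HexB) (h' : insert z' s ∈ HexB) : z = z' := by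
  obtain ⟨b, _, hb⟩ := steiner.2 s hs
  have e1 := hb _ ⟨h, Finset.subset_insert _ _⟩
  have e2 := hb _ ⟨h', Finset.subset_insert _ _⟩
  have : z ∈ insert z' s := by rw [e2, ← e1]; exact Finset.mem_insert_self _ _
  rcases Finset.mem_insert.1 this with h | h
  · exact h
  · exact absurd h hz

theorem smul_mem {σ : Equiv.Perm ArrayPt} (hσ : σ ∈ setSystemAut HexB) {h : Finset ArrayPt}
    (hh : h ∈ HexB) : σ • h ∈ HexB := by
  have e : σ • HexB = HexB := hσ
  rw [← e]
  exact Set.smul_mem_smul_set hh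

theorem smul_eq_of_fix {σ : Equiv.Perm ArrayPt} {s : Finset ArrayPt} (h : ∀ p ∈ s, σ p = p) :
    σ • s = s := by
  ext q
  rw [Finset.mem_smul_finset]
  constructor
  · rintro ⟨p, hp, rfl⟩
    rw [Equiv.Perm.smul_def, h p hp]; exact hp
  · intro hq
    exact ⟨q, hq, h q hq⟩

theorem fixnot {σ : Equiv.Perm ArrayPt} {s : Finset ArrayPt} (h : ∀ p ∈ s, σ p = p) {z : ArrayPt}
    (hz : z ∉ s) : σ z ∉ s := by
  intro hc
  have := h _ hc
  rw [σ.injective this] at hc
  exact hz hc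

/-- masks of the 4-subsets of the standard hexad. -/
def TL (k : ℕ) : ℕ := ([15, 23, 39, 27, 43, 51, 29, 45, 53, 57, 30, 46, 54, 58, 60] : List ℕ).getD k 0

/-- sixth point of the hexad through `TL k` and `x`. -/
def F (k : ℕ) (x : ArrayPt) : ArrayPt :=
  pt ((([[0, 0, 0, 0, 0, 0, 9, 11, 10, 6, 8, 7], [0, 0, 0, 0, 0, 0, 11, 10, 9, 8, 7, 6], [0, 0, 0, 0, 0, 0, 10, 9, 11, 7, 6, 8], [0, 0, 0, 0, 0, 0, 8, 9, 6, 7, 11, 10], [0, 0, 0, 0, 0, 0, 11, 8, 7, 10, 9, 6], [0, 0, 0, 0, 0, 0, 7, 6, 10, 11, 8, 9], [0, 0, 0, 0, 0, 0, 10, 8, 7, 11, 6, 9], [0, 0, 0, 0, 0, 0, 7, 6, 9, 8, 11, 10], [0, 0, 0, 0, 0, 0, 8, 11, 6, 10, 9, 7], [0, 0, 0, 0, 0, 0, 9, 10, 11, 6, 7, 8], [0, 0, 0, 0, 0, 0, 7, 6, 11, 10, 9, 8], [0, 0, 0, 0, 0, 0, 8, 10, 6, 11, 7, 9], [0, 0, 0, 0, 0, 0, 9, 8, 7, 6, 11, 10], [0, 0, 0, 0, 0, 0, 10, 11, 9, 8, 6, 7], [0, 0, 0, 0, 0, 0, 11, 9, 10, 7, 8, 6]] : List (List ℕ)).getD k []).getD (idx x) 0)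

theorem TL_sub : ∀ k < 15, TL k < 2 ^ 12 ∧ pc (TL k) = 4 ∧
    ∀ p : ArrayPt, (TL k).testBit (idx p) = true → idx p < 6 := by decide +kernel

theorem F_spec : ∀ k < 15, ∀ x : ArrayPt, 6 ≤ idx x →
    (2 ^ idx (F k x) ||| (2 ^ idx x ||| TL k)) ∈ hexL ∧ 6 ≤ idx (F k x) ∧ F k x ≠ x := by
  decide +kernel

theorem F_sep : ∀ x y : ArrayPt, 6 ≤ idx x → 6 ≤ idx y →
    (∀ k < 15, ∀ k' < 15, F k x = F k' x → F k y = F k' y) → x = y := by
  decide +kernel

theorem F_hex {k : ℕ} (hk : k < 15) {x : ArrayPt} (hx : 6 ≤ idx x) :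
    insert (F k x) (insert x (unmask (TL k))) ∈ HexB := by
  rw [mem_HexB_iff, mask_insert, mask_insert, mask_unmask (TL_sub k hk).1]
  exact (F_spec k hk x hx).1

theorem notMem_T {k : ℕ} (hk : k < 15) {x : ArrayPt} (hx : 6 ≤ idx x) : x ∉ unmask (TL k) := by
  intro h
  have := (TL_sub k hk).2.2 x ((mem_unmask _ _).1 h)
  omega

theorem hex63 : insert (pt 5) (unmask 31) ∈ HexB := by
  rw [mem_HexB_iff, mask_insert, mask_unmask (by norm_num)]
  decide +kernel

theorem mem31 : ∀ p : ArrayPt, p ∈ unmask 31 ↔ idx p < 5 := by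
  simp only [mem_unmask]
  decide +kernel

theorem eq_one_of_fix {σ : Equiv.Perm ArrayPt} (hσ : σ ∈ setSystemAut HexB)
    (hfix : ∀ k < 5, σ (pt k) = pt k) : σ = 1 := by
  have h31 : ∀ p ∈ unmask 31, σ p = p := by
    intro p hp
    have := hfix (idx p) ((mem31 p).1 hp)
    rwa [pt_idx] at this
  have h5 : σ (pt 5) = pt 5 := by
    have h5n : pt 5 ∉ unmask 31 := by rw [mem31]; decide
    have h1 := smul_mem hσ hex63
    rw [Finset.smul_finset_insert, smul_eq_of_fix h31] at h1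
    exact six (by rw [card_unmask (by norm_num)]; decide +kernel) (fixnot h31 h5n) h1 hex63
  have hH : ∀ p : ArrayPt, idx p < 6 → σ p = p := by
    intro p hp
    rcases Nat.lt_succ_iff_lt_or_eq.1 hp with h | h
    · exact h31 p ((mem31 p).2 h)
    · rw [← pt_idx p, h]; exact h5
  have hout : ∀ p : ArrayPt, 6 ≤ idx p → 6 ≤ idx (σ p) := by
    intro p hp
    by_contra hc
    have h1 := hH _ (not_le.1 hc)
    have h2 := σ.injective h1
    rw [h2] at hc
    exact hc hp
  have hT : ∀ k < 15, ∀ p ∈ unmask (TL k), σ p = p := by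
    intro k hk p hp
    exact hH p ((TL_sub k hk).2.2 p ((mem_unmask _ _).1 hp))
  have hF : ∀ k < 15, ∀ x : ArrayPt, 6 ≤ idx x → σ (F k x) = F k (σ x) := by
    intro k hk x hx
    have hy := hout x hx
    have h1 := smul_mem hσ (F_hex hk hx)
    rw [Finset.smul_finset_insert, Finset.smul_finset_insert, smul_eq_of_fix (hT k hk)] at h1
    have hcard : (insert (σ x) (unmask (TL k))).card = 5 := by
      rw [Finset.card_insert_of_notMem (notMem_T hk hy), card_unmask (TL_sub k hk).1,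
        (TL_sub k hk).2.1]
    refine six hcard ?_ h1 (F_hex hk hy)
    rw [Finset.mem_insert, not_or]
    refine ⟨?_, ?_⟩
    · intro h
      exact (F_spec k hk x hx).2.2 (σ.injective h)
    · exact fixnot (hT k hk) (notMem_T hk (F_spec k hk x hx).2.1)
  apply Equiv.ext
  intro p
  by_cases hp : idx p < 6
  · rw [hH p hp]; rfl
  · have hp' : 6 ≤ idx p := not_lt.1 hp
    have := F_sep p (σ p) hp' (hout p hp') (by
      intro k hk k' hk' h
      rw [← hF k hk p hp', ← hF k' hk' p hp', h])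
    rw [← this]; rfl

theorem card_aut_le : Nat.card (setSystemAut HexB) ≤ 95040 := by
  let y0 : Fin 5 ↪ ArrayPt := ⟨fun i => pt i.val, by decide⟩
  let φ : setSystemAut HexB → (Fin 5 ↪ ArrayPt) := fun σ => y0.trans σ.1.toEmbedding
  have hφ : Function.Injective φ := by
    intro σ τ h
    have h1 : ∀ k < 5, (τ.1⁻¹ * σ.1) (pt k) = pt k := by
      intro k hk
      have h2 : σ.1 (pt k) = τ.1 (pt k) := DFunLike.congr_fun h (⟨k, hk⟩ : Fin 5)
      rw [Equiv.Perm.mul_apply, h2]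
      exact τ.1.symm_apply_apply _
    have h3 := eq_one_of_fix ((setSystemAut HexB).mul_mem ((setSystemAut HexB).inv_mem τ.2) σ.2) h1
    exact Subtype.ext (inv_mul_eq_one.1 h3).symm
  have h := Nat.card_le_card_of_injective φ hφ
  have hc : Nat.card (Fin 5 ↪ ArrayPt) = 95040 := by
    rw [Nat.card_eq_fintype_card, Fintype.card_embedding_eq]
    simp [Nat.descFactorial, ZMod.card]
  rwa [hc] at h

/-! ### monomial automorphisms induce automorphisms of the hexad system -/

theorem support_monomialMap (σ : Equiv.Perm ArrayPt) (c : ArrayPt → (ZMod 3)ˣ) (x : Wd) :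
    ternarySupport (monomialMap σ c x) = σ • ternarySupport x := by
  ext i
  rw [Finset.mem_smul_finset]
  simp only [ternarySupport, monomialMap, Finset.mem_filter, Finset.mem_univ, true_and, ne_eq,
    mul_eq_zero, Units.ne_zero, false_or]
  constructor
  · intro h
    exact ⟨σ.symm i, h, by simp⟩
  · rintro ⟨p, hp, rfl⟩
    simpa using hp

theorem mem_aut_of_isMon {σ : Equiv.Perm ArrayPt} (hσ : IsMon σ) : σ ∈ setSystemAut HexB := by
  obtain ⟨c, hc⟩ := hσ
  show σ • HexB = HexB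
  have hsub : σ • HexB ⊆ HexB := by
    rintro _ ⟨h, ⟨x, hx, rfl, hcard⟩, rfl⟩
    refine ⟨monomialMap σ c x, hc x hx, support_monomialMap σ c x, ?_⟩
    show (σ • ternarySupport x).card = 6
    rw [Finset.card_smul_finset]; exact hcard
  have hfin : HexB.Finite := Set.toFinite _
  apply Set.eq_of_subset_of_ncard_le hsub _ hfin
  rw [← Set.image_smul, Set.ncard_image_of_injective _ (MulAction.injective σ)]

theorem aut_eq : genSub gen 7 = setSystemAut HexB := by
  apply Subgroup.eq_of_le_of_card_ge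
  · intro σ hσ
    exact mem_aut_of_isMon (isMon_of_mem hσ)
  · rw [card7]; exact card_aut_le

theorem card_aut : Nat.card (setSystemAut HexB) = 95040 := by
  rw [← aut_eq, card7]

theorem isMon_iff (σ : Equiv.Perm ArrayPt) : IsMon σ ↔ σ ∈ setSystemAut HexB :=
  ⟨fun h => mem_aut_of_isMon h, fun h => isMon_of_mem (by rw [aut_eq]; exact h)⟩

/-! ### the sign vectors over a given permutation -/

theorem monomialMap_injective (σ : Equiv.Perm ArrayPt) (c : ArrayPt → (ZMod 3)ˣ) :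
    Function.Injective (monomialMap σ c : Wd → Wd) := by
  intro x y h
  funext p
  have := congrFun h (σ p)
  simpa [monomialMap] using this

theorem signs_unique {σ : Equiv.Perm ArrayPt} {c c' : ArrayPt → (ZMod 3)ˣ}
    (h : ∀ x ∈ ternaryGolayCode, monomialMap σ c x ∈ ternaryGolayCode)
    (h' : ∀ x ∈ ternaryGolayCode, monomialMap σ c' x ∈ ternaryGolayCode) :
    (∀ p, c' p = c p) ∨ (∀ p, c' p = - c p) := by
  let f : ternaryGolayCode → ternaryGolayCode := fun x => ⟨monomialMap σ c x.1, h x.1 x.2⟩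
  have hf : Function.Injective f := by
    intro x y hxy
    exact Subtype.ext (monomialMap_injective σ c (congrArg Subtype.val hxy))
  have hs : Function.Surjective f := Finite.surjective_of_injective hf
  have key : ∀ y ∈ ternaryGolayCode,
      monomialMap 1 (fun p => c' p * (c p)⁻¹) y ∈ ternaryGolayCode := by
    intro y hy
    obtain ⟨x, hx⟩ := hs ⟨y, hy⟩
    have hx' : monomialMap σ c x.1 = y := congrArg Subtype.val hx
    have e : monomialMap 1 (fun p => c' p * (c p)⁻¹) y = monomialMap σ c' x.1 := by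
      rw [← hx', monomialMap_mul]
      congr 1
      · funext p
        show c' p * (c p)⁻¹ * c p = c' p
        rw [inv_mul_cancel_right]
    rw [e]
    exact h' x.1 x.2
  rcases Cfsg.Agent.S1593.result _ key with h1 | h1
  · left
    intro p
    have := h1 p
    exact mul_inv_eq_one.1 this
  · right
    intro p
    have := h1 p
    rw [mul_inv_eq_iff_eq_mul] at this
    rw [this, neg_one_mul]

theorem neg_mem {σ : Equiv.Perm ArrayPt} {c : ArrayPt → (ZMod 3)ˣ}
    (h : ∀ x ∈ ternaryGolayCode, monomialMap σ c x ∈ ternaryGolayCode) :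
    ∀ x ∈ ternaryGolayCode, monomialMap σ (fun p => - c p) x ∈ ternaryGolayCode := by
  intro x hx
  have e : monomialMap σ (fun p => - c p) x = - monomialMap σ c x := by
    funext i
    simp [monomialMap]
  rw [e]
  exact Submodule.neg_mem _ (h x hx)

theorem units_ne : ∀ u v : (ZMod 3)ˣ, v ≠ u → -v = u := by decide

theorem units_neg_ne : ∀ v : (ZMod 3)ˣ, -v ≠ v := by decide

theorem card_units : Nat.card (ZMod 3)ˣ = 2 := by
  rw [Nat.card_eq_fintype_card]; decide

theorem card_mon : Nat.card {f : Equiv.Perm Cfsg.ArrayPt × (Cfsg.ArrayPt → (ZMod 3)ˣ) //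
    (∀ x ∈ Cfsg.ternaryGolayCode, Cfsg.monomialMap f.1 f.2 x ∈ Cfsg.ternaryGolayCode)} = 190080 := by
  let φ : {f : Equiv.Perm Cfsg.ArrayPt × (Cfsg.ArrayPt → (ZMod 3)ˣ) //
      (∀ x ∈ Cfsg.ternaryGolayCode, Cfsg.monomialMap f.1 f.2 x ∈ Cfsg.ternaryGolayCode)} →
      setSystemAut HexB × (ZMod 3)ˣ :=
    fun f => (⟨f.1.1, mem_aut_of_isMon ⟨f.1.2, f.2⟩⟩, f.1.2 (pt 0))
  have hφ : Function.Bijective φ := by
    constructor
    · rintro ⟨⟨σ, c⟩, hc⟩ ⟨⟨σ', c'⟩, hc'⟩ h
      have h1 : σ = σ' := congrArg (fun z => z.1.1) h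
      have h2 : c (pt 0) = c' (pt 0) := congrArg (fun z => z.2) h
      subst h1
      have h3 : c' = c := by
        rcases signs_unique hc hc' with h4 | h4
        · exact funext h4
        · exfalso
          have : c' (pt 0) = - c (pt 0) := h4 (pt 0)
          rw [← h2] at this
          exact units_neg_ne _ this.symm
      subst h3
      rfl
    · rintro ⟨⟨σ, hσ⟩, u⟩
      obtain ⟨c, hc⟩ := (isMon_iff σ).2 hσ
      by_cases hu : c (pt 0) = u
      · exact ⟨⟨(σ, c), hc⟩, by simp only [φ, hu]⟩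
      · exact ⟨⟨(σ, fun p => - c p), neg_mem hc⟩, by simp only [φ, units_ne u _ hu]⟩
  rw [Nat.card_congr (Equiv.ofBijective φ hφ), Nat.card_prod, card_aut, card_units]

/-- The monomial automorphism group of the length-12 ternary code has order 190080 and its permutation parts are exactly the automorphisms of its hexad system. -/
theorem result : Nat.card {f : Equiv.Perm Cfsg.ArrayPt × (Cfsg.ArrayPt → (ZMod 3)ˣ) // (∀ x ∈ Cfsg.ternaryGolayCode, Cfsg.monomialMap f.1 f.2 x ∈ Cfsg.ternaryGolayCode)} = 190080 ∧ {σ : Equiv.Perm Cfsg.ArrayPt | ∃ c : Cfsg.ArrayPt → (ZMod 3)ˣ, (∀ x ∈ Cfsg.ternaryGolayCode, Cfsg.monomialMap σ c x ∈ Cfsg.ternaryGolayCode)} = (Cfsg.setSystemAut {h : Finset Cfsg.ArrayPt | ∃ x ∈ Cfsg.ternaryGolayCode, Cfsg.ternarySupport x = h ∧ h.card = 6} : Set (Equiv.Perm Cfsg.ArrayPt)) := by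
  refine ⟨card_mon, ?_⟩
  ext σ
  exact isMon_iff σ

end Cfsg.Agent.S1594
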