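import Cfsg.Statements.S0358
import Cfsg.Agent.Lib.Helper92.GolayCount

set_option autoImplicit false
open Cfsg

namespace Cfsg.Agent.S0358

/-- The length-24 code built from the squares modulo 23 has dimension 12 over the field with two elements. -/
theorem result : Module.finrank (ZMod 2) Cfsg.golayCode = 12 := by
  have h1 := Module.natCard_eq_pow_finrank (K := ZMod 2) (V := ↥Cfsg.golayCode)
  rw [Cfsg.Agent.Lib.Helper92.natCard_golayCode, Nat.card_zmod] at h1
  have h2 : (2 : ℕ) ^ 12 = 2 ^ Module.finrank (ZMod 2) ↥Cfsg.golayCode := by rw [← h1]; norm_num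
  exact (Nat.pow_right_injective (le_refl 2) h2).symm

end Cfsg.Agent.S0358
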