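import Cfsg.Statements.S0717
import Cfsg.Agent.Lib.Helper58.Orbital

set_option autoImplicit false
open Cfsg

namespace Cfsg.Agent.S0717

open Cfsg.Agent.Lib.Helper3 Cfsg.Agent.Lib.Helper58 in
theorem isIrr_inv {G : Type*} [Group G] [Fintype G] {χ : G → ℂ} (hχ : Cfsg.IsIrrCharacter G χ) :
    Cfsg.IsIrrCharacter G (fun g => χ g⁻¹) := by
  have := Fintype.ofFinite (IrrCharacter G)
  have h1 : (fun g => χ g⁻¹) = fun g => (starRingEnd ℂ) (χ g) := by
    ext g
    exact IsCharacter.apply_inv (IsIrrCharacter.isCharacter hχ) g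
  rw [h1, isIrrCharacter_iff]
  refine ⟨IsCharacter.conj (IsIrrCharacter.isCharacter hχ), ?_⟩
  rw [← classInner_irr_self hχ, classInner, classInner]
  congr 1
  refine Finset.sum_congr rfl fun g _ => ?_
  rw [Complex.conj_conj, mul_comm]

/-- All suborbits of a transitive group are self-paired (every pair of points is interchanged by some group element) if and only if the permutation character is multiplicity-free and each of its irreducible constituents is real-valued. -/
theorem result {G : Type*} [Group G] [Fintype G] {Ω : Type*} [Fintype Ω] [MulAction G Ω] [MulAction.IsPretransitive G Ω] : (∀ a b : Ω, ∃ g : G, g • a = b ∧ g • b = a) ↔ ∀ χ : G → ℂ, Cfsg.IsIrrCharacter G χ → Cfsg.classInner (fun g : G => (Nat.card (MulAction.fixedBy Ω g) : ℂ)) χ ≠ 0 → Cfsg.classInner (fun g : G => (Nat.card (MulAction.fixedBy Ω g) : ℂ)) χ = 1 ∧ ∀ g : G, (starRingEnd ℂ) (χ g) = χ g := by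
  classical
  open Cfsg.Agent.Lib.Helper3 Cfsg.Agent.Lib.Helper58 in
  rw [← char_permRep]
  set ρ := permRep ℂ G Ω with hρ
  constructor
  · intro hgen
    have hsym : ∀ T : (Ω → ℂ) →ₗ[ℂ] (Ω → ℂ), (∀ g, T ∘ₗ ρ g = ρ g ∘ₗ T) → tr T = T := by
      intro T hT
      rw [tr_eq_self_iff]
      intro x y
      obtain ⟨g, h1, h2⟩ := hgen x y
      have := toMatrix'_smul_smul T hT g x y
      rw [h1, h2] at this
      exact this.symm
    have hcomm : ∀ S T : (Ω → ℂ) →ₗ[ℂ] (Ω → ℂ), (∀ g, S ∘ₗ ρ g = ρ g ∘ₗ S) →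
        (∀ g, T ∘ₗ ρ g = ρ g ∘ₗ T) → S ∘ₗ T = T ∘ₗ S := by
      intro S T hS hT
      have hST : ∀ g, (S ∘ₗ T) ∘ₗ ρ g = ρ g ∘ₗ (S ∘ₗ T) := by
        intro g
        rw [LinearMap.comp_assoc, hT g, ← LinearMap.comp_assoc, hS g, LinearMap.comp_assoc]
      rw [← hsym _ hST, tr_comp, hsym S hS, hsym T hT]
    intro χ hχ hne
    refine ⟨(multFree_of_comm _ hcomm hχ).resolve_left hne, ?_⟩
    obtain ⟨p, hp, hirr, hc⟩ := exists_irr_sub ρ hχ hne
    have hE := hsym (isoProj χ ρ) (isoProj_comm (IsIrrCharacter.isClassFunction hχ) ρ)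
    rw [tr_isoProj] at hE
    have hχ' := isIrr_inv hχ
    have heq : (fun g => χ g⁻¹) = χ := by
      by_contra hne'
      have hp0 := ((subrep_isIrreducible_iff ρ p hp).mp hirr).1
      apply hp0
      rw [eq_bot_iff]
      intro v hv
      have h1 := isoProj_apply_ne hχ' ρ p hp hirr (by rw [hc]; exact Ne.symm hne') hv
      rw [hE, isoProj_apply_eq hχ ρ p hp hirr hc hv] at h1
      rw [h1]
      exact Submodule.zero_mem _
    intro g
    rw [← IsCharacter.apply_inv (IsIrrCharacter.isCharacter hχ)]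
    exact congrFun heq g
  · intro h a b
    set M : Matrix Ω Ω ℂ := fun x y => if ∃ g : G, g • a = x ∧ g • b = y then 1 else 0 with hM
    have hMinv : ∀ (g : G) x y, M (g • x) (g • y) = M x y := by
      intro g x y
      simp only [hM]
      congr 1
      apply propext
      constructor
      · rintro ⟨k, h1, h2⟩
        exact ⟨g⁻¹ * k, by rw [mul_smul, h1, inv_smul_smul], by rw [mul_smul, h2, inv_smul_smul]⟩
      · rintro ⟨k, h1, h2⟩
        exact ⟨g * k, by rw [mul_smul, h1], by rw [mul_smul, h2]⟩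
    have h1 := tr_eq_self_of_multFree_real h (Matrix.toLin' M) (toLin'_comm M hMinv)
    rw [tr_toLin'] at h1
    have h2 : M.transpose = M := Matrix.toLin'.injective h1
    have h3 : M b a = M a b := congrFun (congrFun h2 a) b
    have h4 : M a b = 1 := by
      simp only [hM]
      rw [if_pos ⟨1, one_smul _ _, one_smul _ _⟩]
    rw [h4] at h3
    simp only [hM] at h3
    by_contra hcon
    rw [if_neg hcon] at h3
    exact zero_ne_one h3

end Cfsg.Agent.S0717
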