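import Cfsg.Statements.S0719
import Cfsg.Agent.Lib.Helper58.Spectral
import Cfsg.Agent.Lib.Helper58.PermRank
import Cfsg.Agent.S0717

set_option autoImplicit false
open Cfsg

namespace Cfsg.Agent.S0719

open Cfsg.Agent.Lib.Helper3 Cfsg.Agent.Lib.Helper58


theorem nt (m k : ℕ) (t : ℤ) (hk : 2 ≤ k) (hk2 : k + 3 ≤ 2 * m)
    (h : ((m:ℤ) - 1) * (2 * m - 1) * t ^ 2 + 4 * k * ((m:ℤ) - 1) * t + 2 * k * ((k:ℤ) - 1) = 0) :
    ∃ a : ℕ, 0 < a ∧ m = 2 * a ^ 2 + 2 * a + 1 ∧
      (k = a * (2 * a + 1) ∨ k = (a + 1) * (2 * a + 1)) := by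
  have hid : (2 * (k:ℤ) + 2 * (m - 1) * t - 1) ^ 2 + 2 * (m - 1) * (t * (t + 2)) = 1 := by
    linear_combination 2 * h
  have hm3 : (3:ℤ) ≤ m := by omega
  have hk' : (2:ℤ) ≤ k := by exact_mod_cast hk
  have hk2' : (k:ℤ) + 3 ≤ 2 * m := by exact_mod_cast hk2
  have ht1 : t * (t + 2) ≤ 0 := by
    by_contra hcon
    push Not at hcon
    have h1 : 1 ≤ t * (t + 2) := hcon
    nlinarith [sq_nonneg (2 * (k:ℤ) + 2 * (m - 1) * t - 1)]
  have ht2 : -2 ≤ t := by
    by_contra hcon
    push Not at hcon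
    nlinarith
  have ht3 : t ≤ 0 := by
    by_contra hcon
    push Not at hcon
    nlinarith
  interval_cases t
  · -- t = -2
    exfalso
    have h1 : (2 * (k:ℤ) - 4 * m + 3) ^ 2 = 1 := by linear_combination hid
    have h2 : 2 * (k:ℤ) - 4 * m + 3 ≤ -3 := by linarith
    nlinarith
  · -- t = -1
    have h1 : (2 * (k:ℤ) - 2 * m + 1) ^ 2 = 2 * m - 1 := by linear_combination hid
    rcases Nat.lt_or_ge k m with hkm | hkm
    · obtain ⟨a, ha⟩ := Nat.exists_eq_add_of_lt hkm
      have ha' : (m:ℤ) = k + a + 1 := by exact_mod_cast ha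
      have h2 : (m:ℤ) = 2 * a ^ 2 + 2 * a + 1 := by
        rw [ha'] at h1 ⊢
        linarith [h1]
      have h3 : m = 2 * a ^ 2 + 2 * a + 1 := by exact_mod_cast h2
      refine ⟨a, ?_, h3, Or.inl ?_⟩
      · rcases Nat.eq_zero_or_pos a with h0 | h0
        · rw [h0] at h3
          omega
        · exact h0
      · have : (k:ℤ) = a * (2 * a + 1) := by linarith
        exact_mod_cast this
    · obtain ⟨a, ha⟩ := Nat.exists_eq_add_of_le hkm
      have ha' : (k:ℤ) = m + a := by exact_mod_cast ha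
      have h2 : (m:ℤ) = 2 * a ^ 2 + 2 * a + 1 := by
        rw [ha'] at h1
        linarith [h1]
      have h3 : m = 2 * a ^ 2 + 2 * a + 1 := by exact_mod_cast h2
      refine ⟨a, ?_, h3, Or.inr ?_⟩
      · rcases Nat.eq_zero_or_pos a with h0 | h0
        · rw [h0] at h3
          omega
        · exact h0
      · have : (k:ℤ) = (a + 1) * (2 * a + 1) := by linarith
        exact_mod_cast this
  · -- t = 0
    exfalso
    have h1 : (2 * (k:ℤ) - 1) ^ 2 = 1 := by linear_combination hid
    nlinarith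



theorem classInner_perm_inv {G : Type*} [Group G] [Fintype G] {Ω : Type*} [Fintype Ω]
    [MulAction G Ω] (χ : G → ℂ) :
    classInner (fun g : G => (Nat.card (MulAction.fixedBy Ω g) : ℂ)) (fun g => χ g⁻¹) =
      classInner (fun g : G => (Nat.card (MulAction.fixedBy Ω g) : ℂ)) χ := by
  rw [classInner, classInner]
  congr 1
  refine Fintype.sum_equiv (Equiv.inv G) _ _ fun g => ?_
  simp only [Equiv.inv_apply, MulAction.fixedBy_inv]

theorem spectral {G : Type*} [Group G] [Fintype G] {Ω : Type*} [Fintype Ω] [MulAction G Ω]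
    [MulAction.IsPretransitive G Ω] {m : ℕ} (hm : Fintype.card Ω = 2 * m) (a₀ : Ω)
    (χ₁ χ₂ : G → ℂ) (h₁ : Cfsg.IsIrrCharacter G χ₁) (h₂ : Cfsg.IsIrrCharacter G χ₂)
    (hπ : (fun g : G => (Nat.card (MulAction.fixedBy Ω g) : ℂ)) = fun g => 1 + χ₁ g + χ₂ g)
    (hd₁ : χ₁ 1 = (m : ℂ) - 1) (hd₂ : χ₂ 1 = m) (b c : Ω) (hb : b ≠ a₀) (hc : c ≠ a₀)
    (hcb : c ∉ MulAction.orbit (MulAction.stabilizer G a₀) b) :
    ∃ (r s : ℂ) (t : ℤ), r + s = t ∧
      (Nat.card (MulAction.orbit (MulAction.stabilizer G a₀) b) : ℂ) + (m - 1) * r + m * s = 0 ∧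
      (Nat.card (MulAction.orbit (MulAction.stabilizer G a₀) b) : ℂ) ^ 2 + (m - 1) * r ^ 2
        + m * s ^ 2 = 2 * m * (Nat.card (MulAction.orbit (MulAction.stabilizer G a₀) b) : ℂ) := by
  classical
  set k := Nat.card (MulAction.orbit (MulAction.stabilizer G a₀) b) with hk
  set ρ := permRep ℂ G Ω with hρ
  set one : G → ℂ := fun _ => 1 with hone
  have h0 : IsIrrCharacter G one := isIrrCharacter_one
  have hchar : ρ.character = one + χ₁ + χ₂ := char_permRep.trans hπ
  have hinner : ∀ ψ, IsIrrCharacter G ψ → classInner ρ.character ψ =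
      (if one = ψ then 1 else 0) + (if χ₁ = ψ then 1 else 0) + (if χ₂ = ψ then 1 else 0) := by
    intro ψ hψ
    rw [hchar, classInner_add_left, classInner_add_left, classInner_irr h0 hψ,
      classInner_irr h₁ hψ, classInner_irr h₂ hψ]
  have hπ1 : classInner ρ.character one = 1 := by
    rw [hρ, char_permRep, classInner_card_fixedBy_one]
    have : Nonempty Ω := ⟨a₀⟩
    rw [(card_orbitRel_quotient_eq_one_iff Ω).mpr inferInstance]
    simp
  have hne1 : χ₁ ≠ one := by
    intro h
    have := hinner one h0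
    rw [hπ1, if_pos rfl, if_pos h] at this
    split_ifs at this <;> norm_num at this
  have hne2 : χ₂ ≠ one := by
    intro h
    have := hinner one h0
    rw [hπ1, if_pos rfl, if_pos h] at this
    split_ifs at this <;> norm_num at this
  have hne12 : χ₁ ≠ χ₂ := by
    intro h
    rw [h, hd₂] at hd₁
    have : (0:ℂ) = -1 := by linear_combination hd₁
    norm_num at this
  have hm1 : classInner ρ.character χ₁ = 1 := by
    rw [hinner χ₁ h₁, if_neg (Ne.symm hne1), if_pos rfl, if_neg (Ne.symm hne12)]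
    norm_num
  have hm2 : classInner ρ.character χ₂ = 1 := by
    rw [hinner χ₂ h₂, if_neg (Ne.symm hne2), if_neg hne12, if_pos rfl]
    norm_num
  have hmem : ∀ ψ, IsIrrCharacter G ψ → classInner ρ.character ψ ≠ 0 →
      ψ = one ∨ ψ = χ₁ ∨ ψ = χ₂ := by
    intro ψ hψ hne
    rw [hinner ψ hψ] at hne
    by_contra hcon
    push Not at hcon
    rw [if_neg (Ne.symm hcon.1), if_neg (Ne.symm hcon.2.1), if_neg (Ne.symm hcon.2.2)] at hne
    norm_num at hne
  -- reality
  have hinv : ∀ ψ, classInner ρ.character (fun g => ψ g⁻¹) = classInner ρ.character ψ := by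
    intro ψ
    rw [hρ, char_permRep]
    exact classInner_perm_inv ψ
  have hr1 : (fun g => χ₁ g⁻¹) = χ₁ := by
    rcases hmem _ (Cfsg.Agent.S0717.isIrr_inv h₁) (by rw [hinv, hm1]; exact one_ne_zero)
      with h | h | h
    · exfalso
      apply hne1
      ext g
      have := congrFun h g⁻¹
      simpa using this
    · exact h
    · exfalso
      have := congrFun h 1
      simp only [inv_one] at this
      rw [hd₁, hd₂] at this
      have : (0:ℂ) = 1 := by linear_combination this
      norm_num at this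
  have hr2 : (fun g => χ₂ g⁻¹) = χ₂ := by
    rcases hmem _ (Cfsg.Agent.S0717.isIrr_inv h₂) (by rw [hinv, hm2]; exact one_ne_zero)
      with h | h | h
    · exfalso
      apply hne2
      ext g
      have := congrFun h g⁻¹
      simpa using this
    · exfalso
      have := congrFun h 1
      simp only [inv_one] at this
      rw [hd₁, hd₂] at this
      have : (0:ℂ) = 1 := by linear_combination -this
      norm_num at this
    · exact h
  have hreal : ∀ χ : G → ℂ, IsIrrCharacter G χ → classInner ρ.character χ ≠ 0 →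
      classInner ρ.character χ = 1 ∧ ∀ g : G, (starRingEnd ℂ) (χ g) = χ g := by
    intro χ hχ hne
    rcases hmem χ hχ hne with h | h | h
    · subst h
      exact ⟨hπ1, fun g => by simp [hone]⟩
    · subst h
      refine ⟨hm1, fun g => ?_⟩
      rw [← IsCharacter.apply_inv (IsIrrCharacter.isCharacter h₁)]
      exact congrFun hr1 g
    · subst h
      refine ⟨hm2, fun g => ?_⟩
      rw [← IsCharacter.apply_inv (IsIrrCharacter.isCharacter h₂)]
      exact congrFun hr2 g
  -- the orbital operator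
  set M := orbMat G ℂ a₀ b with hM
  set A := Matrix.toLin' M with hA
  have hAc : ∀ g, A ∘ₗ ρ g = ρ g ∘ₗ A := toLin'_comm _ (orbMat_smul_smul G ℂ a₀ b)
  have hsym : M.transpose = M := by
    have h1 := tr_eq_self_of_multFree_real hreal A hAc
    rw [hA, tr_toLin'] at h1
    exact Matrix.toLin'.injective h1
  set E₀ := isoProj one ρ with hE₀
  set E₁ := isoProj χ₁ ρ with hE₁
  set E₂ := isoProj χ₂ ρ with hE₂
  obtain ⟨c₀, hc₀⟩ := comp_isoProj_of_mult_one ρ h0 hπ1 A hAc
  obtain ⟨r, hr⟩ := comp_isoProj_of_mult_one ρ h₁ hm1 A hAc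
  obtain ⟨s, hs⟩ := comp_isoProj_of_mult_one ρ h₂ hm2 A hAc
  have hid : E₀ + E₁ + E₂ = LinearMap.id := by
    have h1 := sum_isoProj_eq_id ρ {one, χ₁, χ₂} (by
      intro χ hχ
      simp only [Finset.mem_insert, Finset.mem_singleton] at hχ
      rcases hχ with rfl | rfl | rfl
      · exact h0
      · exact h₁
      · exact h₂) (by
      intro χ hχ hne
      simp only [Finset.mem_insert, Finset.mem_singleton]
      exact hmem χ hχ hne)
    rw [Finset.sum_insert (by simp [Ne.symm hne1, Ne.symm hne2]), Finset.sum_pair hne12] at h1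
    rw [add_assoc]
    exact h1
  have hAdec : A = c₀ • E₀ + r • E₁ + s • E₂ := by
    calc A = A ∘ₗ LinearMap.id := (LinearMap.comp_id A).symm
      _ = c₀ • E₀ + r • E₁ + s • E₂ := by
        rw [← hid, LinearMap.comp_add, LinearMap.comp_add, hc₀, hr, hs]
  have hAAdec : A ∘ₗ A = (c₀ ^ 2) • E₀ + (r ^ 2) • E₁ + (s ^ 2) • E₂ := by
    nth_rw 2 [hAdec]
    rw [LinearMap.comp_add, LinearMap.comp_add, LinearMap.comp_smul, LinearMap.comp_smul,
      LinearMap.comp_smul, hc₀, hr, hs, smul_smul, smul_smul, smul_smul, sq, sq, sq]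
  have hc₀k : c₀ = k := by
    have h1 := congrFun (LinearMap.congr_fun hc₀ (fun _ => 1)) a₀
    have h5 : isoProj one ρ (fun _ => 1) = fun _ => 1 := isoProj_one_apply_one
    have h6 : A (fun _ => 1) = (k : ℂ) • (fun _ => (1 : ℂ)) := toLin'_orbMat_one G a₀ b
    rw [LinearMap.comp_apply, LinearMap.smul_apply, h5, h6] at h1
    simpa using h1.symm
  have htrE₀ : LinearMap.trace ℂ _ E₀ = 1 := by
    rw [hE₀, trace_isoProj, classInner_char_irr_comm ρ h0, hπ1]
    simp [hone]
  have htrE₁ : LinearMap.trace ℂ _ E₁ = (m : ℂ) - 1 := by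
    rw [hE₁, trace_isoProj, classInner_char_irr_comm ρ h₁, hm1, hd₁, mul_one]
  have htrE₂ : LinearMap.trace ℂ _ E₂ = (m : ℂ) := by
    rw [hE₂, trace_isoProj, classInner_char_irr_comm ρ h₂, hm2, hd₂, mul_one]
  have hEq1 : (k : ℂ) + (m - 1) * r + m * s = 0 := by
    have h1 : LinearMap.trace ℂ _ A = 0 := trace_toLin'_orbMat G hb
    rw [hAdec, map_add, map_add, map_smul, map_smul, map_smul, htrE₀, htrE₁, htrE₂, hc₀k] at h1
    simp only [smul_eq_mul] at h1
    linear_combination h1
  have hM01 : ∀ x y, M x y * M x y = M x y := by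
    intro x y
    simp only [hM, orbMat]
    split_ifs <;> simp
  have hEq2 : (k : ℂ) ^ 2 + (m - 1) * r ^ 2 + m * s ^ 2 = 2 * m * (k : ℂ) := by
    have h1 : LinearMap.trace ℂ _ (A ∘ₗ A) = 2 * m * (k : ℂ) := by
      rw [hA, ← Matrix.toLin'_mul, Matrix.trace_toLin'_eq, Matrix.trace]
      simp only [Matrix.diag_apply, Matrix.mul_apply]
      have h2 : ∀ x y, M x y * M y x = M x y := by
        intro x y
        have : M y x = M x y := congrFun (congrFun hsym x) y
        rw [this, hM01]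
      have h4 : ∀ x, ∑ y, M x y * M y x = (k : ℂ) := by
        intro x
        simp only [h2]
        exact orbMat_row_sum G a₀ b x
      simp only [h4, Finset.sum_const, Finset.card_univ, hm]
      simp
    rw [hAAdec, map_add, map_add, map_smul, map_smul, map_smul, htrE₀, htrE₁, htrE₂, hc₀k] at h1
    simp only [smul_eq_mul] at h1
    linear_combination h1
  -- integrality of r + s
  have hZ : A ∘ₗ A - (r + s) • A + (r * s) • LinearMap.id = ((c₀ - r) * (c₀ - s)) • E₀ := by
    rw [hAAdec, ← hid]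
    nth_rw 1 [hAdec]
    module
  have hZm := congrArg LinearMap.toMatrix' hZ
  rw [map_add, map_sub, map_smul, map_smul, map_smul, LinearMap.toMatrix'_comp,
    LinearMap.toMatrix'_id, hA, LinearMap.toMatrix'_toLin'] at hZm
  have hb1 := congrFun (congrFun hZm a₀) b
  have hc1 := congrFun (congrFun hZm a₀) c
  simp only [Matrix.add_apply, Matrix.sub_apply, Matrix.smul_apply, smul_eq_mul] at hb1 hc1
  rw [Matrix.one_apply_ne (Ne.symm hb)] at hb1
  rw [Matrix.one_apply_ne (Ne.symm hc)] at hc1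
  have hMb : M a₀ b = 1 := orbMat_self G ℂ a₀ b
  have hMc : M a₀ c = 0 := by
    simp only [hM, orbMat]
    rw [if_neg]
    rintro ⟨g, h1, h2⟩
    exact hcb ⟨⟨g, h1⟩, h2⟩
  rw [hMb] at hb1
  rw [hMc] at hc1
  rw [hE₀, hρ, toMatrix'_isoProj_one_const a₀ b a₀ c] at hb1
  have hMM : M * M = (orbMat G ℤ a₀ b * orbMat G ℤ a₀ b).map (Int.castRingHom ℂ) := by
    rw [Matrix.map_mul, ← orbMat_map]
  refine ⟨r, s, (orbMat G ℤ a₀ b * orbMat G ℤ a₀ b) a₀ b - (orbMat G ℤ a₀ b * orbMat G ℤ a₀ b) a₀ c,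
    ?_, hEq1, hEq2⟩
  have h3 : ∀ x y, (M * M) x y = (((orbMat G ℤ a₀ b * orbMat G ℤ a₀ b) x y : ℤ) : ℂ) := by
    intro x y
    rw [hMM]
    rfl
  rw [h3] at hb1 hc1
  push_cast
  linear_combination hc1 - hb1



theorem suborbit_ne_one {G : Type*} [Group G] {Ω : Type*} [Fintype Ω] [MulAction G Ω]
    (hprim : MulAction.IsPreprimitive G Ω) {m : ℕ} (hm : Fintype.card Ω = 2 * m) (a₀ : Ω)
    (hrank : Nat.card (MulAction.orbitRel.Quotient (MulAction.stabilizer G a₀) Ω) = 3)
    (b : Ω) (hb : b ≠ a₀) : Nat.card (MulAction.orbit (MulAction.stabilizer G a₀) b) ≠ 1 := by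
  classical
  intro h1
  have : Nontrivial Ω := ⟨b, a₀, hb⟩
  have := Fintype.ofFinite (MulAction.orbitRel.Quotient (MulAction.stabilizer G a₀) Ω)
  set H := MulAction.stabilizer G a₀ with hH
  have hco : IsCoatom H := MulAction.IsPreprimitive.isCoatom_stabilizer_of_isPreprimitive G a₀
  have hcob : IsCoatom (MulAction.stabilizer G b) :=
    MulAction.IsPreprimitive.isCoatom_stabilizer_of_isPreprimitive G b
  have hle : H ≤ MulAction.stabilizer G b := by
    intro h hh
    rw [Nat.card_eq_one_iff_unique] at h1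
    obtain ⟨hsub, _⟩ := h1
    have := hsub.elim ⟨(⟨h, hh⟩ : H) • b, MulAction.mem_orbit _ _⟩ ⟨b, MulAction.mem_orbit_self b⟩
    exact congrArg Subtype.val this
  have heq : MulAction.stabilizer G b = H := (hco.le_iff.mp hle).resolve_left hcob.1
  obtain ⟨g, hg⟩ := MulAction.exists_smul_eq G a₀ b
  have hgN : g ∈ Subgroup.normalizer (H : Set G) := by
    rw [Subgroup.mem_normalizer_iff]
    intro x
    nth_rw 2 [← heq]
    rw [hH, MulAction.mem_stabilizer_iff, MulAction.mem_stabilizer_iff, ← hg, mul_smul, mul_smul,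
      inv_smul_smul, smul_left_cancel_iff]
  have hgH : g ∉ H := by
    intro h
    rw [hH, MulAction.mem_stabilizer_iff] at h
    exact hb (hg.symm.trans h)
  have hN : Subgroup.normalizer (H : Set G) = ⊤ := by
    rcases hco.le_iff.mp (Subgroup.le_normalizer (H := H)) with h | h
    · exact h
    · exact absurd (h ▸ hgN) hgH
  have hfix : ∀ x : Ω, ∀ h ∈ H, h • x = x := by
    intro x h hh
    obtain ⟨g', rfl⟩ := MulAction.exists_smul_eq G a₀ x
    have h2 : g' ∈ Subgroup.normalizer (H : Set G) := by rw [hN]; trivial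
    rw [Subgroup.mem_normalizer_iff''] at h2
    have h3 := (h2 h).mp hh
    rw [hH, MulAction.mem_stabilizer_iff, mul_smul, mul_smul, inv_smul_eq_iff] at h3
    exact h3
  have hs : ∀ x : Ω, Nat.card (MulAction.orbit H x) = 1 := by
    intro x
    have : MulAction.orbit H x = {x} := by
      ext y
      rw [MulAction.mem_orbit_iff, Set.mem_singleton_iff]
      constructor
      · rintro ⟨s, rfl⟩
        exact hfix x s s.2
      · rintro rfl
        exact ⟨1, one_smul _ _⟩
    rw [this]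
    simp
  have h5 := card_eq_sum_suborbits (G := G) a₀
  rw [Finset.sum_congr rfl (fun ω _ => hs ω.out)] at h5
  simp only [Finset.sum_const, Finset.card_univ, smul_eq_mul, mul_one] at h5
  rw [Nat.card_eq_fintype_card] at hrank
  have h6 : Fintype.card Ω = 3 := h5.trans hrank
  omega

theorem exists_third {G : Type*} [Group G] {Ω : Type*} [Fintype Ω] [MulAction G Ω] (a₀ : Ω)
    (hrank : Nat.card (MulAction.orbitRel.Quotient (MulAction.stabilizer G a₀) Ω) = 3)
    (b : Ω) (hb : b ≠ a₀) : ∃ c : Ω, c ≠ a₀ ∧ c ∉ MulAction.orbit (MulAction.stabilizer G a₀) b ∧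
      1 + Nat.card (MulAction.orbit (MulAction.stabilizer G a₀) b) +
        Nat.card (MulAction.orbit (MulAction.stabilizer G a₀) c) ≤ Fintype.card Ω := by
  classical
  have := Fintype.ofFinite (MulAction.orbitRel.Quotient (MulAction.stabilizer G a₀) Ω)
  set q₀ : MulAction.orbitRel.Quotient (MulAction.stabilizer G a₀) Ω := Quotient.mk'' a₀ with hq₀
  set q₁ : MulAction.orbitRel.Quotient (MulAction.stabilizer G a₀) Ω := Quotient.mk'' b with hq₁
  have h01 : q₀ ≠ q₁ := by
    intro h
    have h1 := h.symm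
    rw [hq₀, hq₁, Quotient.eq''] at h1
    have h2 : b ∈ MulAction.orbit (MulAction.stabilizer G a₀) a₀ := h1
    rw [orbit_stabilizer_self] at h2
    exact hb h2
  rw [Nat.card_eq_fintype_card] at hrank
  obtain ⟨q₂, hq₂⟩ : ∃ q₂, q₂ ∉ ({q₀, q₁} : Finset _) := by
    by_contra hcon
    push Not at hcon
    have h1 : (Finset.univ : Finset (MulAction.orbitRel.Quotient (MulAction.stabilizer G a₀) Ω)) ⊆
        {q₀, q₁} := fun x _ => hcon x
    have h2 := Finset.card_le_card h1
    rw [Finset.card_univ, hrank, Finset.card_pair h01] at h2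
    omega
  simp only [Finset.mem_insert, Finset.mem_singleton, not_or] at hq₂
  refine ⟨q₂.out, fun h => hq₂.1 ((out_eq_self_iff a₀ q₂).mp h), fun h => ?_, ?_⟩
  · apply hq₂.2
    rw [← Quotient.out_eq' q₂, hq₁, Quotient.eq'']
    exact h
  · rw [card_eq_sum_suborbits (G := G) a₀]
    have h3 : ∑ x ∈ ({q₀, q₁, q₂} : Finset _),
        Nat.card (MulAction.orbit (MulAction.stabilizer G a₀) x.out) ≤
        ∑ ω : MulAction.orbitRel.Quotient (MulAction.stabilizer G a₀) Ω,
          Nat.card (MulAction.orbit (MulAction.stabilizer G a₀) ω.out) :=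
      Finset.sum_le_sum_of_subset (Finset.subset_univ _)
    rw [Finset.sum_insert (by simp [h01, Ne.symm hq₂.1]), Finset.sum_pair (Ne.symm hq₂.2),
      (out_eq_self_iff a₀ q₀).mpr rfl, orbit_stabilizer_self, hq₁, orbit_out_mk] at h3
    simp only [Nat.card_eq_fintype_card, Fintype.card_unique] at h3 ⊢
    omega


/-- Groups of Wielandt type: if a primitive group of degree `2m` has rank 3 and permutation character `1 + χ₁ + χ₂` with irreducible `χ₁, χ₂` of degrees `m - 1` and `m`, then `m = 2a² + 2a + 1` for some positive integer `a` and the two non-trivial subdegrees are `a(2a+1)` and `(a+1)(2a+1)`. -/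
theorem result {G : Type*} [Group G] [Fintype G] {Ω : Type*} [Fintype Ω] [MulAction G Ω] (hprim : MulAction.IsPreprimitive G Ω) {m : ℕ} (hm : Fintype.card Ω = 2 * m) (a₀ : Ω) (hrank : Nat.card (MulAction.orbitRel.Quotient (MulAction.stabilizer G a₀) Ω) = 3) (χ₁ χ₂ : G → ℂ) (h₁ : Cfsg.IsIrrCharacter G χ₁) (h₂ : Cfsg.IsIrrCharacter G χ₂) (hπ : (fun g : G => (Nat.card (MulAction.fixedBy Ω g) : ℂ)) = fun g => 1 + χ₁ g + χ₂ g) (hd₁ : χ₁ 1 = (m : ℂ) - 1) (hd₂ : χ₂ 1 = m) : ∃ a : ℕ, 0 < a ∧ m = 2 * a ^ 2 + 2 * a + 1 ∧ ∀ b : Ω, b ≠ a₀ → Nat.card (MulAction.orbit (MulAction.stabilizer G a₀) b) = a * (2 * a + 1) ∨ Nat.card (MulAction.orbit (MulAction.stabilizer G a₀) b) = (a + 1) * (2 * a + 1) := by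
  classical
  have : MulAction.IsPretransitive G Ω := hprim.toIsPretransitive
  have key : ∀ b : Ω, b ≠ a₀ → ∃ a : ℕ, 0 < a ∧ m = 2 * a ^ 2 + 2 * a + 1 ∧
      (Nat.card (MulAction.orbit (MulAction.stabilizer G a₀) b) = a * (2 * a + 1) ∨
        Nat.card (MulAction.orbit (MulAction.stabilizer G a₀) b) = (a + 1) * (2 * a + 1)) := by
    intro b hb
    obtain ⟨c, hc, hcb, hsum⟩ := exists_third a₀ hrank b hb
    have hk1 := suborbit_ne_one hprim hm a₀ hrank b hb
    have hl1 := suborbit_ne_one hprim hm a₀ hrank c hc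
    have hkpos : 0 < Nat.card (MulAction.orbit (MulAction.stabilizer G a₀) b) := by
      have : Nonempty (MulAction.orbit (MulAction.stabilizer G a₀) b) :=
        ⟨⟨_, MulAction.mem_orbit_self _⟩⟩
      exact Nat.card_pos
    have hlpos : 0 < Nat.card (MulAction.orbit (MulAction.stabilizer G a₀) c) := by
      have : Nonempty (MulAction.orbit (MulAction.stabilizer G a₀) c) :=
        ⟨⟨_, MulAction.mem_orbit_self _⟩⟩
      exact Nat.card_pos
    obtain ⟨r, s, t, ht, hE1, hE2⟩ := spectral hm a₀ χ₁ χ₂ h₁ h₂ hπ hd₁ hd₂ b c hb hc hcb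
    set k := Nat.card (MulAction.orbit (MulAction.stabilizer G a₀) b) with hk
    apply nt m k t (by omega) (by omega)
    have hs : s = -(k : ℂ) - ((m : ℂ) - 1) * t := by linear_combination hE1 - ((m : ℂ) - 1) * ht
    have hr : r = (k : ℂ) + (m : ℂ) * t := by linear_combination ht - hs
    have hC : (m : ℂ) * (((m : ℂ) - 1) * (2 * m - 1) * (t : ℂ) ^ 2 + 4 * k * ((m : ℂ) - 1) * t
        + 2 * k * ((k : ℂ) - 1)) = 0 := by
      rw [hr, hs] at hE2
      linear_combination hE2
    have hm0 : (m : ℂ) ≠ 0 := by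
      have : m ≠ 0 := by omega
      exact_mod_cast this
    have hC' := (mul_eq_zero.mp hC).resolve_left hm0
    exact_mod_cast hC'
  obtain ⟨b₀, hb₀⟩ : ∃ b₀ : Ω, b₀ ≠ a₀ := by
    by_contra hcon
    push Not at hcon
    have hsub : Subsingleton (MulAction.orbitRel.Quotient (MulAction.stabilizer G a₀) Ω) := by
      constructor
      intro x y
      induction x using Quotient.inductionOn' with
      | h x =>
        induction y using Quotient.inductionOn' with
        | h y => rw [hcon x, hcon y]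
    have := Finite.card_le_one_iff_subsingleton.mpr hsub
    omega
  obtain ⟨a, ha, hma, -⟩ := key b₀ hb₀
  refine ⟨a, ha, hma, fun b hb => ?_⟩
  obtain ⟨a', ha', hma', hor⟩ := key b hb
  have haa : a' = a := by
    rcases lt_trichotomy a' a with h | h | h
    · exfalso; nlinarith
    · exact h
    · exfalso; nlinarith
  rw [haa] at hor
  exact hor

end Cfsg.Agent.S0719
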