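import Cfsg.Statements.S2426
import Cfsg.Agent.Lib.Helper66.St2SL

set_option autoImplicit false
open Cfsg

namespace Cfsg.Agent.S2426

open Cfsg.Agent.Lib.Helper66

/-- the relators -/
abbrev rels (K : Type*) [Field K] : Set (FreeGroup (Bool × K)) :=
  ({g : FreeGroup (Bool × K) | ∃ (b : Bool) (t u : K), g = FreeGroup.of (b, t) * FreeGroup.of (b, u) * (FreeGroup.of (b, t + u))⁻¹} ∪
          {g | ∃ (b : Bool) (t u : K), t ≠ 0 ∧
            g = (FreeGroup.of (b, t) * FreeGroup.of (!b, -t⁻¹) * FreeGroup.of (b, t)) * FreeGroup.of (b, u) *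
                  (FreeGroup.of (b, t) * FreeGroup.of (!b, -t⁻¹) * FreeGroup.of (b, t))⁻¹ * (FreeGroup.of (!b, -(t⁻¹ ^ 2 * u)))⁻¹})

theorem rel_add {K : Type*} [Field K] (b : Bool) (t u : K) :
    (PresentedGroup.of (b, t) : PresentedGroup (rels K)) * PresentedGroup.of (b, u) =
      PresentedGroup.of (b, t + u) := by
  have h : FreeGroup.of (b, t) * FreeGroup.of (b, u) * (FreeGroup.of (b, t + u))⁻¹ ∈ rels K :=
    Or.inl ⟨b, t, u, rfl⟩
  have h1 := PresentedGroup.one_of_mem h
  rw [map_mul, map_mul, map_inv, mul_inv_eq_one] at h1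
  exact h1

theorem rel_conj {K : Type*} [Field K] (b : Bool) (t u : K) (ht : t ≠ 0) :
    ((PresentedGroup.of (b, t) : PresentedGroup (rels K)) * PresentedGroup.of (!b, -t⁻¹) *
        PresentedGroup.of (b, t)) * PresentedGroup.of (b, u) *
      ((PresentedGroup.of (b, t) : PresentedGroup (rels K)) * PresentedGroup.of (!b, -t⁻¹) *
        PresentedGroup.of (b, t))⁻¹ = PresentedGroup.of (!b, -(t⁻¹ ^ 2 * u)) := by
  have h : (FreeGroup.of (b, t) * FreeGroup.of (!b, -t⁻¹) * FreeGroup.of (b, t)) * FreeGroup.of (b, u) *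
      (FreeGroup.of (b, t) * FreeGroup.of (!b, -t⁻¹) * FreeGroup.of (b, t))⁻¹ *
      (FreeGroup.of (!b, -(t⁻¹ ^ 2 * u)))⁻¹ ∈ rels K :=
    Or.inr ⟨b, t, u, ht, rfl⟩
  have h1 := PresentedGroup.one_of_mem h
  simp only [map_mul, map_inv] at h1
  rw [mul_inv_eq_one] at h1
  exact h1

/-- the Steinberg data in the presented group -/
def stP (K : Type*) [Field K] : St2 K (PresentedGroup (rels K)) where
  x t := PresentedGroup.of (true, t)
  y t := PresentedGroup.of (false, t)
  x_add t u := rel_add true t u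
  y_add t u := rel_add false t u
  relx t u ht := rel_conj true t u ht
  rely t u ht := rel_conj false t u ht

theorem stP_gen (K : Type*) [Field K] :
    Subgroup.closure (Set.range (stP K).x ∪ Set.range (stP K).y) = ⊤ := by
  rw [eq_top_iff, ← PresentedGroup.closure_range_of (rels K)]
  apply Subgroup.closure_mono
  rintro _ ⟨⟨b, t⟩, rfl⟩
  cases b
  · exact Or.inr ⟨t, rfl⟩
  · exact Or.inl ⟨t, rfl⟩

/-- the images of the generators -/
def gen {K : Type*} [Field K] : Bool × K → Matrix.SpecialLinearGroup (Fin 2) K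
  | (true, t) => St2.slx t
  | (false, t) => St2.sly t

theorem gen_rels {K : Type*} [Field K] : ∀ r ∈ rels K, FreeGroup.lift gen r = 1 := by
  rintro r (⟨b, t, u, rfl⟩ | ⟨b, t, u, ht, rfl⟩)
  · simp only [map_mul, map_inv, FreeGroup.lift_apply_of]
    rw [mul_inv_eq_one]
    cases b
    · exact (St2.sl (K := K)).y_add t u
    · exact (St2.sl (K := K)).x_add t u
  · simp only [map_mul, map_inv, FreeGroup.lift_apply_of]
    rw [mul_inv_eq_one]
    cases b
    · exact (St2.sl (K := K)).rely t u ht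
    · exact (St2.sl (K := K)).relx t u ht

/-- The rank-one Steinberg presentation of `SL₂` over a finite field `K`: generators `x(t)`, `y(t)` (`t ∈ K`; the two opposite root subgroups) subject to additivity `x(t)x(u) = x(t+u)`, `y(t)y(u) = y(t+u)` and, with `w(t) = x(t) y(−t⁻¹) x(t)` and `w'(t) = y(t) x(−t⁻¹) y(t)` for `t ≠ 0`, the relations `w(t) x(u) w(t)⁻¹ = y(−t⁻² u)` and `w'(t) y(u) w'(t)⁻¹ = x(−t⁻² u)`, present `SL₂(K)`, with `x(t) ↦ (1 t; 0 1)` and `y(t) ↦ (1 0; t 1)`. -/
theorem result {K : Type*} [Field K] [Finite K] :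
    ∃ e : PresentedGroup
        ({g : FreeGroup (Bool × K) | ∃ (b : Bool) (t u : K), g = FreeGroup.of (b, t) * FreeGroup.of (b, u) * (FreeGroup.of (b, t + u))⁻¹} ∪
          {g | ∃ (b : Bool) (t u : K), t ≠ 0 ∧
            g = (FreeGroup.of (b, t) * FreeGroup.of (!b, -t⁻¹) * FreeGroup.of (b, t)) * FreeGroup.of (b, u) *
                  (FreeGroup.of (b, t) * FreeGroup.of (!b, -t⁻¹) * FreeGroup.of (b, t))⁻¹ * (FreeGroup.of (!b, -(t⁻¹ ^ 2 * u)))⁻¹})
        ≃* Matrix.SpecialLinearGroup (Fin 2) K,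
      (∀ t : K, ((e (PresentedGroup.of (true, t)) : Matrix (Fin 2) (Fin 2) K)) = !![1, t; 0, 1]) ∧
      (∀ t : K, ((e (PresentedGroup.of (false, t)) : Matrix (Fin 2) (Fin 2) K)) = !![1, 0; t, 1]) := by
  have hx : ∀ t : K, PresentedGroup.toGroup (gen_rels (K := K)) ((stP K).x t) = St2.slx t :=
    fun t => PresentedGroup.toGroup.of _
  have hy : ∀ t : K, PresentedGroup.toGroup (gen_rels (K := K)) ((stP K).y t) = St2.sly t :=
    fun t => PresentedGroup.toGroup.of _
  have hbij := St2.bijective_of_hom (stP K) (stP_gen K) (PresentedGroup.toGroup gen_rels) hx hy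
  refine ⟨MulEquiv.ofBijective _ hbij, fun t => ?_, fun t => ?_⟩
  · have : MulEquiv.ofBijective _ hbij (PresentedGroup.of (true, t)) = St2.slx t := hx t
    rw [this]; rfl
  · have : MulEquiv.ofBijective _ hbij (PresentedGroup.of (false, t)) = St2.sly t := hy t
    rw [this]; rfl

end Cfsg.Agent.S2426
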