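import Cfsg.Statements.S0444
import Cfsg.Agent.Lib.Helper8.ThreeTransp

set_option autoImplicit false
set_option linter.unusedSimpArgs false
open Cfsg

namespace Cfsg.Agent.S0444

open Cfsg.Agent.Lib.Helper8

abbrev s : Equiv.Perm (Fin 3) := Equiv.swap 0 1
abbrev t : Equiv.Perm (Fin 3) := Equiv.swap 1 2

theorem cases6 : ∀ σ : Equiv.Perm (Fin 3), σ = 1 ∨ σ = s ∨ σ = t ∨ σ = s * t ∨ σ = t * s ∨ σ = s * t * s := by
  decide

def f {G : Type*} [Group G] (d e : G) (σ : Equiv.Perm (Fin 3)) : G :=
  if σ = 1 then 1 else if σ = s then d else if σ = t then e else if σ = s * t then d * e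
  else if σ = t * s then e * d else d * e * d

theorem f1 {G : Type*} [Group G] (d e : G) : f d e 1 = 1 := by
  unfold f; rw [if_pos rfl]
theorem fs {G : Type*} [Group G] (d e : G) : f d e s = d := by
  unfold f; rw [if_neg (by decide), if_pos rfl]
theorem ft {G : Type*} [Group G] (d e : G) : f d e t = e := by
  unfold f; rw [if_neg (by decide), if_neg (by decide), if_pos rfl]
theorem fst {G : Type*} [Group G] (d e : G) : f d e (s * t) = d * e := by
  unfold f; rw [if_neg (by decide), if_neg (by decide), if_neg (by decide), if_pos rfl]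
theorem fts {G : Type*} [Group G] (d e : G) : f d e (t * s) = e * d := by
  unfold f; rw [if_neg (by decide), if_neg (by decide), if_neg (by decide), if_neg (by decide), if_pos rfl]
theorem fsts {G : Type*} [Group G] (d e : G) : f d e (s * t * s) = d * e * d := by
  unfold f; rw [if_neg (by decide), if_neg (by decide), if_neg (by decide), if_neg (by decide), if_neg (by decide)]

theorem f_mul {G : Type*} [Group G] (d e : G) (hdd : d * d = 1) (hee : e * e = 1)
    (hbr : d * e * d = e * d * e) (σ τ : Equiv.Perm (Fin 3)) :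
    f d e (σ * τ) = f d e σ * f d e τ := by
  have hdd' : ∀ x, d * (d * x) = x := fun x => by rw [← mul_assoc, hdd, one_mul]
  have hee' : ∀ x, e * (e * x) = x := fun x => by rw [← mul_assoc, hee, one_mul]
  have hb : e * (d * e) = d * (e * d) := by rw [← mul_assoc, ← mul_assoc, hbr]
  have hb' : ∀ x, e * (d * (e * x)) = d * (e * (d * x)) := fun x => by
    rw [← mul_assoc, ← mul_assoc, ← hbr]; simp only [mul_assoc]
  rcases cases6 σ with rfl | rfl | rfl | rfl | rfl | rfl <;>
  rcases cases6 τ with rfl | rfl | rfl | rfl | rfl | rfl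
  · rw [show ((1) * (1) : Equiv.Perm (Fin 3)) = 1 from by decide]; simp only [f1, fs, ft, fst, fts, fsts]; simp only [mul_assoc, mul_one, one_mul, hdd, hdd', hee, hee', hb, hb']
  · rw [show ((1) * (s) : Equiv.Perm (Fin 3)) = s from by decide]; simp only [f1, fs, ft, fst, fts, fsts]; simp only [mul_assoc, mul_one, one_mul, hdd, hdd', hee, hee', hb, hb']
  · rw [show ((1) * (t) : Equiv.Perm (Fin 3)) = t from by decide]; simp only [f1, fs, ft, fst, fts, fsts]; simp only [mul_assoc, mul_one, one_mul, hdd, hdd', hee, hee', hb, hb']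
  · rw [show ((1) * (s * t) : Equiv.Perm (Fin 3)) = s * t from by decide]; simp only [f1, fs, ft, fst, fts, fsts]; simp only [mul_assoc, mul_one, one_mul, hdd, hdd', hee, hee', hb, hb']
  · rw [show ((1) * (t * s) : Equiv.Perm (Fin 3)) = t * s from by decide]; simp only [f1, fs, ft, fst, fts, fsts]; simp only [mul_assoc, mul_one, one_mul, hdd, hdd', hee, hee', hb, hb']
  · rw [show ((1) * (s * t * s) : Equiv.Perm (Fin 3)) = s * t * s from by decide]; simp only [f1, fs, ft, fst, fts, fsts]; simp only [mul_assoc, mul_one, one_mul, hdd, hdd', hee, hee', hb, hb']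
  · rw [show ((s) * (1) : Equiv.Perm (Fin 3)) = s from by decide]; simp only [f1, fs, ft, fst, fts, fsts]; simp only [mul_assoc, mul_one, one_mul, hdd, hdd', hee, hee', hb, hb']
  · rw [show ((s) * (s) : Equiv.Perm (Fin 3)) = 1 from by decide]; simp only [f1, fs, ft, fst, fts, fsts]; simp only [mul_assoc, mul_one, one_mul, hdd, hdd', hee, hee', hb, hb']
  · rw [show ((s) * (t) : Equiv.Perm (Fin 3)) = s * t from by decide]; simp only [f1, fs, ft, fst, fts, fsts]
  · rw [show ((s) * (s * t) : Equiv.Perm (Fin 3)) = t from by decide]; simp only [f1, fs, ft, fst, fts, fsts]; simp only [mul_assoc, mul_one, one_mul, hdd, hdd', hee, hee', hb, hb']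
  · rw [show ((s) * (t * s) : Equiv.Perm (Fin 3)) = s * t * s from by decide]; simp only [f1, fs, ft, fst, fts, fsts]; simp only [mul_assoc, mul_one, one_mul, hdd, hdd', hee, hee', hb, hb']
  · rw [show ((s) * (s * t * s) : Equiv.Perm (Fin 3)) = t * s from by decide]; simp only [f1, fs, ft, fst, fts, fsts]; simp only [mul_assoc, mul_one, one_mul, hdd, hdd', hee, hee', hb, hb']
  · rw [show ((t) * (1) : Equiv.Perm (Fin 3)) = t from by decide]; simp only [f1, fs, ft, fst, fts, fsts]; simp only [mul_assoc, mul_one, one_mul, hdd, hdd', hee, hee', hb, hb']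
  · rw [show ((t) * (s) : Equiv.Perm (Fin 3)) = t * s from by decide]; simp only [f1, fs, ft, fst, fts, fsts]
  · rw [show ((t) * (t) : Equiv.Perm (Fin 3)) = 1 from by decide]; simp only [f1, fs, ft, fst, fts, fsts]; simp only [mul_assoc, mul_one, one_mul, hdd, hdd', hee, hee', hb, hb']
  · rw [show ((t) * (s * t) : Equiv.Perm (Fin 3)) = s * t * s from by decide]; simp only [f1, fs, ft, fst, fts, fsts]; simp only [mul_assoc, mul_one, one_mul, hdd, hdd', hee, hee', hb, hb']
  · rw [show ((t) * (t * s) : Equiv.Perm (Fin 3)) = s from by decide]; simp only [f1, fs, ft, fst, fts, fsts]; simp only [mul_assoc, mul_one, one_mul, hdd, hdd', hee, hee', hb, hb']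
  · rw [show ((t) * (s * t * s) : Equiv.Perm (Fin 3)) = s * t from by decide]; simp only [f1, fs, ft, fst, fts, fsts]; simp only [mul_assoc, mul_one, one_mul, hdd, hdd', hee, hee', hb, hb']
  · rw [show ((s * t) * (1) : Equiv.Perm (Fin 3)) = s * t from by decide]; simp only [f1, fs, ft, fst, fts, fsts]; simp only [mul_assoc, mul_one, one_mul, hdd, hdd', hee, hee', hb, hb']
  · rw [show ((s * t) * (s) : Equiv.Perm (Fin 3)) = s * t * s from by decide]; simp only [f1, fs, ft, fst, fts, fsts]
  · rw [show ((s * t) * (t) : Equiv.Perm (Fin 3)) = s from by decide]; simp only [f1, fs, ft, fst, fts, fsts]; simp only [mul_assoc, mul_one, one_mul, hdd, hdd', hee, hee', hb, hb']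
  · rw [show ((s * t) * (s * t) : Equiv.Perm (Fin 3)) = t * s from by decide]; simp only [f1, fs, ft, fst, fts, fsts]; simp only [mul_assoc, mul_one, one_mul, hdd, hdd', hee, hee', hb, hb']
  · rw [show ((s * t) * (t * s) : Equiv.Perm (Fin 3)) = 1 from by decide]; simp only [f1, fs, ft, fst, fts, fsts]; simp only [mul_assoc, mul_one, one_mul, hdd, hdd', hee, hee', hb, hb']
  · rw [show ((s * t) * (s * t * s) : Equiv.Perm (Fin 3)) = t from by decide]; simp only [f1, fs, ft, fst, fts, fsts]; simp only [mul_assoc, mul_one, one_mul, hdd, hdd', hee, hee', hb, hb']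
  · rw [show ((t * s) * (1) : Equiv.Perm (Fin 3)) = t * s from by decide]; simp only [f1, fs, ft, fst, fts, fsts]; simp only [mul_assoc, mul_one, one_mul, hdd, hdd', hee, hee', hb, hb']
  · rw [show ((t * s) * (s) : Equiv.Perm (Fin 3)) = t from by decide]; simp only [f1, fs, ft, fst, fts, fsts]; simp only [mul_assoc, mul_one, one_mul, hdd, hdd', hee, hee', hb, hb']
  · rw [show ((t * s) * (t) : Equiv.Perm (Fin 3)) = s * t * s from by decide]; simp only [f1, fs, ft, fst, fts, fsts]; simp only [mul_assoc, mul_one, one_mul, hdd, hdd', hee, hee', hb, hb']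
  · rw [show ((t * s) * (s * t) : Equiv.Perm (Fin 3)) = 1 from by decide]; simp only [f1, fs, ft, fst, fts, fsts]; simp only [mul_assoc, mul_one, one_mul, hdd, hdd', hee, hee', hb, hb']
  · rw [show ((t * s) * (t * s) : Equiv.Perm (Fin 3)) = s * t from by decide]; simp only [f1, fs, ft, fst, fts, fsts]; simp only [mul_assoc, mul_one, one_mul, hdd, hdd', hee, hee', hb, hb']
  · rw [show ((t * s) * (s * t * s) : Equiv.Perm (Fin 3)) = s from by decide]; simp only [f1, fs, ft, fst, fts, fsts]; simp only [mul_assoc, mul_one, one_mul, hdd, hdd', hee, hee', hb, hb']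
  · rw [show ((s * t * s) * (1) : Equiv.Perm (Fin 3)) = s * t * s from by decide]; simp only [f1, fs, ft, fst, fts, fsts]; simp only [mul_assoc, mul_one, one_mul, hdd, hdd', hee, hee', hb, hb']
  · rw [show ((s * t * s) * (s) : Equiv.Perm (Fin 3)) = s * t from by decide]; simp only [f1, fs, ft, fst, fts, fsts]; simp only [mul_assoc, mul_one, one_mul, hdd, hdd', hee, hee', hb, hb']
  · rw [show ((s * t * s) * (t) : Equiv.Perm (Fin 3)) = t * s from by decide]; simp only [f1, fs, ft, fst, fts, fsts]; simp only [mul_assoc, mul_one, one_mul, hdd, hdd', hee, hee', hb, hb']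
  · rw [show ((s * t * s) * (s * t) : Equiv.Perm (Fin 3)) = s from by decide]; simp only [f1, fs, ft, fst, fts, fsts]; simp only [mul_assoc, mul_one, one_mul, hdd, hdd', hee, hee', hb, hb']
  · rw [show ((s * t * s) * (t * s) : Equiv.Perm (Fin 3)) = t from by decide]; simp only [f1, fs, ft, fst, fts, fsts]; simp only [mul_assoc, mul_one, one_mul, hdd, hdd', hee, hee', hb, hb']
  · rw [show ((s * t * s) * (s * t * s) : Equiv.Perm (Fin 3)) = 1 from by decide]; simp only [f1, fs, ft, fst, fts, fsts]; simp only [mul_assoc, mul_one, one_mul, hdd, hdd', hee, hee', hb, hb']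

/-- Two members of a set of 3-transpositions which do not commute generate a subgroup isomorphic to the symmetric group on three letters. -/
theorem result {G : Type*} [Group G] {E : Set G} (hE : Cfsg.IsThreeTranspositionSet E) {d e : G} (hd : d ∈ E) (he : e ∈ E) (h : ¬ Commute d e) : Nonempty (Subgroup.closure ({d, e} : Set G) ≃* Equiv.Perm (Fin 3)) := by
  have hdd := tt_mul_self hE hd
  have hee := tt_mul_self hE he
  have hbr := tt_braid hE hd he h
  have hd1 := tt_ne_one hE hd
  have he1 := tt_ne_one hE he
  let φ : Equiv.Perm (Fin 3) →* G := MonoidHom.mk' (f d e) (f_mul d e hdd hee hbr)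
  have hφs : φ s = d := fs d e
  have hφt : φ t = e := ft d e
  have hinj : Function.Injective φ := by
    rw [injective_iff_map_eq_one]
    intro σ hσ
    change f d e σ = 1 at hσ
    rcases cases6 σ with rfl | rfl | rfl | rfl | rfl | rfl
    · rfl
    · rw [fs] at hσ; exact absurd hσ hd1
    · rw [ft] at hσ; exact absurd hσ he1
    · rw [fst] at hσ
      exfalso; apply h
      have : d = e := by
        calc d = d * (e * e) := by rw [hee, mul_one]
          _ = (d * e) * e := by group
          _ = e := by rw [hσ, one_mul]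
      rw [this]
    · rw [fts] at hσ
      exfalso; apply h
      have : e = d := by
        calc e = e * (d * d) := by rw [hdd, mul_one]
          _ = (e * d) * d := by group
          _ = d := by rw [hσ, one_mul]
      rw [this]
    · rw [fsts] at hσ
      exfalso; apply he1
      calc e = (d * d) * e * (d * d) := by rw [hdd]; group
        _ = d * (d * e * d) * d := by group
        _ = 1 := by rw [hσ, mul_one, hdd]
  have htop : Subgroup.closure ({s, t} : Set (Equiv.Perm (Fin 3))) = ⊤ := by
    rw [eq_top_iff]
    intro σ _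
    have hs : s ∈ Subgroup.closure ({s, t} : Set (Equiv.Perm (Fin 3))) :=
      Subgroup.subset_closure (by simp)
    have ht : t ∈ Subgroup.closure ({s, t} : Set (Equiv.Perm (Fin 3))) :=
      Subgroup.subset_closure (by simp)
    rcases cases6 σ with rfl | rfl | rfl | rfl | rfl | rfl
    · exact one_mem _
    · exact hs
    · exact ht
    · exact mul_mem hs ht
    · exact mul_mem ht hs
    · exact mul_mem (mul_mem hs ht) hs
  have hrange : φ.range = Subgroup.closure ({d, e} : Set G) := by
    rw [MonoidHom.range_eq_map, ← htop, MonoidHom.map_closure]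
    congr 1
    rw [Set.image_pair, hφs, hφt]
  exact ⟨((MonoidHom.ofInjective hinj).trans (MulEquiv.subgroupCongr hrange)).symm⟩

end Cfsg.Agent.S0444
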