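import Cfsg.Statements.S2159
import Cfsg.Agent.Lib.Helper36.ChevOut5

set_option autoImplicit false
open Cfsg

namespace Cfsg.Agent.S2159

open Cfsg.Lie Cfsg.Agent.Lib.Helper18 Cfsg.Agent.Lib.Helper36

theorem index_le_two {F : Type*} [Field F] [Finite F] {D : ChevalleyDatum}
    (hD : D ∈ [chevG2, chevB2, chevD4, chevF4, chevE6, chevE7, chevE8])
    (h : (symLists D D.rank).length ≤ 2) :
    (permOut (F := F) hD).ker.index = 1 ∨ (permOut (F := F) hD).ker.index = 2 := by
  rw [Subgroup.index_ker]
  have h1 := card_range_permOut_le (F := F) hD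
  have hpos : 0 < Nat.card (permOut (F := F) hD).range := Nat.card_pos
  omega

/-- Structure of the outer automorphism group of the Chevalley group `G` of type G₂, B₂, D₄, F₄, E₆, E₇ or E₈ over a finite field. Let `D̄` be the image in `Out(G)` of the subgroup generated by the diagonal automorphisms and `F̄` the image of the subgroup generated by the field automorphisms. Then `D̄` is a normal abelian subgroup of `Out(G)`, `F̄` is cyclic, `D̄F̄` is a normal subgroup, and the quotient of `Out(G)` by `D̄F̄` is trivial, of order 2, or non-abelian of order 6 (so isomorphic to the symmetric group on three letters): its index is 1 or 2, or it is 6 with the commutator subgroup of `Out(G)` not inside `D̄F̄`. -/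
theorem result {F : Type*} [Field F] [Finite F] (D : Cfsg.Lie.ChevalleyDatum) (hD : D ∈ [Cfsg.Lie.chevG2, Cfsg.Lie.chevB2, Cfsg.Lie.chevD4, Cfsg.Lie.chevF4, Cfsg.Lie.chevE6, Cfsg.Lie.chevE7, Cfsg.Lie.chevE8])
    (Dbar Fbar : Subgroup (Cfsg.Out ↥(D.group F)))
    (hDbar : Dbar = (Subgroup.closure {φ : MulAut ↥(D.group F) | D.IsDiagonalAut φ}).map (QuotientGroup.mk' (Cfsg.Inn ↥(D.group F))))
    (hFbar : Fbar = (Subgroup.closure {φ : MulAut ↥(D.group F) | D.IsFieldAut φ}).map (QuotientGroup.mk' (Cfsg.Inn ↥(D.group F)))) :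
    Dbar.Normal ∧ IsMulCommutative ↥Dbar ∧ IsCyclic ↥Fbar ∧ (Dbar ⊔ Fbar).Normal ∧
      ((Dbar ⊔ Fbar).index = 1 ∨ (Dbar ⊔ Fbar).index = 2 ∨
        ((Dbar ⊔ Fbar).index = 6 ∧ ¬ commutator (Cfsg.Out ↥(D.group F)) ≤ Dbar ⊔ Fbar)) := by
  rw [map_closure_diag hD] at hDbar
  rw [map_closure_field hD] at hFbar
  subst hDbar hFbar
  rw [sup_eq_ker hD]
  refine ⟨diagOut_range_normal hD, inferInstance, fieldOut_range_isCyclic hD, inferInstance, ?_⟩
  have hD' := hD
  simp only [List.mem_cons, List.not_mem_nil, or_false] at hD'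
  rcases hD' with rfl | rfl | rfl | rfl | rfl | rfl | rfl
  · rcases index_le_two (F := F) hD (by rw [symListsG2]; simp) with h | h
    · exact Or.inl h
    · exact Or.inr (Or.inl h)
  · rcases index_le_two (F := F) hD (by rw [symListsB2]; simp) with h | h
    · exact Or.inl h
    · exact Or.inr (Or.inl h)
  · refine Or.inr (Or.inr ⟨?_, not_commutator_le_D4⟩)
    rw [Subgroup.index_ker]
    exact card_range_D4
  · rcases index_le_two (F := F) hD (by rw [symListsF4]; simp) with h | h
    · exact Or.inl h
    · exact Or.inr (Or.inl h)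
  · rcases index_le_two (F := F) hD (by rw [symListsE6]; simp) with h | h
    · exact Or.inl h
    · exact Or.inr (Or.inl h)
  · rcases index_le_two (F := F) hD (by rw [symListsE7]; simp) with h | h
    · exact Or.inl h
    · exact Or.inr (Or.inl h)
  · rcases index_le_two (F := F) hD (by rw [symListsE8]; simp) with h | h
    · exact Or.inl h
    · exact Or.inr (Or.inl h)

end Cfsg.Agent.S2159
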