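import Cfsg.Statements.S0110
import Cfsg.Agent.Lib.Helper29.HomCount

set_option autoImplicit false
open Cfsg
open scoped commutatorElement

namespace Cfsg.Agent.S0110

/-- In a p-group G, an extraspecial subgroup E with [G, E] ≤ Z(E) satisfies G = E C_G(E). -/
theorem result {G : Type*} [Group G] [Finite G] {p : ℕ} [Fact p.Prime] (hG : IsPGroup p G) (E : Subgroup G) (hE : Cfsg.IsExtraspecial p E) (h : ⁅(⊤ : Subgroup G), E⁆ ≤ E ⊓ Subgroup.centralizer (E : Set G)) : E ⊔ Subgroup.centralizer (E : Set G) = ⊤ := by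
  classical
  have hp : p.Prime := Fact.out
  obtain ⟨C, hC⟩ : ∃ C : Subgroup G, C = Subgroup.centralizer (E : Set G) := ⟨_, rfl⟩
  rw [← hC] at h ⊢
  have hmemC : ∀ x, x ∈ C ↔ ∀ e ∈ E, e * x = x * e := by
    intro x; rw [hC]; exact Subgroup.mem_centralizer_iff
  have hcomm : ∀ (g : G) (e : G), e ∈ E → ⁅g, e⁆ ∈ E ⊓ C := fun g e he =>
    h (Subgroup.commutator_mem_commutator (Subgroup.mem_top g) he)
  have hEn : E.Normal := by
    constructor
    intro e he g
    have h1 := E.mul_mem (hcomm g e he).1 he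
    simpa [commutatorElement_def] using h1
  have hCn : C.Normal := by rw [hC]; infer_instance
  have hCE : C.subgroupOf E = Subgroup.center E := by
    ext x
    rw [Subgroup.mem_subgroupOf, hmemC, Subgroup.mem_center_iff]
    constructor
    · intro hx e
      exact Subtype.ext (hx e e.2)
    · intro hx e he
      exact congrArg Subtype.val (hx ⟨e, he⟩)
  have hZcard : Nat.card (E ⊓ C : Subgroup G) = p := by
    have h1 : (Subgroup.center E).map E.subtype = E ⊓ C := by
      rw [← hCE, Subgroup.subgroupOf_map_subtype, inf_comm]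
    rw [← h1, Subgroup.card_map_of_injective E.subtype_injective, hE.2]
  have hZcyc : IsCyclic (E ⊓ C : Subgroup G) := isCyclic_of_prime_card hZcard
  let φ : G → (E →* (E ⊓ C : Subgroup G)) := fun g =>
    MonoidHom.mk' (fun e => ⟨⁅g, (e : G)⁆, hcomm g e e.2⟩) (by
      intro a b
      apply Subtype.ext
      change ⁅g, (a : G) * b⁆ = ⁅g, (a : G)⁆ * ⁅g, (b : G)⁆
      have hb := (hmemC _).1 (hcomm g b b.2).2 a a.2
      have e1 : ⁅g, (a : G) * b⁆ = ⁅g, (a : G)⁆ * ((a : G) * ⁅g, (b : G)⁆) * (a : G)⁻¹ := by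
        simp only [commutatorElement_def]; group
      rw [e1, hb]
      group)
  have hfin : Finite (E →* (E ⊓ C : Subgroup G)) := DFunLike.finite _
  have h1 : C.index ≤ Nat.card (E →* (E ⊓ C : Subgroup G)) := by
    apply Cfsg.Agent.Lib.Helper29.index_le_card_of_fiber C φ
    intro a b hab
    rw [hmemC]
    intro e he
    have h2 : ⁅a, e⁆ = ⁅b, e⁆ :=
      congrArg (fun t : (E ⊓ C : Subgroup G) => (t : G)) (DFunLike.congr_fun hab (⟨e, he⟩ : E))
    rw [commutatorElement_def, commutatorElement_def] at h2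
    have h3 : a * e * a⁻¹ = b * e * b⁻¹ := mul_right_cancel h2
    calc e * (a⁻¹ * b) = a⁻¹ * (a * e * a⁻¹) * b := by group
      _ = a⁻¹ * (b * e * b⁻¹) * b := by rw [h3]
      _ = a⁻¹ * b * e := by group
  have h2 := Cfsg.Agent.Lib.Helper29.card_monoidHom_le_card_abelianization E (E ⊓ C : Subgroup G)
  have h3 : Nat.card (Abelianization E) = (Subgroup.center E).index := by
    rw [← hE.1.2.2]; rfl
  have h4 : C.relIndex (C ⊔ E) = (Subgroup.center E).index := by
    rw [Subgroup.relIndex_sup_left, ← hCE]; rfl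
  have h5 := Subgroup.relIndex_mul_index (le_sup_left : C ≤ C ⊔ E)
  rw [h4] at h5
  have h6 : (Subgroup.center E).index * (C ⊔ E).index ≤ (Subgroup.center E).index * 1 := by
    rw [h5, mul_one, ← h3]; exact h1.trans h2
  have hpos : 0 < (Subgroup.center E).index := Nat.pos_of_ne_zero Subgroup.index_ne_zero_of_finite
  have h7 : (C ⊔ E).index ≤ 1 := Nat.le_of_mul_le_mul_left h6 hpos
  have h8 : (C ⊔ E).index = 1 := by
    have : (C ⊔ E).index ≠ 0 := Subgroup.index_ne_zero_of_finite
    omega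
  rw [sup_comm]
  exact Subgroup.index_eq_one.1 h8

end Cfsg.Agent.S0110
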