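import Mathlib
import Cfsg.Statements.S0946

set_option autoImplicit false
open Cfsg

namespace Cfsg.Agent.S0946

open Subgroup
open scoped Pointwise

/-- `g` normalizes the abelian group `P`, `g ^ n ∈ P` with `n` odd, and `g` centralizes all
`x ∈ P` with `x ^ 2 = 1`. Then `g` centralizes every `2`-element of `P`. -/
theorem centralizes_of_omega {G : Type*} [Group G] (P : Subgroup G)
    (hab : ∀ x ∈ P, ∀ y ∈ P, x * y = y * x)
    (g : G) (hg : ∀ x ∈ P, g * x * g⁻¹ ∈ P) (n : ℕ) (hn : Odd n) (hgn : g ^ n ∈ P)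
    (hΩ : ∀ x ∈ P, x ^ 2 = 1 → g * x * g⁻¹ = x) :
    ∀ k : ℕ, ∀ x ∈ P, x ^ (2 ^ k) = 1 → g * x * g⁻¹ = x := by
  intro k
  induction k with
  | zero => intro x _ hx; simp at hx; subst hx; simp
  | succ k ih =>
    intro x hx hxk
    have h2 : g * x ^ 2 * g⁻¹ = x ^ 2 :=
      ih (x ^ 2) (P.pow_mem hx 2) (by rw [← pow_mul, ← pow_succ']; exact hxk)
    set u := g * x * g⁻¹ * x⁻¹ with hu
    have huP : u ∈ P := P.mul_mem (hg x hx) (P.inv_mem hx)
    have hu2 : u ^ 2 = 1 := by
      have hc : x⁻¹ * (g * x * g⁻¹) = (g * x * g⁻¹) * x⁻¹ := hab _ (P.inv_mem hx) _ (hg x hx)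
      calc u ^ 2 = (g * x * g⁻¹) * (x⁻¹ * (g * x * g⁻¹)) * x⁻¹ := by rw [hu, sq]; group
        _ = (g * x * g⁻¹) * ((g * x * g⁻¹) * x⁻¹) * x⁻¹ := by rw [hc]
        _ = (g * x ^ 2 * g⁻¹) * (x ^ 2)⁻¹ := by simp only [sq, mul_inv_rev, mul_assoc, inv_mul_cancel_left]
        _ = 1 := by rw [h2, mul_inv_cancel]
    have hgu : g * u * g⁻¹ = u := hΩ u huP hu2
    have hgx : g * x * g⁻¹ = u * x := by rw [hu]; group
    have hj : ∀ j : ℕ, g ^ j * x * (g ^ j)⁻¹ = u ^ j * x := by
      intro j
      induction j with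
      | zero => simp
      | succ j ihj =>
        calc g ^ (j + 1) * x * (g ^ (j + 1))⁻¹ = g * (g ^ j * x * (g ^ j)⁻¹) * g⁻¹ := by
              rw [pow_succ']; group
          _ = g * (u ^ j * x) * g⁻¹ := by rw [ihj]
          _ = (g * u * g⁻¹) ^ j * (g * x * g⁻¹) := by rw [conj_pow]; group
          _ = u ^ j * (u * x) := by rw [hgu, hgx]
          _ = u ^ (j + 1) * x := by rw [pow_succ]; group
    have h3 := hj n
    have h4 : g ^ n * x * (g ^ n)⁻¹ = x := by rw [hab _ hgn _ hx]; group
    rw [h4] at h3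
    have h5 : u ^ n = 1 := by
      have := congrArg (· * x⁻¹) h3
      simpa using this.symm
    obtain ⟨r, rfl⟩ := hn
    have h6 : u = 1 := by rw [pow_succ, pow_mul, hu2, one_pow, one_mul] at h5; exact h5
    rw [hgx, h6, one_mul]

theorem zmod_add_self_eq_zero (m : ℕ) (hm : 1 ≤ m) (a : ZMod (2 ^ m)) (h : a + a = 0) :
    a = 0 ∨ a = ((2 ^ (m - 1) : ℕ) : ZMod (2 ^ m)) := by
  haveI : NeZero (2 ^ m) := ⟨by positivity⟩
  have h1 : ((a.val + a.val : ℕ) : ZMod (2 ^ m)) = 0 := by
    push_cast
    rw [ZMod.natCast_zmod_val]; exact h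
  rw [ZMod.natCast_eq_zero_iff] at h1
  have h2 := ZMod.val_lt a
  have h3 : 2 ^ m = 2 * 2 ^ (m - 1) := by
    rw [← pow_succ']; congr 1; omega
  obtain ⟨c, hc⟩ := h1
  have hc2 : c = 0 ∨ c = 1 := by
    rcases c with _ | _ | c
    · left; rfl
    · right; rfl
    · exfalso
      have : 2 ^ m * (c + 1 + 1) ≥ 2 ^ m * 2 := Nat.mul_le_mul_left _ (by omega)
      omega
  rcases hc2 with rfl | rfl
  · left
    have : a.val = 0 := by omega
    exact (ZMod.val_eq_zero a).mp this
  · right
    have : a.val = 2 ^ (m - 1) := by omega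
    rw [← this, ZMod.natCast_zmod_val]


/-- Let P be a Sylow 2-subgroup of the finite group G isomorphic to Z/2^m × Z/2^m with m ≥ 1. Then either P has a normal complement in G, or all involutions of G are conjugate. -/
theorem result {G : Type*} [Group G] [Finite G] (P : Sylow 2 G) (m : ℕ) (hm : 1 ≤ m) (e : (P : Subgroup G) ≃* Multiplicative (ZMod (2 ^ m) × ZMod (2 ^ m))) : (∃ N : Subgroup G, N.Normal ∧ Subgroup.IsComplement' N (P : Subgroup G)) ∨ ∀ s t : G, orderOf s = 2 → orderOf t = 2 → IsConj s t := by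
  classical
  have := Fintype.ofFinite G
  haveI : Fact (Nat.Prime 2) := ⟨Nat.prime_two⟩
  have hab : ∀ x ∈ (P : Subgroup G), ∀ y ∈ (P : Subgroup G), x * y = y * x := by
    intro x hx y hy
    have : (⟨x, hx⟩ : (P : Subgroup G)) * ⟨y, hy⟩ = ⟨y, hy⟩ * ⟨x, hx⟩ := by
      apply e.injective; rw [map_mul, map_mul, mul_comm]
    exact congrArg Subtype.val this
  set n := (P : Subgroup G).index with hn
  have hnodd : Odd n := by
    rw [← Nat.not_even_iff_odd, even_iff_two_dvd]
    exact P.not_dvd_index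
  obtain ⟨a, ha⟩ := (IsPGroup.iff_card.mp P.2)
  have hcard : Nat.card G = 2 ^ a * n := by rw [← ha, hn, Subgroup.card_mul_index]
  have hpow : ∀ g ∈ normalizer ((P : Subgroup G) : Set G), g ^ n ∈ (P : Subgroup G) := by
    intro g hg
    have h1 : IsPGroup 2 (zpowers (g ^ n)) := by
      rintro ⟨x, hx⟩
      obtain ⟨j, rfl⟩ := mem_zpowers_iff.mp hx
      refine ⟨a, Subtype.ext ?_⟩
      simp only [SubmonoidClass.mk_pow, OneMemClass.coe_one]
      rw [← zpow_natCast, ← zpow_mul, mul_comm, zpow_mul, zpow_natCast, ← pow_mul, mul_comm n,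
        ← hcard, pow_card_eq_one', one_zpow]
    have h2 := h1.inf_normalizer_sylow P
    have h3 : g ^ n ∈ zpowers (g ^ n) ⊓ normalizer ((P : Subgroup G) : Set G) :=
      ⟨mem_zpowers _, Subgroup.pow_mem _ hg n⟩
    exact (h2.le h3).2
  have hnorm : ∀ g ∈ normalizer ((P : Subgroup G) : Set G), ∀ x ∈ (P : Subgroup G),
      g * x * g⁻¹ ∈ (P : Subgroup G) := fun g hg x hx => (mem_normalizer_iff.mp hg x).mp hx
  by_cases hc : ∀ g ∈ normalizer ((P : Subgroup G) : Set G), ∀ x ∈ (P : Subgroup G), x ^ 2 = 1 →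
      g * x * g⁻¹ = x
  · left
    have hP : normalizer ((P : Subgroup G) : Set G) ≤ centralizer ((P : Subgroup G) : Set G) := by
      intro g hg
      rw [mem_centralizer_iff]
      intro x hx
      have h1 := centralizes_of_omega (P : Subgroup G) hab g (hnorm g hg) n hnodd (hpow g hg)
        (hc g hg) a x hx (by
          have : (⟨x, hx⟩ : (P : Subgroup G)) ^ (2 ^ a) = 1 := by rw [← ha]; exact pow_card_eq_one'
          exact congrArg Subtype.val this)
      calc x * g = (g * x * g⁻¹) * g := by rw [h1]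
        _ = g * x := by group
    exact ⟨(MonoidHom.transferSylow P hP).ker, inferInstance,
      MonoidHom.ker_transferSylow_isComplement' P hP⟩
  · right
    push Not at hc
    obtain ⟨g, hg, t, ht, ht2, hgt⟩ := hc
    -- the set of involutions of `P`
    set Ω : Finset G := Finset.univ.filter (fun x => x ∈ (P : Subgroup G) ∧ orderOf x = 2) with hΩ
    have hΩcard : Ω.card ≤ 3 := by
      set A : ZMod (2 ^ m) := ((2 ^ (m - 1) : ℕ) : ZMod (2 ^ m)) with hA
      have hsub : Ω ⊆ {((e.symm (Multiplicative.ofAdd (A, 0)) : (P : Subgroup G)) : G),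
          ((e.symm (Multiplicative.ofAdd (0, A)) : (P : Subgroup G)) : G),
          ((e.symm (Multiplicative.ofAdd (A, A)) : (P : Subgroup G)) : G)} := by
        intro x hx
        rw [hΩ, Finset.mem_filter] at hx
        obtain ⟨-, hxP, hx2⟩ := hx
        have h1 : (e ⟨x, hxP⟩) ^ 2 = 1 := by
          rw [← map_pow]
          have : (⟨x, hxP⟩ : (P : Subgroup G)) ^ 2 = 1 := by
            apply Subtype.ext
            simp only [SubmonoidClass.mk_pow, OneMemClass.coe_one]
            rw [← hx2]; exact pow_orderOf_eq_one x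
          rw [this, map_one]
        have hne : e ⟨x, hxP⟩ ≠ 1 := by
          intro h
          have : (⟨x, hxP⟩ : (P : Subgroup G)) = 1 := e.injective (by rw [h, map_one])
          have hx1 : x = 1 := congrArg Subtype.val this
          rw [hx1, orderOf_one] at hx2
          omega
        obtain ⟨⟨u, v⟩, huv⟩ : ∃ w : ZMod (2 ^ m) × ZMod (2 ^ m),
            e ⟨x, hxP⟩ = Multiplicative.ofAdd w := ⟨Multiplicative.toAdd (e ⟨x, hxP⟩), rfl⟩
        rw [huv] at h1 hne
        have h2 : (u, v) + (u, v) = 0 := by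
          have := congrArg Multiplicative.toAdd h1
          rw [sq] at this
          exact this
        have hu : u + u = 0 := congrArg Prod.fst h2
        have hv : v + v = 0 := congrArg Prod.snd h2
        have hxe : x = ((e.symm (Multiplicative.ofAdd (u, v)) : (P : Subgroup G)) : G) := by
          rw [← huv, MulEquiv.symm_apply_apply]
        rw [hxe]
        rcases zmod_add_self_eq_zero m hm u hu with rfl | rfl <;>
          rcases zmod_add_self_eq_zero m hm v hv with rfl | rfl
        · exact absurd rfl hne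
        · exact Finset.mem_insert_of_mem (Finset.mem_insert_self _ _)
        · exact Finset.mem_insert_self _ _
        · exact Finset.mem_insert_of_mem (Finset.mem_insert_of_mem (Finset.mem_singleton_self _))
      exact (Finset.card_le_card hsub).trans Finset.card_le_three
    have hord : ∀ x : G, x ^ 2 = 1 → x ≠ 1 → orderOf x = 2 := fun x h1 h2 =>
      orderOf_eq_prime h1 h2
    have ht1 : t ≠ 1 := by rintro rfl; simp at hgt
    set t' := g * t * g⁻¹ with ht'
    set t'' := g * t' * g⁻¹ with ht''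
    have hconj_ord : ∀ x : G, orderOf (g * x * g⁻¹) = orderOf x := fun x => by
      have := orderOf_injective (MulAut.conj g).toMonoidHom (MulAut.conj g).injective x
      simpa using this
    have htΩ : t ∈ Ω := by
      rw [hΩ, Finset.mem_filter]; exact ⟨Finset.mem_univ _, ht, hord t ht2 ht1⟩
    have ht'Ω : t' ∈ Ω := by
      rw [hΩ, Finset.mem_filter]
      exact ⟨Finset.mem_univ _, hnorm g hg t ht, by rw [ht', hconj_ord]; exact hord t ht2 ht1⟩
    have ht''Ω : t'' ∈ Ω := by
      rw [hΩ, Finset.mem_filter]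
      exact ⟨Finset.mem_univ _, hnorm g hg t' (hnorm g hg t ht), by
        rw [ht'', hconj_ord, ht', hconj_ord]; exact hord t ht2 ht1⟩
    have h12 : t ≠ t' := fun h => hgt h.symm
    have h23 : t' ≠ t'' := by
      intro h
      apply h12
      have : g * t * g⁻¹ = g * t' * g⁻¹ := h
      simpa using this
    have h13 : t ≠ t'' := by
      intro h
      -- `g ^ 2` and `g ^ n` centralize `t`
      have hg2 : g ^ 2 * t = t * g ^ 2 := by
        have : t = g * (g * t * g⁻¹) * g⁻¹ := h
        calc g ^ 2 * t = (g * (g * t * g⁻¹) * g⁻¹) * g ^ 2 := by rw [sq]; group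
          _ = t * g ^ 2 := by rw [← this]
      have hgn : g ^ n * t = t * g ^ n := hab _ (hpow g hg) _ ht
      obtain ⟨r, hr⟩ := hnodd
      have hc2 : Commute (g ^ 2) t := hg2
      have hcn : Commute (g ^ n) t := hgn
      have hc2r : Commute (g ^ (2 * r)) t := by rw [pow_mul]; exact hc2.pow_left r
      have hg1 : Commute g t := by
        have h5 : g = (g ^ (2 * r))⁻¹ * g ^ n := by rw [hr, pow_succ]; group
        rw [h5]
        exact (hc2r.inv_left).mul_left hcn
      apply hgt
      rw [ht', hg1.eq]; group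
    have hΩeq : ({t, t', t''} : Finset G) = Ω := by
      apply Finset.eq_of_subset_of_card_le
      · intro x hx
        simp only [Finset.mem_insert, Finset.mem_singleton] at hx
        rcases hx with rfl | rfl | rfl
        · exact htΩ
        · exact ht'Ω
        · exact ht''Ω
      · rw [Finset.card_eq_three.mpr ⟨t, t', t'', h12, h13, h23, rfl⟩]
        exact hΩcard
    have hall : ∀ x ∈ Ω, IsConj t x := by
      intro x hx
      rw [← hΩeq] at hx
      simp only [Finset.mem_insert, Finset.mem_singleton] at hx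
      rcases hx with rfl | rfl | rfl
      · exact IsConj.refl _
      · exact isConj_iff.mpr ⟨g, rfl⟩
      · exact isConj_iff.mpr ⟨g * g, by rw [ht'', ht']; group⟩
    have hsyl : ∀ s : G, orderOf s = 2 → IsConj t s := by
      intro s hs
      have h1 : IsPGroup 2 (zpowers s) := by
        apply IsPGroup.of_card (n := 1)
        rw [Nat.card_zpowers, hs, pow_one]
      obtain ⟨Q, hQ⟩ := h1.exists_le_sylow
      obtain ⟨c, hcQ⟩ := MulAction.exists_smul_eq G Q P
      have h2 : c * s * c⁻¹ ∈ (P : Subgroup G) := by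
        rw [← hcQ]
        change c * s * c⁻¹ ∈ MulAut.conj c • (Q : Subgroup G)
        rw [Subgroup.mem_pointwise_smul_iff_inv_smul_mem]
        simp only [MulAut.smul_def, MulAut.conj_inv_apply]
        have : c⁻¹ * (c * s * c⁻¹) * c = s := by group
        rw [this]
        exact hQ (mem_zpowers s)
      have h3 : c * s * c⁻¹ ∈ Ω := by
        rw [hΩ, Finset.mem_filter]
        refine ⟨Finset.mem_univ _, h2, ?_⟩
        have := orderOf_injective (MulAut.conj c).toMonoidHom (MulAut.conj c).injective s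
        rw [← hs]
        simpa using this
      exact (hall _ h3).trans (isConj_iff.mpr ⟨c⁻¹, by group⟩)
    intro s s' hs hs'
    exact (hsyl s hs).symm.trans (hsyl s' hs')

end Cfsg.Agent.S0946
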