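import Cfsg.Statements.S0344
import Cfsg.Agent.Lib.Helper19.S3Build
import Cfsg.Agent.Lib.Helper19.ZasHalf
import Cfsg.Agent.S0741

set_option autoImplicit false
open Cfsg

namespace Cfsg.Agent.S0344

/-- A finite simple Zassenhaus group with a two-point stabiliser of even order is isomorphic to `PSL₂(F)` for a finite
field `F` with more than three elements. -/
theorem result {G Ω : Type*} [Group G] [Finite G] [MulAction G Ω] [Finite Ω]
    (hZ : Cfsg.IsZassenhausGroup G Ω) [IsSimpleGroup G]
    {a b : Ω} (hab : a ≠ b) (heven : Even (Nat.card ↥(MulAction.stabilizer G a ⊓ MulAction.stabilizer G b))) :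
    ∃ (F : Type) (_ : Field F) (_ : Fintype F), 3 < Fintype.card F ∧ Nonempty (G ≃* Matrix.ProjectiveSpecialLinearGroup (Fin 2) F) := by
  open Cfsg.Agent.Lib.Helper19 Cfsg.Agent.Lib.Helper6.Zas MulAction in
  classical
  have := Fintype.ofFinite Ω
  have hb := base_of_zassenhaus hZ
  obtain ⟨K, z⟩ := exists_zdata_of_zassenhaus hZ hab
  have h741 := Cfsg.Agent.S0741.result hZ hab heven
  obtain ⟨c, hca, hcb⟩ := exists_third hZ a b
  have h3 : 3 ≤ Fintype.card Ω := by
    have : ({a, b, c} : Finset Ω).card = 3 := by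
      rw [Finset.card_insert_of_notMem, Finset.card_insert_of_notMem, Finset.card_singleton]
      · simp [hcb.symm]
      · simp [hab, hca.symm]
    rw [← this]
    exact Finset.card_le_univ _
  obtain ⟨h, hh⟩ : ∃ h, Fintype.card Ω = h + 1 := ⟨Fintype.card Ω - 1, by omega⟩
  have hdvd := hb.card_stab2_dvd hab hh
  set d := Nat.card ↥(stabilizer G a ⊓ stabilizer G b) with hd
  have hd0 : 0 < d := Nat.card_pos
  obtain ⟨r, hr⟩ := heven
  obtain ⟨q, hq⟩ := hdvd
  have hq1 : 1 ≤ q := by
    rcases Nat.eq_zero_or_pos q with h0 | h0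
    · rw [h0, mul_zero] at hq; omega
    · exact h0
  have hq2 : q ≤ 2 := by
    by_contra hlt
    push Not at hlt
    have : d * 3 ≤ d * q := Nat.mul_le_mul_left _ hlt
    omega
  have hq' : q = 1 ∨ q = 2 := by omega
  rcases hq' with rfl | rfl
  · exfalso
    have hcard : Fintype.card Ω = d + 2 := by omega
    have Htrans := Htrans_of_card hb hab hca hcb hcard
    obtain ⟨t, htH, ht1, ht2⟩ := exists_invol_of_even (stabilizer G a ⊓ stabilizer G b) ⟨r, hr⟩
    obtain ⟨u, -, huc, hua, hub⟩ := hb.exists_invol_fix_swap hab ⟨r, hr⟩ c hca hcb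
    have sd : S3Data G Ω a b c K t u :=
      ⟨z, hca, hcb, Htrans, htH.1, htH.2, ht1, ht2, hua, hub, huc⟩
    obtain ⟨lam, h₁, hh₁, hne⟩ := sd.exists_linear (by
      rw [Nat.card_eq_fintype_card, hcard, hr]
      exact ⟨r + 1, by omega⟩)
    rcases IsSimpleGroup.eq_bot_or_eq_top_of_normal lam.ker inferInstance with hk | hk
    · have hinj := (MonoidHom.ker_eq_bot_iff lam).1 hk
      have hcomm : ∀ x y : G, x * y = y * x := by
        intro x y
        apply hinj
        rw [map_mul, map_mul, mul_comm]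
      apply ht1
      apply hb.faithful
      intro e
      by_cases hea : e = a
      · rw [hea]; exact htH.1
      · obtain ⟨g, hga, -⟩ := hb.two hab hea
        rw [← hga, ← mul_smul, hcomm, mul_smul, mem_stabilizer_iff.mp htH.1]
    · apply hne
      have : h₁ ∈ lam.ker := by rw [hk]; exact Subgroup.mem_top _
      exact MonoidHom.mem_ker.1 this
  · obtain ⟨F, i1, i2, hF, -, hiso⟩ := psl_of_half z ⟨r, hr⟩ (by omega)
    exact ⟨F, i1, i2, by omega, hiso⟩

end Cfsg.Agent.S0344
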