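import Cfsg.Statements.S4450
import Cfsg.Agent.Lib.Helper81.InvOver

set_option autoImplicit false
open Cfsg

namespace Cfsg.Agent.S4450

open Cfsg.Agent.Lib Cfsg.Agent.Lib.Helper15 Cfsg.Agent.Lib.Helper81 Cfsg.Agent.S4448
open scoped commutatorElement

theorem comm_central_left {X : Type*} [Group X] (x y z : X) (hz : z ∈ Subgroup.center X) :
    ⁅x * z, y⁆ = ⁅x, y⁆ := by
  have h := Subgroup.mem_center_iff.1 hz y
  rw [commutatorElement_def, commutatorElement_def, mul_inv_rev]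
  calc x * z * y * (z⁻¹ * x⁻¹) * y⁻¹ = x * (z * y) * z⁻¹ * x⁻¹ * y⁻¹ := by group
    _ = x * (y * z) * z⁻¹ * x⁻¹ * y⁻¹ := by rw [h]
    _ = x * y * x⁻¹ * y⁻¹ := by group

theorem comm_central_right {X : Type*} [Group X] (x y z : X) (hz : z ∈ Subgroup.center X) :
    ⁅x, y * z⁆ = ⁅x, y⁆ := by
  have h := Subgroup.mem_center_iff.1 hz x⁻¹
  rw [commutatorElement_def, commutatorElement_def, mul_inv_rev]
  calc x * (y * z) * x⁻¹ * (z⁻¹ * y⁻¹) = x * y * (z * x⁻¹) * z⁻¹ * y⁻¹ := by group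
    _ = x * y * (x⁻¹ * z) * z⁻¹ * y⁻¹ := by rw [h]
    _ = x * y * x⁻¹ * y⁻¹ := by group

theorem of_cover {Γ Γh : Type*} [Group Γ] [Fintype Γ] [Group Γh] [Finite Γh] (G N : Subgroup Γ)
    [hG : G.Normal] [hN : N.Normal] [Fintype N] (hNG : N ≤ G)
    (hcop : (G.index).Coprime (N.relIndex G))
    (hsolv : Group.IsSolvable (Γ ⧸ G) ∨ Sol G N) (θ : N → ℂ) (hθ : IsIrrCharacter N θ)
    (π : Γh →* Γ) (j : N →* Γh) (τ : Γh → ℂ) (hπ : Function.Surjective π)
    (hker : π.ker ≤ Subgroup.center Γh) (hπj : ∀ n : N, π (j n) = n) (hjn : j.range.Normal)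
    (hτ : IsIrrCharacter Γh τ) (hτj : ∀ n : N, τ (j n) = θ n) :
    ∃ χ : G → ℂ, IsIrrCharacter G χ ∧ classInner (fun n : N => χ ⟨n, hNG n.2⟩) θ ≠ 0 ∧
      ∀ (x : Γ) (g : G), χ ⟨x * g * x⁻¹, hG.conj_mem g g.2 x⟩ = χ g := by
  classical
  have := Fintype.ofFinite Γh
  have hGh : (G.comap π).Normal := hG.comap π
  have hNh : (N.comap π).Normal := hN.comap π
  have hNGh : N.comap π ≤ G.comap π := Subgroup.comap_mono hNG
  have hidx : (G.comap π).index = G.index := Subgroup.index_comap_of_surjective G hπ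
  have hrel : (N.comap π).relIndex (G.comap π) = N.relIndex G := by
    rw [Subgroup.relIndex_comap, Subgroup.map_comap_eq_self_of_surjective hπ]
  have hsolvh : Group.IsSolvable (Γh ⧸ G.comap π) ∨ Sol (G.comap π) (N.comap π) := by
    rcases hsolv with hsolv | hsolv
    · left
      apply Group.isSolvable_of_isSolvable_injective
        (f := QuotientGroup.map (G.comap π) G π le_rfl)
      rw [injective_iff_map_eq_one]
      intro x hx
      induction x using QuotientGroup.induction_on with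
      | H x =>
        have h1 : ((π x : Γ) : Γ ⧸ G) = 1 := hx
        have h2 : π x ∈ G := (QuotientGroup.eq_one_iff _).1 h1
        exact (QuotientGroup.eq_one_iff x).2 h2
    · right
      exact Sol.comap hsolv π hπ
  have hjN : ∀ n : N, j n ∈ N.comap π := fun n => by
    rw [Subgroup.mem_comap, hπj]; exact n.2
  -- decomposition of the elements of the preimage of `N`
  have hdec : ∀ x ∈ N.comap π, ∃ (a : N) (z : Γh), z ∈ Subgroup.center Γh ∧ x = j a * z := by
    intro x hx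
    refine ⟨⟨π x, hx⟩, (j ⟨π x, hx⟩)⁻¹ * x, hker ?_, by group⟩
    rw [MonoidHom.mem_ker, map_mul, map_inv, hπj, inv_mul_cancel]
  have hcommN : ∀ (g : Γh), ∀ x ∈ N.comap π, ⁅g, x⁆ ∈ j.range := by
    intro g x hx
    obtain ⟨a, z, hz, rfl⟩ := hdec x hx
    rw [comm_central_right _ _ _ hz, commutatorElement_def]
    exact j.range.mul_mem (hjn.conj_mem _ ⟨a, rfl⟩ g) (j.range.inv_mem ⟨a, rfl⟩)
  let jN : N →* N.comap π := j.codRestrict (N.comap π) hjN
  let jG : N →* G.comap π := j.codRestrict (G.comap π) (fun n => hNGh (hjN n))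
  have hτθ : (fun n : N => τ (j n)) = θ := funext hτj
  -- the linear character `ν`
  have hMn : (j.range.subgroupOf (N.comap π)).Normal := hjn.subgroupOf _
  have hcomm : commutator (N.comap π) ≤ j.range.subgroupOf (N.comap π) := by
    rw [commutator_def, Subgroup.commutator_le]
    intro a _ b _
    rw [Subgroup.mem_subgroupOf]
    exact hcommN a b b.2
  have hχ₁ : IsIrrCharacter (N.comap π) (fun x : N.comap π => τ x) :=
    irr_of_comp_irr jN (char_restrict (irr_char hτ) _) (by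
      change IsIrrCharacter N (fun n : N => τ (j n))
      rw [hτθ]; exact hθ)
  have hχ₂ : IsIrrCharacter (N.comap π) (fun x : N.comap π => θ (π.subgroupComap N x)) :=
    Helper80.isIrrCharacter_comp (π.subgroupComap N)
      (π.subgroupComap_surjective_of_surjective N hπ) hθ
  let jM : N →* j.range.subgroupOf (N.comap π) :=
    jN.codRestrict _ (fun n => Subgroup.mem_subgroupOf.2 ⟨n, rfl⟩)
  have hχM : IsIrrCharacter (j.range.subgroupOf (N.comap π))
      (fun m : j.range.subgroupOf (N.comap π) => τ ((m : N.comap π) : Γh)) :=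
    irr_of_comp_irr jM (char_restrict (irr_char hχ₁) _) (by
      change IsIrrCharacter N (fun n : N => τ (j n))
      rw [hτθ]; exact hθ)
  have hsame : (fun m : j.range.subgroupOf (N.comap π) => θ (π.subgroupComap N (m : N.comap π)))
      = (fun m : j.range.subgroupOf (N.comap π) => τ ((m : N.comap π) : Γh)) := by
    funext m
    obtain ⟨n, hn⟩ := Subgroup.mem_subgroupOf.1 m.2
    rw [← hn, hτj]
    refine congrArg _ (Subtype.ext ?_)
    change π ((m : N.comap π) : Γh) = n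
    rw [← hn, hπj]
  obtain ⟨ν, hν1, hν2⟩ := exists_linear_mul (j.range.subgroupOf (N.comap π)) hcomm hχ₁ hχ₂ (by
    rw [hsame, irr_inner_self hχM]
    exact one_ne_zero)
  have hν2' : ∀ x : N.comap π, θ (π.subgroupComap N x) = (ν x : ℂ) * τ x := fun x =>
    congrFun hν2 x
  have hνj : ∀ n : N, ν ⟨j n, hjN n⟩ = 1 := fun n =>
    hν1 _ (Subgroup.mem_subgroupOf.2 ⟨n, rfl⟩)
  have hνinv : ∀ (g : Γh) (x : N.comap π), ν ⟨g * x * g⁻¹, hNh.conj_mem x x.2 g⟩ = ν x := by
    intro g x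
    have h1 : (⟨g * x * g⁻¹, hNh.conj_mem x x.2 g⟩ : N.comap π)
        = ⟨⁅g, (x : Γh)⁆, (N.comap π).mul_mem (hNh.conj_mem x x.2 g) ((N.comap π).inv_mem x.2)⟩ * x := by
      apply Subtype.ext
      change g * x * g⁻¹ = ⁅g, (x : Γh)⁆ * x
      rw [commutatorElement_def]
      group
    rw [h1, map_mul, hν1 _ (Subgroup.mem_subgroupOf.2 (hcommN g x x.2)), one_mul]
  obtain ⟨β, hβ, hβN, hβinv⟩ := linear_case (G.comap π) (N.comap π) hNGh
    (by rw [hidx, hrel]; exact hcop) hsolvh ν hνinv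
  -- Gallagher
  have hτG : IsIrrCharacter (G.comap π) (fun x : G.comap π => τ x) :=
    irr_of_comp_irr jG (char_restrict (irr_char hτ) _) (by
      change IsIrrCharacter N (fun n : N => τ (j n))
      rw [hτθ]; exact hθ)
  have hM'n : (j.range.subgroupOf (G.comap π)).Normal := hjn.subgroupOf _
  let jM' : N →* j.range.subgroupOf (G.comap π) :=
    jG.codRestrict _ (fun n => Subgroup.mem_subgroupOf.2 ⟨n, rfl⟩)
  have hτM' : IsIrrCharacter (j.range.subgroupOf (G.comap π))
      (fun m : j.range.subgroupOf (G.comap π) => τ ((m : G.comap π) : Γh)) :=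
    irr_of_comp_irr jM' (char_restrict (irr_char hτG) _) (by
      change IsIrrCharacter N (fun n : N => τ (j n))
      rw [hτθ]; exact hθ)
  have hβM' : (fun m : j.range.subgroupOf (G.comap π) => β (m : G.comap π))
      = β 1 • (fun _ => (1 : ℂ)) := by
    funext m
    obtain ⟨n, hn⟩ := Subgroup.mem_subgroupOf.1 m.2
    have h1 := hβN ⟨j n, hjN n⟩
    rw [hνj] at h1
    rw [Pi.smul_apply, smul_eq_mul, mul_one]
    rw [Units.val_one, mul_one] at h1
    rw [← h1]
    exact congrArg _ (Subtype.ext hn.symm)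
  have hψ := (gallagher (j.range.subgroupOf (G.comap π)) hτG hτM').mapsTo
    (show β ∈ {β | IsIrrCharacter (G.comap π) β ∧ classInner
      (fun n : j.range.subgroupOf (G.comap π) => β n) (fun _ => 1) ≠ 0} from ⟨hβ, by
        rw [hβM', classInner_smul_left, irr_inner_self irr_one, mul_one]
        exact irr_one_ne_zero hβ⟩)
  have hψirr : IsIrrCharacter (G.comap π) (β * fun x : G.comap π => τ x) := hψ.1
  have hθ1 : θ 1 = τ 1 := by rw [← hτj, map_one]
  obtain ⟨χ, hχ, hχψ⟩ := exists_deflate_surj (π.subgroupComap G)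
    (π.subgroupComap_surjective_of_surjective G hπ) hψirr (by
      intro k hk
      have hk1 : π (k : Γh) = 1 := congrArg Subtype.val (MonoidHom.mem_ker.1 hk)
      have hkN : (k : Γh) ∈ N.comap π := by
        rw [Subgroup.mem_comap, hk1]; exact N.one_mem
      have h1 := hβN ⟨k, hkN⟩
      have h2 := hν2' ⟨k, hkN⟩
      have h3 : π.subgroupComap N ⟨k, hkN⟩ = 1 := Subtype.ext hk1
      rw [h3, hθ1] at h2
      rw [Pi.mul_apply, Pi.mul_apply]
      change β ⟨(k : Γh), _⟩ * τ k = β 1 * τ 1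
      rw [h1, h2, mul_assoc])
  refine ⟨χ, hχ, ?_, ?_⟩
  · have h1 : (fun n : N => χ ⟨n, hNG n.2⟩) = β 1 • θ := by
      funext n
      have h2 := hχψ (jG n)
      have h3 : π.subgroupComap G (jG n) = ⟨n, hNG n.2⟩ := Subtype.ext (hπj n)
      rw [h3, Pi.mul_apply] at h2
      have h4 := hβN ⟨j n, hjN n⟩
      rw [hνj, Units.val_one, mul_one] at h4
      rw [h2, Pi.smul_apply, smul_eq_mul]
      change β ⟨j n, _⟩ * τ (j n) = _
      rw [h4, hτj]
    rw [h1, classInner_smul_left, irr_inner_self hθ, mul_one]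
    exact irr_one_ne_zero hβ
  · intro x g
    obtain ⟨xh, rfl⟩ := hπ x
    obtain ⟨gh, rfl⟩ := π.subgroupComap_surjective_of_surjective G hπ g
    have h1 : (⟨π xh * (π.subgroupComap G gh : G) * (π xh)⁻¹,
        hG.conj_mem _ (π.subgroupComap G gh).2 (π xh)⟩ : G)
        = π.subgroupComap G ⟨xh * gh * xh⁻¹, hGh.conj_mem gh gh.2 xh⟩ := by
      apply Subtype.ext
      change π xh * π gh * (π xh)⁻¹ = π (xh * gh * xh⁻¹)
      simp
    rw [h1, hχψ, hχψ, Pi.mul_apply, Pi.mul_apply, hβinv]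
    congr 1
    exact irr_cf hτ gh xh

/-- Let N ≤ G be normal subgroups of the finite group Γ with the index of G in Γ coprime to the index of N in G, and Γ/G or G/N solvable. Then for every irreducible character ϑ of N invariant under conjugation by Γ, the induced character ϑ^G has an irreducible constituent invariant under conjugation by Γ. -/
theorem result {Γ : Type*} [Group Γ] [Fintype Γ] (G N : Subgroup Γ) [hG : G.Normal] [hN : N.Normal] [Fintype G] [Fintype N] (hNG : N ≤ G) (hcop : (G.index).Coprime (N.relIndex G)) (hsolv : Group.IsSolvable (Γ ⧸ G) ∨ Group.IsSolvable (G ⧸ N.subgroupOf G)) (θ : Cfsg.IrrCharacter N) (hinv : ∀ (x : Γ) (n : N), (θ : N → ℂ) ⟨x * n * x⁻¹, hN.conj_mem n n.2 x⟩ = (θ : N → ℂ) n) : ∃ χ : Cfsg.IrrCharacter G, Cfsg.classInner (fun n : N => (χ : G → ℂ) ⟨n, hNG n.2⟩) (θ : N → ℂ) ≠ 0 ∧ ∀ (x : Γ) (g : G), (χ : G → ℂ) ⟨x * g * x⁻¹, hG.conj_mem g g.2 x⟩ = (χ : G → ℂ) g := by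
  obtain ⟨Γh, _, _, π, j, τ, hπ, hker, hπj, hjn, hτ, hτj⟩ :=
    cover_exists N (θ : N → ℂ) θ.2 hinv
  obtain ⟨χ, hχ, h1, h2⟩ := of_cover G N hNG hcop
    (hsolv.imp id (fun h => sol_of_isSolvable G N h)) (θ : N → ℂ) θ.2 π j τ hπ hker hπj hjn hτ hτj
  exact ⟨⟨χ, hχ⟩, h1, h2⟩

end Cfsg.Agent.S4450
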