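import Cfsg.Statements.S5344
import Cfsg.Agent.Lib.Helper89.Sym4
import Cfsg.Agent.Lib.Helper8.ThreeTransp

set_option autoImplicit false
open Cfsg

namespace Cfsg.Agent.S5344

open Cfsg.Agent.Lib.Helper89 Cfsg.Agent.Lib.Helper8

/-- In a set of 3-transpositions, let a, b, c be members with a and c different and commuting, while neither a nor c commutes with b (a 3-string). Then there is an injective homomorphism from the symmetric group of degree 4 into the ambient group sending the transpositions (0 1), (1 2), (2 3) to a, b, c; so a, b, c generate a copy of the symmetric group of degree 4 in which they are transpositions. -/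
theorem result {G : Type*} [Group G] {D : Set G} (hD : Cfsg.IsThreeTranspositionSet D) {a b c : G} (ha : a ∈ D) (hb : b ∈ D) (hc : c ∈ D) (hac : a ≠ c) (hac' : Commute a c) (hab : ¬ Commute a b) (hbc : ¬ Commute b c) : ∃ φ : Equiv.Perm (Fin 4) →* G, Function.Injective φ ∧ φ (Equiv.swap 0 1) = a ∧ φ (Equiv.swap 1 2) = b ∧ φ (Equiv.swap 2 3) = c := by
  have hx := tt_mul_self hD ha
  have hy := tt_mul_self hD hb
  have hz := tt_mul_self hD hc
  have hxz : c * a = a * c := hac'.eq.symm
  have hxy : b * a * b = a * b * a := (tt_braid hD ha hb hab).symm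
  have hyz : c * b * c = b * c * b := (tt_braid hD hb hc hbc).symm
  exact ⟨sym4Hom hx hy hz hxz hxy hyz, sym4Hom_injective hx hy hz hxz hxy hyz hac,
    sym4Hom_swap01 _ _ _ _ _ _, sym4Hom_swap12 _ _ _ _ _ _, sym4Hom_swap23 _ _ _ _ _ _⟩

end Cfsg.Agent.S5344
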