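import Cfsg.Statements.S5351
import Cfsg.Agent.Lib.Helper89.TTNormal

set_option autoImplicit false
open Cfsg

namespace Cfsg.Agent.S5351

open Cfsg.Agent.Lib.Helper89 Cfsg.Agent.Lib.Helper8 Cfsg.Agent.Lib.Lead Cfsg.Agent.Lib.Helper31

variable {G : Type*} [Group G] [Finite G] {D : Set G}

theorem pCore_le_center_of_gt (hD : Cfsg.IsThreeTranspositionClass D) {p : ℕ} (hp : p.Prime)
    (h3 : 3 < p) : Cfsg.pCore p G ≤ Subgroup.center G := by
  obtain ⟨d, hd, -⟩ := hD.2.1
  have hd2 := tt_mul_self hD.1 hd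
  have hN := pCore_normal' p G
  apply le_center_of_commute hD hd
  intro x hx
  rw [← cc_eq_one_iff hd2]
  have hm : cc d x ∈ Cfsg.pCore p G := cc_mem_normal hd2 hx
  rcases cc_sq_or_cube hD hd x with h | h
  · exact eq_one_of_pGroup_of_pow ((Nat.coprime_primes hp Nat.prime_two).mpr (by omega))
      (pCore_isPGroup p G) hm h
  · exact eq_one_of_pGroup_of_pow ((Nat.coprime_primes hp Nat.prime_three).mpr (by omega))
      (pCore_isPGroup p G) hm h

theorem layer_commute_pCore (p : ℕ) [Fact p.Prime] :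
    ∀ n ∈ Cfsg.pCore p G, ∀ y ∈ Cfsg.layer G, Commute n y := by
  intro n hn y hy
  have := layer_le_centralizer_of_isSolvable (pCore_normal' p G)
    (isSolvable_of_isPGroup (pCore_isPGroup p G)) hy
  rw [Subgroup.mem_centralizer_iff] at this
  exact this n hn

theorem layer_not_le_center (h : Cfsg.layer G ≠ ⊥) : ¬ Cfsg.layer G ≤ Subgroup.center G := by
  intro hle
  obtain ⟨L, hL⟩ := exists_component_of_layer_ne_bot h
  apply IsComponent.not_le_centralizer hL
  intro x hx
  have := hle (IsComponent.le_layer hL hx)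
  rw [Subgroup.mem_centralizer_iff]
  intro y _
  exact (Subgroup.mem_center_iff.mp this y)

/-- If `O_p(G)` is not central (`p = 2, 3`) then there is no component. -/
theorem layer_eq_bot_of_two (hD : Cfsg.IsThreeTranspositionClass D)
    (h : ¬ Cfsg.pCore 2 G ≤ Subgroup.center G) : Cfsg.layer G = ⊥ := by
  by_contra hE
  obtain ⟨d, hd, -⟩ := hD.2.1
  have hd2 := tt_mul_self hD.1 hd
  have hN := pCore_normal' 2 G
  have hEn : (Cfsg.layer G).Normal := layer_normal
  have : Fact (Nat.Prime 2) := ⟨Nat.prime_two⟩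
  have : Fact (Nat.Prime 3) := ⟨Nat.prime_three⟩
  obtain ⟨x, hx, hx1⟩ := exists_cc_ne_one hD hd h
  have hx2 : cc d x ^ 2 = 1 := by
    rcases cc_sq_or_cube hD hd x with h' | h'
    · exact h'
    · exact absurd (eq_one_of_pGroup_of_pow (by norm_num) (pCore_isPGroup 2 G)
        (cc_mem_normal hd2 hx) h') hx1
  apply layer_not_le_center hE
  apply le_center_of_commute hD hd
  apply commute_of_forall_cc_pow hD hd layer_perfect (layer_commute_pCore 2) (layer_commute_pCore 3)
  left
  intro y hy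
  rcases cc_sq_or_cube hD hd y with h' | h'
  · exact h'
  · by_cases hy1 : cc d y = 1
    · rw [hy1, one_pow]
    · exact (cc_order_compat hD hd (layer_commute_pCore 2) hx hy hx1 hx2 hy1 h').elim

theorem layer_eq_bot_of_three (hD : Cfsg.IsThreeTranspositionClass D)
    (h : ¬ Cfsg.pCore 3 G ≤ Subgroup.center G) : Cfsg.layer G = ⊥ := by
  by_contra hE
  obtain ⟨d, hd, -⟩ := hD.2.1
  have hd2 := tt_mul_self hD.1 hd
  have hN := pCore_normal' 3 G
  have hEn : (Cfsg.layer G).Normal := layer_normal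
  have : Fact (Nat.Prime 2) := ⟨Nat.prime_two⟩
  have : Fact (Nat.Prime 3) := ⟨Nat.prime_three⟩
  obtain ⟨x, hx, hx1⟩ := exists_cc_ne_one hD hd h
  have hx3 : cc d x ^ 3 = 1 := by
    rcases cc_sq_or_cube hD hd x with h' | h'
    · exact absurd (eq_one_of_pGroup_of_pow (by norm_num) (pCore_isPGroup 3 G)
        (cc_mem_normal hd2 hx) h') hx1
    · exact h'
  apply layer_not_le_center hE
  apply le_center_of_commute hD hd
  apply commute_of_forall_cc_pow hD hd layer_perfect (layer_commute_pCore 2) (layer_commute_pCore 3)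
  right
  intro y hy
  rcases cc_sq_or_cube hD hd y with h' | h'
  · by_cases hy1 : cc d y = 1
    · rw [hy1, one_pow]
    · exact (cc_order_compat hD hd (fun a ha b hb => (layer_commute_pCore 3 b hb a ha).symm)
        hy hx hy1 h' hx1 hx3).elim
  · exact h'

theorem not_both (hD : Cfsg.IsThreeTranspositionClass D)
    (h2 : ¬ Cfsg.pCore 2 G ≤ Subgroup.center G) (h3 : ¬ Cfsg.pCore 3 G ≤ Subgroup.center G) :
    False := by
  obtain ⟨d, hd, -⟩ := hD.2.1
  have hd2 := tt_mul_self hD.1 hd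
  have hN2 := pCore_normal' 2 G
  have hN3 := pCore_normal' 3 G
  have : Fact (Nat.Prime 2) := ⟨Nat.prime_two⟩
  have : Fact (Nat.Prime 3) := ⟨Nat.prime_three⟩
  obtain ⟨x, hx, hx1⟩ := exists_cc_ne_one hD hd h2
  obtain ⟨y, hy, hy1⟩ := exists_cc_ne_one hD hd h3
  have hx2 : cc d x ^ 2 = 1 := by
    rcases cc_sq_or_cube hD hd x with h' | h'
    · exact h'
    · exact absurd (eq_one_of_pGroup_of_pow (by norm_num) (pCore_isPGroup 2 G)
        (cc_mem_normal hd2 hx) h') hx1
  have hy3 : cc d y ^ 3 = 1 := by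
    rcases cc_sq_or_cube hD hd y with h' | h'
    · exact absurd (eq_one_of_pGroup_of_pow (by norm_num) (pCore_isPGroup 3 G)
        (cc_mem_normal hd2 hy) h') hy1
    · exact h'
  have hdis : Disjoint (Cfsg.pCore 2 G) (Cfsg.pCore 3 G) :=
    IsPGroup.disjoint_of_ne 2 3 (by norm_num) _ _ (pCore_isPGroup 2 G) (pCore_isPGroup 3 G)
  exact cc_order_compat hD hd
    (fun a ha b hb => Subgroup.commute_of_normal_of_disjoint _ _ hN2 hN3 hdis a b ha hb)
    hx hy hx1 hx2 hy1 hy3

theorem fitting_le_center (hD : Cfsg.IsThreeTranspositionClass D)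
    (h2 : Cfsg.pCore 2 G ≤ Subgroup.center G) (h3 : Cfsg.pCore 3 G ≤ Subgroup.center G) :
    Cfsg.fittingSubgroup G ≤ Subgroup.center G := by
  rw [Cfsg.Agent.Lib.Helper1.fittingSubgroup_eq_iSup_pCore]
  apply iSup_le
  intro p
  have hp := p.2
  by_cases hp2 : (p : ℕ) = 2
  · rw [hp2]; exact h2
  by_cases hp3 : (p : ℕ) = 3
  · rw [hp3]; exact h3
  apply pCore_le_center_of_gt hD hp
  have := hp.two_le
  omega

theorem layer_ne_bot (hD : Cfsg.IsThreeTranspositionClass D) (hD2 : ∃ a ∈ D, ∃ b ∈ D, a ≠ b)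
    (h2 : Cfsg.pCore 2 G ≤ Subgroup.center G) (h3 : Cfsg.pCore 3 G ≤ Subgroup.center G) :
    Cfsg.layer G ≠ ⊥ := by
  intro hE
  obtain ⟨d, hd, -⟩ := hD.2.1
  obtain ⟨e, he, hde⟩ := exists_not_commute hD hD2 hd
  have hF : Cfsg.generalizedFittingSubgroup G ≤ Subgroup.center G := by
    rw [Cfsg.generalizedFittingSubgroup, hE, bot_sup_eq]
    exact fitting_le_center hD h2 h3
  have h1 : d ∈ Subgroup.centralizer (Cfsg.generalizedFittingSubgroup G : Set G) := by
    rw [Subgroup.mem_centralizer_iff]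
    intro x hx
    exact (Subgroup.mem_center_iff.mp (hF hx) d).symm
  have h4 := hF (centralizer_genFitting_le h1)
  exact hde (Subgroup.mem_center_iff.mp h4 e).symm

/-- Let D be a conjugacy class of 3-transpositions generating the finite group G, with at least two members. Then for every prime p > 3 the largest normal p-subgroup of G is central, and exactly one of the following holds: the largest normal 2-subgroup of G is not central; the largest normal 3-subgroup of G is not central; the layer of G (the product of its components) is non-trivial. -/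
theorem result {G : Type*} [Group G] [Finite G] {D : Set G} (hD : Cfsg.IsThreeTranspositionClass D) (hD2 : ∃ a ∈ D, ∃ b ∈ D, a ≠ b) : (∀ p : ℕ, p.Prime → 3 < p → Cfsg.pCore p G ≤ Subgroup.center G) ∧ ((¬ Cfsg.pCore 2 G ≤ Subgroup.center G ∧ Cfsg.pCore 3 G ≤ Subgroup.center G ∧ Cfsg.layer G = ⊥) ∨ (Cfsg.pCore 2 G ≤ Subgroup.center G ∧ ¬ Cfsg.pCore 3 G ≤ Subgroup.center G ∧ Cfsg.layer G = ⊥) ∨ (Cfsg.pCore 2 G ≤ Subgroup.center G ∧ Cfsg.pCore 3 G ≤ Subgroup.center G ∧ Cfsg.layer G ≠ ⊥)) := by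
  refine ⟨fun p hp h3 => pCore_le_center_of_gt hD hp h3, ?_⟩
  by_cases h2 : Cfsg.pCore 2 G ≤ Subgroup.center G
  · by_cases h3 : Cfsg.pCore 3 G ≤ Subgroup.center G
    · exact Or.inr (Or.inr ⟨h2, h3, layer_ne_bot hD hD2 h2 h3⟩)
    · exact Or.inr (Or.inl ⟨h2, h3, layer_eq_bot_of_three hD h3⟩)
  · have h3 : Cfsg.pCore 3 G ≤ Subgroup.center G := by
      by_contra h3
      exact not_both hD h2 h3
    exact Or.inl ⟨h2, h3, layer_eq_bot_of_two hD h2⟩

end Cfsg.Agent.S5351
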