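import Cfsg.Statements.S5433
import Cfsg.Agent.Lib.Helper90.Basic

set_option autoImplicit false
open Cfsg
open Cfsg.Agent.Lib.Helper90

namespace Cfsg.Agent.S5433

theorem result {G : Type*} [Group G] [Finite G] (Q : Subgroup G) (hQ : Cfsg.IsLargeExtraspecial Q) (L : Subgroup G) [L.Normal] (hQL : Q ≤ L) : L ⊔ Subgroup.normalizer (Q : Set G) = ⊤ := by
  have : Fact (Nat.Prime 2) := ⟨Nat.prime_two⟩
  obtain ⟨hL1, hL2, hL3, -⟩ := hQ
  have hQ2 : IsPGroup 2 Q := hL1.1.1
  obtain ⟨z, hz1, hzQ, hzz, hzc, hZ⟩ := exists_center_gen Q hL1.2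
  have hQL2 : IsPGroup 2 (Q.subgroupOf L) := hQ2.comap_subtype
  obtain ⟨T, hT⟩ := hQL2.exists_le_sylow
  have hfr := Sylow.normalizer_sup_eq_top T
  obtain ⟨T', hT'⟩ : ∃ T' : Subgroup G, T' = (T : Subgroup L).map L.subtype := ⟨_, rfl⟩
  rw [← hT'] at hfr
  have hQT : Q ≤ T' := by
    intro q hq
    rw [hT']
    exact ⟨⟨q, hQL hq⟩, hT (Subgroup.mem_subgroupOf.mpr hq), rfl⟩
  have hT2 : IsPGroup 2 T' := by rw [hT']; exact T.2.map _
  have hnt : Nontrivial T' := ⟨⟨⟨z, hQT hzQ⟩, 1, fun h => hz1 (by simpa using congrArg Subtype.val h)⟩⟩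
  have hcen : ∀ t ∈ T', (∀ u ∈ T', u * t = t * u) → t = 1 ∨ t = z := by
    intro t _ hc
    have h1 : t ∈ Subgroup.centralizer (Q : Set G) := by
      rw [Subgroup.mem_centralizer_iff]
      intro q hq
      exact hc q (hQT hq)
    rw [hL2] at h1
    exact (hZ t).mp h1
  have hzT : ∀ u ∈ T', u * z = z * u := by
    have hcn := hT2.center_nontrivial
    obtain ⟨t, ht⟩ := exists_ne (1 : Subgroup.center T')
    have h1 : ∀ u ∈ T', u * ((t : T') : G) = ((t : T') : G) * u := by
      intro u hu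
      have := (Subgroup.mem_center_iff.mp t.2) ⟨u, hu⟩
      simpa using congrArg Subtype.val this
    rcases hcen _ (t : T').2 h1 with h2 | h2
    · exfalso
      apply ht
      ext
      simpa using h2
    · rw [h2] at h1; exact h1
  have hle : Subgroup.normalizer (T' : Set G) ≤ Subgroup.normalizer (Q : Set G) := by
    intro n hn
    apply hL3
    have hnz : n * z * n⁻¹ = z := by
      have h1 : n * z * n⁻¹ ∈ T' := (Subgroup.mem_normalizer_iff.mp hn z).mp (hQT hzQ)
      have h2 : ∀ u ∈ T', u * (n * z * n⁻¹) = (n * z * n⁻¹) * u := by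
        intro u hu
        have h3 : n⁻¹ * u * n ∈ T' := by
          rw [Subgroup.mem_normalizer_iff] at hn
          rw [hn]
          have e : n * (n⁻¹ * u * n) * n⁻¹ = u := by group
          rw [e]; exact hu
        have h4 := hzT _ h3
        calc u * (n * z * n⁻¹) = n * ((n⁻¹ * u * n) * z) * n⁻¹ := by group
          _ = n * (z * (n⁻¹ * u * n)) * n⁻¹ := by rw [h4]
          _ = _ := by group
      rcases hcen _ h1 h2 with h3 | h3
      · exfalso
        apply hz1
        have := congrArg (fun t => n⁻¹ * t * n) h3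
        simpa [mul_assoc] using this
      · exact h3
    rw [Subgroup.mem_centralizer_iff]
    intro y hy
    rcases (hZ y).mp hy with rfl | rfl
    · simp
    · have := congrArg (· * n) hnz
      simpa using this.symm
  rw [eq_top_iff, ← hfr, sup_comm]
  exact sup_le_sup_left hle L

end Cfsg.Agent.S5433
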