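import Cfsg.Statements.S0544
import Cfsg.Agent.Lib.Helper9.ComplementSystem

set_option autoImplicit false
open Cfsg

namespace Cfsg.Agent.S0544

open Subgroup Cfsg.Agent.Lib.Helper9

theorem relIndex_dvd_index_of_le_normalizer {G : Type*} [Group G] {K X : Subgroup G}
    (h : X ≤ normalizer (K : Set G)) : K.relIndex X ∣ K.index := by
  have h1 : (K.subgroupOf (normalizer (K : Set G))).relIndex (X.subgroupOf (normalizer (K : Set G)))
      ∣ (K.subgroupOf (normalizer (K : Set G))).index :=
    Subgroup.relIndex_dvd_index_of_normal _ _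
  rw [Subgroup.relIndex_subgroupOf h] at h1
  exact h1.trans (Subgroup.relIndex_dvd_index_of_le Subgroup.le_normalizer)

/-- In a finite solvable group the intersection of the normalizers of the members of a Hall complement system is a nilpotent subgroup. -/
theorem result {G : Type*} [Group G] [Finite G] [Group.IsSolvable G] (K : Nat.Primes → Subgroup G) (hK : Cfsg.IsComplementSystem K) : Group.IsNilpotent (Cfsg.systemNormalizer K) := by
  set D := Cfsg.systemNormalizer K with hD
  have hDN : ∀ q : Nat.Primes, D ≤ normalizer (K q : Set G) := fun q => iInf_le _ q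
  apply (Group.isNilpotent_of_finite_tfae (G := D)).out 3 0 |>.mp
  intro p hp P
  set R : Subgroup D := ⨅ q : {q : Nat.Primes // (q : ℕ) ≠ p}, (K q).subgroupOf D with hR
  have hRn : R.Normal := by
    apply Subgroup.normal_iInf_normal
    intro q
    exact Subgroup.normal_subgroupOf_of_le_normalizer (hDN q)
  have hRp : IsPGroup p R := by
    rw [IsPGroup.iff_orderOf]
    intro x
    refine ⟨_, Nat.eq_prime_pow_of_unique_prime_dvd (orderOf_pos x).ne' ?_⟩
    intro q hq hqx
    by_contra hne
    have hx : ((x : D) : G) ∈ K ⟨q, hq⟩ := by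
      have h0 : (x : D) ∈ ⨅ q : {q : Nat.Primes // (q : ℕ) ≠ p}, (K q).subgroupOf D := x.2
      rw [Subgroup.mem_iInf] at h0
      exact Subgroup.mem_subgroupOf.mp (h0 ⟨⟨q, hq⟩, hne⟩)
    have h1 : orderOf x ∣ Nat.card (K ⟨q, hq⟩) := by
      have h2 : orderOf x = orderOf (⟨((x : D) : G), hx⟩ : K ⟨q, hq⟩) := by
        rw [← Subgroup.orderOf_coe, ← Subgroup.orderOf_coe, ← Subgroup.orderOf_coe]
      rw [h2]
      exact orderOf_dvd_natCard _
    have h3 := complementSystem_card_coprime hK ⟨q, hq⟩
    exact hq.one_lt.ne' (Nat.eq_one_of_dvd_coprimes h3 (hqx.trans h1) dvd_rfl)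
  have hPR : (P : Subgroup D) ≤ R := by
    rw [hR]
    apply le_iInf
    intro q
    have hP' : IsPGroup p ((P : Subgroup D).map D.subtype) := P.isPGroup'.map _
    have hP'D : (P : Subgroup D).map D.subtype ≤ D := Subgroup.map_subtype_le _
    have h1 := relIndex_dvd_index_of_le_normalizer (hP'D.trans (hDN q))
    rw [hK q] at h1
    have h2 : (K q).relIndex ((P : Subgroup D).map D.subtype) ∣
        Nat.card ((P : Subgroup D).map D.subtype) := Subgroup.relIndex_dvd_card _ _
    obtain ⟨k, hk⟩ := (IsPGroup.iff_card).mp hP'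
    rw [hk] at h2
    have hcop : Nat.Coprime (((q : Nat.Primes) : ℕ) ^ (Nat.card G).factorization (q : Nat.Primes))
        (p ^ k) := by
      apply Nat.Coprime.pow
      rw [Nat.coprime_primes q.1.2 hp.out]
      exact q.2
    have h3 : (K q).relIndex ((P : Subgroup D).map D.subtype) = 1 :=
      Nat.eq_one_of_dvd_coprimes hcop h1 h2
    rw [Subgroup.relIndex_eq_one] at h3
    intro x hx
    rw [Subgroup.mem_subgroupOf]
    exact h3 (Subgroup.mem_map_of_mem _ hx)
  have := P.is_maximal' hRp hPR
  rw [← this]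
  exact hRn

end Cfsg.Agent.S0544
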