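import Cfsg.Statements.S0558
import Cfsg.Agent.S0557
import Cfsg.Agent.Lib.Helper10.SylowConj

set_option autoImplicit false
open Cfsg

namespace Cfsg.Agent.S0558

open Cfsg.Agent.Lib.Helper10
open scoped commutatorElement
open Pointwise

variable {G : Type*} [Group G] [Finite G]

theorem card_map_subtype (H : Subgroup G) (P : Subgroup H) :
    Nat.card (P.map H.subtype) = Nat.card P :=
  (Nat.card_congr (P.equivMapOfInjective _ H.subtype_injective).toEquiv).symm

theorem not_dvd_index_map (H : Subgroup G) (p : ℕ) [Fact p.Prime] (P : Sylow p H)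
    (h : Subgroup.normalizer (((P : Subgroup H).map H.subtype : Subgroup G) : Set G) = H) :
    ¬ p ∣ ((P : Subgroup H).map H.subtype).index := by
  set P' := (P : Subgroup H).map H.subtype with hP'
  have hc : Nat.card P' = p ^ (Nat.card H).factorization p := by
    rw [← P.card_eq_multiplicity]
    exact card_map_subtype H P
  have h1 := Sylow.card_quotient_normalizer_modEq_card_quotient hc
  have h2 : Nat.card (↥(Subgroup.normalizer (P' : Set G)) ⧸
      Subgroup.comap (Subgroup.normalizer (P' : Set G)).subtype P') =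
      P'.relIndex (Subgroup.normalizer (P' : Set G)) := rfl
  rw [h2, h] at h1
  have h3 : P'.relIndex H = (P : Subgroup H).index := by
    rw [Subgroup.relIndex, hP', Subgroup.subgroupOf,
      Subgroup.comap_map_eq_self_of_injective H.subtype_injective]
  intro hd
  apply P.not_dvd_index
  rw [← h3]
  exact (Nat.modEq_zero_iff_dvd.mp (h1.trans (Nat.modEq_zero_iff_dvd.mpr hd)))

theorem fusion (H P Q : Subgroup G) (q : ℕ) [Fact q.Prime] (hQ : IsPGroup q Q)
    (hQi : ¬ q ∣ Q.index)
    (hNQ : Subgroup.normalizer (Q : Set G) = H) (hPQ : Q ≤ Subgroup.centralizer (P : Set G))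
    (x u : G) (hx : x ∈ P) (hxu : u * x * u⁻¹ ∈ P) : ∃ h ∈ H, h * x * h⁻¹ = u * x * u⁻¹ := by
  set C := Subgroup.centralizer ({x} : Set G) with hC
  have hQC : Q ≤ C := by
    intro y hy
    rw [hC, Subgroup.mem_centralizer_singleton_iff]
    exact ((Subgroup.mem_centralizer_iff.mp (hPQ hy)) x hx).symm
  have hTC : MulAut.conj u⁻¹ • Q ≤ C := by
    intro y hy
    rw [mem_conj_smul_iff] at hy
    rw [hC, Subgroup.mem_centralizer_singleton_iff]
    have := ((Subgroup.mem_centralizer_iff.mp (hPQ hy)) _ hxu)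
    simp only [inv_inv] at this
    have h2 : u * (x * y) * u⁻¹ = u * (y * x) * u⁻¹ := by
      calc u * (x * y) * u⁻¹ = u * x * u⁻¹ * (u * y * u⁻¹) := by group
        _ = u * y * u⁻¹ * (u * x * u⁻¹) := this
        _ = u * (y * x) * u⁻¹ := by group
    have h3 := mul_left_cancel (mul_right_cancel h2)
    exact h3.symm
  have hTi : ¬ q ∣ (MulAut.conj u⁻¹ • Q : Subgroup G).index := by
    have : (MulAut.conj u⁻¹ • Q : Subgroup G).index = Q.index :=
      Subgroup.index_map_equiv Q (MulAut.conj u⁻¹)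
    rwa [this]
  obtain ⟨c, hc, hcQ⟩ := exists_conj_of_sylow_in (R := C) (q := q) hTC hQC
    (hQ.map (MulAut.conj u⁻¹).toMonoidHom) hQ
    (fun hd => hTi (hd.trans (Dvd.intro _ (Subgroup.relIndex_mul_index hTC))))
    (fun hd => hQi (hd.trans (Dvd.intro _ (Subgroup.relIndex_mul_index hQC))))
  have hmem : c * u⁻¹ ∈ H := by
    rw [← hNQ, ← conj_smul_eq_iff_mem_normalizer, map_mul, mul_smul]
    exact hcQ
  refine ⟨u * c⁻¹, ?_, ?_⟩
  · have := H.inv_mem hmem
    simpa using this
  · rw [hC, Subgroup.mem_centralizer_singleton_iff] at hc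
    have h4 : c⁻¹ * x * c = x := by
      rw [mul_assoc, ← hc]; group
    calc u * c⁻¹ * x * (u * c⁻¹)⁻¹ = u * (c⁻¹ * x * c) * u⁻¹ := by group
      _ = u * x * u⁻¹ := by rw [h4]

theorem focal_le (H P : Subgroup G)
    (hf : ∀ x u : G, x ∈ P → u * x * u⁻¹ ∈ P → ∃ h ∈ H, h * x * h⁻¹ = u * x * u⁻¹)
    (K : Subgroup G) (hK : K ≤ P) : K.focalSubgroup ≤ ⁅K, H⁆ := by
  rw [Subgroup.focalSubgroup_def, Subgroup.closure_le]
  rintro g ⟨hg, x, hx, u, rfl⟩
  have h1 : u * x * u⁻¹ ∈ K := by
    have := K.inv_mem (K.mul_mem (K.inv_mem hx) hg)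
    have he : (x⁻¹ * ⁅x, u⁆)⁻¹ = u * x * u⁻¹ := by
      rw [commutatorElement_def]; group
    rwa [he] at this
  obtain ⟨h, hh, he⟩ := hf x u (hK hx) (hK h1)
  have : ⁅x, u⁆ = ⁅x, h⁆ := by
    rw [commutatorElement_def, commutatorElement_def]
    calc x * u * x⁻¹ * u⁻¹ = x * (u * x * u⁻¹)⁻¹ := by group
      _ = x * (h * x * h⁻¹)⁻¹ := by rw [he]
      _ = x * h * x⁻¹ * h⁻¹ := by group
  rw [this]
  exact Subgroup.commutator_mem_commutator hx hh

theorem focal_iter_le (H P : Subgroup G) (hPH : P ≤ H)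
    (hf : ∀ x u : G, x ∈ P → u * x * u⁻¹ ∈ P → ∃ h ∈ H, h * x * h⁻¹ = u * x * u⁻¹) (n : ℕ) :
    (fun K : Subgroup G => Subgroup.focalSubgroup K)^[n] P ≤
      H.lowerCentralSeries n := by
  induction n with
  | zero =>
    exact hPH
  | succ n ih =>
    rw [Function.iterate_succ_apply']
    have hle : (fun K : Subgroup G => Subgroup.focalSubgroup K)^[n] P ≤ P := by
      clear ih
      induction n with
      | zero => exact le_rfl
      | succ n ih =>
        rw [Function.iterate_succ_apply']
        exact (Subgroup.focalSubgroup_le _).trans ih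
    refine (focal_le H P hf _ hle).trans ?_
    rw [Subgroup.lowerCentralSeries_succ]
    exact Subgroup.commutator_mono ih le_rfl

theorem sylow_normal (H : Subgroup G)
    (hnorm : ∀ p : ℕ, p.Prime → p ∣ Nat.card H → ∀ P : Sylow p H,
      Subgroup.normalizer (((P : Subgroup H).map H.subtype : Subgroup G) : Set G) = H)
    (p : ℕ) [hp : Fact p.Prime] (P : Sylow p H) : (P : Subgroup H).Normal := by
  by_cases hd : p ∣ Nat.card H
  · have h := hnorm p hp.out hd P
    have h1 : ((P : Subgroup H).map H.subtype).subgroupOf H = P := by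
      rw [Subgroup.subgroupOf, Subgroup.comap_map_eq_self_of_injective H.subtype_injective]
    rw [← h1]
    rw [Subgroup.normal_subgroupOf_iff_le_normalizer (Subgroup.map_subtype_le _), h]
  · have : (P : Subgroup H) = ⊥ := by
      rw [← Subgroup.card_eq_one, P.card_eq_multiplicity, Nat.factorization_eq_zero_of_not_dvd hd,
        pow_zero]
    rw [this]; infer_instance

theorem exists_compl_sylow (H : Subgroup G)
    (hnot : ∀ p : ℕ, p.Prime → ∀ P : Sylow p G, (P : Subgroup G) ≠ H)
    (hnorm : ∀ p : ℕ, p.Prime → p ∣ Nat.card H → ∀ P : Sylow p H,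
      Subgroup.normalizer (((P : Subgroup H).map H.subtype : Subgroup G) : Set G) = H)
    (p : ℕ) [hp : Fact p.Prime] (hpd : p ∣ Nat.card H) (P : Sylow p H) :
    ∃ N : Subgroup G, N.Normal ∧ Subgroup.IsComplement' N ((P : Subgroup H).map H.subtype) := by
  have hnil : Group.IsNilpotent H := by
    apply (Group.isNilpotent_of_finite_tfae (G := H)).out 3 0 |>.mp
    intro r hr R
    exact sylow_normal H hnorm r R
  set P' := (P : Subgroup H).map H.subtype with hP'
  have hP'p : IsPGroup p P' := P.2.map _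
  have hP'i : ¬ p ∣ P'.index := not_dvd_index_map H p P (hnorm p hp.out hpd P)
  -- another prime
  have hq : ∃ q : ℕ, q.Prime ∧ q ≠ p ∧ q ∣ Nat.card H := by
    by_contra hcon
    push Not at hcon
    apply hnot p hp.out (hP'p.toSylow hP'i)
    show P' = H
    apply Subgroup.eq_of_le_of_card_ge (Subgroup.map_subtype_le _)
    rw [card_map_subtype, P.card_eq_multiplicity]
    apply le_of_eq
    have hne : Nat.card H ≠ 0 := Nat.card_pos.ne'
    conv_lhs => rw [← Nat.prod_factorization_pow_eq_self hne]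
    rw [Finsupp.prod, Finset.prod_eq_single p]
    · intro b hb hbp
      exfalso
      rw [Nat.support_factorization, Nat.mem_primeFactors] at hb
      by_contra _
      exact hcon b hb.1 hbp hb.2.1
    · intro hb
      rw [Finsupp.notMem_support_iff] at hb
      rw [hb, pow_zero]
  obtain ⟨q, hqp, hqne, hqd⟩ := hq
  have : Fact q.Prime := ⟨hqp⟩
  obtain ⟨Q⟩ : Nonempty (Sylow q H) := inferInstance
  set Q' := (Q : Subgroup H).map H.subtype with hQ'
  have hQ'p : IsPGroup q Q' := Q.2.map _
  have hQ'i : ¬ q ∣ Q'.index := not_dvd_index_map H q Q (hnorm q hqp hqd Q)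
  have hcomm : Q' ≤ Subgroup.centralizer (P' : Set G) := by
    rintro _ ⟨y, hy, rfl⟩
    rw [Subgroup.mem_centralizer_iff]
    rintro _ ⟨x, hx, rfl⟩
    have := Subgroup.commute_of_normal_of_disjoint (P : Subgroup H) (Q : Subgroup H)
      (sylow_normal H hnorm p P) (sylow_normal H hnorm q Q)
      (IsPGroup.disjoint_of_ne p q hqne.symm _ _ P.2 Q.2) x y hx hy
    exact congrArg H.subtype this
  have hf := fusion H P' Q' q hQ'p hQ'i (hnorm q hqp hqd Q) hcomm
  obtain ⟨n, hn⟩ := (Subgroup.isNilpotent_iff_lowerCentralSeries H).mp hnil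
  apply Cfsg.Agent.S0557.result P' ?_ n ?_
  · obtain ⟨k, hk⟩ := IsPGroup.iff_card.mp hP'p
    rw [hk]
    exact Nat.Coprime.pow_left _ ((Nat.Prime.coprime_iff_not_dvd hp.out).mpr hP'i)
  · rw [eq_bot_iff]
    refine (focal_iter_le H P' (Subgroup.map_subtype_le _) hf n).trans ?_
    rw [hn]

/-- Let H be a subgroup of a finite group G that is not a Sylow subgroup of G for any prime, and suppose that for every prime p dividing the order of H and every Sylow p-subgroup P of H the normalizer of P in G is exactly H. Then some normal subgroup of G is a complement to H. -/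
theorem result {G : Type*} [Group G] [Finite G] (H : Subgroup G) (hnot : ∀ p : ℕ, p.Prime → ∀ P : Sylow p G, (P : Subgroup G) ≠ H) (hnorm : ∀ p : ℕ, p.Prime → p ∣ Nat.card H → ∀ P : Sylow p H, Subgroup.normalizer (((P : Subgroup H).map H.subtype : Subgroup G) : Set G) = H) : ∃ N : Subgroup G, N.Normal ∧ Subgroup.IsComplement' N H := by
  classical
  have hex : ∀ p : (Nat.card H).primeFactors, ∃ N : Subgroup G, N.Normal ∧
      N.index = (p : ℕ) ^ (Nat.card H).factorization p ∧ ¬ (p : ℕ) ∣ Nat.card N := by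
    rintro ⟨p, hp⟩
    rw [Nat.mem_primeFactors] at hp
    have : Fact p.Prime := ⟨hp.1⟩
    obtain ⟨P⟩ : Nonempty (Sylow p H) := inferInstance
    obtain ⟨N, hN, hc⟩ := exists_compl_sylow H hnot hnorm p hp.2.1 P
    refine ⟨N, hN, ?_, ?_⟩
    · rw [hc.symm.index_eq_card, card_map_subtype, P.card_eq_multiplicity]
    · rw [← hc.index_eq_card]
      exact not_dvd_index_map H p P (hnorm p hp.1 hp.2.1 P)
  choose N hN hNi hNc using hex
  refine ⟨⨅ p, N p, Subgroup.normal_iInf_normal hN, ?_⟩
  have hdisj : Disjoint (⨅ p, N p) H := by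
    rw [Subgroup.disjoint_def]
    intro x hxN hxH
    by_contra hx1
    obtain ⟨p, hp, hpd⟩ := Nat.exists_prime_and_dvd (n := orderOf x)
      (by rwa [Ne, orderOf_eq_one_iff])
    have hpH : p ∣ Nat.card H := hpd.trans (Subgroup.orderOf_dvd_natCard H hxH)
    have hmem : p ∈ (Nat.card H).primeFactors :=
      Nat.mem_primeFactors.mpr ⟨hp, hpH, Nat.card_pos.ne'⟩
    apply hNc ⟨p, hmem⟩
    exact hpd.trans (Subgroup.orderOf_dvd_natCard _ ((Subgroup.mem_iInf.mp hxN) ⟨p, hmem⟩))
  have h1 : (⨅ p, N p).index ≤ Nat.card H := by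
    refine (Subgroup.index_iInf_le N).trans (le_of_eq ?_)
    simp_rw [hNi]
    conv_rhs => rw [← Nat.prod_factorization_pow_eq_self (Nat.card_pos (α := H)).ne']
    rw [Finsupp.prod, Nat.support_factorization]
    exact Finset.prod_coe_sort (Nat.card H).primeFactors
      (fun p => p ^ (Nat.card H).factorization p)
  have h2 : Nat.card (⨅ p, N p : Subgroup G) * Nat.card H ≤ Nat.card G := by
    have := card_mul_card_le (⨅ p, N p) H
    rw [disjoint_iff.mp hdisj, Subgroup.card_bot, mul_one] at this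
    exact this.trans (Subgroup.card_le_card_group _)
  have h3 : Nat.card G ≤ Nat.card (⨅ p, N p : Subgroup G) * Nat.card H := by
    rw [← Subgroup.card_mul_index (⨅ p, N p)]
    exact Nat.mul_le_mul_left _ h1
  exact Subgroup.isComplement'_of_card_mul_and_disjoint (le_antisymm h2 h3) hdisj

end Cfsg.Agent.S0558
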