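import Cfsg.Statements.S0561
import Cfsg.Agent.S0004
import Cfsg.Agent.S0005
import Cfsg.Agent.S0559
import Cfsg.Agent.Lib.Helper10.SylowConj

set_option autoImplicit false
open Pointwise
open Cfsg

namespace Cfsg.Agent.S0561

open Cfsg.Agent.Lib.Helper10

theorem coprime_lcm {N a b : ℕ} (ha : a ∣ N) (hb : b ∣ N)
    (ha' : a.Coprime (N / a)) (hb' : b.Coprime (N / b)) (hN : 0 < N) :
    (Nat.lcm a b).Coprime (N / Nat.lcm a b) := by
  have hm : Nat.lcm a b ∣ N := Nat.lcm_dvd ha hb
  obtain ⟨n, hn⟩ := hm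
  have hmpos : 0 < Nat.lcm a b := Nat.pos_of_ne_zero (by rintro h; rw [h] at hn; omega)
  have hdiv : N / Nat.lcm a b = n := by rw [hn]; exact Nat.mul_div_cancel_left _ hmpos
  rw [hdiv]
  have h1 : a.Coprime n := by
    apply Nat.Coprime.coprime_dvd_right _ ha'
    obtain ⟨c, hc⟩ := Nat.dvd_lcm_left a b
    have hapos : 0 < a := Nat.pos_of_ne_zero (by rintro h; rw [h] at ha; simp at ha; omega)
    refine ⟨c, ?_⟩
    rw [hn, hc, mul_assoc, Nat.mul_div_cancel_left _ hapos, mul_comm]
  have h2 : b.Coprime n := by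
    apply Nat.Coprime.coprime_dvd_right _ hb'
    obtain ⟨c, hc⟩ := Nat.dvd_lcm_right a b
    have hbpos : 0 < b := Nat.pos_of_ne_zero (by rintro h; rw [h] at hb; simp at hb; omega)
    refine ⟨c, ?_⟩
    rw [hn, hc, mul_assoc, Nat.mul_div_cancel_left _ hbpos, mul_comm]
  exact Nat.Coprime.coprime_dvd_left (Nat.lcm_dvd_mul a b) (Nat.Coprime.mul_left h1 h2)

theorem main {G : Type*} [Group G] [Finite G] [Group.IsSolvable G] (H K A B : Subgroup G)
    (hHK : ∀ g : G, ∃ h ∈ H, ∃ k ∈ K, g = h * k) (hA : A ≤ H) (hAn : (A.subgroupOf H).Normal)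
    (hB : B ≤ K) (hBn : (B.subgroupOf K).Normal) (hAh : (Nat.card A).Coprime A.index)
    (hBh : (Nat.card B).Coprime B.index) :
    ∃ S : Subgroup G, (S : Set G) = (A : Set G) * (B : Set G) := by
  rw [Subgroup.normal_subgroupOf_iff_le_normalizer hA] at hAn
  rw [Subgroup.normal_subgroupOf_iff_le_normalizer hB] at hBn
  set a := Nat.card A with ha
  set b := Nat.card B with hb
  have hNpos : 0 < Nat.card G := Nat.card_pos
  have hapos : 0 < a := Nat.card_pos
  have hbpos : 0 < b := Nat.card_pos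
  have haN : a ∣ Nat.card G := Subgroup.card_subgroup_dvd_card A
  have hbN : b ∣ Nat.card G := Subgroup.card_subgroup_dvd_card B
  have hai : A.index = Nat.card G / a := by
    rw [← Subgroup.card_mul_index A, Nat.mul_div_cancel_left _ hapos]
  have hbi : B.index = Nat.card G / b := by
    rw [← Subgroup.card_mul_index B, Nat.mul_div_cancel_left _ hbpos]
  rw [hai] at hAh
  rw [hbi] at hBh
  have hcop := coprime_lcm haN hbN hAh hBh hNpos
  set m := Nat.lcm a b with hm
  set n := Nat.card G / m with hn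
  have hG : Nat.card G = m * n := (Nat.mul_div_cancel' (Nat.lcm_dvd haN hbN)).symm
  have han : a.Coprime n := Nat.Coprime.coprime_dvd_left (Nat.dvd_lcm_left a b) hcop
  have hbn : b.Coprime n := Nat.Coprime.coprime_dvd_left (Nat.dvd_lcm_right a b) hcop
  obtain ⟨S₁, hS₁, hAS₁⟩ := Cfsg.Agent.S0005.result m n hG hcop A han
  obtain ⟨S₂, hS₂, hBS₂⟩ := Cfsg.Agent.S0005.result m n hG hcop B hbn
  obtain ⟨g, hg⟩ := Cfsg.Agent.S0004.result m n hG hcop S₁ S₂ hS₁ hS₂
  obtain ⟨h, hh, k, hk, hgk⟩ := hHK g⁻¹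
  have hg' : g = k⁻¹ * h⁻¹ := by
    rw [← inv_inv g, hgk]; group
  set S : Subgroup G := MulAut.conj h⁻¹ • S₁ with hS
  have hAS : A ≤ S := by
    have h1 : MulAut.conj h⁻¹ • A = A :=
      (conj_smul_eq_iff_mem_normalizer A h⁻¹).mpr (hAn (H.inv_mem hh))
    rw [← h1, hS]
    exact Subgroup.pointwise_smul_le_pointwise_smul_iff.mpr hAS₁
  have hBS : B ≤ S := by
    have h1 : MulAut.conj k • B = B :=
      (conj_smul_eq_iff_mem_normalizer B k).mpr (hBn hk)
    have h2 : MulAut.conj k • S₂ = S := by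
      rw [← hg, hg', hS, map_mul, mul_smul, smul_smul, ← map_mul, mul_inv_cancel, map_one, one_smul]
    rw [← h1, ← h2]
    exact Subgroup.pointwise_smul_le_pointwise_smul_iff.mpr hBS₂
  have hScard : Nat.card S = m := by rw [hS, card_conj_smul, hS₁]
  refine ⟨S, ?_⟩
  symm
  have hsub : (A : Set G) * (B : Set G) ⊆ (S : Set G) := by
    rintro _ ⟨x, hx, y, hy, rfl⟩
    exact S.mul_mem (hAS hx) (hBS hy)
  apply Set.eq_of_subset_of_ncard_le hsub _ (Set.toFinite _)
  rw [← Nat.card_coe_set_eq, ← Nat.card_coe_set_eq]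
  have h3 := card_mul_set_mul_card_inf A B
  have h4 : Nat.card (A ⊓ B : Subgroup G) ∣ Nat.gcd a b :=
    Nat.dvd_gcd (Subgroup.card_dvd_of_le inf_le_left) (Subgroup.card_dvd_of_le inf_le_right)
  have h5 : Nat.card (A ⊓ B : Subgroup G) ≤ Nat.gcd a b :=
    Nat.le_of_dvd (Nat.gcd_pos_of_pos_left _ hapos) h4
  have h6 : Nat.gcd a b * m = a * b := Nat.gcd_mul_lcm a b
  have h7 : Nat.card (S : Set G) = m := hScard
  rw [h7]
  by_contra hlt
  push Not at hlt
  have h8 : Nat.card ((A : Set G) * (B : Set G) : Set G) * Nat.card (A ⊓ B : Subgroup G) <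
      m * Nat.gcd a b := by
    calc Nat.card ((A : Set G) * (B : Set G) : Set G) * Nat.card (A ⊓ B : Subgroup G)
        ≤ Nat.card ((A : Set G) * (B : Set G) : Set G) * Nat.gcd a b := Nat.mul_le_mul_left _ h5
      _ < m * Nat.gcd a b := Nat.mul_lt_mul_of_pos_right hlt (Nat.gcd_pos_of_pos_left _ hapos)
  rw [h3, mul_comm m, h6] at h8
  exact lt_irrefl _ h8

/-- Let the finite solvable group G be the product HK of subgroups, and let A be normal in H and B normal in K, where A and B are Hall subgroups of G (order coprime to index). Then for all x, y the product set of xAx⁻¹ and yBy⁻¹ is a subgroup of G. -/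
theorem result {G : Type*} [Group G] [Finite G] [Group.IsSolvable G] (H K A B : Subgroup G) (hHK : ∀ g : G, ∃ h ∈ H, ∃ k ∈ K, g = h * k) (hA : A ≤ H) (hAn : (A.subgroupOf H).Normal) (hB : B ≤ K) (hBn : (B.subgroupOf K).Normal) (hAh : (Nat.card A).Coprime A.index) (hBh : (Nat.card B).Coprime B.index) (x y : G) : ∃ S : Subgroup G, (S : Set G) = ((MulAut.conj x • A : Subgroup G) : Set G) * ((MulAut.conj y • B : Subgroup G) : Set G) := by
  have h1 := (Cfsg.Agent.S0559.result H K (MulAut.conj x • H) (MulAut.conj y • K) hHK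
    ⟨x, rfl⟩ ⟨y, rfl⟩).1
  have hidx : ∀ (z : G) (C : Subgroup G), (MulAut.conj z • C : Subgroup G).index = C.index :=
    fun z C => Subgroup.index_map_equiv C (MulAut.conj z)
  have hA' : MulAut.conj x • A ≤ MulAut.conj x • H :=
    Subgroup.pointwise_smul_le_pointwise_smul_iff.mpr hA
  have hB' : MulAut.conj y • B ≤ MulAut.conj y • K :=
    Subgroup.pointwise_smul_le_pointwise_smul_iff.mpr hB
  rw [Subgroup.normal_subgroupOf_iff_le_normalizer hA] at hAn
  rw [Subgroup.normal_subgroupOf_iff_le_normalizer hB] at hBn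
  apply main (MulAut.conj x • H) (MulAut.conj y • K) _ _ h1 hA' _ hB'
  · rw [Subgroup.normal_subgroupOf_iff_le_normalizer hB', ← conj_smul_normalizer]
    exact Subgroup.pointwise_smul_le_pointwise_smul_iff.mpr hBn
  · rw [card_conj_smul, hidx]; exact hAh
  · rw [card_conj_smul, hidx]; exact hBh
  · rw [Subgroup.normal_subgroupOf_iff_le_normalizer hA', ← conj_smul_normalizer]
    exact Subgroup.pointwise_smul_le_pointwise_smul_iff.mpr hAn

end Cfsg.Agent.S0561
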