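import Cfsg.Statements.S0562
import Mathlib

set_option autoImplicit false
open Cfsg

namespace Cfsg.Agent.S0562

open Pointwise in
theorem conj_smul_eq_of_le {G : Type*} [Group G] [Finite G] (J : Subgroup G) (g : G)
    (h : J ≤ MulAut.conj g • J) : g ∈ Subgroup.normalizer (J : Set G) := by
  rw [Subgroup.mem_normalizer_iff_map_conj_eq]
  have hc : Nat.card (MulAut.conj g • J : Subgroup G) = Nat.card J := (Nat.card_congr (Subgroup.equivSMul (MulAut.conj g) J).toEquiv).symm
  have := Subgroup.eq_of_le_of_card_ge h (by rw [hc])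
  exact this.symm

/-- Let the finite group G be the product HK of subgroups, A normal in H, B normal in K, and L the normalizer of the subgroup generated by A and B. Then every element of L is a product of an element of L ∩ H and an element of L ∩ K. -/
theorem result {G : Type*} [Group G] [Finite G] (H K A B : Subgroup G) (hHK : ∀ g : G, ∃ h ∈ H, ∃ k ∈ K, g = h * k) (hA : A ≤ H) (hAn : (A.subgroupOf H).Normal) (hB : B ≤ K) (hBn : (B.subgroupOf K).Normal) : ∀ g ∈ Subgroup.normalizer ((A ⊔ B : Subgroup G) : Set G), ∃ h ∈ Subgroup.normalizer ((A ⊔ B : Subgroup G) : Set G) ⊓ H, ∃ k ∈ Subgroup.normalizer ((A ⊔ B : Subgroup G) : Set G) ⊓ K, g = h * k := by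
  open Pointwise in
  intro g hg
  obtain ⟨h, hh, k, hk, rfl⟩ := hHK g
  have hHA : H ≤ Subgroup.normalizer (A : Set G) := (Subgroup.normal_subgroupOf_iff_le_normalizer hA).mp hAn
  have hKB : K ≤ Subgroup.normalizer (B : Set G) := (Subgroup.normal_subgroupOf_iff_le_normalizer hB).mp hBn
  have e1 : MulAut.conj (h * k) • (A ⊔ B) = A ⊔ B := Subgroup.mem_normalizer_iff_map_conj_eq.mp hg
  have e2 : MulAut.conj k • (A ⊔ B) = MulAut.conj h⁻¹ • (A ⊔ B) := by
    rw [map_mul, mul_smul] at e1
    rw [map_inv, eq_inv_smul_iff, e1]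
  have eB : MulAut.conj k • B = B := Subgroup.mem_normalizer_iff_map_conj_eq.mp (hKB hk)
  have eA : MulAut.conj h⁻¹ • A = A := Subgroup.mem_normalizer_iff_map_conj_eq.mp (hHA (inv_mem hh))
  have hkN : k ∈ Subgroup.normalizer ((A ⊔ B : Subgroup G) : Set G) := by
    apply conj_smul_eq_of_le
    apply sup_le
    · rw [e2, Subgroup.smul_sup, eA]; exact le_sup_left
    · rw [Subgroup.smul_sup, eB]; exact le_sup_right
  have hhN : h ∈ Subgroup.normalizer ((A ⊔ B : Subgroup G) : Set G) := by
    have := mul_mem hg (inv_mem hkN)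
    simpa using this
  exact ⟨h, ⟨hhN, hh⟩, k, ⟨hkN, hk⟩, rfl⟩

end Cfsg.Agent.S0562
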