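import Cfsg.Statements.S0566
import Cfsg.Agent.Lib.Helper10.Card

set_option autoImplicit false
open Pointwise
open Cfsg

namespace Cfsg.Agent.S0566

open Cfsg.Agent.Lib.Helper10

variable {G : Type*} [Group G]

/-- if `H * K` is a subgroup then `K * H ⊆ H * K`. -/
theorem perm_of_subgroup {H K S : Subgroup G} (h : (S : Set G) = (H : Set G) * K) :
    ∀ k ∈ K, ∀ x ∈ H, k * x ∈ (H : Set G) * K := by
  intro k hk x hx
  rw [← h]
  have h1 : x⁻¹ * k⁻¹ ∈ (S : Set G) := by
    rw [h]; exact Set.mul_mem_mul (H.inv_mem hx) (K.inv_mem hk)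
  have := S.inv_mem h1
  simpa using this

/-- if `K * H ⊆ H * K` then `H * K` is a subgroup. -/
def mulSub (H K : Subgroup G) (h : ∀ k ∈ K, ∀ x ∈ H, k * x ∈ (H : Set G) * K) : Subgroup G where
  carrier := (H : Set G) * K
  one_mem' := ⟨1, H.one_mem, 1, K.one_mem, by simp⟩
  mul_mem' := by
    rintro _ _ ⟨a, ha, b, hb, rfl⟩ ⟨c, hc, d, hd, rfl⟩
    obtain ⟨c', hc', b', hb', he⟩ := h b hb c hc
    refine ⟨a * c', H.mul_mem ha hc', b' * d, K.mul_mem hb' hd, ?_⟩
    simp only at he ⊢
    calc a * c' * (b' * d) = a * (c' * b') * d := by group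
      _ = a * (b * c) * d := by rw [he]
      _ = a * b * (c * d) := by group
  inv_mem' := by
    rintro _ ⟨a, ha, b, hb, rfl⟩
    have := h b⁻¹ (K.inv_mem hb) a⁻¹ (H.inv_mem ha)
    simpa using this

theorem perm_sup {H₁ H₂ K : Subgroup G}
    (h₁ : ∀ k ∈ K, ∀ x ∈ H₁, k * x ∈ (H₁ : Set G) * K)
    (h₂ : ∀ k ∈ K, ∀ x ∈ H₂, k * x ∈ (H₂ : Set G) * K) :
    ∀ k ∈ K, ∀ x ∈ H₁ ⊔ H₂, k * x ∈ ((H₁ ⊔ H₂ : Subgroup G) : Set G) * K := by
  have key : ∀ x ∈ H₁ ⊔ H₂, (∀ k ∈ K, k * x ∈ ((H₁ ⊔ H₂ : Subgroup G) : Set G) * K) ∧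
      (∀ k ∈ K, k * x⁻¹ ∈ ((H₁ ⊔ H₂ : Subgroup G) : Set G) * K) := by
    intro x hx
    rw [Subgroup.sup_eq_closure] at hx
    induction hx using Subgroup.closure_induction with
    | mem x hx =>
      rcases hx with hx | hx
      · constructor
        · intro k hk
          obtain ⟨a, ha, b, hb, he⟩ := h₁ k hk x hx
          exact ⟨a, (le_sup_left : H₁ ≤ H₁ ⊔ H₂) ha, b, hb, he⟩
        · intro k hk
          obtain ⟨a, ha, b, hb, he⟩ := h₁ k hk x⁻¹ (H₁.inv_mem hx)
          exact ⟨a, (le_sup_left : H₁ ≤ H₁ ⊔ H₂) ha, b, hb, he⟩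
      · constructor
        · intro k hk
          obtain ⟨a, ha, b, hb, he⟩ := h₂ k hk x hx
          exact ⟨a, (le_sup_right : H₂ ≤ H₁ ⊔ H₂) ha, b, hb, he⟩
        · intro k hk
          obtain ⟨a, ha, b, hb, he⟩ := h₂ k hk x⁻¹ (H₂.inv_mem hx)
          exact ⟨a, (le_sup_right : H₂ ≤ H₁ ⊔ H₂) ha, b, hb, he⟩
    | one =>
      constructor
      · intro k hk
        exact ⟨1, Subgroup.one_mem _, k, hk, by simp⟩
      · intro k hk
        exact ⟨1, Subgroup.one_mem _, k, hk, by simp⟩
    | mul x y _ _ ihx ihy =>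
      constructor
      · intro k hk
        obtain ⟨a, ha, b, hb, he⟩ := ihx.1 k hk
        obtain ⟨c, hc, d, hd, he'⟩ := ihy.1 b hb
        refine ⟨a * c, Subgroup.mul_mem _ ha hc, d, hd, ?_⟩
        simp only at he he' ⊢
        calc a * c * d = a * (c * d) := by group
          _ = a * (b * y) := by rw [he']
          _ = (a * b) * y := by group
          _ = k * (x * y) := by rw [he]; group
      · intro k hk
        obtain ⟨a, ha, b, hb, he⟩ := ihy.2 k hk
        obtain ⟨c, hc, d, hd, he'⟩ := ihx.2 b hb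
        refine ⟨a * c, Subgroup.mul_mem _ ha hc, d, hd, ?_⟩
        simp only at he he' ⊢
        calc a * c * d = a * (c * d) := by group
          _ = a * (b * x⁻¹) := by rw [he']
          _ = (a * b) * x⁻¹ := by group
          _ = k * (x * y)⁻¹ := by rw [he]; group
    | inv x _ ih =>
      refine ⟨ih.2, ?_⟩
      rw [inv_inv]
      exact ih.1
  intro k hk x hx
  exact (key x hx).1 k hk

theorem aux [Finite G] (B : Subgroup G) (A : Subgroup G) :
    (∀ x : G, ∃ S : Subgroup G, S ≠ ⊤ ∧
      (S : Set G) = (A : Set G) * ((MulAut.conj x • B : Subgroup G) : Set G)) →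
    ∃ N : Subgroup G, N.Normal ∧ N ≠ ⊤ ∧ (A ≤ N ∨ B ≤ N) := by
  induction A using WellFoundedGT.induction with
  | ind A ih =>
    intro h
    by_cases hBn : Subgroup.normalClosure (B : Set G) = ⊤
    swap
    · exact ⟨_, Subgroup.normalClosure_normal, hBn, Or.inr Subgroup.le_normalClosure⟩
    by_cases hAn : A.Normal
    · refine ⟨A, hAn, ?_, Or.inl le_rfl⟩
      intro hA
      obtain ⟨S, hS, hSe⟩ := h 1
      apply hS
      rw [eq_top_iff]
      intro y _
      have : y ∈ (S : Set G) := by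
        rw [hSe]
        exact ⟨y, by rw [hA]; trivial, 1, Subgroup.one_mem _, by simp⟩
      exact this
    -- some conjugate of `B` is not in the normalizer
    have hex : ∃ x : G, ¬ (MulAut.conj x • B : Subgroup G) ≤ Subgroup.normalizer (A : Set G) := by
      by_contra hcon
      push Not at hcon
      apply hAn
      rw [← Subgroup.normalizer_eq_top_iff, eq_top_iff, ← hBn]
      rw [Subgroup.normalClosure, Subgroup.closure_le]
      intro y hy
      rw [Group.mem_conjugatesOfSet_iff] at hy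
      obtain ⟨b, hb, hby⟩ := hy
      rw [isConj_iff] at hby
      obtain ⟨c, rfl⟩ := hby
      apply hcon c
      rw [mem_conj_smul_iff]
      have : c⁻¹ * (c * b * c⁻¹) * c = b := by group
      rw [this]; exact hb
    obtain ⟨x, hx⟩ := hex
    obtain ⟨b, hbx, hbN⟩ := SetLike.not_le_iff_exists.mp hx
    obtain ⟨S, hS, hSe⟩ := h x
    have hAS : A ≤ S := by
      intro a ha
      have : a ∈ (S : Set G) := by
        rw [hSe]; exact ⟨a, ha, 1, Subgroup.one_mem _, by simp⟩
      exact this
    have hBS : (MulAut.conj x • B : Subgroup G) ≤ S := by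
      intro a ha
      have : a ∈ (S : Set G) := by
        rw [hSe]; exact ⟨1, Subgroup.one_mem _, a, ha, by simp⟩
      exact this
    set A₁ : Subgroup G := A ⊔ MulAut.conj b • A with hA₁
    have hlt : A < A₁ := by
      refine lt_of_le_of_ne le_sup_left ?_
      intro he
      apply hbN
      rw [← conj_smul_eq_iff_mem_normalizer]
      have hle : MulAut.conj b • A ≤ A := le_sup_right.trans he.ge
      exact Subgroup.eq_of_le_of_card_ge hle (by rw [card_conj_smul])
    have hA₁S : A₁ ≤ S := by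
      refine sup_le hAS ?_
      intro y hy
      rw [mem_conj_smul_iff] at hy
      have := S.mul_mem (S.mul_mem (hBS hbx) (hAS hy)) (S.inv_mem (hBS hbx))
      have he : b * (b⁻¹ * y * b) * b⁻¹ = y := by group
      rwa [he] at this
    have hperm : ∀ g : G, ∀ k ∈ (MulAut.conj g • B : Subgroup G), ∀ y ∈ A₁,
        k * y ∈ (A₁ : Set G) * ((MulAut.conj g • B : Subgroup G) : Set G) := by
      intro g
      apply perm_sup
      · obtain ⟨T, _, hT⟩ := h g
        exact perm_of_subgroup hT
      · obtain ⟨T, _, hT⟩ := h (b⁻¹ * g)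
        have hp := perm_of_subgroup hT
        intro k hk y hy
        rw [mem_conj_smul_iff] at hy hk
        obtain ⟨c, hc, d, hd, he⟩ := hp (b⁻¹ * k * b) (by
          rw [mem_conj_smul_iff]
          have : (b⁻¹ * g)⁻¹ * (b⁻¹ * k * b) * (b⁻¹ * g) = g⁻¹ * k * g := by group
          rw [this]; exact hk) _ hy
        refine ⟨b * c * b⁻¹, ?_, b * d * b⁻¹, ?_, ?_⟩
        · show _ ∈ (MulAut.conj b • A : Subgroup G)
          rw [mem_conj_smul_iff]
          have : b⁻¹ * (b * c * b⁻¹) * b = c := by group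
          rw [this]; exact hc
        · show _ ∈ (MulAut.conj g • B : Subgroup G)
          rw [mem_conj_smul_iff]
          have hd' : d ∈ (MulAut.conj (b⁻¹ * g) • B : Subgroup G) := hd
          rw [mem_conj_smul_iff] at hd'
          have : g⁻¹ * (b * d * b⁻¹) * g = (b⁻¹ * g)⁻¹ * d * (b⁻¹ * g) := by group
          rw [this]; exact hd'
        · simp only at he ⊢
          calc b * c * b⁻¹ * (b * d * b⁻¹) = b * (c * d) * b⁻¹ := by group
            _ = b * (b⁻¹ * k * b * (b⁻¹ * y * b)) * b⁻¹ := by rw [he]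
            _ = k * y := by group
    obtain ⟨N, hN, hNt, hN'⟩ := ih A₁ hlt (by
      intro g
      refine ⟨mulSub A₁ _ (hperm g), ?_, rfl⟩
      intro htop
      apply hS
      -- `G = A₁ * B^g`
      have hall : ∀ y : G, y ∈ (A₁ : Set G) * ((MulAut.conj g • B : Subgroup G) : Set G) := by
        intro y
        have : y ∈ mulSub A₁ _ (hperm g) := by rw [htop]; trivial
        exact this
      obtain ⟨s, hs, c, hc, hsc⟩ := hall (x * g⁻¹)
      simp only at hsc
      have hc' : c ∈ (MulAut.conj g • B : Subgroup G) := hc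
      -- `B^g ≤ S`
      have hBgS : (MulAut.conj g • B : Subgroup G) ≤ S := by
        intro y hy
        -- `s * y * s⁻¹ ∈ B^x`
        have h1 : s * y * s⁻¹ ∈ (MulAut.conj x • B : Subgroup G) := by
          rw [mem_conj_smul_iff]
          have hxs : x = s * c * g := by rw [hsc]; group
          have h2 : c⁻¹ * y * c ∈ (MulAut.conj g • B : Subgroup G) :=
            Subgroup.mul_mem _ (Subgroup.mul_mem _ (Subgroup.inv_mem _ hc') hy) hc'
          rw [mem_conj_smul_iff] at h2
          have : x⁻¹ * (s * y * s⁻¹) * x = g⁻¹ * (c⁻¹ * y * c) * g := by rw [hxs]; group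
          rw [this]; exact h2
        have h3 := S.mul_mem (S.mul_mem (S.inv_mem (hA₁S hs)) (hBS h1)) (hA₁S hs)
        have : s⁻¹ * (s * y * s⁻¹) * s = y := by group
        rwa [this] at h3
      rw [eq_top_iff]
      intro y _
      obtain ⟨u, hu, v, hv, rfl⟩ := hall y
      exact S.mul_mem (hA₁S hu) (hBgS hv))
    exact ⟨N, hN, hNt, hN'.imp (fun h => hlt.le.trans h) id⟩

/-- Let A and B be nontrivial subgroups of a finite group G such that for every x the product set of A and xBx⁻¹ is a proper subgroup of G. Then there is a proper normal subgroup of G containing A or containing B. -/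
theorem result {G : Type*} [Group G] [Finite G] (A B : Subgroup G) (hA : A ≠ ⊥) (hB : B ≠ ⊥) (h : ∀ x : G, ∃ S : Subgroup G, S ≠ ⊤ ∧ (S : Set G) = (A : Set G) * ((MulAut.conj x • B : Subgroup G) : Set G)) : ∃ N : Subgroup G, N.Normal ∧ N ≠ ⊤ ∧ (A ≤ N ∨ B ≤ N) := 
  aux B A h

end Cfsg.Agent.S0566
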