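import Cfsg.Statements.S0581
import Cfsg.Agent.Lib.Helper76.Nilp
import Cfsg.Agent.Lib.Helper76.SylowAux

set_option autoImplicit false
open Pointwise
open Cfsg

namespace Cfsg.Agent.S0581

open Subgroup Cfsg.Agent.Lib.Helper76 Cfsg.Agent.Lib.Helper22 Cfsg.Agent.Lib.Helper91

/-- Wielandt's theorem, in `conjS` form. -/
theorem wielandt {G : Type*} [Group G] [Finite G] (H : Subgroup G) (hH : Group.IsNilpotent H)
    (hHall : (Nat.card H).Coprime H.index) (n : ℕ) :
    ∀ K : Subgroup G, Nat.card K = n → (∀ p : ℕ, p.Prime → p ∣ Nat.card K → p ∣ Nat.card H) →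
      ∃ x : G, K ≤ conjS x H := by
  induction n using Nat.strong_induction_on with
  | _ n ih =>
    intro K hn hK
    by_cases hKbot : K = ⊥
    · exact ⟨1, hKbot ▸ bot_le⟩
    have : Nontrivial K := (nontrivial_iff_ne_bot K).mpr hKbot
    -- proper subgroups
    have hprop : ∀ K' : Subgroup G, K' < K → ∃ x, K' ≤ conjS x H := by
      intro K' hlt
      apply ih (Nat.card K') ?_ K' rfl
      · intro p hp hd
        exact hK p hp (hd.trans (card_dvd_of_le hlt.le))
      · rw [← hn]
        by_contra hge
        push Not at hge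
        exact hlt.ne (eq_of_le_of_card_ge hlt.le hge)
    have hnil : ∀ M : Subgroup K, M ≠ ⊤ → Group.IsNilpotent M := by
      intro M hM
      have hlt : M.map K.subtype < K := by
        refine lt_of_le_of_ne (map_subtype_le M) ?_
        intro heq
        apply hM
        rw [eq_top_iff]
        intro x _
        have hx : (x : G) ∈ M.map K.subtype := by rw [heq]; exact x.2
        obtain ⟨y, hy, hyx⟩ := hx
        have : y = x := Subtype.ext hyx
        exact this ▸ hy
      obtain ⟨x, hx⟩ := hprop _ hlt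
      apply isNilpotent_of_map_injective K.subtype K.subtype_injective
      exact isNilpotent_of_le hx (isNilpotent_map _ hH)
    obtain ⟨q, hq, L₀, hL₀n, hL₀q, k, hk⟩ := exists_normal_complement_of_proper_nilpotent K hnil
    have : Fact q.Prime := ⟨hq⟩
    set L := L₀.map K.subtype with hL
    have hLK : L ≤ K := map_subtype_le L₀
    have hLcard : ¬ q ∣ Nat.card L := by
      rw [Nat.card_congr (L₀.equivMapOfInjective _ K.subtype_injective).toEquiv.symm]
      exact hL₀q
    have hLrel : L.relIndex K = q ^ (k + 1) := by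
      rw [relIndex, subgroupOf, comap_map_eq_self_of_injective K.subtype_injective]
      exact hk
    have hLlt : L < K := by
      refine lt_of_le_of_ne hLK ?_
      intro heq
      rw [heq, relIndex_self] at hLrel
      have : q ∣ 1 := hLrel ▸ dvd_pow_self q (Nat.succ_ne_zero k)
      exact hq.one_lt.ne' (Nat.dvd_one.mp this)
    have hKN : K ≤ normalizer (L : Set G) := by
      rw [le_normalizer_iff]
      rintro u hu _ ⟨y, hy, rfl⟩
      exact ⟨⟨u, hu⟩ * y * ⟨u, hu⟩⁻¹, hL₀n.conj_mem y hy _, rfl⟩
    obtain ⟨g, hg⟩ := hprop L hLlt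
    set H' := conjS g H with hH'
    have hH'nil : Group.IsNilpotent H' := isNilpotent_map _ hH
    have hqK : q ∣ Nat.card K := by
      have h1 : L.relIndex K ∣ Nat.card K := by
        rw [relIndex]
        exact (L.subgroupOf K).index_dvd_card
      exact (hLrel ▸ dvd_pow_self q (Nat.succ_ne_zero k) : q ∣ L.relIndex K).trans h1
    have hqH : q ∣ Nat.card H := hK q hq hqK
    have hqidx : ¬ q ∣ H'.index := by
      have h6 : H'.index = H.index := index_map_of_bijective (MulAut.conj g).bijective _
      rw [h6]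
      intro hd
      exact hq.one_lt.ne' (Nat.dvd_one.mp (hHall ▸ Nat.dvd_gcd hqH hd))
    obtain ⟨H₂, hH₂, -⟩ := exists_isSylowIn_ge (q := q) (U := ⊥) (K := H') IsPGroup.of_bot bot_le
    have hH₂idx : ¬ q ∣ H₂.index := by
      rw [← relIndex_mul_index hH₂.le]
      exact Nat.Prime.not_dvd_mul hq (IsSylowIn.not_dvd_relIndex hH₂) hqidx
    have hH₂N : H₂ ≤ normalizer (L : Set G) := by
      refine le_trans ?_ (centralizer_le_normalizer _)
      intro a ha
      rw [mem_centralizer_iff]
      intro b hb
      exact (commute_of_le_nilpotent hH'nil H₂ L hH₂.le hg hH₂.isPGroup hLcard ha hb).symm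
    have hsyl : IsSylowIn q H₂ (normalizer (L : Set G)) :=
      isSylowIn_of_not_dvd_relIndex _ _ hH₂N hH₂.isPGroup
        (fun hd => hH₂idx (hd.trans (relIndex_dvd_index_of_le hH₂N)))
    obtain ⟨Q, hQ, -⟩ := exists_isSylowIn_ge (q := q) (U := ⊥) (K := K) IsPGroup.of_bot bot_le
    obtain ⟨Q', hQ', hQQ'⟩ := exists_isSylowIn_ge hQ.isPGroup (hQ.le.trans hKN)
    obtain ⟨x, hxN, hx⟩ := hsyl.exists_conj hQ'
    have hKle : K ≤ Q ⊔ L := by
      rw [← relIndex_eq_one]
      have h1 : (Q ⊔ L).relIndex K ∣ Q.relIndex K := relIndex_dvd_of_le_left K le_sup_left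
      have h2 : (Q ⊔ L).relIndex K ∣ L.relIndex K := relIndex_dvd_of_le_left K le_sup_right
      rw [hLrel] at h2
      have h3 : (Q.relIndex K).Coprime (q ^ (k + 1)) :=
        Nat.Coprime.pow_right _ ((Nat.Prime.coprime_iff_not_dvd hq).mpr (IsSylowIn.not_dvd_relIndex hQ)).symm
      exact Nat.eq_one_of_dvd_coprimes h3 h1 h2
    refine ⟨x * g, hKle.trans (sup_le ?_ ?_)⟩
    · rw [conjS_mul]
      refine hQQ'.trans ?_
      rw [← hx]
      exact map_mono hH₂.le
    · rw [conjS_mul, ← conjS_eq_of_mem_normalizer hxN]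
      exact map_mono hg

/-- Let H be a nilpotent subgroup of a finite group G whose order is coprime to its index, and K a subgroup every prime divisor of whose order divides the order of H. Then K lies in some conjugate of H. -/
theorem result {G : Type*} [Group G] [Finite G] (H K : Subgroup G) (hH : Group.IsNilpotent H) (hHall : (Nat.card H).Coprime H.index) (hK : ∀ p : ℕ, p.Prime → p ∣ Nat.card K → p ∣ Nat.card H) : ∃ x : G, K ≤ MulAut.conj x • H := by
  obtain ⟨x, hx⟩ := wielandt H hH hHall _ K rfl hK
  exact ⟨x, hx⟩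

end Cfsg.Agent.S0581
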