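import Mathlib
import Cfsg.Statements.S0021
import Cfsg.Agent.S0006
-- import your own Cfsg.Agent.* helpers here

set_option autoImplicit false
open Pointwise
open Cfsg

namespace Cfsg.Agent.S0021


open scoped Pointwise

theorem coe_sup_of_comm {G : Type*} [Group G] (H K : Subgroup G)
    (h : (H : Set G) * (K : Set G) = (K : Set G) * (H : Set G)) :
    ((H ⊔ K : Subgroup G) : Set G) = (H : Set G) * (K : Set G) := by
  let L : Subgroup G :=
    { carrier := (H : Set G) * (K : Set G)
      one_mem' := ⟨1, H.one_mem, 1, K.one_mem, one_mul 1⟩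
      mul_mem' := by
        rintro _ _ ⟨h1, hh1, k1, hk1, rfl⟩ ⟨h2, hh2, k2, hk2, rfl⟩
        have : k1 * h2 ∈ (H : Set G) * (K : Set G) := by
          rw [h]; exact ⟨k1, hk1, h2, hh2, rfl⟩
        obtain ⟨h3, hh3, k3, hk3, e⟩ := this
        refine ⟨h1 * h3, H.mul_mem hh1 hh3, k3 * k2, K.mul_mem hk3 hk2, ?_⟩
        have e' : h3 * k3 = k1 * h2 := e
        calc h1 * h3 * (k3 * k2) = h1 * (h3 * k3) * k2 := by group
          _ = h1 * (k1 * h2) * k2 := by rw [e']
          _ = h1 * k1 * (h2 * k2) := by group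
      inv_mem' := by
        rintro _ ⟨h1, hh1, k1, hk1, rfl⟩
        rw [h]
        exact ⟨k1⁻¹, K.inv_mem hk1, h1⁻¹, H.inv_mem hh1, by group⟩ }
  apply Set.Subset.antisymm
  · have : H ⊔ K ≤ L := by
      apply sup_le
      · intro x hx; exact ⟨x, hx, 1, K.one_mem, mul_one x⟩
      · intro x hx; exact ⟨1, H.one_mem, x, hx, one_mul x⟩
    exact this
  · rintro _ ⟨h1, hh1, k1, hk1, rfl⟩
    exact Subgroup.mul_mem_sup hh1 hk1

theorem card_sup_dvd_of_comm {G : Type*} [Group G] [Finite G] (H K : Subgroup G)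
    (h : (H : Set G) * (K : Set G) = (K : Set G) * (H : Set G)) :
    Nat.card (H ⊔ K : Subgroup G) ∣ Nat.card H * Nat.card K := by
  have h1 : Nat.card (H ⊔ K : Subgroup G) = Nat.card ((H : Set G) * (K : Set G) : Set G) := by
    rw [← coe_sup_of_comm H K h]; rfl
  rw [h1, Subgroup.card_mul_eq_card_subgroup_mul_card_quotient K (H : Set G), mul_comm]
  apply Nat.mul_dvd_mul_right
  have h2 : ((H : Set G).image (↑) : Set (G ⧸ K)) = MulAction.orbit H ((1 : G) : G ⧸ K) := by
    ext x
    constructor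
    · rintro ⟨a, ha, rfl⟩
      refine ⟨⟨a, ha⟩, ?_⟩
      change ((a * 1 : G) : G ⧸ K) = _
      rw [mul_one]
    · rintro ⟨⟨a, ha⟩, rfl⟩
      refine ⟨a, ha, ?_⟩
      change _ = ((a * 1 : G) : G ⧸ K)
      rw [mul_one]
  rw [h2, Nat.card_coe_set_eq, ← MulAction.index_stabilizer]
  exact Subgroup.index_dvd_card _

theorem key {G : Type*} [Group G] [Finite G]
    (S : (p : Nat.Primes) → Sylow (p : ℕ) G)
    (hS : ∀ p q : Nat.Primes, ((S p : Subgroup G) : Set G) * ((S q : Subgroup G) : Set G) =
      ((S q : Subgroup G) : Set G) * ((S p : Subgroup G) : Set G))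
    (T : Finset Nat.Primes) :
    (∀ r : Nat.Primes, ((T.sup (fun q => (S q : Subgroup G)) : Subgroup G) : Set G) *
        ((S r : Subgroup G) : Set G) =
      ((S r : Subgroup G) : Set G) * ((T.sup (fun q => (S q : Subgroup G)) : Subgroup G) : Set G)) ∧
    (∀ s : ℕ, s.Prime → s ∣ Nat.card (T.sup (fun q => (S q : Subgroup G)) : Subgroup G) →
      ∃ q ∈ T, (q : ℕ) = s) := by
  classical
  induction T using Finset.induction_on with
  | empty =>
    refine ⟨?_, ?_⟩
    · intro r
      simp
    · intro s hs hd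
      rw [Finset.sup_empty, Subgroup.card_bot] at hd
      exact absurd (Nat.dvd_one.1 hd) hs.one_lt.ne'
  | insert a T ha ih =>
    obtain ⟨ih1, ih2⟩ := ih
    set B : Subgroup G := T.sup (fun q => (S q : Subgroup G)) with hB
    have hcomm : ((S a : Subgroup G) : Set G) * (B : Set G) = (B : Set G) * ((S a : Subgroup G) : Set G) :=
      (ih1 a).symm
    rw [Finset.sup_insert]
    refine ⟨?_, ?_⟩
    · intro r
      rw [coe_sup_of_comm _ _ hcomm, mul_assoc, ih1 r, ← mul_assoc, hS a r, mul_assoc]
    · intro s hs hd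
      have h1 := hd.trans (card_sup_dvd_of_comm _ _ hcomm)
      rcases (hs.dvd_mul).1 h1 with h2 | h2
      · refine ⟨a, Finset.mem_insert_self a T, ?_⟩
        have := Fact.mk a.2
        obtain ⟨m, hm⟩ := IsPGroup.iff_card.1 (S a).2
        rw [hm] at h2
        exact ((Nat.prime_dvd_prime_iff_eq hs a.2).1 (hs.dvd_of_dvd_pow h2)).symm
      · obtain ⟨q, hq, e⟩ := ih2 s hs h2
        exact ⟨q, Finset.mem_insert_of_mem hq, e⟩

/-- A finite group with a family of pairwise permuting Sylow subgroups, one for each prime, is solvable (this direction rests on Burnside's two-prime Theorem). -/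
theorem result {G : Type*} [Group G] [Finite G]
    (S : (p : Nat.Primes) → Sylow (p : ℕ) G)
    (hS : ∀ p q : Nat.Primes, (S p : Set G) * (S q : Set G) = (S q : Set G) * (S p : Set G)) :
    Group.IsSolvable G := by
  classical
  apply Cfsg.Agent.S0006.result
  intro p hp
  let T : Finset Nat.Primes := ((Nat.card G).primeFactors.erase p).subtype Nat.Prime
  have hmem : ∀ q : Nat.Primes, q ∈ T ↔ (q : ℕ) ∈ (Nat.card G).primeFactors.erase p :=
    fun q => Finset.mem_subtype
  obtain ⟨-, h2⟩ := key S (fun a b => hS a b) T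
  set H : Subgroup G := T.sup (fun q => (S q : Subgroup G)) with hH
  refine ⟨H, ?_⟩
  have ha : ¬ p ∣ Nat.card H := by
    intro hd
    obtain ⟨q, hq, e⟩ := h2 p hp hd
    rw [hmem, Finset.mem_erase] at hq
    exact hq.1 e
  have hb : H.index = p ^ H.index.primeFactorsList.length := by
    apply Nat.eq_prime_pow_of_unique_prime_dvd Subgroup.index_ne_zero_of_finite
    intro s hs hd
    by_contra hsp
    let s' : Nat.Primes := ⟨s, hs⟩
    have hsT : s' ∈ T := by
      apply (hmem s').2
      rw [Finset.mem_erase]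
      exact ⟨hsp, Nat.mem_primeFactors.2 ⟨hs, hd.trans (Subgroup.index_dvd_card H), Nat.card_pos.ne'⟩⟩
    have hle : (S s' : Subgroup G) ≤ H := Finset.le_sup (f := fun q => (S q : Subgroup G)) hsT
    have : Fact (Nat.Prime (s' : ℕ)) := Fact.mk hs
    exact (S s').not_dvd_index (hd.trans (Subgroup.index_dvd_of_le hle))
  set k := H.index.primeFactorsList.length with hk
  have hc : (Nat.card G).factorization p = k := by
    rw [← H.card_mul_index, hb, Nat.factorization_mul Nat.card_pos.ne' (pow_ne_zero _ hp.ne_zero),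
      Nat.factorization_pow]
    simp [Nat.factorization_eq_zero_of_not_dvd ha, hp.factorization_self]
  rw [hc, ← hb]

end Cfsg.Agent.S0021
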