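import Cfsg.Statements.S0560
import Cfsg.Agent.Lib.Helper10.Card

set_option autoImplicit false
open Pointwise
open Cfsg

namespace Cfsg.Agent.S0560

open Cfsg.Agent.Lib.Helper10

/-- for every subgroup `H` there is a Sylow subgroup `S` of `G` with `|S ∩ H| = |H|_p` -/
theorem exists_sylow_inf {G : Type*} [Group G] [Finite G] (H : Subgroup G) (p : ℕ) [Fact p.Prime] :
    ∃ S : Sylow p G, Nat.card ((S : Subgroup G) ⊓ H : Subgroup G) = p ^ (Nat.card H).factorization p := by
  obtain ⟨P₀⟩ : Nonempty (Sylow p H) := inferInstance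
  obtain ⟨S, hS⟩ := Sylow.exists_comap_subtype_eq P₀
  refine ⟨S, ?_⟩
  rw [← P₀.card_eq_multiplicity]
  have h1 : ((S : Subgroup G) ⊓ H).subgroupOf H = (P₀ : Subgroup H) := by
    rw [Subgroup.inf_subgroupOf_right]; exact hS
  have h2 : Nat.card (((S : Subgroup G) ⊓ H).subgroupOf H) = Nat.card ((S : Subgroup G) ⊓ H : Subgroup G) :=
    Nat.card_congr (Subgroup.subgroupOfEquivOfLe inf_le_right).toEquiv
  rw [← h2, h1]

theorem card_conj_inf {G : Type*} [Group G] (S H : Subgroup G) (h : G) (hh : h ∈ H) :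
    Nat.card ((MulAut.conj h • S) ⊓ H : Subgroup G) = Nat.card (S ⊓ H : Subgroup G) := by
  have : (MulAut.conj h • S) ⊓ H = MulAut.conj h • (S ⊓ H) := by
    rw [Subgroup.smul_inf, Subgroup.conj_smul_eq_self_of_mem hh]
  rw [this, card_conj_smul]

/-- Let the finite group G be the product HK of two subgroups and p a prime. Then there are Sylow p-subgroups P of H and Q of K and a Sylow p-subgroup R of G whose underlying set is the product set of P and Q. -/
theorem result {G : Type*} [Group G] [Finite G] (H K : Subgroup G) (hHK : ∀ g : G, ∃ h ∈ H, ∃ k ∈ K, g = h * k) (p : ℕ) [Fact p.Prime] : ∃ (P : Sylow p H) (Q : Sylow p K) (R : Sylow p G), ((R : Subgroup G) : Set G) = (((P : Subgroup H).map H.subtype : Subgroup G) : Set G) * (((Q : Subgroup K).map K.subtype : Subgroup G) : Set G) := by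
  have hp : p.Prime := Fact.out
  obtain ⟨S, hS⟩ := exists_sylow_inf H p
  obtain ⟨T, hT⟩ := exists_sylow_inf K p
  obtain ⟨g, hg⟩ := MulAction.exists_smul_eq G S T
  obtain ⟨h', hh', k', hk', hgk⟩ := hHK g⁻¹
  -- g = k'⁻¹ * h'⁻¹
  have hg' : g = k'⁻¹ * h'⁻¹ := by rw [← mul_inv_rev, ← hgk, inv_inv]
  set R : Sylow p G := h'⁻¹ • S with hR
  have hRT : R = k' • T := by
    rw [← hg, hg', hR, ← mul_smul]; congr 1; group
  have cA : Nat.card ((R : Subgroup G) ⊓ H : Subgroup G) = p ^ (Nat.card H).factorization p := by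
    rw [hR, Sylow.coe_subgroup_smul, card_conj_inf _ _ _ (inv_mem hh'), hS]
  have cB : Nat.card ((R : Subgroup G) ⊓ K : Subgroup G) = p ^ (Nat.card K).factorization p := by
    rw [hRT, Sylow.coe_subgroup_smul, card_conj_inf _ _ _ hk', hT]
  set A := (R : Subgroup G) ⊓ H with hA
  set B := (R : Subgroup G) ⊓ K with hB
  have cA' : Nat.card (A.subgroupOf H) = p ^ (Nat.card H).factorization p := by
    rw [← cA]; exact Nat.card_congr (Subgroup.subgroupOfEquivOfLe inf_le_right).toEquiv
  have cB' : Nat.card (B.subgroupOf K) = p ^ (Nat.card K).factorization p := by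
    rw [← cB]; exact Nat.card_congr (Subgroup.subgroupOfEquivOfLe inf_le_right).toEquiv
  refine ⟨Sylow.ofCard _ cA', Sylow.ofCard _ cB', R, ?_⟩
  rw [Sylow.coe_ofCard, Sylow.coe_ofCard, Subgroup.map_subgroupOf_eq_of_le inf_le_right,
    Subgroup.map_subgroupOf_eq_of_le inf_le_right]
  symm
  have hsub : (A : Set G) * (B : Set G) ⊆ ((R : Subgroup G) : Set G) := by
    rintro _ ⟨a, ha, b, hb, rfl⟩
    exact mul_mem ha.1 hb.1
  apply Set.eq_of_subset_of_ncard_le hsub _ (Set.toFinite _)
  -- cardinalities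
  have e1 := card_mul_set_mul_card_inf A B
  have e2 := card_mul_set_mul_card_inf H K
  have huniv : (H : Set G) * (K : Set G) = Set.univ := by
    ext g; simp only [Set.mem_univ, iff_true]
    obtain ⟨h, hh, k, hk, rfl⟩ := hHK g
    exact ⟨h, hh, k, hk, rfl⟩
  rw [huniv, Nat.card_univ] at e2
  have hABp : IsPGroup p (A ⊓ B : Subgroup G) := R.2.to_le (inf_le_left.trans inf_le_left)
  obtain ⟨c, hc⟩ := IsPGroup.iff_card.mp hABp
  have hle : A ⊓ B ≤ H ⊓ K := inf_le_inf inf_le_right inf_le_right
  have hdvd : p ^ c ∣ Nat.card (H ⊓ K : Subgroup G) := hc ▸ Subgroup.card_dvd_of_le hle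
  have hc' : c ≤ (Nat.card (H ⊓ K : Subgroup G)).factorization p :=
    (hp.pow_dvd_iff_le_factorization Nat.card_pos.ne').mp hdvd
  have hfac : (Nat.card G).factorization p + (Nat.card (H ⊓ K : Subgroup G)).factorization p =
      (Nat.card H).factorization p + (Nat.card K).factorization p := by
    have := congrArg (fun n => n.factorization p) e2
    rw [Nat.factorization_mul Nat.card_pos.ne' Nat.card_pos.ne',
      Nat.factorization_mul Nat.card_pos.ne' Nat.card_pos.ne'] at this
    simpa using this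
  have cR : Nat.card (R : Subgroup G) = p ^ (Nat.card G).factorization p := R.card_eq_multiplicity
  rw [cA, cB, hc, ← pow_add, ← hfac] at e1
  have hpos : 0 < p ^ c := pow_pos hp.pos c
  have h3 : p ^ (Nat.card G).factorization p * p ^ c ≤ Nat.card ((A : Set G) * (B : Set G) : Set G) * p ^ c := by
    rw [e1, ← pow_add]
    exact Nat.pow_le_pow_right hp.pos (by omega)
  have h4 := Nat.le_of_mul_le_mul_right h3 hpos
  rw [← Nat.card_coe_set_eq, ← Nat.card_coe_set_eq]
  calc Nat.card ((R : Subgroup G) : Set G) = p ^ (Nat.card G).factorization p := cR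
    _ ≤ _ := h4

end Cfsg.Agent.S0560
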