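import Mathlib
import Cfsg.Statements.S5644
import Cfsg.Agent.Lib.Helper94.SympWrap
import Cfsg.Agent.Lib.Helper94.FormB
import Cfsg.Agent.Lib.Helper94.SLGen
import Cfsg.Agent.Lib.Helper99.Orth

set_option autoImplicit false
set_option linter.unusedSimpArgs false
open Cfsg

namespace Cfsg.Agent.S5644

open LinearMap (BilinForm)
open Module
open Cfsg.Agent.Lib.Helper94 Cfsg.Agent.Lib.Helper99

section core

variable {F V : Type*} [Field F] [AddCommGroup V] [Module F V]
variable {B : BilinForm F V} {Q : V → F}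

/-- `G` contains all isometries of determinant one -/
def HG (Q : V → F) (G : Subgroup (V ≃ₗ[F] V)) : Prop :=
  ∀ φ : V ≃ₗ[F] V, LinearMap.det (φ : V →ₗ[F] V) = 1 → (∀ v, Q (φ v) = Q v) → φ ∈ G

lemma isIsom_of_Q (h : OSetup B Q) {φ : V ≃ₗ[F] V} (hφ : ∀ v, Q (φ v) = Q v) : IsIsom B φ := by
  intro u v
  have h1 := h.add (φ u) (φ v)
  have h2 := h.add u v
  rw [← map_add, hφ, hφ, hφ] at h1
  linear_combination h2 - h1

lemma rr_mem [FiniteDimensional F V] (h : OSetup B Q) {G : Subgroup (V ≃ₗ[F] V)} (hG : HG Q G)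
    (e e' : V) (he : Q e ≠ 0) (he' : Q e' ≠ 0) : h.rf e he * h.rf e' he' ∈ G := by
  apply hG
  · have : ((h.rf e he * h.rf e' he' : V ≃ₗ[F] V) : V →ₗ[F] V) =
        ((h.rf e he : V ≃ₗ[F] V) : V →ₗ[F] V) ∘ₗ ((h.rf e' he' : V ≃ₗ[F] V) : V →ₗ[F] V) := rfl
    rw [this, LinearMap.det_comp, h.det_rf, h.det_rf]
    ring
  · intro v
    rw [LinearEquiv.mul_apply, h.Q_rf, h.Q_rf]

lemma exists_move_of [FiniteDimensional F V] (h : OSetup B Q) {G : Subgroup (V ≃ₗ[F] V)} (hG : HG Q G)
    (u x x' c : V) (hx : B x u = 0) (hx' : B x' u = 0) (hQ : Q x = Q x')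
    (hcu : B c u = 0) (hQc : Q c = Q x) (h1 : Q (x - c) ≠ 0) (h2 : Q (c - x') ≠ 0) :
    ∃ t ∈ G, (∀ v, Q (t v) = Q v) ∧ t u = u ∧ t x = x' := by
  refine ⟨h.rf (c - x') h2 * h.rf (x - c) h1, rr_mem h hG _ _ _ _, ?_, ?_, ?_⟩
  · intro v
    rw [LinearEquiv.mul_apply, h.Q_rf, h.Q_rf]
  · rw [LinearEquiv.mul_apply, h.rf_fix _ _ u (by rw [map_sub, h.symm u x, h.symm u c, hx, hcu, sub_zero]),
      h.rf_fix _ _ u (by rw [map_sub, h.symm u x', h.symm u c, hx', hcu, sub_zero])]
  · rw [LinearEquiv.mul_apply, h.rf_sub_apply x c hQc.symm, h.rf_sub_apply c x' (hQc.trans hQ)]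

/-- transitivity on nonsingular vectors of the same norm in `u^⊥` -/
lemma exists_move_nonsing [FiniteDimensional F V] (h : OSetup B Q) {G : Subgroup (V ≃ₗ[F] V)}
    (hG : HG Q G) (u x x' : V) (hx : B x u = 0) (hx' : B x' u = 0) (hQ : Q x = Q x') (hx0 : Q x ≠ 0) :
    ∃ t ∈ G, (∀ v, Q (t v) = Q v) ∧ t u = u ∧ t x = x' := by
  classical
  obtain ⟨c, hc, hQc⟩ := h.exists_perp {u, x, x'} (Finset.card_le_three.trans (by omega)) (Q x)
  have hcu := hc u (by simp)
  have hcx := hc x (by simp)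
  have hcx' := hc x' (by simp)
  refine exists_move_of h hG u x x' c hx hx' hQ hcu hQc ?_ ?_
  · rw [h.sub, hQc, h.symm x c, hcx]
    intro h0
    apply hx0
    have : (2 : F) * Q x = 0 := by linear_combination h0
    exact (mul_eq_zero.1 this).resolve_left h.two
  · rw [h.sub, hQc, hcx', ← hQ]
    intro h0
    apply hx0
    have : (2 : F) * Q x = 0 := by linear_combination h0
    exact (mul_eq_zero.1 this).resolve_left h.two

/-- transitivity on nonzero singular vectors in `u^⊥`, `u` nonsingular -/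
lemma exists_move_sing [FiniteDimensional F V] (h : OSetup B Q) {G : Subgroup (V ≃ₗ[F] V)}
    (hG : HG Q G) (u x x' : V) (hu : Q u ≠ 0) (hx : B x u = 0) (hx' : B x' u = 0)
    (hQx : Q x = 0) (hQx' : Q x' = 0) (hx0 : x ≠ 0) (hx0' : x' ≠ 0) :
    ∃ t ∈ G, (∀ v, Q (t v) = Q v) ∧ t u = u ∧ t x = x' := by
  classical
  have hBu : B u u ≠ 0 := by
    rw [h.self]; exact mul_ne_zero h.two hu
  have key : ∀ w, w ≠ 0 → B w u = 0 → ∃ z ∈ LinearMap.ker (B.flip u), (B.flip w) z ≠ 0 := by
    intro w hw hwu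
    obtain ⟨z₀, hz₀⟩ := h.exists_pair_ne hw
    refine ⟨z₀ - (B z₀ u / B u u) • u, ?_, ?_⟩
    · simp only [LinearMap.mem_ker, LinearMap.BilinForm.flip_apply, map_sub, map_smul,
        LinearMap.sub_apply, LinearMap.smul_apply, smul_eq_mul]
      field_simp
      ring
    · simp only [LinearMap.BilinForm.flip_apply, map_sub, map_smul,
        LinearMap.sub_apply, LinearMap.smul_apply, smul_eq_mul, h.symm u w, hwu, mul_zero, sub_zero]
      exact hz₀
  obtain ⟨y, hyu, hy1, hy2⟩ := exists_both_ne_zero (LinearMap.ker (B.flip u)) (B.flip x) (B.flip x')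
    (key x hx0 hx) (key x' hx0' hx')
  simp only [LinearMap.mem_ker, LinearMap.BilinForm.flip_apply] at hyu hy1 hy2
  obtain ⟨z, hz, hQz⟩ := h.exists_perp {u, x, x', y} (Finset.card_le_four.trans (by omega)) (- Q y)
  have hzu := hz u (by simp)
  have hzx := hz x (by simp)
  have hzx' := hz x' (by simp)
  have hzy := hz y (by simp)
  refine exists_move_of h hG u x x' (y + z) hx hx' (hQx.trans hQx'.symm) ?_ ?_ ?_ ?_
  · rw [map_add, LinearMap.add_apply, hyu, hzu, add_zero]
  · rw [h.add, hQz, h.symm y z, hzy, hQx]; ring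
  · have hQc : Q (y + z) = 0 := by rw [h.add, hQz, h.symm y z, hzy]; ring
    rw [h.sub, hQx, hQc, map_add, h.symm x y, h.symm x z, hzx]
    simpa using hy1
  · have hQc : Q (y + z) = 0 := by rw [h.add, hQz, h.symm y z, hzy]; ring
    rw [h.sub, hQx', hQc, map_add, LinearMap.add_apply, hzx']
    simpa using hy2

/-- the pair `(a, b)` gives a transvection of `G` -/
def E (B : BilinForm F V) (G : Subgroup (V ≃ₗ[F] V)) (a b : V) : Prop :=
  ∃ h : B a b = 0, tv B a b h ∈ G

lemma E_conj {G : Subgroup (V ≃ₗ[F] V)} {a b : V} (hE : E B G a b) {t : V ≃ₗ[F] V} (ht : t ∈ G)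
    (htI : IsIsom B t) : E B G (t a) (t b) := by
  obtain ⟨h, hm⟩ := hE
  refine ⟨by rw [htI]; exact h, ?_⟩
  rw [← conj_tv htI a b h]
  exact G.mul_mem (G.mul_mem ht hm) (G.inv_mem ht)

lemma E_add_right {G : Subgroup (V ≃ₗ[F] V)} {a b b' : V} (h1 : E B G a b) (h2 : E B G a b') :
    E B G a (b + b') := by
  obtain ⟨h, hm⟩ := h1
  obtain ⟨h', hm'⟩ := h2
  refine ⟨by rw [map_add, h, h', add_zero], ?_⟩
  have : tv B a (b + b') (by rw [map_add, h, h', add_zero]) = tv B a b h * tv B a b' h' := by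
    ext x
    simp only [LinearEquiv.mul_apply, tv_apply, map_add, map_smul, LinearMap.add_apply,
      LinearMap.smul_apply, h, smul_eq_mul, mul_zero, add_zero]
    module
  rw [this]
  exact G.mul_mem hm hm'

lemma E_neg_right {G : Subgroup (V ≃ₗ[F] V)} {a b : V} (h1 : E B G a b) : E B G a (-b) := by
  obtain ⟨h, hm⟩ := h1
  refine ⟨by rw [map_neg, h, neg_zero], ?_⟩
  have : tv B a (-b) (by rw [map_neg, h, neg_zero]) = (tv B a b h)⁻¹ := by
    rw [eq_inv_iff_mul_eq_one]
    ext x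
    simp only [LinearEquiv.mul_apply, tv_apply, map_add, map_smul, LinearMap.add_apply,
      LinearMap.smul_apply, h, smul_eq_mul, mul_zero, add_zero, map_neg, LinearEquiv.coe_one, id_eq]
    module
  rw [this]
  exact G.inv_mem hm

lemma E_add_left {G : Subgroup (V ≃ₗ[F] V)} {a a' b : V} (h1 : E B G a b) (h2 : E B G a' b) :
    E B G (a + a') b := by
  obtain ⟨h, hm⟩ := h1
  obtain ⟨h', hm'⟩ := h2
  refine ⟨by rw [map_add, LinearMap.add_apply, h, h', add_zero], ?_⟩
  have : tv B (a + a') b (by rw [map_add, LinearMap.add_apply, h, h', add_zero]) =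
      tv B a b h * tv B a' b h' := by
    ext x
    simp only [LinearEquiv.mul_apply, tv_apply, map_add, map_smul, LinearMap.add_apply,
      LinearMap.smul_apply, h', smul_eq_mul, mul_zero, add_zero]
    module
  rw [this]
  exact G.mul_mem hm hm'

lemma E_zero_right {G : Subgroup (V ≃ₗ[F] V)} (a : V) : E B G a 0 := by
  refine ⟨by simp, ?_⟩
  have : tv B a 0 (by simp) = 1 := by
    ext x; simp [tv_apply]
  rw [this]; exact G.one_mem

/-- spreading, step (a): all `b'` of the same norm in `a^⊥` -/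
lemma E_same_norm [FiniteDimensional F V] (h : OSetup B Q) {G : Subgroup (V ≃ₗ[F] V)} (hG : HG Q G)
    {a b b' : V} (ha : Q a ≠ 0) (hE : E B G a b) (hb : b ≠ 0) (hb' : b' ≠ 0) (hab' : B b' a = 0)
    (hQ : Q b = Q b') : E B G a b' := by
  have hab : B b a = 0 := by rw [h.symm]; exact hE.1
  by_cases hQb : Q b = 0
  · obtain ⟨t, htG, htQ, hta, htb⟩ := exists_move_sing h hG a b b' ha hab hab' hQb (hQ ▸ hQb) hb hb'
    have := E_conj hE htG (isIsom_of_Q h htQ)
    rwa [hta, htb] at this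
  · obtain ⟨t, htG, htQ, hta, htb⟩ := exists_move_nonsing h hG a b b' hab hab' hQ hQb
    have := E_conj hE htG (isIsom_of_Q h htQ)
    rwa [hta, htb] at this

/-- spreading, step (b): all singular vectors of `a^⊥` -/
lemma E_singular [FiniteDimensional F V] (h : OSetup B Q) {G : Subgroup (V ≃ₗ[F] V)} (hG : HG Q G)
    {a b c : V} (ha : Q a ≠ 0) (hE : E B G a b) (hb : b ≠ 0) (hca : B c a = 0) (hc : Q c = 0) :
    E B G a c := by
  classical
  by_cases hc0 : c = 0
  · subst hc0; exact E_zero_right a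
  by_cases hQb : Q b = 0
  · exact E_same_norm h hG ha hE hb hc0 hca (hQb.trans hc.symm)
  · obtain ⟨z, hz, hQz⟩ := h.exists_perp {a, c} (Finset.card_le_two.trans (by omega)) (Q b)
    have hza := hz a (by simp)
    have hzc := hz c (by simp)
    have hz0 : z ≠ 0 := by
      rintro rfl
      rw [h.zero] at hQz
      exact hQb hQz.symm
    have hQzc : Q (z + c) = Q b := by rw [h.add, hQz, hc, hzc]; ring
    have hzc0 : z + c ≠ 0 := by
      intro h0
      rw [h0, h.zero] at hQzc
      exact hQb hQzc.symm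
    have h1 : E B G a z := E_same_norm h hG ha hE hb hz0 hza hQz.symm
    have h2 : E B G a (z + c) := E_same_norm h hG ha hE hb hzc0
      (by rw [map_add, LinearMap.add_apply, hza, hca, add_zero]) hQzc.symm
    have h3 := E_add_right h2 (E_neg_right h1)
    have : z + c + -z = c := by abel
    rwa [this] at h3

/-- spreading, step (c): all of `a^⊥` -/
lemma E_all_right [FiniteDimensional F V] (h : OSetup B Q) {G : Subgroup (V ≃ₗ[F] V)} (hG : HG Q G)
    {a b y : V} (ha : Q a ≠ 0) (hE : E B G a b) (hb : b ≠ 0) (hya : B y a = 0) : E B G a y := by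
  classical
  obtain ⟨z, hz, hQz⟩ := h.exists_perp {a, y} (Finset.card_le_two.trans (by omega)) (- Q y / 4)
  have hza := hz a (by simp)
  have hzy := hz y (by simp)
  have h2 := h.two
  have h4 : (4 : F) ≠ 0 := by
    have : (4 : F) = 2 * 2 := by norm_num
    rw [this]; exact mul_ne_zero h2 h2
  have hQ1 : Q ((2 : F)⁻¹ • y + z) = 0 := by
    rw [h.add, h.smul, hQz, map_smul, LinearMap.smul_apply, h.symm y z, hzy]
    field_simp
    ring
  have hQ2 : Q ((2 : F)⁻¹ • y + -z) = 0 := by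
    rw [h.add, h.smul, h.neg, hQz, map_smul, LinearMap.smul_apply, map_neg, h.symm y z, hzy]
    field_simp
    ring
  have h1 : E B G a ((2 : F)⁻¹ • y + z) := E_singular h hG ha hE hb
    (by simp [hya, hza]) hQ1
  have h3 : E B G a ((2 : F)⁻¹ • y + -z) := E_singular h hG ha hE hb
    (by simp [hya, hza]) hQ2
  have h5 := E_add_right h1 h3
  have : (2 : F)⁻¹ • y + z + ((2 : F)⁻¹ • y + -z) = y := by
    have : (2 : F)⁻¹ • y + z + ((2 : F)⁻¹ • y + -z) = ((2 : F)⁻¹ + (2 : F)⁻¹) • y := by module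
    rw [this]
    have : (2 : F)⁻¹ + (2 : F)⁻¹ = 1 := by field_simp; norm_num
    rw [this, one_smul]
  rwa [this] at h5

/-- spreading, final step: all transvections -/
lemma E_all [FiniteDimensional F V] (h : OSetup B Q) {G : Subgroup (V ≃ₗ[F] V)} (hG : HG Q G)
    {a b : V} (ha : Q a ≠ 0) (hE : E B G a b) (hb : b ≠ 0) (v y : V) (hvy : B v y = 0) :
    E B G v y := by
  classical
  -- every vector of norm `Q a` is a good centre
  have key : ∀ a', Q a' = Q a → ∀ y', B y' a' = 0 → E B G a' y' := by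
    intro a' ha' y' hy'
    obtain ⟨t, htG, htQ, -, hta⟩ := exists_move_nonsing h hG 0 a a' (by simp) (by simp) ha'.symm ha
    have hI := isIsom_of_Q h htQ
    have h1 : E B G a (t⁻¹ y') := by
      refine E_all_right h hG ha hE hb ?_
      rw [← hI, apply_inv_self', hta]; exact hy'
    have h2 := E_conj h1 htG hI
    rwa [hta, apply_inv_self'] at h2
  obtain ⟨z, hz, hQz⟩ := h.exists_perp {v, y} (Finset.card_le_two.trans (by omega)) (Q a - Q v / 4)
  have hzv := hz v (by simp)
  have hzy := hz y (by simp)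
  have h2 := h.two
  have h4 : (4 : F) ≠ 0 := by
    have : (4 : F) = 2 * 2 := by norm_num
    rw [this]; exact mul_ne_zero h2 h2
  have hQ1 : Q ((2 : F)⁻¹ • v + z) = Q a := by
    rw [h.add, h.smul, hQz, map_smul, LinearMap.smul_apply, h.symm v z, hzv]
    field_simp
    ring
  have hQ2 : Q ((2 : F)⁻¹ • v + -z) = Q a := by
    rw [h.add, h.smul, h.neg, hQz, map_smul, LinearMap.smul_apply, map_neg, h.symm v z, hzv]
    field_simp
    ring
  have hyv : B y v = 0 := by rw [h.symm]; exact hvy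
  have hyz : B y z = 0 := by rw [h.symm]; exact hzy
  have h1 := key _ hQ1 y (by simp [hyv, hyz])
  have h3 := key _ hQ2 y (by simp [hyv, hyz])
  have h5 := E_add_left h1 h3
  have : (2 : F)⁻¹ • v + z + ((2 : F)⁻¹ • v + -z) = v := by
    have : (2 : F)⁻¹ • v + z + ((2 : F)⁻¹ • v + -z) = ((2 : F)⁻¹ + (2 : F)⁻¹) • v := by module
    rw [this]
    have : (2 : F)⁻¹ + (2 : F)⁻¹ = 1 := by field_simp; norm_num
    rw [this, one_smul]
  rwa [this] at h5

/-- a conjugate of a bireflection that is not orthogonal produces a transvection -/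
lemma exists_E_of_bireflection [FiniteDimensional F V] (h : OSetup B Q) {G : Subgroup (V ≃ₗ[F] V)}
    (hG : HG Q G) (g' : V ≃ₗ[F] V) (hg' : g' ∈ G) (c₁ c₂ p₁ p₂ y₀ : V)
    (hform : ∀ w, g' w = w - B w c₁ • p₁ - B w c₂ • p₂)
    (h11 : B p₁ c₁ = 2) (h12 : B p₁ c₂ = 0)
    (hy1 : B y₀ c₁ = 0) (hy2 : B y₀ c₂ = 0) (hyp : B y₀ p₁ ≠ 0) :
    ∃ a b, Q a ≠ 0 ∧ b ≠ 0 ∧ E B G a b := by
  classical
  obtain ⟨k, hk, hQk⟩ := h.exists_perp {c₁, c₂, p₁, y₀} (Finset.card_le_four.trans (by omega)) (1 - Q y₀)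
  have hk1 := hk c₁ (by simp)
  have hk2 := hk c₂ (by simp)
  have hk3 := hk p₁ (by simp)
  have hk4 := hk y₀ (by simp)
  set y := y₀ + k with hy
  have hQy : Q y = 1 := by rw [hy, h.add, hQk, h.symm y₀ k, hk4]; ring
  have hyc1 : B y c₁ = 0 := by rw [hy, map_add, LinearMap.add_apply, hy1, hk1, add_zero]
  have hyc2 : B y c₂ = 0 := by rw [hy, map_add, LinearMap.add_apply, hy2, hk2, add_zero]
  have hyp1 : B p₁ y ≠ 0 := by
    rw [h.symm, hy, map_add, LinearMap.add_apply, hk3, add_zero]; exact hyp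
  obtain ⟨z, hz, hQz⟩ := h.exists_perp {c₁, c₂, p₁, p₂, y} Finset.card_le_five 1
  have hz1 := hz c₁ (by simp)
  have hz2 := hz c₂ (by simp)
  have hz3 := hz p₁ (by simp)
  have hz4 := hz p₂ (by simp)
  have hz5 := hz y (by simp)
  have hy0 : Q y ≠ 0 := by rw [hQy]; exact one_ne_zero
  have hz0 : Q z ≠ 0 := by rw [hQz]; exact one_ne_zero
  set hh := h.rf y hy0 * h.rf z hz0 with hhh
  have hhG : hh ∈ G := rr_mem h hG _ _ _ _
  set b := B p₁ y • c₁ + B p₂ y • c₂ with hb
  have hyb : B (-y) b = 0 := by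
    rw [hb]; simp [hyc1, hyc2]
  have hyy : B y y = 2 := by rw [h.self, hQy, mul_one]
  have hzz : B z z = 2 := by rw [h.self, hQz, mul_one]
  have hyz : B y z = 0 := by rw [h.symm]; exact hz5
  have hp1z : B p₁ z = 0 := by rw [h.symm]; exact hz3
  have hp2z : B p₂ z = 0 := by rw [h.symm]; exact hz4
  have hkey : (g' * hh) * tv B (-y) b hyb = hh * g' := by
    ext w
    simp only [hhh, LinearEquiv.mul_apply, tv_apply, hform, h.rf_apply, hQy, hQz, div_one, map_sub,
      map_add, map_smul, map_neg, LinearMap.sub_apply, LinearMap.add_apply, LinearMap.smul_apply,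
      LinearMap.neg_apply, smul_eq_mul, hyc1, hyc2, hz1, hz2, hz5, hyz, hp1z, hp2z, hyy, hzz, hb]
    module
  refine ⟨-y, b, by rw [h.neg]; exact hy0, ?_, hyb, ?_⟩
  · intro hb0
    have : B p₁ b = 2 * B p₁ y := by
      rw [hb]; simp [h11, h12]; ring
    rw [hb0, map_zero] at this
    exact (mul_ne_zero h.two hyp1) this.symm
  · have : tv B (-y) b hyb = (g' * hh)⁻¹ * (hh * g') := by
      rw [← hkey]; group
    rw [this]
    exact G.mul_mem (G.inv_mem (G.mul_mem hg' hhG)) (G.mul_mem hhG hg')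

/-- similarities of `Q` -/
def Simil (Q : V → F) (φ : V ≃ₗ[F] V) : Prop := ∃ c : Fˣ, ∀ v, Q (φ v) = (c : F) * Q v

lemma simil_of_preserves [FiniteDimensional F V] (h : OSetup B Q) (g : V ≃ₗ[F] V)
    (hg : ∀ u x, Q u ≠ 0 → B x u = 0 → B (g x) (g u) = 0) : Simil Q g := by
  classical
  have h2 := h.two
  have key1 : ∀ u, Q u ≠ 0 → ∀ x, B (g x) (g u) * Q u = Q (g u) * B x u := by
    intro u hu x
    have hBu : B u u ≠ 0 := by rw [h.self]; exact mul_ne_zero h2 hu
    have h1 : B (x - (B x u / B u u) • u) u = 0 := by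
      simp only [map_sub, map_smul, LinearMap.sub_apply, LinearMap.smul_apply, smul_eq_mul]
      field_simp
      ring
    have h3 := hg u _ hu h1
    simp only [map_sub, map_smul, LinearMap.sub_apply, LinearMap.smul_apply, smul_eq_mul] at h3
    rw [h.self (g u), h.self u] at h3
    field_simp at h3
    linear_combination h3
  have key2 : ∀ u v, Q u ≠ 0 → Q v ≠ 0 → B u v ≠ 0 → Q (g u) * Q v = Q (g v) * Q u := by
    intro u v hu hv huv
    have h1 := key1 u hu v
    have h3 := key1 v hv u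
    rw [h.symm (g v) (g u), h.symm v u] at h1
    have : (Q (g u) * Q v - Q (g v) * Q u) * B u v = 0 := by
      linear_combination (-Q v) * h1 + (Q u) * h3
    rcases mul_eq_zero.1 this with h4 | h4
    · linear_combination h4
    · exact absurd h4 huv
  obtain ⟨u₀, -, hu₀⟩ := h.exists_perp ∅ (by simp) 1
  have hu₀0 : Q u₀ ≠ 0 := by rw [hu₀]; exact one_ne_zero
  have key3 : ∀ u, Q u ≠ 0 → Q (g u) = Q (g u₀) * Q u := by
    intro u hu
    by_cases huv : B u u₀ = 0
    · obtain ⟨z, hz, hQz⟩ := h.exists_perp {u, u₀} (Finset.card_le_two.trans (by omega)) (1 - Q u - Q u₀)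
      have hzu := hz u (by simp)
      have hzu₀ := hz u₀ (by simp)
      have hQw : Q (u + u₀ + z) = 1 := by
        rw [h.add, h.add, hQz, huv, map_add, LinearMap.add_apply, h.symm u z, h.symm u₀ z, hzu, hzu₀]
        ring
      have hw0 : Q (u + u₀ + z) ≠ 0 := by rw [hQw]; exact one_ne_zero
      have h1 := key2 u (u + u₀ + z) hu hw0 (by
        rw [map_add, map_add, h.self, huv, h.symm u z, hzu]
        simpa using mul_ne_zero h2 hu)
      have h3 := key2 u₀ (u + u₀ + z) hu₀0 hw0 (by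
        rw [map_add, map_add, h.self, h.symm u₀ u, huv, h.symm u₀ z, hzu₀]
        simpa using mul_ne_zero h2 hu₀0)
      rw [hQw] at h1 h3
      rw [hu₀] at h3
      linear_combination h1 - (Q u) * h3
    · have := key2 u u₀ hu hu₀0 huv
      rw [hu₀] at this
      linear_combination this
  have hk : Q (g u₀) ≠ 0 := by
    intro hk
    have h1 : Q (g (g⁻¹ u₀)) = 0 := by
      by_cases h3 : Q (g⁻¹ u₀) = 0
      · -- singular case handled below in general; here use the perp trick
        obtain ⟨z, hz, hQz⟩ := h.exists_perp {g⁻¹ u₀} (by simp) 1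
        have hzu := hz (g⁻¹ u₀) (Finset.mem_singleton_self _)
        have hz0 : Q z ≠ 0 := by rw [hQz]; exact one_ne_zero
        have h4 : Q (g⁻¹ u₀ + z) ≠ 0 := by
          rw [h.add, h3, hQz, h.symm, hzu]; simp
        have h5 := key3 _ h4
        have h6 := key3 _ hz0
        rw [hk, zero_mul] at h5 h6
        rw [map_add, h.add, h6, hg z _ hz0 (by rw [h.symm]; exact hzu)] at h5
        simpa using h5
      · rw [key3 _ h3, hk, zero_mul]
    rw [apply_inv_self'] at h1
    exact hu₀0 h1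
  refine ⟨Units.mk0 _ hk, fun v => ?_⟩
  rw [Units.val_mk0]
  by_cases hv : Q v = 0
  · obtain ⟨z, hz, hQz⟩ := h.exists_perp {v} (by simp) 1
    have hzv := hz v (Finset.mem_singleton_self _)
    have hz0 : Q z ≠ 0 := by rw [hQz]; exact one_ne_zero
    have hQvz : Q (v + z) = 1 := by rw [h.add, hv, hQz, h.symm, hzv]; ring
    have h4 : Q (v + z) ≠ 0 := by rw [hQvz]; exact one_ne_zero
    have h5 := key3 _ h4
    have h6 := key3 _ hz0
    rw [map_add, h.add, h6, hg z _ hz0 (by rw [h.symm]; exact hzv), hQvz, hQz] at h5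
    rw [hv]
    linear_combination h5
  · exact key3 v hv

lemma exists_repr' [FiniteDimensional F V] (h : OSetup B Q) (φ : Dual F V) : ∃ b, ∀ x, φ x = B x b := by
  refine ⟨(B.toDual h.nondeg).symm φ, fun x => ?_⟩
  rw [h.symm, LinearMap.BilinForm.apply_toDual_symm_apply]

theorem core [FiniteDimensional F V] (h : OSetup B Q) (G : Subgroup (V ≃ₗ[F] V)) (hG : HG Q G)
    (φ0 : V ≃ₗ[F] V) (hφ0 : φ0 ∈ G) (hS : ¬ Simil Q φ0) (v y : V) (hvy : B v y = 0) : E B G v y := by
  classical
  obtain ⟨u, x, hu, hxu, hne⟩ : ∃ u x, Q u ≠ 0 ∧ B x u = 0 ∧ B (φ0 x) (φ0 u) ≠ 0 := by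
    by_contra hcon
    push Not at hcon
    exact hS (simil_of_preserves h φ0 hcon)
  obtain ⟨w, hw, hQw⟩ := h.exists_perp {u, x} (Finset.card_le_two.trans (by omega)) 1
  have hwu := hw u (by simp)
  have hwx := hw x (by simp)
  have hw0 : Q w ≠ 0 := by rw [hQw]; exact one_ne_zero
  obtain ⟨c₁, hc₁⟩ := exists_repr' h ((Q u)⁻¹ • (B.flip u) ∘ₗ ((φ0⁻¹ : V ≃ₗ[F] V) : V →ₗ[F] V))
  obtain ⟨c₂, hc₂⟩ := exists_repr' h ((Q w)⁻¹ • (B.flip w) ∘ₗ ((φ0⁻¹ : V ≃ₗ[F] V) : V →ₗ[F] V))
  simp only [LinearMap.smul_apply, LinearMap.comp_apply, LinearEquiv.coe_coe,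
    LinearMap.BilinForm.flip_apply, smul_eq_mul] at hc₁ hc₂
  have hgG : φ0 * (h.rf u hu * h.rf w hw0) * φ0⁻¹ ∈ G :=
    G.mul_mem (G.mul_mem hφ0 (rr_mem h hG _ _ _ _)) (G.inv_mem hφ0)
  have hform : ∀ t, (φ0 * (h.rf u hu * h.rf w hw0) * φ0⁻¹) t = t - B t c₁ • φ0 u - B t c₂ • φ0 w := by
    intro t
    simp only [LinearEquiv.mul_apply, h.rf_apply, map_sub, map_smul, LinearMap.sub_apply,
      LinearMap.smul_apply, smul_eq_mul, hwu, mul_zero, sub_zero, apply_inv_self', ← hc₁, ← hc₂]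
    have e1 : B (φ0⁻¹ t) u / Q u = (Q u)⁻¹ * B (φ0⁻¹ t) u := by field_simp
    have e2 : B (φ0⁻¹ t) w / Q w = (Q w)⁻¹ * B (φ0⁻¹ t) w := by field_simp
    rw [e1, e2]
    abel
  have h11 : B (φ0 u) c₁ = 2 := by rw [← hc₁, inv_apply_self', h.self]; field_simp
  have h12 : B (φ0 u) c₂ = 0 := by rw [← hc₂, inv_apply_self', h.symm, hwu, mul_zero]
  have hy1 : B (φ0 x) c₁ = 0 := by rw [← hc₁, inv_apply_self', hxu, mul_zero]
  have hy2 : B (φ0 x) c₂ = 0 := by rw [← hc₂, inv_apply_self', h.symm, hwx, mul_zero]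
  obtain ⟨a, b, ha, hb, hE⟩ := exists_E_of_bireflection h hG _ hgG c₁ c₂ (φ0 u) (φ0 w) (φ0 x)
    hform h11 h12 hy1 hy2 hne
  exact E_all h hG ha hE hb v y hvy

lemma tv_not_simil [FiniteDimensional F V] (h : OSetup B Q) (a b : V) (ha : Q a ≠ 0) (hb : b ≠ 0)
    (hab : B a b = 0) : ¬ Simil Q (tv B a b hab) := by
  rintro ⟨c, hc⟩
  have h1 := hc a
  rw [tv_apply, hab, zero_smul, add_zero] at h1
  have hc1 : (c : F) = 1 := by
    have : ((c : F) - 1) * Q a = 0 := by linear_combination -h1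
    rcases mul_eq_zero.1 this with h2 | h2
    · linear_combination h2
    · exact absurd h2 ha
  obtain ⟨x₀, hx₀⟩ := h.exists_pair_ne hb
  have hBa : B a a ≠ 0 := by rw [h.self]; exact mul_ne_zero h.two ha
  set x := x₀ - (B x₀ a / B a a) • a with hx
  have hxa : B x a = 0 := by
    simp only [hx, map_sub, map_smul, LinearMap.sub_apply, LinearMap.smul_apply, smul_eq_mul]
    field_simp
    ring
  have hxb : B x b = B x₀ b := by
    simp only [hx, map_sub, map_smul, LinearMap.sub_apply, LinearMap.smul_apply, smul_eq_mul, hab]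
    ring
  have h2 := hc x
  rw [tv_apply, h.add, h.smul, map_smul, hxa, hc1, hxb] at h2
  have : (B x₀ b) ^ 2 * Q a = 0 := by
    simp only [smul_eq_mul, mul_zero, add_zero, one_mul] at h2
    linear_combination h2
  rcases mul_eq_zero.1 this with h3 | h3
  · exact hx₀ (by simpa using h3)
  · exact ha h3

end core

/-- For a finite field F of odd order and n ≥ 13, let Q be a non-degenerate quadratic form on F^n (its polar form is non-degenerate). Then the elements of SL_n(F) that are similarities of Q (Q(gv) = c Q(v) for a non-zero scalar c depending on g) form a maximal subgroup of SL_n(F). -/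
theorem result {F : Type*} [Field F] [Fintype F] (n : ℕ) (hn : 13 ≤ n) (hodd : Odd (Fintype.card F)) (Q : (Fin n → F) → F) (hQ : Cfsg.Geo.IsNondegenerateQuadraticForm Q) : Cfsg.Geo.IsMaximalIn (Cfsg.Geo.specialLinear (Fin n) F) (Cfsg.Geo.quadSimilarityGroup Q ⊓ Cfsg.Geo.specialLinear (Fin n) F) := by
  classical
  have h2 : (2 : F) ≠ 0 := by
    intro h0
    have hchar : ringChar F = 2 := by
      have : ringChar F ∣ 2 := by
        rw [← ringChar.spec]
        exact_mod_cast h0
      rcases (Nat.dvd_prime Nat.prime_two).1 this with h1 | h1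
      · exact absurd h1 (CharP.ringChar_ne_one)
      · exact h1
    have := FiniteField.even_card_of_char_two hchar
    rw [Nat.odd_iff] at hodd
    omega
  set B := formB (QuadraticMap.polar Q) hQ.polar_bilinear with hB
  have hset : OSetup B Q :=
    { nondeg := formB_nondegenerate _ _ hQ.nondegenerate
      smul := hQ.smul
      add := by
        intro u v
        rw [hB, formB_apply, QuadraticMap.polar]
        ring
      two := h2
      rep := by
        intro a b c ha hb
        open Polynomial in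
        have hf : degree (C a * X ^ 2 : F[X]) = 2 := degree_C_mul_X_pow 2 ha
        open Polynomial in
        have hg : degree (C b * X ^ 2 - C c : F[X]) = 2 := by
          rw [degree_sub_C, degree_C_mul_X_pow 2 hb]
          · rfl
          · rw [degree_C_mul_X_pow 2 hb]; norm_num
        obtain ⟨x, y, hxy⟩ := FiniteField.exists_root_sum_quadratic hf hg (Nat.odd_iff.1 hodd)
        refine ⟨x, y, ?_⟩
        simp at hxy
        linear_combination hxy
      dim := by
        rw [Module.finrank_fintype_fun_eq_card, Fintype.card_fin]; exact hn }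
  have : Nontrivial (Fin n) := Fin.nontrivial_iff_two_le.2 (by omega)
  have hmem : ∀ g, g ∈ Cfsg.Geo.quadSimilarityGroup Q ↔ Simil Q (glEquiv _ F g) := by
    intro g
    unfold Simil
    simp only [glEquiv_apply]
    rfl
  refine isMaximalIn_of_core _ _ inf_le_right ?_ ?_
  · obtain ⟨a, -, ha⟩ := hset.exists_perp ∅ (by simp) 1
    obtain ⟨b, hb, hQb⟩ := hset.exists_perp {a} (by simp) 1
    have hba := hb a (Finset.mem_singleton_self _)
    have hab : B a b = 0 := by rw [hset.symm]; exact hba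
    have hb0 : b ≠ 0 := by
      rintro rfl
      rw [hset.zero] at hQb
      exact zero_ne_one hQb
    refine ⟨(glEquiv _ F).symm (tv B a b hab), ?_, ?_⟩
    · rw [symm_mem_specialLinear_iff]; exact tv_det _ _ _ _
    · intro h
      have h1 := (hmem _).1 h.1
      rw [MulEquiv.apply_symm_apply] at h1
      exact tv_not_simil hset a b (by rw [ha]; exact one_ne_zero) hb0 hab h1
  · intro M hHM hMK g0 hg0 hg0H k hk
    have hG : HG Q (M.map (glEquiv _ F).toMonoidHom) := by
      intro φ hdet hφ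
      refine ⟨(glEquiv _ F).symm φ, hHM (Subgroup.mem_inf.2 ⟨?_, ?_⟩), MulEquiv.apply_symm_apply _ _⟩
      · rw [hmem, MulEquiv.apply_symm_apply]
        exact ⟨1, fun v => by rw [hφ, Units.val_one, one_mul]⟩
      · rw [symm_mem_specialLinear_iff]; exact hdet
    have hg0S : ¬ Simil Q (glEquiv _ F g0) := fun h =>
      hg0H (Subgroup.mem_inf.2 ⟨(hmem _).2 h, hMK hg0⟩)
    obtain ⟨k', hk', hkk⟩ := mem_of_det_eq_one (M.map (glEquiv _ F).toMonoidHom) (by
      intro f v hfv
      obtain ⟨b, hb⟩ := exists_repr' hset f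
      have hvb : B v b = 0 := by rw [← hb, hfv]
      obtain ⟨h', hm⟩ := core hset _ hG (glEquiv _ F g0) ⟨g0, hg0, rfl⟩ hg0S v b hvb
      have : LinearEquiv.transvection hfv = tv B v b hvb := by
        ext x
        rw [tv_apply, LinearEquiv.transvection.apply, hb]
      rw [this]
      exact hm) k ((mem_specialLinear_iff k).1 hk)
    have : k' = k := (glEquiv _ F).injective hkk
    exact this ▸ hk'

end Cfsg.Agent.S5644
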