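import Cfsg.Statements.S0011
import Mathlib
import Cfsg.Agent.Lib.Helper1.Frattini

set_option autoImplicit false
open Cfsg

namespace Cfsg.Agent.S0011


/-- If the Frattini quotient of a finite group is nilpotent then the group is nilpotent. -/
theorem result {G : Type*} [Group G] [Finite G]
    (h : Group.IsNilpotent (G ⧸ frattini G)) : Group.IsNilpotent G := by
  have q := (Group.isNilpotent_of_finite_tfae (G := G)).out 0 2
  have q' := (Group.isNilpotent_of_finite_tfae (G := G ⧸ frattini G)).out 0 2
  rw [q]
  rw [q'] at h
  intro M hM
  have hker : (QuotientGroup.mk' (frattini G)).ker ≤ M := by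
    rw [QuotientGroup.ker_mk']; exact frattini_le_coatom hM
  have h1 := h _ (Cfsg.Agent.Lib.Helper1.isCoatom_map_of_surjective
    (QuotientGroup.mk'_surjective (frattini G)) hker hM)
  rw [← Subgroup.comap_map_eq_self hker]
  exact h1.comap _

end Cfsg.Agent.S0011
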