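import Cfsg.Statements.S0014
import Cfsg.Agent.Lib.Helper2.PGroupFrattini

set_option autoImplicit false
open Cfsg

namespace Cfsg.Agent.S0014

open Subgroup

section core

set_option linter.unusedSectionVars false

variable {G V : Type*} [Group G] [Finite G] [AddCommGroup V] {p : ℕ} [Fact p.Prime]
  [Module (ZMod p) V] [Finite V] (π : G →* Multiplicative V)

theorem span_of_closure (hπ : Function.Surjective π) (A : Set G) (hA : closure A = ⊤) :
    Submodule.span (ZMod p) ((fun g => (π g).toAdd) '' A) = ⊤ := by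
  rw [eq_top_iff]
  intro v _
  obtain ⟨g, hg⟩ := hπ (Multiplicative.ofAdd v)
  have key : ∀ g ∈ closure A, (π g).toAdd ∈
      Submodule.span (ZMod p) ((fun g => (π g).toAdd) '' A) := by
    intro g hg
    induction hg using Subgroup.closure_induction with
    | mem x hx => exact Submodule.subset_span ⟨x, hx, rfl⟩
    | one => simp
    | mul x y _ _ hx hy => rw [map_mul, toAdd_mul]; exact Submodule.add_mem _ hx hy
    | inv x _ hx => rw [map_inv, toAdd_inv]; exact Submodule.neg_mem _ hx
  have := key g (hA ▸ mem_top g)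
  rwa [hg] at this

theorem closure_of_span (hker : π.ker ≤ frattini G) (A : Set G)
    (hA : Submodule.span (ZMod p) ((fun g => (π g).toAdd) '' A) = ⊤) : closure A = ⊤ := by
  apply frattini_nongenerating
  rw [eq_top_iff]
  intro g _
  have key : ∀ v ∈ Submodule.span (ZMod p) ((fun g => (π g).toAdd) '' A),
      ∃ h ∈ closure A, (π h).toAdd = v := by
    intro v hv
    induction hv using Submodule.span_induction with
    | mem x hx =>
      obtain ⟨a, ha, rfl⟩ := hx
      exact ⟨a, subset_closure ha, rfl⟩
    | zero => exact ⟨1, one_mem _, by simp⟩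
    | add x y _ _ hx hy =>
      obtain ⟨a, ha, rfl⟩ := hx
      obtain ⟨b, hb, rfl⟩ := hy
      exact ⟨a * b, mul_mem ha hb, by rw [map_mul, toAdd_mul]⟩
    | smul c x _ hx =>
      obtain ⟨a, ha, rfl⟩ := hx
      refine ⟨a ^ c.val, pow_mem ha _, ?_⟩
      rw [map_pow, toAdd_pow]
      conv_rhs => rw [← ZMod.natCast_zmod_val c, Nat.cast_smul_eq_nsmul]
  obtain ⟨h, hh, hhg⟩ := key (π g).toAdd (hA ▸ Submodule.mem_top)
  have h1 : h⁻¹ * g ∈ π.ker := by
    rw [MonoidHom.mem_ker, map_mul, map_inv]
    have : π h = π g := by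
      apply Multiplicative.toAdd.injective hhg
    rw [this, inv_mul_cancel]
  have : g = h * (h⁻¹ * g) := by group
  rw [this]
  exact mul_mem (mem_sup_left hh) (mem_sup_right (hker h1))

theorem core (hπ : Function.Surjective π) (hker : π.ker ≤ frattini G) (n : ℕ)
    (hn : Nat.card V = p ^ n) :
    (∀ S : Finset G, Subgroup.closure (S : Set G) = ⊤ →
      ∃ T : Finset G, T ⊆ S ∧ T.card = n ∧ Subgroup.closure (T : Set G) = ⊤) ∧
    (∀ T : Finset G, Subgroup.closure (T : Set G) = ⊤ → n ≤ T.card) := by
  classical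
  have hp : p.Prime := Fact.out
  have hfr : Module.finrank (ZMod p) V = n := by
    have h1 := Module.natCard_eq_pow_finrank (K := ZMod p) (V := V)
    rw [hn, Nat.card_zmod] at h1
    exact (Nat.pow_right_injective hp.two_le h1).symm
  constructor
  · intro S hS
    have h1 := span_of_closure (p := p) π hπ _ hS
    obtain ⟨b, hb, hbs, hli⟩ := exists_linearIndependent (ZMod p) ((fun g => (π g).toAdd) '' (S : Set G))
    rw [h1] at hbs
    obtain ⟨s', hs', hbij⟩ := Set.exists_subset_bijOn ((S : Set G) ∩ (fun g => (π g).toAdd) ⁻¹' b)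
      (fun g => (π g).toAdd)
    have himg : (fun g => (π g).toAdd) '' ((S : Set G) ∩ (fun g => (π g).toAdd) ⁻¹' b) = b := by
      ext v
      constructor
      · rintro ⟨a, ⟨_, ha⟩, rfl⟩
        exact ha
      · intro hv
        obtain ⟨a, ha, rfl⟩ := hb hv
        exact ⟨a, ⟨ha, hv⟩, rfl⟩
    rw [himg] at hbij
    have hfin : s'.Finite := Set.toFinite _
    refine ⟨hfin.toFinset, ?_, ?_, ?_⟩
    · intro x hx
      have := hs' (hfin.mem_toFinset.mp hx)
      exact Finset.mem_coe.mp this.1
    · have := Fintype.ofFinite b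
      have h2 := finrank_span_set_eq_card (R := ZMod p) (s := b) hli
      rw [hbs, finrank_top, hfr] at h2
      rw [h2, ← Set.ncard_eq_toFinset_card', ← Set.ncard_eq_toFinset_card _ hfin]
      rw [← hbij.image_eq]
      exact hbij.injOn.ncard_image.symm
    · apply closure_of_span (p := p) π hker
      rw [Set.Finite.coe_toFinset, hbij.image_eq, hbs]
  · intro T hT
    have h1 := span_of_closure (p := p) π hπ _ hT
    have h2 := finrank_span_finset_le_card (R := ZMod p) (T.image (fun g => (π g).toAdd))
    rw [Finset.coe_image] at h2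
    unfold Set.finrank at h2
    rw [h1, finrank_top, hfr] at h2
    exact h2.trans Finset.card_image_le

end core

theorem result {G : Type*} [Group G] [Finite G] (p n : ℕ) [Fact p.Prime]
    (hG : IsPGroup p G) (hn : (frattini G).index = p ^ n) :
    (∀ S : Finset G, Subgroup.closure (S : Set G) = ⊤ → ∃ T : Finset G, T ⊆ S ∧ T.card = n ∧ Subgroup.closure (T : Set G) = ⊤) ∧
    (∀ T : Finset G, Subgroup.closure (T : Set G) = ⊤ → n ≤ T.card) := by
  classical
  have hcomm : ∀ a b : G ⧸ frattini G, a * b = b * a := by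
    intro a b
    induction a using QuotientGroup.induction_on with | _ a => ?_
    induction b using QuotientGroup.induction_on with | _ b => ?_
    rw [← QuotientGroup.mk_mul, ← QuotientGroup.mk_mul, QuotientGroup.eq]
    have h1 : b⁻¹ * a⁻¹ * b⁻¹⁻¹ * a⁻¹⁻¹ ∈ commutator G :=
      Subgroup.commutator_mem_commutator (mem_top b⁻¹) (mem_top a⁻¹)
    have h2 := Lib.Helper2.commutator_le_frattini hG h1
    have h3 : (a * b)⁻¹ * (b * a) = b⁻¹ * a⁻¹ * b⁻¹⁻¹ * a⁻¹⁻¹ := by group
    rw [h3]; exact h2
  let _ : CommGroup (G ⧸ frattini G) :=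
    { (inferInstance : Group (G ⧸ frattini G)) with mul_comm := hcomm }
  let _ : Module (ZMod p) (Additive (G ⧸ frattini G)) := AddCommGroup.zmodModule (by
    intro x
    induction x using Additive.rec with | _ x => ?_
    induction x using QuotientGroup.induction_on with | _ a => ?_
    rw [← ofMul_pow, ← QuotientGroup.mk_pow,
      (QuotientGroup.eq_one_iff _).mpr (Lib.Helper2.pow_p_mem_frattini hG a)]
    rfl)
  refine core (p := p) (V := Additive (G ⧸ frattini G))
    ((MulEquiv.refl _ : G ⧸ frattini G ≃* Multiplicative (Additive (G ⧸ frattini G))).toMonoidHom.comp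
      (QuotientGroup.mk' (frattini G))) ?_ ?_ n ?_
  · exact QuotientGroup.mk'_surjective _
  · intro x hx
    have : QuotientGroup.mk' (frattini G) x = 1 := hx
    rwa [QuotientGroup.mk'_apply, QuotientGroup.eq_one_iff] at this
  · rw [← hn]; rfl

end Cfsg.Agent.S0014
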