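import Cfsg.Statements.S0019
import Mathlib
import Cfsg.Agent.Lib.Helper1.Tools
import Cfsg.Agent.Lib.Helper1.MinimalNormal

set_option autoImplicit false
open Cfsg

namespace Cfsg.Agent.S0019

open Cfsg.Agent.Lib.Helper1
open Pointwise

theorem inner {G : Type*} [Group G] [Finite G] (H₁ H₂ A : Subgroup G) (p : ℕ) [Fact p.Prime]
    (h12 : ∀ g : G, ∃ x ∈ H₁, ∃ y ∈ H₂, g = x * y)
    (hA : IsPGroup p A) (hAne : A ≠ ⊥) (hAn : H₁ ≤ Subgroup.normalizer (A : Set G))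
    (hp : ¬ p ∣ H₂.index) : ∃ N : Subgroup G, N.Normal ∧ N ≠ ⊥ ∧ N ≤ H₂ := by
  have h21 : ∀ g : G, ∃ y ∈ H₂, ∃ x ∈ H₁, g = y * x := by
    intro g
    obtain ⟨x, hx, y, hy, hg⟩ := h12 g⁻¹
    exact ⟨y⁻¹, H₂.inv_mem hy, x⁻¹, H₁.inv_mem hx, by rw [← inv_inv g, hg]; group⟩
  let P : Sylow p H₂ := default
  have hP' : IsPGroup p ((P : Subgroup H₂).map H₂.subtype) := P.isPGroup'.map _
  have hPi : ¬ p ∣ ((P : Subgroup H₂).map H₂.subtype).index := by
    rw [Subgroup.index_map_subtype]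
    exact (Nat.Prime.not_dvd_mul Fact.out P.not_dvd_index hp)
  let P' : Sylow p G := hP'.toSylow hPi
  obtain ⟨Q, hQ⟩ := hA.exists_le_sylow
  obtain ⟨g, hg⟩ := MulAction.exists_smul_eq G Q P'
  have h1 : MulAut.conj g • A ≤ H₂ := by
    have h2 : MulAut.conj g • A ≤ MulAut.conj g • (Q : Subgroup G) :=
      Subgroup.pointwise_smul_le_pointwise_smul_iff.2 hQ
    have h3 : MulAut.conj g • (Q : Subgroup G) = (P' : Subgroup G) := by
      rw [← Sylow.coe_subgroup_smul, hg]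
    rw [h3] at h2
    exact h2.trans (Subgroup.map_subtype_le _)
  have hAH₂ : A ≤ H₂ := by
    obtain ⟨y, hy, x, hx, rfl⟩ := h21 g
    rw [conj_mul_smul, mem_normalizer_iff_conj_smul.1 (hAn hx)] at h1
    intro a ha
    have h2 := h1 (conj_mem_conj_smul y ha)
    have h3 : a = y⁻¹ * (y * a * y⁻¹) * y := by group
    rw [h3]
    exact H₂.mul_mem (H₂.mul_mem (H₂.inv_mem hy) h2) hy
  refine ⟨H₂.normalCore, inferInstance, ?_, H₂.normalCore_le⟩
  have h2 : A ≤ H₂.normalCore := by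
    intro a ha b
    obtain ⟨y, hy, x, hx, rfl⟩ := h21 b
    have h3 : x * a * x⁻¹ ∈ A := (Subgroup.mem_normalizer_iff.1 (hAn hx) a).1 ha
    have h4 : y * x * a * (y * x)⁻¹ = y * (x * a * x⁻¹) * y⁻¹ := by group
    rw [h4]
    exact H₂.mul_mem (H₂.mul_mem hy (hAH₂ h3)) (H₂.inv_mem hy)
  intro h
  rw [h, le_bot_iff] at h2
  exact hAne h2

theorem aux (k : ℕ) : ∀ (G : Type*) [Group G] [Finite G], Nat.card G = k →
    ∀ (H₁ H₂ H₃ : Subgroup G), Group.IsSolvable H₁ → Group.IsSolvable H₂ → Group.IsSolvable H₃ →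
    (∀ g : G, ∃ x ∈ H₁, ∃ y ∈ H₂, g = x * y) → (∀ g : G, ∃ x ∈ H₁, ∃ y ∈ H₃, g = x * y) →
    H₂.index.Coprime H₃.index → Group.IsSolvable G := by
  induction k using Nat.strong_induction_on with
  | _ k ih =>
  intro G _ _ hk H₁ H₂ H₃ h₁ h₂ h₃ h12 h13 hcop
  by_cases hH₁ : H₁ = ⊥
  · subst hH₁
    refine Group.isSolvable_of_surjective (f := H₂.subtype) ?_
    intro g
    obtain ⟨x, hx, y, hy, rfl⟩ := h12 g
    rw [Subgroup.mem_bot] at hx
    exact ⟨⟨y, hy⟩, by simp [hx]⟩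
  have : Nontrivial H₁ := (Subgroup.nontrivial_iff_ne_bot H₁).2 hH₁
  obtain ⟨p, A₀, hp, hA₀n, hA₀ne, hA₀p, -, -⟩ := exists_normal_pSubgroup_of_solvable (G := H₁)
  have : Fact p.Prime := ⟨hp⟩
  let A : Subgroup G := A₀.map H₁.subtype
  have hAH : A ≤ H₁ := Subgroup.map_subtype_le A₀
  have hAne : A ≠ ⊥ := by
    rwa [Ne, Subgroup.map_eq_bot_iff_of_injective _ H₁.subtype_injective]
  have hAp : IsPGroup p A := hA₀p.map _
  have hAn : H₁ ≤ Subgroup.normalizer (A : Set G) := by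
    rw [← Subgroup.normal_subgroupOf_iff_le_normalizer hAH]
    rw [show A.subgroupOf H₁ = A₀ from Subgroup.comap_map_eq_self_of_injective
      H₁.subtype_injective A₀]
    exact hA₀n
  have hN : ∃ N : Subgroup G, N.Normal ∧ N ≠ ⊥ ∧ Group.IsSolvable N := by
    by_cases hp2 : p ∣ H₂.index
    · have hp3 : ¬ p ∣ H₃.index := fun h =>
        hp.one_lt.ne' (Nat.eq_one_of_dvd_coprimes hcop hp2 h)
      obtain ⟨N, h1, h2, h3⟩ := inner H₁ H₃ A p h13 hAp hAne hAn hp3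
      exact ⟨N, h1, h2, isSolvable_of_le h3 h₃⟩
    · obtain ⟨N, h1, h2, h3⟩ := inner H₁ H₂ A p h12 hAp hAne hAn hp2
      exact ⟨N, h1, h2, isSolvable_of_le h3 h₂⟩
  obtain ⟨N, hNn, hNne, hNs⟩ := hN
  let f := QuotientGroup.mk' N
  have hf : Function.Surjective f := QuotientGroup.mk'_surjective N
  have hq : Group.IsSolvable (G ⧸ N) := by
    refine ih _ (by rw [← hk]; exact card_quotient_lt_of_ne_bot hNne) (G ⧸ N) rfl
      (H₁.map f) (H₂.map f) (H₃.map f) (isSolvable_map f _ h₁) (isSolvable_map f _ h₂)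
      (isSolvable_map f _ h₃) ?_ ?_ ?_
    · intro g'
      obtain ⟨g, rfl⟩ := hf g'
      obtain ⟨x, hx, y, hy, rfl⟩ := h12 g
      exact ⟨f x, Subgroup.mem_map_of_mem f hx, f y, Subgroup.mem_map_of_mem f hy, map_mul f x y⟩
    · intro g'
      obtain ⟨g, rfl⟩ := hf g'
      obtain ⟨x, hx, y, hy, rfl⟩ := h13 g
      exact ⟨f x, Subgroup.mem_map_of_mem f hx, f y, Subgroup.mem_map_of_mem f hy, map_mul f x y⟩
    · exact Nat.Coprime.coprime_dvd_left (Subgroup.index_map_dvd H₂ hf)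
        (Nat.Coprime.coprime_dvd_right (Subgroup.index_map_dvd H₃ hf) hcop)
  exact (Group.isSolvable_iff_subgroup_quotient N).2 ⟨hNs, hq⟩


/-- A finite group that factorises as H₁H₂ and as H₁H₃ with all three subgroups solvable and the indices of H₂ and H₃ coprime is solvable. -/
theorem result {G : Type*} [Group G] [Finite G] (H₁ H₂ H₃ : Subgroup G)
    (h₁ : Group.IsSolvable H₁) (h₂ : Group.IsSolvable H₂) (h₃ : Group.IsSolvable H₃)
    (h12 : ∀ g : G, ∃ x ∈ H₁, ∃ y ∈ H₂, g = x * y) (h13 : ∀ g : G, ∃ x ∈ H₁, ∃ y ∈ H₃, g = x * y)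
    (hcop : H₂.index.Coprime H₃.index) : Group.IsSolvable G := by
  exact aux _ G rfl H₁ H₂ H₃ h₁ h₂ h₃ h12 h13 hcop

end Cfsg.Agent.S0019
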