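import Cfsg.Statements.S0020
import Mathlib
import Cfsg.Agent.S0007
import Cfsg.Agent.Lib.Helper1.Hall

set_option autoImplicit false
open Pointwise
open Cfsg

namespace Cfsg.Agent.S0020

open Cfsg.Agent.Lib.Helper1

/-- the index of an intersection of subgroups of pairwise coprime prime-power indices -/
theorem index_iInf {G : Type*} [Group G] [Finite G] (H : ℕ → Subgroup G) (v : ℕ → ℕ)
    (hH : ∀ q : ℕ, q.Prime → (H q).index = q ^ v q) (s : Finset ℕ) (hs : ∀ q ∈ s, q.Prime) :
    (⨅ q ∈ s, H q).index = ∏ q ∈ s, q ^ v q := by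
  induction s using Finset.induction_on with
  | empty => simp
  | insert a s ha ih =>
    have hs' : ∀ q ∈ s, q.Prime := fun q hq => hs q (Finset.mem_insert_of_mem hq)
    have hap : a.Prime := hs a (Finset.mem_insert_self a s)
    rw [Finset.iInf_insert, Finset.prod_insert ha, ← ih hs', ← hH a hap]
    apply (Cfsg.Agent.S0007.result _ _ _).1
    rw [ih hs', hH a hap]
    apply Nat.Coprime.prod_right
    intro q hq
    exact Nat.coprime_pow_primes _ _ hap (hs' q hq) (fun h => ha (h ▸ hq))

theorem prod_erase_mul (n : ℕ) (hn : n ≠ 0) (s : Finset ℕ) (p : ℕ)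
    (v : ℕ → ℕ) (hv : ∀ q, q ∉ s → v q = 0) :
    (∏ q ∈ s.erase p, q ^ v q) * p ^ v p = ∏ q ∈ s, q ^ v q := by
  by_cases hp : p ∈ s
  · exact Finset.prod_erase_mul s _ hp
  · rw [Finset.erase_eq_of_notMem hp, hv p hp, pow_zero, mul_one]


/-- A finite solvable group admits a Sylow system: Sylow subgroups, one for each prime, that pairwise permute as sets. -/
theorem result {G : Type*} [Group G] [Finite G] [Group.IsSolvable G] :
    ∃ S : (p : Nat.Primes) → Sylow (p : ℕ) G,
      ∀ p q : Nat.Primes, (S p : Set G) * (S q : Set G) = (S q : Set G) * (S p : Set G) := by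
  classical
  let n := Nat.card G
  have hn : n ≠ 0 := Nat.card_pos.ne'
  let v : ℕ → ℕ := fun q => n.factorization q
  let PF : Finset ℕ := n.primeFactors
  have hPF : ∀ q ∈ PF, q.Prime := fun q hq => Nat.prime_of_mem_primeFactors hq
  have hv : ∀ q, q ∉ PF → v q = 0 := fun q hq => by
    have : q ∉ n.factorization.support := by rwa [Nat.support_factorization]
    exact Finsupp.notMem_support_iff.1 this
  have hprod : ∏ q ∈ PF, q ^ v q = n := Nat.prod_factorization_pow_eq_self hn
  -- the `p`-complements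
  have hex : ∀ q : ℕ, ∃ H : Subgroup G, q.Prime → H.index = q ^ v q := by
    intro q
    by_cases hq : q.Prime
    · obtain ⟨H, hH⟩ := hall_exists (G := G) (ordCompl[q] n) (ordProj[q] n)
        (by rw [mul_comm]; exact (Nat.ordProj_mul_ordCompl_eq_self n q).symm)
        ((Nat.coprime_ordCompl hq hn).pow_left _).symm
      refine ⟨H, fun _ => ?_⟩
      have h1 := Subgroup.card_mul_index H
      rw [hH] at h1
      have h2 : ordCompl[q] n * H.index = ordCompl[q] n * q ^ v q := by
        rw [h1, mul_comm]; exact (Nat.ordProj_mul_ordCompl_eq_self n q).symm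
      exact Nat.eq_of_mul_eq_mul_left (Nat.ordCompl_pos q hn) h2
    · exact ⟨⊤, fun h => absurd h hq⟩
  choose H hH using hex
  let I : Finset ℕ → Subgroup G := fun s => ⨅ q ∈ s, H q
  have hI : ∀ s : Finset ℕ, s ⊆ PF → (I s).index = ∏ q ∈ s, q ^ v q := fun s hs =>
    index_iInf H v hH s (fun q hq => hPF q (hs hq))
  have hImono : ∀ s t : Finset ℕ, s ⊆ t → I t ≤ I s := fun s t hst =>
    biInf_mono (fun q hq => hst hq)
  have hIe : ∀ (s : Finset ℕ), s ⊆ PF → (∀ q, q ∉ s → v q = 0 ∨ True) → True := fun _ _ _ => trivial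
  -- index of `I (s.erase p)`
  have hidx : ∀ (s : Finset ℕ) (p : ℕ), s ⊆ PF → (∀ q, q ∉ s → q ≠ p → True) →
      (p ∉ s → v p = 0) → (I (s.erase p)).index * p ^ v p = (I s).index := by
    intro s p hs _ hp0
    rw [hI s hs, hI _ ((Finset.erase_subset p s).trans hs)]
    by_cases hp : p ∈ s
    · exact Finset.prod_erase_mul s _ hp
    · rw [Finset.erase_eq_of_notMem hp, hp0 hp, pow_zero, mul_one]
  have hItop : (I PF).index = n := by rw [hI PF subset_rfl, hprod]
  have hcard : ∀ p : Nat.Primes, Nat.card (I (PF.erase p)) = (p : ℕ) ^ n.factorization p := by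
    intro p
    have h1 := hidx PF p subset_rfl (fun _ _ _ => trivial) (hv p)
    rw [hItop] at h1
    have h2 := Subgroup.card_mul_index (I (PF.erase p))
    have h3 : (I (PF.erase p)).index * Nat.card (I (PF.erase p))
        = (I (PF.erase p)).index * (p : ℕ) ^ v p := by
      rw [h1, mul_comm]; exact h2
    exact Nat.eq_of_mul_eq_mul_left (Nat.pos_of_ne_zero Subgroup.index_ne_zero_of_finite) h3
  have key : ∀ p q : Nat.Primes, p ≠ q → ∀ t ∈ I ((PF.erase p).erase q),
      ∃ x ∈ I (PF.erase p), ∃ y ∈ I (PF.erase q), t = x * y := by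
    intro p q hpq t ht
    set T := I ((PF.erase p).erase q) with hT
    have hpT : I (PF.erase p) ≤ T := hImono _ _ (Finset.erase_subset _ _)
    have hqT : I (PF.erase q) ≤ T := by
      rw [hT, Finset.erase_right_comm]
      exact hImono _ _ (Finset.erase_subset _ _)
    have hTpos : 0 < T.index := Nat.pos_of_ne_zero Subgroup.index_ne_zero_of_finite
    have h1 : (I (PF.erase p)).relIndex T = (q : ℕ) ^ v q := by
      have h2 := hidx (PF.erase p) q (Finset.erase_subset _ _) (fun _ _ _ => trivial) (by
        intro hq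
        apply hv
        intro hq'
        exact hq (Finset.mem_erase.2 ⟨fun h => hpq (Subtype.ext h.symm), hq'⟩))
      have h3 := Subgroup.relIndex_mul_index hpT
      rw [← h2, mul_comm] at h3
      exact Nat.eq_of_mul_eq_mul_left hTpos h3
    have h1' : (I (PF.erase q)).relIndex T = (p : ℕ) ^ v p := by
      have h2 := hidx (PF.erase q) p (Finset.erase_subset _ _) (fun _ _ _ => trivial) (by
        intro hq
        apply hv
        intro hq'
        exact hq (Finset.mem_erase.2 ⟨fun h => hpq (Subtype.ext h), hq'⟩))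
      have h3 := Subgroup.relIndex_mul_index hqT
      rw [Finset.erase_right_comm] at h2
      rw [← h2, mul_comm] at h3
      exact Nat.eq_of_mul_eq_mul_left hTpos h3
    obtain ⟨x, hx, y, hy, hxy⟩ := (Cfsg.Agent.S0007.result ((I (PF.erase p)).subgroupOf T)
      ((I (PF.erase q)).subgroupOf T) (by
        change ((I (PF.erase p)).relIndex T).Coprime ((I (PF.erase q)).relIndex T)
        rw [h1, h1']
        exact Nat.coprime_pow_primes _ _ q.2 p.2 (fun h => hpq (Subtype.ext h.symm)))).2 ⟨t, ht⟩
    exact ⟨x, hx, y, hy, congrArg Subtype.val hxy⟩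
  have hfact : ∀ p : Nat.Primes, Fact (p : ℕ).Prime := fun p => ⟨p.2⟩
  refine ⟨fun p => Sylow.ofCard (I (PF.erase p)) (hcard p), ?_⟩
  intro p q
  by_cases hpq : p = q
  · rw [hpq]
  · have hsub : ∀ p q : Nat.Primes, p ≠ q →
        ((I (PF.erase p) : Subgroup G) : Set G) * ((I (PF.erase q) : Subgroup G) : Set G)
          = ((I ((PF.erase p).erase q) : Subgroup G) : Set G) := by
      intro p q hpq
      apply Set.Subset.antisymm
      · rintro _ ⟨x, hx, y, hy, rfl⟩
        refine Subgroup.mul_mem _ (hImono _ _ (Finset.erase_subset _ _) hx) ?_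
        rw [Finset.erase_right_comm]
        exact hImono _ _ (Finset.erase_subset _ _) hy
      · intro t ht
        obtain ⟨x, hx, y, hy, rfl⟩ := key p q hpq t ht
        exact ⟨x, hx, y, hy, rfl⟩
    change ((I (PF.erase p) : Subgroup G) : Set G) * ((I (PF.erase q) : Subgroup G) : Set G)
      = ((I (PF.erase q) : Subgroup G) : Set G) * ((I (PF.erase p) : Subgroup G) : Set G)
    rw [hsub p q hpq, hsub q p (Ne.symm hpq), Finset.erase_right_comm]

end Cfsg.Agent.S0020
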