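import Cfsg.Statements.S0043
import Mathlib
import Cfsg.Agent.Lib.Helper1.MinimalNormal

set_option autoImplicit false
open Cfsg

namespace Cfsg.Agent.S0043


/-- A minimal normal subgroup of a finite solvable group is abelian, and for some prime p all of its elements have order dividing p. -/
theorem result {G : Type*} [Group G] [Finite G] [Group.IsSolvable G]
    (N : Subgroup G) [N.Normal] (hN : N ≠ ⊥) (hmin : ∀ M : Subgroup G, M.Normal → M ≤ N → M = ⊥ ∨ M = N) :
    IsMulCommutative N ∧ ∃ p : ℕ, p.Prime ∧ ∀ x ∈ N, x ^ p = 1 := by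
  exact Cfsg.Agent.Lib.Helper1.minimal_normal_elementary_abelian N inferInstance hN hmin

end Cfsg.Agent.S0043
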