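import Mathlib
import Cfsg.Statements.S0047
import Cfsg.Agent.Lib.Helper91.Fitting

set_option autoImplicit false
open Cfsg

namespace Cfsg.Agent.S0047

open scoped commutatorElement
open Subgroup

/-- A finite group which is the product AB of two abelian subgroups A and B is solvable. -/
theorem result {G : Type*} [Group G] [Finite G] (A B : Subgroup G)
    [IsMulCommutative A] [IsMulCommutative B] (hAB : ∀ g : G, ∃ a ∈ A, ∃ b ∈ B, g = a * b) :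
    Group.IsSolvable G := by
  have hA : ∀ x ∈ A, ∀ y ∈ A, x * y = y * x := fun x hx y hy => setLike_mul_comm hx hy
  have hB : ∀ x ∈ B, ∀ y ∈ B, x * y = y * x := fun x hx y hy => setLike_mul_comm hx hy
  have hBA : ∀ g : G, ∃ b ∈ B, ∃ a ∈ A, g = b * a := by
    intro g
    obtain ⟨a, ha, b, hb, h⟩ := hAB g⁻¹
    refine ⟨b⁻¹, B.inv_mem hb, a⁻¹, A.inv_mem ha, ?_⟩
    rw [← mul_inv_rev, ← h, inv_inv]
  have cA : ∀ x ∈ A, ∀ y ∈ A, ⁅x, y⁆ = 1 := fun x hx y hy =>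
    commutatorElement_eq_one_iff_mul_comm.2 (hA x hx y hy)
  have cB : ∀ x ∈ B, ∀ y ∈ B, ⁅x, y⁆ = 1 := fun x hx y hy =>
    commutatorElement_eq_one_iff_mul_comm.2 (hB x hx y hy)
  -- the key identity
  have key : ∀ a ∈ A, ∀ b ∈ B, ∀ a1 ∈ A, ∀ b1 ∈ B,
      (a1 * b1) * ⁅a, b⁆ * (a1 * b1)⁻¹ = (b1 * a1) * ⁅a, b⁆ * (b1 * a1)⁻¹ := by
    intro a ha b hb a1 ha1 b1 hb1
    obtain ⟨a3, ha3, b3, hb3, h3⟩ := hAB (b1 * a * b1⁻¹)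
    obtain ⟨b2, hb2, a2, ha2, h2⟩ := hBA (a1 * b * a1⁻¹)
    have eb : b1 * b * b1⁻¹ = b := by rw [hB b1 hb1 b hb]; group
    have ea : a1 * a * a1⁻¹ = a := by rw [hA a1 ha1 a ha]; group
    have ea3 : a1 * a3 * a1⁻¹ = a3 := by rw [hA a1 ha1 a3 ha3]; group
    have eb2 : b1 * b2 * b1⁻¹ = b2 := by rw [hB b1 hb1 b2 hb2]; group
    have l1 : ∀ y ∈ B, ⁅a3 * b3, y⁆ = ⁅a3, y⁆ := by
      intro y hy
      rw [commutatorElement_mul_left_eq_conj_mul, cB b3 hb3 y hy]; group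
    have l2 : ∀ x ∈ A, ⁅x, b2 * a2⁆ = ⁅x, b2⁆ := by
      intro x hx
      rw [commutatorElement_mul_right_eq_mul_conj, cA x hx a2 ha2]; group
    have L : (a1 * b1) * ⁅a, b⁆ * (a1 * b1)⁻¹ = ⁅a3, b2⁆ := by
      calc (a1 * b1) * ⁅a, b⁆ * (a1 * b1)⁻¹ = a1 * (b1 * ⁅a, b⁆ * b1⁻¹) * a1⁻¹ := by group
        _ = a1 * ⁅a3, b⁆ * a1⁻¹ := by
          rw [conjugate_commutatorElement, eb, h3, l1 b hb]
        _ = ⁅a3, b2⁆ := by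
          rw [conjugate_commutatorElement, ea3, h2, l2 a3 ha3]
    have R : (b1 * a1) * ⁅a, b⁆ * (b1 * a1)⁻¹ = ⁅a3, b2⁆ := by
      calc (b1 * a1) * ⁅a, b⁆ * (b1 * a1)⁻¹ = b1 * (a1 * ⁅a, b⁆ * a1⁻¹) * b1⁻¹ := by group
        _ = b1 * ⁅a, b2⁆ * b1⁻¹ := by
          rw [conjugate_commutatorElement, ea, h2, l2 a ha]
        _ = ⁅a3, b2⁆ := by
          rw [conjugate_commutatorElement, eb2, h3, l1 b2 hb2]
    rw [L, R]
  have comm : ∀ a ∈ A, ∀ b ∈ B, ∀ a' ∈ A, ∀ b' ∈ B, ⁅a', b'⁆ * ⁅a, b⁆ = ⁅a, b⁆ * ⁅a', b'⁆ := by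
    intro a ha b hb a' ha' b' hb'
    have h := key a ha b hb a'⁻¹ (A.inv_mem ha') b'⁻¹ (B.inv_mem hb')
    set u := ⁅a, b⁆ with hu
    have e : ⁅a', b'⁆ = (b'⁻¹ * a'⁻¹)⁻¹ * (a'⁻¹ * b'⁻¹) := by
      rw [commutatorElement_def]; group
    rw [e]
    calc (b'⁻¹ * a'⁻¹)⁻¹ * (a'⁻¹ * b'⁻¹) * u
        = (b'⁻¹ * a'⁻¹)⁻¹ * ((a'⁻¹ * b'⁻¹) * u * (a'⁻¹ * b'⁻¹)⁻¹) * (a'⁻¹ * b'⁻¹) := by group
      _ = (b'⁻¹ * a'⁻¹)⁻¹ * ((b'⁻¹ * a'⁻¹) * u * (b'⁻¹ * a'⁻¹)⁻¹) * (a'⁻¹ * b'⁻¹) := by rw [h]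
      _ = u * ((b'⁻¹ * a'⁻¹)⁻¹ * (a'⁻¹ * b'⁻¹)) := by group
  set K : Subgroup G := ⁅A, B⁆ with hK
  have hKcomm : IsMulCommutative K := by
    rw [hK, Subgroup.commutator_def]
    apply isMulCommutative_closure
    rintro _ ⟨a', ha', b', hb', rfl⟩ _ ⟨a, ha, b, hb, rfl⟩
    exact comm a ha b hb a' ha' b' hb'
  have htop : A ⊔ B = ⊤ := by
    rw [eq_top_iff]
    intro g _
    obtain ⟨a, ha, b, hb, rfl⟩ := hAB g
    exact mul_mem_sup ha hb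
  have hKn : K.Normal := by
    rw [← normalizer_eq_top_iff, eq_top_iff, ← htop]
    exact sup_le (normalizer_commutator_ge_left A B) (normalizer_commutator_ge_right A B)
  have hAA : ⁅A, A⁆ = ⊥ := commutator_self_eq_bot_iff.2 inferInstance
  have hBB : ⁅B, B⁆ = ⊥ := commutator_self_eq_bot_iff.2 inferInstance
  have h1 : ⁅(⊤ : Subgroup G), ⊤⁆ ≤ K := by
    rw [← htop]
    apply Lib.Helper91.sup_commutator_le
    · apply Lib.Helper91.commutator_sup_le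
      · rw [hAA]; exact bot_le
      · exact le_rfl
    · apply Lib.Helper91.commutator_sup_le
      · rw [commutator_comm]
      · rw [hBB]; exact bot_le
  have h2 : ⁅K, K⁆ = ⊥ := commutator_self_eq_bot_iff.2 hKcomm
  refine ⟨⟨2, ?_⟩⟩
  show ⁅⁅(⊤ : Subgroup G), ⊤⁆, ⁅(⊤ : Subgroup G), ⊤⁆⁆ = ⊥
  exact le_bot_iff.1 (h2 ▸ commutator_mono h1 h1)

end Cfsg.Agent.S0047
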