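import Cfsg.Statements.S0048
import Mathlib
import Cfsg.Agent.Lib.Helper1.Frattini
import Cfsg.Agent.Lib.Helper1.Tools
import Cfsg.Agent.Lib.Helper1.MinimalNormal

set_option autoImplicit false
open Cfsg

namespace Cfsg.Agent.S0048

open Cfsg.Agent.Lib.Helper1 in
theorem aux (k : ℕ) : ∀ (G : Type*) [Group G] [Finite G] [Group.IsSolvable G],
    Nat.card G = k → ∀ M : Subgroup G, IsCoatom M → IsPrimePow M.index := by
  induction k using Nat.strong_induction_on with
  | _ k ih =>
  intro G _ _ _ hk M hM
  have hnt : Nontrivial G := by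
    by_contra h
    rw [not_nontrivial_iff_subsingleton] at h
    exact hM.1 (Subsingleton.elim _ _)
  obtain ⟨p, N, hp, hNn, hNne, hNp, -, -⟩ := exists_normal_pSubgroup_of_solvable (G := G)
  have : Fact p.Prime := ⟨hp⟩
  by_cases hNM : N ≤ M
  · let f := QuotientGroup.mk' N
    have hf : Function.Surjective f := QuotientGroup.mk'_surjective N
    have hker : f.ker ≤ M := by rw [QuotientGroup.ker_mk']; exact hNM
    have h1 := ih _ (by rw [← hk]; exact card_quotient_lt_of_ne_bot hNne) (G ⧸ N) rfl (M.map f)
      (isCoatom_map_of_surjective hf hker hM)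
    rwa [Subgroup.index_map_eq M hf hker] at h1
  · have htop : M ⊔ N = ⊤ := by
      apply hM.2
      exact lt_of_le_of_ne le_sup_left (fun h => hNM (h ▸ le_sup_right))
    have h1 := card_sup_mul_card_inf (H := M) (K := N) Subgroup.le_normalizer_of_normal
    rw [htop, Subgroup.card_top, ← Subgroup.card_mul_index M, mul_assoc] at h1
    have h2 : M.index * Nat.card (M ⊓ N : Subgroup G) = Nat.card N :=
      Nat.eq_of_mul_eq_mul_left Nat.card_pos h1
    obtain ⟨e, he⟩ := IsPGroup.iff_card.1 hNp
    have h3 : M.index ∣ p ^ e := he ▸ Dvd.intro _ h2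
    obtain ⟨j, -, hj⟩ := (Nat.dvd_prime_pow hp).1 h3
    rw [isPrimePow_nat_iff]
    refine ⟨p, j, hp, ?_, hj.symm⟩
    rcases Nat.eq_zero_or_pos j with h0 | h0
    · rw [h0, pow_zero, Subgroup.index_eq_one] at hj
      exact absurd hj hM.1
    · exact h0


/-- In a finite solvable group every maximal subgroup has index a prime power. -/
theorem result {G : Type*} [Group G] [Finite G] [Group.IsSolvable G]
    (M : Subgroup G) (hM : IsCoatom M) : IsPrimePow M.index := by
  exact aux _ G rfl M hM

end Cfsg.Agent.S0048
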