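import Cfsg.Statements.S0049
import Mathlib
import Cfsg.Agent.Lib.Helper1.Frattini

set_option autoImplicit false
open Cfsg

namespace Cfsg.Agent.S0049


/-- A prime divisor of the order of a finite group also divides the index of the Frattini subgroup. -/
theorem result {G : Type*} [Group G] [Finite G] (p : ℕ) (hp : p.Prime) (hdvd : p ∣ Nat.card G) :
    p ∣ (frattini G).index := by
  by_contra hnd
  have : Fact p.Prime := ⟨hp⟩
  let P : Sylow p G := default
  have hPΦ : (P : Subgroup G) ≤ frattini G := by
    have h1 : Nat.card ((P : Subgroup G).map (QuotientGroup.mk' (frattini G))) = 1 := by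
      obtain ⟨k, hk⟩ := IsPGroup.iff_card.1 P.isPGroup'
      apply Nat.eq_one_of_dvd_coprimes (Nat.Coprime.pow_left k ((Nat.Prime.coprime_iff_not_dvd hp).2 hnd))
      · rw [← hk]; exact Subgroup.card_map_dvd _ _
      · rw [Subgroup.index_eq_card]; exact Subgroup.card_subgroup_dvd_card _
    rw [Subgroup.card_eq_one, Subgroup.map_eq_bot_iff, QuotientGroup.ker_mk'] at h1
    exact h1
  have hPn : (P : Subgroup G).Normal := by
    have h1 := Sylow.normalizer_sup_eq_top (P.subtype hPΦ)
    have h2 := frattini_nongenerating h1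
    rw [Subgroup.normalizer_eq_top_iff] at h2
    have h3 : Subgroup.map (frattini G).subtype ((P.subtype hPΦ : Sylow p (frattini G)) : Subgroup (frattini G))
        = (P : Subgroup G) := by
      rw [Sylow.coe_subtype, Subgroup.subgroupOf_map_subtype, inf_of_le_left hPΦ]
    rwa [h3] at h2
  obtain ⟨H, hH⟩ := Subgroup.exists_right_complement'_of_coprime P.card_coprime_index
  have h1 : H ⊔ frattini G = ⊤ := by
    rw [eq_top_iff, ← hH.sup_eq_top]
    exact sup_le (hPΦ.trans le_sup_right) le_sup_left
  have h2 := frattini_nongenerating h1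
  have h3 := hH.disjoint.eq_bot
  rw [h2, inf_top_eq] at h3
  exact P.ne_bot_of_dvd_card hdvd h3

end Cfsg.Agent.S0049
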