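import Cfsg.Statements.S0053
import Mathlib
import Cfsg.Agent.Lib.Helper1.Frattini

set_option autoImplicit false
open Cfsg

namespace Cfsg.Agent.S0053


/-- An abelian minimal normal subgroup N of a finite group is complemented exactly when N is not inside the Frattini subgroup. -/
theorem result {G : Type*} [Group G] [Finite G]
    (N : Subgroup G) [N.Normal] [IsMulCommutative N] (hN : N ≠ ⊥)
    (hmin : ∀ M : Subgroup G, M.Normal → M ≤ N → M = ⊥ ∨ M = N) :
    (∃ H : Subgroup G, Subgroup.IsComplement' N H) ↔ ¬ N ≤ frattini G := by
  constructor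
  · rintro ⟨H, hH⟩ hle
    have h1 : H ⊔ frattini G = ⊤ := by
      rw [eq_top_iff, ← hH.sup_eq_top]
      exact sup_le (hle.trans le_sup_right) le_sup_left
    have h2 := frattini_nongenerating h1
    have h3 := hH.disjoint.eq_bot
    rw [h2, inf_top_eq] at h3
    exact hN h3
  · intro hle
    rw [Cfsg.Agent.Lib.Helper1.le_frattini_iff] at hle
    push Not at hle
    obtain ⟨M, hM, hNM⟩ := hle
    have htop : N ⊔ M = ⊤ := by
      apply hM.2
      exact lt_of_le_of_ne le_sup_right (fun h => hNM (h ▸ le_sup_left))
    have hn : (N ⊓ M).Normal := by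
      rw [← Subgroup.normalizer_eq_top_iff, eq_top_iff, ← htop]
      refine sup_le ?_ ?_
      · have h1 : N ≤ Subgroup.centralizer (N : Set G) :=
          Subgroup.le_centralizer_iff_isMulCommutative.2 inferInstance
        intro n hn
        rw [Subgroup.mem_normalizer_iff]
        intro x
        constructor
        · intro hx
          have h2 : x * n = n * x := Subgroup.mem_centralizer_iff.1 (h1 hn) x hx.1
          rw [← h2, mul_inv_cancel_right]; exact hx
        · intro hx
          have hxN : x ∈ N := by
            have h3 := ‹N.Normal›.conj_mem _ hx.1 n⁻¹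
            simpa [mul_assoc] using h3
          have h2 : x * n = n * x := Subgroup.mem_centralizer_iff.1 (h1 hn) x hxN
          rw [← h2, mul_inv_cancel_right] at hx; exact hx
      · exact (le_inf Subgroup.le_normalizer_of_normal Subgroup.le_normalizer).trans
          Subgroup.inf_normalizer_le_normalizer_inf
    refine ⟨M, Subgroup.isComplement'_of_disjoint_and_mul_eq_univ ?_ ?_⟩
    · rw [disjoint_iff]
      rcases hmin _ hn inf_le_left with h | h
      · exact h
      · exact absurd (h ▸ inf_le_right) hNM
    · rw [← Subgroup.normal_mul, htop, Subgroup.coe_top]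

end Cfsg.Agent.S0053
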