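import Cfsg.Statements.S0054
import Mathlib
import Cfsg.Agent.Lib.Helper1.MinimalNormal

set_option autoImplicit false
open Cfsg

namespace Cfsg.Agent.S0054


/-- A regular normal subgroup of a finite 2-transitive group is elementary abelian: it is commutative and all its elements have order dividing one prime. -/
theorem result {G : Type*} [Group G] [Finite G]
    {X : Type*} [Nonempty X] [MulAction G X] (h2 : MulAction.IsMultiplyPretransitive G X 2)
    (N : Subgroup G) [N.Normal] (htrans : MulAction.IsPretransitive N X) (hreg : ∀ x : X, MulAction.stabilizer N x = ⊥) :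
    IsMulCommutative N ∧ ∃ p : ℕ, p.Prime ∧ ∀ n ∈ N, n ^ p = 1 := by
  have hNn : N.Normal := inferInstance
  obtain ⟨x₀⟩ := ‹Nonempty X›
  rw [MulAction.is_two_pretransitive_iff] at h2
  have hfree : ∀ n ∈ N, n • x₀ = x₀ → n = 1 := by
    intro n hn h
    have h1 : (⟨n, hn⟩ : N) ∈ MulAction.stabilizer N x₀ := h
    rw [hreg x₀, Subgroup.mem_bot] at h1
    exact congrArg Subtype.val h1
  have key : ∀ a ∈ N, ∀ b ∈ N, a ≠ 1 → b ≠ 1 → ∃ g : G, g * a * g⁻¹ = b := by
    intro a ha b hb ha1 hb1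
    have h1 : x₀ ≠ a • x₀ := fun h => ha1 (hfree a ha h.symm)
    have h2' : x₀ ≠ b • x₀ := fun h => hb1 (hfree b hb h.symm)
    obtain ⟨g, hg0, hg1⟩ := h2 h1 h2'
    refine ⟨g, ?_⟩
    have h3 : (b⁻¹ * (g * a * g⁻¹)) • x₀ = x₀ := by
      have h5 : g⁻¹ • x₀ = x₀ := by rw [inv_smul_eq_iff, hg0]
      rw [mul_smul, mul_smul, mul_smul, h5, hg1, inv_smul_smul]
    have h4 := hfree _ (N.mul_mem (N.inv_mem hb) (hNn.conj_mem a ha g)) h3
    exact (inv_mul_eq_one.1 h4).symm
  by_cases hN : N = ⊥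
  · subst hN
    refine ⟨⟨⟨fun a b => Subsingleton.elim _ _⟩⟩, 2, Nat.prime_two, ?_⟩
    intro n hn
    rw [Subgroup.mem_bot] at hn
    rw [hn, one_pow]
  have hcard : Nat.card N ≠ 1 := fun h => hN (Subgroup.card_eq_one.1 h)
  let p := (Nat.card N).minFac
  have hp : p.Prime := Nat.minFac_prime hcard
  have : Fact p.Prime := ⟨hp⟩
  obtain ⟨x, hx⟩ := exists_prime_orderOf_dvd_card' (G := N) p (Nat.minFac_dvd _)
  have hx1 : (x : G) ≠ 1 := by
    intro h
    have h2 : x = 1 := Subtype.ext h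
    rw [h2, orderOf_one] at hx
    exact hp.one_lt.ne hx
  have hxp : (x : G) ^ p = 1 := by
    rw [← Subgroup.coe_pow, ← hx, pow_orderOf_eq_one, Subgroup.coe_one]
  have hpow : ∀ n ∈ N, n ^ p = 1 := by
    intro n hn
    by_cases hn1 : n = 1
    · rw [hn1, one_pow]
    · obtain ⟨g, rfl⟩ := key x x.2 n hn hx1 hn1
      rw [conj_pow, hxp, mul_one, mul_inv_cancel]
  refine ⟨?_, p, hp, hpow⟩
  have hNp : IsPGroup p N := Cfsg.Agent.Lib.Helper1.isPGroup_of_forall_pow_eq_one hpow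
  have hnt : Nontrivial N := (Subgroup.nontrivial_iff_ne_bot N).2 hN
  have hcn := hNp.center_nontrivial
  obtain ⟨⟨z, hz⟩, hz1⟩ := exists_ne (1 : Subgroup.center N)
  have hz1' : (z : G) ≠ 1 := fun h => hz1 (Subtype.ext (Subtype.ext h))
  refine ⟨⟨fun a b => ?_⟩⟩
  by_cases ha1 : (a : G) = 1
  · have : a = 1 := Subtype.ext ha1
    rw [this, one_mul, mul_one]
  · obtain ⟨g, hg⟩ := key z z.2 a a.2 hz1' ha1
    have hb' : g⁻¹ * b * g ∈ N := by
      have := hNn.conj_mem b b.2 g⁻¹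
      rwa [inv_inv] at this
    have h1 := Subgroup.mem_center_iff.1 hz ⟨_, hb'⟩
    have h2 : g⁻¹ * (b : G) * g * z = z * (g⁻¹ * b * g) := congrArg Subtype.val h1
    apply Subtype.ext
    change (a : G) * b = b * a
    rw [← hg]
    have h3 : g * ↑z * g⁻¹ * ↑b = g * (z * (g⁻¹ * b * g)) * g⁻¹ := by group
    rw [h3, ← h2]; group

end Cfsg.Agent.S0054
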