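import Cfsg.Statements.S0057
import Cfsg.Agent.S0007
import Cfsg.Agent.S0023
import Cfsg.Agent.S0027
import Cfsg.Agent.S0055
import Cfsg.Agent.Lib.Helper52.Commutators

set_option autoImplicit false
open Cfsg

namespace Cfsg.Agent.S0057

open Subgroup Cfsg.Agent.Lib.Helper52
open scoped commutatorElement

/-- The case of a `p`-group. -/
theorem pgroup_case {G : Type*} [Group G] [Finite G] (p : ℕ) [hp : Fact p.Prime] (A P : Subgroup G)
    (hAP : A ≤ normalizer (P : Set G)) (hP : IsPGroup p P) (hcop : (Nat.card A).Coprime (Nat.card P))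
    (hcard : Nat.card P = p * Nat.card (P ⊓ centralizer (A : Set G) : Subgroup G)) :
    Nat.card (⁅P, A⁆ : Subgroup G) = p := by
  have hDP : P ⊓ centralizer (A : Set G) ≤ P := inf_le_left
  have hDC : P ⊓ centralizer (A : Set G) ≤ centralizer (A : Set G) := inf_le_right
  have hmemD : ∀ x ∈ P, x ∈ centralizer (A : Set G) → x ∈ P ⊓ centralizer (A : Set G) :=
    fun x h1 h2 => mem_inf.2 ⟨h1, h2⟩
  generalize P ⊓ centralizer (A : Set G) = D at hcard hDP hDC hmemD
  have hWP : ⁅P, A⁆ ≤ P := le_normalizer_iff_commutator_le_left.1 hAP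
  have hsol : Group.IsSolvable P := by
    have : Group.IsNilpotent P := hP.isNilpotent
    infer_instance
  have hWW : ⁅⁅P, A⁆, A⁆ = ⁅P, A⁆ := Cfsg.Agent.S0027.result A P hAP hcop (Or.inr hsol)
  -- index of D in P
  have hidx : (D.subgroupOf P).index = p := by
    have h1 := (D.subgroupOf P).card_mul_index
    rw [Nat.card_congr (subgroupOfEquivOfLe hDP).toEquiv, hcard, mul_comm] at h1
    exact Nat.eq_of_mul_eq_mul_right Nat.card_pos h1
  have hDn : (D.subgroupOf P).Normal := by
    apply normal_of_index_eq_minFac_card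
    rw [hidx]
    obtain ⟨k, hk⟩ := IsPGroup.iff_card.1 hP
    have hk0 : k ≠ 0 := by
      rintro rfl
      rw [pow_zero] at hk
      rw [hk] at hcard
      have : p ∣ 1 := ⟨_, hcard⟩
      exact hp.out.one_lt.ne' (Nat.dvd_one.1 this)
    rw [hk, hp.out.pow_minFac hk0]
  have hPD : P ≤ normalizer (D : Set G) := (normal_subgroupOf_iff_le_normalizer hDP).1 hDn
  -- W centralises D
  have h1 : ⁅⁅P, D⁆, A⁆ = ⊥ := by
    rw [commutator_eq_bot_iff_le_centralizer]
    exact (le_normalizer_iff_commutator_le_right.1 hPD).trans hDC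
  have h2 : ⁅⁅D, A⁆, P⁆ = ⊥ := by
    rw [commutator_eq_bot_iff_le_centralizer.2 hDC]; exact commutator_bot_left P
  have h3 : ⁅⁅A, P⁆, D⁆ = ⊥ := commutator_commutator_eq_bot_of_rotate h1 h2
  rw [commutator_comm A P, commutator_eq_bot_iff_le_centralizer] at h3
  -- the homomorphism W → P / D
  have hcyc : IsCyclic (P ⧸ D.subgroupOf P) :=
    isCyclic_of_prime_card (p := p) (by rw [← index_eq_card, hidx])
  let f : (⁅P, A⁆ : Subgroup G) →* P ⧸ D.subgroupOf P := (QuotientGroup.mk' _).comp (inclusion hWP)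
  have hker : ∀ w : (⁅P, A⁆ : Subgroup G), f w = 1 → (w : G) ∈ D := by
    intro w hw
    have : (QuotientGroup.mk (inclusion hWP w) : P ⧸ D.subgroupOf P) = 1 := hw
    rw [QuotientGroup.eq_one_iff, mem_subgroupOf] at this
    exact this
  have hcomm : IsMulCommutative (⁅P, A⁆ : Subgroup G) := by
    refine MonoidHom.isMulCommutative_of_isCyclic_of_ker_le_center f ?_
    intro w hw
    rw [mem_center_iff]
    intro v
    apply Subtype.ext
    exact (h3 v.2 w (hker w hw)).symm
  have hAW : A ≤ normalizer ((⁅P, A⁆ : Subgroup G) : Set G) := normalizer_commutator_ge_right P A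
  have hcopW : (Nat.card A).Coprime (Nat.card (⁅P, A⁆ : Subgroup G)) :=
    Nat.Coprime.of_dvd_right (card_dvd_of_le hWP) hcop
  obtain ⟨h5, -⟩ := Cfsg.Agent.S0055.result A ⁅P, A⁆ hAW hcopW
  rw [hWW, inf_assoc, inf_comm (centralizer (A : Set G)), ← inf_assoc, inf_idem] at h5
  -- f is injective
  have hinj : Function.Injective f := by
    rw [injective_iff_map_eq_one]
    intro w hw
    have : (w : G) ∈ ⁅P, A⁆ ⊓ centralizer (A : Set G) := mem_inf.2 ⟨w.2, hDC (hker w hw)⟩
    rw [h5, mem_bot] at this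
    exact Subtype.ext this
  have hdvd := card_dvd_of_injective f hinj
  rw [← index_eq_card, hidx] at hdvd
  rcases (Nat.dvd_prime hp.out).1 hdvd with h | h
  · exfalso
    have hW : ⁅P, A⁆ = ⊥ := eq_bot_of_card_eq _ h
    rw [commutator_eq_bot_iff_le_centralizer] at hW
    have hDP' : D = P := le_antisymm hDP (fun x hx => hmemD x hx (hW hx))
    rw [hDP'] at hcard
    have hpos : 0 < Nat.card P := Nat.card_pos
    have := hp.out.one_lt
    nlinarith
  · exact h

theorem result {G : Type*} [Group G] [Finite G] (A K : Subgroup G) (hAK : A ≤ Subgroup.normalizer (K : Set G))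
    (hcop : (Nat.card A).Coprime (Nat.card K)) (hsolv : Group.IsSolvable A ∨ Group.IsSolvable K)
    (p : ℕ) (hp : p.Prime) (hidx : (K ⊓ Subgroup.centralizer (A : Set G)).relIndex K = p) :
    Nat.card (⁅K, A⁆ : Subgroup G) = p := by
  have : Fact p.Prime := ⟨hp⟩
  obtain ⟨P, hPA⟩ := Cfsg.Agent.S0023.result A K hAK hcop hsolv p
  rw [inf_relIndex_left] at hidx
  have hidx' : ((centralizer (A : Set G)).subgroupOf K).index = p := hidx
  have hco : (P : Subgroup K).index.Coprime ((centralizer (A : Set G)).subgroupOf K).index := by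
    rw [hidx', Nat.coprime_comm, hp.coprime_iff_not_dvd]
    exact P.not_dvd_index
  obtain ⟨h1, h2⟩ := Cfsg.Agent.S0007.result (P : Subgroup K) ((centralizer (A : Set G)).subgroupOf K) hco
  have hPK : (P : Subgroup K).map K.subtype ≤ K := map_subtype_le _
  -- the commutators agree
  have hcomm : ⁅K, A⁆ = ⁅(P : Subgroup K).map K.subtype, A⁆ := by
    apply le_antisymm _ (commutator_mono hPK le_rfl)
    rw [commutator_le]
    intro k hk a ha
    obtain ⟨y, hy, c, hc, hyc⟩ := h2 ⟨k, hk⟩
    have hk' : k = (y : G) * c := congrArg Subtype.val hyc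
    have hc' : (c : G) ∈ centralizer (A : Set G) := mem_subgroupOf.1 hc
    have hca : a * (c : G) = c * a := hc' a ha
    have : ⁅k, a⁆ = ⁅(y : G), a⁆ := by
      rw [hk', commutatorElement_def, commutatorElement_def, mul_inv_rev]
      have : (y : G) * c * a * ((c : G)⁻¹ * (y : G)⁻¹) * a⁻¹ = (y : G) * (c * a) * (c : G)⁻¹ * (y : G)⁻¹ * a⁻¹ := by
        group
      rw [this, ← hca]
      group
    rw [this]
    exact commutator_mem_commutator (mem_map_of_mem K.subtype hy) ha
  rw [hcomm]
  apply pgroup_case p A _ hPA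
  · exact P.2.map K.subtype
  · exact Nat.Coprime.of_dvd_right (card_dvd_of_le hPK) hcop
  · have h3 : ((P : Subgroup K) ⊓ (centralizer (A : Set G)).subgroupOf K).map K.subtype =
        (P : Subgroup K).map K.subtype ⊓ centralizer (A : Set G) := by
      ext x
      constructor
      · rintro ⟨y, hy, rfl⟩
        exact mem_inf.2 ⟨mem_map_of_mem _ hy.1, mem_subgroupOf.1 hy.2⟩
      · rintro ⟨⟨y, hy, rfl⟩, hx⟩
        exact ⟨y, mem_inf.2 ⟨hy, mem_subgroupOf.2 hx⟩, rfl⟩
    rw [← h3, card_map_of_injective K.subtype_injective, card_map_of_injective K.subtype_injective]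
    have h4 := ((P : Subgroup K) ⊓ (centralizer (A : Set G)).subgroupOf K).card_mul_index
    have h5 := (P : Subgroup K).card_mul_index
    rw [h1, hidx', ← h5] at h4
    have hpos : 0 < (P : Subgroup K).index := Nat.pos_of_ne_zero index_ne_zero_of_finite
    have h6 : (p * Nat.card ((P : Subgroup K) ⊓ (centralizer (A : Set G)).subgroupOf K : Subgroup K)) * (P : Subgroup K).index
        = Nat.card (P : Subgroup K) * (P : Subgroup K).index := by
      rw [← h4]; ring
    exact (Nat.eq_of_mul_eq_mul_right hpos h6).symm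

end Cfsg.Agent.S0057
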