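import Mathlib
import Cfsg.Statements.S0060
import Cfsg.Agent.Lib.Helper31.SylowConj

set_option autoImplicit false
open Pointwise
open Cfsg

namespace Cfsg.Agent.S0060

open scoped Pointwise

theorem mem_conj_smul {G : Type*} [Group G] (H : Subgroup G) (g x : G) :
    x ∈ MulAut.conj g • H ↔ g⁻¹ * x * g ∈ H := by
  rw [Subgroup.mem_pointwise_smul_iff_inv_smul_mem]
  simp [MulAut.smul_def]

/-- Brodkey's Theorem: in a finite group with abelian Sylow p-subgroups and no nontrivial normal p-subgroup, some conjugate of a Sylow p-subgroup meets it trivially. -/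
theorem result {G : Type*} [Group G] [Finite G] (p : ℕ) [Fact p.Prime]
    (S : Sylow p G) (hS : IsMulCommutative S) (hOp : Cfsg.pCore p G = ⊥) :
    ∃ g : G, (S : Subgroup G) ⊓ MulAut.conj g • (S : Subgroup G) = ⊥ := by
  classical
  obtain ⟨g, hg⟩ := Finite.exists_min (fun g : G =>
    Nat.card ((S : Subgroup G) ⊓ MulAut.conj g • (S : Subgroup G) : Subgroup G))
  refine ⟨g, ?_⟩
  set T : Subgroup G := MulAut.conj g • (S : Subgroup G) with hT
  set D : Subgroup G := (S : Subgroup G) ⊓ T with hD
  have hScomm : ∀ x ∈ (S : Subgroup G), ∀ y ∈ (S : Subgroup G), x * y = y * x := by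
    intro x hx y hy
    have := hS.is_comm.comm ⟨x, hx⟩ ⟨y, hy⟩
    exact congrArg Subtype.val this
  have hTcomm : ∀ x ∈ T, ∀ y ∈ T, x * y = y * x := by
    intro x hx y hy
    rw [hT, mem_conj_smul] at hx hy
    have := hScomm _ hx _ hy
    calc x * y = g * ((g⁻¹ * x * g) * (g⁻¹ * y * g)) * g⁻¹ := by group
      _ = g * ((g⁻¹ * y * g) * (g⁻¹ * x * g)) * g⁻¹ := by rw [this]
      _ = y * x := by group
  set N : Subgroup G := Subgroup.normalizer (D : Set G) with hN
  have hSN : (S : Subgroup G) ≤ N := by
    rw [hN, Subgroup.le_normalizer_iff]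
    intro s hs d hd
    have : s * d * s⁻¹ = d := by rw [hScomm s hs d hd.1]; group
    rw [this]; exact hd
  have hTN : T ≤ N := by
    rw [hN, Subgroup.le_normalizer_iff]
    intro s hs d hd
    have : s * d * s⁻¹ = d := by rw [hTcomm s hs d hd.2]; group
    rw [this]; exact hd
  have hNn : ∀ m ∈ N, ∀ d ∈ D, m * d * m⁻¹ ∈ D :=
    (Subgroup.le_normalizer_iff (H := N) (K := D)).1 le_rfl
  have claim : ∀ h : G, D ≤ MulAut.conj h • (S : Subgroup G) := by
    intro h
    set P : Subgroup G := MulAut.conj h • (S : Subgroup G) with hP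
    have hPp : IsPGroup p P := by
      have : P = ((h • S : Sylow p G) : Subgroup G) := by
        rw [Sylow.coe_subgroup_smul]
      rw [this]; exact (h • S).isPGroup'
    have hQp : IsPGroup p (P ⊓ N : Subgroup G) := hPp.to_le inf_le_left
    obtain ⟨m, hmN, hm⟩ := Lib.Helper31.exists_conj_mem_of_le N S hSN (P ⊓ N) hQp inf_le_right
    set P' : Subgroup G := MulAut.conj (m * h) • (S : Subgroup G) with hP'
    have memP' : ∀ x, x ∈ P' ↔ m⁻¹ * x * m ∈ P := by
      intro x
      rw [hP', hP, mem_conj_smul, mem_conj_smul]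
      have : (m * h)⁻¹ * x * (m * h) = h⁻¹ * (m⁻¹ * x * m) * h := by group
      rw [this]
    have hle : P' ⊓ T ≤ D := by
      intro x hx
      refine ⟨?_, hx.2⟩
      have h1 : m⁻¹ * x * m ∈ P := (memP' x).1 hx.1
      have h2 : m⁻¹ * x * m ∈ N := N.mul_mem (N.mul_mem (N.inv_mem hmN) (hTN hx.2)) hmN
      have := hm _ ⟨h1, h2⟩
      have e : m * (m⁻¹ * x * m) * m⁻¹ = x := by group
      rwa [e] at this
    have hcard : Nat.card D ≤ Nat.card (P' ⊓ T : Subgroup G) := by
      have h1 := hg ((m * h)⁻¹ * g)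
      have h2 : Nat.card ((S : Subgroup G) ⊓ MulAut.conj ((m * h)⁻¹ * g) • (S : Subgroup G) :
          Subgroup G) = Nat.card (P' ⊓ T : Subgroup G) := by
        have e : (P' ⊓ T : Subgroup G) = ((S : Subgroup G) ⊓
            MulAut.conj ((m * h)⁻¹ * g) • (S : Subgroup G) : Subgroup G).map
            (MulAut.conj (m * h)).toMonoidHom := by
          ext x
          simp only [Subgroup.mem_inf, Subgroup.mem_map, MulEquiv.coe_toMonoidHom,
            MulAut.conj_apply]
          constructor
          · rintro ⟨h1, h2⟩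
            refine ⟨(m * h)⁻¹ * x * (m * h), ⟨?_, ?_⟩, by group⟩
            · rwa [hP', mem_conj_smul] at h1
            · rw [hT, mem_conj_smul] at h2
              rw [mem_conj_smul]
              have e : ((m * h)⁻¹ * g)⁻¹ * ((m * h)⁻¹ * x * (m * h)) * ((m * h)⁻¹ * g) =
                  g⁻¹ * x * g := by group
              rw [e]; exact h2
          · rintro ⟨y, ⟨h1, h2⟩, rfl⟩
            constructor
            · rw [hP', mem_conj_smul]
              have e : (m * h)⁻¹ * (m * h * y * (m * h)⁻¹) * (m * h) = y := by group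
              rw [e]; exact h1
            · rw [hT, mem_conj_smul]
              rw [mem_conj_smul] at h2
              have e : ((m * h)⁻¹ * g)⁻¹ * y * ((m * h)⁻¹ * g) =
                  g⁻¹ * (m * h * y * (m * h)⁻¹) * g := by group
              rw [← e]; exact h2
        rw [e, Subgroup.card_map_of_injective (MulAut.conj (m * h)).injective]
      rw [← h2]; exact h1
    have heq : P' ⊓ T = D := Subgroup.eq_of_le_of_card_ge hle hcard
    intro d hd
    have h1 : m * d * m⁻¹ ∈ D := hNn m hmN d hd
    rw [← heq] at h1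
    have h2 := (memP' _).1 h1.1
    have e : m⁻¹ * (m * d * m⁻¹) * m = d := by group
    rwa [e] at h2
  have hcore : D ≤ (S : Subgroup G).normalCore := by
    intro d hd b
    have := claim b⁻¹ hd
    rw [mem_conj_smul] at this
    simpa using this
  have hle : (S : Subgroup G).normalCore ≤ Cfsg.pCore p G :=
    le_sSup ⟨inferInstance, S.isPGroup'.to_le (Subgroup.normalCore_le _)⟩
  rw [hOp] at hle
  exact le_bot_iff.1 (hcore.trans hle)

end Cfsg.Agent.S0060
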