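import Cfsg.Statements.S0063
import Mathlib

set_option autoImplicit false
open Cfsg

namespace Cfsg.Agent.S0063

theorem aux (p : ℕ) [Fact p.Prime] : ∀ (m : ℕ) (G : Type*) [Group G] [Finite G],
    Nat.card G = p ^ m → 1 < m → Group.nilpotencyClass G ≤ m - 1 := by
  intro m
  induction m using Nat.strong_induction_on with
  | _ m ih =>
    intro G _ _ hG hm
    have hp : p.Prime := Fact.out
    have hpG : IsPGroup p G := IsPGroup.of_card hG
    haveI : Group.IsNilpotent G := hpG.isNilpotent
    haveI : Nontrivial G := by
      rw [← Finite.one_lt_card_iff_nontrivial, hG]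
      exact Nat.one_lt_pow (by omega) hp.one_lt
    have hclass := Group.nilpotencyClass_eq_quotient_center_plus_one (G := G)
    obtain ⟨j, hj⟩ := (hpG.to_quotient (Subgroup.center G)).exists_card_eq
    obtain ⟨k, hk⟩ := (hpG.to_subgroup (Subgroup.center G)).exists_card_eq
    have hmul := Subgroup.card_eq_card_quotient_mul_card_subgroup (Subgroup.center G)
    rw [hG, hj, hk, ← pow_add] at hmul
    have hjk : m = j + k := Nat.pow_right_injective hp.two_le hmul
    have hk1 : 1 ≤ k := by
      rcases Nat.eq_zero_or_pos k with h0 | h0
      · exfalso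
        rw [h0, pow_zero, Subgroup.card_eq_one] at hk
        exact (ne_of_gt hpG.bot_lt_center) hk
      · exact h0
    rcases Nat.lt_or_ge 1 j with hj1 | hj1
    · have := ih j (by omega) (G ⧸ Subgroup.center G) hj hj1
      omega
    · have hcyc : IsCyclic (G ⧸ Subgroup.center G) := by
        interval_cases j
        · rw [pow_zero] at hj
          haveI : Subsingleton (G ⧸ Subgroup.center G) := (Nat.card_eq_one_iff_unique.mp hj).1
          infer_instance
        · rw [pow_one] at hj
          exact isCyclic_of_prime_card hj
      have hcomm := commutative_of_cyclic_center_quotient (QuotientGroup.mk' (Subgroup.center G))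
        (QuotientGroup.ker_mk' _).le
      have : Group.nilpotencyClass G ≤ 1 := by
        rw [Group.IsNilpotent.nilpotencyClass_le_one_iff]
        exact ⟨⟨hcomm⟩⟩
      omega

/-- A finite group of prime-power order p ^ m with m > 1 is nilpotent of class at most m - 1. -/
theorem result {G : Type*} [Group G] [Finite G] (p m : ℕ) [Fact p.Prime]
    (hG : Nat.card G = p ^ m) (hm : 1 < m) : Group.nilpotencyClass G ≤ m - 1 := by
  exact aux p m G hG hm

end Cfsg.Agent.S0063
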