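import Cfsg.Statements.S3743
import Cfsg.Agent.Lib.Helper91.Subnormal

set_option autoImplicit false
open Cfsg

namespace Cfsg.Agent.S3743

open Subgroup

theorem card_sup_dvd {G : Type*} [Group G] (M N : Subgroup G)
    (h1 : M ≤ normalizer (N : Set G)) :
    Nat.card (M ⊔ N : Subgroup G) ∣ Nat.card M * Nat.card N := by
  set L := M ⊔ N with hL
  have hML : M ≤ L := le_sup_left
  have hNL : N ≤ L := le_sup_right
  have n2 : (N.subgroupOf L).Normal :=
    (normal_subgroupOf_iff_le_normalizer hNL).2 (sup_le h1 le_normalizer)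
  have htop : M.subgroupOf L ⊔ N.subgroupOf L = ⊤ := by
    rw [← subgroupOf_sup hML hNL, subgroupOf_self]
  have e1 : (N.subgroupOf L).relIndex (M.subgroupOf L ⊔ N.subgroupOf L) =
      (N.subgroupOf L).relIndex (M.subgroupOf L) := relIndex_sup_right _ _
  rw [htop, relIndex_top_right] at e1
  have e2 : (N.subgroupOf L).index ∣ Nat.card M := by
    rw [e1]
    have := relIndex_dvd_card (N.subgroupOf L) (M.subgroupOf L)
    rwa [Nat.card_congr (subgroupOfEquivOfLe hML).toEquiv] at this
  have e3 : (N.subgroupOf L).index * Nat.card (N.subgroupOf L) = Nat.card L :=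
    index_mul_card _
  rw [Nat.card_congr (subgroupOfEquivOfLe hNL).toEquiv] at e3
  rw [← e3]
  exact Nat.mul_dvd_mul_right e2 _

/-- In a finite group G, every subnormal nilpotent subgroup lies in the Fitting subgroup F(G), and, for a set of primes π, every subnormal subgroup all of whose prime divisors lie in π lies in O_π(G). -/
theorem result {G : Type*} [Group G] [Finite G] (A : Subgroup G) (hA : A.IsSubnormal) : (Group.IsNilpotent A → A ≤ Cfsg.fittingSubgroup G) ∧ ∀ π : Set ℕ, (∀ p : ℕ, p.Prime → p ∣ Nat.card A → p ∈ π) → A ≤ Cfsg.piCore π G := by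
  refine ⟨fun h => Lib.Helper91.le_fittingSubgroup_of_isSubnormal hA h, ?_⟩
  intro π hπ
  obtain ⟨N, n1, n2, n3⟩ := Lib.Helper91.exists_normal_of_isSubnormal
    (fun A : Subgroup G => ∀ p : ℕ, p.Prime → p ∣ Nat.card A → p ∈ π)
    (fun A g h => by
      intro p hp hd
      rw [Subgroup.card_map_of_injective (MulAut.conj g).injective] at hd
      exact h p hp hd)
    (fun M N hM hN h1 _ => by
      intro p hp hd
      rcases (hp.dvd_mul).1 (hd.trans (card_sup_dvd M N h1)) with h | h
      · exact hM p hp h
      · exact hN p hp h)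
    (by
      intro p hp hd
      rw [Subgroup.card_bot] at hd
      exact absurd (Nat.dvd_one.1 hd) hp.one_lt.ne')
    hA hπ
  exact n2.trans (le_sSup ⟨n1, n3⟩)

end Cfsg.Agent.S3743
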