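import Cfsg.Statements.S0067
import Cfsg.Agent.S0066
import Cfsg.Agent.S0064
import Cfsg.Agent.S3743

set_option autoImplicit false
open Cfsg

namespace Cfsg.Agent.S0067

open scoped Pointwise

/-- If the join of a subgroup A with each of its conjugates is nilpotent, then A is subnormal in the finite group and contained in the Fitting subgroup. -/
theorem result {G : Type*} [Group G] [Finite G] (A : Subgroup G)
    (h : ∀ g : G, Group.IsNilpotent (A ⊔ MulAut.conj g • A : Subgroup G)) : A.IsSubnormal ∧ A ≤ Cfsg.fittingSubgroup G := by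
  have hsub : A.IsSubnormal := by
    apply Cfsg.Agent.S0066.result
    intro g
    exact (Cfsg.Agent.S0064.result (G := ↥(A ⊔ MulAut.conj g • A))).mp (h g) _
  refine ⟨hsub, ?_⟩
  have hnil : Group.IsNilpotent ↥A := by
    have h1 := h 1
    have : Group.IsNilpotent ↥(A.subgroupOf (A ⊔ MulAut.conj (1 : G) • A)) := inferInstance
    exact (Group.isNilpotent_congr (Subgroup.subgroupOfEquivOfLe le_sup_left)).mp this
  exact (Cfsg.Agent.S3743.result A hsub).1 hnil

end Cfsg.Agent.S0067
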