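import Cfsg.Statements.S0068
import Cfsg.Agent.Lib.Helper52.FrobComp

set_option autoImplicit false
open Cfsg

namespace Cfsg.Agent.S0068

open Subgroup Cfsg.Agent.Lib.Helper52

/-- Frobenius complements of even order: if H complements a nontrivial normal subgroup K, each nonidentity element of H has trivial centraliser in K, and H has even order, then H contains a unique involution s, K is abelian, and s inverts every element of K. -/
theorem result {G : Type*} [Group G] [Finite G] (K H : Subgroup G) [K.Normal]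
    (hc : Subgroup.IsComplement' K H) (hK : K ≠ ⊥) (hfpf : ∀ h ∈ H, h ≠ 1 → K ⊓ Subgroup.centralizer {h} = ⊥)
    (heven : 2 ∣ Nat.card H) :
    (∃ s ∈ H, orderOf s = 2 ∧ (∀ t ∈ H, orderOf t = 2 → t = s) ∧ ∀ k ∈ K, s * k * s⁻¹ = k⁻¹) ∧ IsMulCommutative K := by
  have : Fact (Nat.Prime 2) := ⟨Nat.prime_two⟩
  have hinv : ∀ t ∈ H, orderOf t = 2 → ∀ k ∈ K, t * k * t⁻¹ = k⁻¹ := by
    intro t ht ht2
    apply inverts_of_fpf_involution K (fun k hk => ‹K.Normal›.conj_mem k hk t)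
    · rw [← ht2]; exact pow_orderOf_eq_one t
    · apply hfpf t ht
      rintro rfl
      rw [orderOf_one] at ht2
      omega
  obtain ⟨s, hs⟩ := exists_prime_orderOf_dvd_card' (G := H) 2 heven
  have hs2 : orderOf (s : G) = 2 := by rwa [Subgroup.orderOf_coe]
  refine ⟨⟨s, s.2, hs2, ?_, hinv s s.2 hs2⟩, ?_⟩
  · intro t ht ht2
    by_contra hne
    have h1 : t * (s : G)⁻¹ ≠ 1 := fun h => hne (mul_inv_eq_one.1 h)
    have h2 := hfpf _ (mul_mem ht (inv_mem s.2)) h1
    apply hK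
    rw [eq_bot_iff, ← h2]
    intro k hk
    refine mem_inf.2 ⟨hk, ?_⟩
    rw [mem_centralizer_singleton_iff]
    have h3 : (s : G)⁻¹ * k * s = k⁻¹ := by
      have := hinv s s.2 hs2 k⁻¹ (inv_mem hk)
      rw [inv_inv] at this
      calc (s : G)⁻¹ * k * s = (s : G)⁻¹ * (s * k⁻¹ * (s : G)⁻¹) * s := by rw [this]
        _ = k⁻¹ := by group
    have h4 := hinv t ht ht2 k⁻¹ (inv_mem hk)
    rw [inv_inv] at h4
    calc k * (t * (s : G)⁻¹) = (t * k⁻¹ * t⁻¹) * (t * (s : G)⁻¹) := by rw [h4]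
      _ = t * k⁻¹ * (s : G)⁻¹ := by group
      _ = t * ((s : G)⁻¹ * k * s) * (s : G)⁻¹ := by rw [h3]
      _ = t * (s : G)⁻¹ * k := by group
  · have h := comm_of_inverted K (hinv s s.2 hs2)
    exact ⟨⟨fun a b => Subtype.ext (h a a.2 b b.2)⟩⟩

end Cfsg.Agent.S0068
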