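import Cfsg.Statements.S0069
import Cfsg.Agent.Lib.Helper52.ZGroupCenter
import Cfsg.Agent.Lib.Helper21.Layer
import Cfsg.Agent.S0016
import Cfsg.Agent.S0023
import Cfsg.Agent.S0034
import Cfsg.Agent.S0039
import Cfsg.Agent.S0041
import Cfsg.Agent.S0058
import Cfsg.Agent.S0068

set_option autoImplicit false
open Cfsg

namespace Cfsg.Agent.S0069

open Subgroup Cfsg.Agent.Lib.Helper52

/-- transport of cyclicity from the image of a subgroup of a subgroup -/
theorem isCyclic_of_map {G : Type*} [Group G] (H : Subgroup G) (A : Subgroup H)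
    (h : IsCyclic (A.map H.subtype)) : IsCyclic A :=
  (A.equivMapOfInjective H.subtype H.subtype_injective).isCyclic.2 h

theorem isMulCommutative_map {G : Type*} [Group G] (H : Subgroup G) (A : Subgroup H)
    (h : IsMulCommutative A) : IsMulCommutative (A.map H.subtype) := by
  refine ⟨⟨?_⟩⟩
  rintro ⟨_, x, hx, rfl⟩ ⟨_, y, hy, rfl⟩
  apply Subtype.ext
  have := congrArg (fun z : A => ((z : H) : G)) (mul_comm' (⟨x, hx⟩ : A) ⟨y, hy⟩)
  exact this

/-- A Frobenius complement has nontrivial centre: if H ≠ 1 complements a nontrivial normal subgroup K and every nonidentity element of H has trivial centraliser in K, then the centre of H is nontrivial. -/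
theorem result {G : Type*} [Group G] [Finite G] (K H : Subgroup G) [K.Normal]
    (hc : Subgroup.IsComplement' K H) (hK : K ≠ ⊥) (hH : H ≠ ⊥) (hfpf : ∀ h ∈ H, h ≠ 1 → K ⊓ Subgroup.centralizer {h} = ⊥) :
    Subgroup.center H ≠ ⊥ := by
  have hFrob := (Cfsg.Agent.S0039.result K H hc hK hH).2 hfpf
  have hmod := (Cfsg.Agent.S0034.result H hFrob).2
  have hidx : H.index = Nat.card K := hc.index_eq_card
  have hcop : (Nat.card H).Coprime (Nat.card K) := by
    rw [← hidx]
    have h1 : Nat.gcd H.index (Nat.card H) = Nat.gcd 1 (Nat.card H) := Nat.ModEq.gcd_eq hmod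
    rw [Nat.gcd_one_left] at h1
    exact Nat.coprime_comm.1 h1
  have hHK : H ≤ normalizer (K : Set G) := by
    rw [normalizer_eq_top]
    exact le_top
  have hab : ∀ A : Subgroup G, A ≤ H → IsMulCommutative A → IsCyclic A := by
    intro A hA hAc
    by_contra hnc
    have h1 := Cfsg.Agent.S0058.result A K hnc (hA.trans hHK) (hcop.coprime_dvd_left (card_dvd_of_le hA))
    apply hK
    rw [← h1, eq_bot_iff]
    refine iSup₂_le fun a ha => ?_
    rw [hfpf a (hA ha.1) ha.2]
  by_cases heven : 2 ∣ Nat.card H
  · obtain ⟨⟨s, hs, hs2, huniq, -⟩, -⟩ := Cfsg.Agent.S0068.result K H hc hK hfpf heven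
    intro hbot
    have h1 : (⟨s, hs⟩ : H) ∈ center H := by
      rw [mem_center_iff]
      intro h
      have h2 := huniq ((h : G) * s * (h : G)⁻¹) (mul_mem (mul_mem h.2 hs) (inv_mem h.2))
        (by
          rw [← hs2]
          exact (SemiconjBy.orderOf_eq (h : G) (x := s) (y := (h : G) * s * (h : G)⁻¹)
            (by unfold SemiconjBy; group)).symm)
      apply Subtype.ext
      rw [mul_inv_eq_iff_eq_mul] at h2
      exact h2
    rw [hbot, mem_bot] at h1
    have h3 : s = 1 := congrArg Subtype.val h1
    rw [h3, orderOf_one] at hs2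
    omega
  · have hab' : ∀ A : Subgroup H, IsMulCommutative A → IsCyclic A := fun A hA =>
      isCyclic_of_map H A (hab _ (map_subtype_le A) (isMulCommutative_map H A hA))
    have hZ : IsZGroup H := by
      refine ⟨fun p hp P => ?_⟩
      have : Fact p.Prime := ⟨hp⟩
      have hab'' : ∀ A : Subgroup (P : Subgroup H), IsMulCommutative A → IsCyclic A := fun A hA =>
        isCyclic_of_map _ A (hab' _ (isMulCommutative_map _ A hA))
      rcases Cfsg.Agent.S0016.result p P.2 (unique_subgroup_of_abelian_cyclic p P.2 hab'') with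
        h | ⟨rfl, n, ⟨e⟩⟩
      · exact h
      · exfalso
        apply heven
        have h1 : Nat.card (P : Subgroup H) = 4 * 2 ^ n := by
          rw [Nat.card_congr e.toEquiv, Nat.card_eq_fintype_card, QuaternionGroup.card]
        have h2 : Nat.card (P : Subgroup H) ∣ Nat.card H := card_subgroup_dvd_card _
        exact (Dvd.intro _ (by rw [h1]; ring : 2 * (2 * 2 ^ n) = Nat.card (P : Subgroup H))).trans h2
    have hsol : Group.IsSolvable H := inferInstance
    have hK1 : Nat.card K ≠ 1 := fun h => hK (card_eq_one.1 h)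
    obtain ⟨r, hr, hrK⟩ := Nat.exists_prime_and_dvd hK1
    have : Fact r.Prime := ⟨hr⟩
    obtain ⟨R, hR⟩ := Cfsg.Agent.S0023.result H K hHK hcop (Or.inl hsol) r
    have hRK : (R : Subgroup K).map K.subtype ≤ K := map_subtype_le _
    have hRp : IsPGroup r ((R : Subgroup K).map K.subtype) := R.2.map _
    have hRbot : (R : Subgroup K).map K.subtype ≠ ⊥ := by
      rw [Ne, map_eq_bot_iff_of_injective _ K.subtype_injective]
      exact R.ne_bot_of_dvd_card hrK
    generalize (R : Subgroup K).map K.subtype = R' at hR hRK hRp hRbot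
    have hVab : IsMulCommutative (R' ⊓ centralizer (R' : Set G) : Subgroup G) := by
      refine ⟨⟨?_⟩⟩
      rintro ⟨x, hx⟩ ⟨y, hy⟩
      apply Subtype.ext
      exact mem_centralizer_iff.1 (mem_inf.1 hy).2 x (mem_inf.1 hx).1
    have hVbot : (R' ⊓ centralizer (R' : Set G) : Subgroup G) ≠ ⊥ := by
      rw [← Cfsg.Agent.Lib.Helper21.map_subtype_center, Ne,
        map_eq_bot_iff_of_injective _ R'.subtype_injective]
      have : Nontrivial R' := (nontrivial_iff_ne_bot R').2 hRbot
      have := hRp.center_nontrivial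
      exact (nontrivial_iff_ne_bot _).1 this
    have hHV : H ≤ normalizer ((R' ⊓ centralizer (R' : Set G) : Subgroup G) : Set G) := by
      rw [le_normalizer_iff]
      intro h hh v hv
      have hn := le_normalizer_iff.1 hR
      refine mem_inf.2 ⟨hn h hh v (mem_inf.1 hv).1, ?_⟩
      rw [mem_centralizer_iff]
      intro x hx
      have hx' : h⁻¹ * x * h ∈ R' := by
        have := hn h⁻¹ (inv_mem hh) x hx
        rwa [inv_inv] at this
      have h1 := mem_centralizer_iff.1 (mem_inf.1 hv).2 _ hx'
      calc x * (h * v * h⁻¹) = h * (h⁻¹ * x * h * v) * h⁻¹ := by group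
        _ = h * (v * (h⁻¹ * x * h)) * h⁻¹ := by rw [h1]
        _ = h * v * h⁻¹ * x := by group
    have hVK : (R' ⊓ centralizer (R' : Set G) : Subgroup G) ≤ K := inf_le_left.trans hRK
    generalize (R' ⊓ centralizer (R' : Set G) : Subgroup G) = V at hVab hVbot hHV hVK
    have hpq : ∀ (A : Subgroup H) (p q : ℕ), p.Prime → q.Prime → Nat.card A = p * q → IsCyclic A := by
      intro A p q hp hq hA
      apply isCyclic_of_map H A
      apply Cfsg.Agent.S0041.result (A.map H.subtype) V hVbot ((map_subtype_le A).trans hHV)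
      · intro a ha ha1
        rw [eq_bot_iff, ← hfpf a (map_subtype_le A ha) ha1]
        exact inf_le_inf_right _ hVK
      · right
        refine ⟨p, q, hp, hq, ?_⟩
        rw [← hA]
        exact (Nat.card_congr (A.equivMapOfInjective H.subtype H.subtype_injective).toEquiv).symm
    have : Nontrivial H := (nontrivial_iff_ne_bot H).2 hH
    exact center_ne_bot_of_isZGroup hpq

end Cfsg.Agent.S0069
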