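import Cfsg.Statements.S0070
import Mathlib

set_option autoImplicit false
open Cfsg

namespace Cfsg.Agent.S0070

open Subgroup

theorem nilpotent_of_map_frattini {G : Type*} [Group G] [Finite G] (N : Subgroup G) [hN : N.Normal]
    (hΦ : frattini G ≤ N) (hnil : Group.IsNilpotent (N.map (QuotientGroup.mk' (frattini G)))) :
    Group.IsNilpotent N := by
  have q := (Group.isNilpotent_of_finite_tfae (G := N)).out 0 3
  rw [q]
  intro p hp P
  set π := QuotientGroup.mk' (frattini G) with hπ
  have hπs : Function.Surjective π := QuotientGroup.mk'_surjective _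
  set M := N.map π with hM
  let φ : N →* M := π.subgroupMap N
  have hφ : Function.Surjective φ := π.subgroupMap_surjective N
  let Q : Sylow p M := P.mapSurjective hφ
  haveI : (Q : Subgroup M).Normal := inferInstance
  haveI : (Q : Subgroup M).Characteristic := Q.characteristic_of_normal inferInstance
  haveI : M.Normal := hN.map π hπs
  have hQn : ((Q : Subgroup M).map M.subtype).Normal := ConjAct.normal_of_characteristic_of_normal
  set P' := (P : Subgroup N).map N.subtype with hP'
  have e1 : (Q : Subgroup M).map M.subtype = P'.map π := by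
    change (((P : Subgroup N).map φ).map M.subtype) = ((P : Subgroup N).map N.subtype).map π
    rw [Subgroup.map_map, Subgroup.map_map]
    rfl
  rw [e1] at hQn
  set K := (P'.map π).comap π with hK
  haveI : K.Normal := hQn.comap π
  have hKeq : K = P' ⊔ frattini G := by
    rw [hK, Subgroup.comap_map_eq, hπ, QuotientGroup.ker_mk']
  have hP'N : P' ≤ N := Subgroup.map_subtype_le _
  have hP'K : P' ≤ K := Subgroup.le_comap_map _ _
  have hKN : K ≤ N := by rw [hKeq]; exact sup_le hP'N hΦ
  have hpg : IsPGroup p (P'.subgroupOf K) := (P.2.map _).comap_subtype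
  have hidx : ¬ p ∣ (P'.subgroupOf K).index := by
    intro hd
    have h1 := Subgroup.relIndex_mul_relIndex P' K N hP'K hKN
    have h2 : P'.relIndex N = (P : Subgroup N).index := by
      rw [Subgroup.relIndex, hP', Subgroup.subgroupOf,
        Subgroup.comap_map_eq_self_of_injective N.subtype_injective]
    rw [h2] at h1
    apply P.not_dvd_index
    rw [← h1]
    exact Dvd.dvd.mul_right hd _
  let PK : Sylow p K := hpg.toSylow hidx
  have h3 := Sylow.normalizer_sup_eq_top PK
  have h4 : (PK : Subgroup K).map K.subtype = P' := Subgroup.map_subgroupOf_eq_of_le hP'K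
  rw [h4, hKeq, ← sup_assoc, sup_eq_left.mpr (le_normalizer : P' ≤ normalizer (P' : Set G))] at h3
  have h5 := frattini_nongenerating h3
  have h6 : P'.Normal := normalizer_eq_top_iff.mp h5
  exact h6.of_map_subtype

/-- The Fitting subgroup commutes with passing to the Frattini quotient: the Fitting subgroup of G modulo its Frattini subgroup is the image of the Fitting subgroup of G. -/
theorem result {G : Type*} [Group G] [Finite G] :
    Cfsg.fittingSubgroup (G ⧸ frattini G) = (Cfsg.fittingSubgroup G).map (QuotientGroup.mk' (frattini G)) := by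
  set π := QuotientGroup.mk' (frattini G) with hπ
  have hπs : Function.Surjective π := QuotientGroup.mk'_surjective _
  apply le_antisymm
  · unfold Cfsg.fittingSubgroup
    apply sSup_le
    rintro M ⟨hMn, hMnil⟩
    set N := M.comap π with hN
    haveI : N.Normal := hMn.comap π
    have hNM : N.map π = M := Subgroup.map_comap_eq_self_of_surjective hπs M
    have hΦ : frattini G ≤ N := by
      have : π.ker ≤ N := Subgroup.ker_le_comap π M
      rwa [hπ, QuotientGroup.ker_mk'] at this
    have hnil : Group.IsNilpotent N := by
      apply nilpotent_of_map_frattini N hΦ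
      rw [← hπ, hNM]
      exact hMnil
    rw [← hNM]
    apply Subgroup.map_mono
    exact le_sSup ⟨inferInstance, hnil⟩
  · unfold Cfsg.fittingSubgroup
    rw [sSup_eq_iSup, Subgroup.map_iSup]
    apply iSup_le
    intro N
    rw [Subgroup.map_iSup]
    apply iSup_le
    rintro ⟨hNn, hNnil⟩
    apply le_sSup
    refine ⟨hNn.map π hπs, ?_⟩
    exact Group.nilpotent_of_surjective (π.subgroupMap N) (π.subgroupMap_surjective N)

end Cfsg.Agent.S0070
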