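import Cfsg.Statements.S0078
import Cfsg.Agent.Lib.Helper2.Tate
import Cfsg.Agent.Lib.Helper2.WeaklyClosed

set_option autoImplicit false
open Cfsg

namespace Cfsg.Agent.S0078

open Cfsg.Agent.Lib.Helper2
open scoped Pointwise

/-- In a p-normal group, a Sylow p-subgroup P meets O^p(G) exactly where it meets O^p(V), for any subgroup V containing the normalizer of the centre of P. -/
theorem result {G : Type*} [Group G] [Finite G] {p : ℕ} [Fact p.Prime] (P : Sylow p G) (hn : ∀ Q : Sylow p G, (P : Subgroup G) ⊓ Subgroup.centralizer (P : Set G) ≤ (Q : Subgroup G) → (Q : Subgroup G) ⊓ Subgroup.centralizer (Q : Set G) = (P : Subgroup G) ⊓ Subgroup.centralizer (P : Set G)) (V : Subgroup G) (hV : Subgroup.normalizer (((P : Subgroup G) ⊓ Subgroup.centralizer (P : Set G) : Subgroup G) : Set G) ≤ V) : (P : Subgroup G) ⊓ Cfsg.pResidual p G = (P : Subgroup G) ⊓ (Cfsg.pResidual p V).map V.subtype := by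
  set Z : Subgroup G := (P : Subgroup G) ⊓ Subgroup.centralizer (P : Set G) with hZ
  have hW : Cfsg.IsWeaklyClosed Z P := by
    refine ⟨inf_le_left, ?_⟩
    intro g hg
    have hQ : ∀ x, x ∈ ((g⁻¹ • P : Sylow p G) : Subgroup G) ↔ g * x * g⁻¹ ∈ (P : Subgroup G) := by
      intro x
      rw [mem_coe_sylow_smul_iff, inv_inv]
    have h1 : Z ≤ ((g⁻¹ • P : Sylow p G) : Subgroup G) := by
      intro z hz
      rw [hQ]
      exact hg (Subgroup.mem_map.mpr ⟨z, hz, rfl⟩)
    have h2 := hn (g⁻¹ • P) h1
    have h3 : ∀ x, x ∈ Z ↔ g * x * g⁻¹ ∈ Z := by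
      intro x
      conv_lhs => rw [← h2]
      rw [hZ, Subgroup.mem_inf, Subgroup.mem_inf, hQ, Subgroup.mem_centralizer_iff,
        Subgroup.mem_centralizer_iff]
      apply and_congr Iff.rfl
      constructor
      · intro h y hy
        have hy' : g⁻¹ * y * g ∈ ((g⁻¹ • P : Sylow p G) : Subgroup G) := by
          rw [hQ]
          have : g * (g⁻¹ * y * g) * g⁻¹ = y := by group
          rw [this]; exact hy
        have := h _ hy'
        calc y * (g * x * g⁻¹) = g * ((g⁻¹ * y * g) * x) * g⁻¹ := by group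
          _ = g * (x * (g⁻¹ * y * g)) * g⁻¹ := by rw [this]
          _ = g * x * g⁻¹ * y := by group
      · intro h y hy
        have hy' : g * y * g⁻¹ ∈ (P : Subgroup G) := (hQ y).mp hy
        have := h _ hy'
        calc y * x = g⁻¹ * ((g * y * g⁻¹) * (g * x * g⁻¹)) * g := by group
          _ = g⁻¹ * ((g * x * g⁻¹) * (g * y * g⁻¹)) * g := by rw [this]
          _ = x * y := by group
    apply le_antisymm
    · rintro _ ⟨z, hz, rfl⟩
      exact (h3 z).mp hz
    · intro w hw
      refine Subgroup.mem_map.mpr ⟨g⁻¹ * w * g, ?_, ?_⟩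
      · rw [h3]
        have : g * (g⁻¹ * w * g) * g⁻¹ = w := by group
        rw [this]; exact hw
      · change g * (g⁻¹ * w * g) * g⁻¹ = w
        group
  have hPV : (P : Subgroup G) ≤ V := by
    refine le_trans ?_ hV
    intro x hx
    rw [Subgroup.mem_normalizer_iff]
    intro z
    have hZn : ∀ z ∈ Z, ∀ y ∈ (P : Subgroup G), y * z * y⁻¹ = z := by
      intro z hz y hy
      have := (Subgroup.mem_centralizer_iff.mp hz.2) y hy
      rw [this]; group
    constructor
    · intro hz
      have hz' : z ∈ Z := hz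
      rw [hZn z hz' x hx]; exact hz
    · intro hz
      have hz' : x * z * x⁻¹ ∈ Z := hz
      have := hZn _ hz' x⁻¹ ((P : Subgroup G).inv_mem hx)
      have h4 : x⁻¹ * (x * z * x⁻¹) * x⁻¹⁻¹ = z := by group
      rw [h4] at this
      rw [this]; exact hz
  apply inf_pResidual_eq_of_control P V hPV
  intro x hx g hg
  obtain ⟨n, hn1, hn2⟩ := weaklyClosed_control P Z inf_le_right hW {x} (by simpa using hx) g
    (by simpa using hg)
  exact ⟨n, hV hn1, hn2 x rfl⟩

end Cfsg.Agent.S0078
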