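import Cfsg.Statements.S0079
import Cfsg.Agent.S0071
import Cfsg.Agent.Lib.Helper2.TransferBasic

set_option autoImplicit false
open Cfsg

namespace Cfsg.Agent.S0079

open Cfsg.Agent.Lib.Helper2 Subgroup MulAction
open scoped commutatorElement

theorem stab_lemma {G : Type*} [Group G] {q a : ℕ} (g x z : G) (hg : Nat.Coprime (orderOf g) q)
    (h1 : g * x * g⁻¹ = z * x) (h2 : g * z * g⁻¹ = z) (hz : z ^ q ^ a = 1) : z = 1 := by
  have hpow : ∀ k : ℕ, g ^ k * x * (g ^ k)⁻¹ = z ^ k * x := by
    intro k
    induction k with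
    | zero => simp
    | succ k ih =>
      have hzk : g * z ^ k * g⁻¹ = z ^ k := by
        have := conj_pow (a := g) (b := z) (i := k)
        rw [h2] at this
        exact this.symm
      calc g ^ (k + 1) * x * (g ^ (k + 1))⁻¹ = g * (g ^ k * x * (g ^ k)⁻¹) * g⁻¹ := by
            rw [pow_succ']; group
        _ = g * (z ^ k * x) * g⁻¹ := by rw [ih]
        _ = (g * z ^ k * g⁻¹) * (g * x * g⁻¹) := by group
        _ = z ^ k * (z * x) := by rw [hzk, h1]
        _ = z ^ (k + 1) * x := by rw [pow_succ]; group
  have h3 := hpow (orderOf g)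
  rw [pow_orderOf_eq_one, one_mul, inv_one, mul_one] at h3
  have h4 : z ^ orderOf g = 1 := by
    have := h3.symm
    simpa using this
  exact eq_one_of_pow_eq_one_of_coprime h4 hz (Nat.Coprime.pow_right a hg)

/-- A nilpotent Hall subgroup has a normal complement exactly when elements of it that are conjugate in the whole group are already conjugate inside it. -/
theorem result {G : Type*} [Group G] [Finite G] (H : Subgroup G) (hH : Group.IsNilpotent H) (hHall : Nat.Coprime (Nat.card H) H.index) : (∃ N : Subgroup G, N.Normal ∧ N.IsComplement' H) ↔ ∀ x ∈ H, ∀ y ∈ H, (∃ g : G, g * x * g⁻¹ = y) → ∃ h ∈ H, h * x * h⁻¹ = y := by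
  classical
  constructor
  · rintro ⟨N, hN, hc⟩ x hx y hy ⟨g, rfl⟩
    have hg : g ∈ N ⊔ H := by rw [hc.sup_eq_top]; exact mem_top g
    rw [Subgroup.mem_sup_of_normal_left] at hg
    obtain ⟨n, hn, h, hh, rfl⟩ := hg
    refine ⟨h, hh, ?_⟩
    set x' := h * x * h⁻¹ with hx'
    have hx'H : x' ∈ H := H.mul_mem (H.mul_mem hh hx) (H.inv_mem hh)
    have e1 : n * h * x * (n * h)⁻¹ = n * x' * n⁻¹ := by rw [hx']; group
    rw [e1] at hy ⊢
    have h1 : n * x' * n⁻¹ * x'⁻¹ ∈ N := by
      have : x' * n⁻¹ * x'⁻¹ ∈ N := hN.conj_mem _ (N.inv_mem hn) x'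
      have h2 := N.mul_mem hn this
      convert h2 using 1
      group
    have h2 : n * x' * n⁻¹ * x'⁻¹ ∈ H := H.mul_mem hy (H.inv_mem hx'H)
    have h3 : n * x' * n⁻¹ * x'⁻¹ ∈ N ⊓ H := ⟨h1, h2⟩
    rw [hc.disjoint.eq_bot, mem_bot] at h3
    exact (mul_inv_eq_one.mp h3).symm
  · intro hfus
    set T := (Nat.card H).primeFactors with hT
    obtain ⟨c, hc⟩ := (Subgroup.isNilpotent_iff_lowerCentralSeries H).mp hH
    -- Frobenius condition for each prime in T
    have hFrob : ∀ q ∈ T, Nat.Coprime (Nat.card (Cfsg.pResidual q G)) q := by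
      intro q hq
      have hqp : q.Prime := Nat.prime_of_mem_primeFactors hq
      have hqd : q ∣ Nat.card H := Nat.dvd_of_mem_primeFactors hq
      haveI : Fact q.Prime := ⟨hqp⟩
      obtain ⟨S0⟩ : Nonempty (Sylow q H) := inferInstance
      have hpg : IsPGroup q ((S0 : Subgroup H).map H.subtype) := S0.2.map _
      have hnd : ¬ q ∣ ((S0 : Subgroup H).map H.subtype).index := by
        rw [Subgroup.index_map_subtype]
        intro hd
        rcases (Nat.Prime.dvd_mul hqp).mp hd with h1 | h1
        · exact S0.not_dvd_index h1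
        · exact hqp.one_lt.ne' (Nat.eq_one_of_dvd_coprimes hHall hqd h1)
      set S : Sylow q G := hpg.toSylow hnd with hS
      have hSH : (S : Subgroup G) ≤ H := Subgroup.map_subtype_le _
      apply Cfsg.Agent.Lib.Helper2.frobenius
      apply Cfsg.Agent.S0071.frobCond_of_sylow S
      intro Q hQS g hg hgo
      have hQp : IsPGroup q Q := S.2.to_le hQS
      have key : ∀ j i : ℕ, i + j = c → ∀ x ∈ Q ⊓ H.lowerCentralSeries i, g * x * g⁻¹ = x := by
        intro j
        induction j with
        | zero =>
          intro i hi x hx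
          have : i = c := by omega
          subst this
          rw [hc] at hx
          have hx1 : x = 1 := hx.2
          rw [hx1]; group
        | succ j ih =>
          intro i hi x hx
          have hyQ : g * x * g⁻¹ ∈ Q := (mem_normalizer_iff.mp hg x).mp hx.1
          obtain ⟨h, hh, hh'⟩ := hfus x (hSH (hQS hx.1)) _ (hSH (hQS hyQ)) ⟨g, rfl⟩
          set z := g * x * g⁻¹ * x⁻¹ with hz
          have hzQ : z ∈ Q := Q.mul_mem hyQ (Q.inv_mem hx.1)
          have hzL : z ∈ H.lowerCentralSeries (i + 1) := by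
            rw [Subgroup.lowerCentralSeries_succ, Subgroup.commutator_comm]
            have : z = ⁅h, x⁆ := by rw [hz, ← hh', commutatorElement_def]
            rw [this]
            exact Subgroup.commutator_mem_commutator hh hx.2
          have h2 := ih (i + 1) (by omega) z ⟨hzQ, hzL⟩
          have h1 : g * x * g⁻¹ = z * x := by rw [hz]; group
          obtain ⟨a, ha⟩ := hQp ⟨z, hzQ⟩
          have ha' : z ^ q ^ a = 1 := by
            have := congrArg Subtype.val ha
            simpa using this
          have hz1 := stab_lemma g x z hgo h1 h2 ha'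
          rw [h1, hz1, one_mul]
      rw [mem_centralizer_iff]
      intro x hx
      have h1 := key c 0 (by omega) x ⟨hx, by
        rw [Subgroup.lowerCentralSeries_zero]; exact hSH (hQS hx)⟩
      have h2 := congrArg (· * g) h1
      simpa using h2.symm
    set N : Subgroup G := ⨅ q ∈ T, Cfsg.pResidual q G with hN
    have hNn : N.Normal := by
      rw [hN]
      refine ⟨fun n hn g => ?_⟩
      simp only [Subgroup.mem_iInf] at hn ⊢
      intro q hq
      exact (inferInstance : (Cfsg.pResidual q G).Normal).conj_mem n (hn q hq) g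
    have hNle : ∀ q ∈ T, N ≤ Cfsg.pResidual q G := fun q hq => iInf₂_le q hq
    refine ⟨N, hNn, ?_⟩
    apply Subgroup.isComplement'_of_disjoint_and_mul_eq_univ
    · rw [disjoint_iff]
      by_contra hne
      have h1 : Nat.card (N ⊓ H : Subgroup G) ≠ 1 := fun h => hne (Subgroup.card_eq_one.mp h)
      obtain ⟨r, hr, hrd⟩ := Nat.exists_prime_and_dvd h1
      have hrH : r ∣ Nat.card H := hrd.trans (Subgroup.card_dvd_of_le inf_le_right)
      have hrT : r ∈ T := Nat.mem_primeFactors.mpr ⟨hr, hrH, Nat.card_pos.ne'⟩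
      have hrK : r ∣ Nat.card (Cfsg.pResidual r G) :=
        hrd.trans (Subgroup.card_dvd_of_le (inf_le_left.trans (hNle r hrT)))
      exact hr.one_lt.ne' (Nat.eq_one_of_dvd_coprimes (hFrob r hrT) hrK dvd_rfl)
    · rw [← Subgroup.normal_mul]
      have : N ⊔ H = ⊤ := by
        rw [← Subgroup.index_eq_one]
        by_contra hne
        obtain ⟨r, hr, hrd⟩ := Nat.exists_prime_and_dvd hne
        haveI : Fact r.Prime := ⟨hr⟩
        have hrH : r ∣ H.index := hrd.trans (Subgroup.index_dvd_of_le le_sup_right)
        have hrN : r ∣ Nat.card (G ⧸ N) := by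
          rw [← Subgroup.index_eq_card]
          exact hrd.trans (Subgroup.index_dvd_of_le le_sup_left)
        obtain ⟨gb, hgb⟩ := exists_prime_orderOf_dvd_card' r hrN
        obtain ⟨g, rfl⟩ := QuotientGroup.mk_surjective gb
        have hgN : g ∉ N := by
          intro h
          rw [(QuotientGroup.eq_one_iff g).mpr h, orderOf_one] at hgb
          exact hr.one_lt.ne hgb
        have hgr : g ^ r ∈ N := by
          rw [← QuotientGroup.eq_one_iff, QuotientGroup.mk_pow, ← hgb, pow_orderOf_eq_one]
        have : ∃ q ∈ T, g ∉ Cfsg.pResidual q G := by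
          by_contra hcon
          push Not at hcon
          apply hgN
          rw [hN]
          simp only [Subgroup.mem_iInf]
          exact hcon
        obtain ⟨q, hq, hgq⟩ := this
        have hqp : q.Prime := Nat.prime_of_mem_primeFactors hq
        haveI : Fact q.Prime := ⟨hqp⟩
        have h1 : (g : G ⧸ Cfsg.pResidual q G) ≠ 1 := fun h => hgq ((QuotientGroup.eq_one_iff g).mp h)
        have h2 : (g : G ⧸ Cfsg.pResidual q G) ^ r = 1 := by
          rw [← QuotientGroup.mk_pow, QuotientGroup.eq_one_iff]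
          exact hNle q hq hgr
        have h3 : orderOf (g : G ⧸ Cfsg.pResidual q G) = r := orderOf_eq_prime h2 h1
        obtain ⟨a, ha⟩ := (isPGroup_quotient_pResidual (G := G) q) (g : G ⧸ Cfsg.pResidual q G)
        have h4 : r ∣ q ^ a := by rw [← h3]; exact orderOf_dvd_of_pow_eq_one ha
        have h5 : r = q := (Nat.prime_dvd_prime_iff_eq hr hqp).mp (hr.dvd_of_dvd_pow h4)
        subst h5
        exact hr.one_lt.ne' (Nat.eq_one_of_dvd_coprimes hHall (Nat.dvd_of_mem_primeFactors hq) hrH)
      rw [this, Subgroup.coe_top]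

end Cfsg.Agent.S0079
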