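import Cfsg.Statements.S0082
import Cfsg.Agent.S0090
import Cfsg.Agent.S0075
import Cfsg.Agent.Lib.Helper2.CyclicP

set_option autoImplicit false
open Cfsg

namespace Cfsg.Agent.S0082

open Cfsg.Agent.Lib.Helper2 Subgroup

/-- With a cyclic Sylow p-subgroup, either there is a normal p-complement or the elements of order prime to p generate the whole group. -/
theorem result {G : Type*} [Group G] [Finite G] {p : ℕ} [Fact p.Prime] (P : Sylow p G) (hP : IsCyclic P) : Cfsg.HasNormalPComplement p G ∨ Cfsg.pResidual p G = ⊤ := by
  have hc : IsMulCommutative P := inferInstance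
  set N := normalizer (P : Set G) with hN
  set A : Subgroup N := (P : Subgroup G).subgroupOf N with hA
  have hPN : (P : Subgroup G) ≤ N := le_normalizer
  let e : A ≃* (P : Subgroup G) := Subgroup.subgroupOfEquivOfLe hPN
  haveI : A.Normal := Subgroup.normal_in_normalizer
  haveI hAc : IsCyclic A := e.symm.isCyclic.mp hP
  have hAcomm : IsMulCommutative A := inferInstance
  have hAp : IsPGroup p A := P.2.comap_subtype
  have hHall : Nat.Coprime (Nat.card A) A.index := (P.subtype hPN).card_coprime_index
  obtain ⟨-, h2, h3⟩ := Cfsg.Agent.S0090.result A hAcomm hHall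
  rcases eq_bot_or_eq_bot_of_inf_eq_bot_of_cyclic A hAp _ _ inf_le_right inf_le_right h2 with h4 | h4
  · left
    rw [h4, bot_sup_eq] at h3
    have h5 : A ≤ center N := inf_eq_right.mp h3
    apply hasNormalPComplement_of_normalizer_le_centralizer P
    intro n hn
    rw [mem_centralizer_iff]
    intro x hx
    have hxA : (⟨x, hPN hx⟩ : N) ∈ A := mem_subgroupOf.mpr hx
    have h6 := (mem_center_iff.mp (h5 hxA)) ⟨n, hn⟩
    exact (congrArg Subtype.val h6).symm
  · right
    rw [h4, sup_bot_eq] at h3
    have h5 : A ≤ commutator N := inf_eq_right.mp h3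
    have h6 : (P : Subgroup G) ≤ Cfsg.pResidual p G := by
      intro x hx
      apply Cfsg.Agent.S0075.commutator_le_pResidual_of_abelian_sylow P hc
      have hxA : (⟨x, hPN hx⟩ : N) ∈ A := mem_subgroupOf.mpr hx
      have h7 : x ∈ (commutator N).map N.subtype := ⟨⟨x, hPN hx⟩, h5 hxA, rfl⟩
      rw [Subgroup.map_subtype_commutator] at h7
      rw [commutator_def]
      exact Subgroup.commutator_mono le_top le_top h7
    have h7 := pResidual_sup_sylow P
    rwa [sup_eq_left.mpr h6] at h7

end Cfsg.Agent.S0082
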