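import Cfsg.Statements.S0083
import Cfsg.Agent.Lib.Helper2.PComplement

set_option autoImplicit false
open Cfsg

namespace Cfsg.Agent.S0083

open Cfsg.Agent.Lib.Helper2

/-- For an abelian Sylow p-subgroup P, a normal p-complement exists exactly when the normalizer of P is an internal direct product of P with some subgroup. -/
theorem result {G : Type*} [Group G] [Finite G] {p : ℕ} [Fact p.Prime] (P : Sylow p G) (hP : IsMulCommutative P) : Cfsg.HasNormalPComplement p G ↔ ∃ Q : Subgroup G, Q ≤ Subgroup.centralizer (P : Set G) ∧ Q ⊓ (P : Subgroup G) = ⊥ ∧ Q ⊔ (P : Subgroup G) = Subgroup.normalizer (P : Set G) := by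
  constructor
  · intro h
    rw [hasNormalPComplement_iff] at h
    have hc := isComplement'_pResidual_of_coprime h P
    set K := Cfsg.pResidual p G with hK
    have hdisj : K ⊓ (P : Subgroup G) = ⊥ := hc.disjoint.eq_bot
    refine ⟨K ⊓ Subgroup.normalizer (P : Set G), ?_, ?_, ?_⟩
    · rintro q ⟨hqK, hqN⟩
      rw [Subgroup.mem_centralizer_iff]
      intro x hx
      have hx' : x ∈ (P : Subgroup G) := hx
      have h1 : q * x * q⁻¹ * x⁻¹ ∈ K := by
        have : x * q⁻¹ * x⁻¹ ∈ K := (inferInstance : K.Normal).conj_mem _ (K.inv_mem hqK) x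
        have h2 := K.mul_mem hqK this
        convert h2 using 1
        group
      have h2 : q * x * q⁻¹ * x⁻¹ ∈ (P : Subgroup G) := by
        have : q * x * q⁻¹ ∈ (P : Subgroup G) := (Subgroup.mem_normalizer_iff.mp hqN x).mp hx'
        exact (P : Subgroup G).mul_mem this ((P : Subgroup G).inv_mem hx')
      have h3 : q * x * q⁻¹ * x⁻¹ ∈ K ⊓ (P : Subgroup G) := ⟨h1, h2⟩
      rw [hdisj, Subgroup.mem_bot] at h3
      have h4 : q * x = x * q := by
        have := congrArg (· * (x * q)) h3
        simpa [mul_assoc] using this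
      exact h4.symm
    · rw [eq_bot_iff, ← hdisj]
      exact inf_le_inf_right _ inf_le_left
    · apply le_antisymm
      · exact sup_le inf_le_right Subgroup.le_normalizer
      · intro n hn
        have h1 : n ∈ K ⊔ (P : Subgroup G) := by rw [hc.sup_eq_top]; exact Subgroup.mem_top n
        rw [Subgroup.mem_sup_of_normal_left] at h1
        obtain ⟨k, hk, x, hx, rfl⟩ := h1
        have hkN : k ∈ Subgroup.normalizer (P : Set G) := by
          have := Subgroup.mul_mem _ hn (Subgroup.inv_mem _ (Subgroup.le_normalizer hx))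
          simpa using this
        exact Subgroup.mul_mem _ (Subgroup.mem_sup_left ⟨hk, hkN⟩) (Subgroup.mem_sup_right hx)
  · rintro ⟨Q, hQC, -, hQN⟩
    apply hasNormalPComplement_of_normalizer_le_centralizer P
    rw [← hQN]
    exact sup_le hQC P.le_centralizer

end Cfsg.Agent.S0083
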