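import Cfsg.Statements.S0084
import Cfsg.Agent.Lib.Helper2.NCLemma
import Cfsg.Agent.Lib.Helper2.PComplement

set_option autoImplicit false
open Cfsg

namespace Cfsg.Agent.S0084

open Cfsg.Agent.Lib.Helper2

/-- A group whose Sylow 2-subgroups are Klein four-groups and whose order is prime to 3 has a normal 2-complement. -/
theorem result {G : Type*} [Group G] [Finite G] (T : Sylow 2 G) (hT : IsKleinFour T) (h3 : ¬ 3 ∣ Nat.card G) : Cfsg.HasNormalPComplement 2 G := by
  haveI : Fact (Nat.Prime 2) := ⟨Nat.prime_two⟩
  apply hasNormalPComplement_of_normalizer_le_centralizer T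
  have hc : IsMulCommutative T := by
    refine ⟨⟨fun a b => ?_⟩⟩
    exact mul_comm_of_exponent_two (IsKleinFour.exponent_two) a b
  apply normalizer_le_centralizer_of_not_dvd_sub (k := 2) T hc
  · have := hT.card_four
    simpa using this
  · intro q hq hq2 hqG j hj hd
    interval_cases j
    · norm_num at hd
      have := (Nat.prime_dvd_prime_iff_eq hq Nat.prime_three).mp hd
      subst this
      exact h3 hqG
    · norm_num at hd
      exact hq2 ((Nat.prime_dvd_prime_iff_eq hq Nat.prime_two).mp hd)

end Cfsg.Agent.S0084
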