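import Cfsg.Statements.S0085
import Cfsg.Agent.Lib.Helper2.NCLemma
import Cfsg.Agent.Lib.Helper2.PComplement

set_option autoImplicit false
open Cfsg

namespace Cfsg.Agent.S0085

open Cfsg.Agent.Lib.Helper2

/-- A group whose Sylow 2-subgroups are elementary abelian of order 8 and whose order is prime to 3 and to 7 has a normal 2-complement. -/
theorem result {G : Type*} [Group G] [Finite G] (T : Sylow 2 G) (h8 : Nat.card T = 8) (he : ∀ x : T, x * x = 1) (h3 : ¬ 3 ∣ Nat.card G) (h7 : ¬ 7 ∣ Nat.card G) : Cfsg.HasNormalPComplement 2 G := by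
  haveI : Fact (Nat.Prime 2) := ⟨Nat.prime_two⟩
  apply hasNormalPComplement_of_normalizer_le_centralizer T
  have hc : IsMulCommutative T := by
    refine ⟨⟨fun a b => ?_⟩⟩
    have h1 := he (a * b)
    have ha := he a
    have hb := he b
    calc a * b = a * (a * b * (a * b)) * b := by rw [h1, mul_one]
      _ = (a * a) * (b * a) * (b * b) := by group
      _ = b * a := by rw [ha, hb, one_mul, mul_one]
  apply normalizer_le_centralizer_of_not_dvd_sub (k := 3) T hc
  · rw [h8]; norm_num
  · intro q hq hq2 hqG j hj hd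
    interval_cases j
    · norm_num at hd
      have := (Nat.prime_dvd_prime_iff_eq hq (by norm_num : Nat.Prime 7)).mp hd
      subst this
      exact h7 hqG
    · norm_num at hd
      have h6 : q ∣ 2 * 3 := hd
      rcases (Nat.Prime.dvd_mul hq).mp h6 with h | h
      · exact hq2 ((Nat.prime_dvd_prime_iff_eq hq Nat.prime_two).mp h)
      · have := (Nat.prime_dvd_prime_iff_eq hq Nat.prime_three).mp h
        subst this
        exact h3 hqG
    · norm_num at hd
      have h4 : q ∣ 2 ^ 2 := hd
      exact hq2 ((Nat.prime_dvd_prime_iff_eq hq Nat.prime_two).mp (hq.dvd_of_dvd_pow h4))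

end Cfsg.Agent.S0085
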