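import Cfsg.Statements.S0087
import Cfsg.Agent.S0080
import Cfsg.Agent.Lib.Helper2.SylowRel
import Cfsg.Agent.Lib.Helper2.WeaklyClosed

set_option autoImplicit false
open Cfsg

namespace Cfsg.Agent.S0087

open Cfsg.Agent.Lib.Helper2 Subgroup
open scoped commutatorElement

variable {G : Type*} [Group G] [Finite G]

theorem claim (Hq : ℕ → Subgroup G) (T : Finset ℕ)
    (hsyl : ∀ q ∈ T, q.Prime ∧ ∃ S : Sylow q G, (S : Subgroup G) = Hq q)
    (hcomm : ∀ q q', Hq q ≤ centralizer (Hq q' : Set G)) :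
    ∀ R : Finset ℕ, R ⊆ T → ∀ (S : Finset ℕ) (m : G), (∀ q ∈ S, m ∈ normalizer (Hq q : Set G)) →
      ∃ c, (∀ q ∈ S, c ∈ centralizer (Hq q : Set G)) ∧
        ∀ q ∈ S ∪ R, m * c ∈ normalizer (Hq q : Set G) := by
  classical
  intro R
  induction R using Finset.induction_on with
  | empty =>
    intro _ S m hm
    exact ⟨1, fun q _ => Subgroup.one_mem _, fun q hq => by simpa using hm q (by simpa using hq)⟩
  | insert r R' hr ih =>
    intro hsub S m hm
    obtain ⟨c1, hc1, hm1⟩ := ih (fun x hx => hsub (Finset.mem_insert_of_mem hx)) S m hm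
    set m1 := m * c1 with hm1def
    set C1 : Subgroup G := ⨅ q ∈ S ∪ R', centralizer (Hq q : Set G) with hC1
    obtain ⟨hrp, Sr, hSr⟩ := hsyl r (hsub (Finset.mem_insert_self r R'))
    haveI : Fact r.Prime := ⟨hrp⟩
    have h1 : (Sr : Subgroup G) ≤ C1 := by
      rw [hSr]
      exact le_iInf₂ fun q _ => hcomm r q
    have h2 : ((m1⁻¹ • Sr : Sylow r G) : Subgroup G) ≤ C1 := by
      intro x hx
      have hx' : m1 * x * m1⁻¹ ∈ (Sr : Subgroup G) := by
        have := mem_coe_sylow_smul_iff.mp hx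
        simpa using this
      rw [hSr] at hx'
      simp only [hC1, Subgroup.mem_iInf]
      intro q hq
      rw [mem_centralizer_iff]
      intro y hy
      have hy' : m1 * y * m1⁻¹ ∈ Hq q := (mem_normalizer_iff.mp (hm1 q hq) y).mp hy
      have h3 := (mem_centralizer_iff.mp (hcomm r q hx')) _ hy'
      have h4 : m1 * (y * x) * m1⁻¹ = m1 * (x * y) * m1⁻¹ := by
        calc m1 * (y * x) * m1⁻¹ = (m1 * y * m1⁻¹) * (m1 * x * m1⁻¹) := by group
          _ = (m1 * x * m1⁻¹) * (m1 * y * m1⁻¹) := h3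
          _ = m1 * (x * y) * m1⁻¹ := by group
      exact mul_left_cancel (mul_right_cancel h4)
    obtain ⟨c2, hc2, hc2'⟩ := sylow_conj_in (m1⁻¹ • Sr) Sr h2 h1
    have h5 : m1 * c2 ∈ normalizer (Hq r : Set G) := by
      rw [← hSr]
      have : (m1 * c2) • Sr = Sr := by rw [mul_smul, hc2', smul_inv_smul]
      exact Sylow.smul_eq_iff_mem_normalizer.mp this
    have hc2q : ∀ q ∈ S ∪ R', c2 ∈ centralizer (Hq q : Set G) := by
      intro q hq
      have := hc2
      simp only [hC1, Subgroup.mem_iInf] at this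
      exact this q hq
    refine ⟨c1 * c2, ?_, ?_⟩
    · intro q hq
      exact Subgroup.mul_mem _ (hc1 q hq) (hc2q q (Finset.mem_union_left _ hq))
    · intro q hq
      rw [← mul_assoc]
      rw [Finset.union_insert, Finset.mem_insert] at hq
      rcases hq with rfl | hq
      · exact h5
      · exact Subgroup.mul_mem _ (hm1 q hq) (Subgroup.centralizer_le_normalizer _ (hc2q q hq))

/-- A Hall subgroup that is central in its normalizer has a normal complement. -/
theorem result {G : Type*} [Group G] [Finite G] (H : Subgroup G) (hHall : Nat.Coprime (Nat.card H) H.index) (h : Subgroup.normalizer (H : Set G) ≤ Subgroup.centralizer (H : Set G)) : ∃ N : Subgroup G, N.Normal ∧ N.IsComplement' H := by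
  classical
  have hHC : H ≤ centralizer (H : Set G) := le_normalizer.trans h
  have hHcomm : ∀ x ∈ H, ∀ y ∈ H, x * y = y * x := fun x hx y hy =>
    ((mem_centralizer_iff.mp (hHC hx)) y hy).symm
  let Hq : ℕ → Subgroup G := fun q => ((Classical.arbitrary (Sylow q H) : Sylow q H) : Subgroup H).map H.subtype
  have hHqH : ∀ q, Hq q ≤ H := fun q => Subgroup.map_subtype_le _
  set T := (Nat.card H).primeFactors with hT
  have hsyl : ∀ q ∈ T, q.Prime ∧ ∃ S : Sylow q G, (S : Subgroup G) = Hq q := by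
    intro q hq
    have hqp : q.Prime := Nat.prime_of_mem_primeFactors hq
    have hqd : q ∣ Nat.card H := Nat.dvd_of_mem_primeFactors hq
    haveI : Fact q.Prime := ⟨hqp⟩
    refine ⟨hqp, ?_⟩
    have hpg : IsPGroup q (Hq q) := (Classical.arbitrary (Sylow q H)).2.map _
    have hnd : ¬ q ∣ (Hq q).index := by
      rw [Subgroup.index_map_subtype]
      intro hd
      rcases (Nat.Prime.dvd_mul hqp).mp hd with h1 | h1
      · exact (Classical.arbitrary (Sylow q H)).not_dvd_index h1
      · exact hqp.one_lt.ne' (Nat.eq_one_of_dvd_coprimes hHall hqd h1)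
    exact ⟨hpg.toSylow hnd, rfl⟩
  have hcomm : ∀ q q', Hq q ≤ centralizer (Hq q' : Set G) := fun q q' =>
    (hHqH q).trans (hHC.trans (Subgroup.centralizer_le (hHqH q')))
  have hgen : H ≤ ⨆ q ∈ T, Hq q := by
    have key : (⨆ q ∈ T, Hq q).subgroupOf H = ⊤ := by
      apply eq_top_of_forall_sylow_le
      intro q hqf
      refine ⟨Classical.arbitrary (Sylow q H), ?_⟩
      by_cases hq : q ∈ T
      · intro x hx
        rw [mem_subgroupOf]
        exact (le_iSup₂ (f := fun q _ => Hq q) q hq) ⟨x, hx, rfl⟩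
      · have hnd : ¬ q ∣ Nat.card H := by
          intro hd
          exact hq (Nat.mem_primeFactors.mpr ⟨hqf.out, hd, Nat.card_pos.ne'⟩)
        obtain ⟨k, hk⟩ := (Classical.arbitrary (Sylow q H)).2.exists_card_eq
        have hk0 : k = 0 := by
          by_contra hk0
          apply hnd
          have h1 : q ∣ q ^ k := dvd_pow_self q hk0
          rw [← hk] at h1
          exact h1.trans (Subgroup.card_subgroup_dvd_card _)
        rw [hk0, pow_zero] at hk
        rw [Subgroup.card_eq_one.mp hk]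
        exact bot_le
    exact Subgroup.subgroupOf_eq_top.mp key
  have hHeq : H = ⨆ q ∈ T, Hq q := le_antisymm hgen (iSup₂_le fun q _ => hHqH q)
  have hNC : ∀ p ∈ T, normalizer (Hq p : Set G) ≤ centralizer (Hq p : Set G) := by
    intro p hp m hm
    obtain ⟨c, hc, hmc⟩ := claim Hq T hsyl hcomm T subset_rfl {p} m (by simpa using hm)
    have h1 : m * c ∈ normalizer (H : Set G) := by
      rw [mem_normalizer_iff_map_conj_eq]
      conv_lhs => rw [hHeq]
      conv_rhs => rw [hHeq]
      rw [Subgroup.map_iSup]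
      congr 1
      funext q
      rw [Subgroup.map_iSup]
      congr 1
      funext hq
      exact mem_normalizer_iff_map_conj_eq.mp (hmc q (Finset.mem_union_right _ hq))
    have h2 : m * c ∈ centralizer (Hq p : Set G) := Subgroup.centralizer_le (hHqH p) (h h1)
    have h3 := Subgroup.mul_mem _ h2 (Subgroup.inv_mem _ (hc p (by simp)))
    simpa using h3
  have hmemHq : ∀ (p : ℕ) [Fact p.Prime] (a : ℕ) (w : G), w ∈ H → w ^ p ^ a = 1 → w ∈ Hq p := by
    intro p _ a w hw hwa
    have hpg : IsPGroup p (Subgroup.zpowers (⟨w, hw⟩ : H)) := by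
      apply IsPGroup.of_card_dvd_pow (n := a)
      rw [Nat.card_zpowers]
      apply orderOf_dvd_of_pow_eq_one
      apply Subtype.ext
      simpa using hwa
    haveI : (Subgroup.zpowers (⟨w, hw⟩ : H)).Normal := ⟨fun n hn g => by
      have : g * n * g⁻¹ = n := by
        have h1 : g * n = n * g := Subtype.ext (hHcomm g g.2 n n.2)
        rw [h1, mul_assoc, mul_inv_cancel, mul_one]
      rw [this]; exact hn⟩
    have := hpg.le_sylow_of_normal (Classical.arbitrary (Sylow p H)) (Subgroup.mem_zpowers _)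
    exact ⟨⟨w, hw⟩, this, rfl⟩
  have hfus : ∀ x ∈ H, ∀ g : G, g⁻¹ * x * g ∈ H → g⁻¹ * x * g = x := by
    intro x hx g hy
    set y := g⁻¹ * x * g with hydef
    have hz : x⁻¹ * y ∈ H := H.mul_mem (H.inv_mem hx) hy
    have hz1 : orderOf (x⁻¹ * y) = 1 := by
      by_contra hne
      obtain ⟨p, hp, hpd⟩ := Nat.exists_prime_and_dvd hne
      haveI : Fact p.Prime := ⟨hp⟩
      have hpT : p ∈ T := by
        refine Nat.mem_primeFactors.mpr ⟨hp, ?_, Nat.card_pos.ne'⟩
        have h1 : orderOf (⟨x⁻¹ * y, hz⟩ : H) ∣ Nat.card H := orderOf_dvd_natCard _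
        rw [Subgroup.orderOf_mk] at h1
        exact hpd.trans h1
      obtain ⟨a, m, hm, hom⟩ := Nat.exists_eq_pow_mul_and_not_dvd (orderOf_pos x).ne' p hp.ne_one
      have hxm : (x ^ m) ^ p ^ a = 1 := by
        rw [← pow_mul, mul_comm, ← hom, pow_orderOf_eq_one]
      have hym : y ^ m = g⁻¹ * x ^ m * g := by
        rw [hydef]
        have := conj_pow (a := g⁻¹) (b := x) (i := m)
        simpa using this
      have hym' : (y ^ m) ^ p ^ a = 1 := by
        rw [hym]
        have := conj_pow (a := g⁻¹) (b := x ^ m) (i := p ^ a)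
        rw [inv_inv] at this
        rw [this, hxm]
        group
      have h1 : x ^ m ∈ Hq p := hmemHq p a _ (H.pow_mem hx m) hxm
      have h2 : y ^ m ∈ Hq p := hmemHq p a _ (H.pow_mem hy m) hym'
      obtain ⟨-, S, hS⟩ := hsyl p hpT
      haveI : IsMulCommutative S := ⟨⟨fun u v => Subtype.ext
        (hHcomm u (hHqH p (hS ▸ u.2)) v (hHqH p (hS ▸ v.2)))⟩⟩
      rw [hym] at h2
      have h1S : x ^ m ∈ (S : Subgroup G) := by rw [hS]; exact h1
      have h2S : g⁻¹ * x ^ m * g ∈ (S : Subgroup G) := by rw [hS]; exact h2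
      obtain ⟨n, hn, hn'⟩ := S.conj_eq_normalizer_conj_of_mem (x ^ m) g h1S h2S
      have hn2 : n ∈ centralizer (Hq p : Set G) := hNC p hpT (hS ▸ hn)
      have h3 := (mem_centralizer_iff.mp hn2) (x ^ m) h1
      have h4 : y ^ m = x ^ m := by
        rw [hym, hn', mul_assoc, h3, inv_mul_cancel_left]
      have h5 : (x⁻¹ * y) ^ m = 1 := by
        have hc : Commute x⁻¹ y := hHcomm _ (H.inv_mem hx) _ hy
        rw [hc.mul_pow, h4, inv_pow, inv_mul_cancel]
      exact hm (hpd.trans (orderOf_dvd_of_pow_eq_one h5))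
    rw [orderOf_eq_one_iff] at hz1
    exact (inv_mul_eq_one.mp hz1).symm
  have hcop : Nat.Coprime H.index (⁅H, H⁆.relIndex H) :=
    (Nat.Coprime.coprime_dvd_left (Subgroup.relIndex_dvd_card _ _) hHall).symm
  obtain ⟨hfoc, N, hN, hNH, hsup⟩ := Cfsg.Agent.S0080.result H hcop
  have hfoc0 : Subgroup.focalSubgroup H = ⊥ := by
    rw [eq_bot_iff, Subgroup.focalSubgroup_def, Subgroup.closure_le]
    rintro g ⟨hgH, x, hx, u, rfl⟩
    have h1 : (u⁻¹)⁻¹ * x⁻¹ * u⁻¹ ∈ H := by
      have : (u⁻¹)⁻¹ * x⁻¹ * u⁻¹ = x⁻¹ * ⁅x, u⁆ := by rw [commutatorElement_def]; group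
      rw [this]
      exact H.mul_mem (H.inv_mem hx) hgH
    have h2 := hfus x⁻¹ (H.inv_mem hx) u⁻¹ h1
    rw [inv_inv] at h2
    rw [SetLike.mem_coe, Subgroup.mem_bot, commutatorElement_def, mul_assoc, mul_assoc, ← mul_assoc u, h2,
      mul_inv_cancel]
  refine ⟨N, hN, ?_⟩
  apply Subgroup.isComplement'_of_disjoint_and_mul_eq_univ
  · rw [disjoint_iff, hNH, ← hfoc, hfoc0]
  · rw [← Subgroup.normal_mul, hsup, Subgroup.coe_top]

end Cfsg.Agent.S0087
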