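import Cfsg.Statements.S0092
import Cfsg.Agent.S0055
import Cfsg.Agent.S0075
import Cfsg.Agent.Lib.Helper25.SZAmbient
import Cfsg.Agent.Lib.Lead.Residual
import Cfsg.Agent.Lib.Lead.FrobeniusComplement

set_option autoImplicit false
open Cfsg
open scoped commutatorElement

namespace Cfsg.Agent.S0092

theorem sz_exists_ambient {G : Type*} [Group G] [Finite G] (Q L : Subgroup G) (hQL : Q ≤ L)
    (hn : L ≤ Subgroup.normalizer (Q : Set G)) (hcop : (Nat.card Q).Coprime (Q.relIndex L)) :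
    ∃ M : Subgroup G, M ≤ L ∧ M ⊓ Q = ⊥ ∧ M ⊔ Q = L ∧ Nat.card M = Q.relIndex L := by
  have hnorm : (Q.subgroupOf L).Normal := Subgroup.normal_subgroupOf_of_le_normalizer hn
  have hcard : Nat.card (Q.subgroupOf L) = Nat.card Q :=
    Nat.card_congr (Subgroup.subgroupOfEquivOfLe hQL).toEquiv
  have hcop' : (Nat.card (Q.subgroupOf L)).Coprime (Q.subgroupOf L).index := by
    rw [hcard]; exact hcop
  obtain ⟨M', hM'⟩ := Subgroup.exists_right_complement'_of_coprime hcop'
  have hQmap : (Q.subgroupOf L).map L.subtype = Q := by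
    rw [Subgroup.subgroupOf_map_subtype]; exact inf_eq_left.2 hQL
  refine ⟨M'.map L.subtype, Subgroup.map_subtype_le _, ?_, ?_, ?_⟩
  · rw [← hQmap, ← Subgroup.map_inf _ _ _ L.subtype_injective, inf_comm, hM'.disjoint.eq_bot,
      Subgroup.map_bot]
  · rw [← hQmap, ← Subgroup.map_sup, sup_comm, hM'.sup_eq_top, ← MonoidHom.range_eq_map,
      Subgroup.range_subtype]
  · rw [Subgroup.card_map_of_injective L.subtype_injective, ← hM'.symm.index_eq_card]; rfl

theorem pResidual_pResidual (p : ℕ) (G : Type*) [Group G] :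
    Cfsg.pResidual p (Cfsg.pResidual p G) = ⊤ := by
  have h1 : Cfsg.pResidual p G ≤
      (Cfsg.pResidual p (Cfsg.pResidual p G)).map (Cfsg.pResidual p G).subtype := by
    conv_lhs => unfold Cfsg.pResidual
    rw [Subgroup.closure_le]
    intro g hg
    have hgN : g ∈ Cfsg.pResidual p G := Subgroup.subset_closure hg
    refine ⟨⟨g, hgN⟩, Subgroup.subset_closure ?_, rfl⟩
    change Nat.Coprime (orderOf (⟨g, hgN⟩ : Cfsg.pResidual p G)) p
    rw [Subgroup.orderOf_mk]; exact hg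
  rw [eq_top_iff]
  rintro x -
  obtain ⟨y, hy, hyx⟩ := h1 x.2
  have : y = x := Subtype.ext hyx
  exact this ▸ hy

theorem core {G : Type*} [Group G] [Finite G] {p : ℕ} [Fact p.Prime]
    (N : Subgroup G) [N.Normal] (hNq : IsPGroup p (G ⧸ N))
    (Q : Subgroup G) (hQN : Q ≤ N) (hQp : IsPGroup p Q) (hQc : IsMulCommutative Q)
    (hQidx : ¬ p ∣ Q.relIndex N)
    (hfrat : Subgroup.normalizer (Q : Set G) ⊔ N = ⊤)
    (hcomm : Q ≤ ⁅Q, N ⊓ Subgroup.normalizer (Q : Set G)⁆) :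
    ∃ K : Subgroup G, K.IsComplement' N := by
  classical
  have hp : p.Prime := Fact.out
  obtain ⟨H, hH⟩ : ∃ H : Subgroup G, H = Subgroup.normalizer (Q : Set G) := ⟨_, rfl⟩
  rw [← hH] at hfrat hcomm
  have hQH : Q ≤ H := hH ▸ Subgroup.le_normalizer
  have hHn : ∀ g ∈ H, ∀ q ∈ Q, g * q * g⁻¹ ∈ Q := by
    intro g hg q hq
    rw [hH] at hg
    exact (Subgroup.mem_normalizer_iff.1 hg q).1 hq
  have hQL : Q ≤ N ⊓ H := le_inf hQN hQH
  have hLn : N ⊓ H ≤ Subgroup.normalizer (Q : Set G) := hH ▸ inf_le_right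
  obtain ⟨k, hk⟩ := IsPGroup.iff_card.1 hQp
  have hidxL : ¬ p ∣ Q.relIndex (N ⊓ H) := fun hd =>
    hQidx (hd.trans (Dvd.intro _ (Subgroup.relIndex_mul_relIndex Q (N ⊓ H) N hQL inf_le_left)))
  have hcop : (Nat.card Q).Coprime (Q.relIndex (N ⊓ H)) := by
    rw [hk]; exact Nat.Coprime.pow_left _ ((Nat.Prime.coprime_iff_not_dvd hp).2 hidxL)
  obtain ⟨M, hML, hMQ, hMQsup, hMcard⟩ := sz_exists_ambient Q (N ⊓ H) hQL hLn hcop
  have hMcop : (Nat.card M).Coprime p := by
    rw [hMcard]; exact ((Nat.Prime.coprime_iff_not_dvd hp).2 hidxL).symm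
  have hMn : M ≤ Subgroup.normalizer (Q : Set G) := hML.trans hLn
  have hMQcop : (Nat.card M).Coprime (Nat.card Q) := by
    rw [hk]; exact Nat.Coprime.pow_right _ hMcop
  -- decomposition of elements of `L`
  have hLdec : ∀ l ∈ N ⊓ H, ∃ m ∈ M, ∃ q ∈ Q, l = m * q := by
    intro l hl
    have hl' : l ∈ ((M ⊔ Q : Subgroup G) : Set G) := by rw [hMQsup]; exact hl
    rw [Subgroup.coe_mul_of_left_le_normalizer_right M Q hMn] at hl'
    obtain ⟨m, hm, q, hq, rfl⟩ := hl'
    exact ⟨m, hm, q, hq, rfl⟩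
  -- `[Q, M] = Q`
  have hQM : Q ≤ ⁅Q, M⁆ := by
    refine hcomm.trans ?_
    rw [Subgroup.commutator_le]
    intro q hq l hl
    obtain ⟨m, hm, q1, hq1, rfl⟩ := hLdec l hl
    have hc : q * q1 = q1 * q := congrArg Subtype.val (hQc.is_comm.comm ⟨q, hq⟩ ⟨q1, hq1⟩)
    have e1 : ⁅q, m * q1⁆ = ⁅q, m⁆ := by
      have hc' : q1 * q⁻¹ * q1⁻¹ = q⁻¹ := by
        have : q1 * q⁻¹ = q⁻¹ * q1 := by
          calc q1 * q⁻¹ = q⁻¹ * (q * q1) * q⁻¹ := by group
            _ = q⁻¹ * (q1 * q) * q⁻¹ := by rw [hc]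
            _ = q⁻¹ * q1 := by group
        rw [this]; group
      calc ⁅q, m * q1⁆ = q * m * (q1 * q⁻¹ * q1⁻¹) * m⁻¹ := by rw [commutatorElement_def]; group
        _ = q * m * q⁻¹ * m⁻¹ := by rw [hc']
        _ = ⁅q, m⁆ := by rw [commutatorElement_def]
    rw [e1]
    exact Subgroup.commutator_mem_commutator hq hm
  have hCQM : Q ⊓ Subgroup.centralizer (M : Set G) = ⊥ := by
    have h55 := (Cfsg.Agent.S0055.result M Q hMn hMQcop).1
    rw [eq_bot_iff] at h55 ⊢
    exact (le_inf le_rfl (inf_le_left.trans hQM)).trans h55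
  -- `R = N_H(M)`
  obtain ⟨R, hR⟩ : ∃ R : Subgroup G, R = H ⊓ Subgroup.normalizer (M : Set G) := ⟨_, rfl⟩
  have hQR : ∀ q ∈ Q, q ∈ Subgroup.normalizer (M : Set G) → q = 1 := by
    intro q hq hqM
    have : q ∈ Q ⊓ Subgroup.centralizer (M : Set G) := by
      refine Subgroup.mem_inf.2 ⟨hq, ?_⟩
      rw [Subgroup.mem_centralizer_iff]
      intro m hm
      have h1 : ⁅q, m⁆ ∈ M := by
        rw [commutatorElement_def]
        exact M.mul_mem ((Subgroup.mem_normalizer_iff.1 hqM m).1 hm) (M.inv_mem hm)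
      have h2 : ⁅q, m⁆ ∈ Q := by
        have h3 : m * q⁻¹ * m⁻¹ ∈ Q := (Subgroup.mem_normalizer_iff.1 (hMn hm) q⁻¹).1 (Q.inv_mem hq)
        have := Q.mul_mem hq h3
        rw [commutatorElement_def]
        simpa [mul_assoc] using this
      have h4 : ⁅q, m⁆ ∈ M ⊓ Q := ⟨h1, h2⟩
      rw [hMQ, Subgroup.mem_bot, commutatorElement_eq_one_iff_mul_comm] at h4
      exact h4.symm
    rw [hCQM, Subgroup.mem_bot] at this
    exact this
  have hNR : N ⊓ R ≤ M := by
    rintro x ⟨hxN, hxR⟩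
    rw [hR] at hxR
    obtain ⟨m, hm, q, hq, rfl⟩ := hLdec x ⟨hxN, hxR.1⟩
    have hqM : q ∈ Subgroup.normalizer (M : Set G) := by
      have := Subgroup.mul_mem _ (Subgroup.inv_mem _ (Subgroup.le_normalizer hm)) hxR.2
      simpa using this
    rw [hQR q hq hqM, mul_one]; exact hm
  -- `H = Q R`
  have hHdec : ∀ g ∈ H, ∃ q ∈ Q, q⁻¹ * g ∈ R := by
    intro g hg
    have hB : M.map (MulAut.conj g).toMonoidHom ≤ Q ⊔ M := by
      rw [sup_comm, hMQsup]
      rintro _ ⟨m, hm, rfl⟩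
      have hmL := hML hm
      refine ⟨?_, ?_⟩
      · exact ‹N.Normal›.conj_mem m hmL.1 g
      · exact H.mul_mem (H.mul_mem hg hmL.2) (H.inv_mem hg)
    obtain ⟨x, hx, hxe⟩ := Cfsg.Agent.Lib.Helper25.sz_conj_ambient Q M _ hMn hB hMQcop.symm
      (Subgroup.card_map_of_injective (MulAut.conj g).injective)
      (Or.inl (Group.isSolvable_of_comm hQc.is_comm.comm))
    refine ⟨x, hx, ?_⟩
    rw [hR]
    refine ⟨H.mul_mem (H.inv_mem (hQH hx)) hg, ?_⟩
    have key : ∀ m ∈ M, (x⁻¹ * g) * m * (x⁻¹ * g)⁻¹ ∈ M := by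
      intro m hm
      have h1 : g * m * g⁻¹ ∈ M.map (MulAut.conj x).toMonoidHom := by
        rw [← hxe]; exact ⟨m, hm, rfl⟩
      obtain ⟨m', hm', hmm⟩ := h1
      have h2 : x * m' * x⁻¹ = g * m * g⁻¹ := hmm
      have h3 : (x⁻¹ * g) * m * (x⁻¹ * g)⁻¹ = x⁻¹ * (g * m * g⁻¹) * x := by group
      rw [h3, ← h2]
      simpa [mul_assoc] using hm'
    exact Subgroup.mem_normalizer_fintype key
  have hMR : M ≤ R := by
    rw [hR]; exact le_inf (hML.trans inf_le_right) Subgroup.le_normalizer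
  have hRn : R ≤ Subgroup.normalizer (M : Set G) := by rw [hR]; exact inf_le_right
  have hMRn : (M.subgroupOf R).Normal := Subgroup.normal_subgroupOf_of_le_normalizer hRn
  have hquot : IsPGroup p (R ⧸ M.subgroupOf R) := by
    intro x
    obtain ⟨r, rfl⟩ := QuotientGroup.mk_surjective x
    obtain ⟨j, hj⟩ := hNq (QuotientGroup.mk (r : G))
    refine ⟨j, ?_⟩
    rw [← QuotientGroup.mk_pow, QuotientGroup.eq_one_iff] at hj ⊢
    rw [Subgroup.mem_subgroupOf]
    exact hNR ⟨hj, (r ^ p ^ j).2⟩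
  obtain ⟨K⟩ : Nonempty (Sylow p R) := inferInstance
  have hKM := Cfsg.Agent.Lib.Lead.sylow_sup_eq_top_of_isPGroup_quotient (M.subgroupOf R) hquot K
  have hKM' : (K : Subgroup R).map R.subtype ⊔ M = R := by
    have h1 : (M.subgroupOf R).map R.subtype = M := by
      rw [Subgroup.subgroupOf_map_subtype]; exact inf_eq_left.2 hMR
    rw [← h1, ← Subgroup.map_sup, hKM, ← MonoidHom.range_eq_map, Subgroup.range_subtype]
  have hsup : (K : Subgroup R).map R.subtype ⊔ N = ⊤ := by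
    rw [eq_top_iff, ← hfrat]
    refine sup_le ?_ le_sup_right
    intro g hg
    obtain ⟨q, hq, hqg⟩ := hHdec g hg
    have h1 : q⁻¹ * g ∈ (K : Subgroup R).map R.subtype ⊔ N := by
      have h2 : R ≤ (K : Subgroup R).map R.subtype ⊔ N :=
        hKM'.ge.trans (sup_le le_sup_left ((hML.trans inf_le_left).trans le_sup_right))
      exact h2 hqg
    have h3 : q ∈ (K : Subgroup R).map R.subtype ⊔ N :=
      (le_sup_right (a := (K : Subgroup R).map R.subtype) (b := N)) (hQN hq)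
    have := Subgroup.mul_mem _ h3 h1
    simpa using this
  have hdisj : Disjoint ((K : Subgroup R).map R.subtype) N := by
    rw [Subgroup.disjoint_def]
    rintro x ⟨y, hy, rfl⟩ hxN
    have hxM : (y : G) ∈ M := hNR ⟨hxN, y.2⟩
    obtain ⟨j, hj⟩ := (IsPGroup.iff_orderOf.1 K.2) ⟨y, hy⟩
    have hj' : orderOf (y : G) = p ^ j := by
      rw [← hj, Subgroup.orderOf_mk, Subgroup.orderOf_coe]
    have h1 : orderOf (y : G) ∣ Nat.card M := by
      have := orderOf_dvd_natCard (⟨(y : G), hxM⟩ : M)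
      rwa [Subgroup.orderOf_mk] at this
    have h2 : (orderOf (y : G)).Coprime (Nat.card M) := by
      rw [hj']; exact (Nat.Coprime.pow_right _ hMcop).symm
    have h3 : orderOf (y : G) = 1 := Nat.Coprime.eq_one_of_dvd h2 h1
    exact orderOf_eq_one_iff.1 h3
  refine ⟨(K : Subgroup R).map R.subtype, Subgroup.isComplement'_of_disjoint_and_mul_eq_univ hdisj ?_⟩
  rw [← Subgroup.mul_normal, hsup, Subgroup.coe_top]


/-- If the Sylow p-subgroups of O^p(G) are abelian then G splits over O^p(G). -/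
theorem result {G : Type*} [Group G] [Finite G] {p : ℕ} [Fact p.Prime] (h : ∀ Q : Sylow p (Cfsg.pResidual p G), IsMulCommutative Q) : ∃ K : Subgroup G, K.IsComplement' (Cfsg.pResidual p G) := by
  classical
  have hp : p.Prime := Fact.out
  obtain ⟨Q⟩ : Nonempty (Sylow p (Cfsg.pResidual p G)) := inferInstance
  have hQc := h Q
  have h75 := Cfsg.Agent.S0075.result Q hQc
  rw [pResidual_pResidual, inf_top_eq] at h75
  apply core (p := p) (Cfsg.pResidual p G) Cfsg.Agent.Lib.Lead.isPGroup_quotient_pResidual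
    ((Q : Subgroup (Cfsg.pResidual p G)).map (Cfsg.pResidual p G).subtype)
    (Subgroup.map_subtype_le _)
  · exact Q.2.map _
  · refine ⟨⟨?_⟩⟩
    rintro ⟨_, a, ha, rfl⟩ ⟨_, b, hb, rfl⟩
    apply Subtype.ext
    have := hQc.is_comm.comm ⟨a, ha⟩ ⟨b, hb⟩
    exact congrArg (fun t : Q => ((t : Cfsg.pResidual p G) : G)) this
  · have h1 : ((Q : Subgroup (Cfsg.pResidual p G)).map (Cfsg.pResidual p G).subtype).relIndex
        (Cfsg.pResidual p G) = (Q : Subgroup (Cfsg.pResidual p G)).index := by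
      unfold Subgroup.relIndex Subgroup.subgroupOf
      rw [Subgroup.comap_map_eq_self_of_injective (Cfsg.pResidual p G).subtype_injective]
    rw [h1]; exact Q.not_dvd_index
  · exact Sylow.normalizer_sup_eq_top Q
  · have h1 : (Subgroup.normalizer ((Q : Subgroup (Cfsg.pResidual p G)) : Set (Cfsg.pResidual p G))).map
        (Cfsg.pResidual p G).subtype ≤ Cfsg.pResidual p G ⊓ Subgroup.normalizer
          (((Q : Subgroup (Cfsg.pResidual p G)).map (Cfsg.pResidual p G).subtype : Subgroup G) : Set G) :=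
      le_inf (Subgroup.map_subtype_le _) (Subgroup.le_normalizer_map _)
    calc (Q : Subgroup (Cfsg.pResidual p G)).map (Cfsg.pResidual p G).subtype
        = (⁅(Q : Subgroup (Cfsg.pResidual p G)), Subgroup.normalizer
            ((Q : Subgroup (Cfsg.pResidual p G)) : Set (Cfsg.pResidual p G))⁆).map
              (Cfsg.pResidual p G).subtype := congrArg (Subgroup.map (Cfsg.pResidual p G).subtype) h75
      _ ≤ _ := by
          rw [Subgroup.map_commutator]
          exact Subgroup.commutator_mono le_rfl h1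

end Cfsg.Agent.S0092
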