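import Cfsg.Statements.S0094
import Cfsg.Agent.Lib.Helper2.Class2
import Cfsg.Agent.Lib.Helper2.PGroupFrattini

set_option autoImplicit false
open Cfsg

namespace Cfsg.Agent.S0094

open Cfsg.Agent.Lib.Helper2 Subgroup
open scoped commutatorElement

/-- In a special p-group every central element has order dividing p. -/
theorem result {P : Type*} [Group P] [Finite P] {p : ℕ} [Fact p.Prime] (h : Cfsg.IsSpecial p P) (z : P) (hz : z ∈ Subgroup.center P) : z ^ p = 1 := by
  obtain ⟨hP, hfr, hcm⟩ := h
  have hcomm : ∀ a b t : P, Commute ⁅a, b⁆ t := by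
    intro a b t
    have h1 : ⁅a, b⁆ ∈ center P := by
      rw [← hcm, commutator_def]; exact Subgroup.commutator_mem_commutator (mem_top a) (mem_top b)
    exact ((mem_center_iff.mp h1) t).symm
  rw [← hcm, commutator_eq_closure] at hz
  have key : z ^ p = 1 ∧ z ∈ center P := by
    induction hz using Subgroup.closure_induction with
    | mem x hx =>
      obtain ⟨a, b, rfl⟩ := hx
      refine ⟨?_, ?_⟩
      · rw [← commutator_pow_left_class2 (hcomm a b a)]
        have h1 : a ^ p ∈ center P := by rw [← hfr]; exact pow_p_mem_frattini hP a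
        rw [commutatorElement_eq_one_iff_mul_comm]
        exact ((mem_center_iff.mp h1) b).symm
      · rw [← hcm, commutator_def]; exact Subgroup.commutator_mem_commutator (mem_top a) (mem_top b)
    | one => exact ⟨one_pow p, Subgroup.one_mem _⟩
    | mul x y _ _ hx hy =>
      have hc : Commute x y := ((mem_center_iff.mp hx.2) y).symm
      exact ⟨by rw [hc.mul_pow, hx.1, hy.1, one_mul], Subgroup.mul_mem _ hx.2 hy.2⟩
    | inv x _ hx => exact ⟨by rw [inv_pow, hx.1, inv_one], Subgroup.inv_mem _ hx.2⟩
  exact key.1

end Cfsg.Agent.S0094
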