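import Cfsg.Statements.S0097
import Cfsg.Agent.S0096
import Cfsg.Agent.Lib.Helper2.PGroupFrattini

set_option autoImplicit false
open Cfsg

namespace Cfsg.Agent.S0097

open Cfsg.Agent.Lib.Helper2 Subgroup
open scoped commutatorElement

/-- For odd p and E extraspecial, the subgroup generated by the elements of order dividing p has exponent dividing p and index at most p. -/
theorem result {E : Type*} [Group E] [Finite E] {p : ℕ} [Fact p.Prime] (hp : p ≠ 2) (h : Cfsg.IsExtraspecial p E) : (Subgroup.closure {x : E | x ^ p = 1}).index ≤ p ∧ ∀ g ∈ Subgroup.closure {x : E | x ^ p = 1}, g ^ p = 1 := by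
  have hpp : p.Prime := Fact.out
  obtain ⟨⟨hP, hfr, hcm⟩, hcard⟩ := h
  have hmemc : ∀ a b : E, ⁅a, b⁆ ∈ center E := by
    intro a b
    rw [← hcm, commutator_def]; exact Subgroup.commutator_mem_commutator (mem_top a) (mem_top b)
  have hcomm : ∀ a b t : E, Commute ⁅a, b⁆ t := fun a b t => ((mem_center_iff.mp (hmemc a b)) t).symm
  have hcp : ∀ c ∈ center E, c ^ p = 1 := by
    intro c hc
    have : (⟨c, hc⟩ : center E) ^ Nat.card (center E) = 1 := pow_card_eq_one'
    rw [hcard] at this
    exact congrArg Subtype.val this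
  have h2 : ⁅commutator E, (⊤ : Subgroup E)⁆ = ⊥ := by
    rw [Subgroup.commutator_top_right_eq_bot_iff_le_center, hcm]
  refine ⟨?_, fun g hg => Cfsg.Agent.S0096.result hp hP h2 g hg⟩
  let φ : E →* center E :=
    { toFun := fun x => ⟨x ^ p, by rw [← hfr]; exact pow_p_mem_frattini hP x⟩
      map_one' := by apply Subtype.ext; simp
      map_mul' := fun x y => by
        apply Subtype.ext
        exact mul_pow_prime_class2 hpp hp (hcomm y x x) (hcomm y x y) (hcp _ (hmemc y x)) }
  have hker : φ.ker ≤ Subgroup.closure {x : E | x ^ p = 1} := by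
    intro x hx
    apply Subgroup.subset_closure
    exact congrArg Subtype.val (MonoidHom.mem_ker.mp hx)
  have h3 : (Subgroup.closure {x : E | x ^ p = 1}).index ≤ φ.ker.index :=
    Nat.le_of_dvd (Nat.pos_of_ne_zero Subgroup.index_ne_zero_of_finite) (Subgroup.index_dvd_of_le hker)
  refine h3.trans ?_
  rw [Subgroup.index_ker, ← hcard]
  exact Subgroup.card_le_card_group _

end Cfsg.Agent.S0097
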