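import Cfsg.Statements.S0098
import Cfsg.Agent.Lib.Helper73.Heis
import Cfsg.Agent.Lib.Helper73.CycNormal
import Cfsg.Agent.Lib.Helper63.ClassTwo

set_option autoImplicit false
open Cfsg

namespace Cfsg.Agent.S0098

open Cfsg.Agent.Lib.Helper73 Cfsg.Agent.Lib.Helper63

/-- two central products with isomorphic factors (compatibly on the intersections) are isomorphic,
by an isomorphism extending the one on the first factor. -/
theorem exists_mulEquiv_of_central_product {G G' : Type*} [Group G] [Group G']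
    (A C Q : Subgroup G) (A' C' Q' : Subgroup G')
    (hsup : A ⊔ C = Q) (hcomm : ∀ a ∈ A, ∀ c ∈ C, a * c = c * a)
    (hsup' : A' ⊔ C' = Q') (hcomm' : ∀ a ∈ A', ∀ c ∈ C', a * c = c * a)
    (φ : A ≃* A') (ψ : C ≃* C')
    (hcompat : ∀ (a : A) (c : C), (a : G) = c ↔ ((φ a : A') : G') = ψ c) :
    ∃ Θ : Q ≃* Q', ∀ (a : A) (h : (a : G) ∈ Q), ((Θ ⟨a, h⟩ : Q') : G') = φ a := by
  have hc1 : ∀ (m : A) (n : C), Commute (A.subtype m) (C.subtype n) := by
    intro a c
    rw [commute_iff_eq, Subgroup.coe_subtype, Subgroup.coe_subtype]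
    exact hcomm a a.2 c c.2
  have hc2 : ∀ (m : A) (n : C), Commute ((A'.subtype.comp φ.toMonoidHom) m)
      ((C'.subtype.comp ψ.toMonoidHom) n) := by
    intro a c
    rw [commute_iff_eq]
    simp only [MonoidHom.coe_comp, Function.comp_apply, Subgroup.coe_subtype,
      MulEquiv.coe_toMonoidHom]
    exact hcomm' _ (φ a).2 _ (ψ c).2
  obtain ⟨f, hf⟩ : ∃ f : A × C →* G, f = MonoidHom.noncommCoprod A.subtype C.subtype hc1 :=
    ⟨_, rfl⟩
  obtain ⟨g, hg⟩ : ∃ g : A × C →* G', g = MonoidHom.noncommCoprod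
    (A'.subtype.comp φ.toMonoidHom) (C'.subtype.comp ψ.toMonoidHom) hc2 := ⟨_, rfl⟩
  have hfr : f.range = Q := by
    rw [hf, MonoidHom.noncommCoprod_range, Subgroup.range_subtype, Subgroup.range_subtype, hsup]
  have hgr : g.range = Q' := by
    rw [hg, MonoidHom.noncommCoprod_range, MonoidHom.range_comp, MonoidHom.range_comp]
    have e1 : φ.toMonoidHom.range = ⊤ := MonoidHom.range_eq_top.mpr φ.surjective
    have e2 : ψ.toMonoidHom.range = ⊤ := MonoidHom.range_eq_top.mpr ψ.surjective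
    rw [e1, e2, ← MonoidHom.range_eq_map, ← MonoidHom.range_eq_map, Subgroup.range_subtype,
      Subgroup.range_subtype, hsup']
  have hker : f.ker = g.ker := by
    ext ⟨a, c⟩
    rw [MonoidHom.mem_ker, MonoidHom.mem_ker, hf, hg]
    simp only [MonoidHom.noncommCoprod_apply, Subgroup.coe_subtype, MonoidHom.coe_comp,
      Function.comp_apply, MulEquiv.coe_toMonoidHom]
    have h1 := hcompat a c⁻¹
    rw [map_inv] at h1
    constructor
    · intro h
      have h2 : (a : G) = ((c⁻¹ : C) : G) := by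
        rw [Subgroup.coe_inv]; exact eq_inv_of_mul_eq_one_left h
      have h3 := h1.mp h2
      rw [h3, Subgroup.coe_inv]; group
    · intro h
      have h2 : ((φ a : A') : G') = (((ψ c)⁻¹ : C') : G') := by
        rw [Subgroup.coe_inv]; exact eq_inv_of_mul_eq_one_left h
      have h3 := h1.mpr h2
      rw [h3, Subgroup.coe_inv]; group
  refine ⟨(MulEquiv.subgroupCongr hfr).symm.trans ((QuotientGroup.quotientKerEquivRange f).symm.trans
    ((QuotientGroup.quotientMulEquivOfEq hker).trans ((QuotientGroup.quotientKerEquivRange g).trans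
      (MulEquiv.subgroupCongr hgr)))), ?_⟩
  intro a h
  have hfa : f (a, 1) = a := by rw [hf]; simp
  have hga : g (a, 1) = φ a := by rw [hg]; simp
  have h1 : (MulEquiv.subgroupCongr hfr).symm ⟨a, h⟩ = ⟨f (a, 1), ⟨(a, 1), rfl⟩⟩ :=
    Subtype.ext hfa.symm
  have h2 : (QuotientGroup.quotientKerEquivRange f).symm ⟨f (a, 1), ⟨(a, 1), rfl⟩⟩
      = (((a, 1) : A × C) : (A × C) ⧸ f.ker) := by
    rw [MulEquiv.symm_apply_eq]; rfl
  simp only [MulEquiv.trans_apply, h1, h2]
  exact hga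

/-- the global hypotheses: `Z = ⟨z⟩` central of order `p` containing all commutators, exponent `p` -/
structure Data (p : ℕ) (P : Type*) [Group P] (Z : Subgroup P) (z : P) : Prop where
  cc : CentralComm Z
  card : Nat.card Z = p
  zmem : z ∈ Z
  zne : z ≠ 1
  exp : ∀ g : P, g ^ p = 1

/-- `Q` contains `Z` and has centre `Z` -/
def ND {P : Type*} [Group P] (Z Q : Subgroup P) : Prop :=
  Z ≤ Q ∧ ∀ y ∈ Q, (∀ q ∈ Q, q * y = y * q) → y ∈ Z

theorem closure_comm {P : Type*} [Group P] {x y c : P} (hcx : c * x = x * c)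
    (hcy : c * y = y * c) : ∀ a ∈ Subgroup.closure ({x, y} : Set P), a * c = c * a := by
  have : Subgroup.closure ({x, y} : Set P) ≤ Subgroup.centralizer {c} := by
    rw [Subgroup.closure_le]
    rintro g (rfl | rfl)
    · exact Subgroup.mem_centralizer_singleton_iff.mpr hcx.symm
    · exact Subgroup.mem_centralizer_singleton_iff.mpr hcy.symm
  intro a ha
  exact Subgroup.mem_centralizer_singleton_iff.mp (this ha)

namespace Data

variable {p : ℕ} [hp : Fact p.Prime] {P : Type*} [Group P] {Z : Subgroup P} {z : P}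

theorem zc (D : Data p P Z z) (g : P) : z * g = g * z :=
  (Subgroup.mem_center_iff.mp (D.cc.central D.zmem) g).symm

theorem oz (D : Data p P Z z) : orderOf z = p := orderOf_eq_prime (D.exp z) D.zne

theorem exists_pow (D : Data p P Z z) {v w : P} (hv : v ∈ Z) (hv1 : v ≠ 1) (hw : w ∈ Z) :
    ∃ k : ℕ, v ^ k = w := by
  have := mem_powers_of_prime_card D.card (g := (⟨v, hv⟩ : Z)) (g' := ⟨w, hw⟩)
    (fun h => hv1 (congrArg Subtype.val h))
  obtain ⟨k, hk⟩ := (Submonoid.mem_powers_iff _ _).mp this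
  exact ⟨k, congrArg Subtype.val hk⟩

theorem exists_pair (D : Data p P Z z) (Q : Subgroup P)
    (hna : ∃ x ∈ Q, ∃ y ∈ Q, x * y ≠ y * x) : ∃ x ∈ Q, ∃ y ∈ Q, y * x = x * y * z := by
  obtain ⟨x, hx, y₀, hy₀, hne⟩ := hna
  have hwZ : (x * y₀)⁻¹ * (y₀ * x) ∈ Z := by
    have := D.cc.comm y₀⁻¹ x⁻¹
    have e : (x * y₀)⁻¹ * (y₀ * x) = y₀⁻¹ * x⁻¹ * y₀⁻¹⁻¹ * x⁻¹⁻¹ := by group
    rw [e]; exact this
  have hw1 : (x * y₀)⁻¹ * (y₀ * x) ≠ 1 := by
    intro h
    exact hne (inv_mul_eq_one.mp h)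
  obtain ⟨k, hk⟩ := D.exists_pow hwZ hw1 D.zmem
  have h0 : y₀ * x = x * y₀ * ((x * y₀)⁻¹ * (y₀ * x)) := by group
  have hwc := Subgroup.mem_center_iff.mp (D.cc.central hwZ) y₀
  refine ⟨x, hx, y₀ ^ k, pow_mem hy₀ k, ?_⟩
  rw [comm_pow_left h0 hwc.symm k, hk]

theorem ne_of_pair (D : Data p P Z z) {x y : P} (h : y * x = x * y * z) : y * x ≠ x * y := by
  intro h'
  rw [h'] at h
  exact D.zne (left_eq_mul.mp h)

theorem cover (D : Data p P Z z) (Q : Subgroup P) {x y : P} (hx : x ∈ Q) (hy : y ∈ Q)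
    (h : y * x = x * y * z) : ∀ q ∈ Q, ∃ r ∈ Subgroup.closure ({x, y} : Set P),
      ∃ c ∈ Q ⊓ Subgroup.centralizer {x} ⊓ Subgroup.centralizer {y}, q = r * c := by
  intro q hq
  have hfxy : commHom D.cc x y ≠ 1 := by
    rw [Ne, commHom_eq_one_iff]; exact D.ne_of_pair h
  have hfyx : commHom D.cc y x ≠ 1 := by
    rw [Ne, commHom_eq_one_iff]; exact fun h' => D.ne_of_pair h h'.symm
  obtain ⟨j, hj⟩ := Subgroup.mem_zpowers_iff.mp
    (mem_zpowers_of_prime_card D.card hfxy (g' := commHom D.cc x q))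
  obtain ⟨i, hi⟩ := Subgroup.mem_zpowers_iff.mp
    (mem_zpowers_of_prime_card D.card hfyx (g' := commHom D.cc y q))
  have hxm : x ∈ Subgroup.closure ({x, y} : Set P) := Subgroup.subset_closure (by simp)
  have hym : y ∈ Subgroup.closure ({x, y} : Set P) := Subgroup.subset_closure (by simp)
  refine ⟨x ^ i * y ^ j, mul_mem (zpow_mem hxm i) (zpow_mem hym j), (x ^ i * y ^ j)⁻¹ * q, ?_,
    by group⟩
  rw [Subgroup.mem_inf, Subgroup.mem_inf, Subgroup.mem_centralizer_singleton_iff,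
    Subgroup.mem_centralizer_singleton_iff]
  refine ⟨⟨mul_mem (inv_mem (mul_mem (zpow_mem hx i) (zpow_mem hy j))) hq, ?_⟩, ?_⟩
  · rw [← commHom_eq_one_iff D.cc, map_mul, map_inv, map_mul, map_zpow, map_zpow, commHom_self,
      one_zpow, one_mul, hj, inv_mul_cancel]
  · rw [← commHom_eq_one_iff D.cc, map_mul, map_inv, map_mul, map_zpow, map_zpow, commHom_self,
      one_zpow, mul_one, hi, inv_mul_cancel]

theorem card_eq [Finite P] (D : Data p P Z z) (Q : Subgroup P) {x y : P} (hx : x ∈ Q) (hy : y ∈ Q)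
    (h : y * x = x * y * z) : Nat.card Q =
      p * (p * Nat.card ↥(Q ⊓ Subgroup.centralizer {x} ⊓ Subgroup.centralizer {y})) := by
  rw [card_eq_prime_mul_card_centralizer D.cc D.card Q x ⟨y, hy, D.ne_of_pair h⟩,
    card_eq_prime_mul_card_centralizer D.cc D.card (Q ⊓ Subgroup.centralizer {x}) y
      ⟨x, Subgroup.mem_inf.mpr ⟨hx, Subgroup.mem_centralizer_singleton_iff.mpr rfl⟩,
        fun h' => D.ne_of_pair h h'.symm⟩]

theorem nd_cent (D : Data p P Z z) (Q : Subgroup P) (hQ : ND Z Q) {x y : P} (hx : x ∈ Q)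
    (hy : y ∈ Q) (h : y * x = x * y * z) :
    ND Z (Q ⊓ Subgroup.centralizer {x} ⊓ Subgroup.centralizer {y}) := by
  constructor
  · intro w hw
    have hc := Subgroup.mem_center_iff.mp (D.cc.central hw)
    rw [Subgroup.mem_inf, Subgroup.mem_inf, Subgroup.mem_centralizer_singleton_iff,
      Subgroup.mem_centralizer_singleton_iff]
    exact ⟨⟨hQ.1 hw, (hc x).symm⟩, (hc y).symm⟩
  · intro u hu huc
    have hu' := hu
    rw [Subgroup.mem_inf, Subgroup.mem_inf, Subgroup.mem_centralizer_singleton_iff,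
      Subgroup.mem_centralizer_singleton_iff] at hu'
    apply hQ.2 u hu'.1.1
    intro q hq
    obtain ⟨r, hr, c, hc, rfl⟩ := D.cover Q hx hy h q hq
    have e1 := closure_comm hu'.1.2 hu'.2 r hr
    have e2 := huc c hc
    rw [mul_assoc, e2, ← mul_assoc, e1, mul_assoc]

theorem coords (D : Data p P Z z) {x y : P} (h : y * x = x * y * z) (u : Heis p)
    (hcx : (x ^ u.a.val * y ^ u.b.val * z ^ u.c.val) * x = x * (x ^ u.a.val * y ^ u.b.val * z ^ u.c.val))
    (hcy : (x ^ u.a.val * y ^ u.b.val * z ^ u.c.val) * y = y * (x ^ u.a.val * y ^ u.b.val * z ^ u.c.val)) :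
    u.a = 0 ∧ u.b = 0 := by
  have h1 := heis_mul_x h D.zc u.a.val u.b.val u.c.val
  have h2 := heis_y_mul h D.zc u.a.val u.b.val u.c.val
  rw [hcx] at h1
  rw [← hcy] at h2
  exact ⟨val_eq_zero_of_pow D.oz _ (left_eq_mul.mp h2), val_eq_zero_of_pow D.oz _ (left_eq_mul.mp h1)⟩

end Data

theorem main {p : ℕ} [hp : Fact p.Prime] {P P' : Type*} [Group P] [Group P'] [Finite P] [Finite P']
    {Z : Subgroup P} {z : P} {Z' : Subgroup P'} {z' : P'} (D : Data p P Z z)
    (D' : Data p P' Z' z') :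
    ∀ (n : ℕ) (Q : Subgroup P) (Q' : Subgroup P'), Nat.card Q ≤ n → Nat.card Q = Nat.card Q' →
      ∀ (hQ : ND Z Q), ND Z' Q' → ∃ Θ : Q ≃* Q', ((Θ ⟨z, hQ.1 D.zmem⟩ : Q') : P') = z' := by
  have hp2 : 2 ≤ p := hp.out.two_le
  intro n
  induction n with
  | zero =>
    intro Q Q' hn
    have := Nat.card_pos (α := Q)
    omega
  | succ n ih =>
    intro Q Q' hn hcard hQ hQ'
    by_cases hab : ∃ x ∈ Q, ∃ y ∈ Q, x * y ≠ y * x
    · obtain ⟨x, hx, y, hy, h⟩ := D.exists_pair Q hab
      have hc := D.card_eq Q hx hy h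
      have hab' : ∃ x ∈ Q', ∃ y ∈ Q', x * y ≠ y * x := by
        by_contra hcon
        push Not at hcon
        have hle : Q' ≤ Z' := fun y hy => hQ'.2 y hy (fun q hq => hcon q hq y hy)
        have h1 := Subgroup.card_le_of_le hle
        rw [D'.card, ← hcard, hc] at h1
        have h2 := Nat.card_pos (α := ↥(Q ⊓ Subgroup.centralizer {x} ⊓ Subgroup.centralizer {y}))
        have h3 : p * (p * 1) ≤
            p * (p * Nat.card ↥(Q ⊓ Subgroup.centralizer {x} ⊓ Subgroup.centralizer {y})) :=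
          Nat.mul_le_mul_left _ (Nat.mul_le_mul_left _ h2)
        nlinarith
      obtain ⟨x', hx', y', hy', h'⟩ := D'.exists_pair Q' hab'
      have hc' := D'.card_eq Q' hx' hy' h'
      obtain ⟨C, hC⟩ : ∃ C, C = Q ⊓ Subgroup.centralizer {x} ⊓ Subgroup.centralizer {y} :=
        ⟨_, rfl⟩
      obtain ⟨C', hC'⟩ : ∃ C', C' = Q' ⊓ Subgroup.centralizer {x'} ⊓ Subgroup.centralizer {y'} :=
        ⟨_, rfl⟩
      rw [← hC] at hc
      rw [← hC'] at hc'
      have hmemC : ∀ c, c ∈ C ↔ (c ∈ Q ∧ c * x = x * c) ∧ c * y = y * c := by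
        intro c
        rw [hC, Subgroup.mem_inf, Subgroup.mem_inf, Subgroup.mem_centralizer_singleton_iff,
          Subgroup.mem_centralizer_singleton_iff]
      have hmemC' : ∀ c, c ∈ C' ↔ (c ∈ Q' ∧ c * x' = x' * c) ∧ c * y' = y' * c := by
        intro c
        rw [hC', Subgroup.mem_inf, Subgroup.mem_inf, Subgroup.mem_centralizer_singleton_iff,
          Subgroup.mem_centralizer_singleton_iff]
      have hCC : Nat.card C = Nat.card C' := by
        rw [hc, hc'] at hcard
        exact Nat.eq_of_mul_eq_mul_left hp.out.pos (Nat.eq_of_mul_eq_mul_left hp.out.pos hcard)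
      have hCn : Nat.card C ≤ n := by
        have h2 := Nat.card_pos (α := ↥C)
        have h3 : 2 * (2 * Nat.card C) ≤ p * (p * Nat.card C) :=
          Nat.mul_le_mul hp2 (Nat.mul_le_mul_right _ hp2)
        omega
      have hndC : ND Z C := hC ▸ D.nd_cent Q hQ hx hy h
      have hndC' : ND Z' C' := hC' ▸ D'.nd_cent Q' hQ' hx' hy' h'
      obtain ⟨ψ, hψ⟩ := ih C C' hCn hCC hndC hndC'
      obtain ⟨e, he⟩ : ∃ e : Heis p ≃* Subgroup.closure ({x, y} : Set P),
          ∀ u, ((e u : Subgroup.closure ({x, y} : Set P)) : P)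
            = x ^ u.a.val * y ^ u.b.val * z ^ u.c.val :=
        ⟨heisEquiv x y z (D.exp x) (D.exp y) (D.exp z) h D.zc D.oz, heisEquiv_apply _ _ _ _ _ _ _ _ _⟩
      obtain ⟨e', he'⟩ : ∃ e' : Heis p ≃* Subgroup.closure ({x', y'} : Set P'),
          ∀ u, ((e' u : Subgroup.closure ({x', y'} : Set P')) : P')
            = x' ^ u.a.val * y' ^ u.b.val * z' ^ u.c.val :=
        ⟨heisEquiv x' y' z' (D'.exp x') (D'.exp y') (D'.exp z') h' D'.zc D'.oz,
          heisEquiv_apply _ _ _ _ _ _ _ _ _⟩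
      have hψpow : ∀ k : ℕ, ((ψ (⟨z, hndC.1 D.zmem⟩ ^ k) : C') : P') = z' ^ k := by
        intro k
        rw [map_pow, Subgroup.coe_pow, hψ]
      have hsup : Subgroup.closure ({x, y} : Set P) ⊔ C = Q := by
        apply le_antisymm
        · refine sup_le ?_ (fun c hc => ((hmemC c).mp hc).1.1)
          rw [Subgroup.closure_le]
          rintro g (rfl | rfl)
          · exact hx
          · exact hy
        · intro q hq
          obtain ⟨r, hr, c, hcm, rfl⟩ := D.cover Q hx hy h q hq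
          exact mul_mem (Subgroup.mem_sup_left hr) (Subgroup.mem_sup_right (hC ▸ hcm))
      have hsup' : Subgroup.closure ({x', y'} : Set P') ⊔ C' = Q' := by
        apply le_antisymm
        · refine sup_le ?_ (fun c hc => ((hmemC' c).mp hc).1.1)
          rw [Subgroup.closure_le]
          rintro g (rfl | rfl)
          · exact hx'
          · exact hy'
        · intro q hq
          obtain ⟨r, hr, c, hcm, rfl⟩ := D'.cover Q' hx' hy' h' q hq
          exact mul_mem (Subgroup.mem_sup_left hr) (Subgroup.mem_sup_right (hC' ▸ hcm))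
      obtain ⟨Θ, hΘ⟩ := exists_mulEquiv_of_central_product (Subgroup.closure ({x, y} : Set P)) C Q
        (Subgroup.closure ({x', y'} : Set P')) C' Q' hsup
        (fun a ha c hc => closure_comm ((hmemC c).mp hc).1.2 ((hmemC c).mp hc).2 a ha) hsup'
        (fun a ha c hc => closure_comm ((hmemC' c).mp hc).1.2 ((hmemC' c).mp hc).2 a ha)
        (e.symm.trans e') ψ (by
          intro a c
          obtain ⟨u, rfl⟩ := e.surjective a
          rw [MulEquiv.trans_apply, MulEquiv.symm_apply_apply, he, he']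
          constructor
          · intro hac
            have hcm := (hmemC c.1).mp c.2
            rw [← hac] at hcm
            obtain ⟨ha0, hb0⟩ := D.coords h u hcm.1.2 hcm.2
            rw [ha0, hb0] at hac ⊢
            simp only [ZMod.val_zero, pow_zero, one_mul] at hac ⊢
            have hcz : c = ⟨z, hndC.1 D.zmem⟩ ^ u.c.val := Subtype.ext hac.symm
            rw [hcz, hψpow]
          · intro hac
            have hcm := (hmemC' (ψ c).1).mp (ψ c).2
            rw [← hac] at hcm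
            obtain ⟨ha0, hb0⟩ := D'.coords h' u hcm.1.2 hcm.2
            rw [ha0, hb0] at hac ⊢
            simp only [ZMod.val_zero, pow_zero, one_mul] at hac ⊢
            have hcz : ψ c = ψ (⟨z, hndC.1 D.zmem⟩ ^ u.c.val) :=
              Subtype.ext (by rw [hψpow, hac])
            rw [ψ.injective hcz]
            rfl)
      refine ⟨Θ, ?_⟩
      have h1 : (1 : ZMod p).val = 1 := ZMod.val_one p
      have hz1 : ((e ⟨0, 0, 1⟩ : Subgroup.closure ({x, y} : Set P)) : P) = z := by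
        rw [he]; simp [h1]
      have hz2 := hΘ (e ⟨0, 0, 1⟩) (by rw [hz1]; exact hQ.1 D.zmem)
      rw [MulEquiv.trans_apply, MulEquiv.symm_apply_apply, he'] at hz2
      simp only [ZMod.val_zero, pow_zero, one_mul, h1, pow_one] at hz2
      rw [← hz2]
      congr 2
      exact Subtype.ext hz1.symm
    · push Not at hab
      have hle : Q ≤ Z := fun y hy => hQ.2 y hy (fun q hq => hab q hq y hy)
      have hQZ : Q = Z := le_antisymm hle hQ.1
      have hcQ : Nat.card Q = p := by rw [hQZ, D.card]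
      have hcQ' : Nat.card Q' = p := by rw [← hcard, hcQ]
      refine ⟨mulEquivOfOrderOfEq (g := (⟨z, hQ.1 D.zmem⟩ : Q)) (g' := (⟨z', hQ'.1 D'.zmem⟩ : Q'))
        (fun x => mem_zpowers_of_prime_card hcQ (fun h => D.zne (congrArg Subtype.val h)))
        (fun x => mem_zpowers_of_prime_card hcQ' (fun h => D'.zne (congrArg Subtype.val h)))
        (by rw [Subgroup.orderOf_mk, Subgroup.orderOf_mk, D.oz, D'.oz]), ?_⟩
      rw [mulEquivOfOrderOfEq_apply_gen]

theorem data_of_isExtraspecial {E : Type*} [Group E] [Finite E] {p : ℕ} [hp : Fact p.Prime]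
    (h : Cfsg.IsExtraspecial p E) (he : Monoid.exponent E = p) :
    ∃ z : E, Data p E (Subgroup.center E) z := by
  have hne : Subgroup.center E ≠ ⊥ := by
    intro hb
    have := h.2
    rw [hb, Subgroup.card_bot] at this
    exact hp.out.one_lt.ne this
  obtain ⟨z, hz, hz1⟩ := (Subgroup.ne_bot_iff_exists_ne_one).mp hne |>.elim
    (fun z hz => (⟨z.1, z.2, fun h => hz (Subtype.ext h)⟩ : ∃ z : E, z ∈ Subgroup.center E ∧ z ≠ 1))
  exact ⟨z, centralComm_of_isExtraspecial h, h.2, hz, hz1,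
    fun g => he ▸ Monoid.pow_exponent_eq_one g⟩

theorem result {E₁ : Type*} {E₂ : Type*} [Group E₁] [Group E₂] [Finite E₁] [Finite E₂] {p : ℕ} [Fact p.Prime] (hp : p ≠ 2) (h₁ : Cfsg.IsExtraspecial p E₁) (h₂ : Cfsg.IsExtraspecial p E₂) (he₁ : Monoid.exponent E₁ = p) (he₂ : Monoid.exponent E₂ = p) (hc : Nat.card E₁ = Nat.card E₂) : Nonempty (E₁ ≃* E₂) := by
  obtain ⟨z₁, D₁⟩ := data_of_isExtraspecial h₁ he₁
  obtain ⟨z₂, D₂⟩ := data_of_isExtraspecial h₂ he₂
  obtain ⟨Θ, -⟩ := main D₁ D₂ (Nat.card (⊤ : Subgroup E₁)) ⊤ ⊤ le_rfl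
    (by rw [Subgroup.card_top, Subgroup.card_top, hc])
    ⟨le_top, fun y _ hy => Subgroup.mem_center_iff.mpr (fun g => hy g (Subgroup.mem_top g))⟩
    ⟨le_top, fun y _ hy => Subgroup.mem_center_iff.mpr (fun g => hy g (Subgroup.mem_top g))⟩
  exact ⟨Subgroup.topEquiv.symm.trans (Θ.trans Subgroup.topEquiv)⟩

end Cfsg.Agent.S0098
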