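import Cfsg.Statements.S1452
import Cfsg.Agent.Lib.Helper24.PGroup2

set_option autoImplicit false
open Cfsg
open Cfsg.Agent.Lib.Helper24

namespace Cfsg.Agent.S1452

/-- Let p be an odd prime and R a finite p-group containing an elementary abelian subgroup of order p ^ 3. If E is a normal elementary abelian subgroup of R of order p ^ 2, then E ≤ A for some normal subgroup A of R with C_R(A) = A that contains an elementary abelian subgroup of order p ^ 3. -/
theorem result {R : Type*} [Group R] [Finite R] (p : ℕ) [Fact p.Prime] (hp : p ≠ 2) (hR : IsPGroup p R) (hr : ¬ Cfsg.PRankLE p 2 R)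
    (E : Subgroup R) [E.Normal] (hE : Cfsg.IsElementaryAbelian p E) (hE2 : Nat.card E = p ^ 2) :
    ∃ A : Subgroup R, E ≤ A ∧ A.Normal ∧ Subgroup.centralizer (A : Set R) = A ∧ ¬ Cfsg.PRankLE p 2 A := by
  classical
  have hpp : p.Prime := Fact.out
  obtain ⟨hEc, hEp⟩ := hE
  unfold Cfsg.PRankLE at hr
  push Not at hr
  obtain ⟨B, hBc, hBp, hB⟩ := hr
  obtain ⟨x, hxB, hxc, hxE⟩ := exists_centralizing_not_mem p hR E hEp hE2 B hBc hB
  have hTop : IsPGroup p (⊤ : Subgroup R) := hR.to_subgroup ⊤
  have hTE : (⊤ : Subgroup R) ≤ Subgroup.normalizer (E : Set R) := by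
    rw [Subgroup.normalizer_eq_top]
  obtain ⟨f, -, hfc, hfE, hfp, hf⟩ := exists_central_mod_of_order_p p hp E ⊤ hTop le_top hTE x
    (Subgroup.mem_top x) hxc hxE (hBp x hxB)
  set F := adjoin E f hfc with hF
  have hFn : F.Normal := by
    rw [← Subgroup.normalizer_eq_top_iff, eq_top_iff]
    exact le_normalizer_adjoin hfc hTE hf
  have hFc : IsMulCommutative F := adjoin_comm hfc hEc
  have hFp : ∀ a ∈ F, a ^ p = 1 := adjoin_pow hfc p hEp hfp
  have hEF : E < F := by
    refine lt_of_le_of_ne (le_adjoin E f hfc) ?_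
    intro h
    exact hfE (h ▸ self_mem_adjoin E f hfc)
  obtain ⟨A, hFA, hAmax⟩ := (Set.toFinite {A : Subgroup R | A.Normal ∧ IsMulCommutative A}).exists_le_maximal
    (a := F) ⟨hFn, hFc⟩
  obtain ⟨hAn, hAc⟩ := hAmax.prop
  have hAcent : A ≤ Subgroup.centralizer (A : Set R) := by
    intro a ha
    rw [Subgroup.mem_centralizer_iff]
    intro b hb
    exact congrArg Subtype.val (hAc.is_comm.comm ⟨b, hb⟩ ⟨a, ha⟩)
  have hTA : (⊤ : Subgroup R) ≤ Subgroup.normalizer (A : Set R) := by
    rw [Subgroup.normalizer_eq_top]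
  refine ⟨A, hEF.le.trans hFA, hAn, le_antisymm ?_ hAcent, ?_⟩
  · by_contra hcon
    have hCn : (⊤ : Subgroup R) ≤ Subgroup.normalizer ((Subgroup.centralizer (A : Set R) : Subgroup R) : Set R) := by
      rw [Subgroup.normalizer_eq_top]
    obtain ⟨c, hcC, hcA, hc⟩ := exists_central_mod hTop.isNilpotent le_top hCn hcon
    have h1 : (adjoin A c hcC).Normal := by
      rw [← Subgroup.normalizer_eq_top_iff, eq_top_iff]
      exact le_normalizer_adjoin hcC hTA hc
    have h2 : IsMulCommutative (adjoin A c hcC) := adjoin_comm hcC hAc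
    have h3 := hAmax.le_of_ge (y := adjoin A c hcC) ⟨h1, h2⟩ (le_adjoin A c hcC)
    exact hcA (h3 (self_mem_adjoin A c hcC))
  · intro h
    have h1 := h (F.subgroupOf A) ?_ ?_
    · have h2 : Nat.card (F.subgroupOf A) = Nat.card F :=
        Nat.card_congr (Subgroup.subgroupOfEquivOfLe hFA).toEquiv
      have h3 := card_lt_of_lt hEF
      omega
    · exact Subgroup.subgroupOf_isMulCommutative A F
    · intro a ha
      apply Subtype.ext
      exact hFp a ha

end Cfsg.Agent.S1452
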