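import Cfsg.Statements.S0100
import Cfsg.Agent.S1452
import Cfsg.Agent.Lib.Helper29.NormalSeries
import Cfsg.Agent.Lib.Helper29.Metacyclic

set_option autoImplicit false
open Cfsg

namespace Cfsg.Agent.S0100

/-- For odd p, a p-group without normal elementary abelian subgroups of order p^3 has p-rank at most 2. -/
theorem result {P : Type*} [Group P] [Finite P] {p : ℕ} [Fact p.Prime] (hp : p ≠ 2) (hP : IsPGroup p P) (h : ∀ A : Subgroup P, A.Normal → IsMulCommutative A → (∀ a ∈ A, a ^ p = 1) → Nat.card A ≠ p ^ 3) (E : Subgroup P) (hE : IsMulCommutative E) (hEe : ∀ e ∈ E, e ^ p = 1) : Nat.card E ≤ p ^ 2 := by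
  classical
  have hpp : p.Prime := Fact.out
  by_contra hcon
  have hr : ¬ Cfsg.PRankLE p 2 P := fun hh => hcon (hh E hE hEe)
  have hnc : ¬ IsCyclic (⊤ : Subgroup P) := by
    intro hc
    have hcP : IsCyclic P := isCyclic_of_surjective (Subgroup.topEquiv : (⊤ : Subgroup P) ≃* P)
      (Subgroup.topEquiv : (⊤ : Subgroup P) ≃* P).surjective
    have h1 : Nat.card E ≤ p :=
      Cfsg.Agent.Lib.Helper29.card_le_of_isCyclic_of_pow hpp.pos (fun x => Subtype.ext (hEe x x.2))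
    apply hcon
    calc Nat.card E ≤ p := h1
      _ ≤ p ^ 2 := Nat.le_self_pow (by norm_num) p
  obtain ⟨E0, -, hE0n, hE0c, hE0p, hE0card⟩ :=
    Cfsg.Agent.Lib.Helper29.exists_normal_elemAb_sq_of_not_isCyclic hp hP ⊤ hnc
  obtain ⟨A, -, hAn, hAC, hAr⟩ := Cfsg.Agent.S1452.result p hp hP hr E0 ⟨hE0c, hE0p⟩ hE0card
  have hAcomm : ∀ x ∈ A, ∀ y ∈ A, x * y = y * x := by
    intro x hx y hy
    have hy' : y ∈ Subgroup.centralizer (A : Set P) := by rw [hAC]; exact hy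
    exact Subgroup.mem_centralizer_iff.1 hy' x hx
  have hpow : ∀ x ∈ A, ∀ y ∈ A, (x * y) ^ p = x ^ p * y ^ p := by
    intro x hx y hy
    have : Commute x y := hAcomm x hx y hy
    exact this.mul_pow p
  unfold Cfsg.PRankLE at hAr
  push Not at hAr
  obtain ⟨B, -, hBp, hBcard⟩ := hAr
  have hBle : B.map A.subtype ≤ Cfsg.Agent.Lib.Helper29.powKer A p hpow := by
    rintro _ ⟨b, hb, rfl⟩
    exact ⟨b.2, congrArg Subtype.val (hBp b hb)⟩
  have h1 : p ^ 2 < Nat.card (Cfsg.Agent.Lib.Helper29.powKer A p hpow) := by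
    have := Subgroup.card_le_of_le hBle
    rw [Subgroup.card_map_of_injective A.subtype_injective] at this
    omega
  obtain ⟨m, hm⟩ := IsPGroup.iff_card.1 (hP.to_subgroup (Cfsg.Agent.Lib.Helper29.powKer A p hpow))
  have h3 : p ^ 3 ≤ Nat.card (Cfsg.Agent.Lib.Helper29.powKer A p hpow) := by
    rw [hm] at h1 ⊢
    have := (Nat.pow_lt_pow_iff_right hpp.one_lt).1 h1
    exact Nat.pow_le_pow_right hpp.pos this
  obtain ⟨L, hL, hLn, hLcard⟩ := Cfsg.Agent.Lib.Helper29.exists_normal_le_of_card hP 3 _ _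
    (Cfsg.Agent.Lib.Helper29.powKer_normal A p hpow) rfl h3
  refine h L hLn ⟨⟨?_⟩⟩ (fun a ha => (hL ha).2) hLcard
  rintro ⟨a, ha⟩ ⟨b, hb⟩
  exact Subtype.ext (hAcomm a (hL ha).1 b (hL hb).1)

end Cfsg.Agent.S0100
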