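import Cfsg.Statements.S0104
import Cfsg.Agent.Lib.Helper2.SylowBasic

set_option autoImplicit false
open Cfsg

namespace Cfsg.Agent.S0104

open Cfsg.Agent.Lib.Helper2

/-- A subgroup Z of a Sylow p-subgroup P that is normalized by N_G(P) is weakly closed in P exactly when it is normal in every Sylow p-subgroup containing it. -/
theorem result {G : Type*} [Group G] [Finite G] {p : ℕ} [Fact p.Prime] (P : Sylow p G) (Z : Subgroup G) (hZP : Z ≤ (P : Subgroup G)) (hZN : Subgroup.normalizer (P : Set G) ≤ Subgroup.normalizer (Z : Set G)) : Cfsg.IsWeaklyClosed Z P ↔ ∀ R : Sylow p G, Z ≤ (R : Subgroup G) → (R : Subgroup G) ≤ Subgroup.normalizer (Z : Set G) := by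
  constructor
  · rintro ⟨-, hW⟩ R hZR
    -- R = g • P
    obtain ⟨g, rfl⟩ := MulAction.exists_smul_eq G P R
    -- Z^{g⁻¹} ≤ P
    have h1 : Z.map (MulAut.conj g⁻¹).toMonoidHom ≤ P := by
      rintro _ ⟨z, hz, rfl⟩
      have : g⁻¹ * z * g ∈ (P : Subgroup G) := mem_sylow_smul_iff.mp (hZR hz)
      simpa using this
    have h2 := hW g⁻¹ h1
    have h3 : g⁻¹ ∈ Subgroup.normalizer (Z : Set G) := Subgroup.mem_normalizer_iff_map_conj_eq.mpr h2
    have h4 : g ∈ Subgroup.normalizer (Z : Set G) := by simpa using Subgroup.inv_mem _ h3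
    intro r hr
    have h5 : g⁻¹ * r * g ∈ P := mem_sylow_smul_iff.mp hr
    have h6 : g⁻¹ * r * g ∈ Subgroup.normalizer (Z : Set G) := hZN (Subgroup.le_normalizer h5)
    have := Subgroup.mul_mem _ (Subgroup.mul_mem _ h4 h6) h3
    convert this using 1
    group
  · intro h
    refine ⟨hZP, ?_⟩
    intro g hg
    -- Z ≤ g⁻¹ • P
    have h1 : Z ≤ ((g⁻¹ • P : Sylow p G) : Subgroup G) := by
      intro z hz
      apply mem_sylow_smul_iff.mpr
      have : (MulAut.conj g).toMonoidHom z ∈ (P : Subgroup G) := hg ⟨z, hz, rfl⟩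
      have h' : g * z * g⁻¹ ∈ (P : Subgroup G) := by simpa using this
      have h'' : g * z * g⁻¹ ∈ P := h'
      simpa using h''
    have h2 := h _ h1
    have h3 := h P hZP
    obtain ⟨n, hn, hnP⟩ := sylow_conj_in P (g⁻¹ • P) h3 h2
    rw [← mul_smul, Sylow.smul_eq_iff_mem_normalizer] at hnP
    have h4 := hZN hnP
    have h5 : g⁻¹ ∈ Subgroup.normalizer (Z : Set G) := by
      have := Subgroup.mul_mem _ (Subgroup.inv_mem _ hn) h4
      simpa using this
    have h6 : g ∈ Subgroup.normalizer (Z : Set G) := by simpa using Subgroup.inv_mem _ h5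
    exact Subgroup.mem_normalizer_iff_map_conj_eq.mp h6

end Cfsg.Agent.S0104
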