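import Cfsg.Statements.S0107
import Cfsg.Agent.S0111
import Cfsg.Agent.Lib.Helper2.SylowBasic

set_option autoImplicit false
open Cfsg

namespace Cfsg.Agent.S0107

open Cfsg.Agent.Lib.Helper2

theorem unique_involution_of_cyclic {C : Type*} [Group C] [Finite C] [IsCyclic C] (a b : C)
    (ha : orderOf a = 2) (hb : orderOf b = 2) : a = b := by
  classical
  haveI : Fintype C := Fintype.ofFinite C
  have hd : 2 ∣ Fintype.card C := by
    rw [← ha]; exact orderOf_dvd_card
  have h := IsCyclic.card_orderOf_eq_totient (α := C) hd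
  rw [Nat.totient_two, Finset.card_eq_one] at h
  obtain ⟨c, hc⟩ := h
  have h1 : a ∈ ({c} : Finset C) := by rw [← hc]; simp [ha]
  have h2 : b ∈ ({c} : Finset C) := by rw [← hc]; simp [hb]
  rw [Finset.mem_singleton] at h1 h2
  rw [h1, h2]

theorem no_index_two {G : Type*} [Group G] [Finite G] (hO : Cfsg.pResidual 2 G = ⊤)
    (M : Subgroup G) (hM : M.index = 2) : False := by
  have h1 : Cfsg.pResidual 2 G ≤ M := by
    unfold Cfsg.pResidual
    rw [Subgroup.closure_le]
    intro g hg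
    have hg' : Nat.Coprime (orderOf g) 2 := hg
    have h2 : g ^ 2 ∈ M := Subgroup.sq_mem_of_index_two hM g
    obtain ⟨k, hk⟩ := exists_pow_eq_self_of_coprime (Nat.Coprime.symm hg')
    rw [← hk]
    exact Subgroup.pow_mem _ h2 k
  rw [hO, top_le_iff] at h1
  rw [h1, Subgroup.index_top] at hM
  omega

theorem orderOf_conj' {G : Type*} [Group G] (g x : G) : orderOf (g * x * g⁻¹) = orderOf x := by
  have := (MulAut.conj g).orderOf_eq x
  simpa using this

/-- A finite group with no nontrivial 2-group quotient and dihedral Sylow 2-subgroups of order at least 8 has a single class of involutions. -/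
theorem result {G : Type*} [Group G] [Finite G] (T : Sylow 2 G) (n : ℕ) (hn : 2 ≤ n) (hT : Nonempty ((T : Subgroup G) ≃* DihedralGroup (2 ^ n))) (hO : Cfsg.pResidual 2 G = ⊤) (x y : G) (hx : orderOf x = 2) (hy : orderOf y = 2) : ∃ g : G, g * x * g⁻¹ = y := by
  haveI : Fact (Nat.Prime 2) := ⟨Nat.prime_two⟩
  obtain ⟨e⟩ := hT
  set c : G := ((e.symm (DihedralGroup.r 1) : (T : Subgroup G)) : G) with hc
  have hcT : c ∈ (T : Subgroup G) := (e.symm (DihedralGroup.r 1)).2
  have hcord : orderOf c = 2 ^ n := by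
    rw [hc, Subgroup.orderOf_coe, e.symm.orderOf_eq, DihedralGroup.orderOf_r_one]
  set C : Subgroup G := Subgroup.zpowers c with hC
  have hCT : C ≤ (T : Subgroup G) := by
    rw [hC, Subgroup.zpowers_le]; exact hcT
  have hcardC : Nat.card C = 2 ^ n := by rw [hC, Nat.card_zpowers, hcord]
  have hcardT : Nat.card (T : Subgroup G) = 2 * 2 ^ n := by
    rw [Nat.card_congr e.toEquiv, DihedralGroup.nat_card]
  have hrel : C.relIndex (T : Subgroup G) = 2 := by
    have h1 := Subgroup.relIndex_mul_relIndex ⊥ C (T : Subgroup G) bot_le hCT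
    rw [Subgroup.relIndex_bot_left, Subgroup.relIndex_bot_left, hcardC, hcardT, mul_comm] at h1
    exact Nat.eq_of_mul_eq_mul_right (by positivity) h1
  -- every involution is conjugate into C
  have key : ∀ t : G, orderOf t = 2 → ∃ g : G, g * t * g⁻¹ ∈ C := by
    intro t ht
    have hpt : IsPGroup 2 (Subgroup.zpowers t) := by
      apply IsPGroup.of_card (n := 1)
      rw [Nat.card_zpowers, ht, pow_one]
    obtain ⟨S, hS⟩ := hpt.exists_le_sylow
    obtain ⟨g, hg⟩ := MulAction.exists_smul_eq G T S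
    have htS : t ∈ S := hS (Subgroup.mem_zpowers t)
    rw [← hg] at htS
    have ht' : g⁻¹ * t * g ∈ T := mem_sylow_smul_iff.mp htS
    by_cases hmem : g⁻¹ * t * g ∈ C
    · exact ⟨g⁻¹, by simpa using hmem⟩
    · have hord : orderOf (g⁻¹ * t * g) = 2 := by
        have := orderOf_conj' g⁻¹ t
        rw [inv_inv] at this
        rw [this, ht]
      rcases Cfsg.Agent.S0111.result T C hCT hrel (g⁻¹ * t * g) hord ht' hmem with
        ⟨M, -, hM, -⟩ | ⟨h, hh⟩
      · exact (no_index_two hO M hM).elim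
      · refine ⟨h * g⁻¹, ?_⟩
        convert hh using 1
        group
  obtain ⟨g1, h1⟩ := key x hx
  obtain ⟨g2, h2⟩ := key y hy
  have e1 : orderOf (⟨g1 * x * g1⁻¹, h1⟩ : C) = 2 := by
    rw [Subgroup.orderOf_mk, orderOf_conj', hx]
  have e2 : orderOf (⟨g2 * y * g2⁻¹, h2⟩ : C) = 2 := by
    rw [Subgroup.orderOf_mk, orderOf_conj', hy]
  have e3 := unique_involution_of_cyclic _ _ e1 e2
  have e4 : g1 * x * g1⁻¹ = g2 * y * g2⁻¹ := congrArg Subtype.val e3
  refine ⟨g2⁻¹ * g1, ?_⟩
  calc g2⁻¹ * g1 * x * (g2⁻¹ * g1)⁻¹ = g2⁻¹ * (g1 * x * g1⁻¹) * g2 := by group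
    _ = g2⁻¹ * (g2 * y * g2⁻¹) * g2 := by rw [e4]
    _ = y := by group

end Cfsg.Agent.S0107
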