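import Cfsg.Statements.S0114
import Cfsg.Agent.Lib.Helper73.MaxClass
import Cfsg.Agent.Lib.Helper73.DihedralRec
import Cfsg.Agent.S0113

set_option autoImplicit false
open Cfsg

namespace Cfsg.Agent.S0114

open Cfsg.Agent.Lib.Helper73

/-- an element commuting with `a` and `b` is central when `⟨a⟩` has index two and `b ∉ ⟨a⟩` -/
theorem mem_center_of_comm {G : Type*} [Group G] (a b c : G)
    (hidx : (Subgroup.zpowers a).index = 2) (hb : b ∉ Subgroup.zpowers a)
    (hca : a * c = c * a) (hcb : b * c = c * b) : c ∈ Subgroup.center G := by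
  have htop : Subgroup.centralizer ({c} : Set G) = ⊤ := by
    apply eq_top_of_index_two hidx _ (b := b) _ hb
    · rw [Subgroup.zpowers_le, Subgroup.mem_centralizer_singleton_iff]
      exact hca
    · rw [Subgroup.mem_centralizer_singleton_iff]
      exact hcb
  rw [Subgroup.mem_center_iff]
  intro g
  have hg : g ∈ Subgroup.centralizer ({c} : Set G) := by rw [htop]; trivial
  exact Subgroup.mem_centralizer_singleton_iff.mp hg

/-- The central quotient of a 2-group of maximal class is dihedral. -/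
theorem result {X : Type*} [Group X] [Finite X] (n : ℕ) (hn : 3 ≤ n) (hX : Nat.card X = 2 ^ n) (hc : Group.nilpotencyClass X = n - 1) : Nonempty (X ⧸ Subgroup.center X ≃* DihedralGroup (2 ^ (n - 2))) := by
  have : Fact (Nat.Prime 2) := ⟨Nat.prime_two⟩
  have hidx := (Cfsg.Agent.S0113.class_aux n X hX (by omega)).2 hc
  have h2 : IsPGroup 2 X := IsPGroup.of_card hX
  obtain ⟨k, rfl⟩ : ∃ k, n = k + 3 := ⟨n - 3, by omega⟩
  have h4 : Nat.card X ≠ 4 := by
    rw [hX]; intro h
    have h1 : (2 : ℕ) ^ (k + 3) = 2 ^ 2 := by rw [h]; norm_num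
    have := Nat.pow_right_injective (le_refl 2) h1
    omega
  have hZ2 := card_center_eq_two h2 hidx h4
  obtain ⟨a, ha⟩ := exists_cyclic_index_two _ X rfl h2 hidx
  have hna : ∃ x y : X, x * y ≠ y * x := by
    by_contra hcon
    push Not at hcon
    have := commutator_eq_bot_of_comm hcon
    rw [this, Subgroup.index_bot] at hidx
    exact h4 hidx
  obtain ⟨M, hM⟩ : ∃ M, M = 2 ^ k := ⟨_, rfl⟩
  have hMpos : 0 < M := by rw [hM]; positivity
  have hoa : orderOf a = 4 * M := by
    have := (Subgroup.zpowers a).card_mul_index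
    rw [ha, Nat.card_zpowers, hX] at this
    have e : 2 ^ (k + 3) = 4 * 2 ^ k * 2 := by ring
    rw [hM]
    omega
  have ha4 : a ^ (4 * M) = 1 := by rw [← hoa]; exact pow_orderOf_eq_one a
  have hcard : Nat.card X = 8 * M := by rw [hX, hM]; ring
  obtain ⟨b, hb, h⟩ := cyc2_classify a k M hM hoa ha hna
  obtain ⟨c, hcdef⟩ : ∃ c, c = a ^ (2 * M) := ⟨_, rfl⟩
  have hc2 : c ^ 2 = 1 := by rw [hcdef, ← pow_mul, ← ha4]; congr 1; ring
  have hc1 : c ≠ 1 := by
    rw [hcdef]; intro h1
    have := orderOf_dvd_of_pow_eq_one h1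
    rw [hoa] at this
    have := Nat.le_of_dvd (by positivity) this
    omega
  have hcinv : c⁻¹ = c := by
    rw [inv_eq_iff_mul_eq_one, ← sq]; exact hc2
  have hca : a * c = c * a := by rw [hcdef, ← pow_succ, ← pow_succ']
  -- conjugation by `b` fixes `c`
  have hcb : b * c = c * b := by
    have key : b * c * b⁻¹ = c := by
      rw [hcdef, ← conj_pow]
      rcases h with ⟨hb2, hba⟩ | ⟨hb2, hba⟩ | ⟨hM2, hb2, hba⟩ | ⟨hM2, hb2, hba⟩
      · rw [hba, inv_pow, ← hcdef, hcinv]
      · rw [hba, inv_pow, ← hcdef, hcinv]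
      · rw [hba, ← pow_mul]
        have e : (1 + 2 * M) * (2 * M) = 2 * M + 4 * M * M := by ring
        rw [e, pow_add, pow_mul (a := a) (4 * M), ha4, one_pow, mul_one]
      · rw [hba, ← pow_mul]
        obtain ⟨M', rfl⟩ : ∃ M', M = M' + 1 := ⟨M - 1, by omega⟩
        have e : (2 * (M' + 1) - 1) * (2 * (M' + 1)) = 2 * (M' + 1) + 4 * (M' + 1) * M' := by
          have : 2 * (M' + 1) - 1 = 2 * M' + 1 := by omega
          rw [this]; ring
        rw [e, pow_add, pow_mul (a := a) (4 * (M' + 1)), ha4, one_pow, mul_one]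
    calc b * c = b * c * b⁻¹ * b := by group
      _ = c * b := by rw [key]
  have hcZ : c ∈ Subgroup.center X := mem_center_of_comm a b c ha hb hca hcb
  have hZeq : Subgroup.zpowers c = Subgroup.center X := by
    apply Subgroup.eq_of_le_of_card_ge (Subgroup.zpowers_le.mpr hcZ)
    rw [Nat.card_zpowers, hZ2, orderOf_eq_prime hc2 hc1]
  have hZmem : ∀ x ∈ Subgroup.center X, x = 1 ∨ x = c := by
    intro x hx; rw [← hZeq] at hx; exact eq_one_or_eq_of_mem_zpowers hc2 hx
  have hpow_ne : ∀ j, 0 < j → j < 4 * M → a ^ j ≠ 1 := by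
    intro j hj0 hj h1
    have := orderOf_dvd_of_pow_eq_one h1
    rw [hoa] at this
    have := Nat.le_of_dvd hj0 this
    omega
  obtain ⟨π, hπdef⟩ : ∃ π : X →* X ⧸ Subgroup.center X, π = QuotientGroup.mk' _ := ⟨_, rfl⟩
  have hker : ∀ x, π x = 1 ↔ x ∈ Subgroup.center X := by
    intro x; rw [hπdef]; exact QuotientGroup.eq_one_iff x
  have hπc : π c = 1 := (hker c).mpr hcZ
  have hne : NeZero (2 ^ (k + 3 - 2)) := ⟨by positivity⟩
  have hexp : 2 ^ (k + 3 - 2) = 2 * M := by
    rw [hM, show k + 3 - 2 = k + 1 by omega]; ring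
  apply nonempty_mulEquiv_dihedralGroup (2 ^ (k + 3 - 2)) (π a) (π b)
  · -- order of `π a`
    rw [show k + 3 - 2 = k + 1 by omega]
    apply orderOf_eq_prime_pow
    · rw [← hM, ← map_pow, hker]
      intro hmem
      rcases hZmem _ hmem with h1 | h1
      · exact hpow_ne M hMpos (by omega) h1
      · rw [hcdef, two_mul, pow_add] at h1
        exact hpow_ne M hMpos (by omega) (by simpa using h1)
    · rw [← map_pow, show 2 ^ (k + 1) = 2 * M by rw [hM]; ring, ← hcdef, hπc]
  · rcases h with ⟨hb2, hba⟩ | ⟨hb2, hba⟩ | ⟨hM2, hb2, hba⟩ | ⟨hM2, hb2, hba⟩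
    · rw [← map_pow, hb2, map_one]
    · rw [← map_pow, hb2, ← hcdef, hπc]
    · rw [← map_pow, hb2, map_one]
    · rw [← map_pow, hb2, map_one]
  · rcases h with ⟨hb2, hba⟩ | ⟨hb2, hba⟩ | ⟨hM2, hb2, hba⟩ | ⟨hM2, hb2, hba⟩
    · rw [← map_inv, ← map_inv, ← map_mul, ← map_mul, hba]
    · rw [← map_inv, ← map_inv, ← map_mul, ← map_mul, hba]
    · -- modular case: `a ^ 2` would be central
      exfalso
      have h1 : b * a ^ 2 * b⁻¹ = a ^ 2 := by
        rw [← conj_pow, hba, ← pow_mul]
        have e : (1 + 2 * M) * 2 = 2 + 4 * M := by ring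
        rw [e, pow_add, ha4, mul_one]
      have h2' : b * a ^ 2 = a ^ 2 * b := by
        calc b * a ^ 2 = b * a ^ 2 * b⁻¹ * b := by group
          _ = a ^ 2 * b := by rw [h1]
      have h3 : a ^ 2 ∈ Subgroup.center X :=
        mem_center_of_comm a b (a ^ 2) ha hb (by rw [← pow_succ, ← pow_succ']) h2'
      rcases hZmem _ h3 with h5 | h5
      · exact hpow_ne 2 (by norm_num) (by omega) h5
      · rw [hcdef] at h5
        have e : 2 * M = 2 + (2 * M - 2) := by omega
        rw [e, pow_add] at h5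
        exact hpow_ne (2 * M - 2) (by omega) (by omega) (by simpa using h5.symm)
    · rw [← map_inv, ← map_inv, ← map_mul, ← map_mul, hba]
      have e : a ^ (2 * M - 1) = c * a⁻¹ := by
        rw [hcdef, eq_mul_inv_iff_mul_eq, ← pow_succ]; congr 1; omega
      rw [e, map_mul, hπc, one_mul]
  · intro hmem
    obtain ⟨i, hi⟩ := Subgroup.mem_zpowers_iff.mp hmem
    have h1 : π (a ^ i * b⁻¹) = 1 := by rw [map_mul, map_zpow, hi, map_inv, mul_inv_cancel]
    rw [hker] at h1
    have h3 : a ^ i * b⁻¹ ∈ Subgroup.zpowers a := by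
      rcases hZmem _ h1 with h5 | h5
      · rw [h5]; exact one_mem _
      · rw [h5, hcdef]; exact Subgroup.npow_mem_zpowers a _
    have h4 : b⁻¹ ∈ Subgroup.zpowers a := by
      have := mul_mem (inv_mem (Subgroup.zpow_mem_zpowers a i)) h3
      simpa using this
    exact hb (by simpa using inv_mem h4)
  · have hmul := Subgroup.card_eq_card_quotient_mul_card_subgroup (Subgroup.center X)
    rw [hcard, hZ2] at hmul
    rw [hexp]
    omega

end Cfsg.Agent.S0114
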