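import Cfsg.Statements.S0115
import Cfsg.Agent.Lib.Helper73.MaxClass
import Cfsg.Agent.S0113

set_option autoImplicit false
open Cfsg

namespace Cfsg.Agent.S0115

open Cfsg.Agent.Lib.Helper73

/-- A 2-group of order 2^n, n ≥ 3, is of maximal class exactly when its commutator quotient is a Klein four-group. -/
theorem result {X : Type*} [Group X] [Finite X] (n : ℕ) (hn : 3 ≤ n) (hX : Nat.card X = 2 ^ n) : Group.nilpotencyClass X = n - 1 ↔ IsKleinFour (X ⧸ commutator X) := by
  have : Fact (Nat.Prime 2) := ⟨Nat.prime_two⟩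
  constructor
  · intro hc
    have hidx := (Cfsg.Agent.S0113.class_aux n X hX (by omega)).2 hc
    have hcard : Nat.card (X ⧸ commutator X) = 2 ^ 2 := by
      rw [← Subgroup.index_eq_card, hidx]; norm_num
    refine ⟨by rw [hcard]; norm_num, ?_⟩
    rw [← not_isCyclic_iff_exponent_eq_prime Nat.prime_two hcard]
    intro hcyc
    have hcomm := comm_of_isCyclic_quotient_commutator (p := 2) _ X rfl (IsPGroup.of_card hX) hcyc
    rw [commutator_eq_bot_of_comm hcomm, Subgroup.index_bot, hX] at hidx
    have h1 : (2 : ℕ) ^ n = 2 ^ 2 := by rw [hidx]; norm_num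
    have := Nat.pow_right_injective (le_refl 2) h1
    omega
  · intro hK
    apply class_of_index_four n X hX (by omega)
    rw [Subgroup.index_eq_card]
    exact hK.card_four

end Cfsg.Agent.S0115
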