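import Cfsg.Statements.S0116
import Cfsg.Agent.Lib.Helper2.Alperin

set_option autoImplicit false
open Cfsg

namespace Cfsg.Agent.S0116

open Cfsg.Agent.Lib.Helper2 Subgroup
open scoped Pointwise

theorem toFin {G : Type*} [Group G] {p : ℕ} {P : Sylow p G} {A : Set G} {g : G} (h : AChain P A g) :
    ∃ (n : ℕ) (Q : Fin n → Sylow p G) (x : Fin n → G), (List.ofFn x).prod = g ∧
      (∀ i : Fin n, x i ∈ Subgroup.normalizer ((((P : Subgroup G) ⊓ (Q i : Subgroup G)) : Subgroup G) : Set G) ∧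
        Tame P (Q i)) ∧
      (∀ h : 0 < n, A ⊆ (((P : Subgroup G) ⊓ (Q ⟨0, h⟩ : Subgroup G) : Subgroup G) : Set G)) ∧
      ∀ i : Fin n, ∀ h : i.val + 1 < n,
        (fun a => (((List.ofFn x).take (i.val + 1)).prod)⁻¹ * a * ((List.ofFn x).take (i.val + 1)).prod) '' A ⊆
          (((P : Subgroup G) ⊓ (Q ⟨i.val + 1, h⟩ : Subgroup G) : Subgroup G) : Set G) := by
  induction h with
  | nil A =>
    refine ⟨0, Fin.elim0, Fin.elim0, by simp, fun i => i.elim0, fun h => absurd h (lt_irrefl 0),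
      fun i => i.elim0⟩
  | cons A Q0 y x' ht hy hA _ ih =>
    obtain ⟨n, Q, x, hprod, hN, h0, hstep⟩ := ih
    have hlist : List.ofFn (Fin.cons y x : Fin (n + 1) → G) = y :: List.ofFn x := by
      rw [List.ofFn_succ]
      simp
    refine ⟨n + 1, Fin.cons Q0 Q, Fin.cons y x, ?_, ?_, ?_, ?_⟩
    · rw [hlist, List.prod_cons, hprod]
    · intro i
      refine Fin.cases ?_ (fun j => ?_) i
      · simp only [Fin.cons_zero]
        exact ⟨hy, ht⟩
      · simp only [Fin.cons_succ]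
        exact hN j
    · intro _
      exact hA
    · intro i hi
      have hi' : i.val < n := by omega
      have hQ : (Fin.cons Q0 Q : Fin (n + 1) → Sylow p G) ⟨i.val + 1, hi⟩ = Q ⟨i.val, hi'⟩ := by
        have : (⟨i.val + 1, hi⟩ : Fin (n + 1)) = Fin.succ ⟨i.val, hi'⟩ := rfl
        rw [this, Fin.cons_succ]
      rw [hQ, hlist, List.take_succ_cons, List.prod_cons]
      rcases Nat.eq_zero_or_pos i.val with hz | hpos
      · have h1 := h0 (by omega)
        rw [cc_smul_set] at h1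
        have h2 : (⟨i.val, hi'⟩ : Fin n) = ⟨0, by omega⟩ := Fin.ext hz
        rw [h2, hz]
        simpa using h1
      · obtain ⟨j, hj⟩ : ∃ j, i.val = j + 1 := ⟨i.val - 1, by omega⟩
        have h1 := hstep ⟨j, by omega⟩ (by simp only; omega)
        have h2 : (⟨i.val, hi'⟩ : Fin n) = ⟨j + 1, by omega⟩ := Fin.ext hj
        rw [h2, hj]
        rintro _ ⟨a, ha, rfl⟩
        apply h1
        refine ⟨cc y • a, Set.smul_mem_smul_set ha, ?_⟩
        simp only [cc_smul]
        group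

/-- The Alperin fusion Theorem states that conjugation between subsets of a Sylow p-subgroup P factors through normalizers of tame intersections P ∩ Q_i with other Sylow p-subgroups, carrying the subset along step by step. -/
theorem result {G : Type*} [Group G] [Finite G] {p : ℕ} [Fact p.Prime] (P : Sylow p G) (A : Set G) (g : G) (hA : A ⊆ (P : Set G)) (hAg : (fun a => g⁻¹ * a * g) '' A ⊆ (P : Set G)) : ∃ (n : ℕ) (Q : Fin n → Sylow p G) (x : Fin n → G), (List.ofFn x).prod = g ∧ (∀ i : Fin n, x i ∈ Subgroup.normalizer ((((P : Subgroup G) ⊓ (Q i : Subgroup G)) : Subgroup G) : Set G) ∧ ¬ p ∣ ((P : Subgroup G) ⊓ Subgroup.normalizer ((((P : Subgroup G) ⊓ (Q i : Subgroup G)) : Subgroup G) : Set G)).relIndex (Subgroup.normalizer ((((P : Subgroup G) ⊓ (Q i : Subgroup G)) : Subgroup G) : Set G)) ∧ ¬ p ∣ ((Q i : Subgroup G) ⊓ Subgroup.normalizer ((((P : Subgroup G) ⊓ (Q i : Subgroup G)) : Subgroup G) : Set G)).relIndex (Subgroup.normalizer ((((P : Subgroup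 G) ⊓ (Q i : Subgroup G)) : Subgroup G) : Set G))) ∧ (∀ h : 0 < n, A ⊆ (((P : Subgroup G) ⊓ (Q ⟨0, h⟩ : Subgroup G) : Subgroup G) : Set G)) ∧ ∀ i : Fin n, ∀ h : i.val + 1 < n, (fun a => (((List.ofFn x).take (i.val + 1)).prod)⁻¹ * a * ((List.ofFn x).take (i.val + 1)).prod) '' A ⊆ (((P : Subgroup G) ⊓ (Q ⟨i.val + 1, h⟩ : Subgroup G) : Subgroup G) : Set G) := by
  have h1 : AChain P A g := alperin_chain P A g hA (by rw [cc_smul_set]; exact hAg)
  obtain ⟨n, Q, x, hprod, hN, h0, hstep⟩ := toFin h1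
  exact ⟨n, Q, x, hprod, fun i => ⟨(hN i).1, (hN i).2.1, (hN i).2.2⟩, h0, hstep⟩

end Cfsg.Agent.S0116
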