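import Cfsg.Statements.S0119
import Cfsg.Agent.S0093
import Cfsg.Agent.Lib.Helper2.Class2
import Cfsg.Agent.Lib.Helper2.TransferBasic

set_option autoImplicit false
open Cfsg

namespace Cfsg.Agent.S0119

open scoped commutatorElement
open Cfsg.Agent.Lib.Helper2

/-- If a p'-group A of automorphisms of a p-group G satisfies G = [G, A] and acts trivially on every characteristic abelian subgroup, then G is special with centre equal to the fixed points of A. -/
theorem result {G : Type*} [Group G] [Finite G] {p : ℕ} [Fact p.Prime] (hG : IsPGroup p G) (A : Subgroup (MulAut G)) (hA : Nat.Coprime (Nat.card A) p) (hGA : Subgroup.closure {x : G | ∃ g : G, ∃ a ∈ A, x = g⁻¹ * a g} = ⊤) (hchar : ∀ H : Subgroup G, H.Characteristic → IsMulCommutative H → ∀ a ∈ A, ∀ h ∈ H, a h = h) : Cfsg.IsSpecial p G ∧ (∀ g : G, (g ∈ Subgroup.center G ↔ ∀ a ∈ A, a g = g)) := by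
  classical
  have hpp : p.Prime := Fact.out
  -- Step 1: characteristic abelian subgroups are central
  have step1 : ∀ B : Subgroup G, B.Characteristic → IsMulCommutative B → B ≤ Subgroup.center G := by
    intro B hB hBc
    haveI := hB
    have hBn : B.Normal := inferInstance
    have h1 : (⊤ : Subgroup G) ≤ Subgroup.centralizer (B : Set G) := by
      rw [← hGA, Subgroup.closure_le]
      rintro x ⟨g, a, ha, rfl⟩
      change g⁻¹ * a g ∈ Subgroup.centralizer (B : Set G)
      rw [Subgroup.mem_centralizer_iff]
      intro b hb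
      have hb' : b ∈ B := hb
      have e1 : a (g * b * g⁻¹) = g * b * g⁻¹ := hchar B hB hBc a ha _ (hBn.conj_mem b hb' g)
      rw [map_mul, map_mul, map_inv, hchar B hB hBc a ha b hb'] at e1
      have e2 : a g * b = g * b * g⁻¹ * a g := by
        rw [← e1]; group
      calc b * (g⁻¹ * a g) = g⁻¹ * (g * b * g⁻¹ * a g) := by group
        _ = g⁻¹ * (a g * b) := by rw [e2]
        _ = g⁻¹ * a g * b := by group
    intro b hb
    rw [Subgroup.mem_center_iff]
    intro g
    exact (Subgroup.mem_centralizer_iff.mp (h1 (Subgroup.mem_top g)) b hb).symm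
  -- Step 2: class at most two
  have step2 : commutator G ≤ Subgroup.center G := by
    obtain ⟨H, hH, h1, h2, h3⟩ := Cfsg.Agent.S0093.result hG
    haveI := hH
    have hZ : H ⊓ Subgroup.centralizer (H : Set G) ≤ Subgroup.center G := by
      apply step1
      · rw [Subgroup.characteristic_iff_le_comap]
        intro φ x hx
        rw [Subgroup.mem_comap]
        exact Subgroup.mem_inf.mpr ⟨Cfsg.Agent.S0093.char_mem hH φ hx.1,
          Cfsg.Agent.S0093.char_mem
            (inferInstance : (Subgroup.centralizer (H : Set G)).Characteristic) φ hx.2⟩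
      · refine ⟨⟨fun x y => ?_⟩⟩
        apply Subtype.ext
        have hx : x.1 ∈ Subgroup.centralizer (H : Set G) := x.2.2
        rw [Subgroup.mem_centralizer_iff] at hx
        exact (hx y.1 y.2.1).symm
    have e1 : ⁅⁅H, (⊤ : Subgroup G)⁆, (⊤ : Subgroup G)⁆ = ⊥ := by
      rw [Subgroup.commutator_eq_bot_iff_le_centralizer, Subgroup.coe_top, Subgroup.centralizer_univ]
      exact h2.trans hZ
    have e2 : ⁅⁅(⊤ : Subgroup G), H⁆, (⊤ : Subgroup G)⁆ = ⊥ := by
      rw [Subgroup.commutator_comm ⊤ H]; exact e1
    have e3 : ⁅⁅(⊤ : Subgroup G), (⊤ : Subgroup G)⁆, H⁆ = ⊥ :=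
      Subgroup.commutator_commutator_eq_bot_of_rotate e2 e1
    rw [Subgroup.commutator_eq_bot_iff_le_centralizer] at e3
    rw [commutator_def]
    exact (le_inf (e3.trans h3) e3).trans hZ
  -- Step 3
  have step3 : ∀ g ∈ Subgroup.center G, ∀ a ∈ A, a g = g := by
    intro g hg a ha
    exact hchar (Subgroup.center G) inferInstance inferInstance a ha g hg
  -- Step 4: fixed points lie in the commutator subgroup
  have step4 : ∀ g : G, (∀ a ∈ A, a g = g) → g ∈ commutator G := by
    intro c hc
    haveI : Fintype A := Fintype.ofFinite A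
    let N : G →* Abelianization G :=
      ∏ a : A, (Abelianization.of.comp (a.1 : G ≃* G).toMonoidHom)
    have hN : ∀ g, N g = ∏ a : A, Abelianization.of (a.1 g) := by
      intro g
      simp [N]
    have hNa : ∀ (a : A) (g : G), N (a.1 g) = N g := by
      intro a g
      rw [hN, hN]
      exact Fintype.prod_equiv (Equiv.mulRight a) _ _ (fun b => rfl)
    have hN1 : N = 1 := by
      apply MonoidHom.eq_of_eqOn_dense hGA
      rintro x ⟨g, a, ha, rfl⟩
      rw [map_mul, map_inv, hNa ⟨a, ha⟩ g]
      simp
    have h1 : (Abelianization.of c) ^ (Nat.card A) = 1 := by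
      have h2 : N c = 1 := by rw [hN1]; rfl
      rw [hN] at h2
      rw [← h2, Nat.card_eq_fintype_card, ← Finset.card_univ, ← Finset.prod_const]
      apply Finset.prod_congr rfl
      intro a _
      rw [hc a.1 a.2]
    obtain ⟨k, hk⟩ := hG c
    have h2 : (Abelianization.of c) ^ (p ^ k) = 1 := by rw [← map_pow, hk, map_one]
    have h3 : Abelianization.of c = 1 :=
      eq_one_of_pow_eq_one_of_coprime h1 h2 (Nat.Coprime.pow_right k hA)
    rw [← Abelianization.ker_of]
    exact h3
  have hZeq : commutator G = Subgroup.center G :=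
    le_antisymm step2 (fun g hg => step4 g (step3 g hg))
  have hcc : ∀ x y z : G, Commute ⁅x, y⁆ z := by
    intro x y z
    have : ⁅x, y⁆ ∈ Subgroup.center G := step2 (by
      rw [commutator_def]
      exact Subgroup.commutator_mem_commutator (Subgroup.mem_top x) (Subgroup.mem_top y))
    exact ((Subgroup.mem_center_iff.mp this) z).symm
  -- Step 5: descent on the exponent of `G / Z(G)`
  have step5 : ∀ j : ℕ, (∀ x : G, x ^ (p ^ (j + 1 + 1)) ∈ Subgroup.center G) →
      ∀ x : G, x ^ (p ^ (j + 1)) ∈ Subgroup.center G := by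
    intro j hj x
    set B := Subgroup.closure (Set.range (fun x : G => x ^ (p ^ (j + 1)))) with hB
    have hBchar : B.Characteristic := by
      rw [Subgroup.characteristic_iff_le_comap]
      intro φ
      rw [hB, Subgroup.closure_le]
      rintro _ ⟨y, rfl⟩
      change φ (y ^ (p ^ (j + 1))) ∈ Subgroup.closure (Set.range (fun x : G => x ^ (p ^ (j + 1))))
      rw [map_pow]
      exact Subgroup.subset_closure ⟨φ y, rfl⟩
    have hBcomm : IsMulCommutative B := by
      apply Subgroup.isMulCommutative_closure
      rintro _ ⟨y, rfl⟩ _ ⟨u', rfl⟩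
      set u := u' ^ (p ^ (j + 1)) with hu
      have e1 : ⁅y ^ (p ^ (j + 1)), u⁆ = 1 := by
        rw [commutator_pow_left_class2 (hcc y u y), pow_succ', pow_mul, ← commutatorElement_inv,
          inv_pow, ← commutator_pow_left_class2 (hcc u y u)]
        have : u ^ p ∈ Subgroup.center G := by
          rw [hu, ← pow_mul, ← pow_succ]
          exact hj u'
        have h2 : ⁅u ^ p, y⁆ = 1 := by
          rw [commutatorElement_eq_one_iff_commute]
          exact ((Subgroup.mem_center_iff.mp this) y).symm
        rw [h2, inv_one, one_pow]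
      exact (commutatorElement_eq_one_iff_commute.mp e1)
    exact step1 B hBchar hBcomm (Subgroup.subset_closure ⟨x, rfl⟩)
  have step6 : ∀ x : G, x ^ p ∈ Subgroup.center G := by
    have h1 : ∀ k : ℕ, (∀ x : G, x ^ (p ^ (k + 1)) ∈ Subgroup.center G) →
        ∀ x : G, x ^ (p ^ (0 + 1)) ∈ Subgroup.center G := by
      intro k
      induction k with
      | zero => exact fun h => h
      | succ k ih => exact fun h => ih (step5 k h)
    obtain ⟨K, hK⟩ := IsPGroup.iff_card.mp hG
    have h2 := h1 K (fun x => by
      rw [pow_succ, pow_mul, ← hK, pow_card_eq_one', one_pow]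
      exact Subgroup.one_mem _)
    simpa using h2
  refine ⟨⟨hG, le_antisymm ?_ ?_, hZeq⟩, fun g => ⟨fun hg => step3 g hg, fun hg => step2 (step4 g hg)⟩⟩
  · exact frattini_le_of_elementary_quotient (p := p) (Subgroup.center G) step2 step6
  · rw [← hZeq]
    exact commutator_le_frattini hG

end Cfsg.Agent.S0119
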