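import Cfsg.Statements.S0130
import Cfsg.Agent.Lib.Helper29.AlperinExp

set_option autoImplicit false
open Cfsg
open scoped commutatorElement

namespace Cfsg.Agent.S0130

/-- If A is maximal among the normal abelian subgroups of exponent dividing p^n of a p-group (p^n ≠ 2), then A contains every element of order dividing p^n in its centralizer. -/
theorem result {G : Type*} [Group G] [Finite G] {p : ℕ} [Fact p.Prime] (hG : IsPGroup p G) (n : ℕ) (hn : p ^ n ≠ 2) (A : Subgroup G) [A.Normal] (hA : IsMulCommutative A) (hAe : ∀ a ∈ A, a ^ p ^ n = 1) (hmax : ∀ B : Subgroup G, B.Normal → IsMulCommutative B → (∀ b ∈ B, b ^ p ^ n = 1) → A ≤ B → B = A) (x : G) (hx : x ∈ Subgroup.centralizer (A : Set G)) (hxn : x ^ p ^ n = 1) : x ∈ A := by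
  classical
  by_contra hxA
  have hp : p.Prime := Fact.out
  have hn0 : n ≠ 0 := by
    rintro rfl
    rw [pow_zero, pow_one] at hxn
    exact hxA (hxn ▸ A.one_mem)
  have hex : ∃ j, x ^ p ^ j ∈ A := ⟨n, hxn ▸ A.one_mem⟩
  obtain ⟨k, hk⟩ : ∃ k, Nat.find hex = k + 1 := by
    rcases Nat.eq_zero_or_eq_succ_pred (Nat.find hex) with h0 | h1
    · have := Nat.find_spec hex
      rw [h0, pow_zero, pow_one] at this
      exact absurd this hxA
    · exact ⟨_, h1⟩
  have h1 : x ^ p ^ k ∉ A := Nat.find_min hex (by omega)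
  have h2 : (x ^ p ^ k) ^ p ∈ A := by
    have := Nat.find_spec hex
    rw [hk, pow_succ, pow_mul] at this
    exact this
  have h3 : (x ^ p ^ k) ^ p ^ n = 1 := by
    rw [← pow_mul, mul_comm, pow_mul, hxn, one_pow]
  have hAn : (⊤ : Subgroup G) ≤ Subgroup.normalizer (A : Set G) := by
    rw [Subgroup.normalizer_eq_top]
  obtain ⟨f, -, hfc, hfA, hfq, -, hf⟩ := Cfsg.Agent.Lib.Helper29.exists_central_mod_of_pow p (p ^ n)
    (Cfsg.Agent.Lib.Helper29.dvd_choose_two_of_pow_ne_two hp hn0 hn) A ⊤ (hG.to_subgroup ⊤) le_top hAn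
    (x ^ p ^ k) (Subgroup.mem_top _) (Subgroup.pow_mem _ hx _) h1 h3 h2
  have hBn : (Cfsg.Agent.Lib.Helper24.adjoin A f hfc).Normal := by
    rw [← Subgroup.normalizer_eq_top_iff, eq_top_iff]
    exact Cfsg.Agent.Lib.Helper24.le_normalizer_adjoin hfc hAn hf
  have := hmax _ hBn (Cfsg.Agent.Lib.Helper24.adjoin_comm hfc hA)
    (Cfsg.Agent.Lib.Helper24.adjoin_pow hfc (p ^ n) hAe hfq) (Cfsg.Agent.Lib.Helper24.le_adjoin A f hfc)
  exact hfA (this ▸ Cfsg.Agent.Lib.Helper24.self_mem_adjoin A f hfc)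

end Cfsg.Agent.S0130
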