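import Cfsg.Statements.S0122
import Cfsg.Agent.S0100
import Cfsg.Agent.S0130
import Cfsg.Agent.Lib.Helper29.NormalSeries
import Cfsg.Agent.Lib.Helper29.AlperinExp

set_option autoImplicit false
open Cfsg

namespace Cfsg.Agent.S0122

open Cfsg.Agent.Lib.Helper24 Cfsg.Agent.Lib.Helper29
open scoped commutatorElement

universe u

section basics

variable {G : Type*} [Group G]

theorem comm_of {A : Subgroup G} (h : IsMulCommutative A) : ∀ a ∈ A, ∀ b ∈ A, a * b = b * a := by
  intro a ha b hb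
  exact congrArg Subtype.val (h.is_comm.comm ⟨a, ha⟩ ⟨b, hb⟩)

theorem isMulCommutative_of {A : Subgroup G} (h : ∀ a ∈ A, ∀ b ∈ A, a * b = b * a) :
    IsMulCommutative A :=
  ⟨⟨fun a b => Subtype.ext (h a a.2 b b.2)⟩⟩

/-- between `A` and `C` with `|C| = p |A|` there is nothing. -/
theorem eq_of_lt_of_card [Finite G] {p : ℕ} (hp : p.Prime) {A B C : Subgroup G}
    (hAB : A < B) (hBC : B ≤ C) (hcard : Nat.card C = p * Nat.card A) : B = C := by
  have h1 : Nat.card A ∣ Nat.card B := Subgroup.card_dvd_of_le hAB.le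
  have h2 : Nat.card B ∣ Nat.card C := Subgroup.card_dvd_of_le hBC
  obtain ⟨k, hk⟩ := h1
  have hA : 0 < Nat.card A := Nat.card_pos
  rw [hcard, hk, mul_comm p] at h2
  have h3 : k ∣ p := Nat.dvd_of_mul_dvd_mul_left hA h2
  have hlt := card_lt_of_lt hAB
  rcases (Nat.dvd_prime hp).1 h3 with rfl | rfl
  · omega
  · exact Subgroup.eq_of_le_of_card_ge hBC (by rw [hcard, hk, mul_comm])

theorem card_mul_relIndex' {H K : Subgroup G} (h : H ≤ K) :
    Nat.card H * H.relIndex K = Nat.card K := by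
  have := Subgroup.relIndex_mul_relIndex (⊥ : Subgroup G) H K bot_le h
  rwa [Subgroup.relIndex_bot_left, Subgroup.relIndex_bot_left] at this

/-- the join of two commuting elementary abelian subgroups, one of them normal. -/
theorem elemAb_sup {p : ℕ} {A B : Subgroup G} [B.Normal] (hA : IsElementaryAbelian p A)
    (hB : IsElementaryAbelian p B) (hAB : ∀ a ∈ A, ∀ b ∈ B, a * b = b * a) :
    IsElementaryAbelian p (A ⊔ B) := by
  have hAc := comm_of hA.1
  have hBc := comm_of hB.1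
  refine ⟨isMulCommutative_of ?_, ?_⟩
  · intro x hx y hy
    obtain ⟨a, ha, b, hb, rfl⟩ := Subgroup.mem_sup_of_normal_right.1 hx
    obtain ⟨a', ha', b', hb', rfl⟩ := Subgroup.mem_sup_of_normal_right.1 hy
    calc a * b * (a' * b') = a * (b * a') * b' := by group
      _ = a * (a' * b) * b' := by rw [hAB a' ha' b hb]
      _ = (a * a') * (b * b') := by group
      _ = (a' * a) * (b' * b) := by rw [hAc a ha a' ha', hBc b hb b' hb']
      _ = a' * (a * b') * b := by group
      _ = a' * (b' * a) * b := by rw [hAB a ha b' hb']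
      _ = a' * b' * (a * b) := by group
  · intro x hx
    obtain ⟨a, ha, b, hb, rfl⟩ := Subgroup.mem_sup_of_normal_right.1 hx
    have : Commute a b := hAB a ha b hb
    rw [this.mul_pow, hA.2 a ha, hB.2 b hb, one_mul]

theorem pow_le_card_of_lt [Finite G] {p : ℕ} [Fact p.Prime] (hG : IsPGroup p G) {k : ℕ} (H : Subgroup G)
    (h : p ^ k < Nat.card H) : p ^ (k + 1) ≤ Nat.card H := by
  have hp : p.Prime := Fact.out
  obtain ⟨m, hm⟩ := IsPGroup.iff_card.1 (hG.to_subgroup H)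
  rw [hm] at h ⊢
  exact Nat.pow_le_pow_right hp.pos ((Nat.pow_lt_pow_iff_right hp.one_lt).1 h)

end basics


section ctx

variable {G : Type*} [Group G] [Finite G] {p : ℕ} [Fact p.Prime]

/-- the configuration: `V` normal elementary abelian of order `p ^ 3` containing all elements of order `p`
of its centralizer, `V₂ < V` normal of order `p ^ 2` with `[V, G] ≤ V₂`. -/
structure Ctx (p : ℕ) (V V₂ : Subgroup G) : Prop where
  nV : V.Normal
  nV₂ : V₂.Normal
  comm : ∀ a ∈ V, ∀ b ∈ V, a * b = b * a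
  lt : V₂ < V
  card : Nat.card V = p * Nat.card V₂
  card₂ : Nat.card V₂ = p ^ 2
  comm₂ : ∀ v ∈ V, ∀ g : G, ⁅v, g⁆ ∈ V₂
  omega : ∀ x ∈ Subgroup.centralizer (V : Set G), x ^ p = 1 → x ∈ V

variable {V V₂ : Subgroup G}

theorem Ctx.cardV (C : Ctx p V V₂) : Nat.card V = p ^ 3 := by
  rw [C.card, C.card₂]; ring

theorem Ctx.mem_centralizer (C : Ctx p V V₂) {x v : G}
    (hx : x ∈ Subgroup.centralizer (V₂ : Set G)) (hv : v ∈ V) (hv2 : v ∉ V₂) (hxv : x * v = v * x) :
    x ∈ Subgroup.centralizer (V : Set G) := by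
  have hp : p.Prime := Fact.out
  have h1 : V₂ < V ⊓ Subgroup.centralizer ({x} : Set G) := by
    refine lt_of_le_of_ne ?_ ?_
    · intro w hw
      refine ⟨C.lt.le hw, ?_⟩
      refine Subgroup.mem_centralizer_singleton_iff.2 ?_
      exact (Subgroup.mem_centralizer_iff.1 hx w hw)
    · intro h
      apply hv2
      rw [h]
      exact ⟨hv, Subgroup.mem_centralizer_singleton_iff.2 hxv.symm⟩
  have h2 := eq_of_lt_of_card hp h1 inf_le_left C.card
  refine Subgroup.mem_centralizer_iff.2 ?_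
  intro w hw
  have : w ∈ V ⊓ Subgroup.centralizer ({x} : Set G) := by rw [h2]; exact hw
  exact (Subgroup.mem_centralizer_singleton_iff.1 this.2)


theorem eq_of_mul_eq_sq {a b q : ℕ} (hq : 0 < q) (h : a * b = q * q) (ha : a ≤ q) (hb : b ≤ q) :
    a = q ∧ b = q := by
  constructor
  · by_contra hne
    have hlt : a < q := lt_of_le_of_ne ha hne
    have : a * b < q * q := calc a * b ≤ a * q := Nat.mul_le_mul_left a hb
      _ < q * q := Nat.mul_lt_mul_of_pos_right hlt hq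
    omega
  · by_contra hne
    have hlt : b < q := lt_of_le_of_ne hb hne
    have : a * b < q * q := calc a * b ≤ q * b := Nat.mul_le_mul_right b ha
      _ < q * q := Nat.mul_lt_mul_of_pos_left hlt hq
    omega

/-- analysis of an elementary abelian subgroup of order `p ^ 4` inside `C(V₂)`. -/
theorem Ctx.analysis (C : Ctx p V V₂) {F : Subgroup G} (hF : IsElementaryAbelian p F)
    (hcard : Nat.card F = p ^ 4) (hFN : F ≤ Subgroup.centralizer (V₂ : Set G)) {e : G} (he : e ∈ V)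
    (he2 : e ∉ V₂) : F ⊓ V = V₂ ∧ ∀ w ∈ V₂, ∃ f ∈ F, ⁅e, f⁆ = w := by
  have hp : p.Prime := Fact.out
  have hFc := comm_of hF.1
  have hnot : ¬ F ≤ Subgroup.centralizer (V : Set G) := by
    intro h
    have h1 : F ≤ V := fun f hf => C.omega f (h hf) (hF.2 f hf)
    have h2 := Subgroup.card_le_of_le h1
    rw [hcard, C.cardV] at h2
    exact absurd h2 (not_le.2 (Nat.pow_lt_pow_right hp.one_lt (by norm_num)))
  let φ : F →* V₂ :=
    { toFun := fun f => ⟨⁅e, (f : G)⁆, C.comm₂ e he f⟩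
      map_one' := by ext; simp
      map_mul' := by
        intro f g
        ext
        have h1 : ⁅e, (g : G)⁆ * (f : G) = (f : G) * ⁅e, (g : G)⁆ :=
          Subgroup.mem_centralizer_iff.1 (hFN f.2) _ (C.comm₂ e he g)
        show ⁅e, (f : G) * g⁆ = ⁅e, (f : G)⁆ * ⁅e, (g : G)⁆
        calc ⁅e, (f : G) * g⁆ = ⁅e, (f : G)⁆ * ((f : G) * ⁅e, (g : G)⁆) * (f : G)⁻¹ := by
              simp only [commutatorElement_def]; group
          _ = _ := by rw [← h1]; group }
  have hker : (φ.ker).map F.subtype ≤ F ⊓ V := by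
    rintro _ ⟨f, hf, rfl⟩
    have h1 : ⁅e, (f : G)⁆ = 1 := congrArg Subtype.val (MonoidHom.mem_ker.1 hf)
    have h2 : (f : G) * e = e * f := (commutatorElement_eq_one_iff_mul_comm.1 h1).symm
    have h3 := C.mem_centralizer (hFN f.2) he he2 h2
    exact ⟨f.2, C.omega _ h3 (hF.2 _ f.2)⟩
  have hk : Nat.card φ.ker * Nat.card φ.range = Nat.card F := by
    rw [← Subgroup.index_ker]; exact Subgroup.card_mul_index _
  have hk1 : Nat.card φ.ker ≤ Nat.card (F ⊓ V : Subgroup G) := by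
    have := Subgroup.card_le_of_le hker
    rwa [Subgroup.card_map_of_injective F.subtype_injective] at this
  have hFV : F ⊓ V < V := by
    refine lt_of_le_of_ne inf_le_right ?_
    intro h
    apply hnot
    intro f hf
    refine Subgroup.mem_centralizer_iff.2 ?_
    intro v hv
    have : v ∈ F ⊓ V := by rw [h]; exact hv
    exact hFc v this.1 f hf
  have hFVcard : Nat.card (F ⊓ V : Subgroup G) ≤ p ^ 2 := by
    have h1 := card_lt_of_lt hFV
    have h2 := Subgroup.card_dvd_of_le hFV.le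
    rw [C.cardV] at h1 h2
    obtain ⟨m, hm, hm'⟩ := (Nat.dvd_prime_pow hp).1 h2
    rw [hm'] at h1 ⊢
    have := (Nat.pow_lt_pow_iff_right hp.one_lt).1 h1
    exact Nat.pow_le_pow_right hp.pos (by omega)
  have hr : Nat.card φ.range ≤ p ^ 2 := by
    rw [← C.card₂]; exact Subgroup.card_le_card_group _
  have hq : 0 < p ^ 2 := pow_pos hp.pos 2
  obtain ⟨h1, h2⟩ := eq_of_mul_eq_sq hq (by rw [hk, hcard]; ring) (hk1.trans hFVcard) hr
  have hFVeq : Nat.card (F ⊓ V : Subgroup G) = p ^ 2 := le_antisymm hFVcard (h1 ▸ hk1)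
  constructor
  · by_contra hne
    have hlt : V₂ < (F ⊓ V) ⊔ V₂ := by
      refine lt_of_le_of_ne le_sup_right ?_
      intro h
      apply hne
      have hle : F ⊓ V ≤ V₂ := by rw [h]; exact le_sup_left
      exact Subgroup.eq_of_le_of_card_ge hle (by rw [hFVeq, C.card₂])
    have hB := eq_of_lt_of_card hp hlt (sup_le inf_le_right C.lt.le) C.card
    apply hnot
    intro f hf
    have h3 : (F ⊓ V) ⊔ V₂ ≤ Subgroup.centralizer ({f} : Set G) := by
      refine sup_le ?_ ?_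
      · intro x hx
        exact Subgroup.mem_centralizer_singleton_iff.2 (hFc x hx.1 f hf)
      · intro x hx
        exact Subgroup.mem_centralizer_singleton_iff.2
          (Subgroup.mem_centralizer_iff.1 (hFN hf) x hx)
    rw [hB] at h3
    refine Subgroup.mem_centralizer_iff.2 ?_
    intro v hv
    exact Subgroup.mem_centralizer_singleton_iff.1 (h3 hv)
  · intro w hw
    have htop : φ.range = ⊤ := Subgroup.eq_top_of_card_eq _ (by rw [h2, C.card₂])
    have : (⟨w, hw⟩ : V₂) ∈ φ.range := by rw [htop]; trivial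
    obtain ⟨f, hf⟩ := this
    exact ⟨f, f.2, congrArg Subtype.val hf⟩


/-- two elementary abelian subgroups of order `p ^ 4` of `C(V₂)` normalizing each other coincide. -/
theorem Ctx.unique (C : Ctx p V V₂) (hp2 : p ≠ 2) {F F' : Subgroup G}
    (hF : IsElementaryAbelian p F) (hF' : IsElementaryAbelian p F')
    (hcard : Nat.card F = p ^ 4) (hcard' : Nat.card F' = p ^ 4)
    (hFN : F ≤ Subgroup.centralizer (V₂ : Set G)) (hFN' : F' ≤ Subgroup.centralizer (V₂ : Set G))
    (h1 : ∀ a ∈ F, ∀ b ∈ F', b * a * b⁻¹ ∈ F) (h2 : ∀ a ∈ F, ∀ b ∈ F', a * b * a⁻¹ ∈ F') :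
    F' = F := by
  have hp : p.Prime := Fact.out
  obtain ⟨e, he, he2⟩ := SetLike.exists_of_lt C.lt
  obtain ⟨hFV, hsurj⟩ := C.analysis hF hcard hFN he he2
  have hFc := comm_of hF.1
  have hFc' := comm_of hF'.1
  have ha : ∀ f' ∈ F', ∃ f ∈ F, f⁻¹ * f' ∈ V := by
    intro f' hf'
    obtain ⟨f, hf, hfe⟩ := hsurj ⁅e, f'⁆ (C.comm₂ e he f')
    refine ⟨f, hf, ?_⟩
    have hx2 : f⁻¹ * f' ∈ Subgroup.centralizer (V₂ : Set G) :=
      mul_mem (inv_mem (hFN hf)) (hFN' hf')
    have hconj : f * e * f⁻¹ = f' * e * f'⁻¹ := by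
      calc f * e * f⁻¹ = ⁅e, f⁆⁻¹ * e := by simp only [commutatorElement_def]; group
        _ = ⁅e, f'⁆⁻¹ * e := by rw [hfe]
        _ = f' * e * f'⁻¹ := by simp only [commutatorElement_def]; group
    have hxe : (f⁻¹ * f') * e = e * (f⁻¹ * f') := by
      calc f⁻¹ * f' * e = f⁻¹ * (f' * e * f'⁻¹) * f' := by group
        _ = f⁻¹ * (f * e * f⁻¹) * f' := by rw [hconj]
        _ = e * (f⁻¹ * f') := by group
    have hxV := C.mem_centralizer hx2 he he2 hxe
    apply C.omega _ hxV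
    have hcF : ⁅f', f⁻¹⁆ ∈ F := by
      rw [commutatorElement_def]
      exact F.mul_mem (h1 f⁻¹ (F.inv_mem hf) f' hf') (F.inv_mem (F.inv_mem hf))
    have hcF' : ⁅f', f⁻¹⁆ ∈ F' := by
      rw [commutatorElement_def, mul_assoc, mul_assoc, ← mul_assoc f⁻¹]
      exact F'.mul_mem hf' (h2 f⁻¹ (F.inv_mem hf) f'⁻¹ (F'.inv_mem hf'))
    have hc1 : Commute ⁅f', f⁻¹⁆ f⁻¹ := hFc _ hcF _ (F.inv_mem hf)
    have hc2 : Commute ⁅f', f⁻¹⁆ f' := hFc' _ hcF' _ hf'
    obtain ⟨k, hk⟩ : p ∣ p.choose 2 := by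
      have := dvd_choose_two_of_pow_ne_two hp (n := 1) one_ne_zero (by simpa using hp2)
      simpa using this
    rw [mul_pow_of_commute f⁻¹ f' hc1 hc2 p, hF.2 _ (F.inv_mem hf), hF'.2 _ hf', hk, pow_mul,
      hF.2 _ hcF]
    simp
  have hb : F' ≤ F ⊔ V := by
    intro f' hf'
    obtain ⟨f, hf, hv⟩ := ha f' hf'
    have : f' = f * (f⁻¹ * f') := by group
    rw [this]
    exact Subgroup.mul_mem_sup hf hv
  have hcount : p ^ 3 ≤ Nat.card (F ⊓ F' : Subgroup G) := by
    have := C.nV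
    have r1 : V.relIndex (F ⊔ V) = V.relIndex F := Subgroup.relIndex_sup_right F V
    have r2 : (F ⊓ V).relIndex F = V.relIndex F := Subgroup.inf_relIndex_left F V
    have c1 := card_mul_relIndex' (inf_le_left : F ⊓ V ≤ F)
    have c2 := card_mul_relIndex' (le_sup_right : V ≤ F ⊔ V)
    have c3 := card_mul_relIndex' (le_sup_left : F ≤ F ⊔ V)
    have c5 := card_mul_relIndex' (inf_le_right : F ⊓ F' ≤ F')
    rw [Subgroup.inf_relIndex_right] at c5
    rw [hFV, C.card₂, hcard, ← hFV, r2] at c1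
    have hr : V.relIndex F = p ^ 2 := by
      have : p ^ 2 * V.relIndex F = p ^ 2 * p ^ 2 := by rw [c1]; ring
      exact Nat.eq_of_mul_eq_mul_left (pow_pos hp.pos 2) this
    rw [r1, hr, C.cardV] at c2
    rw [hcard, ← c2] at c3
    have hs : F.relIndex (F ⊔ V) = p := by
      have : p ^ 4 * F.relIndex (F ⊔ V) = p ^ 4 * p := by rw [c3]; ring
      exact Nat.eq_of_mul_eq_mul_left (pow_pos hp.pos 4) this
    have c4 : F.relIndex F' ≤ F.relIndex (F ⊔ V) :=
      Subgroup.relIndex_le_of_le_right hb (by rw [hs]; exact hp.ne_zero)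
    rw [hs] at c4
    rw [hcard'] at c5
    have : p ^ 3 * p ≤ Nat.card (F ⊓ F' : Subgroup G) * p := by
      calc p ^ 3 * p = p ^ 4 := by ring
        _ = Nat.card (F ⊓ F' : Subgroup G) * F.relIndex F' := c5.symm
        _ ≤ Nat.card (F ⊓ F' : Subgroup G) * p := Nat.mul_le_mul_left _ c4
    exact Nat.le_of_mul_le_mul_right this hp.pos
  have hle : F' ≤ F := by
    by_contra hnle
    obtain ⟨f₀', hf₀', hf₀n⟩ := SetLike.not_le_iff_exists.1 hnle
    obtain ⟨f₀, hf₀, hv₀⟩ := ha f₀' hf₀'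
    have hv₀2 : f₀⁻¹ * f₀' ∉ V₂ := by
      intro h
      apply hf₀n
      have h3 : f₀⁻¹ * f₀' ∈ F := by
        have : f₀⁻¹ * f₀' ∈ F ⊓ V := by rw [hFV]; exact h
        exact this.1
      have : f₀' = f₀ * (f₀⁻¹ * f₀') := by group
      rw [this]
      exact F.mul_mem hf₀ h3
    have hD : F ⊓ F' ≤ V₂ := by
      intro d hd
      have hd1 : d * (f₀⁻¹ * f₀') = (f₀⁻¹ * f₀') * d := by
        have e1 : d * f₀⁻¹ = f₀⁻¹ * d := hFc d hd.1 _ (F.inv_mem hf₀)
        have e2 : d * f₀' = f₀' * d := hFc' d hd.2 _ hf₀'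
        calc d * (f₀⁻¹ * f₀') = (d * f₀⁻¹) * f₀' := by group
          _ = f₀⁻¹ * (d * f₀') := by rw [e1]; group
          _ = (f₀⁻¹ * f₀') * d := by rw [e2]; group
      have hdV := C.mem_centralizer (hFN hd.1) hv₀ hv₀2 hd1
      have : d ∈ F ⊓ V := ⟨hd.1, C.omega d hdV (hF.2 d hd.1)⟩
      rwa [hFV] at this
    have := Subgroup.card_le_of_le hD
    rw [C.card₂] at this
    have h3 : p ^ 2 < p ^ 3 := Nat.pow_lt_pow_right hp.one_lt (by norm_num)
    omega
  exact Subgroup.eq_of_le_of_card_ge hle (by rw [hcard, hcard'])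

end ctx

theorem elemAb_map {G H : Type*} [Group G] [Group H] {p : ℕ} {A : Subgroup G}
    (hA : IsElementaryAbelian p A) (f : G →* H) : IsElementaryAbelian p (A.map f) := by
  refine ⟨isMulCommutative_of ?_, ?_⟩
  · rintro _ ⟨a, ha, rfl⟩ _ ⟨b, hb, rfl⟩
    rw [← map_mul, ← map_mul, comm_of hA.1 a ha b hb]
  · rintro _ ⟨a, ha, rfl⟩
    rw [← map_pow, hA.2 a ha, map_one]

theorem elemAb_of_le {G : Type*} [Group G] {p : ℕ} {A B : Subgroup G}
    (hA : IsElementaryAbelian p A) (h : B ≤ A) : IsElementaryAbelian p B :=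
  ⟨isMulCommutative_of (fun a ha b hb => comm_of hA.1 a (h ha) b (h hb)), fun a ha => hA.2 a (h ha)⟩

/-- in a `p`-group, a subgroup `F` meets the centralizer of a normal `V₂` (with `[V₂, G] ≤ V₁` central,
`|V₂| = p |V₁|`, `|V₁| = p`) in a subgroup of index at most `p`. -/
theorem card_le_mul_card_inf_centralizer {G : Type*} [Group G] [Finite G] {p : ℕ} (hp : p.Prime)
    {V₁ V₂ : Subgroup G} (hlt : V₁ < V₂) (hcard : Nat.card V₂ = p * Nat.card V₁)
    (hV₁ : Nat.card V₁ = p) (hcomm : ∀ v ∈ V₂, ∀ g : G, ⁅v, g⁆ ∈ V₁)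
    (hcen : ∀ z ∈ V₁, ∀ g : G, g * z = z * g) (F : Subgroup G) :
    Nat.card F ≤ Nat.card (F ⊓ Subgroup.centralizer (V₂ : Set G) : Subgroup G) * p := by
  obtain ⟨u, hu, hu1⟩ := SetLike.exists_of_lt hlt
  let ψ : F →* V₁ :=
    { toFun := fun f => ⟨⁅u, (f : G)⁆, hcomm u hu f⟩
      map_one' := by ext; simp
      map_mul' := by
        intro f g
        ext
        have h1 : (f : G) * ⁅u, (g : G)⁆ = ⁅u, (g : G)⁆ * (f : G) := hcen _ (hcomm u hu g) f
        show ⁅u, (f : G) * g⁆ = ⁅u, (f : G)⁆ * ⁅u, (g : G)⁆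
        calc ⁅u, (f : G) * g⁆ = ⁅u, (f : G)⁆ * ((f : G) * ⁅u, (g : G)⁆) * (f : G)⁻¹ := by
              simp only [commutatorElement_def]; group
          _ = _ := by rw [h1]; group }
  have hker : (ψ.ker).map F.subtype ≤ F ⊓ Subgroup.centralizer (V₂ : Set G) := by
    rintro _ ⟨f, hf, rfl⟩
    have h1 : ⁅u, (f : G)⁆ = 1 := congrArg Subtype.val (MonoidHom.mem_ker.1 hf)
    have h2 : u * (f : G) = f * u := commutatorElement_eq_one_iff_mul_comm.1 h1
    refine ⟨f.2, ?_⟩
    have h3 : V₁ < V₂ ⊓ Subgroup.centralizer ({(f : G)} : Set G) := by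
      refine lt_of_le_of_ne ?_ ?_
      · intro w hw
        exact ⟨hlt.le hw, Subgroup.mem_centralizer_singleton_iff.2 (hcen w hw f).symm⟩
      · intro h
        apply hu1
        rw [h]
        exact ⟨hu, Subgroup.mem_centralizer_singleton_iff.2 h2⟩
    have h4 := eq_of_lt_of_card hp h3 inf_le_left hcard
    refine Subgroup.mem_centralizer_iff.2 ?_
    intro w hw
    have : w ∈ V₂ ⊓ Subgroup.centralizer ({(f : G)} : Set G) := by rw [h4]; exact hw
    exact Subgroup.mem_centralizer_singleton_iff.1 this.2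
  have hk : Nat.card ψ.ker * Nat.card ψ.range = Nat.card F := by
    rw [← Subgroup.index_ker]; exact Subgroup.card_mul_index _
  have hk1 : Nat.card ψ.ker ≤ Nat.card (F ⊓ Subgroup.centralizer (V₂ : Set G) : Subgroup G) := by
    have := Subgroup.card_le_of_le hker
    rwa [Subgroup.card_map_of_injective F.subtype_injective] at this
  have hr : Nat.card ψ.range ≤ p := by
    rw [← hV₁]; exact Subgroup.card_le_card_group _
  rw [← hk]
  exact Nat.mul_le_mul hk1 hr

theorem aux {p : ℕ} [Fact p.Prime] (hp2 : p ≠ 2) :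
    ∀ (n : ℕ) (G : Type u) [Group G] [Finite G], Nat.card G = n → IsPGroup p G →
    (∃ F : Subgroup G, IsElementaryAbelian p F ∧ p ^ 4 ≤ Nat.card F) →
    ∃ A : Subgroup G, A.Normal ∧ IsElementaryAbelian p A ∧ Nat.card A = p ^ 4 := by
  have hp : p.Prime := Fact.out
  intro n
  induction n using Nat.strong_induction_on with
  | _ n ih =>
  intro G _ _ hn hG ⟨F, hF, hFcard⟩
  by_contra hno
  obtain ⟨V, hVn, hVc, hVp, hVcard⟩ : ∃ A : Subgroup G, A.Normal ∧ IsMulCommutative A ∧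
      (∀ a ∈ A, a ^ p = 1) ∧ Nat.card A = p ^ 3 := by
    by_contra h
    have := Cfsg.Agent.S0100.result hp2 hG (fun A h1 h2 h3 h4 => h ⟨A, h1, h2, h3, h4⟩) F hF.1 hF.2
    have h4 : p ^ 2 < p ^ 4 := Nat.pow_lt_pow_right hp.one_lt (by norm_num)
    omega
  have hmax : ∀ B : Subgroup G, B.Normal → IsMulCommutative B → (∀ b ∈ B, b ^ p ^ 1 = 1) →
      V ≤ B → B = V := by
    intro B hBn hBc hBp hVB
    by_contra hne
    have hlt : V < B := lt_of_le_of_ne hVB (Ne.symm hne)
    have h1 := card_lt_of_lt hlt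
    rw [hVcard] at h1
    have h2 := pow_le_card_of_lt hG B h1
    obtain ⟨L, hLB, hLn, hLcard⟩ := exists_normal_le_of_card hG 4 _ B hBn rfl h2
    exact hno ⟨L, hLn, elemAb_of_le ⟨hBc, fun b hb => by simpa using hBp b hb⟩ hLB, hLcard⟩
  have homega : ∀ x ∈ Subgroup.centralizer (V : Set G), x ^ p = 1 → x ∈ V := by
    intro x hx hxp
    exact Cfsg.Agent.S0130.result hG 1 (by simpa using hp2) V hVc (by simpa using hVp) hmax x hx
      (by simpa using hxp)
  have hne_bot : ∀ (K : Subgroup G) (k : ℕ), Nat.card K = p ^ (k + 1) → K ≠ ⊥ := by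
    rintro K k hK rfl
    rw [Subgroup.card_bot] at hK
    have : 1 < p ^ (k + 1) := Nat.one_lt_pow (by omega) hp.one_lt
    omega
  obtain ⟨V₂, hV₂lt, hV₂n, hV₂card, hV₂comm⟩ := exists_normal_index_p hG V (hne_bot V 2 hVcard)
  have hV₂c : Nat.card V₂ = p ^ 2 := by
    have : p * p ^ 2 = p * Nat.card V₂ := by rw [← hV₂card, hVcard]; ring
    exact (Nat.eq_of_mul_eq_mul_left hp.pos this).symm
  have C : Ctx p V V₂ :=
    { nV := hVn, nV₂ := hV₂n, comm := comm_of hVc, lt := hV₂lt, card := hV₂card, card₂ := hV₂c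
      comm₂ := fun v hv g => hV₂comm (Subgroup.commutator_mem_commutator hv (Subgroup.mem_top g))
      omega := homega }
  obtain ⟨V₁, hV₁lt, hV₁n, hV₁card, hV₁comm⟩ := exists_normal_index_p hG V₂ (hne_bot V₂ 1 hV₂c)
  have hV₁c : Nat.card V₁ = p := by
    have : p * p = p * Nat.card V₁ := by rw [← hV₁card, hV₂c]; ring
    exact (Nat.eq_of_mul_eq_mul_left hp.pos this).symm
  obtain ⟨V₀, hV₀lt, hV₀n, hV₀card, hV₀comm⟩ :=
    exists_normal_index_p hG V₁ (hne_bot V₁ 0 (by simpa using hV₁c))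
  have hV₀ : V₀ = ⊥ := by
    have : p * 1 = p * Nat.card V₀ := by rw [← hV₀card, hV₁c]; ring
    exact Subgroup.card_eq_one.1 (Nat.eq_of_mul_eq_mul_left hp.pos this).symm
  have hcen : ∀ z ∈ V₁, ∀ g : G, g * z = z * g := by
    intro z hz g
    have h1 : ⁅z, g⁆ ∈ V₀ := hV₀comm (Subgroup.commutator_mem_commutator hz (Subgroup.mem_top g))
    rw [hV₀, Subgroup.mem_bot] at h1
    exact (commutatorElement_eq_one_iff_mul_comm.1 h1).symm
  have hidx := card_le_mul_card_inf_centralizer hp hV₁lt hV₁card hV₁c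
    (fun v hv g => hV₁comm (Subgroup.commutator_mem_commutator hv (Subgroup.mem_top g))) hcen F
  set N : Subgroup G := Subgroup.centralizer (V₂ : Set G) with hN
  have hNn : N.Normal := Subgroup.normal_centralizer
  have hV₂e : IsElementaryAbelian p V₂ := elemAb_of_le ⟨hVc, hVp⟩ hV₂lt.le
  -- an elementary abelian subgroup of order at least `p ^ 4` inside `N`
  have hF' : IsElementaryAbelian p ((F ⊓ N) ⊔ V₂) := by
    refine elemAb_sup (elemAb_of_le hF inf_le_left) hV₂e ?_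
    intro a ha b hb
    exact (Subgroup.mem_centralizer_iff.1 ha.2 b hb).symm
  have hF'N : (F ⊓ N) ⊔ V₂ ≤ N := by
    refine sup_le inf_le_right ?_
    intro v hv
    refine Subgroup.mem_centralizer_iff.2 ?_
    intro w hw
    exact comm_of hV₂e.1 w hw v hv
  have hF'card : p ^ 4 ≤ Nat.card ((F ⊓ N) ⊔ V₂ : Subgroup G) := by
    by_cases hFN : F ≤ N
    · refine hFcard.trans (Subgroup.card_le_of_le ?_)
      exact (le_inf le_rfl hFN).trans le_sup_left
    · have h1 : p ^ 3 ≤ Nat.card (F ⊓ N : Subgroup G) := by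
        have : p ^ 3 * p ≤ Nat.card (F ⊓ N : Subgroup G) * p := by
          calc p ^ 3 * p = p ^ 4 := by ring
            _ ≤ _ := hFcard.trans hidx
        exact Nat.le_of_mul_le_mul_right this hp.pos
      have h2 : F ⊓ N < (F ⊓ N) ⊔ V₂ := by
        refine lt_of_le_of_ne le_sup_left ?_
        intro h
        apply hFN
        have hV₂F : V₂ ≤ F := by
          have : V₂ ≤ F ⊓ N := by rw [h]; exact le_sup_right
          exact this.trans inf_le_left
        intro f hf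
        refine Subgroup.mem_centralizer_iff.2 ?_
        intro w hw
        exact comm_of hF.1 w (hV₂F hw) f hf
      have h3 := card_lt_of_lt h2
      exact pow_le_card_of_lt hG _ (lt_of_le_of_lt h1 h3)
  -- a proper normal subgroup `M ≤ N` containing it
  obtain ⟨M, hMn, hMtop, hMN, hF'M⟩ : ∃ M : Subgroup G, M.Normal ∧ M ≠ ⊤ ∧ M ≤ N ∧
      (F ⊓ N) ⊔ V₂ ≤ M := by
    by_cases hNtop : N = ⊤
    · by_cases hF'top : (F ⊓ N) ⊔ V₂ = ⊤
      · exfalso
        obtain ⟨L, hLB, hLn, hLcard⟩ := exists_normal_le_of_card hG 4 _ ((F ⊓ N) ⊔ V₂)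
          (by rw [hF'top]; infer_instance) rfl hF'card
        exact hno ⟨L, hLn, elemAb_of_le hF' hLB, hLcard⟩
      · obtain ⟨M, h1, h2, h3, -⟩ := exists_maximal_normal p (hG.to_subgroup ⊤)
          (lt_top_iff_ne_top.2 hF'top)
        refine ⟨M, ?_, h2.ne, by rw [hNtop]; exact le_top, h1⟩
        exact Subgroup.normalizer_eq_top_iff.1 (top_le_iff.1 h3)
    · exact ⟨N, hNn, hNtop, le_rfl, hF'N⟩
  have hMlt : Nat.card M < n := by
    rw [← hn, ← Subgroup.card_top (G := G)]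
    exact card_lt_of_lt (lt_top_iff_ne_top.2 hMtop)
  obtain ⟨A, hAn, hAe, hAcard⟩ := ih (Nat.card M) hMlt ↥M rfl (hG.to_subgroup M)
    ⟨((F ⊓ N) ⊔ V₂).subgroupOf M,
      ⟨isMulCommutative_of (fun a ha b hb => Subtype.ext (comm_of hF'.1 a ha b hb)),
        fun a ha => Subtype.ext (hF'.2 a ha)⟩,
      by rw [Nat.card_congr (Subgroup.subgroupOfEquivOfLe hF'M).toEquiv]; exact hF'card⟩
  set F₁ : Subgroup G := A.map M.subtype with hF₁
  have hF₁e : IsElementaryAbelian p F₁ := elemAb_map hAe _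
  have hF₁card : Nat.card F₁ = p ^ 4 := by
    rw [hF₁, Subgroup.card_map_of_injective M.subtype_injective, hAcard]
  have hF₁M : F₁ ≤ M := Subgroup.map_subtype_le A
  have hnorm : ∀ m ∈ M, ∀ x ∈ F₁, m * x * m⁻¹ ∈ F₁ := by
    rintro m hm _ ⟨a, ha, rfl⟩
    exact ⟨⟨m, hm⟩ * a * ⟨m, hm⟩⁻¹, hAn.conj_mem a ha ⟨m, hm⟩, rfl⟩
  have hconj : ∀ g : G, F₁.map (MulAut.conj g).toMonoidHom = F₁ := by
    intro g
    have hgM : F₁.map (MulAut.conj g).toMonoidHom ≤ M := by
      rintro _ ⟨x, hx, rfl⟩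
      exact hMn.conj_mem x (hF₁M hx) g
    refine C.unique hp2 hF₁e (elemAb_map hF₁e _) hF₁card ?_ (hF₁M.trans hMN) (hgM.trans hMN) ?_ ?_
    · rw [Subgroup.card_map_of_injective (MulAut.conj g).injective, hF₁card]
    · intro a ha b hb
      exact hnorm b (hgM hb) a ha
    · rintro a ha _ ⟨x, hx, rfl⟩
      refine ⟨(g⁻¹ * a * g) * x * (g⁻¹ * a * g)⁻¹, hnorm _ ?_ x hx, ?_⟩
      · have := hMn.conj_mem a (hF₁M ha) g⁻¹
        simpa using this
      · simp only [MulEquiv.coe_toMonoidHom, MulAut.conj_apply]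
        group
  apply hno
  refine ⟨F₁, ⟨?_⟩, hF₁e, hF₁card⟩
  intro x hx g
  have : g * x * g⁻¹ ∈ F₁.map (MulAut.conj g).toMonoidHom := ⟨x, hx, rfl⟩
  rwa [hconj g] at this

/-- For odd p, a p-group containing an elementary abelian subgroup of order p^4 has a normal elementary abelian subgroup of order p^4. -/
theorem result {G : Type*} [Group G] [Finite G] {p : ℕ} [Fact p.Prime] (hp : p ≠ 2) (hG : IsPGroup p G) (E : Subgroup G) (hE : Cfsg.IsElementaryAbelian p E) (hE4 : Nat.card E = p ^ 4) : ∃ A : Subgroup G, A.Normal ∧ Cfsg.IsElementaryAbelian p A ∧ Nat.card A = p ^ 4 := by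
  exact aux hp _ G rfl hG ⟨E, hE, hE4.ge⟩

end Cfsg.Agent.S0122
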