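import Cfsg.Statements.S0125
import Cfsg.Agent.Lib.Helper11.SylowNormal

set_option autoImplicit false
open Cfsg

namespace Cfsg.Agent.S0125

theorem relIndex_dvd_index_of_le_normalizer {G : Type*} [Group G] [Finite G] (H F : Subgroup G)
    (h : H ≤ Subgroup.normalizer (F : Set G)) : H.relIndex F ∣ H.index := by
  have hF : F ≤ Subgroup.normalizer (F : Set G) := Subgroup.le_normalizer
  have : (F.subgroupOf (Subgroup.normalizer (F : Set G))).Normal := Subgroup.normal_in_normalizer
  have h1 := Cfsg.Agent.Lib.Helper11.relIndex_dvd_index_of_normal_right'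
    (H.subgroupOf (Subgroup.normalizer (F : Set G))) (F.subgroupOf (Subgroup.normalizer (F : Set G)))
  rw [Subgroup.relIndex_subgroupOf hF] at h1
  exact h1.trans (Subgroup.relIndex_dvd_index_of_le h)


/-- The centralizer of a self-centralizing normal subgroup A of a Sylow p-subgroup is the direct product of A with a normal p'-subgroup. -/
theorem result {G : Type*} [Group G] [Finite G] {p : ℕ} [Fact p.Prime] (R : Sylow p G) (A : Subgroup G) (hAR : A ≤ (R : Subgroup G)) (hAn : (R : Subgroup G) ≤ Subgroup.normalizer (A : Set G)) (hC : (R : Subgroup G) ⊓ Subgroup.centralizer (A : Set G) = A) : ∃ H : Subgroup G, H ≤ Subgroup.centralizer (A : Set G) ∧ Nat.Coprime (Nat.card H) p ∧ Subgroup.centralizer (A : Set G) ≤ Subgroup.normalizer (H : Set G) ∧ H ⊓ A = ⊥ ∧ H ⊔ A = Subgroup.centralizer (A : Set G) := by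
  classical
  set C := Subgroup.centralizer (A : Set G) with hCdef
  have hp : p.Prime := Fact.out
  have hAC : A ≤ C := by rw [← hC]; exact inf_le_right
  have hRC : (R : Subgroup G) ≤ Subgroup.normalizer (C : Set G) := by
    intro g hg
    have hgA := hAn hg
    rw [Subgroup.mem_normalizer_iff] at hgA ⊢
    have key : ∀ g : G, (∀ h, h ∈ A ↔ g * h * g⁻¹ ∈ A) → ∀ c ∈ C, g * c * g⁻¹ ∈ C := by
      intro g hgA c hc
      rw [hCdef, Subgroup.mem_centralizer_iff] at hc ⊢
      intro a ha
      have ha' : g⁻¹ * a * g ∈ A := by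
        rw [hgA]; simpa [mul_assoc] using ha
      have := hc _ ha'
      calc a * (g * c * g⁻¹) = g * ((g⁻¹ * a * g) * c) * g⁻¹ := by group
        _ = g * (c * (g⁻¹ * a * g)) * g⁻¹ := by rw [this]
        _ = g * c * g⁻¹ * a := by group
    intro c
    constructor
    · exact key g hgA c
    · intro hc
      have hgA' : ∀ h, h ∈ A ↔ g⁻¹ * h * g⁻¹⁻¹ ∈ A := by
        intro h
        rw [hgA (g⁻¹ * h * g⁻¹⁻¹)]
        simp [mul_assoc]
      have := key g⁻¹ hgA' _ hc
      simpa [mul_assoc] using this
  have hidx : ¬ p ∣ (A.subgroupOf C).index := by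
    intro h
    have h1 : (A.subgroupOf C).index = (R : Subgroup G).relIndex C := by
      rw [← Subgroup.inf_relIndex_right, hC]; rfl
    rw [h1] at h
    exact R.not_dvd_index (h.trans (relIndex_dvd_index_of_le_normalizer _ C hRC))
  have hcen : A.subgroupOf C ≤ Subgroup.center C := by
    intro x hx
    rw [Subgroup.mem_center_iff]
    intro y
    have hy : (y : G) ∈ Subgroup.centralizer (A : Set G) := y.2
    rw [Subgroup.mem_centralizer_iff] at hy
    have := hy x.1 (Subgroup.mem_subgroupOf.1 hx)
    exact Subtype.ext this.symm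
  have hnorm : (A.subgroupOf C).Normal := by
    constructor
    intro n hn g
    have := Subgroup.mem_center_iff.1 (hcen hn) g
    rw [this]; simpa using hn
  have hApg : IsPGroup p (A.subgroupOf C) :=
    (R.2.to_le hAR).comap_of_injective _ C.subtype_injective
  obtain ⟨k, hk⟩ := IsPGroup.iff_card.1 hApg
  have hcop : Nat.Coprime (Nat.card (A.subgroupOf C)) (A.subgroupOf C).index := by
    rw [hk]
    exact Nat.Coprime.pow_left _ ((Nat.Prime.coprime_iff_not_dvd hp).2 hidx)
  obtain ⟨H', hH'⟩ := Subgroup.exists_right_complement'_of_coprime hcop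
  have hAmap : (A.subgroupOf C).map C.subtype = A := by
    rw [Subgroup.subgroupOf_map_subtype]; exact inf_eq_left.2 hAC
  refine ⟨H'.map C.subtype, Subgroup.map_subtype_le _, ?_, ?_, ?_, ?_⟩
  · rw [Subgroup.card_map_of_injective C.subtype_injective, ← hH'.symm.index_eq_card]
    exact ((Nat.Prime.coprime_iff_not_dvd hp).2 hidx).symm
  · have hn : Subgroup.normalizer (H' : Set C) = ⊤ := by
      rw [eq_top_iff, ← hH'.sup_eq_top]
      refine sup_le ?_ Subgroup.le_normalizer
      intro x hx
      have hx' := Subgroup.mem_center_iff.1 (hcen hx)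
      rw [Subgroup.mem_normalizer_iff]
      intro h
      rw [← hx' h]; simp
    have := Subgroup.le_normalizer_map (H := H') C.subtype
    rw [hn, ← MonoidHom.range_eq_map, Subgroup.range_subtype] at this
    exact this
  · rw [← hAmap, ← Subgroup.map_inf _ _ _ C.subtype_injective, inf_comm, hH'.disjoint.eq_bot,
      Subgroup.map_bot]
  · rw [← hAmap, ← Subgroup.map_sup, sup_comm, hH'.sup_eq_top, ← MonoidHom.range_eq_map,
      Subgroup.range_subtype]

end Cfsg.Agent.S0125
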