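import Cfsg.Statements.S0127
import Cfsg.Agent.Lib.Helper29.Metacyclic

set_option autoImplicit false
open Cfsg

namespace Cfsg.Agent.S0127

/-- For odd p, in a non-cyclic p-group with a cyclic subgroup of index p, the elements of order dividing p generate an elementary abelian subgroup of order p^2. -/
theorem result {R : Type*} [Group R] [Finite R] {p : ℕ} [Fact p.Prime] (hp : p ≠ 2) (hR : IsPGroup p R) (hnc : ¬ IsCyclic R) (C : Subgroup R) (hC : IsCyclic C) (hCi : C.index = p) : Cfsg.IsElementaryAbelian p (Subgroup.closure {x : R | x ^ p = 1}) ∧ Nat.card (Subgroup.closure {x : R | x ^ p = 1}) = p ^ 2 := by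
  have hpp : p.Prime := Fact.out
  have hCn : C.Normal := by
    apply Subgroup.normal_of_index_eq_minFac_card
    obtain ⟨k, hk⟩ := IsPGroup.iff_card.1 hR
    have hk0 : k ≠ 0 := by
      rintro rfl
      rw [pow_zero, Nat.card_eq_one_iff_unique] at hk
      have := hk.1
      exact hnc inferInstance
    rw [hk, hpp.pow_minFac hk0, hCi]
  have hQ : IsCyclic (R ⧸ C) := by
    apply isCyclic_of_prime_card (p := p)
    rw [← Subgroup.index_eq_card, hCi]
  obtain ⟨A, h1, h2, h3, h4⟩ := Cfsg.Agent.Lib.Helper29.exists_omega_of_metacyclic hp hR C hC hQ hnc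
  have hA : Subgroup.closure {x : R | x ^ p = 1} = A := by
    apply le_antisymm
    · rw [Subgroup.closure_le]
      intro x hx
      exact h4 x hx
    · intro a ha
      exact Subgroup.subset_closure (h2 a ha)
  rw [hA]
  exact ⟨⟨h1, h2⟩, h3⟩

end Cfsg.Agent.S0127
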