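import Cfsg.Statements.S0131
import Cfsg.Agent.Lib.Lead.FrobeniusComplement

set_option autoImplicit false
open Cfsg
open scoped commutatorElement

namespace Cfsg.Agent.S0131

/-- P/P' has a normal complement in G exactly when the focal subgroup G' ∩ P is as small as possible, namely P'. -/
theorem result {G : Type*} [Group G] [Finite G] {p : ℕ} [Fact p.Prime] (P : Sylow p G) : (∃ N : Subgroup G, N.Normal ∧ N ⊓ (P : Subgroup G) = ⁅(P : Subgroup G), (P : Subgroup G)⁆ ∧ N ⊔ (P : Subgroup G) = ⊤) ↔ commutator G ⊓ (P : Subgroup G) = ⁅(P : Subgroup G), (P : Subgroup G)⁆ := by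
  classical
  have hp : p.Prime := Fact.out
  have hPG : ⁅(P : Subgroup G), (P : Subgroup G)⁆ ≤ commutator G ⊓ (P : Subgroup G) := by
    refine le_inf ?_ ?_
    · rw [commutator_def]; exact Subgroup.commutator_mono le_top le_top
    · exact Subgroup.commutator_le_self _
  constructor
  · rintro ⟨N, hN, hNP, hsup⟩
    refine le_antisymm ?_ hPG
    have hGN : commutator G ≤ N := by
      rw [commutator_def, Subgroup.commutator_le]
      intro g _ h _
      have hg : g ∈ N ⊔ (P : Subgroup G) := by rw [hsup]; trivial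
      have hh : h ∈ N ⊔ (P : Subgroup G) := by rw [hsup]; trivial
      rw [← SetLike.mem_coe, Subgroup.normal_mul] at hg hh
      obtain ⟨n1, hn1, x1, hx1, rfl⟩ := hg
      obtain ⟨n2, hn2, x2, hx2, rfl⟩ := hh
      rw [← QuotientGroup.eq_one_iff, ← QuotientGroup.mk'_apply, map_commutatorElement]
      have e1 : QuotientGroup.mk' N (n1 * x1) = QuotientGroup.mk' N x1 := by
        rw [map_mul, QuotientGroup.mk'_apply, (QuotientGroup.eq_one_iff n1).2 hn1, one_mul]
      have e2 : QuotientGroup.mk' N (n2 * x2) = QuotientGroup.mk' N x2 := by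
        rw [map_mul, QuotientGroup.mk'_apply, (QuotientGroup.eq_one_iff n2).2 hn2, one_mul]
      rw [e1, e2, ← map_commutatorElement, QuotientGroup.mk'_apply, QuotientGroup.eq_one_iff]
      have : ⁅x1, x2⁆ ∈ N ⊓ (P : Subgroup G) := by
        rw [hNP]; exact Subgroup.commutator_mem_commutator hx1 hx2
      exact this.1
    rw [← hNP]
    exact inf_le_inf_right _ hGN
  · intro hfoc
    obtain ⟨a, m, hm, hcard⟩ := Nat.exists_eq_pow_mul_and_not_dvd
      (n := Nat.card (Abelianization G)) Nat.card_pos.ne' p hp.ne_one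
    let f : G →* Abelianization G := (powMonoidHom m).comp Abelianization.of
    have hmem : ∀ g : G, g ∈ f.ker ↔ g ^ m ∈ commutator G := by
      intro g
      rw [MonoidHom.mem_ker, ← Abelianization.ker_of, MonoidHom.mem_ker, map_pow]
      rfl
    refine ⟨f.ker, inferInstance, ?_, ?_⟩
    · apply le_antisymm
      · rintro x ⟨hxN, hxP⟩
        rw [← hfoc]
        refine ⟨?_, hxP⟩
        have hxN' := (hmem x).1 hxN
        obtain ⟨k, hk⟩ := (IsPGroup.iff_orderOf.1 P.2) ⟨x, hxP⟩
        have hk' : orderOf x = p ^ k := by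
          rw [← hk]; exact (Subgroup.orderOf_mk x hxP).symm
        have hcop : m.Coprime (orderOf x) := by
          rw [hk']
          exact (Nat.Coprime.pow_left _ ((Nat.Prime.coprime_iff_not_dvd hp).2 hm)).symm
        obtain ⟨j, hj⟩ := exists_pow_eq_self_of_coprime hcop
        rw [← hj]
        exact Subgroup.pow_mem _ hxN' _
      · intro x hx
        have hx' := hPG hx
        exact ⟨(hmem x).2 (Subgroup.pow_mem _ hx'.1 _), hx'.2⟩
    · rw [sup_comm]
      apply Cfsg.Agent.Lib.Lead.sylow_sup_eq_top_of_isPGroup_quotient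
      intro q
      obtain ⟨g, rfl⟩ := QuotientGroup.mk_surjective q
      refine ⟨a, ?_⟩
      rw [← QuotientGroup.mk_pow, QuotientGroup.eq_one_iff, hmem, ← pow_mul, ← hcard,
        ← Abelianization.ker_of, MonoidHom.mem_ker, map_pow]
      exact pow_card_eq_one'

end Cfsg.Agent.S0131
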