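import Cfsg.Statements.S0132
import Cfsg.Agent.S0071
import Cfsg.Agent.S0008
import Cfsg.Agent.S0027
import Cfsg.Agent.Lib.Lead.Residual
import Cfsg.Agent.Lib.Helper24.PGroup
import Cfsg.Agent.Lib.Helper29.FStar

set_option autoImplicit false
open Cfsg Cfsg.Agent.Lib.Helper29 Cfsg.Agent.Lib.Lead

namespace Cfsg.Agent.S0132

theorem eq_one_of_mem_pGroup_of_coprime {G : Type*} [Group G] {p : ℕ} {Q : Subgroup G}
    (hQ : IsPGroup p Q) {c : G} (hc : c ∈ Q) (hcop : (orderOf c).Coprime p) : c = 1 := by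
  obtain ⟨k, hk⟩ := hQ ⟨c, hc⟩
  have hk' : c ^ p ^ k = 1 := by
    have := congrArg Subtype.val hk
    simpa using this
  have h1 : orderOf c ∣ p ^ k := orderOf_dvd_of_pow_eq_one hk'
  have h2 : orderOf c = 1 := Nat.Coprime.eq_one_of_dvd (hcop.pow_right k) h1
  exact orderOf_eq_one_iff.mp h2

/-- A minimal non-p-nilpotent finite group is a minimal non-nilpotent group with a normal Sylow p-subgroup. -/
theorem result {G : Type*} [Group G] [Finite G] {p : ℕ} [Fact p.Prime] (h1 : ¬ Cfsg.HasNormalPComplement p G) (h2 : ∀ H : Subgroup G, H ≠ ⊤ → Cfsg.HasNormalPComplement p H) : (∀ H : Subgroup G, H ≠ ⊤ → Group.IsNilpotent H) ∧ ¬ Group.IsNilpotent G ∧ ∀ P : Sylow p G, (P : Subgroup G).Normal := by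
  classical
  have hp : p.Prime := Fact.out
  obtain ⟨P⟩ : Nonempty (Sylow p G) := inferInstance
  have hF := Cfsg.Agent.S0071.result P
  have hno : ¬ ∃ N : Subgroup G, N.Normal ∧ N.IsComplement' (P : Subgroup G) :=
    fun ⟨N, hN, hc⟩ => h1 ⟨P, N, hN, hc⟩
  rw [hF] at hno
  push Not at hno
  obtain ⟨Q, hQP, g, hgN, hgcop, hgC⟩ := hno
  have hQp : IsPGroup p Q := P.isPGroup'.to_le hQP
  set Z := Subgroup.zpowers g with hZ
  have hZN : Z ≤ Subgroup.normalizer (Q : Set G) := by
    rw [hZ, Subgroup.zpowers_le]; exact hgN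
  have hgQ : ∀ q ∈ Q, g * q * g⁻¹ ∈ Q := fun q hq => (Subgroup.le_normalizer_iff.mp hZN) g
    (Subgroup.mem_zpowers g) q hq
  -- Step 2: Q ⊔ Z = ⊤
  have htop : Q ⊔ Z = ⊤ := by
    by_contra hne
    obtain ⟨N, hNn, hNcop, k, hNk⟩ := hasNormalPComplement_iff.mp (h2 _ hne)
    have hgH : g ∈ Q ⊔ Z := (le_sup_right : Z ≤ Q ⊔ Z) (Subgroup.mem_zpowers g)
    have hg'N : (⟨g, hgH⟩ : (Q ⊔ Z : Subgroup G)) ∈ N :=
      (mem_iff_coprime_orderOf_of_normal_complement hNcop hNk _).mpr
        (by rw [Subgroup.orderOf_mk]; exact hgcop)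
    apply hgC
    rw [Subgroup.mem_centralizer_iff]
    intro q hq
    have hqH : q ∈ Q ⊔ Z := (le_sup_left : Q ≤ Q ⊔ Z) hq
    have hc1 : ((⟨q, hqH⟩ : (Q ⊔ Z : Subgroup G)) * ⟨g, hgH⟩ * ⟨q, hqH⟩⁻¹ * ⟨g, hgH⟩⁻¹) ∈ N :=
      N.mul_mem (hNn.conj_mem _ hg'N _) (N.inv_mem hg'N)
    have hc2 : q * g * q⁻¹ * g⁻¹ ∈ Q := by
      have := Q.mul_mem hq (hgQ _ (Q.inv_mem hq))
      simpa [mul_assoc] using this
    have hc3 := (mem_iff_coprime_orderOf_of_normal_complement hNcop hNk _).mp hc1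
    rw [← Subgroup.orderOf_coe] at hc3
    have hc4 : q * g * q⁻¹ * g⁻¹ = 1 := eq_one_of_mem_pGroup_of_coprime hQp hc2 hc3
    calc q * g = (q * g * q⁻¹ * g⁻¹) * (g * q) := by group
      _ = g * q := by rw [hc4, one_mul]
  -- Step 3: Q is normal
  have hQn : Q.Normal := by
    rw [← Subgroup.normalizer_eq_top_iff, eq_top_iff, ← htop]
    exact sup_le Subgroup.le_normalizer hZN
  -- Step 4: the index of Q is prime to p
  have hQidx : (Q.index).Coprime p := by
    have h3 : Q.index = Q.relIndex Z := by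
      rw [← Subgroup.relIndex_top_right, ← htop, Subgroup.relIndex_sup_left]
    have h4 : Q.relIndex Z ∣ Nat.card Z := Subgroup.relIndex_dvd_card Q Z
    rw [hZ, Nat.card_zpowers] at h4
    rw [h3]
    exact Nat.Coprime.of_dvd_left h4 hgcop
  have hcomm : commutator G ≤ Q :=
    Subgroup.Normal.commutator_le_of_self_sup_commutative_eq_top htop inferInstance
  refine ⟨?_, ?_, ?_⟩
  · -- proper subgroups are nilpotent
    intro H hH
    obtain ⟨N, hNn, hNcop, k, hNk⟩ := hasNormalPComplement_iff.mp (h2 _ hH)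
    have hQHn : (Q.subgroupOf H).Normal := inferInstance
    have hQHp : IsPGroup p (Q.subgroupOf H) := hQp.comap_subtype
    have hQHnil : Group.IsNilpotent (Q.subgroupOf H) := hQHp.isNilpotent
    have hNcomm : IsMulCommutative N := by
      refine ⟨⟨fun a b => ?_⟩⟩
      have h5 : ((a : H) : G) * b * ((a : H) : G)⁻¹ * ((b : H) : G)⁻¹ ∈ Q :=
        hcomm (Subgroup.commutator_mem_commutator (Subgroup.mem_top _) (Subgroup.mem_top _))
      have h6 : (a * b * a⁻¹ * b⁻¹ : N) ∈ (⊤ : Subgroup N) := Subgroup.mem_top _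
      have h7 : (orderOf (a * b * a⁻¹ * b⁻¹ : N)).Coprime p :=
        Nat.Coprime.of_dvd_left (orderOf_dvd_natCard _) hNcop
      rw [← Subgroup.orderOf_coe, ← Subgroup.orderOf_coe] at h7
      have h8 : ((a : H) : G) * b * ((a : H) : G)⁻¹ * ((b : H) : G)⁻¹ = 1 :=
        eq_one_of_mem_pGroup_of_coprime hQp h5 h7
      apply Subtype.ext
      apply Subtype.ext
      change ((a : H) : G) * b = ((b : H) : G) * a
      calc ((a : H) : G) * b
          = (((a : H) : G) * b * ((a : H) : G)⁻¹ * ((b : H) : G)⁻¹) * (((b : H) : G) * a) := by group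
        _ = ((b : H) : G) * a := by rw [h8, one_mul]
    have hNnil : Group.IsNilpotent N := isNilpotent_of_isMulCommutative N
    have hsup : Q.subgroupOf H ⊔ N = ⊤ := by
      rw [← Subgroup.index_eq_one]
      have d1 : (Q.subgroupOf H ⊔ N).index ∣ N.index := Subgroup.index_dvd_of_le le_sup_right
      have d2 : (Q.subgroupOf H ⊔ N).index ∣ (Q.subgroupOf H).index :=
        Subgroup.index_dvd_of_le le_sup_left
      have d3 : (Q.subgroupOf H).index ∣ Q.index := Subgroup.relIndex_dvd_index_of_normal Q H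
      rw [hNk] at d1
      exact Nat.Coprime.eq_one_of_dvd
        ((Nat.Coprime.of_dvd_left (d2.trans d3) hQidx).pow_right k) d1
    have hfit : Cfsg.fittingSubgroup H = ⊤ := by
      rw [eq_top_iff, ← hsup]
      exact sup_le (le_fittingSubgroup hQHn hQHnil) (le_fittingSubgroup hNn hNnil)
    have := Cfsg.Agent.S0008.result (G := H)
    rw [hfit] at this
    exact Group.isNilpotent_top.mp this
  · -- G is not nilpotent
    intro hnil
    have hcop : (Nat.card Z).Coprime (Nat.card Q) := by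
      obtain ⟨n, hn⟩ := IsPGroup.iff_card.mp hQp
      rw [hn, hZ, Nat.card_zpowers]
      exact hgcop.pow_right n
    have hZsolv : Group.IsSolvable Z := by
      rw [hZ]; infer_instance
    have h27 := Cfsg.Agent.S0027.result Z Q hZN hcop (Or.inl hZsolv)
    have hbot : ⁅Q, Z⁆ = ⊥ := by
      apply Cfsg.Agent.Lib.Helper24.eq_bot_of_le_commutator (H := ⊤)
        (Group.isNilpotent_top.mpr hnil) le_top
      conv_lhs => rw [← h27]
      exact Subgroup.commutator_mono le_rfl le_top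
    rw [Subgroup.commutator_eq_bot_iff_le_centralizer] at hbot
    apply hgC
    rw [Subgroup.mem_centralizer_iff]
    intro q hq
    exact (Subgroup.mem_centralizer_iff.mp (hbot hq) g (Subgroup.mem_zpowers g)).symm
  · -- Sylow p-subgroups are normal
    intro P'
    have h9 : Q ≤ P' := hQp.le_sylow_of_normal P'
    have h10 : (P' : Subgroup G) ≤ Q := by
      rw [← Subgroup.relIndex_eq_one]
      have d1 : Q.relIndex P' ∣ Q.index := Subgroup.relIndex_dvd_index_of_normal Q P'
      have d2 : Q.relIndex P' ∣ Nat.card P' := Subgroup.relIndex_dvd_card Q P'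
      obtain ⟨n, hn⟩ := IsPGroup.iff_card.mp P'.isPGroup'
      rw [hn] at d2
      exact Nat.Coprime.eq_one_of_dvd ((Nat.Coprime.of_dvd_left d1 hQidx).pow_right n) d2
    rw [le_antisymm h10 h9]
    exact hQn

end Cfsg.Agent.S0132
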