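import Cfsg.Statements.S0162
import Cfsg.Agent.S0135
import Cfsg.Agent.S0133
import Cfsg.Agent.S0134
import Cfsg.Agent.Lib.Helper81.BrauerPerm
import Cfsg.Agent.Lib.Helper81.FSChar
import Cfsg.Agent.Lib.Helper81.Count

set_option autoImplicit false
open Cfsg

namespace Cfsg.Agent.S0162

open Cfsg.Agent.Lib.Helper74 Cfsg.Agent.Lib.Helper81

theorem sq_sub_one_zmod (d : ℕ) (hd : Odd d) : (2 : ZMod 16) * ((d : ZMod 16) ^ 2 - 1) = 0 := by
  obtain ⟨k, rfl⟩ := hd
  have h8 : ∃ m : ℕ, k * (k + 1) = 2 * m := by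
    obtain ⟨m, hm⟩ := Nat.even_mul_succ_self k
    exact ⟨m, by omega⟩
  obtain ⟨m, hm⟩ := h8
  have : (2 : ZMod 16) * (((2 * k + 1 : ℕ) : ZMod 16) ^ 2 - 1) = ((16 * m : ℕ) : ZMod 16) := by
    have e : 16 * m = 8 * (k * (k + 1)) := by rw [hm]; ring
    rw [e]
    push_cast
    ring
  rw [this]
  push_cast
  have : (16 : ZMod 16) = 0 := by decide
  rw [this, zero_mul]

/-- If a finite group has odd order, its order is congruent to its number of conjugacy classes modulo 16. -/
theorem result {G : Type*} [Group G] [Finite G] (hodd : Odd (Nat.card G)) : Nat.card G ≡ Nat.card (ConjClasses G) [MOD 16] := by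
  classical
  rw [← Cfsg.Agent.S0133.result, ← ZMod.natCast_eq_natCast_iff]
  have hsum : (Nat.card G : ℕ) = ∑ χ : Cfsg.IrrCharacter G, (Cfsg.charDegree (χ : G → ℂ)) ^ 2 := by
    have h := Cfsg.Agent.S0134.result (G := G)
    rw [finsum_eq_sum_of_fintype] at h
    have : ((∑ χ : Cfsg.IrrCharacter G, (Cfsg.charDegree (χ : G → ℂ)) ^ 2 : ℕ) : ℂ)
        = (Nat.card G : ℂ) := by
      rw [← h]
      push_cast
      refine Finset.sum_congr rfl fun χ _ => ?_
      rw [IsCharacter.charDegree_eq (IrrCharacter.isCharacter χ)]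
    exact_mod_cast this.symm
  have hdodd : ∀ χ : Cfsg.IrrCharacter G, Odd (Cfsg.charDegree (χ : G → ℂ)) := by
    intro χ
    obtain ⟨χ, n, ρ, hirr, rfl⟩ := χ
    have := hirr
    have hdvd := Cfsg.Agent.S0135.result ρ
    simp only [charDegree_rep]
    rw [Module.finrank_fin_fun] at hdvd
    exact Odd.of_dvd_nat hodd hdvd
  let ι : Cfsg.IrrCharacter G → Cfsg.IrrCharacter G := fun χ =>
    ⟨fun g => (starRingEnd ℂ) ((χ : G → ℂ) g), IsIrrCharacter.star χ.2⟩
  have hdι : ∀ χ, Cfsg.charDegree (ι χ : G → ℂ) = Cfsg.charDegree (χ : G → ℂ) := by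
    intro χ
    have h1 := IsCharacter.charDegree_eq (IrrCharacter.isCharacter (ι χ))
    have h2 := IsCharacter.charDegree_eq (IrrCharacter.isCharacter χ)
    have h3 : (ι χ : G → ℂ) 1 = (χ : G → ℂ) 1 :=
      Cfsg.Agent.Lib.Helper81.IsCharacter.conj_one (IrrCharacter.isCharacter χ)
    rw [h3, ← h2] at h1
    exact_mod_cast h1
  have hzero : ∑ χ : Cfsg.IrrCharacter G,
      (((Cfsg.charDegree (χ : G → ℂ) : ℕ) : ZMod 16) ^ 2 - 1) = 0 := by
    refine Finset.sum_involution (fun χ _ => ι χ) ?_ ?_ (fun _ _ => Finset.mem_univ _) ?_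
    · intro χ _
      rw [hdι, ← two_mul]
      exact sq_sub_one_zmod _ (hdodd χ)
    · intro χ _ hne hfix
      apply hne
      have hreal : ∀ g : G, ((χ : G → ℂ) g).im = 0 := fun g =>
        Complex.conj_eq_iff_im.1 (congrFun (congrArg Subtype.val hfix) g)
      have h1 := IsIrrCharacter.eq_one_of_real_of_odd hodd χ.2 hreal
      have h2 := IsCharacter.charDegree_eq (IrrCharacter.isCharacter χ)
      rw [h1] at h2
      have h3 : Cfsg.charDegree (fun _ : G => (1 : ℂ)) = 1 := by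
        simp only at h2
        exact_mod_cast h2
      rw [h1, h3]
      simp
    · intro χ _
      apply Subtype.ext
      funext g
      simp [ι]
  rw [hsum]
  push_cast
  rw [Finset.sum_sub_distrib, sub_eq_zero] at hzero
  rw [hzero]
  simp [Nat.card_eq_fintype_card]

end Cfsg.Agent.S0162
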