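import Cfsg.Statements.S0167
import Cfsg.Agent.Lib.Helper81.Count

set_option autoImplicit false
open Cfsg

namespace Cfsg.Agent.S0167

theorem result {G : Type*} [Group G] [Finite G] (g : G) : (∃ a b : G, g = a * b * a⁻¹ * b⁻¹) ↔ ∑ᶠ χ : Cfsg.IrrCharacter G, (χ : G → ℂ) g / (χ : G → ℂ) 1 ≠ 0 := by
  haveI := Fintype.ofFinite G
  rw [finsum_eq_sum_of_fintype]
  have h := Cfsg.Agent.Lib.Helper81.card_commutator_eq g
  have hne : (Nat.card G : ℂ) ≠ 0 := by exact_mod_cast (Nat.card_pos (α := G)).ne'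
  constructor
  · rintro ⟨a, b, hab⟩ h0
    rw [h0, mul_zero] at h
    have h1 : Nat.card {xy : G × G // xy.1 * xy.2 * xy.1⁻¹ * xy.2⁻¹ = g} = 0 := by exact_mod_cast h
    haveI : Nonempty {xy : G × G // xy.1 * xy.2 * xy.1⁻¹ * xy.2⁻¹ = g} := ⟨⟨(a, b), hab.symm⟩⟩
    exact (Nat.card_pos (α := {xy : G × G // xy.1 * xy.2 * xy.1⁻¹ * xy.2⁻¹ = g})).ne' h1
  · intro h0
    have h1 : Nat.card {xy : G × G // xy.1 * xy.2 * xy.1⁻¹ * xy.2⁻¹ = g} ≠ 0 := by
      intro h2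
      rw [h2] at h
      simp only [Nat.cast_zero] at h
      rcases mul_eq_zero.1 h.symm with h3 | h3
      · exact hne h3
      · exact h0 h3
    have h2 : Nonempty {xy : G × G // xy.1 * xy.2 * xy.1⁻¹ * xy.2⁻¹ = g} := by
      by_contra hc
      rw [not_nonempty_iff] at hc
      exact h1 Nat.card_of_isEmpty
    obtain ⟨⟨⟨a, b⟩, hab⟩⟩ := h2
    exact ⟨a, b, hab.symm⟩

end Cfsg.Agent.S0167
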