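import Cfsg.Statements.S0168
import Cfsg.Agent.S0139
import Cfsg.Agent.Lib.Helper81.Count

set_option autoImplicit false
open Cfsg

namespace Cfsg.Agent.S0168

open Cfsg.Agent.Lib.Helper81 Polynomial
open scoped ComplexConjugate

/-- The Burnside–Brauer Theorem. Let χ be the character of a faithful complex representation of a finite group, taking m distinct values. Then every irreducible character has nonzero inner product with χ ^ i for some i < m. -/
theorem result {G : Type*} [Group G] [Fintype G] {V : Type*} [AddCommGroup V] [Module ℂ V] [FiniteDimensional ℂ V] (ρ : Representation ℂ G V) (hfaithful : Function.Injective ρ) (ψ : G → ℂ) (hψ : Cfsg.IsIrrCharacter G ψ) : ∃ i : ℕ, i < Nat.card (Set.range ρ.character) ∧ Cfsg.classInner (fun g => ρ.character g ^ i) ψ ≠ 0 := by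
  classical
  by_contra hcon
  push Not at hcon
  set χ := ρ.character with hχ
  let S : Finset ℂ := Finset.univ.image χ
  have hcardS : Nat.card (Set.range χ) = S.card := by
    rw [← Set.image_univ, Nat.card_coe_set_eq, ← Finset.coe_univ, ← Finset.coe_image,
      Set.ncard_coe_finset]
  have h1S : χ 1 ∈ S := Finset.mem_image_of_mem _ (Finset.mem_univ _)
  let P : ℂ[X] := ∏ a ∈ S.erase (χ 1), (X - C a)
  have hdeg : P.natDegree + 1 = S.card := by
    rw [Polynomial.natDegree_prod_of_monic _ _ (fun a _ => monic_X_sub_C a)]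
    simp only [natDegree_X_sub_C, Finset.sum_const, smul_eq_mul, mul_one]
    rw [Finset.card_erase_of_mem h1S]
    have : 0 < S.card := Finset.card_pos.2 ⟨_, h1S⟩
    omega
  have hc : (Nat.card G : ℂ) ≠ 0 := by exact_mod_cast (Nat.card_pos (α := G)).ne'
  -- first evaluation: zero
  have hz : ∑ g : G, P.eval (χ g) * conj (ψ g) = 0 := by
    simp only [Polynomial.eval_eq_sum_range, Finset.sum_mul]
    rw [Finset.sum_comm]
    refine Finset.sum_eq_zero fun i hi => ?_
    have hi' : i < Nat.card (Set.range χ) := by
      rw [hcardS, ← hdeg]; exact Finset.mem_range.1 hi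
    have h0 := hcon i hi'
    unfold Cfsg.classInner at h0
    have h1 : ∑ g : G, χ g ^ i * conj (ψ g) = 0 := by
      rcases mul_eq_zero.1 h0 with h | h
      · exact absurd h (inv_ne_zero hc)
      · exact h
    simp only [mul_assoc]
    rw [← Finset.mul_sum, h1, mul_zero]
  -- second evaluation: non-zero
  have hker : ∀ g : G, χ g = χ 1 → g = 1 := by
    intro g hg
    rw [hχ, Representation.char_one, Cfsg.Agent.S0139.result] at hg
    apply hfaithful
    rw [hg, map_one]; rfl
  have hnz : ∑ g : G, P.eval (χ g) * conj (ψ g) = P.eval (χ 1) * conj (ψ 1) := by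
    refine Finset.sum_eq_single 1 ?_ (by simp)
    intro g _ hg
    have hne : χ g ≠ χ 1 := fun h => hg (hker g h)
    have : P.eval (χ g) = 0 := by
      simp only [P, Polynomial.eval_prod]
      refine Finset.prod_eq_zero (i := χ g) ?_ (by simp)
      exact Finset.mem_erase.2 ⟨hne, Finset.mem_image_of_mem _ (Finset.mem_univ _)⟩
    rw [this, zero_mul]
  rw [hnz] at hz
  rcases mul_eq_zero.1 hz with h | h
  · simp only [P, Polynomial.eval_prod] at h
    obtain ⟨a, ha, ha0⟩ := Finset.prod_eq_zero_iff.1 h
    simp only [eval_sub, eval_X, eval_C] at ha0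
    exact (Finset.mem_erase.1 ha).1 (sub_eq_zero.1 ha0).symm
  · exact IsIrrCharacter.one_ne_zero hψ ((map_eq_zero _).1 h)

end Cfsg.Agent.S0168
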