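import Cfsg.Statements.S0170
import Cfsg.Agent.Lib.Helper3.NormTwo
import Cfsg.Agent.Lib.Helper3.Induction

set_option autoImplicit false
open Cfsg

namespace Cfsg.Agent.S0170

open Cfsg.Agent.Lib.Helper3

theorem result {G : Type*} [Group G] [Fintype G] (S : Set G) (hSN : S ⊆ Subgroup.normalizer S) (hTI : ∀ g : G, g ∉ Subgroup.normalizer S → ∀ s ∈ S, g * s * g⁻¹ ∈ S → s = 1) (n : ℕ) (hn : 2 ≤ n) (χ : Fin n → (Subgroup.normalizer S → ℂ)) (hirr : ∀ i, Cfsg.IsIrrCharacter (Subgroup.normalizer S) (χ i)) (hinj : Function.Injective χ) (hvan : ∀ i, ∀ x : Subgroup.normalizer S, (x : G) ∉ S → χ i x = 0) (hdeg : ∀ i j, χ i 1 = χ j 1) : ∃ ε : ℂ, (ε = 1 ∨ ε = -1) ∧ ∃ θ : Fin n → (G → ℂ), (∀ i, Cfsg.IsIrrCharacter G (θ i)) ∧ Function.Injective θ ∧ ∀ i j, Cfsg.indFun (Subgroup.normalizer S) (χ i) - Cfsg.indFun (Subgroup.normalizer S) (χ j) = ε • (θ i - θ j) := by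
  classical
  obtain ⟨m, rfl⟩ : ∃ m, n = m + 2 := ⟨n - 2, by omega⟩
  have := Fintype.ofFinite (Subgroup.normalizer S)
  set X : Fin (m + 2) → (G → ℂ) := fun i => indFun (Subgroup.normalizer S) (χ i) with hX
  have hXchar : ∀ i, IsCharacter G (X i) := fun i =>
    isCharacter_indFun _ (IsIrrCharacter.isCharacter (hirr i))
  have hD : ∀ i j, X i - X j = indFun (Subgroup.normalizer S) (χ i - χ j) := fun i j =>
    (indFun_sub _ _ _).symm
  have hinner : ∀ i j k l, classInner (X i - X j) (X k - X l) =
      classInner (χ i - χ j) (χ k - χ l) := by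
    intro i j k l
    rw [hD, hD]
    apply indFun_isometry_on_ti S hTI
    · exact IsClassFunction.sub (IsIrrCharacter.isClassFunction (hirr k))
        (IsIrrCharacter.isClassFunction (hirr l))
    · intro x hx
      rw [Pi.sub_apply, hvan i x hx, hvan j x hx, sub_zero]
    · intro x hx
      rw [Pi.sub_apply, hvan k x hx, hvan l x hx, sub_zero]
    · rw [Pi.sub_apply, hdeg i j, sub_self]
  have hval : ∀ i j k l, classInner (χ i - χ j) (χ k - χ l) =
      (if i = k then 1 else 0) - (if i = l then 1 else 0) -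
        ((if j = k then 1 else 0) - (if j = l then 1 else 0)) := by
    intro i j k l
    rw [classInner_sub_left, classInner_sub_right, classInner_sub_right,
      classInner_irr (hirr i) (hirr k), classInner_irr (hirr i) (hirr l),
      classInner_irr (hirr j) (hirr k), classInner_irr (hirr j) (hirr l)]
    simp only [hinj.eq_iff]
  have hgen : ∀ i j, IsGeneralizedCharacter G (X i - X j) := fun i j =>
    ⟨X i, X j, hXchar i, hXchar j, rfl⟩
  have hD1 : ∀ i j, (X i - X j) 1 = 0 := by
    intro i j
    rw [hD, indFun_one, Pi.sub_apply, hdeg i j, sub_self, mul_zero]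
  have hnorm : ∀ i j, i ≠ j → classInner (X i - X j) (X i - X j) = 2 := by
    intro i j hij
    rw [hinner, hval, if_pos rfl, if_pos rfl, if_neg hij, if_neg hij.symm]
    norm_num
  have hXinj : ∀ i j, X i = X j → i = j := by
    intro i j h
    by_contra hij
    have h1 := hnorm i j hij
    rw [h, sub_self] at h1
    simp [classInner] at h1
  have hex : ∀ k : {k : Fin (m + 2) // k ≠ 0}, ∃ α β : G → ℂ, IsIrrCharacter G α ∧
      IsIrrCharacter G β ∧ α ≠ β ∧ X 0 - X k = α - β := fun k =>
    exists_irr_sub_irr_of_norm_two (hgen 0 k) (hnorm 0 k k.2.symm) (hD1 0 k)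
  choose α β hα hβ hαβ hk using hex
  have hshare : ∀ k l, k ≠ l → (α k = α l ∧ β k ≠ β l) ∨ (α k ≠ α l ∧ β k = β l) := by
    intro k l hkl
    apply share_of_classInner_eq_one (hα k) (hβ k) (hα l) (hβ l) (hαβ k) (hαβ l)
    rw [← hk, ← hk, hinner, hval, if_pos rfl, if_neg l.2.symm, if_neg k.2,
      if_neg (fun h => hkl (Subtype.ext h))]
    norm_num
  let k1 : {k : Fin (m + 2) // k ≠ 0} := ⟨1, by simp⟩
  rcases forall_eq_or_forall_eq α β hshare with hA | hB
  · refine ⟨1, Or.inl rfl, fun i => α k1 - (X 0 - X i), ?_, ?_, ?_⟩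
    · intro i
      by_cases hi : i = 0
      · simp only [hi, sub_self, sub_zero]
        exact hα k1
      · have h1 := hk ⟨i, hi⟩
        simp only at h1 ⊢
        rw [h1, hA k1 ⟨i, hi⟩, sub_sub_cancel]
        exact hβ _
    · intro i j hij
      apply hXinj
      simp only at hij
      have h2 := sub_right_injective hij
      exact sub_right_injective h2
    · intro i j
      simp only [one_smul]
      abel
  · refine ⟨-1, Or.inr rfl, fun i => β k1 + (X 0 - X i), ?_, ?_, ?_⟩
    · intro i
      by_cases hi : i = 0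
      · simp only [hi, sub_self, add_zero]
        exact hβ k1
      · have h1 := hk ⟨i, hi⟩
        simp only at h1 ⊢
        rw [h1, hB k1 ⟨i, hi⟩, add_sub_cancel]
        exact hα _
    · intro i j hij
      apply hXinj
      simp only at hij
      have h2 := add_right_injective _ hij
      exact sub_right_injective h2
    · intro i j
      simp only [neg_smul, one_smul]
      abel

end Cfsg.Agent.S0170
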