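import Cfsg.Statements.S0172
import Cfsg.Agent.Lib.Helper81.Frobenius
import Mathlib

set_option autoImplicit false

open Cfsg

namespace Cfsg.Agent.S0172

open Subgroup Cfsg.Agent.Lib.Helper81

theorem sum_comm (Γ : Type*) [Group Γ] [Fintype Γ] :
    ∑ x : Γ, Nat.card {y : Γ // Commute x y} = Nat.card (ConjClasses Γ) * Nat.card Γ := by
  rw [← card_comm_eq_card_conjClasses_mul_card,
    Nat.card_congr (Equiv.subtypeProdEquivSigmaSubtype (Commute (S := Γ))), Nat.card_sigma]

/-- Class number of a Frobenius group: if G = K H with K normal, K ⊓ H trivial and no non-identity element of H commuting with a non-identity element of K, then |H| * k(G) + 1 = |H| * k(H) + k(K), where k denotes the number of conjugacy classes. -/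
theorem result {G : Type*} [Group G] [Finite G] (K H : Subgroup G) [K.Normal] (hKH : K ⊓ H = ⊥) (hKH' : K ⊔ H = ⊤) (hfpf : ∀ h ∈ H, h ≠ 1 → ∀ k ∈ K, h * k = k * h → k = 1) : Nat.card H * Nat.card (ConjClasses G) + 1 = Nat.card H * Nat.card (ConjClasses H) + Nat.card (ConjClasses K) := by
  classical
  haveI : Fintype G := Fintype.ofFinite G
  haveI : Fintype K := Fintype.ofFinite K
  haveI : Fintype H := Fintype.ofFinite H
  have hKn : K.Normal := inferInstance
  -- uniqueness of the decomposition
  have huniq : ∀ u ∈ K, ∀ h ∈ H, ∀ u' ∈ K, ∀ h' ∈ H, u * h = u' * h' → u = u' ∧ h = h' := by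
    intro u hu h hh u' hu' h' hh' e
    have h1 : u'⁻¹ * u = h' * h⁻¹ := by
      rw [inv_mul_eq_iff_eq_mul, ← mul_assoc, ← e, mul_inv_cancel_right]
    have h2 : u'⁻¹ * u ∈ K ⊓ H :=
      mem_inf.2 ⟨mul_mem (inv_mem hu') hu, h1 ▸ mul_mem hh' (inv_mem hh)⟩
    rw [hKH, mem_bot] at h2
    have h3 : u = u' := (inv_mul_eq_one.1 h2).symm
    subst h3
    exact ⟨rfl, mul_left_cancel e⟩
  let e : K × H ≃ G := Equiv.ofBijective (fun w => (w.1 : G) * (w.2 : G)) ⟨by
      intro w w' hw
      obtain ⟨h1, h2⟩ := huniq _ w.1.2 _ w.2.2 _ w'.1.2 _ w'.2.2 hw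
      exact Prod.ext (Subtype.ext h1) (Subtype.ext h2), by
      intro g
      obtain ⟨u, hu, h, hh, rfl⟩ := exists_mul_of_sup_eq_top K H hKH' g
      exact ⟨(⟨u, hu⟩, ⟨h, hh⟩), rfl⟩⟩
  have hcardG : Nat.card G = Nat.card K * Nat.card H := by
    rw [← Nat.card_prod]; exact (Nat.card_congr e).symm
  set cG : G → ℕ := fun x => Nat.card {y : G // Commute x y} with hcG
  set cK : K → ℕ := fun x => Nat.card {y : K // Commute x y} with hcK
  set cH : H → ℕ := fun x => Nat.card {y : H // Commute x y} with hcH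
  have sG : ∑ x : G, cG x = Nat.card (ConjClasses G) * Nat.card G := sum_comm G
  have sK : ∑ x : K, cK x = Nat.card (ConjClasses K) * Nat.card K := sum_comm K
  have sH : ∑ x : H, cH x = Nat.card (ConjClasses H) * Nat.card H := sum_comm H
  have sG' : ∑ x : G, cG x = ∑ h : H, ∑ u : K, cG ((u : G) * (h : G)) := by
    rw [← Equiv.sum_comp e, Fintype.sum_prod_type_right]
    rfl
  -- centralizers
  have c1G : cG 1 = Nat.card G := by
    rw [hcG]
    exact Nat.card_congr (Equiv.subtypeUnivEquiv (fun y => Commute.one_left y))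
  have c1K : cK 1 = Nat.card K := by
    rw [hcK]
    exact Nat.card_congr (Equiv.subtypeUnivEquiv (fun y => Commute.one_left y))
  have c1H : cH 1 = Nat.card H := by
    rw [hcH]
    exact Nat.card_congr (Equiv.subtypeUnivEquiv (fun y => Commute.one_left y))
  have cKeq : ∀ u : K, u ≠ 1 → cG (u : G) = cK u := by
    intro u hu
    rw [hcG, hcK]
    symm
    refine Nat.card_congr (Equiv.ofBijective
      (fun y : {y : K // Commute u y} => (⟨(y.1 : G), by
        have := y.2
        exact congrArg Subtype.val this.eq⟩ : {y : G // Commute (u : G) y})) ⟨?_, ?_⟩)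
    · intro y y' hy
      have : ((y.1 : K) : G) = ((y'.1 : K) : G) := congrArg (fun z : {y : G // Commute (u : G) y} => z.1) hy
      exact Subtype.ext (Subtype.ext this)
    · rintro ⟨y, hy⟩
      have hyK : y ∈ K := frob_centralizer_le K H hKH' hfpf u.2
        (fun h => hu (Subtype.ext h)) hy.eq.symm
      exact ⟨⟨⟨y, hyK⟩, Subtype.ext hy.eq⟩, rfl⟩
  have cHeq : ∀ h : H, h ≠ 1 → cG (h : G) = cH h := by
    intro h hh
    rw [hcG, hcH]
    symm
    refine Nat.card_congr (Equiv.ofBijective
      (fun y : {y : H // Commute h y} => (⟨(y.1 : G), by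
        have := y.2
        exact congrArg Subtype.val this.eq⟩ : {y : G // Commute (h : G) y})) ⟨?_, ?_⟩)
    · intro y y' hy
      have : ((y.1 : H) : G) = ((y'.1 : H) : G) := congrArg (fun z : {y : G // Commute (h : G) y} => z.1) hy
      exact Subtype.ext (Subtype.ext this)
    · rintro ⟨y, hy⟩
      obtain ⟨u', hu', h', hh', rfl⟩ := exists_mul_of_sup_eq_top K H hKH' y
      have e1 : u' * (h' * h) = ((h : G) * u' * (h : G)⁻¹) * (h * h') := by
        calc u' * (h' * h) = (u' * h') * h := by group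
          _ = h * (u' * h') := hy.eq.symm
          _ = _ := by group
      obtain ⟨e2, -⟩ := huniq _ hu' _ (mul_mem hh' h.2) _ (hKn.conj_mem _ hu' _) _
        (mul_mem h.2 hh') e1
      have e3 : (h : G) * u' = u' * h := by
        calc (h : G) * u' = ((h : G) * u' * (h : G)⁻¹) * h := by group
          _ = u' * h := by rw [← e2]
      have e4 := hfpf h h.2 (fun hc => hh (Subtype.ext hc)) u' hu' e3
      subst e4
      have hyH : (1 : G) * h' ∈ H := by rw [one_mul]; exact hh'
      exact ⟨⟨⟨1 * h', hyH⟩, Subtype.ext hy.eq⟩, rfl⟩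
  have cconj : ∀ (k x : G), cG (k * x * k⁻¹) = cG x := by
    intro k x
    rw [hcG]
    symm
    refine Nat.card_congr (Equiv.ofBijective
      (fun y : {y : G // Commute x y} => (⟨k * y.1 * k⁻¹, by
        have := y.2.eq
        show k * x * k⁻¹ * (k * y.1 * k⁻¹) = k * y.1 * k⁻¹ * (k * x * k⁻¹)
        calc k * x * k⁻¹ * (k * y.1 * k⁻¹) = k * (x * y.1) * k⁻¹ := by group
          _ = k * (y.1 * x) * k⁻¹ := by rw [this]
          _ = _ := by group⟩ : {y : G // Commute (k * x * k⁻¹) y})) ⟨?_, ?_⟩)
    · intro y y' hy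
      have : k * y.1 * k⁻¹ = k * y'.1 * k⁻¹ := congrArg Subtype.val hy
      exact Subtype.ext (mul_left_cancel (mul_right_cancel this))
    · rintro ⟨y, hy⟩
      refine ⟨⟨k⁻¹ * y * k, ?_⟩, ?_⟩
      · have := hy.eq
        show x * (k⁻¹ * y * k) = k⁻¹ * y * k * x
        calc x * (k⁻¹ * y * k) = k⁻¹ * (k * x * k⁻¹ * y) * k := by group
          _ = k⁻¹ * (y * (k * x * k⁻¹)) * k := by rw [this]
          _ = _ := by group
      · apply Subtype.ext
        show k * (k⁻¹ * y * k) * k⁻¹ = y
        group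
  -- the inner sums
  have F1 : ∑ u : K, cG ((u : G) * ((1 : H) : G)) + Nat.card K
      = Nat.card G + Nat.card (ConjClasses K) * Nat.card K := by
    rw [← sK, ← Finset.add_sum_erase _ _ (Finset.mem_univ (1 : K)),
      ← Finset.add_sum_erase _ cK (Finset.mem_univ (1 : K)), c1K]
    have h1 : cG (((1 : K) : G) * ((1 : H) : G)) = Nat.card G := by
      simp only [Subgroup.coe_one, mul_one]; exact c1G
    have h2 : ∑ u ∈ Finset.univ.erase (1 : K), cG ((u : G) * ((1 : H) : G))
        = ∑ u ∈ Finset.univ.erase (1 : K), cK u := by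
      refine Finset.sum_congr rfl ?_
      intro u hu
      rw [Subgroup.coe_one, mul_one]
      exact cKeq u (Finset.ne_of_mem_erase hu)
    rw [h1, h2]; ring
  have Fh : ∀ h : H, h ≠ 1 → ∑ u : K, cG ((u : G) * (h : G)) = Nat.card K * cH h := by
    intro h hh
    have : ∀ u : K, cG ((u : G) * (h : G)) = cH h := by
      intro u
      obtain ⟨k, -, hk⟩ := frob_coset_conj K H hfpf h.2 (fun hc => hh (Subtype.ext hc)) u.2
      rw [hk, cconj, cHeq h hh]
    simp only [this, Finset.sum_const, Finset.card_univ, smul_eq_mul, Nat.card_eq_fintype_card]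
  have total : Nat.card (ConjClasses G) * Nat.card G + Nat.card K + Nat.card K * Nat.card H
      = Nat.card G + Nat.card (ConjClasses K) * Nat.card K
        + Nat.card K * (Nat.card (ConjClasses H) * Nat.card H) := by
    rw [← sG, sG', ← sH, ← Finset.add_sum_erase _ _ (Finset.mem_univ (1 : H)),
      ← Finset.add_sum_erase _ cH (Finset.mem_univ (1 : H)), c1H]
    have h2 : ∑ h ∈ Finset.univ.erase (1 : H), ∑ u : K, cG ((u : G) * (h : G))
        = Nat.card K * ∑ h ∈ Finset.univ.erase (1 : H), cH h := by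
      rw [Finset.mul_sum]
      refine Finset.sum_congr rfl ?_
      intro h hh
      exact Fh h (Finset.ne_of_mem_erase hh)
    rw [h2]
    have := F1
    nlinarith [F1]
  rw [hcardG] at total
  have hKpos : 0 < Nat.card K := Nat.card_pos
  have : Nat.card K * (Nat.card H * Nat.card (ConjClasses G) + 1)
      = Nat.card K * (Nat.card H * Nat.card (ConjClasses H) + Nat.card (ConjClasses K)) := by
    nlinarith [total]
  exact Nat.eq_of_mul_eq_mul_left hKpos this

end Cfsg.Agent.S0172
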