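import Cfsg.Statements.S0177
import Cfsg.Agent.Lib.Helper3.IndComb

set_option autoImplicit false
open Cfsg

namespace Cfsg.Agent.S0177

open Cfsg.Agent.Lib.Helper3 Module Representation
open scoped ComplexConjugate

theorem exists_int_sum_mem {G : Type*} [Group G] [Fintype G] {φ : G → ℂ} (hφ : IsCharacter G φ)
    (B : Subgroup G) [DecidablePred (· ∈ B)] :
    ∃ z : ℤ, ∑ x : G, (if x ∈ B then φ x else 0) = z := by
  have := Fintype.ofFinite B
  have h1 : ∑ x : G, (if x ∈ B then φ x else 0) = ∑ b : B, φ b := by
    rw [← sum_extendByZero B (fun b : B => φ b)]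
    refine Finset.sum_congr rfl fun x _ => ?_
    split_ifs with hx
    · rw [extendByZero_apply_mem B _ hx]
    · rw [extendByZero_apply_not_mem B _ hx]
  obtain ⟨n, hn⟩ := IsCharacter.classInner_eq_natCast (IsCharacter.restrict hφ B)
    (IsIrrCharacter.isCharacter (isIrrCharacter_one (G := B)))
  have hB : (Nat.card B : ℂ) ≠ 0 := by exact_mod_cast Nat.card_pos.ne'
  refine ⟨Nat.card B * n, ?_⟩
  rw [h1]
  simp only [classInner, map_one, mul_one] at hn
  push_cast
  rw [← hn]
  field_simp

theorem exists_int_sum_gen {G : Type*} [Group G] [Fintype G] {φ : G → ℂ} (hφ : IsCharacter G φ)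
    [DecidableEq (Subgroup G)] (n : ℕ) : ∀ B : Subgroup G, Nat.card B = n →
    ∃ z : ℤ, ∑ x : G, (if Subgroup.zpowers x = B then φ x else 0) = z := by
  classical
  have := Fintype.ofFinite (Subgroup G)
  induction n using Nat.strong_induction_on with
  | _ n ih =>
    intro B hB
    obtain ⟨z, hz⟩ := exists_int_sum_mem hφ B
    have key : ∑ x : G, (if x ∈ B then φ x else 0) = ∑ B' : Subgroup G,
        if B' ≤ B then ∑ x : G, (if Subgroup.zpowers x = B' then φ x else 0) else 0 := by
      have h1 : ∀ B' : Subgroup G,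
          (if B' ≤ B then ∑ x : G, (if Subgroup.zpowers x = B' then φ x else 0) else 0) =
          ∑ x : G, if B' ≤ B then (if Subgroup.zpowers x = B' then φ x else 0) else 0 := by
        intro B'
        split_ifs with h
        · rfl
        · simp
      simp only [h1]
      rw [Finset.sum_comm]
      refine Finset.sum_congr rfl fun x _ => ?_
      rw [Finset.sum_eq_single (Subgroup.zpowers x)]
      · simp only [Subgroup.zpowers_le, if_true]
      · intro B' _ hne
        simp [Ne.symm hne]
      · intro h; exact absurd (Finset.mem_univ _) h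
    rw [← Finset.add_sum_erase _ _ (Finset.mem_univ B), if_pos le_rfl] at key
    have h2 : ∀ B' ∈ (Finset.univ : Finset (Subgroup G)).erase B, ∃ w : ℤ,
        (if B' ≤ B then ∑ x : G, (if Subgroup.zpowers x = B' then φ x else 0) else 0) = (w : ℂ) := by
      intro B' hB'
      split_ifs with h
      · apply ih (Nat.card B') _ B' rfl
        rw [← hB]
        have hne := Finset.ne_of_mem_erase hB'
        have h3 := Subgroup.card_le_of_le h
        rcases h3.lt_or_eq with h4 | h4
        · exact h4
        · exact absurd (Subgroup.eq_of_le_of_card_ge h h4.ge) hne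
      · exact ⟨0, by simp⟩
    choose! w hw using h2
    refine ⟨z - ∑ B' ∈ (Finset.univ : Finset (Subgroup G)).erase B, w B', ?_⟩
    rw [Finset.sum_congr rfl hw, hz] at key
    push_cast
    rw [key]
    ring

/-- The function `|A|·ψ` on generators of `A`, zero elsewhere. -/
noncomputable def genFun {A : Type*} [Group A] (ψ : A → ℂ) : A → ℂ :=
  open Classical in fun a => if Subgroup.zpowers a = ⊤ then (Nat.card A : ℂ) * ψ a else 0

theorem classInner_genFun {A : Type*} [Group A] [Fintype A] {ψ μ : A → ℂ} (hψ : IsCharacter A ψ)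
    (hμ : IsCharacter A μ) : ∃ z : ℤ, classInner (genFun ψ) μ = z := by
  classical
  obtain ⟨z, hz⟩ := exists_int_sum_gen (IsCharacter.mul hψ (IsCharacter.conj hμ)) _ ⊤ rfl
  refine ⟨z, ?_⟩
  rw [← hz]
  have hA : (Nat.card A : ℂ) ≠ 0 := by exact_mod_cast Nat.card_pos.ne'
  simp only [classInner, genFun]
  rw [Finset.mul_sum]
  refine Finset.sum_congr rfl fun a _ => ?_
  split_ifs with h
  · simp only [Pi.mul_apply]
    field_simp
  · simp

theorem isIndComb_genFun {G : Type*} [Group G] [Fintype G] (A : Subgroup G) {ψ : A → ℂ}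
    (hψ : IsCharacter A ψ) :
    IsIndComb (fun A : Subgroup G => IsCyclic A) (indFun A (genFun ψ)) := by
  classical
  have := Fintype.ofFinite A
  have := Fintype.ofFinite (IrrCharacter A)
  by_cases hA : IsCyclic A
  · have hcomm : ∀ a b : A, a * b = b * a := fun a b => (isMulCommutative_iff.mp hA.isMulCommutative) a b
    have hcf : IsClassFunction A (genFun ψ) := by
      intro g h
      rw [hcomm h g, mul_inv_cancel_right]
    rw [classFunction_expansion hcf, indFun_sum]
    apply IsIndComb.sum
    intro μ _
    obtain ⟨z, hz⟩ := classInner_genFun hψ (IsIrrCharacter.isCharacter μ.2)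
    obtain ⟨lam, hlam⟩ := IsIrrCharacter.exists_hom_of_comm hcomm μ.2
    rw [hz, indFun_smul, hlam]
    exact isIndComb_single A hA lam z
  · have h0 : genFun ψ = 0 := by
      funext a
      simp only [genFun]
      rw [if_neg]
      · rfl
      · intro h
        exact hA (isCyclic_iff_exists_zpowers_eq_top.mpr ⟨a, h⟩)
    rw [h0, indFun_zero]
    exact isIndComb_zero _

theorem extendByZero_genFun {G : Type*} [Group G] [DecidableEq (Subgroup G)] (A : Subgroup G)
    (χ : G → ℂ) (z : G) : extendByZero A (genFun fun a : A => χ a) z =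
      if Subgroup.zpowers z = A then (Nat.card A : ℂ) * χ z else 0 := by
  by_cases hz : z ∈ A
  · rw [extendByZero_apply_mem A _ hz]
    simp only [genFun]
    have : Subgroup.zpowers (⟨z, hz⟩ : A) = ⊤ ↔ Subgroup.zpowers z = A := by
      rw [← (Subgroup.map_injective A.subtype_injective).eq_iff, MonoidHom.map_zpowers,
        ← MonoidHom.range_eq_map, Subgroup.range_subtype]
      rfl
    simp only [this]
  · rw [extendByZero_apply_not_mem A _ hz, if_neg]
    intro h
    apply hz
    rw [← h]
    exact Subgroup.mem_zpowers z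

theorem sum_indFun_genFun {G : Type*} [Group G] [Fintype G] [Fintype (Subgroup G)] {χ : G → ℂ}
    (hχ : IsClassFunction G χ) :
    ∑ A : Subgroup G, indFun A (genFun fun a : A => χ a) = (Nat.card G : ℂ) • χ := by
  classical
  funext g
  rw [Finset.sum_apply]
  have h1 : ∀ A : Subgroup G, indFun A (genFun fun a : A => χ a) g =
      ∑ y : G, if Subgroup.zpowers (y⁻¹ * g * y) = A then χ g else 0 := by
    intro A
    have hA : (Nat.card A : ℂ) ≠ 0 := by exact_mod_cast Nat.card_pos.ne'
    rw [indFun_apply, Finset.mul_sum]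
    refine Finset.sum_congr rfl fun y _ => ?_
    rw [extendByZero_genFun]
    split_ifs with h
    · have := hχ g y⁻¹
      rw [inv_inv] at this
      rw [this]
      field_simp
    · simp
  simp only [h1]
  rw [Finset.sum_comm]
  simp only [Finset.sum_ite_eq, Finset.mem_univ, if_true, Finset.sum_const, Finset.card_univ,
    Pi.smul_apply, smul_eq_mul, nsmul_eq_mul, Nat.card_eq_fintype_card]

theorem result {G : Type*} [Group G] [Fintype G] (χ : G → ℂ) (hχ : Cfsg.IsCharacter G χ) : ∃ l : List ((A : Subgroup G) × ((A →* ℂˣ) × ℤ)), (∀ t ∈ l, IsCyclic t.1) ∧ (Nat.card G : ℂ) • χ = (l.map fun t => (t.2.2 : ℂ) • Cfsg.indFun t.1 (fun a => (t.2.1 a : ℂ))).sum := by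
  have := Fintype.ofFinite (Subgroup G)
  have h : IsIndComb (fun A : Subgroup G => IsCyclic A) ((Nat.card G : ℂ) • χ) := by
    rw [← sum_indFun_genFun (IsCharacter.isClassFunction hχ)]
    apply IsIndComb.sum
    intro A _
    exact isIndComb_genFun A (IsCharacter.restrict hχ A)
  exact h

end Cfsg.Agent.S0177
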