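import Cfsg.Statements.S0180
import Cfsg.Agent.Lib.Helper76.GaloisMaster
import Cfsg.Agent.Lib.Helper76.CharIrr
import Cfsg.Agent.S0136

set_option autoImplicit false
open Cfsg

namespace Cfsg.Agent.S0180

open Cfsg.Agent.Lib.Helper76

/-- Every irreducible complex character of a finite group takes only rational values if and only if g is conjugate to g ^ m for every element g and every m coprime to the group order. -/
theorem result {G : Type*} [Group G] [Finite G] : (∀ χ : Cfsg.IrrCharacter G, ∀ g : G, ∃ q : ℚ, (χ : G → ℂ) g = (q : ℂ)) ↔ ∀ m : ℕ, m.Coprime (Nat.card G) → ∀ g : G, IsConj g (g ^ m) := by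
  have hpos : 0 < Nat.card G := Nat.card_pos
  constructor
  · intro h m hm g
    rw [Cfsg.Agent.S0136.result]
    intro χ
    obtain ⟨q, hq⟩ := h χ g
    obtain ⟨χ, n, ρ, hρ, rfl⟩ := χ
    obtain ⟨μ, hμ1, hμ2⟩ := exists_char_eigenvalues ρ g (Nat.card G) hpos (pow_card_eq_one')
    have h1 := hμ2 1
    simp only [pow_one] at h1
    simp only at hq
    change ρ.character g = ρ.character (g ^ m)
    rw [hμ2 m, sum_pow_eq_of_rat (Nat.card G) hpos μ hμ1 q (by rw [← h1, hq]) m hm, hq]
  · intro h χ g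
    obtain ⟨χ, n, ρ, hρ, rfl⟩ := χ
    obtain ⟨μ, hμ1, hμ2⟩ := exists_char_eigenvalues ρ g (Nat.card G) hpos (pow_card_eq_one')
    have h1 := hμ2 1
    simp only [pow_one] at h1
    change ∃ q : ℚ, ρ.character g = (q : ℂ)
    rw [h1]
    apply exists_rat_of_sum_pow_eq (Nat.card G) hpos μ hμ1
    intro k hk
    rw [← hμ2, ← h1]
    obtain ⟨c, hc⟩ := isConj_iff.mp (h k hk g)
    rw [← hc, Representation.char_conj]

end Cfsg.Agent.S0180
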