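import Cfsg.Statements.S0181
import Cfsg.Agent.Lib.Helper81.Schur

set_option autoImplicit false
open Cfsg

namespace Cfsg.Agent.S0181

open Cfsg.Agent.Lib.Helper81

/-- Let H be a normal subgroup of a finite group G and ρ an irreducible complex representation whose kernel does not contain H. If g commutes with no non-identity element of H, then the character of ρ vanishes at g. -/
theorem result {G : Type*} [Group G] [Finite G] {V : Type*} [AddCommGroup V] [Module ℂ V] [FiniteDimensional ℂ V] (ρ : Representation ℂ G V) [ρ.IsIrreducible] (H : Subgroup G) [H.Normal] (hker : ∃ h ∈ H, ρ h ≠ LinearMap.id) (g : G) (hg : ∀ h ∈ H, h * g = g * h → h = 1) : ρ.character g = 0 := by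
  classical
  have := Fintype.ofFinite H
  set e : V →ₗ[ℂ] V := ∑ h : H, ρ (h : G) with he
  -- e is fixed by left multiplication with H
  have hHe : ∀ h₀ : H, ρ (h₀ : G) * e = e := by
    intro h₀
    rw [he, Finset.mul_sum, ← Equiv.sum_comp (Equiv.mulLeft h₀) (fun h : H => ρ (h : G))]
    refine Finset.sum_congr rfl fun h _ => ?_
    simp [map_mul]
  -- e commutes with G
  have hcomm : ∀ x : G, e * ρ x = ρ x * e := by
    intro x
    rw [he, Finset.sum_mul, Finset.mul_sum,
      ← Equiv.sum_comp (MulAut.conjNormal x : H ≃* H).toEquiv (fun h : H => ρ (h : G) * ρ x)]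
    refine Finset.sum_congr rfl fun h _ => ?_
    rw [← map_mul, ← map_mul]
    congr 1
    simp
  obtain ⟨c, hc⟩ := schur_scalar ρ e hcomm
  have hc0 : c = 0 := by
    by_contra hne
    obtain ⟨h₀, hh₀, hne₀⟩ := hker
    apply hne₀
    have h1 := hHe ⟨h₀, hh₀⟩
    rw [hc] at h1
    ext v
    have h2 := congrArg (fun f : V →ₗ[ℂ] V => f v) h1
    simp only [Module.End.mul_apply, LinearMap.smul_apply, LinearMap.id_apply, map_smul] at h2
    exact smul_right_injective V hne h2
  have he0 : e = 0 := by rw [hc, hc0, zero_smul]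
  -- the coset gH consists of conjugates of g
  let φ : H → H := fun h => ⟨g⁻¹ * h * g * (h : G)⁻¹, by
    apply H.mul_mem _ (H.inv_mem h.2)
    have := (inferInstance : H.Normal).conj_mem h h.2 g⁻¹
    simpa using this⟩
  have hφinj : Function.Injective φ := by
    intro h₁ h₂ h12
    have h3 : g⁻¹ * h₁ * g * (h₁ : G)⁻¹ = g⁻¹ * h₂ * g * (h₂ : G)⁻¹ := congrArg Subtype.val h12
    have h4 : ((h₂ : G)⁻¹ * h₁) * g = g * ((h₂ : G)⁻¹ * h₁) := by
      have h5 : (h₁ : G) * g * (h₁ : G)⁻¹ = h₂ * g * (h₂ : G)⁻¹ := by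
        have := congrArg (fun z => g * z) h3
        simpa [mul_assoc] using this
      calc ((h₂ : G)⁻¹ * h₁) * g = (h₂ : G)⁻¹ * ((h₁ : G) * g * (h₁ : G)⁻¹) * h₁ := by group
        _ = (h₂ : G)⁻¹ * (h₂ * g * (h₂ : G)⁻¹) * h₁ := by rw [h5]
        _ = g * ((h₂ : G)⁻¹ * h₁) := by group
    have h6 := hg _ (H.mul_mem (H.inv_mem h₂.2) h₁.2) h4
    ext
    exact (inv_mul_eq_one.1 h6).symm
  have hφsurj : Function.Surjective φ := Finite.surjective_of_injective hφinj
  have hconst : ∀ h : H, ρ.character (g * h) = ρ.character g := by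
    intro h
    obtain ⟨h', hh'⟩ := hφsurj h
    have : g * (h : G) = h' * g * (h' : G)⁻¹ := by
      rw [← hh']
      simp only [φ]
      group
    rw [this, Representation.char_conj]
  have hsum : ∑ h : H, ρ.character (g * h) = 0 := by
    have : ∑ h : H, ρ.character (g * h) = LinearMap.trace ℂ V (ρ g * e) := by
      rw [he, Finset.mul_sum, map_sum]
      refine Finset.sum_congr rfl fun h _ => ?_
      rw [Representation.character, map_mul]
    rw [this, he0, mul_zero, map_zero]
  simp only [hconst, Finset.sum_const, Finset.card_univ, nsmul_eq_mul] at hsum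
  rcases mul_eq_zero.1 hsum with h | h
  · exfalso
    have : Fintype.card H ≠ 0 := Fintype.card_ne_zero
    exact this (by exact_mod_cast h)
  · exact h

end Cfsg.Agent.S0181
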