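import Mathlib
import Cfsg.Agent.Lib.Helper3.Table
import Cfsg.Agent.Lib.Helper3.Perm
import Cfsg.Agent.Lib.Helper53.PGroup
import Cfsg.Statements.S0184

set_option autoImplicit false
open Cfsg

namespace Cfsg.Agent.S0184

theorem mem_zpowers_of_prime {C : Type*} [Group C] [Finite C] [IsCyclic C] {p : ℕ} [Fact p.Prime]
    {x y : C} (hx : orderOf x = p) (hy : y ^ p = 1) : y ∈ Subgroup.zpowers x := by
  classical
  haveI : Fintype C := Fintype.ofFinite C
  have hS : (Finset.univ.filter (fun a : C => a ^ p = 1)).card ≤ p :=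
    IsCyclic.card_pow_eq_one_le (Fact.out : p.Prime).pos
  have hT : ((Subgroup.zpowers x : Set C).toFinset).card = p := by
    rw [Set.toFinset_card]
    have : Fintype.card (Subgroup.zpowers x) = p := by
      rw [← Nat.card_eq_fintype_card, Nat.card_zpowers, hx]
    exact this
  have hsub : (Subgroup.zpowers x : Set C).toFinset ⊆ Finset.univ.filter (fun a : C => a ^ p = 1) := by
    intro a ha
    rw [Set.mem_toFinset] at ha
    obtain ⟨k, rfl⟩ := Subgroup.mem_zpowers_iff.1 ha
    simp only [Finset.mem_filter, Finset.mem_univ, true_and]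
    rw [← zpow_natCast, ← zpow_mul, mul_comm, zpow_mul, zpow_natCast, ← hx, pow_orderOf_eq_one, one_zpow]
  have heq := Finset.eq_of_subset_of_card_le hsub (by rw [hT]; exact hS)
  have : y ∈ Finset.univ.filter (fun a : C => a ^ p = 1) := by simp [hy]
  rw [← heq, Set.mem_toFinset] at this
  exact this

open Cfsg.Agent.Lib.Helper3 in
theorem forward {G : Type*} [Group G] [Finite G] (n : ℕ) (ρ : Representation ℂ G (Fin n → ℂ))
    (hirr : ρ.IsIrreducible) (hinj : Function.Injective ρ) : IsCyclic (Subgroup.center G) := by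
  haveI := hirr
  have hsc : ∀ z : Subgroup.center G, ∃ c : ℂ, ρ z = c • LinearMap.id := fun z =>
    schur_scalar ρ (ρ z) (fun g => by
      have h1 : (z : G) * g = g * z := ((Subgroup.mem_center_iff.1 z.2) g).symm
      have h2 : ρ z * ρ g = ρ g * ρ z := by rw [← map_mul, ← map_mul, h1]
      exact h2)
  choose c hc using hsc
  have hV : Nontrivial (Fin n → ℂ) := ((isIrreducible_iff ρ).1 hirr).1
  have hinjsc : ∀ a b : ℂ, a • (LinearMap.id : (Fin n → ℂ) →ₗ[ℂ] (Fin n → ℂ)) = b • LinearMap.id →
      a = b := by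
    intro a b h
    obtain ⟨v, hv⟩ := exists_ne (0 : Fin n → ℂ)
    have h1 := LinearMap.congr_fun h v
    simp only [LinearMap.smul_apply, LinearMap.id_coe, id_eq] at h1
    exact smul_left_injective ℂ hv h1
  let f : Subgroup.center G →* ℂ :=
    { toFun := c
      map_one' := by
        apply hinjsc
        rw [← hc, one_smul]
        simp only [Subgroup.coe_one, map_one]
        rfl
      map_mul' := by
        intro a b
        apply hinjsc
        rw [← hc, Subgroup.coe_mul, map_mul, hc, hc]
        ext v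
        simp [mul_smul]
        ring }
  apply isCyclic_of_injective_ringHom f
  intro a b h
  have h1 : c a = c b := h
  apply Subtype.ext
  apply hinj
  rw [hc, hc, h1]

open Cfsg.Agent.Lib.Helper3 in
theorem backward {G : Type*} [Group G] [Finite G] (p : ℕ) [Fact p.Prime] (hG : IsPGroup p G)
    (hcyc : IsCyclic (Subgroup.center G)) :
    ∃ (n : ℕ) (ρ : Representation ℂ G (Fin n → ℂ)), ρ.IsIrreducible ∧ Function.Injective ρ := by
  classical
  haveI : Fintype G := Fintype.ofFinite G
  haveI : Fintype (IrrCharacter G) := Fintype.ofFinite _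
  by_cases hG1 : Subsingleton G
  · refine ⟨1, Representation.trivial ℂ G (Fin 1 → ℂ), ?_, fun a b _ => Subsingleton.elim a b⟩
    apply isIrreducible_of_finrank_eq_one
    simp
  · rw [not_subsingleton_iff_nontrivial] at hG1
    haveI := hG.center_nontrivial
    have hZp : IsPGroup p (Subgroup.center G) := hG.to_subgroup _
    obtain ⟨k, hk0, hk⟩ := hZp.nontrivial_iff_card.1 inferInstance
    have hpd : p ∣ Nat.card (Subgroup.center G) := by
      rw [hk]; exact dvd_pow_self p hk0.ne'
    obtain ⟨z, hz⟩ := exists_prime_orderOf_dvd_card' (G := Subgroup.center G) p hpd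
    have hz1 : (z : G) ≠ 1 := by
      intro h
      have : z = 1 := Subtype.ext h
      rw [this, orderOf_one] at hz
      exact (Fact.out : p.Prime).one_lt.ne hz
    have hex : ∃ χ : IrrCharacter G, (χ : G → ℂ) z ≠ (χ : G → ℂ) 1 := by
      by_contra hall
      push Not at hall
      have := (isConj_iff_forall_irr (z : G) 1).2 hall
      exact hz1 (isConj_one_left.1 this)
    obtain ⟨χ, hχ⟩ := hex
    obtain ⟨n, ρ, hirr, hρ⟩ := χ.2
    refine ⟨n, ρ, hirr, ?_⟩
    rw [← MonoidHom.ker_eq_bot_iff]
    by_contra hne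
    obtain ⟨w, hwN, hwZ, hw1⟩ := Cfsg.Agent.Lib.Helper53.exists_mem_center_of_normal hG ρ.ker hne
    obtain ⟨j, hj⟩ := (IsPGroup.iff_orderOf.1 hG) w
    have hj0 : j ≠ 0 := by
      rintro rfl
      rw [pow_zero, orderOf_eq_one_iff] at hj
      exact hw1 hj
    obtain ⟨j', rfl⟩ := Nat.exists_eq_succ_of_ne_zero hj0
    set w' : Subgroup.center G := ⟨w, hwZ⟩ ^ (p ^ j') with hw'
    have hppos : 0 < p := (Fact.out : p.Prime).pos
    have hw'o : orderOf w' = p := by
      have h0 : orderOf (⟨w, hwZ⟩ : Subgroup.center G) = p ^ (j' + 1) := by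
        rw [← Subgroup.orderOf_coe]; exact hj
      rw [hw', orderOf_pow_of_dvd (by positivity) (by rw [h0]; exact ⟨p, by ring⟩), h0, pow_succ,
        Nat.mul_div_cancel_left _ (by positivity)]
    have hzmem := mem_zpowers_of_prime hw'o (y := z) (by rw [← hz]; exact pow_orderOf_eq_one z)
    obtain ⟨m, hm⟩ := Subgroup.mem_zpowers_iff.1 hzmem
    have hzker : (z : G) ∈ ρ.ker := by
      rw [← hm, hw']
      simp only [Subgroup.coe_zpow, Subgroup.coe_pow]
      exact Subgroup.zpow_mem _ (Subgroup.pow_mem _ hwN _) _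
    apply hχ
    rw [MonoidHom.mem_ker] at hzker
    rw [← hρ]
    unfold Representation.character
    rw [hzker, ← map_one ρ]

/-- A finite p-group admits a faithful irreducible complex representation if and only if its centre is cyclic. -/
theorem result {G : Type*} [Group G] [Finite G] (p : ℕ) [Fact p.Prime] (hG : IsPGroup p G) : (∃ (n : ℕ) (ρ : Representation ℂ G (Fin n → ℂ)), ρ.IsIrreducible ∧ Function.Injective ρ) ↔ IsCyclic (Subgroup.center G) := by
  constructor
  · rintro ⟨n, ρ, hirr, hinj⟩
    exact forward n ρ hirr hinj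
  · exact backward p hG

end Cfsg.Agent.S0184
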