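import Mathlib
import Cfsg.Agent.Lib.Helper3.Integral
import Cfsg.Statements.S0185

set_option autoImplicit false
open Cfsg

namespace Cfsg.Agent.S0185

open Cfsg.Agent.Lib.Helper3 in
theorem commute_of_linear {G : Type*} [Group G] [Finite G] {V : Type*} [AddCommGroup V] [Module ℂ V]
    [FiniteDimensional ℂ V] (ρ : Representation ℂ G V)
    (h1 : ∀ (p : Submodule ℂ V) (hp : Inv ρ p), (subrep ρ p hp).IsIrreducible →
      Module.finrank ℂ p = 1) (a b : G) : ρ a * ρ b = ρ b * ρ a := by
  have htop := sSup_irreducible_eq_top ρ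
  have hle : sSup {p : Submodule ℂ V | ∃ hp : Inv ρ p, (subrep ρ p hp).IsIrreducible} ≤
      LinearMap.eqLocus (ρ a * ρ b) (ρ b * ρ a) := by
    apply sSup_le
    rintro p ⟨hp, hirr⟩ w hw
    have hf := h1 p hp hirr
    obtain ⟨v, _, hv⟩ := finrank_eq_one_iff'.1 hf
    obtain ⟨c, hc⟩ := hv ⟨w, hw⟩
    obtain ⟨α, hα⟩ := hv ⟨ρ a v, hp a v.2⟩
    obtain ⟨β, hβ⟩ := hv ⟨ρ b v, hp b v.2⟩
    have hc' : c • (v : V) = w := congrArg Subtype.val hc
    have hα' : α • (v : V) = ρ a v := congrArg Subtype.val hα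
    have hβ' : β • (v : V) = ρ b v := congrArg Subtype.val hβ
    rw [LinearMap.mem_eqLocus, Module.End.mul_apply, Module.End.mul_apply, ← hc', map_smul, map_smul,
      map_smul, map_smul, ← hα', ← hβ', map_smul, map_smul, ← hα', ← hβ']
    simp only [smul_smul]
    congr 1
    ring
  rw [htop, top_le_iff] at hle
  exact LinearMap.eqLocus_eq_top.1 hle

/-- If a finite group has a faithful complex representation of degree less than the smallest prime dividing its order, the group is abelian. -/
theorem result {G : Type*} [Group G] [Finite G] {V : Type*} [AddCommGroup V] [Module ℂ V] [FiniteDimensional ℂ V] (ρ : Representation ℂ G V) (hfaithful : Function.Injective ρ) (hdeg : ∀ p : ℕ, p.Prime → p ∣ Nat.card G → Module.finrank ℂ V < p) (a b : G) : a * b = b * a := by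
  apply hfaithful
  rw [map_mul, map_mul]
  apply commute_of_linear
  intro p hp hirr
  have hdvd := Cfsg.Agent.Lib.Helper3.finrank_dvd_card (Cfsg.Agent.Lib.Helper3.subrep ρ p hp) (hirr := hirr)
  by_contra hne
  obtain ⟨q, hq, hqd⟩ := Nat.exists_prime_and_dvd hne
  have h1 := hdeg q hq (hqd.trans hdvd)
  have hpos : 0 < Module.finrank ℂ p := by
    have := ((Cfsg.Agent.Lib.Helper3.isIrreducible_iff _).1 hirr).1
    exact Module.finrank_pos
  have h2 := Nat.le_of_dvd hpos hqd
  have h3 := Submodule.finrank_le p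
  omega

end Cfsg.Agent.S0185
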