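import Mathlib
import Cfsg.Agent.Lib.Helper3.Regular
import Cfsg.Agent.Lib.Helper3.Table
import Cfsg.Agent.Lib.Helper3.Perm
import Cfsg.Agent.S0185
import Cfsg.Statements.S0186

set_option autoImplicit false
open Cfsg

namespace Cfsg.Agent.S0186

open Cfsg.Agent.Lib.Helper3 in
theorem exists_small {G : Type*} [Group G] [Finite G] (p : ℕ) [Fact p.Prime]
    (hp2 : p ^ 2 ∣ Nat.card G) (hmany : Nat.card G < p ^ 2 * Nat.card (ConjClasses G)) :
    ∃ (χ : IrrCharacter G) (d : ℕ), χ ≠ oneIrr G ∧ (χ : G → ℂ) 1 = d ∧ d < p := by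
  classical
  haveI : Fintype (IrrCharacter G) := Fintype.ofFinite _
  by_contra hcon
  push Not at hcon
  have hd : ∀ χ : IrrCharacter G, ∃ n : ℕ, (χ : G → ℂ) 1 = n := fun χ =>
    IsCharacter.apply_one_eq_natCast (IsIrrCharacter.isCharacter χ.2)
  choose d hd using hd
  have hsum : ∑ χ : IrrCharacter G, (d χ) ^ 2 = Nat.card G := by
    have := sum_sq_degrees (G := G)
    simp only [hd] at this
    exact_mod_cast this
  have hk : Fintype.card (IrrCharacter G) = Nat.card (ConjClasses G) := by
    rw [← Nat.card_eq_fintype_card, card_irrCharacter]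
  have hone : d (oneIrr G) = 1 := by
    have := hd (oneIrr G)
    rw [oneIrr_apply] at this
    exact_mod_cast this.symm
  rw [← Finset.add_sum_erase _ _ (Finset.mem_univ (oneIrr G)), hone] at hsum
  have hge : (Finset.univ.erase (oneIrr G)).card • p ^ 2 ≤
      ∑ χ ∈ Finset.univ.erase (oneIrr G), (d χ) ^ 2 := by
    apply Finset.card_nsmul_le_sum
    intro χ hχ
    exact Nat.pow_le_pow_left (hcon χ (d χ) (Finset.ne_of_mem_erase hχ) (hd χ)) 2
  rw [Finset.card_erase_of_mem (Finset.mem_univ _), Finset.card_univ, hk, smul_eq_mul] at hge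
  obtain ⟨m, hm⟩ := hp2
  set k := Nat.card (ConjClasses G) with hkdef
  rw [hm] at hmany hsum
  have hppos : 0 < p ^ 2 := by
    have := (Fact.out : p.Prime).pos
    positivity
  have hmk : m < k := Nat.lt_of_mul_lt_mul_left hmany
  have h1 : p ^ 2 * m ≤ (k - 1) * p ^ 2 := by
    rw [mul_comm]
    exact Nat.mul_le_mul_right _ (by omega)
  omega

/-- Let G be a finite simple group of order n and p a prime dividing n. If G has more than n / p^2 conjugacy classes, then every Sylow p-subgroup of G is abelian. -/
theorem result {G : Type*} [Group G] [Finite G] [IsSimpleGroup G] (p : ℕ) [Fact p.Prime] (hp : p ∣ Nat.card G) (hmany : Nat.card G < p ^ 2 * Nat.card (ConjClasses G)) (P : Sylow p G) (a b : G) (ha : a ∈ P) (hb : b ∈ P) : a * b = b * a := by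
  classical
  by_cases hp2 : p ^ 2 ∣ Nat.card G
  · obtain ⟨χ, d, hχ1, hχd, hdp⟩ := exists_small p hp2 hmany
    obtain ⟨n, ρ, hirr, hρ⟩ := χ.2
    have hnd : n = d := by
      have h1 : ρ.character 1 = (n : ℂ) := by
        rw [Representation.char_one]; simp
      rw [hρ, hχd] at h1
      exact_mod_cast h1.symm
    have hinj : Function.Injective ρ := by
      rw [← MonoidHom.ker_eq_bot_iff]
      rcases IsSimpleGroup.eq_bot_or_eq_top_of_normal ρ.ker inferInstance with h | h
      · exact h
      · exfalso
        haveI : Fintype G := Fintype.ofFinite G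
        have hconst : ∀ g : G, (χ : G → ℂ) g = d := by
          intro g
          have hg : g ∈ ρ.ker := by rw [h]; trivial
          rw [MonoidHom.mem_ker] at hg
          rw [← hχd, ← hρ]
          unfold Representation.character
          rw [hg, ← map_one ρ]
        have h0 := Cfsg.Agent.Lib.Helper3.classInner_irr_ne χ.2 (Cfsg.Agent.Lib.Helper3.oneIrr G).2
          (fun he => hχ1 (Subtype.ext he))
        unfold Cfsg.classInner at h0
        simp only [hconst, Cfsg.Agent.Lib.Helper3.oneIrr_apply, map_one, mul_one, Finset.sum_const,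
          Finset.card_univ, nsmul_eq_mul] at h0
        have hg0 : (Nat.card G : ℂ) ≠ 0 := by exact_mod_cast (Nat.card_pos (α := G)).ne'
        have hd0 : (d : ℂ) ≠ 0 := by
          rw [← hχd]; exact Cfsg.Agent.Lib.Helper3.IsIrrCharacter.apply_one_ne_zero χ.2
        rw [← Nat.card_eq_fintype_card] at h0
        have : (Nat.card G : ℂ)⁻¹ * ((Nat.card G : ℂ) * d) = d := by field_simp
        rw [this] at h0
        exact hd0 h0
    let σ : Representation ℂ (P : Subgroup G) (Fin n → ℂ) := ρ.comp (P : Subgroup G).subtype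
    have hσ : Function.Injective σ := hinj.comp Subtype.val_injective
    have hdeg : ∀ q : ℕ, q.Prime → q ∣ Nat.card (P : Subgroup G) →
        Module.finrank ℂ (Fin n → ℂ) < q := by
      intro q hq hqd
      obtain ⟨k, hk⟩ := P.2.exists_card_eq
      rw [hk] at hqd
      have := (Nat.prime_dvd_prime_iff_eq hq Fact.out).1 (hq.dvd_of_dvd_pow hqd)
      rw [this]
      simp only [Module.finrank_fintype_fun_eq_card, Fintype.card_fin]
      omega
    have := Cfsg.Agent.S0185.result σ hσ hdeg ⟨a, ha⟩ ⟨b, hb⟩
    exact congrArg Subtype.val this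
  · obtain ⟨k, hk⟩ := P.2.exists_card_eq
    have hdP : Nat.card P ∣ Nat.card G := Subgroup.card_subgroup_dvd_card _
    have hpP : p ∣ Nat.card P := P.dvd_card_of_dvd_card hp
    have hP : Nat.card P = p := by
      rw [hk] at hdP hpP ⊢
      rcases k with _ | _ | k
      · rw [pow_zero] at hpP
        exact absurd (Nat.dvd_one.1 hpP) (Fact.out : p.Prime).one_lt.ne'
      · simp
      · exfalso
        apply hp2
        refine dvd_trans ?_ hdP
        exact ⟨p ^ k, by ring⟩
    haveI : IsCyclic (P : Subgroup G) := isCyclic_of_prime_card hP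
    have := (IsCyclic.isMulCommutative (α := (P : Subgroup G))).is_comm.comm ⟨a, ha⟩ ⟨b, hb⟩
    exact congrArg Subtype.val this

end Cfsg.Agent.S0186
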