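import Mathlib
import Cfsg.Agent.Lib.Helper4.IndFun
import Cfsg.Statements.S0190

set_option autoImplicit false
open Cfsg

namespace Cfsg.Agent.S0190

/-- For a transitive action of a finite group on X, the permutation character g ↦ (number of fixed points of g) is the function induced from the principal character of the stabilizer of any point. -/
theorem result {G : Type*} [Group G] [Fintype G] (X : Type*) [MulAction G X] [Finite X] [MulAction.IsPretransitive G X] (x : X) : (fun g : G => (Nat.card (MulAction.fixedBy X g) : ℂ)) = Cfsg.indFun (MulAction.stabilizer G x) (fun _ => 1) := by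
  classical
  funext g
  set H := MulAction.stabilizer G x with hH
  have hfib : ∀ y : X, Nat.card {a : G // a • x = y} = Nat.card H := by
    intro y
    obtain ⟨b, hb⟩ := MulAction.exists_smul_eq G x y
    symm
    apply Nat.card_congr
    refine ⟨fun h => ⟨b * h, ?_⟩, fun a => ⟨b⁻¹ * a, ?_⟩, ?_, ?_⟩
    · rw [mul_smul, MulAction.mem_stabilizer_iff.1 h.2, hb]
    · rw [hH, MulAction.mem_stabilizer_iff, mul_smul, a.2, ← hb, inv_smul_smul]
    · intro h; ext; simp
    · intro a; ext; simp
  have e : {a : G // a • x ∈ MulAction.fixedBy X g} ≃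
      Σ y : MulAction.fixedBy X g, {a : G // a • x = y.1} :=
    ⟨fun a => ⟨⟨a.1 • x, a.2⟩, ⟨a.1, rfl⟩⟩, fun p => ⟨p.2.1, by rw [p.2.2]; exact p.1.2⟩,
      fun _ => rfl, by
        rintro ⟨⟨y, hy⟩, ⟨a, ha⟩⟩
        simp only at ha
        subst ha
        rfl⟩
  have hcount : Nat.card {a : G // a • x ∈ MulAction.fixedBy X g} =
      Nat.card (MulAction.fixedBy X g) * Nat.card H := by
    haveI : Fintype (MulAction.fixedBy X g) := Fintype.ofFinite _
    rw [Nat.card_congr e, Nat.card_sigma]
    simp only [hfib, Finset.sum_const, Finset.card_univ, smul_eq_mul, Nat.card_eq_fintype_card]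
  have hterm : ∀ a : G, Cfsg.extendByZero H (fun _ => (1 : ℂ)) (a⁻¹ * g * a) =
      if a • x ∈ MulAction.fixedBy X g then 1 else 0 := by
    intro a
    have hiff : a⁻¹ * g * a ∈ H ↔ a • x ∈ MulAction.fixedBy X g := by
      rw [hH, MulAction.mem_stabilizer_iff, MulAction.mem_fixedBy, mul_smul, mul_smul,
        inv_smul_eq_iff]
    by_cases h : a • x ∈ MulAction.fixedBy X g
    · rw [if_pos h, Lib.Helper4.extendByZero_of_mem _ _ (hiff.2 h)]
    · rw [if_neg h, Lib.Helper4.extendByZero_of_not_mem _ _ (fun h' => h (hiff.1 h'))]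
  show (Nat.card (MulAction.fixedBy X g) : ℂ) =
    (Nat.card H : ℂ)⁻¹ * ∑ a : G, Cfsg.extendByZero H (fun _ => (1 : ℂ)) (a⁻¹ * g * a)
  simp only [hterm]
  rw [Finset.sum_boole, ← Fintype.card_subtype, ← Nat.card_eq_fintype_card, hcount]
  have hne : (Nat.card H : ℂ) ≠ 0 := by
    exact_mod_cast (Nat.card_pos (α := H)).ne'
  push_cast
  field_simp

end Cfsg.Agent.S0190
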