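import Cfsg.Statements.S0191
import Cfsg.Agent.Lib.Helper76.Zeros

set_option autoImplicit false
open Cfsg

namespace Cfsg.Agent.S0191

open Cfsg.Agent.Lib.Helper76

/-- An irreducible complex representation of a finite group of degree greater than 1 has a character that vanishes somewhere. -/
theorem result {G : Type*} [Group G] [Finite G] {V : Type*} [AddCommGroup V] [Module ℂ V] [FiniteDimensional ℂ V] (ρ : Representation ℂ G V) [ρ.IsIrreducible] (hdeg : 1 < Module.finrank ℂ V) : ∃ g : G, ρ.character g = 0 := by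
  classical
  have := Fintype.ofFinite G
  have h := zeros_bound ρ inferInstance
  have h1 : (1 : G) ∈ Finset.univ.filter (fun g : G => ‖ρ.character g‖ = (Module.finrank ℂ V : ℝ)) := by
    simp
  have h2 : (1 : ℝ) ≤ ((Finset.univ.filter (fun g : G => ‖ρ.character g‖ = (Module.finrank ℂ V : ℝ))).card : ℝ) := by
    exact_mod_cast Finset.card_pos.mpr ⟨1, h1⟩
  have h3 : (1 : ℝ) < (Module.finrank ℂ V : ℝ) := by exact_mod_cast hdeg
  have h4 : (0 : ℝ) < ((Finset.univ.filter (fun g : G => ρ.character g = 0)).card : ℝ) := by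
    have : (0 : ℝ) < (Module.finrank ℂ V : ℝ) ^ 2 - 1 := by nlinarith
    nlinarith
  have h5 : 0 < (Finset.univ.filter (fun g : G => ρ.character g = 0)).card := by exact_mod_cast h4
  obtain ⟨g, hg⟩ := Finset.card_pos.mp h5
  exact ⟨g, (Finset.mem_filter.mp hg).2⟩

end Cfsg.Agent.S0191
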