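import Cfsg.Statements.S0192
import Cfsg.Agent.Lib.Helper74.CharBasic

set_option autoImplicit false
open Cfsg

namespace Cfsg.Agent.S0192

open Cfsg.Agent.Lib.Helper74 Representation

theorem inner_one_eq_finrank {G : Type*} [Group G] {V : Type*} [AddCommGroup V] [Module ℂ V]
    [FiniteDimensional ℂ V] (ρ : Representation ℂ G V) (H : Subgroup G) [Fintype H] :
    Cfsg.classInner (fun x : H => ρ.character x) (fun _ => 1) =
      (Module.finrank ℂ (invariants (ρ.comp H.subtype)) : ℂ) := by
  have hne : (Nat.card H : ℂ) ≠ 0 := by exact_mod_cast (Nat.card_pos (α := H)).ne'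
  haveI : Invertible (Nat.card H : ℂ) := invertibleOfNonzero hne
  rw [← card_inv_mul_sum_char_eq_finrank (ρ.comp H.subtype)]
  unfold Cfsg.classInner
  congr 1
  refine Finset.sum_congr rfl fun x _ => ?_
  simp [character]

/-- Brauer's generation criterion. Let G be a finite simple group, H₁ and H₂ subgroups, and χ a non-principal irreducible character. If the multiplicity of the principal character in χ restricted to H₁ ⊓ H₂ is less than the sum of the corresponding multiplicities for H₁ and H₂, then H₁ and H₂ do not generate G. -/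
theorem result {G : Type*} [Group G] [Fintype G] [IsSimpleGroup G] (H₁ H₂ : Subgroup G) [Fintype H₁] [Fintype H₂] [Fintype ↥(H₁ ⊓ H₂)] (χ : G → ℂ) (hχ : Cfsg.IsIrrCharacter G χ) (hχ1 : χ ≠ fun _ => 1) (hlt : (Cfsg.classInner (fun x : ↥(H₁ ⊓ H₂) => χ x) (fun _ => 1)).re < (Cfsg.classInner (fun x : H₁ => χ x) (fun _ => 1)).re + (Cfsg.classInner (fun x : H₂ => χ x) (fun _ => 1)).re) : H₁ ⊔ H₂ ≠ ⊤ := by
  intro htop
  have horth := classInner_irr_ne (χ := (⟨χ, hχ⟩ : Cfsg.IrrCharacter G))
    (ψ := ⟨fun _ => 1, isIrrCharacter_one⟩) (fun h => hχ1 (congrArg Subtype.val h))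
  obtain ⟨n, ρ, hirr, rfl⟩ := hχ
  rw [inner_one_eq_finrank, inner_one_eq_finrank, inner_one_eq_finrank] at hlt
  simp only [Complex.natCast_re] at hlt
  set W₁ := invariants (ρ.comp H₁.subtype)
  set W₂ := invariants (ρ.comp H₂.subtype)
  set W₁₂ := invariants (ρ.comp (H₁ ⊓ H₂).subtype)
  have hlt' : Module.finrank ℂ W₁₂ < Module.finrank ℂ W₁ + Module.finrank ℂ W₂ := by
    exact_mod_cast hlt
  have hle : W₁ ⊔ W₂ ≤ W₁₂ := by
    apply sup_le
    · intro v hv x
      exact hv ⟨x.1, x.2.1⟩
    · intro v hv x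
      exact hv ⟨x.1, x.2.2⟩
  have h1 := Submodule.finrank_sup_add_finrank_inf_eq W₁ W₂
  have h2 := Submodule.finrank_mono hle
  have hpos : 0 < Module.finrank ℂ (W₁ ⊓ W₂ : Submodule ℂ (Fin n → ℂ)) := by omega
  obtain ⟨⟨v, hv⟩, hv0⟩ := Module.finrank_pos_iff_exists_ne_zero.1 hpos
  have hv0' : v ≠ 0 := fun h => hv0 (Subtype.ext h)
  -- v is fixed by the whole group
  let S : Subgroup G :=
    { carrier := {g | ρ g v = v}
      one_mem' := by simp
      mul_mem' := by
        intro a b ha hb
        simp only [Set.mem_setOf_eq] at ha hb ⊢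
        rw [map_mul, Module.End.mul_apply, hb, ha]
      inv_mem' := by
        intro a ha
        simp only [Set.mem_setOf_eq] at ha ⊢
        conv_lhs => rw [← ha]
        rw [← Module.End.mul_apply, ← map_mul, inv_mul_cancel, map_one, Module.End.one_apply] }
  have hS : S = ⊤ := by
    apply top_le_iff.1
    rw [← htop]
    apply sup_le
    · intro x hx
      exact hv.1 ⟨x, hx⟩
    · intro x hx
      exact hv.2 ⟨x, hx⟩
  have hvG : v ∈ invariants ρ := by
    intro g
    have : g ∈ S := by rw [hS]; trivial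
    exact this
  -- but the invariants are zero
  have hne : (Nat.card G : ℂ) ≠ 0 := by exact_mod_cast (Nat.card_pos (α := G)).ne'
  haveI : Invertible (Nat.card G : ℂ) := invertibleOfNonzero hne
  have h3 := card_inv_mul_sum_char_eq_finrank ρ
  have h4 : (Nat.card G : ℂ)⁻¹ * ∑ g : G, ρ.character g = 0 := by
    unfold Cfsg.classInner at horth
    simpa using horth
  rw [h4] at h3
  have h5 : Module.finrank ℂ (invariants ρ) = 0 := by exact_mod_cast h3.symm
  have h6 : invariants ρ = ⊥ := Submodule.finrank_eq_zero.1 h5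
  rw [h6] at hvG
  exact hv0' ((Submodule.mem_bot ℂ).1 hvG)

end Cfsg.Agent.S0192
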