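import Cfsg.Statements.S0194
import Cfsg.Agent.Lib.Helper15.Clifford
import Cfsg.Agent.Lib.Helper81.BrauerPerm
import Cfsg.Agent.Lib.Helper81.FSChar

set_option autoImplicit false
open Cfsg

namespace Cfsg.Agent.S0194

open Cfsg.Agent.Lib.Helper15
open scoped ComplexConjugate

theorem odd_trick {S : Type*} (a b : S → S) (hab : Function.Commute a b)
    (hb : Function.Involutive b) (m : ℕ) (hm : Odd m) (x : S) (hax : a^[m] x = x)
    (h : a (b x) = x) : b x = x ∧ a x = x := by
  have h1 : (a ∘ b)^[m] x = x := Function.iterate_fixed h m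
  rw [hab.comp_iterate, Function.comp_apply, hb.iterate_odd hm] at h1
  have h2 : a^[m] (b x) = b (a^[m] x) := (hab.iterate_left m) x
  rw [h2, hax] at h1
  exact ⟨h1, by rw [h1] at h; exact h⟩

theorem cj_iterate {G : Type*} [Group G] (N : Subgroup G) [N.Normal] (g : G) (n : ℕ) (f : N → ℂ) :
    (cj N g)^[n] f = cj N (g ^ n) f := by
  induction n generalizing f with
  | zero => simp [cj_one]
  | succ n ih => rw [Function.iterate_succ_apply, ih, cj_cj, pow_succ']

/-- Let G have odd order, H be a normal subgroup and θ a non-principal irreducible character of H. Then the function induced from θ is orthogonal to its complex conjugate. -/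
theorem result {G : Type*} [Group G] [Fintype G] (hodd : Odd (Nat.card G)) (H : Subgroup G) [H.Normal] (θ : H → ℂ) (hθ : Cfsg.IsIrrCharacter H θ) (hθ1 : θ ≠ fun _ => 1) : Cfsg.classInner (fun g => conj (Cfsg.indFun H θ g)) (Cfsg.indFun H θ) = 0 := by
  classical
  have := Fintype.ofFinite H
  have hcf : Cfsg.IsClassFunction G (fun g => conj (Cfsg.indFun H θ g)) := by
    intro g h
    simp only
    rw [indFun_isClassFunction H θ g h]
  rw [classInner_indFun_right H θ _ hcf]
  have h1 : (fun h : H => conj (Cfsg.indFun H θ h)) =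
      (Nat.card H : ℂ)⁻¹ • ∑ x : G, (fun h : H => conj (cj H x θ h)) := by
    funext h
    rw [indFun_normal_coe]
    simp [map_sum]
  rw [h1, classInner_smul_left, classInner_sum_left]
  apply mul_eq_zero_of_right
  refine Finset.sum_eq_zero fun x _ => ?_
  have hirr : Cfsg.IsIrrCharacter H (fun h : H => conj (cj H x θ h)) :=
    Cfsg.Agent.Lib.Helper81.IsIrrCharacter.star (irr_cj H x hθ)
  apply irr_inner_ne hirr hθ
  intro heq
  apply hθ1
  have hH : Odd (Nat.card H) := Odd.of_dvd_nat hodd (Subgroup.card_subgroup_dvd_card H)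
  have ht := odd_trick (cj H x) (fun f h => conj (f h)) (fun f => rfl)
    (fun f => by funext k; simp) (Nat.card G) hodd θ
    (by rw [cj_iterate, pow_card_eq_one', cj_one]) heq
  exact Cfsg.Agent.Lib.Helper81.IsIrrCharacter.eq_one_of_real_of_odd hH hθ
    (fun k => Complex.conj_eq_iff_im.1 (congrFun ht.1 k))

end Cfsg.Agent.S0194
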