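import Mathlib
import Cfsg.Agent.Lib.Helper4.Invol
import Cfsg.Statements.S0196

set_option autoImplicit false
open Cfsg

namespace Cfsg.Agent.S0196

/-- Let A be a subgroup of a finite group G that equals the centralizer of each of its non-identity elements, and let N be its normalizer. Then the index of A in N divides |A| − 1 (N/A permutes the non-identity elements of A in orbits of full length). -/
theorem result {G : Type*} [Group G] [Finite G] (A : Subgroup G) (hA : ∀ x ∈ A, x ≠ 1 → Subgroup.centralizer ({x} : Set G) = A) : (A.subgroupOf (Subgroup.normalizer (A : Set G))).index ∣ Nat.card A - 1 := by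
  classical
  haveI : Fintype G := Fintype.ofFinite G
  set N := Subgroup.normalizer (A : Set G) with hN
  let X := {a : G // a ∈ A ∧ a ≠ 1}
  letI act : MulAction N X :=
    { smul := fun n a => ⟨n * a.1 * (n : G)⁻¹, (Subgroup.mem_normalizer_iff.1 n.2 a.1).1 a.2.1, by
        intro h
        apply a.2.2
        have : a.1 = (n : G)⁻¹ * (n * a.1 * (n : G)⁻¹) * n := by group
        rw [this, h]; group⟩
      one_smul := by
        rintro ⟨a, ha⟩
        apply Subtype.ext
        show ((1 : N) : G) * a * ((1 : N) : G)⁻¹ = a
        simp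
      mul_smul := by
        rintro n m ⟨a, ha⟩
        apply Subtype.ext
        show ((n * m : N) : G) * a * ((n * m : N) : G)⁻¹ = n * (m * a * (m : G)⁻¹) * (n : G)⁻¹
        simp only [Subgroup.coe_mul]; group }
  have hstab : ∀ a : X, MulAction.stabilizer N a = A.subgroupOf N := by
    rintro ⟨a, ha, ha1⟩
    ext n
    have hiff : (n : G) ∈ A ↔ (n : G) * a * (n : G)⁻¹ = a := by
      rw [← Lib.Helper4.mem_centralizer_singleton_iff_conj, hA a ha ha1]
    rw [MulAction.mem_stabilizer_iff, Subgroup.mem_subgroupOf, hiff]
    constructor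
    · intro h; exact congrArg Subtype.val h
    · intro h; exact Subtype.ext h
  have hcardX : Nat.card X = Nat.card A - 1 := by
    have e : X ≃ {a : A // a ≠ 1} :=
      ⟨fun a => ⟨⟨a.1, a.2.1⟩, fun h => a.2.2 (congrArg Subtype.val h)⟩,
       fun a => ⟨a.1.1, a.1.2, fun h => a.2 (Subtype.ext h)⟩, fun _ => rfl, fun _ => rfl⟩
    rw [Nat.card_congr e, Nat.card_eq_fintype_card, Nat.card_eq_fintype_card,
      Fintype.card_subtype_compl, Fintype.card_subtype_eq]
  rw [← hcardX]
  have e2 := MulAction.selfEquivSigmaOrbitsQuotientStabilizer N X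
  rw [Nat.card_congr e2, Nat.card_sigma]
  apply Finset.dvd_sum
  intro ω _
  rw [hstab]
  exact dvd_of_eq rfl

end Cfsg.Agent.S0196
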