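import Mathlib
import Cfsg.Agent.Lib.Helper4.KleinSylow
import Cfsg.Statements.S0203

set_option autoImplicit false
open Cfsg

namespace Cfsg.Agent.S0203

/-- If a Sylow 2-subgroup P of a finite group G is a Klein four-group, then G has three classes of involutions if and only if P has a normal complement in G. -/
theorem result {G : Type*} [Group G] [Finite G] (P : Sylow 2 G) (hP : IsKleinFour (P : Subgroup G)) : Nat.card {C : ConjClasses G // ∃ t : G, orderOf t = 2 ∧ ConjClasses.mk t = C} = 3 ↔ ∃ N : Subgroup G, N.Normal ∧ Subgroup.IsComplement' N (P : Subgroup G) := by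
  haveI : Fact (Nat.Prime 2) := ⟨Nat.prime_two⟩
  have key := Lib.Helper4.card_invCl_eq_three_iff P hP
  unfold Lib.Helper4.InvCl at key
  rw [key]
  constructor
  · intro hinj
    have hle : Subgroup.normalizer ((P : Subgroup G) : Set G) ≤
        Subgroup.centralizer ((P : Subgroup G) : Set G) := by
      intro n hn
      rw [Subgroup.mem_centralizer_iff]
      intro x hx
      by_cases hx1 : x = 1
      · rw [hx1]; simp
      have hxn : n * x * n⁻¹ ∈ (P : Subgroup G) := (Subgroup.mem_normalizer_iff.1 hn x).1 hx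
      have hxn1 : n * x * n⁻¹ ≠ 1 := by
        intro h
        exact hx1 (conj_eq_one_iff.1 h)
      have heq : Lib.Helper4.kleinPhi (P : Subgroup G) hP ⟨⟨x, hx⟩, fun h => hx1 (congrArg Subtype.val h)⟩ =
          Lib.Helper4.kleinPhi (P : Subgroup G) hP ⟨⟨n * x * n⁻¹, hxn⟩, fun h => hxn1 (congrArg Subtype.val h)⟩ := by
        apply Subtype.ext
        exact ConjClasses.mk_eq_mk_iff_isConj.2 (isConj_iff.2 ⟨n, rfl⟩)
      have h2 := hinj heq
      have h3 : x = n * x * n⁻¹ := congrArg (fun z : {x : (P : Subgroup G) // x ≠ 1} => (z.1 : G)) h2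
      calc x * n = (n * x * n⁻¹) * n := by rw [← h3]
        _ = n * x := by group
    exact ⟨_, MonoidHom.normal_ker _, MonoidHom.ker_transferSylow_isComplement' P hle⟩
  · rintro ⟨N, hN, hc⟩
    rintro ⟨⟨x, hx⟩, hx1⟩ ⟨⟨y, hy⟩, hy1⟩ he
    have hconj : IsConj x y := ConjClasses.mk_eq_mk_iff_isConj.1 (congrArg Subtype.val he)
    obtain ⟨g, hg⟩ := isConj_iff.1 hconj
    obtain ⟨⟨⟨n, hn⟩, ⟨p, hp⟩⟩, hnp⟩ := hc.2 g
    simp only at hnp
    have h1 : y = n * x * n⁻¹ := by
      rw [← hg, ← hnp]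
      calc n * p * x * (n * p)⁻¹ = n * (p * x * p⁻¹) * n⁻¹ := by group
        _ = n * x * n⁻¹ := by
          rw [Lib.Helper4.klein_comm hP hp hx]; group
    have h2 : y * x⁻¹ ∈ N := by
      rw [h1]
      have : n * x * n⁻¹ * x⁻¹ = n * (x * n⁻¹ * x⁻¹) := by group
      rw [this]
      exact N.mul_mem hn (hN.conj_mem _ (N.inv_mem hn) x)
    have h3 : y * x⁻¹ ∈ (P : Subgroup G) := Subgroup.mul_mem _ hy (Subgroup.inv_mem _ hx)
    have h4 : y * x⁻¹ ∈ N ⊓ (P : Subgroup G) := ⟨h2, h3⟩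
    rw [hc.disjoint.eq_bot, Subgroup.mem_bot] at h4
    have h5 : y = x := mul_inv_eq_one.1 h4
    subst h5
    rfl

end Cfsg.Agent.S0203
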