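import Mathlib
import Cfsg.Agent.Lib.Helper4.Dihedral
import Cfsg.Statements.S0210

set_option autoImplicit false
open Cfsg

namespace Cfsg.Agent.S0210

/-- If x, y are involutions whose product has even order, no element of the subgroup generated by x and y conjugates x to y. -/
theorem result {G : Type*} [Group G] [Finite G] (x y : G) (hx : orderOf x = 2) (hy : orderOf y = 2) (heven : Even (orderOf (x * y))) (d : G) (hd : d ∈ Subgroup.closure ({x, y} : Set G)) : d * x * d⁻¹ ≠ y := by
  have hx2 := Lib.Helper4.sq_eq_one_of_orderOf_two hx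
  have hy2 := Lib.Helper4.sq_eq_one_of_orderOf_two hy
  obtain ⟨j, hj⟩ := Lib.Helper4.conj_mem_closure_pair hx2 hy2 hd
  intro h
  rw [hj] at h
  have h3 : (x * y) ^ (2 * j) * x = (x * y) ^ (-1 : ℤ) * x := by
    rw [h]; exact Lib.Helper4.y_eq hx2 hy2
  have h4 := mul_right_cancel h3
  have h5 : (x * y) ^ (2 * j + 1) = 1 := by
    rw [zpow_add, h4]; simp
  have h6 := (orderOf_dvd_iff_zpow_eq_one).2 h5
  obtain ⟨k, hk⟩ := heven
  rw [hk] at h6
  obtain ⟨c, hc⟩ := h6
  push_cast at hc
  have : (2 : ℤ) ∣ 1 := ⟨k * c - j, by linarith⟩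
  omega

end Cfsg.Agent.S0210
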