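import Mathlib
import Cfsg.Agent.Lib.Helper4.Invol
import Cfsg.Statements.S0237

set_option autoImplicit false
open Cfsg

namespace Cfsg.Agent.S0237

/-- If x is real (conjugate to x⁻¹) in a finite group G, the number of g with g x g⁻¹ = x⁻¹ equals |C_G(x)|. -/
theorem result {G : Type*} [Group G] [Finite G] (x : G) (hreal : IsConj x x⁻¹) : Nat.card {g : G // g * x * g⁻¹ = x⁻¹} = Nat.card (Subgroup.centralizer ({x} : Set G)) := by
  obtain ⟨g, hg⟩ := isConj_iff.1 hreal
  symm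
  apply Nat.card_congr
  refine ⟨fun c => ⟨g * c, ?_⟩, fun d => ⟨g⁻¹ * d, ?_⟩, ?_, ?_⟩
  · have hc := Lib.Helper4.mem_centralizer_singleton_iff_conj.1 c.2
    calc g * c * x * (g * c)⁻¹ = g * (c * x * (c : G)⁻¹) * g⁻¹ := by group
      _ = x⁻¹ := by rw [hc, hg]
  · rw [Lib.Helper4.mem_centralizer_singleton_iff_conj]
    have hd := d.2
    calc g⁻¹ * d * x * (g⁻¹ * d)⁻¹ = g⁻¹ * (d * x * (d : G)⁻¹) * g := by group
      _ = g⁻¹ * (g * x * g⁻¹) * g := by rw [hd, hg]
      _ = x := by group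
  · intro c; ext; simp
  · intro c; ext; simp

end Cfsg.Agent.S0237
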