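import Mathlib
import Cfsg.Agent.Lib.Helper4.Invol
import Cfsg.Statements.S0236

set_option autoImplicit false
open Cfsg

namespace Cfsg.Agent.S0236

/-- If x is an involution, the number of ordered pairs (u, v) of involutions with uv = x, plus one, equals the number of involutions in the centralizer of x. -/
theorem result {G : Type*} [Group G] [Finite G] (x : G) (hx : orderOf x = 2) : Nat.card {p : G × G // orderOf p.1 = 2 ∧ orderOf p.2 = 2 ∧ p.1 * p.2 = x} + 1 = Nat.card {t : G // orderOf t = 2 ∧ Commute t x} := by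
  classical
  have hx2 := Lib.Helper4.sq_eq_one_of_orderOf_two hx
  have hxi := Lib.Helper4.inv_eq_self_of_orderOf_two hx
  have e : {p : G × G // orderOf p.1 = 2 ∧ orderOf p.2 = 2 ∧ p.1 * p.2 = x} ≃
      {t : {t : G // orderOf t = 2 ∧ Commute t x} // t ≠ ⟨x, hx, Commute.refl x⟩} := by
    refine ⟨fun p => ⟨⟨p.1.1, p.2.1, ?_⟩, ?_⟩, fun t => ⟨(t.1.1, t.1.1 * x), t.1.2.1, ?_, ?_⟩, ?_, ?_⟩
    · obtain ⟨⟨u, v⟩, hu, hv, huv⟩ := p
      simp only at hu hv huv ⊢
      have := Lib.Helper4.invol_inverts_mul (Lib.Helper4.sq_eq_one_of_orderOf_two hu)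
        (Lib.Helper4.sq_eq_one_of_orderOf_two hv)
      rw [huv, hxi, mul_inv_eq_iff_eq_mul] at this
      exact this
    · obtain ⟨⟨u, v⟩, hu, hv, huv⟩ := p
      simp only at hu hv huv ⊢
      intro h
      rw [Subtype.mk.injEq] at h
      rw [h] at huv
      have : v = 1 := by simpa using huv
      exact Lib.Helper4.ne_one_of_orderOf_two hv this
    · obtain ⟨⟨t, ht, htx⟩, hne⟩ := t
      simp only
      have ht2 := Lib.Helper4.sq_eq_one_of_orderOf_two ht
      have hti := Lib.Helper4.inv_eq_self_of_orderOf_two ht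
      apply Lib.Helper4.orderOf_two_of_sq
      · rw [mul_assoc, ← mul_assoc x, ← htx.eq, mul_assoc, hx2, mul_one, ht2]
      · intro h
        apply hne
        rw [Subtype.mk.injEq]
        rw [← hxi]; exact eq_inv_of_mul_eq_one_left h
    · obtain ⟨⟨t, ht, htx⟩, hne⟩ := t
      simp only
      rw [← mul_assoc, Lib.Helper4.sq_eq_one_of_orderOf_two ht, one_mul]
    · rintro ⟨⟨u, v⟩, hu, hv, huv⟩
      simp only at hu hv huv ⊢
      ext
      · rfl
      · simp only
        rw [← huv, ← mul_assoc, Lib.Helper4.sq_eq_one_of_orderOf_two hu, one_mul]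
    · rintro ⟨⟨t, ht, htx⟩, hne⟩
      rfl
  rw [Nat.card_congr e]
  haveI : Fintype G := Fintype.ofFinite G
  rw [Nat.card_eq_fintype_card, Nat.card_eq_fintype_card, Fintype.card_subtype_compl,
    Fintype.card_subtype_eq]
  have : 0 < Fintype.card {t : G // orderOf t = 2 ∧ Commute t x} :=
    Fintype.card_pos_iff.2 ⟨⟨x, hx, Commute.refl x⟩⟩
  omega

end Cfsg.Agent.S0236
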