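import Mathlib
import Cfsg.Agent.Lib.Helper4.Invol
import Cfsg.Agent.S0236
import Cfsg.Agent.S0237
import Cfsg.Statements.S0238

set_option autoImplicit false
open Cfsg

namespace Cfsg.Agent.S0238

/-- For every x in a finite group G, the number c of ordered pairs (u, v) of involutions with uv = x is at most |C_G(x)|; c = 0 when x is not conjugate to x⁻¹; and c + 2 ≤ |C_G(x)| when x is an involution. -/
theorem result {G : Type*} [Group G] [Finite G] (x : G) : Nat.card {p : G × G // orderOf p.1 = 2 ∧ orderOf p.2 = 2 ∧ p.1 * p.2 = x} ≤ Nat.card (Subgroup.centralizer ({x} : Set G)) ∧ (¬ IsConj x x⁻¹ → Nat.card {p : G × G // orderOf p.1 = 2 ∧ orderOf p.2 = 2 ∧ p.1 * p.2 = x} = 0) ∧ (orderOf x = 2 → Nat.card {p : G × G // orderOf p.1 = 2 ∧ orderOf p.2 = 2 ∧ p.1 * p.2 = x} + 2 ≤ Nat.card (Subgroup.centralizer ({x} : Set G))) := by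
  classical
  have hreal : ∀ p : {p : G × G // orderOf p.1 = 2 ∧ orderOf p.2 = 2 ∧ p.1 * p.2 = x},
      p.1.1 * x * p.1.1⁻¹ = x⁻¹ := by
    rintro ⟨⟨u, v⟩, hu, hv, huv⟩
    simp only at hu hv huv ⊢
    rw [← huv]
    exact Lib.Helper4.invol_inverts_mul (Lib.Helper4.sq_eq_one_of_orderOf_two hu)
      (Lib.Helper4.sq_eq_one_of_orderOf_two hv)
  have h2 : ¬ IsConj x x⁻¹ →
      Nat.card {p : G × G // orderOf p.1 = 2 ∧ orderOf p.2 = 2 ∧ p.1 * p.2 = x} = 0 := by
    intro hn
    haveI : IsEmpty {p : G × G // orderOf p.1 = 2 ∧ orderOf p.2 = 2 ∧ p.1 * p.2 = x} :=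
      ⟨fun p => hn (isConj_iff.2 ⟨_, hreal p⟩)⟩
    exact Nat.card_of_isEmpty
  refine ⟨?_, h2, ?_⟩
  · by_cases hr : IsConj x x⁻¹
    · rw [← Cfsg.Agent.S0237.result x hr]
      apply Nat.card_le_card_of_injective (fun p => (⟨p.1.1, hreal p⟩ : {g : G // g * x * g⁻¹ = x⁻¹}))
      rintro ⟨⟨u, v⟩, hu, hv, huv⟩ ⟨⟨u', v'⟩, hu', hv', huv'⟩ h
      simp only [Subtype.mk.injEq] at h
      subst h
      simp only at huv huv'
      have : v = v' := by
        apply mul_left_cancel (a := u)
        rw [huv, huv']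
      subst this
      rfl
    · rw [h2 hr]; exact Nat.zero_le _
  · intro hx
    have h3 := Cfsg.Agent.S0236.result x hx
    have h4 : Nat.card (Option {t : G // orderOf t = 2 ∧ Commute t x}) ≤
        Nat.card (Subgroup.centralizer ({x} : Set G)) := by
      apply Nat.card_le_card_of_injective (fun o => match o with
        | none => (1 : Subgroup.centralizer ({x} : Set G))
        | some t => ⟨t.1, Lib.Helper4.mem_centralizer_singleton.2 t.2.2.eq.symm⟩)
      rintro (_ | ⟨t, ht, htx⟩) (_ | ⟨t', ht', htx'⟩) h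
      · rfl
      · simp only at h
        have : t' = 1 := by
          have := congrArg Subtype.val h
          simpa using this.symm
        exact absurd this (Lib.Helper4.ne_one_of_orderOf_two ht')
      · simp only at h
        have : t = 1 := by
          have := congrArg Subtype.val h
          simpa using this
        exact absurd this (Lib.Helper4.ne_one_of_orderOf_two ht)
      · simp only [Subtype.mk.injEq] at h
        subst h
        rfl
    rw [Finite.card_option] at h4
    omega

end Cfsg.Agent.S0238
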