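import Mathlib
import Cfsg.Agent.Lib.Helper4.Invol
import Cfsg.Agent.S0237
import Cfsg.Agent.S0238
import Cfsg.Statements.S0233

set_option autoImplicit false
open Cfsg

namespace Cfsg.Agent.S0233

/-- the extended centralizer `C*(x)` -/
def cstar {G : Type*} [Group G] (x : G) : Subgroup G where
  carrier := {g | MulAut.conj g x = x ∨ MulAut.conj g x = x⁻¹}
  one_mem' := Or.inl (by simp)
  mul_mem' := by
    rintro a b (ha | ha) (hb | hb)
    · left; rw [map_mul, MulAut.mul_apply, hb, ha]
    · right; rw [map_mul, MulAut.mul_apply, hb, map_inv, ha]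
    · right; rw [map_mul, MulAut.mul_apply, hb, ha]
    · left; rw [map_mul, MulAut.mul_apply, hb, map_inv, ha, inv_inv]
  inv_mem' := by
    rintro a (ha | ha)
    · left
      rw [map_inv, MulAut.inv_apply, MulEquiv.symm_apply_eq, ha]
    · right
      rw [map_inv, MulAut.inv_apply, MulEquiv.symm_apply_eq, map_inv, ha, inv_inv]

theorem card_cstar {G : Type*} [Group G] [Finite G] (x : G) (hx : x ^ 2 ≠ 1) (hreal : IsConj x x⁻¹) :
    Nat.card (cstar x) = 2 * Nat.card (Subgroup.centralizer ({x} : Set G)) := by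
  classical
  have hdisj : Disjoint (fun g : G => g * x * g⁻¹ = x) (fun g : G => g * x * g⁻¹ = x⁻¹) := by
    rw [Pi.disjoint_iff]
    intro g
    rw [Prop.disjoint_iff]
    rintro ⟨h1, h2⟩
    apply hx
    rw [h1] at h2
    rw [pow_two]
    nth_rewrite 1 [h2]
    simp
  have e1 : cstar x ≃ {g : G // g * x * g⁻¹ = x ∨ g * x * g⁻¹ = x⁻¹} :=
    Equiv.subtypeEquivRight (fun g => Iff.rfl)
  have e2 : {g : G // g * x * g⁻¹ = x} ≃ Subgroup.centralizer ({x} : Set G) :=
    Equiv.subtypeEquivRight (fun g => Lib.Helper4.mem_centralizer_singleton_iff_conj.symm)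
  rw [Nat.card_congr e1, Nat.card_congr (subtypeOrEquiv _ _ hdisj), Nat.card_sum,
    Cfsg.Agent.S0237.result x hreal, Nat.card_congr e2, two_mul]

/-- number of ordered pairs of involutions with product `x` -/
noncomputable def beta {G : Type*} [Group G] (x : G) : ℕ :=
  Nat.card {p : G × G // orderOf p.1 = 2 ∧ orderOf p.2 = 2 ∧ p.1 * p.2 = x}

theorem sum_beta {G : Type*} [Group G] [Fintype G] :
    ∑ x : G, beta x = (Nat.card {t : G // orderOf t = 2}) ^ 2 := by
  unfold beta
  rw [← Nat.card_sigma, pow_two, ← Nat.card_prod]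
  apply Nat.card_congr
  refine ⟨fun p => (⟨p.2.1.1, p.2.2.1⟩, ⟨p.2.1.2, p.2.2.2.1⟩),
    fun q => ⟨q.1.1 * q.2.1, ⟨(q.1.1, q.2.1), q.1.2, q.2.2, rfl⟩⟩, ?_, ?_⟩
  · rintro ⟨x, ⟨⟨u, v⟩, hu, hv, h⟩⟩
    simp only at h
    subst h
    rfl
  · rintro ⟨⟨u, hu⟩, ⟨v, hv⟩⟩
    rfl

theorem beta_one {G : Type*} [Group G] : beta (1 : G) = Nat.card {t : G // orderOf t = 2} := by
  unfold beta
  apply Nat.card_congr
  refine ⟨fun p => ⟨p.1.1, p.2.1⟩, fun t => ⟨(t.1, t.1), t.2, t.2,
    Lib.Helper4.sq_eq_one_of_orderOf_two t.2⟩, ?_, ?_⟩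
  · rintro ⟨⟨u, v⟩, hu, hv, h⟩
    simp only at hu hv h
    have : v = u := by
      rw [← Lib.Helper4.inv_eq_self_of_orderOf_two hu]
      exact eq_inv_of_mul_eq_one_right h
    subst this
    rfl
  · rintro ⟨t, ht⟩
    rfl

/-- Let G be a finite group of even order with exactly n involutions whose centre has odd order, and put a = |G|/n. Then G has a proper subgroup H with |G : H| = 2 or |G : H| < a(a+1)/2; over ℕ the latter reads 2·|G:H|·n² < |G|·(|G| + n). -/
theorem result {G : Type*} [Group G] [Finite G] (heven : Even (Nat.card G)) (hZ : Odd (Nat.card (Subgroup.center G))) : ∃ H : Subgroup G, H ≠ ⊤ ∧ (H.index = 2 ∨ 2 * H.index * (Nat.card {t : G // orderOf t = 2}) ^ 2 < Nat.card G * (Nat.card G + Nat.card {t : G // orderOf t = 2})) := by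
  classical
  haveI : Fintype G := Fintype.ofFinite G
  haveI : Fact (Nat.Prime 2) := ⟨Nat.prime_two⟩
  by_contra hcon
  push Not at hcon
  set n := Nat.card {t : G // orderOf t = 2} with hn
  set g := Nat.card G with hg
  set B := g * (g + n) with hB
  have hgpos : 0 < g := Nat.card_pos
  have hnpos : 0 < n := by
    obtain ⟨t, ht⟩ := exists_prime_orderOf_dvd_card' (G := G) 2 (even_iff_two_dvd.1 heven)
    exact Nat.card_pos_iff.2 ⟨⟨⟨t, ht⟩⟩, inferInstance⟩
  -- bound for involutions
  have hI : ∀ x : G, orderOf x = 2 → beta x * B + 2 * B ≤ 2 * g * n ^ 2 := by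
    intro x hx
    have h1 := (Cfsg.Agent.S0238.result x).2.2 hx
    have hne : Subgroup.centralizer ({x} : Set G) ≠ ⊤ := by
      intro htop
      have hxZ : x ∈ Subgroup.center G := by
        rw [Subgroup.mem_center_iff]
        intro y
        have : y ∈ Subgroup.centralizer ({x} : Set G) := by rw [htop]; trivial
        exact (Lib.Helper4.mem_centralizer_singleton.1 this).symm
      have := orderOf_dvd_natCard (⟨x, hxZ⟩ : Subgroup.center G)
      rw [← Subgroup.orderOf_coe] at this
      simp only at this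
      rw [hx] at this
      exact (Nat.not_even_iff_odd.2 hZ) (even_iff_two_dvd.2 this)
    have h2 := (hcon _ hne).2
    have h3 := (Subgroup.centralizer ({x} : Set G)).card_mul_index
    rw [← hg] at h3
    set c := Nat.card (Subgroup.centralizer ({x} : Set G)) with hc
    set i := (Subgroup.centralizer ({x} : Set G)).index with hi
    calc beta x * B + 2 * B = (beta x + 2) * B := by ring
      _ ≤ c * B := Nat.mul_le_mul_right _ h1
      _ ≤ c * (2 * i * n ^ 2) := Nat.mul_le_mul_left _ h2
      _ = 2 * (c * i) * n ^ 2 := by ring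
      _ = 2 * g * n ^ 2 := by rw [h3]
  -- bound for non-involutions
  have hR : ∀ x : G, x ^ 2 ≠ 1 → beta x * B ≤ g * n ^ 2 := by
    intro x hx
    by_cases hb : beta x = 0
    · rw [hb, zero_mul]; exact Nat.zero_le _
    have hreal : IsConj x x⁻¹ := by
      by_contra hnr
      exact hb ((Cfsg.Agent.S0238.result x).2.1 hnr)
    have h1 := (Cfsg.Agent.S0238.result x).1
    have hcs := card_cstar x hx hreal
    have h3 := (Subgroup.centralizer ({x} : Set G)).card_mul_index
    rw [← hg] at h3
    have h4 := (cstar x).card_mul_index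
    rw [← hg] at h4
    set c := Nat.card (Subgroup.centralizer ({x} : Set G)) with hc
    have hcpos : 0 < c := Nat.card_pos
    have hne : cstar x ≠ ⊤ := by
      intro htop
      rw [htop, Subgroup.card_top, ← hg] at hcs
      have hidx : (Subgroup.centralizer ({x} : Set G)).index = 2 := by
        rw [hcs, mul_comm 2 c] at h3
        exact Nat.eq_of_mul_eq_mul_left hcpos h3
      have hne2 : Subgroup.centralizer ({x} : Set G) ≠ ⊤ := by
        intro h
        rw [h, Subgroup.index_top] at hidx
        omega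
      exact (hcon _ hne2).1 hidx
    have h2 := (hcon _ hne).2
    rw [hcs] at h4
    set i := (cstar x).index with hi
    have h5 : 2 * (beta x * B) ≤ 2 * (g * n ^ 2) := by
      calc 2 * (beta x * B) ≤ 2 * (c * B) := Nat.mul_le_mul_left _ (Nat.mul_le_mul_right _ h1)
        _ ≤ 2 * (c * (2 * i * n ^ 2)) := Nat.mul_le_mul_left _ (Nat.mul_le_mul_left _ h2)
        _ = 2 * ((2 * c * i) * n ^ 2) := by ring
        _ = 2 * (g * n ^ 2) := by rw [h4]
    omega
  -- splitting the sum
  have hsum := sum_beta (G := G)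
  rw [← hn] at hsum
  have hsplit1 := Finset.sum_filter_add_sum_filter_not (Finset.univ : Finset G) (fun x => x ^ 2 = 1) beta
  have hfil : (Finset.univ.filter (fun x : G => x ^ 2 = 1)) =
      insert 1 (Finset.univ.filter (fun x : G => orderOf x = 2)) := by
    ext x
    simp only [Finset.mem_filter, Finset.mem_univ, true_and, Finset.mem_insert]
    constructor
    · intro h
      by_cases h1 : x = 1
      · left; exact h1
      · right; exact orderOf_eq_prime h h1
    · rintro (rfl | h)
      · simp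
      · rw [← h]; exact pow_orderOf_eq_one x
  have hnotin : (1 : G) ∉ Finset.univ.filter (fun x : G => orderOf x = 2) := by simp
  have hcardI : (Finset.univ.filter (fun x : G => orderOf x = 2)).card = n := by
    rw [hn, Nat.card_eq_fintype_card, Fintype.card_subtype]
  have hcardR : (Finset.univ.filter (fun x : G => ¬ x ^ 2 = 1)).card + (n + 1) = g := by
    have := Finset.card_filter_add_card_filter_not (s := (Finset.univ : Finset G)) (fun x : G => x ^ 2 = 1)
    rw [hfil, Finset.card_insert_of_notMem hnotin, hcardI, Finset.card_univ,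
      ← Nat.card_eq_fintype_card, ← hg] at this
    omega
  rw [hfil, Finset.sum_insert hnotin, beta_one, ← hn, hsum] at hsplit1
  set SI := ∑ x ∈ Finset.univ.filter (fun x : G => orderOf x = 2), beta x with hSI
  set SR := ∑ x ∈ Finset.univ.filter (fun x : G => ¬ x ^ 2 = 1), beta x with hSR
  set r := (Finset.univ.filter (fun x : G => ¬ x ^ 2 = 1)).card with hr
  have hSIb : SI * B + n * (2 * B) ≤ n * (2 * g * n ^ 2) := by
    have h1 : ∑ x ∈ Finset.univ.filter (fun x : G => orderOf x = 2), (beta x * B + 2 * B) ≤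
        ∑ _x ∈ Finset.univ.filter (fun x : G => orderOf x = 2), 2 * g * n ^ 2 := by
      apply Finset.sum_le_sum
      intro x hx
      exact hI x (Finset.mem_filter.1 hx).2
    rw [Finset.sum_add_distrib, Finset.sum_const, Finset.sum_const, hcardI, smul_eq_mul, smul_eq_mul,
      ← Finset.sum_mul] at h1
    exact h1
  have hSRb : SR * B ≤ r * (g * n ^ 2) := by
    rw [hSR, Finset.sum_mul, hr, ← smul_eq_mul (a := Finset.card _), ← Finset.sum_const]
    apply Finset.sum_le_sum
    intro x hx
    exact hR x (Finset.mem_filter.1 hx).2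
  have hBpos : 0 < B := by positivity
  zify at hsplit1 hSIb hSRb hcardR hB hnpos hgpos hBpos
  have hr' : (r : ℤ) = g - n - 1 := by linarith
  have e1 : ((n : ℤ) + SI + SR) * B = (n : ℤ) ^ 2 * B := by rw [hsplit1]
  have e2 : (n : ℤ) ^ 2 * B + n * B ≤ 2 * g * n ^ 3 + r * g * n ^ 2 := by nlinarith
  rw [hr'] at e2
  have e3 : 2 * (g : ℤ) * n ^ 3 + (g - n - 1) * g * n ^ 2 = n ^ 2 * B - g * n ^ 2 := by
    rw [hB]; ring
  rw [e3] at e2
  have e4 : 0 < (n : ℤ) * B + g * n ^ 2 := by positivity
  linarith

end Cfsg.Agent.S0233
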