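import Mathlib
import Cfsg.Agent.Lib.Helper4.SimpleIndex
import Cfsg.Agent.Lib.Helper4.ConjCount
import Cfsg.Agent.S0233
import Cfsg.Statements.S0212

set_option autoImplicit false
open Cfsg

namespace Cfsg.Agent.S0212

/-- The Brauer–Fowler bound: if G is a finite simple group and t an involution of G whose centralizer has order n, then |G| ≤ (2n^2)!. -/
theorem result {G : Type*} [Group G] [Finite G] [IsSimpleGroup G] (t : G) (ht : orderOf t = 2) : Nat.card G ≤ Nat.factorial (2 * (Nat.card (Subgroup.centralizer ({t} : Set G))) ^ 2) := by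
  classical
  set c := Nat.card (Subgroup.centralizer ({t} : Set G)) with hc
  set g := Nat.card G with hg
  have hcpos : 0 < c := Nat.card_pos
  rcases IsSimpleGroup.eq_bot_or_eq_top_of_normal (Subgroup.center G) inferInstance with hZ | hZ
  · have hodd : Odd (Nat.card (Subgroup.center G)) := by
      rw [hZ, Subgroup.card_bot]; exact odd_one
    have heven : Even (Nat.card G) := by
      rw [even_iff_two_dvd, ← ht]; exact orderOf_dvd_natCard t
    obtain ⟨H, hH, hidx⟩ := Cfsg.Agent.S0233.result heven hodd
    set n := Nat.card {t : G // orderOf t = 2} with hn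
    have hle : g ≤ n * c := by
      rw [hg, ← Lib.Helper4.card_conj_mul_card_centralizer t]
      apply Nat.mul_le_mul_right
      apply Nat.card_le_card_of_injective
        (fun v : {v : G // IsConj t v} => (⟨v.1, by
          obtain ⟨a, ha⟩ := isConj_iff.1 v.2
          rw [← ha, Lib.Helper4.orderOf_conj_eq, ht]⟩ : {t : G // orderOf t = 2}))
      intro a b h
      have h' : a.1 = b.1 := congrArg (fun z : {t : G // orderOf t = 2} => z.1) h
      exact Subtype.ext h'
    have hnpos : 0 < n := Nat.card_pos_iff.2 ⟨⟨⟨t, ht⟩⟩, inferInstance⟩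
    have hbound : H.index ≤ 2 * c ^ 2 := by
      rcases hidx with h2 | h2
      · rw [h2]
        have : 1 ≤ c ^ 2 := Nat.one_le_pow _ _ hcpos
        omega
      · rw [← hg] at h2
        have h3 : g * (g + n) ≤ (n * c) * (n * c + n) :=
          Nat.mul_le_mul hle (Nat.add_le_add_right hle n)
        have h4 : 2 * H.index * n ^ 2 < (c * (c + 1)) * n ^ 2 := by
          calc 2 * H.index * n ^ 2 < g * (g + n) := h2
            _ ≤ (n * c) * (n * c + n) := h3
            _ = (c * (c + 1)) * n ^ 2 := by ring
        have h5 : 2 * H.index < c * (c + 1) := Nat.lt_of_mul_lt_mul_right h4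
        have h6 : c * (c + 1) ≤ 2 * c ^ 2 := by nlinarith
        omega
    exact (Lib.Helper4.card_le_factorial_index_of_simple H hH).trans (Nat.factorial_le hbound)
  · have hcg : c = g := by
      have : Subgroup.centralizer ({t} : Set G) = ⊤ := by
        rw [eq_top_iff]
        intro y _
        rw [Lib.Helper4.mem_centralizer_singleton]
        have : t ∈ Subgroup.center G := by rw [hZ]; trivial
        exact ((Subgroup.mem_center_iff.1 this) y).symm
      rw [hc, this, Subgroup.card_top]
    rw [hcg]
    have hgpos : 0 < g := Nat.card_pos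
    calc g ≤ 2 * g ^ 2 := by nlinarith
      _ ≤ Nat.factorial (2 * g ^ 2) := Nat.self_le_factorial _

end Cfsg.Agent.S0212
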