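import Mathlib
import Cfsg.Statements.S0218

set_option autoImplicit false
open Cfsg

namespace Cfsg.Agent.S0218

/-- The generalized quaternion group of order 2^(n+3) contains exactly one element of order 2. -/
theorem result (n : ℕ) : Nat.card {x : QuaternionGroup (2 ^ (n + 1)) // orderOf x = 2} = 1 := by
  haveI : NeZero (2 ^ (n + 1)) := ⟨by positivity⟩
  rw [Nat.card_eq_one_iff_unique]
  set m := 2 ^ (n + 1) with hm
  have hmpos : 0 < m := by positivity
  haveI : NeZero (2 * m) := ⟨by positivity⟩
  have hchar : ∀ x : QuaternionGroup m, orderOf x = 2 → x = QuaternionGroup.a (m : ZMod (2 * m)) := by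
    intro x hx
    cases x with
    | a i =>
      have h1 : (QuaternionGroup.a i) ^ 2 = 1 := by rw [← hx]; exact pow_orderOf_eq_one _
      have h0 : QuaternionGroup.a i ≠ 1 := by
        intro h; rw [h] at hx; simp at hx
      rw [pow_two, QuaternionGroup.a_mul_a, QuaternionGroup.one_def, QuaternionGroup.a.injEq] at h1
      rw [QuaternionGroup.one_def, Ne, QuaternionGroup.a.injEq] at h0
      congr 1
      have h2 : ((i.val + i.val : ℕ) : ZMod (2 * m)) = 0 := by
        push_cast
        rw [ZMod.natCast_zmod_val]; exact h1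
      rw [ZMod.natCast_eq_zero_iff] at h2
      have h3 : i.val < 2 * m := ZMod.val_lt i
      have h4 : i.val ≠ 0 := by
        intro h; apply h0; exact (ZMod.val_eq_zero i).1 h
      obtain ⟨c, hc⟩ := h2
      have h5 : i.val = m := by
        have hc1 : c = 1 := by
          rcases c with _ | _ | c
          · omega
          · rfl
          · exfalso
            have : 2 * m * (c + 1 + 1) ≥ 2 * m * 2 := Nat.mul_le_mul_left _ (by omega)
            omega
        subst hc1; omega
      have h6 : ((i.val : ℕ) : ZMod (2 * m)) = ((m : ℕ) : ZMod (2 * m)) := congrArg _ h5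
      rw [ZMod.natCast_zmod_val] at h6
      exact h6
    | xa i =>
      rw [QuaternionGroup.orderOf_xa] at hx
      omega
  refine ⟨⟨?_⟩, ⟨⟨QuaternionGroup.a (m : ZMod (2 * m)), ?_⟩⟩⟩
  · rintro ⟨a, ha⟩ ⟨b, hb⟩
    rw [Subtype.mk.injEq, hchar a ha, hchar b hb]
  · apply orderOf_eq_prime
    · rw [pow_two, QuaternionGroup.a_mul_a, QuaternionGroup.one_def]
      congr 1
      have : ((m + m : ℕ) : ZMod (2 * m)) = 0 := by
        rw [ZMod.natCast_eq_zero_iff]; exact ⟨1, by ring⟩
      push_cast at this
      exact this
    · rw [QuaternionGroup.one_def, Ne, QuaternionGroup.a.injEq, ZMod.natCast_eq_zero_iff]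
      intro h
      have := Nat.le_of_dvd hmpos h
      omega

end Cfsg.Agent.S0218
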