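import Cfsg.Statements.S0221
import Cfsg.Agent.Lib.Helper21.TwoGroupCount
import Cfsg.Agent.Lib.Helper21.Fusion
import Cfsg.Agent.S0111

set_option autoImplicit false
open Cfsg

namespace Cfsg.Agent.S0221

open Cfsg.Agent.Lib.Helper21 in
/-- the local statement: `y` in `T = C_P(s)` -/
theorem aux {G : Type*} [Group G] [Finite G] (P E : Subgroup G) (hEP : E ≤ P)
    (hE8 : Nat.card E = 8) (hE2 : ∀ e ∈ E, e ^ 2 = 1) (z s : G) (hz : orderOf z = 2)
    (hzc : ∀ g ∈ P, g * z = z * g) (hs2 : orderOf s = 2) (hsz : s ≠ z)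
    (hsP : s ∈ P)
    (hcard : Nat.card P ≤ 2 * Nat.card ↥(P ⊓ Subgroup.centralizer {s}))
    (y : G) (hy : orderOf y = 2) (hyT : y ∈ P ⊓ Subgroup.centralizer {s}) :
    ∃ E' : Subgroup G, E' ≤ Subgroup.centralizer ({y} : Set G) ∧ Nat.card E' = 8 ∧
      ∀ e ∈ E', e ^ 2 = 1 := by
  have hsq : ∀ w : G, orderOf w = 2 → w * w = 1 := by
    intro w hw
    rw [← pow_two, ← hw]; exact pow_orderOf_eq_one w
  have hne : ∀ w : G, orderOf w = 2 → w ≠ 1 := by
    rintro w hw rfl
    simp at hw
  have hys : y * s = s * y := Subgroup.mem_centralizer_singleton_iff.mp hyT.2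
  have hyz : y * z = z * y := hzc y hyT.1
  -- general extension step
  have key : ∀ F : Subgroup G, (∀ e ∈ F, e ^ 2 = 1) → 4 ≤ Nat.card F → (∀ e ∈ F, e * y = y * e) →
      y ∉ F → ∃ E' : Subgroup G, E' ≤ Subgroup.centralizer ({y} : Set G) ∧ Nat.card E' = 8 ∧
      ∀ e ∈ E', e ^ 2 = 1 := by
    intro F hF h4 hc hyF
    obtain ⟨F', h1, h2, h3, h5⟩ := exists_extend_exp_two F hF y (hsq y hy) hc
    have h6 := two_mul_card_le_of_lt h1 h2 hyF
    obtain ⟨E', hE', h7, h8⟩ := exists_le_card_eight F' h3 (by omega)
    refine ⟨E', ?_, h7, h8⟩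
    intro e he
    rw [Subgroup.mem_centralizer_singleton_iff]
    rcases h5 e (hE' he) with h | h
    · exact hc e h
    · have := hc _ h
      have h9 : e * y * y = y * e * y := by rw [this, mul_assoc]
      exact mul_right_cancel h9
  -- the four-group U = <z, s>
  obtain ⟨F1, a1, a2, a3, a4⟩ := exists_extend_exp_two ⊥ (by
    intro e he; rw [Subgroup.mem_bot] at he; simp [he]) z (hsq z hz) (by
    intro e he; rw [Subgroup.mem_bot] at he; simp [he])
  have hF1s : ∀ e ∈ F1, e * s = s * e := by
    intro e he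
    rcases a4 e he with h | h
    · rw [Subgroup.mem_bot] at h; simp [h]
    · rw [Subgroup.mem_bot] at h
      have : e = z := by
        have h' : e * z = z * z := by rw [h, hsq z hz]
        exact mul_right_cancel h'
      rw [this]; exact (hzc s hsP).symm
  have hsF1 : s ∉ F1 := by
    intro h
    rcases a4 s h with h | h
    · rw [Subgroup.mem_bot] at h; exact hne s hs2 h
    · rw [Subgroup.mem_bot] at h
      apply hsz
      have h' : s * z = z * z := by rw [h, hsq z hz]
      exact mul_right_cancel h'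
  obtain ⟨U, b1, b2, b3, b4⟩ := exists_extend_exp_two F1 a3 s (hsq s hs2) hF1s
  have hF1card : 2 ≤ Nat.card F1 := by
    have := two_mul_card_le_of_lt a1 a2 (by
      rw [Subgroup.mem_bot]; exact hne z hz)
    simpa using this
  have hUcard : 4 ≤ Nat.card U := by
    have := two_mul_card_le_of_lt b1 b2 hsF1
    omega
  -- everything in P commuting with s commutes with U
  have hUc : ∀ t ∈ P ⊓ Subgroup.centralizer {s}, ∀ e ∈ U, e * t = t * e := by
    intro t ht
    have hts : t * s = s * t := Subgroup.mem_centralizer_singleton_iff.mp ht.2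
    have htz : t * z = z * t := hzc t ht.1
    have h1 : ∀ e ∈ F1, e * t = t * e := by
      intro e he
      rcases a4 e he with h | h
      · rw [Subgroup.mem_bot] at h; simp [h]
      · rw [Subgroup.mem_bot] at h
        have : e = z := by
          have h' : e * z = z * z := by rw [h, hsq z hz]
          exact mul_right_cancel h'
        rw [this]; exact htz.symm
    intro e he
    rcases b4 e he with h | h
    · exact h1 e h
    · have h2 := h1 _ h
      have h3 : e * t * s = t * e * s := by
        calc e * t * s = e * s * t := by rw [mul_assoc, hts, mul_assoc]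
          _ = t * (e * s) := h2
          _ = t * e * s := by rw [mul_assoc]
      exact mul_right_cancel h3
  by_cases hyU : y ∈ U
  · by_cases hyE : y ∈ E
    · refine ⟨E, ?_, hE8, hE2⟩
      intro e he
      rw [Subgroup.mem_centralizer_singleton_iff]
      -- E is abelian
      have hinv : ∀ a ∈ E, a⁻¹ = a := by
        intro a ha
        have := hE2 a ha
        rw [pow_two] at this
        exact inv_eq_of_mul_eq_one_left this
      have h1 := hinv _ (E.mul_mem he hyE)
      rw [mul_inv_rev, hinv e he, hinv y hyE] at h1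
      exact h1.symm
    · apply key (E ⊓ Subgroup.centralizer {s}) (fun e he => hE2 e he.1)
      · have h1 := card_conjOrbit_mul E s
        have h2 := card_conjOrbit_mul P s
        have h3 := Finset.card_le_card (conjOrbit_mono hEP s)
        have hpos : 0 < Nat.card ↥(P ⊓ Subgroup.centralizer {s}) := Nat.card_pos
        have h4 : (conjOrbit P s).card ≤ 2 := by
          by_contra h5
          push Not at h5
          have := Nat.mul_le_mul_right (Nat.card ↥(P ⊓ Subgroup.centralizer {s})) h5
          omega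
        rw [hE8] at h1
        have h5 : (conjOrbit E s).card ≤ 2 := le_trans h3 h4
        by_contra h6
        push Not at h6
        have : (conjOrbit E s).card * Nat.card ↥(E ⊓ Subgroup.centralizer {s}) ≤ 2 * 3 :=
          Nat.mul_le_mul h5 (by omega)
        omega
      · intro e he
        exact (hUc e ⟨hEP he.1, he.2⟩ y hyU).symm
      · intro h; exact hyE h.1
  · exact key U b3 hUcard (fun e he => hUc y hyT e he) hyU

/-- Let G be a finite group with no subgroup of index 2 whose 2-rank is at least 3 (it contains an elementary abelian subgroup of order 8). Then the centralizer of every involution of G also contains an elementary abelian subgroup of order 8. -/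
theorem result {G : Type*} [Group G] [Finite G] (hno : ∀ H : Subgroup G, H.index ≠ 2) (hrank : ∃ E : Subgroup G, Nat.card E = 8 ∧ ∀ e ∈ E, e ^ 2 = 1) (x : G) (hx : orderOf x = 2) : ∃ E : Subgroup G, E ≤ Subgroup.centralizer ({x} : Set G) ∧ Nat.card E = 8 ∧ ∀ e ∈ E, e ^ 2 = 1 := by
  obtain ⟨E, hE8, hE2⟩ := hrank
  have hEp : IsPGroup 2 E := Cfsg.Agent.Lib.Helper21.isPGroup_two_of_exp_two E hE2
  obtain ⟨P, hEP⟩ := hEp.exists_le_sylow
  have hPp : IsPGroup 2 (P : Subgroup G) := P.isPGroup'
  have hPnt : Nontrivial (P : Subgroup G) := by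
    rw [← Finite.one_lt_card_iff_nontrivial]
    have := Subgroup.card_le_of_le hEP
    omega
  have hcen := hPp.center_nontrivial
  have h2dvd : 2 ∣ Nat.card (Subgroup.center (P : Subgroup G)) := by
    rcases (hPp.to_subgroup (Subgroup.center (P : Subgroup G))).card_eq_or_dvd with h | h
    · have := Finite.one_lt_card_iff_nontrivial.mpr hcen
      omega
    · exact h
  obtain ⟨z0, hz0⟩ := exists_prime_orderOf_dvd_card' 2 h2dvd
  have hz : orderOf (z0.1.1 : G) = 2 := by
    rw [Subgroup.orderOf_coe, Subgroup.orderOf_coe]; exact hz0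
  have hzc : ∀ g ∈ (P : Subgroup G), g * z0.1.1 = z0.1.1 * g := by
    intro g hg
    exact congrArg Subtype.val (Subgroup.mem_center_iff.mp z0.2 ⟨g, hg⟩)
  obtain ⟨s, hsP, hs2, hsz, hcard⟩ := Cfsg.Agent.Lib.Helper21.exists_involution_card_le
    (P : Subgroup G) E hPp hEP hE8 hE2 z0.1.1 z0.1.2 hz hzc
  -- conjugate x into T
  have hconj : ∃ c : G, c * x * c⁻¹ ∈ (P : Subgroup G) ⊓ Subgroup.centralizer {s} := by
    have hxp : IsPGroup 2 (Subgroup.zpowers x) := by
      apply IsPGroup.of_card (n := 1)
      rw [Nat.card_zpowers, hx, pow_one]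
    obtain ⟨Q, hQ⟩ := hxp.exists_le_sylow
    obtain ⟨g, hg⟩ := MulAction.exists_smul_eq G Q P
    have hx1 : g * x * g⁻¹ ∈ (P : Subgroup G) := by
      rw [← hg, Cfsg.Agent.Lib.Helper21.mem_sylow_smul_iff]
      have : g⁻¹ * (g * x * g⁻¹) * g = x := by group
      rw [this]; exact hQ (Subgroup.mem_zpowers x)
    by_cases hx1T : g * x * g⁻¹ ∈ (P : Subgroup G) ⊓ Subgroup.centralizer {s}
    · exact ⟨g, hx1T⟩
    · have hrel : ((P : Subgroup G) ⊓ Subgroup.centralizer {s}).relIndex (P : Subgroup G) = 2 := by
        have h1 : ((P : Subgroup G) ⊓ Subgroup.centralizer {s}).relIndex (P : Subgroup G) *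
            Nat.card ↥((P : Subgroup G) ⊓ Subgroup.centralizer {s}) = Nat.card (P : Subgroup G) := by
          have := Subgroup.relIndex_mul_relIndex ⊥ ((P : Subgroup G) ⊓ Subgroup.centralizer {s})
            (P : Subgroup G) bot_le inf_le_left
          rw [Subgroup.relIndex_bot_left, Subgroup.relIndex_bot_left] at this
          rw [mul_comm]; exact this
        have hpos : 0 < Nat.card ↥((P : Subgroup G) ⊓ Subgroup.centralizer {s}) := Nat.card_pos
        have h2 : ((P : Subgroup G) ⊓ Subgroup.centralizer {s}).relIndex (P : Subgroup G) ≤ 2 := by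
          by_contra h3
          push Not at h3
          have := Nat.mul_le_mul_right (Nat.card ↥((P : Subgroup G) ⊓ Subgroup.centralizer {s})) h3
          omega
        have h3 : ((P : Subgroup G) ⊓ Subgroup.centralizer {s}).relIndex (P : Subgroup G) ≠ 1 := by
          intro h4
          rw [Subgroup.relIndex_eq_one] at h4
          exact hx1T (h4 hx1)
        have h4 : ((P : Subgroup G) ⊓ Subgroup.centralizer {s}).relIndex (P : Subgroup G) ≠ 0 := by
          intro h5
          rw [h5] at h1
          have : 0 < Nat.card (P : Subgroup G) := Nat.card_pos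
          omega
        omega
      have hord : orderOf (g * x * g⁻¹) = 2 := by
        rw [← hx]
        exact MulEquiv.orderOf_eq (MulAut.conj g) x
      rcases Cfsg.Agent.S0111.result P _ inf_le_left hrel (g * x * g⁻¹) hord hx1 hx1T with
        ⟨M, _, hM, _⟩ | ⟨g', hg'⟩
      · exact absurd hM (hno M)
      · exact ⟨g' * g, by
          have : g' * g * x * (g' * g)⁻¹ = g' * (g * x * g⁻¹) * g'⁻¹ := by group
          rw [this]; exact hg'⟩
  obtain ⟨c, hc⟩ := hconj
  have hord : orderOf (c * x * c⁻¹) = 2 := by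
    rw [← hx]
    exact MulEquiv.orderOf_eq (MulAut.conj c) x
  obtain ⟨E', h1, h2, h3⟩ := aux (P : Subgroup G) E hEP hE8 hE2 z0.1.1 s hz hzc hs2 hsz hsP hcard
    (c * x * c⁻¹) hord hc
  refine ⟨E'.map (MulAut.conj c⁻¹).toMonoidHom, ?_, ?_, ?_⟩
  · rintro _ ⟨e, he, rfl⟩
    have h4 := Subgroup.mem_centralizer_singleton_iff.mp (h1 he)
    rw [Subgroup.mem_centralizer_singleton_iff]
    simp only [MulEquiv.coe_toMonoidHom, MulAut.conj_apply, inv_inv]
    calc c⁻¹ * e * c * x = c⁻¹ * (e * (c * x * c⁻¹)) * c := by group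
      _ = c⁻¹ * ((c * x * c⁻¹) * e) * c := by rw [h4]
      _ = x * (c⁻¹ * e * c) := by group
  · rw [Subgroup.card_map_of_injective (MulAut.conj c⁻¹).injective, h2]
  · rintro _ ⟨e, he, rfl⟩
    rw [← map_pow, h3 e he, map_one]

end Cfsg.Agent.S0221
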