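import Mathlib
import Cfsg.Agent.Lib.Helper4.Invol
import Cfsg.Statements.S0226

set_option autoImplicit false
open Cfsg

namespace Cfsg.Agent.S0226

/-- A finite group of even order has an odd number of involutions. -/
theorem result {G : Type*} [Group G] [Finite G] (heven : Even (Nat.card G)) : Odd (Nat.card {t : G // orderOf t = 2}) := by
  classical
  haveI : Fintype G := Fintype.ofFinite G
  let f : Function.End G := fun g => g⁻¹
  have hf : f ^ 2 ^ 1 = 1 := by
    rw [pow_one, pow_two]
    funext g
    show (g⁻¹)⁻¹ = g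
    simp
  haveI : Fact (Nat.Prime 2) := ⟨Nat.prime_two⟩
  have h1 := Equiv.Perm.card_fixedPoints_modEq hf
  have e : Function.fixedPoints f ≃ Option {t : G // orderOf t = 2} := by
    refine ⟨fun g => if h : (g : G) = 1 then none else some ⟨g, ?_⟩, fun o =>
      match o with
      | none => ⟨1, ?_⟩
      | some t => ⟨t, ?_⟩, ?_, ?_⟩
    · apply Lib.Helper4.orderOf_two_of_sq _ h
      have : (g : G)⁻¹ = g := g.2
      nth_rewrite 1 [← this]
      simp
    · show (1 : G)⁻¹ = 1
      simp
    · exact Lib.Helper4.inv_eq_self_of_orderOf_two t.2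
    · rintro ⟨g, hg⟩
      by_cases h : g = 1
      · simp [h]
      · simp [h]
    · rintro (_ | ⟨t, ht⟩)
      · simp
      · simp [Lib.Helper4.ne_one_of_orderOf_two ht]
  rw [Fintype.card_congr e, Fintype.card_option, ← Nat.card_eq_fintype_card,
    ← Nat.card_eq_fintype_card] at h1
  have h2 : Nat.card G % 2 = 0 := Nat.even_iff.1 heven
  rw [Nat.odd_iff]
  unfold Nat.ModEq at h1
  omega

end Cfsg.Agent.S0226
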