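import Mathlib
import Cfsg.Agent.Lib.Helper4.ConjCount
import Cfsg.Agent.S0208
import Cfsg.Agent.S0209
import Cfsg.Statements.S0230

set_option autoImplicit false
open Cfsg

namespace Cfsg.Agent.S0230

/-- Let G be a finite group with two non-conjugate involutions, and let t be an involution whose centralizer has maximal order among centralizers of involutions. Then |G| < |C_G(t)|^3. -/
theorem result {G : Type*} [Group G] [Finite G] (s t : G) (hs : orderOf s = 2) (ht : orderOf t = 2) (hnc : ¬ IsConj s t) (hmax : ∀ u : G, orderOf u = 2 → Nat.card (Subgroup.centralizer ({u} : Set G)) ≤ Nat.card (Subgroup.centralizer ({t} : Set G))) : Nat.card G < Nat.card (Subgroup.centralizer ({t} : Set G)) ^ 3 := by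
  classical
  haveI : Fintype G := Fintype.ofFinite G
  set m := Nat.card (Subgroup.centralizer ({t} : Set G)) with hm
  have hmpos : 0 < m := Nat.card_pos
  -- the central involution attached to a conjugate of t
  have hz : ∀ v : {v : G // IsConj t v}, ∃ z : G, orderOf z = 2 ∧ Commute z s ∧ Commute z v.1 := by
    rintro ⟨v, hv⟩
    obtain ⟨g, hg⟩ := isConj_iff.1 hv
    have hvo : orderOf v = 2 := by rw [← hg, Lib.Helper4.orderOf_conj_eq, ht]
    have heven : Even (orderOf (s * v)) := by
      rw [← Nat.not_odd_iff_even]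
      intro hodd
      obtain ⟨d, _, hd⟩ := Cfsg.Agent.S0208.result s v hs hvo hodd
      exact hnc ((isConj_iff.2 ⟨d, hd⟩).trans hv.symm)
    exact ⟨_, Cfsg.Agent.S0209.result s v hs hvo heven⟩
  choose z hzo hzs hzv using hz
  let I := {z : Subgroup.centralizer ({s} : Set G) // orderOf (z : G) = 2}
  let f : {v : G // IsConj t v} → Σ z : I, Subgroup.centralizer ({(z.1 : G)} : Set G) := fun v =>
    ⟨⟨⟨z v, Lib.Helper4.mem_centralizer_singleton.2 (hzs v).eq.symm⟩, hzo v⟩,
      ⟨v.1, Lib.Helper4.mem_centralizer_singleton.2 (hzv v).eq⟩⟩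
  have hf : Function.Injective f := by
    intro v w h
    have h1 := congrArg (fun p => (p.2 : G)) h
    exact Subtype.ext h1
  have h1 := Nat.card_le_card_of_injective f hf
  rw [Nat.card_sigma] at h1
  have h2 : ∑ z : I, Nat.card (Subgroup.centralizer ({(z.1 : G)} : Set G)) ≤ ∑ _z : I, m :=
    Finset.sum_le_sum (fun z _ => hmax _ z.2)
  rw [Finset.sum_const, Finset.card_univ, smul_eq_mul] at h2
  have h3 : Fintype.card I + 1 ≤ m := by
    have h4 : Fintype.card I < Fintype.card (Subgroup.centralizer ({s} : Set G)) := by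
      apply Fintype.card_subtype_lt (x := 1)
      simp
    have h5 := hmax s hs
    rw [Nat.card_eq_fintype_card] at h5
    omega
  have h6 := Lib.Helper4.card_conj_mul_card_centralizer t
  rw [← hm] at h6
  rw [← h6]
  calc Nat.card {v : G // IsConj t v} * m ≤ (Fintype.card I * m) * m :=
        Nat.mul_le_mul_right _ (h1.trans h2)
    _ < ((Fintype.card I + 1) * m) * m := by
        apply Nat.mul_lt_mul_of_pos_right _ hmpos
        apply Nat.mul_lt_mul_of_pos_right _ hmpos
        omega
    _ ≤ (m * m) * m := by
        apply Nat.mul_le_mul_right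
        apply Nat.mul_le_mul_right
        exact h3
    _ = m ^ 3 := by ring

end Cfsg.Agent.S0230
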