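import Mathlib
import Cfsg.Agent.Lib.Helper4.SylowConj
import Cfsg.Agent.S0208
import Cfsg.Agent.S0209
import Cfsg.Statements.S0231

set_option autoImplicit false
open scoped Pointwise
open Cfsg

namespace Cfsg.Agent.S0231

/-- Let T be a Sylow 2-subgroup of the finite group G which is not normal and which intersects every other Sylow 2-subgroup trivially. Then G has a single conjugacy class of involutions. -/
theorem result {G : Type*} [Group G] [Finite G] (T : Sylow 2 G) (hnn : ¬ (T : Subgroup G).Normal) (hTI : ∀ g : G, MulAut.conj g • (T : Subgroup G) ≠ T → MulAut.conj g • (T : Subgroup G) ⊓ T = ⊥) (s t : G) (hs : orderOf s = 2) (ht : orderOf t = 2) : IsConj s t := by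
  classical
  haveI : Fact (Nat.Prime 2) := ⟨Nat.prime_two⟩
  have hmem : ∀ (h x : G), x ∈ (T : Subgroup G) → h * x * h⁻¹ ∈ MulAut.conj h • (T : Subgroup G) := by
    intro h x hx
    have := Subgroup.smul_mem_pointwise_smul x (MulAut.conj h) (T : Subgroup G) hx
    rwa [MulAut.smul_def, MulAut.conj_apply] at this
  -- Lemma L
  have hL : ∀ u w : G, orderOf u = 2 → orderOf w = 2 → Commute u w → u ∈ (T : Subgroup G) →
      w ∈ (T : Subgroup G) := by
    intro u w hu hw huw huT
    have hu2 := Lib.Helper4.sq_eq_one_of_orderOf_two hu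
    have hw2 := Lib.Helper4.sq_eq_one_of_orderOf_two hw
    have h2 : (u * w) ^ 2 = 1 := by
      rw [huw.mul_pow, pow_two, pow_two, hu2, hw2, one_mul]
    have h3 : ∃ k, orderOf (u * w) = 2 ^ k := by
      rcases (Nat.dvd_prime Nat.prime_two).1 (orderOf_dvd_of_pow_eq_one h2) with h | h
      · exact ⟨0, by rw [h, pow_zero]⟩
      · exact ⟨1, by rw [h, pow_one]⟩
    obtain ⟨k, hk⟩ := h3
    obtain ⟨g, hg1, hg2⟩ := Lib.Helper4.exists_conj_pair_mem_sylow T hu hw hk
    have e1 : u ∈ MulAut.conj g⁻¹ • (T : Subgroup G) := by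
      have := hmem g⁻¹ _ hg1
      have e : g⁻¹ * (g * u * g⁻¹) * g⁻¹⁻¹ = u := by group
      rwa [e] at this
    have e2 : w ∈ MulAut.conj g⁻¹ • (T : Subgroup G) := by
      have := hmem g⁻¹ _ hg2
      have e : g⁻¹ * (g * w * g⁻¹) * g⁻¹⁻¹ = w := by group
      rwa [e] at this
    have e3 : MulAut.conj g⁻¹ • (T : Subgroup G) = T := by
      by_contra hne
      have := hTI g⁻¹ hne
      have h4 : u ∈ MulAut.conj g⁻¹ • (T : Subgroup G) ⊓ T := ⟨e1, huT⟩
      rw [this, Subgroup.mem_bot] at h4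
      exact Lib.Helper4.ne_one_of_orderOf_two hu h4
    rwa [e3] at e2
  -- Lemma M
  have hM : ∀ u w : G, orderOf u = 2 → orderOf w = 2 → ¬ IsConj u w → u ∈ (T : Subgroup G) →
      w ∈ (T : Subgroup G) := by
    intro u w hu hw hnc huT
    have heven : Even (orderOf (u * w)) := by
      rw [← Nat.not_odd_iff_even]
      intro hodd
      obtain ⟨d, _, hd⟩ := Cfsg.Agent.S0208.result u w hu hw hodd
      exact hnc (isConj_iff.2 ⟨d, hd⟩)
    obtain ⟨hzo, hzu, hzw⟩ := Cfsg.Agent.S0209.result u w hu hw heven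
    exact hL _ w hzo hw hzw (hL u _ hu hzo hzu.symm huT)
  by_contra hnc
  -- conjugate s into T
  have hsP : IsPGroup 2 (Subgroup.zpowers s) := by
    apply IsPGroup.of_card (n := 1)
    rw [Nat.card_zpowers, hs, pow_one]
  obtain ⟨a, ha⟩ := Lib.Helper4.exists_conj_le_sylow T hsP
  have hs' := ha s (Subgroup.mem_zpowers s)
  set s' := a * s * a⁻¹ with hs'def
  have hs'o : orderOf s' = 2 := by rw [hs'def, Lib.Helper4.orderOf_conj_eq, hs]
  have hss' : IsConj s s' := isConj_iff.2 ⟨a, rfl⟩
  have hnc' : ¬ IsConj s' t := fun h => hnc (hss'.trans h)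
  have htT := hM s' t hs'o ht hnc' hs'
  -- T is not normal
  have hex : ∃ g : G, MulAut.conj g • (T : Subgroup G) ≠ T := by
    by_contra hall
    push Not at hall
    apply hnn
    constructor
    intro n hn g
    have := hmem g n hn
    rwa [hall g] at this
  obtain ⟨g, hg⟩ := hex
  set s'' := g * s' * g⁻¹ with hs''def
  have hs''o : orderOf s'' = 2 := by rw [hs''def, Lib.Helper4.orderOf_conj_eq, hs'o]
  have hs''T : s'' ∉ (T : Subgroup G) := by
    intro h
    have h4 : s'' ∈ MulAut.conj g • (T : Subgroup G) ⊓ T := ⟨hmem g s' hs', h⟩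
    rw [hTI g hg, Subgroup.mem_bot] at h4
    exact Lib.Helper4.ne_one_of_orderOf_two hs''o h4
  have hc : IsConj t s'' := by
    by_contra h
    exact hs''T (hM t s'' ht hs''o h htT)
  have : IsConj s' s'' := isConj_iff.2 ⟨g, rfl⟩
  exact hnc' (this.trans hc.symm)

end Cfsg.Agent.S0231
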