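import Mathlib
import Cfsg.Agent.Lib.Helper4.ConjCount
import Cfsg.Agent.S0233
import Cfsg.Agent.S0219
import Cfsg.Statements.S0232

set_option autoImplicit false
open Cfsg

namespace Cfsg.Agent.S0232

theorem of_index_two {G : Type*} [Group G] [Finite G] (hgt : 2 < Nat.card G) (H : Subgroup G)
    (hH : H.index = 2) : H ≠ ⊤ ∧ Nat.card G < (Nat.card H) ^ 3 := by
  constructor
  · intro h
    rw [h, Subgroup.index_top] at hH
    omega
  · have h1 := H.card_mul_index
    rw [hH] at h1
    set h := Nat.card H
    rw [← h1] at hgt ⊢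
    have h2 : 2 ≤ h := by omega
    nlinarith [Nat.mul_le_mul h2 h2]

theorem arith {g n c h i : ℕ} (hg : 0 < g) (hi : 0 < i) (h1 : g ≤ n * c) (h2 : c ^ 3 ≤ g)
    (h3 : 2 * i * n ^ 2 < g * (g + n)) (h4 : n ≤ g) (h5 : h * i = g) : g < h ^ 3 := by
  have e1 : g ^ 2 ≤ n ^ 3 := by
    have a1 : g ^ 3 ≤ (n * c) ^ 3 := Nat.pow_le_pow_left h1 3
    have a2 : (n * c) ^ 3 ≤ n ^ 3 * g := by
      rw [mul_pow]; exact Nat.mul_le_mul_left _ h2
    have a3 : g ^ 2 * g ≤ n ^ 3 * g := by
      calc g ^ 2 * g = g ^ 3 := by ring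
        _ ≤ n ^ 3 * g := a1.trans a2
    exact Nat.le_of_mul_le_mul_right a3 hg
  have e2 : i * n ^ 2 < g ^ 2 := by
    have : g * (g + n) ≤ 2 * g ^ 2 := by nlinarith
    have : 2 * (i * n ^ 2) < 2 * g ^ 2 := by
      calc 2 * (i * n ^ 2) = 2 * i * n ^ 2 := by ring
        _ < g * (g + n) := h3
        _ ≤ 2 * g ^ 2 := this
    omega
  have e3 : i ^ 3 < g ^ 2 := by
    have a1 : (i * n ^ 2) ^ 3 < (g ^ 2) ^ 3 := Nat.pow_lt_pow_left e2 (by norm_num)
    have a2 : (g ^ 2) ^ 2 ≤ (n ^ 3) ^ 2 := Nat.pow_le_pow_left e1 2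
    have a3 : i ^ 3 * (g ^ 2) ^ 2 < g ^ 2 * (g ^ 2) ^ 2 := by
      calc i ^ 3 * (g ^ 2) ^ 2 ≤ i ^ 3 * (n ^ 3) ^ 2 := Nat.mul_le_mul_left _ a2
        _ = (i * n ^ 2) ^ 3 := by ring
        _ < (g ^ 2) ^ 3 := a1
        _ = g ^ 2 * (g ^ 2) ^ 2 := by ring
    exact Nat.lt_of_mul_lt_mul_right a3
  have e4 : i < h ^ 2 := by
    rw [← h5] at e3
    have a1 : i * i ^ 2 < h ^ 2 * i ^ 2 := by
      calc i * i ^ 2 = i ^ 3 := by ring
        _ < (h * i) ^ 2 := e3
        _ = h ^ 2 * i ^ 2 := by ring
    exact Nat.lt_of_mul_lt_mul_right a1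
  have hh : 0 < h := by
    rcases Nat.eq_zero_or_pos h with h0 | h0
    · rw [h0, zero_mul] at h5; omega
    · exact h0
  calc g = h * i := h5.symm
    _ < h * h ^ 2 := Nat.mul_lt_mul_of_pos_left e4 hh
    _ = h ^ 3 := by ring

theorem aux : ∀ (k : ℕ) (G : Type*) [Group G] [Finite G], Nat.card G = k → Even k → 2 < k →
    ∃ H : Subgroup G, H ≠ ⊤ ∧ Nat.card G < (Nat.card H) ^ 3 := by
  intro k
  induction k using Nat.strong_induction_on with
  | _ k ih =>
  intro G _ _ hk heven hgt
  classical
  haveI : Fact (Nat.Prime 2) := ⟨Nat.prime_two⟩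
  by_cases hZ : Odd (Nat.card (Subgroup.center G))
  · obtain ⟨H, hH, hidx⟩ := Cfsg.Agent.S0233.result (hk ▸ heven) hZ
    rcases hidx with h2 | h2
    · exact ⟨H, of_index_two (hk ▸ hgt) H h2⟩
    · obtain ⟨t, ht⟩ := exists_prime_orderOf_dvd_card' (G := G) 2 (even_iff_two_dvd.1 (hk ▸ heven))
      by_cases hc : Nat.card G < (Nat.card (Subgroup.centralizer ({t} : Set G))) ^ 3
      · refine ⟨_, ?_, hc⟩
        intro htop
        have hxZ : t ∈ Subgroup.center G := by
          rw [Subgroup.mem_center_iff]
          intro y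
          have : y ∈ Subgroup.centralizer ({t} : Set G) := by rw [htop]; trivial
          exact (Lib.Helper4.mem_centralizer_singleton.1 this).symm
        have := orderOf_dvd_natCard (⟨t, hxZ⟩ : Subgroup.center G)
        rw [← Subgroup.orderOf_coe] at this
        simp only at this
        rw [ht] at this
        exact (Nat.not_even_iff_odd.2 hZ) (even_iff_two_dvd.2 this)
      · refine ⟨H, hH, ?_⟩
        push Not at hc
        have hle : Nat.card G ≤ Nat.card {t : G // orderOf t = 2} *
            Nat.card (Subgroup.centralizer ({t} : Set G)) := by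
          rw [← Lib.Helper4.card_conj_mul_card_centralizer t]
          apply Nat.mul_le_mul_right
          apply Nat.card_le_card_of_injective
            (fun v : {v : G // IsConj t v} => (⟨v.1, by
              obtain ⟨a, ha⟩ := isConj_iff.1 v.2
              rw [← ha, Lib.Helper4.orderOf_conj_eq, ht]⟩ : {t : G // orderOf t = 2}))
          intro a b h
          have h' : a.1 = b.1 := congrArg (fun z : {t : G // orderOf t = 2} => z.1) h
          exact Subtype.ext h'
        have hn : Nat.card {t : G // orderOf t = 2} ≤ Nat.card G :=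
          Nat.card_le_card_of_injective Subtype.val Subtype.val_injective
        exact arith Nat.card_pos (Nat.pos_of_ne_zero H.index_ne_zero_of_finite) hle hc h2 hn
          H.card_mul_index
  · rw [Nat.not_odd_iff_even] at hZ
    obtain ⟨z, hz⟩ := exists_prime_orderOf_dvd_card' (G := Subgroup.center G) 2 (even_iff_two_dvd.1 hZ)
    have hzo : orderOf (z : G) = 2 := by rw [Subgroup.orderOf_coe]; exact hz
    set N := Subgroup.zpowers (z : G) with hN
    haveI hNn : N.Normal := by
      constructor
      intro n hn a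
      have hc : n ∈ Subgroup.center G := by
        have : N ≤ Subgroup.center G := by
          rw [hN, Subgroup.zpowers_le]; exact z.2
        exact this hn
      have : a * n * a⁻¹ = n := by
        rw [(Subgroup.mem_center_iff.1 hc) a]; group
      rw [this]; exact hn
    have hNcard : Nat.card N = 2 := by rw [hN, Nat.card_zpowers, hzo]
    have hQ := Subgroup.card_eq_card_quotient_mul_card_subgroup N
    rw [hNcard] at hQ
    by_cases hq : Even (Nat.card (G ⧸ N))
    · by_cases hq2 : 2 < Nat.card (G ⧸ N)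
      · obtain ⟨H, hH, hlt⟩ := ih (Nat.card (G ⧸ N)) (by omega) (G ⧸ N) rfl hq hq2
        refine ⟨H.comap (QuotientGroup.mk' N), ?_, ?_⟩
        · intro htop
          apply hH
          rw [← Subgroup.index_eq_one] at htop ⊢
          rwa [Subgroup.index_comap_of_surjective _ (QuotientGroup.mk'_surjective N)] at htop
        · have h1 := (H.comap (QuotientGroup.mk' N)).card_mul_index
          rw [Subgroup.index_comap_of_surjective _ (QuotientGroup.mk'_surjective N)] at h1
          have h2 := H.card_mul_index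
          have h3 : Nat.card (H.comap (QuotientGroup.mk' N)) = Nat.card H * 2 := by
            have : Nat.card (H.comap (QuotientGroup.mk' N)) * H.index = (Nat.card H * 2) * H.index := by
              rw [h1, hQ, ← h2]; ring
            exact Nat.eq_of_mul_eq_mul_right (Nat.pos_of_ne_zero H.index_ne_zero_of_finite) this
          rw [h3, hQ]
          nlinarith
      · refine ⟨N, ?_, ?_⟩
        · intro htop
          rw [htop, Subgroup.card_top] at hNcard
          omega
        · rw [hNcard]
          obtain ⟨m, hm⟩ := hq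
          omega
    · -- Sylow 2-subgroup of order 2
      obtain ⟨T⟩ : Nonempty (Sylow 2 G) := inferInstance
      obtain ⟨j, hj⟩ := T.2.exists_card_eq
      have hd2 : 2 ∣ Nat.card T := T.dvd_card_of_dvd_card (even_iff_two_dvd.1 (hk ▸ heven))
      have hdT : Nat.card T ∣ Nat.card G := Subgroup.card_subgroup_dvd_card _
      have hT2 : Nat.card T = 2 := by
        rw [hj] at hd2 hdT ⊢
        rcases j with _ | _ | j
        · simp at hd2
        · simp
        · exfalso
          apply hq
          have h4 : 4 ∣ Nat.card G := by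
            refine dvd_trans ?_ hdT
            exact ⟨2 ^ j, by ring⟩
          rw [hQ] at h4
          rw [even_iff_two_dvd]
          omega
      have hcyc : IsCyclic (T : Subgroup G) := isCyclic_of_prime_card hT2
      obtain ⟨H, hH⟩ := Cfsg.Agent.S0219.result (hk ▸ heven) T hcyc
      exact ⟨H, of_index_two (hk ▸ hgt) H hH⟩

/-- A finite group G of even order greater than 2 has a proper subgroup H with |G| < |H|^3. -/
theorem result {G : Type*} [Group G] [Finite G] (heven : Even (Nat.card G)) (hgt : 2 < Nat.card G) : ∃ H : Subgroup G, H ≠ ⊤ ∧ Nat.card G < (Nat.card H) ^ 3 := by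
  exact aux _ G rfl heven hgt

end Cfsg.Agent.S0232
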