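import Mathlib
import Cfsg.Agent.Lib.Helper4.SmallSimple
import Cfsg.Agent.Lib.Helper4.Invol
import Cfsg.Agent.S0991
import Cfsg.Agent.S0233
import Cfsg.Agent.S0493
import Cfsg.Agent.S0494
import Cfsg.Statements.S0234

set_option autoImplicit false
open Cfsg

namespace Cfsg.Agent.S0234

set_option maxRecDepth 1000000 in
theorem count_A5 : (Finset.univ.filter (fun σ : Equiv.Perm (Fin 5) =>
    σ ≠ 1 ∧ σ * σ = 1 ∧ Equiv.Perm.sign σ = 1)).card = 15 := by
  decide +kernel

set_option maxRecDepth 1000000 in
theorem card_alt_le : ∀ k ≤ 5, Fintype.card (alternatingGroup (Fin k)) ≤ 60 := by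
  decide +kernel

/-- In a finite simple group G of even order greater than 2, the number n of involutions satisfies 3n < |G|. -/
theorem result {G : Type*} [Group G] [Finite G] [IsSimpleGroup G] (heven : Even (Nat.card G)) (hgt : 2 < Nat.card G) : 3 * Nat.card {t : G // orderOf t = 2} < Nat.card G := by
  classical
  by_contra hcon
  push Not at hcon
  have hnc : ¬ IsMulCommutative G := by
    intro hc
    letI : CommGroup G := { (inferInstance : Group G) with mul_comm := hc.is_comm.comm }
    have hp := IsSimpleGroup.prime_card (α := G)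
    rcases hp.eq_two_or_odd' with h | h
    · omega
    · exact (Nat.not_even_iff_odd.2 h) heven
  have hZ : Odd (Nat.card (Subgroup.center G)) := by
    rcases IsSimpleGroup.eq_bot_or_eq_top_of_normal (Subgroup.center G) inferInstance with hZ | hZ
    · rw [hZ, Subgroup.card_bot]; exact odd_one
    · exfalso
      apply hnc
      refine ⟨⟨fun a b => ?_⟩⟩
      have : b ∈ Subgroup.center G := by rw [hZ]; trivial
      exact (Subgroup.mem_center_iff.1 this) a
  obtain ⟨H, hH, hidx⟩ := Cfsg.Agent.S0233.result heven hZ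
  set n := Nat.card {t : G // orderOf t = 2} with hn
  set g := Nat.card G with hg
  have hidx5 : H.index ≤ 5 := by
    rcases hidx with h2 | h2
    · omega
    · have h3 : g * (g + n) ≤ (3 * n) * (3 * n + n) :=
        Nat.mul_le_mul hcon (Nat.add_le_add_right hcon n)
      have h4 : (2 * H.index) * n ^ 2 < 12 * n ^ 2 := by
        calc 2 * H.index * n ^ 2 < g * (g + n) := h2
          _ ≤ (3 * n) * (3 * n + n) := h3
          _ = 12 * n ^ 2 := by ring
      have h5 : 2 * H.index < 12 := Nat.lt_of_mul_lt_mul_right h4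
      omega
  obtain ⟨f, hf⟩ := Cfsg.Agent.S0991.result hnc H hH
  have hle : g ≤ 60 := by
    have h1 := Nat.card_le_card_of_injective f hf
    rw [Nat.card_eq_fintype_card (α := alternatingGroup (Fin H.index))] at h1
    exact h1.trans (card_alt_le _ hidx5)
  have hncyc : ¬ IsCyclic G := fun h => hnc IsCyclic.isMulCommutative
  have h60 : g = 60 := Cfsg.Agent.S0493.result hncyc (by omega)
  obtain ⟨e⟩ := Cfsg.Agent.S0494.result h60
  have hn15 : n ≤ 15 := by
    rw [← count_A5, ← Fintype.card_subtype, ← Nat.card_eq_fintype_card]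
    apply Nat.card_le_card_of_injective (fun t : {t : G // orderOf t = 2} =>
      (⟨((e t.1 : alternatingGroup (Fin 5)) : Equiv.Perm (Fin 5)), by
        have ho : orderOf (e t.1) = 2 := by rw [e.orderOf_eq]; exact t.2
        refine ⟨?_, ?_, ?_⟩
        · intro h
          have : e t.1 = 1 := Subtype.ext h
          exact Lib.Helper4.ne_one_of_orderOf_two ho this
        · have := Lib.Helper4.sq_eq_one_of_orderOf_two ho
          exact congrArg Subtype.val this
        · exact Equiv.Perm.mem_alternatingGroup.1 (e t.1).2⟩ :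
        {σ : Equiv.Perm (Fin 5) // σ ≠ 1 ∧ σ * σ = 1 ∧ Equiv.Perm.sign σ = 1}))
    intro a b h
    have h1 : ((e a.1 : alternatingGroup (Fin 5)) : Equiv.Perm (Fin 5)) = (e b.1 : alternatingGroup (Fin 5)) :=
      congrArg (fun z : {σ : Equiv.Perm (Fin 5) // σ ≠ 1 ∧ σ * σ = 1 ∧ Equiv.Perm.sign σ = 1} => z.1) h
    exact Subtype.ext (e.injective (Subtype.ext h1))
  omega

end Cfsg.Agent.S0234
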