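import Mathlib
import Cfsg.Agent.Lib.Helper4.Invol
import Cfsg.Statements.S0235

set_option autoImplicit false
open Cfsg

namespace Cfsg.Agent.S0235

/-- If x² ≠ 1, the ordered pairs (u, v) of involutions with uv = x correspond bijectively to the involutions t with t x t⁻¹ = x⁻¹ (via (u, v) ↦ u), so the two counts agree. -/
theorem result {G : Type*} [Group G] [Finite G] (x : G) (hx : x ^ 2 ≠ 1) : Nat.card {p : G × G // orderOf p.1 = 2 ∧ orderOf p.2 = 2 ∧ p.1 * p.2 = x} = Nat.card {t : G // orderOf t = 2 ∧ t * x * t⁻¹ = x⁻¹} := by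
  apply Nat.card_congr
  refine ⟨fun p => ⟨p.1.1, p.2.1, ?_⟩, fun t => ⟨(t.1, t.1 * x), t.2.1, ?_, ?_⟩, ?_, ?_⟩
  · obtain ⟨⟨u, v⟩, hu, hv, huv⟩ := p
    simp only at hu hv huv ⊢
    rw [← huv]
    exact Lib.Helper4.invol_inverts_mul (Lib.Helper4.sq_eq_one_of_orderOf_two hu)
      (Lib.Helper4.sq_eq_one_of_orderOf_two hv)
  · obtain ⟨t, ht, htx⟩ := t
    simp only
    have hti := Lib.Helper4.inv_eq_self_of_orderOf_two ht
    apply Lib.Helper4.orderOf_two_of_sq
    · rw [hti] at htx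
      rw [← mul_assoc, htx]; simp
    · intro h
      apply hx
      have : x = t := by
        rw [← hti]; exact eq_inv_of_mul_eq_one_right h
      rw [this, pow_two]
      exact Lib.Helper4.sq_eq_one_of_orderOf_two ht
  · obtain ⟨t, ht, htx⟩ := t
    simp only
    rw [← mul_assoc, Lib.Helper4.sq_eq_one_of_orderOf_two ht, one_mul]
  · rintro ⟨⟨u, v⟩, hu, hv, huv⟩
    simp only at hu hv huv ⊢
    ext
    · rfl
    · simp only
      rw [← huv, ← mul_assoc, Lib.Helper4.sq_eq_one_of_orderOf_two hu, one_mul]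
  · rintro ⟨t, ht, htx⟩
    rfl

end Cfsg.Agent.S0235
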