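import Mathlib
import Cfsg.Agent.Lib.Helper4.Invol
import Cfsg.Statements.S0239

set_option autoImplicit false
open Cfsg

namespace Cfsg.Agent.S0239

/-- If some nontrivial element x of a finite group G is conjugate to x⁻¹, then |G| is even. -/
theorem result {G : Type*} [Group G] [Finite G] (x : G) (hx : x ≠ 1) (hreal : IsConj x x⁻¹) : Even (Nat.card G) := by
  by_contra hne
  rw [Nat.not_even_iff_odd] at hne
  obtain ⟨g, hg⟩ := isConj_iff.1 hreal
  have hgo : Odd (orderOf g) := hne.of_dvd_nat (orderOf_dvd_natCard g)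
  have h1 := Lib.Helper4.conj_pow_odd hg hgo
  rw [pow_orderOf_eq_one] at h1
  simp only [one_mul, inv_one, mul_one] at h1
  have h2 : x ^ 2 = 1 := by
    rw [pow_two]
    nth_rewrite 1 [h1]
    simp
  have h3 : orderOf x ∣ 2 := orderOf_dvd_of_pow_eq_one h2
  have hxo : Odd (orderOf x) := hne.of_dvd_nat (orderOf_dvd_natCard x)
  have h4 : orderOf x = 1 := by
    rcases (Nat.dvd_prime Nat.prime_two).1 h3 with h | h
    · exact h
    · rw [h] at hxo; exact absurd hxo (by decide)
  exact hx (orderOf_eq_one_iff.1 h4)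

end Cfsg.Agent.S0239
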