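import Mathlib
import Cfsg.Agent.Lib.Helper4.Invol
import Cfsg.Statements.S0240

set_option autoImplicit false
open Cfsg

namespace Cfsg.Agent.S0240

/-- Let G be a finite group with n involutions and H a subgroup with |H|·(n+1) > |G|. Then some nontrivial h ∈ H is strongly real in G: an involution t of G satisfies t h t⁻¹ = h⁻¹. -/
theorem result {G : Type*} [Group G] [Finite G] (H : Subgroup G) (hH : Nat.card G < Nat.card H * (Nat.card {t : G // orderOf t = 2} + 1)) : ∃ h : G, h ∈ H ∧ h ≠ 1 ∧ ∃ t : G, orderOf t = 2 ∧ t * h * t⁻¹ = h⁻¹ := by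
  classical
  haveI : Fintype G := Fintype.ofFinite G
  let f : Option {t : G // orderOf t = 2} → G ⧸ H := fun o =>
    match o with
    | none => ((1 : G) : G ⧸ H)
    | some t => ((t : G) : G ⧸ H)
  have hcard : Fintype.card (G ⧸ H) < Fintype.card (Option {t : G // orderOf t = 2}) := by
    rw [Fintype.card_option, ← Nat.card_eq_fintype_card, ← Nat.card_eq_fintype_card]
    have h1 := Subgroup.card_eq_card_quotient_mul_card_subgroup H
    rw [h1, mul_comm] at hH
    exact Nat.lt_of_mul_lt_mul_left hH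
  obtain ⟨a, b, hab, hf⟩ := Fintype.exists_ne_map_eq_of_card_lt f hcard
  have key : ∀ (u v : {t : G // orderOf t = 2}), u ≠ v → ((u : G) : G ⧸ H) = ((v : G) : G ⧸ H) →
      ∃ h : G, h ∈ H ∧ h ≠ 1 ∧ ∃ t : G, orderOf t = 2 ∧ t * h * t⁻¹ = h⁻¹ := by
    rintro ⟨u, hu⟩ ⟨v, hv⟩ huv h
    simp only at h
    rw [QuotientGroup.eq] at h
    rw [Lib.Helper4.inv_eq_self_of_orderOf_two hu] at h
    refine ⟨u * v, h, ?_, u, hu, Lib.Helper4.invol_inverts_mul
      (Lib.Helper4.sq_eq_one_of_orderOf_two hu) (Lib.Helper4.sq_eq_one_of_orderOf_two hv)⟩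
    intro h1
    apply huv
    rw [Subtype.mk.injEq, ← Lib.Helper4.inv_eq_self_of_orderOf_two hv]
    exact eq_inv_of_mul_eq_one_left h1
  have key2 : ∀ (v : {t : G // orderOf t = 2}), ((1 : G) : G ⧸ H) = ((v : G) : G ⧸ H) →
      ∃ h : G, h ∈ H ∧ h ≠ 1 ∧ ∃ t : G, orderOf t = 2 ∧ t * h * t⁻¹ = h⁻¹ := by
    rintro ⟨v, hv⟩ h
    simp only at h
    rw [QuotientGroup.eq] at h
    simp only [inv_one, one_mul] at h
    refine ⟨v, h, Lib.Helper4.ne_one_of_orderOf_two hv, v, hv, ?_⟩
    rw [Lib.Helper4.inv_eq_self_of_orderOf_two hv, Lib.Helper4.sq_eq_one_of_orderOf_two hv, one_mul]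
  match a, b, hab, hf with
  | none, none, hab, _ => exact absurd rfl hab
  | none, some v, _, hf => exact key2 v hf
  | some u, none, _, hf => exact key2 u hf.symm
  | some u, some v, hab, hf => exact key u v (fun h => hab (by rw [h])) hf

end Cfsg.Agent.S0240
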