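import Mathlib
import Cfsg.Agent.Lib.Helper4.Invol
import Cfsg.Statements.S0241

set_option autoImplicit false
open Cfsg

namespace Cfsg.Agent.S0241

/-- If x ≠ 1 is conjugate to x⁻¹ in a finite group G and |C_G(x)| is odd, then some involution t satisfies t x t⁻¹ = x⁻¹. -/
theorem result {G : Type*} [Group G] [Finite G] (x : G) (hx : x ≠ 1) (hreal : IsConj x x⁻¹) (hodd : Odd (Nat.card (Subgroup.centralizer ({x} : Set G)))) : ∃ t : G, orderOf t = 2 ∧ t * x * t⁻¹ = x⁻¹ := by
  obtain ⟨g, hg⟩ := isConj_iff.1 hreal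
  obtain ⟨k, m, hm, hkm⟩ := Nat.exists_eq_two_pow_mul_odd (orderOf_pos g).ne'
  have ht := Lib.Helper4.conj_pow_odd hg hm
  set t := g ^ m with htdef
  have htk : t ^ (2 ^ k) = 1 := by
    rw [htdef, ← pow_mul, mul_comm, ← hkm, pow_orderOf_eq_one]
  have hc : t ^ 2 ∈ Subgroup.centralizer ({x} : Set G) := by
    rw [Lib.Helper4.mem_centralizer_singleton]
    exact (Lib.Helper4.conj_sq_of_inverts ht).eq.symm
  have ho1 : orderOf (t ^ 2) ∣ 2 ^ k := by
    apply orderOf_dvd_of_pow_eq_one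
    rw [← pow_mul, mul_comm, pow_mul, htk, one_pow]
  have ho2 : orderOf (t ^ 2) ∣ Nat.card (Subgroup.centralizer ({x} : Set G)) := by
    have := orderOf_dvd_natCard (⟨t ^ 2, hc⟩ : Subgroup.centralizer ({x} : Set G))
    rwa [← Subgroup.orderOf_coe] at this
  have ho3 : orderOf (t ^ 2) = 1 := by
    have hcop : Nat.Coprime (2 ^ k) (Nat.card (Subgroup.centralizer ({x} : Set G))) :=
      Nat.Coprime.pow_left _ (Nat.coprime_two_left.2 hodd)
    exact Nat.eq_one_of_dvd_coprimes hcop ho1 ho2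
  have ht2 : t ^ 2 = 1 := orderOf_eq_one_iff.1 ho3
  refine ⟨t, ?_, ht⟩
  apply orderOf_eq_prime ht2
  intro h1
  rw [h1] at ht
  simp only [one_mul, inv_one, mul_one] at ht
  have hx2 : x * x = 1 := by
    nth_rewrite 1 [ht]
    simp
  have hox := Lib.Helper4.orderOf_two_of_sq hx2 hx
  have hxc : x ∈ Subgroup.centralizer ({x} : Set G) := by
    rw [Lib.Helper4.mem_centralizer_singleton]
  have := orderOf_dvd_natCard (⟨x, hxc⟩ : Subgroup.centralizer ({x} : Set G))
  rw [← Subgroup.orderOf_coe] at this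
  simp only at this
  rw [hox] at this
  exact (Nat.not_even_iff_odd.2 hodd) (even_iff_two_dvd.2 this)

end Cfsg.Agent.S0241
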