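import Cfsg.Statements.S0440
import Cfsg.Agent.S0765
import Cfsg.Agent.S0766

set_option autoImplicit false
open Cfsg

namespace Cfsg.Agent.S0440

open Matrix Cfsg.Agent.Lib.Helper13 Module

variable {n : ℕ}

local notation "VV" => (Fin n ⊕ Fin n → ZMod 2)
local notation "MM" => Matrix (Fin n ⊕ Fin n) (Fin n ⊕ Fin n) (ZMod 2)
local notation "SP" => Matrix.symplecticGroup (Fin n) (ZMod 2)

theorem z2 (a : ZMod 2) : a = 0 ∨ a = 1 := by revert a; decide

theorem sp_ext {A B : SP} (h : ∀ x : VV, (A : MM) *ᵥ x = (B : MM) *ᵥ x) : A = B := by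
  apply Subtype.ext
  apply Matrix.toLin'.injective
  apply LinearMap.ext
  intro x
  rw [Matrix.toLin'_apply, Matrix.toLin'_apply, h]

theorem sp_mul_mulVec (A B : SP) (x : VV) :
    ((A * B : SP) : MM) *ᵥ x = (A : MM) *ᵥ ((B : MM) *ᵥ x) := by
  rw [mulVec_mulVec]; rfl

theorem T_apply (v x : VV) : ((tv v 1 : SP) : MM) *ᵥ x = x + Cfsg.sympForm n (ZMod 2) x v • v := by
  rw [tv_mulVec, one_mul]

theorem T_sq (v : VV) : (tv v 1 : SP) * tv v 1 = 1 := by
  apply sp_ext
  intro x
  rw [sp_mul_mulVec, T_apply, T_apply, sympForm_add_left, sympForm_smul_left, sympForm_self,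
    mul_zero, add_zero, add_assoc, ← add_smul]
  have : Cfsg.sympForm n (ZMod 2) x v + Cfsg.sympForm n (ZMod 2) x v = 0 := by
    generalize Cfsg.sympForm n (ZMod 2) x v = c
    revert c; decide
  rw [this, zero_smul, add_zero]
  exact (one_mulVec x).symm

theorem T_inv (v : VV) : (tv v 1 : SP)⁻¹ = tv v 1 := inv_eq_of_mul_eq_one_left (T_sq v)

theorem T_conj (A : SP) (v : VV) : A * tv v 1 * A⁻¹ = tv ((A : MM) *ᵥ v) 1 := by
  rw [mul_inv_eq_iff_eq_mul]
  apply sp_ext
  intro x
  rw [sp_mul_mulVec, sp_mul_mulVec, T_apply, T_apply, sp_preserves, mulVec_add, mulVec_smul]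

theorem T_prod (v w : VV) :
    ((tv v 1 : SP) * tv w 1) ^ 2 = 1 ∨ ((tv v 1 : SP) * tv w 1) ^ 3 = 1 := by
  have c1 : (tv v 1 : SP) * tv w 1 * tv v 1 = tv (((tv v 1 : SP) : MM) *ᵥ w) 1 := by
    have := T_conj (tv v 1) w
    rwa [T_inv] at this
  have c2 : (tv w 1 : SP) * tv v 1 * tv w 1 = tv (((tv w 1 : SP) : MM) *ᵥ v) 1 := by
    have := T_conj (tv w 1) v
    rwa [T_inv] at this
  rcases z2 (Cfsg.sympForm n (ZMod 2) w v) with h | h
  · left
    rw [T_apply, h, zero_smul, add_zero] at c1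
    rw [pow_two, ← mul_assoc, c1, T_sq]
  · right
    have h' : Cfsg.sympForm n (ZMod 2) v w = 1 := by
      rw [sympForm_swap, h]; decide
    rw [T_apply, h, one_smul] at c1
    rw [T_apply, h', one_smul, add_comm] at c2
    have : ((tv v 1 : SP) * tv w 1) ^ 3
        = ((tv v 1 : SP) * tv w 1 * tv v 1) * (tv w 1 * tv v 1 * tv w 1) := by
      simp only [pow_succ, pow_zero, one_mul, mul_assoc]
    rw [this, c1, c2, T_sq]

theorem exists_form_eq_one {a : VV} (ha : a ≠ 0) : ∃ y : VV, Cfsg.sympForm n (ZMod 2) y a = 1 := by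
  by_contra hcon
  push Not at hcon
  apply ha
  apply sympForm_nondeg
  intro v
  rw [sympForm_swap]
  rcases z2 (Cfsg.sympForm n (ZMod 2) v a) with h | h
  · rw [h]; rfl
  · exact absurd h (hcon v)

theorem eq_T_of_moves {g : SP} (hg1 : g ≠ 1) {a : VV}
    (h : ∀ x : VV, (g : MM) *ᵥ x = x ∨ (g : MM) *ᵥ x = x + a) : a ≠ 0 ∧ g = tv a 1 := by
  obtain ⟨x0, hx0⟩ : ∃ x : VV, (g : MM) *ᵥ x ≠ x := by
    by_contra hcon
    push Not at hcon
    apply hg1
    apply sp_ext
    intro x
    rw [hcon x]; exact (one_mulVec x).symm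
  have hx0a := (h x0).resolve_left hx0
  have ha0 : a ≠ 0 := by
    rintro rfl
    apply hx0; rw [hx0a, add_zero]
  have hfixed : ∀ y : VV, (g : MM) *ᵥ y = y → Cfsg.sympForm n (ZMod 2) y a = 0 := by
    intro y hy
    have := sp_preserves g y x0
    rw [hy, hx0a, sympForm_add_right] at this
    simpa using this
  have hmoved : ∀ y : VV, (g : MM) *ᵥ y = y + a → Cfsg.sympForm n (ZMod 2) y a = 1 := by
    intro y hy
    obtain ⟨z, hz⟩ := exists_form_eq_one ha0
    have hzm : (g : MM) *ᵥ z = z + a := by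
      rcases h z with h' | h'
      · rw [hfixed z h'] at hz; exact absurd hz zero_ne_one
      · exact h'
    have hfix : (g : MM) *ᵥ (y + z) = y + z := by
      rw [mulVec_add, hy, hzm]
      have : a + a = 0 := by
        funext i
        show a i + a i = 0
        generalize a i = c
        revert c; decide
      calc y + a + (z + a) = y + z + (a + a) := by abel
        _ = y + z := by rw [this, add_zero]
    have := hfixed _ hfix
    rw [sympForm_add_left, hz] at this
    generalize Cfsg.sympForm n (ZMod 2) y a = c at this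
    revert c; decide
  refine ⟨ha0, ?_⟩
  apply sp_ext
  intro x
  rw [T_apply]
  rcases h x with h' | h'
  · rw [hfixed x h', zero_smul, add_zero, h']
  · rw [hmoved x h', one_smul, h']

theorem rank_T {a : VV} (ha : a ≠ 0) : (((tv a 1 : SP) : MM) - 1).rank = 1 := by
  have key : ∀ x : VV, (((tv a 1 : SP) : MM) - 1) *ᵥ x = Cfsg.sympForm n (ZMod 2) x a • a := by
    intro x
    rw [Matrix.sub_mulVec, Matrix.one_mulVec, T_apply]
    abel
  have hr : LinearMap.range ((((tv a 1 : SP) : MM) - 1).mulVecLin) = Submodule.span (ZMod 2) {a} := by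
    apply le_antisymm
    · rintro _ ⟨x, rfl⟩
      rw [Matrix.mulVecLin_apply, key]
      exact Submodule.smul_mem _ _ (Submodule.mem_span_singleton_self a)
    · rw [Submodule.span_singleton_le_iff_mem]
      obtain ⟨y, hy⟩ := exists_form_eq_one ha
      refine ⟨y, ?_⟩
      rw [Matrix.mulVecLin_apply, key, hy, one_smul]
  rw [Matrix.rank, hr, finrank_span_singleton ha]

theorem eq_T_of_rank (g : SP) (hg : ((g : MM) - 1).rank = 1) : ∃ a : VV, a ≠ 0 ∧ g = tv a 1 := by
  have hg1 : g ≠ 1 := by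
    rintro rfl
    simp at hg
  rw [Matrix.rank, finrank_eq_one_iff'] at hg
  obtain ⟨⟨a, ha⟩, ha0, hall⟩ := hg
  have h1 : ∀ x : VV, (g : MM) *ᵥ x = x ∨ (g : MM) *ᵥ x = x + a := by
    intro x
    obtain ⟨c, hc⟩ := hall ⟨_, LinearMap.mem_range_self _ x⟩
    have hc' : c • a = ((g : MM) - 1) *ᵥ x := congrArg Subtype.val hc
    rw [Matrix.sub_mulVec, Matrix.one_mulVec] at hc'
    rcases z2 c with rfl | rfl
    · left
      rw [zero_smul] at hc'
      exact (sub_eq_zero.1 hc'.symm)
    · right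
      rw [one_smul] at hc'
      rw [hc']; abel
  exact ⟨a, eq_T_of_moves hg1 h1⟩

theorem set_eq : {g : SP | ((g : MM) - 1).rank = 1} = {g | ∃ a : VV, a ≠ 0 ∧ g = tv a 1} := by
  ext g
  constructor
  · intro hg; exact eq_T_of_rank g hg
  · rintro ⟨a, ha, rfl⟩; exact rank_T ha

/-- In the symplectic group in dimension 2n ≥ 2 over the field with two elements, the elements g for which g - 1 has rank one (the symplectic transvections) form a conjugacy class of 3-transpositions generating the group. -/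
theorem result (n : ℕ) (hn : 1 ≤ n) : Cfsg.IsThreeTranspositionClass {g : Matrix.symplecticGroup (Fin n) (ZMod 2) | ((g : Matrix (Fin n ⊕ Fin n) (Fin n ⊕ Fin n) (ZMod 2)) - 1).rank = 1} := by
  refine ⟨⟨?_, ?_⟩, ?_, ?_⟩
  · intro d hd
    have hd1 : d ≠ 1 := by
      rintro rfl
      simp at hd
    rw [set_eq] at hd
    obtain ⟨a, ha, rfl⟩ := hd
    apply orderOf_eq_prime
    · rw [pow_two]; exact T_sq a
    · exact hd1
  · rw [set_eq]
    rintro _ ⟨a, ha, rfl⟩ _ ⟨b, hb, rfl⟩
    exact T_prod a b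
  · rw [set_eq]
    have hv0 : (Pi.single (Sum.inl ⟨0, by omega⟩) 1 : Fin n ⊕ Fin n → ZMod 2) ≠ 0 := by
      intro h
      have := congrFun h (Sum.inl ⟨0, by omega⟩)
      simp at this
    refine ⟨tv (Pi.single (Sum.inl ⟨0, by omega⟩) 1) 1, ⟨_, hv0, rfl⟩, ?_⟩
    ext g
    show _ ↔ IsConj _ g
    rw [isConj_iff]
    constructor
    · rintro ⟨a, ha, rfl⟩
      obtain ⟨y, hy⟩ := exists_form_eq_one hv0
      obtain ⟨z, hz⟩ := exists_form_eq_one ha
      obtain ⟨A, _, hA1, hA2⟩ := Cfsg.Agent.S0766.result n _ _ _ _ hy hz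
      exact ⟨A, by rw [T_conj, hA2]⟩
    · rintro ⟨c, rfl⟩
      refine ⟨_, ?_, T_conj c _⟩
      intro h
      apply hv0
      have := sp_inv_mulVec_mulVec c (Pi.single (Sum.inl ⟨0, by omega⟩) 1)
      rw [h, mulVec_zero] at this
      exact this.symm
  · rw [set_eq, eq_top_iff, ← Cfsg.Agent.S0765.result n, Subgroup.closure_le]
    rintro A ⟨w, c, hA⟩
    have hA' : A = tv w c := Subtype.ext hA
    by_cases hw : w = 0
    · have : A = 1 := by
        rw [hA']
        apply sp_ext
        intro x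
        rw [tv_mulVec, hw, smul_zero, add_zero]
        exact (one_mulVec x).symm
      rw [this]; exact Subgroup.one_mem _
    · rcases z2 c with rfl | rfl
      · have : A = 1 := by
          rw [hA']
          apply sp_ext
          intro x
          rw [tv_mulVec, zero_mul, zero_smul, add_zero]
          exact (one_mulVec x).symm
        rw [this]; exact Subgroup.one_mem _
      · exact Subgroup.subset_closure ⟨w, hw, hA'⟩

end Cfsg.Agent.S0440
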