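import Cfsg.Statements.S0247
import Cfsg.Agent.Lib.Helper57.IsoPerm
import Cfsg.Agent.S0440

set_option autoImplicit false
open Cfsg

namespace Cfsg.Agent.S0247

open Matrix Cfsg.Agent.Lib.Helper57 Cfsg.Agent.Lib.Helper13 Cfsg.Agent.S0440

/-- the four-dimensional space -/
abbrev V : Type := Fin 2 ⊕ Fin 2 → ZMod 2

/-- the symplectic form -/
abbrev f : V → V → ZMod 2 := Cfsg.sympForm 2 (ZMod 2)

/-- six vectors whose pairwise sums are the 15 non-zero vectors -/
def P : Fin 6 → V :=
  ![Sum.elim ![0, 0] ![0, 1], Sum.elim ![0, 1] ![0, 0], Sum.elim ![0, 1] ![1, 1],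
    Sum.elim ![1, 1] ![0, 1], Sum.elim ![1, 1] ![1, 1], 0]

theorem F1 : ∀ v : V, v ≠ 0 → ∃ a b : Fin 6, a ≠ b ∧ v = P a + P b := by decide +kernel

theorem F2 : ∀ a b c d : Fin 6, a ≠ b → P a + P b = P c + P d →
    (a = c ∧ b = d) ∨ (a = d ∧ b = c) := by decide +kernel

theorem F3 : ∀ x : V, x = ∑ j : Fin 6, (if j.val < 4 then f x (P j + P 4) else 0) • P j := by
  decide +kernel

theorem F4 : ∀ a b : Fin 6, a ≠ b → ∀ i j : Fin 6,
    (P i + P j) + f (P i + P j) (P a + P b) • (P a + P b)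
      = P (Equiv.swap a b i) + P (Equiv.swap a b j) := by decide +kernel

theorem F5 : ∀ i : Fin 6, ∃ j k : Fin 6, j ≠ i ∧ k ≠ i ∧ j ≠ k := by decide

/-- the group over `ZMod 2` -/
abbrev GG : Type := Matrix.symplecticGroup (Fin 2) (ZMod 2)

/-- the action on vectors -/
def act (g : GG) (x : V) : V := (g : Matrix (Fin 2 ⊕ Fin 2) (Fin 2 ⊕ Fin 2) (ZMod 2)) *ᵥ x

theorem act_mul (g h : GG) (x : V) : act (g * h) x = act g (act h x) := sp_mul_mulVec g h x

theorem act_one (x : V) : act 1 x = x := Matrix.one_mulVec x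

theorem act_inv_act (g : GG) (x : V) : act g⁻¹ (act g x) = x := by
  rw [← act_mul, inv_mul_cancel, act_one]

theorem act_tv (v x : V) : act (tv v 1) x = x + f x v • v := T_apply v x

/-- the relation between isometries and permutations -/
def R (g : GG) (σ : Equiv.Perm (Fin 6)) : Prop :=
  ∀ i j : Fin 6, act g (P i + P j) = P (σ i) + P (σ j)

theorem R_one : R 1 1 := by
  intro i j
  rw [act_one]; rfl

theorem R_mul (g g' : GG) (σ σ' : Equiv.Perm (Fin 6)) (h : R g σ) (h' : R g' σ') :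
    R (g * g') (σ * σ') := by
  intro i j
  rw [act_mul, h' i j, h]; rfl

theorem R_inv (g : GG) (σ : Equiv.Perm (Fin 6)) (h : R g σ) : R g⁻¹ σ⁻¹ := by
  intro i j
  have := h (σ⁻¹ i) (σ⁻¹ j)
  simp only [Equiv.Perm.coe_inv, Equiv.apply_symm_apply] at this
  rw [← this, act_inv_act]
  rfl

theorem R_uniq (g : GG) (σ σ' : Equiv.Perm (Fin 6)) (h : R g σ) (h' : R g σ') : σ = σ' := by
  ext i
  congr 1
  by_contra hne
  obtain ⟨j, k, hj, hk, hjk⟩ := F5 i
  have e1 : P (σ i) + P (σ j) = P (σ' i) + P (σ' j) := by rw [← h i j, ← h' i j]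
  have e2 : P (σ i) + P (σ k) = P (σ' i) + P (σ' k) := by rw [← h i k, ← h' i k]
  have n1 : σ i ≠ σ j := fun e => hj (σ.injective e).symm
  have n2 : σ i ≠ σ k := fun e => hk (σ.injective e).symm
  rcases F2 _ _ _ _ n1 e1 with ⟨h1, _⟩ | ⟨h1, _⟩
  · exact hne h1
  · rcases F2 _ _ _ _ n2 e2 with ⟨h2, _⟩ | ⟨h2, _⟩
    · exact hne h2
    · exact hjk (σ'.injective (h1.symm.trans h2))

theorem P5 : P 5 = 0 := rfl

theorem R_inj (g : GG) (h : R g 1) : g = 1 := by
  have hP : ∀ i, act g (P i) = P i := by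
    intro i
    have := h i 5
    simpa [P5] using this
  apply sp_ext
  intro x
  show act g x = act 1 x
  rw [act_one]
  conv_lhs => rw [F3 x]
  conv_rhs => rw [F3 x]
  unfold act
  rw [Matrix.mulVec_sum]
  apply Finset.sum_congr rfl
  intro j _
  rw [Matrix.mulVec_smul]
  congr 1
  exact hP j

theorem R_swap (a b : Fin 6) (hab : a ≠ b) : R (tv (P a + P b) 1) (Equiv.swap a b) := by
  intro i j
  rw [act_tv]
  exact F4 a b hab i j

theorem R_ex (g : GG) : ∃ σ, R g σ := by
  refine exists_rel_of_closure R _ (Cfsg.Agent.S0765.result (F := ZMod 2) 2) R_one R_mul R_inv ?_ g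
  rintro A ⟨w, c, hA⟩
  have hA' : A = tv w c := Subtype.ext hA
  by_cases hw : w = 0
  · have : A = 1 := by
      rw [hA']
      apply sp_ext
      intro x
      rw [tv_mulVec, hw, smul_zero, add_zero]
      exact (one_mulVec x).symm
    rw [this]; exact ⟨1, R_one⟩
  · rcases z2 c with rfl | rfl
    · have : A = 1 := by
        rw [hA']
        apply sp_ext
        intro x
        rw [tv_mulVec, zero_mul, zero_smul, add_zero]
        exact (one_mulVec x).symm
      rw [this]; exact ⟨1, R_one⟩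
    · obtain ⟨a, b, hab, rfl⟩ := F1 w hw
      rw [hA']
      exact ⟨_, R_swap a b hab⟩

theorem main : Nonempty (GG ≃* Equiv.Perm (Fin 6)) :=
  nonempty_mulEquiv_perm_of_rel R R_ex R_mul R_uniq R_inj (fun a b hab => ⟨_, R_swap a b hab⟩)

section transport

variable {l : Type*} [Fintype l] [DecidableEq l] {F K : Type*} [Field F] [Field K]

theorem J_map (e : F ≃+* K) : (Matrix.J l F).map e = Matrix.J l K := by
  unfold Matrix.J
  rw [Matrix.fromBlocks_map]
  congr 1
  · ext i j; simp
  · ext i j; simp [Matrix.neg_apply, Matrix.one_apply, apply_ite e]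
  · ext i j; simp [Matrix.one_apply, apply_ite e]
  · ext i j; simp

theorem map_mem (e : F ≃+* K) {A : Matrix (l ⊕ l) (l ⊕ l) F}
    (hA : A ∈ Matrix.symplecticGroup l F) : A.map e ∈ Matrix.symplecticGroup l K := by
  rw [SymplecticGroup.mem_iff] at hA ⊢
  have := congrArg (fun M => M.map e) hA
  rw [Matrix.map_mul, Matrix.map_mul, J_map, Matrix.transpose_map] at this
  exact this

/-- transport of the symplectic group along a field isomorphism -/
def spCongr (e : F ≃+* K) : Matrix.symplecticGroup l F ≃* Matrix.symplecticGroup l K where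
  toFun A := ⟨A.1.map e, map_mem e A.2⟩
  invFun A := ⟨A.1.map e.symm, map_mem e.symm A.2⟩
  left_inv A := by
    apply Subtype.ext
    ext i j
    simp
  right_inv A := by
    apply Subtype.ext
    ext i j
    simp
  map_mul' A B := by
    apply Subtype.ext
    show (A.1 * B.1).map e = A.1.map e * B.1.map e
    rw [Matrix.map_mul]

end transport

/-- Sp_4(2) is isomorphic to the symmetric group S_6. -/
theorem result {F : Type*} [Field F] [Fintype F] (hF : Fintype.card F = 2) : Nonempty (Matrix.symplecticGroup (Fin 2) F ≃* Equiv.Perm (Fin 6)) := by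
  obtain ⟨E⟩ := main
  exact ⟨(spCongr (ZMod.ringEquivOfPrime F Nat.prime_two hF).symm).trans E⟩

end Cfsg.Agent.S0247
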