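import Cfsg.Statements.S0250
import Mathlib
import Cfsg.Agent.Lib.Helper5.LinearCard
import Cfsg.Agent.Lib.Helper5.PermEmbed

set_option autoImplicit false
open Cfsg

namespace Cfsg.Agent.S0250

/-- SL_2(2) is isomorphic to S_3. -/
theorem result {F : Type*} [Field F] [Fintype F] (hF : Fintype.card F = 2) : Nonempty (Matrix.SpecialLinearGroup (Fin 2) F ≃* Equiv.Perm (Fin 3)) := by
  have hinj : Function.Injective (MulAction.toPermHom (Matrix.SpecialLinearGroup (Fin 2) F) (Projectivization F (Fin 2 → F))) := by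
    rw [← MonoidHom.ker_eq_bot_iff, Projectivization.SL_mulAction_ker, ← Subgroup.card_eq_one,
      Cfsg.Agent.Lib.Helper5.card_center_SL, hF]
    rfl
  refine Cfsg.Agent.Lib.Helper5.nonempty_mulEquiv_perm_of_injective _ hinj 3 ?_ ?_
  · rw [Cfsg.Agent.Lib.Helper5.card_projLine, hF]
  · rw [Cfsg.Agent.Lib.Helper5.card_SL2, hF]
    rfl

end Cfsg.Agent.S0250
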