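import Mathlib
import Cfsg.Statements.S0300
import Cfsg.Agent.Lib.Helper14.Omega4Minus
import Cfsg.Agent.Lib.Helper14.ExcIso2
import Cfsg.Agent.Lib.Helper5.POmegaOrder
import Cfsg.Agent.Lib.Helper5.LinearCard
import Cfsg.Agent.S0288

set_option autoImplicit false
open Cfsg

namespace Cfsg.Agent.S0300

open Cfsg.Agent.Lib.Helper14 Cfsg.Agent.Lib.Helper44 Matrix

/-- PΩ^-_4(q) is isomorphic to PSL_2(q^2). -/
theorem result {F K : Type*} [Field F] [Fintype F] [Field K] [Fintype K] {q : ℕ} (hF : Fintype.card F = q) (hK : Fintype.card K = q ^ 2) (a b : F) (hab : ∀ z₁ z₂ : F, z₁ ^ 2 + a * z₁ * z₂ + b * z₂ ^ 2 = 0 → z₁ = 0 ∧ z₂ = 0) : Nonempty (Cfsg.POmega F (Cfsg.quadFormMinus 1 F a b) ≃* Matrix.ProjectiveSpecialLinearGroup (Fin 2) K) := by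
  classical
  subst hF
  set q := Fintype.card F with hq
  have hD := disc_ne_zero_of_anisotropic F hab
  have hfact : Fact (∀ r : F, r ^ 2 ≠ -b + a * r) := ⟨fun r hr => by
    have := hab r (-1) (by linear_combination hr)
    simpa using this.2⟩
  have hfinE : Fintype (QuadraticAlgebra F (-b) a) :=
    Fintype.ofEquiv (F × F) (QuadraticAlgebra.equivProd (-b) a).symm
  have hE : Fintype.card (QuadraticAlgebra F (-b) a) = q ^ 2 := by
    rw [Fintype.card_congr (QuadraticAlgebra.equivProd (-b) a), Fintype.card_prod, sq]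
  obtain ⟨eK⟩ := psl2_equiv_of_card_eq (K := QuadraticAlgebra F (-b) a) (L := K) (hE.trans hK.symm)
  suffices h : Nonempty (Cfsg.POmega F (Cfsg.quadFormMinus 1 F a b) ≃*
      Matrix.ProjectiveSpecialLinearGroup (Fin 2) (QuadraticAlgebra F (-b) a)) from
    ⟨h.some.trans eK⟩
  have hperf : commutator (Matrix.SpecialLinearGroup (Fin 2) (QuadraticAlgebra F (-b) a)) = ⊤ := by
    apply Matrix.SL2.commutator_eq_top (a := (QuadraticAlgebra.omega : QuadraticAlgebra F (-b) a))
    · intro h
      have := congrArg QuadraticAlgebra.im h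
      simp at this
    · intro h
      rw [sq, QuadraticAlgebra.omega_mul_omega_eq_mk] at h
      have h1 := congrArg QuadraticAlgebra.re h
      have h2 := congrArg QuadraticAlgebra.im h
      change -b = 1 at h1
      change a = 0 at h2
      have := hab 1 1 (by rw [h2]; linear_combination -h1)
      exact one_ne_zero this.1
  have hO := Cfsg.Agent.S0288.result (F := F) rfl 2 (by norm_num) a b hab
  simp only [Nat.add_one_sub_one, Finset.prod_range_one, zero_add, mul_one] at hO
  rw [← hq] at hO
  have hSL := Cfsg.Agent.Lib.Helper5.card_SL2 (F := QuadraticAlgebra F (-b) a)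
  rw [hE] at hSL
  have hq1 : 1 ≤ q ^ 2 := Nat.one_le_pow _ _ Fintype.card_pos
  have hfac : (q ^ 2) ^ 2 - 1 = (q ^ 2 + 1) * (q ^ 2 - 1) := by
    obtain ⟨s, hs⟩ : ∃ s, q ^ 2 = s + 1 := ⟨q ^ 2 - 1, by omega⟩
    rw [hs]
    have : (s + 1) ^ 2 = (s + 1 + 1) * s + 1 := by ring
    rw [this]
    simp
  rw [hfac] at hSL
  have hP : Group.IsPerfect (Matrix.SpecialLinearGroup (Fin 2) (QuadraticAlgebra F (-b) a)) := ⟨hperf⟩
  have hρ : ∀ g, rho4m a b hD g ∈ commutator (OQ (minusQF 1 F a b)) :=
    fun g => map_mem_commutator _ (by rw [hperf]; exact Subgroup.mem_top g)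
  have hkerle : (rho4m a b hD).ker ≤ (QuotientGroup.mk' (Subgroup.center
      (Matrix.SpecialLinearGroup (Fin 2) (QuadraticAlgebra F (-b) a)))).ker := by
    rw [QuotientGroup.ker_mk']
    intro g hg
    rw [mem_rho4m_ker] at hg
    rw [Cfsg.Agent.Lib.Helper41.sl2_mem_center_iff]
    exact hg
  rw [← minusQF_coe]
  rcases Nat.even_or_odd q with hev | hodd
  · have h20 : (2 : F) = 0 := by
      have h := FiniteField.even_card_iff_char_two.mpr (Nat.even_iff.mp hev)
      have : CharP F 2 := h ▸ ringChar.charP F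
      exact CharP.cast_eq_zero F 2
    have hk : Nat.card (rho4m a b hD).ker = 1 := by
      apply card_pm_one_eq
      intro g hg
      rw [mem_rho4m_ker] at hg
      apply Matrix.SpecialLinearGroup.ext
      intro i j
      rcases hg with h | h
      · rw [h]; rfl
      · rw [h]
        have hneg : (-1 : QuadraticAlgebra F (-b) a) = 1 := by
          ext
          · show (-1 : F) = 1
            linear_combination (-1 : F) * h20
          · show (-0 : F) = 0
            simp
        by_cases hij : i = j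
        · subst hij
          simp [hneg]
        · simp [hij]
    refine exc_iso_two (minusQF 1 F a b) (rho4m a b hD) hρ ?_ _ (QuotientGroup.mk'_surjective _)
      psl2_center_eq_bot hkerle (by rw [QuotientGroup.ker_mk'])
    rw [hk, hSL, minusQF_coe, hO]
    ring
  · have h2 : (2 : F) ≠ 0 := Cfsg.Agent.Lib.Helper44.two_ne_zero_of_odd_card hodd
    have hk : Nat.card (rho4m a b hD).ker = 2 := by
      apply card_pm_one_ne _ (-1)
      · intro h
        have h' := congrArg (fun g : Matrix.SpecialLinearGroup (Fin 2) (QuadraticAlgebra F (-b) a) =>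
          ((g : Matrix (Fin 2) (Fin 2) (QuadraticAlgebra F (-b) a)) 0 0).re) h
        simp at h'
        change (-1 : F) = 1 at h'
        apply h2
        linear_combination -h'
      · intro g
        rw [mem_rho4m_ker]
        constructor
        · rintro (h | h)
          · left; exact Subtype.ext h
          · right; exact Subtype.ext (by rw [h]; simp)
        · rintro (h | h)
          · left; rw [h]; simp
          · right; rw [h]; simp
    refine exc_iso (minusQF 1 F a b) (rho4m a b hD) hρ ?_ _ (QuotientGroup.mk'_surjective _)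
      psl2_center_eq_bot hkerle (by rw [QuotientGroup.ker_mk'])
    have e3 := Cfsg.Agent.Lib.Helper5.index_Omega_odd h2 (minusQF 1 F a b) (minusQF_nondeg 1 F hab) (by simp)
    have hidx := Subgroup.card_mul_index (Cfsg.Omega F ⇑(minusQF 1 F a b))
    rw [e3] at hidx
    rw [minusQF_coe] at hidx ⊢
    rw [hO] at hidx
    rw [hk, hSL]
    have : Nat.card (Cfsg.Omega F (Cfsg.quadFormMinus 1 F a b)) * 4 = (q ^ 2 * ((q ^ 2 + 1) * (q ^ 2 - 1))) * 2 := by
      rw [hidx]; ring
    omega

end Cfsg.Agent.S0300
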