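import Mathlib
import Cfsg.Statements.S0254
import Cfsg.Agent.Lib.Helper14.Omega4MinusThree
import Cfsg.Agent.Lib.Helper5.POmegaOrder
import Cfsg.Agent.S0288
import Cfsg.Agent.S0300

set_option autoImplicit false
open Cfsg

namespace Cfsg.Agent.S0254

open Cfsg.Agent.Lib.Helper14 Cfsg.Agent.Lib.Helper44 Matrix

/-- PSL_2(9) is isomorphic to A_6. -/
theorem result {F : Type*} [Field F] [Fintype F] (hF : Fintype.card F = 9) : Nonempty (Matrix.ProjectiveSpecialLinearGroup (Fin 2) F ≃* alternatingGroup (Fin 6)) := by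
  have hab : ∀ z₁ z₂ : ZMod 3, z₁ ^ 2 + 0 * z₁ * z₂ + 1 * z₂ ^ 2 = 0 → z₁ = 0 ∧ z₂ = 0 := by decide
  obtain ⟨e1⟩ := Cfsg.Agent.S0300.result (F := ZMod 3) (K := F) (q := 3) (ZMod.card 3)
    (by rw [hF]; norm_num) 0 1 hab
  suffices h : Nonempty (Cfsg.POmega (ZMod 3) (Cfsg.quadFormMinus 1 (ZMod 3) 0 1) ≃*
      alternatingGroup (Fin 6)) from ⟨e1.symm.trans h.some⟩
  have h2 : (2 : ZMod 3) ≠ 0 := by decide
  let ρ : alternatingGroup (Fin 6) →* OQ (minusQF 1 (ZMod 3) 0 1) :=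
    rhoS6.comp (alternatingGroup (Fin 6)).subtype
  have hinj : Function.Injective ρ := rhoS6_injective.comp Subtype.val_injective
  have hker : ρ.ker = ⊥ := (MonoidHom.ker_eq_bot_iff ρ).mpr hinj
  have hperf : commutator (alternatingGroup (Fin 6)) = ⊤ :=
    commutator_alternatingGroup_eq_top (by simp)
  have hO := Cfsg.Agent.S0288.result (F := ZMod 3) (q := 3) (ZMod.card 3) 2 (by norm_num) 0 1 hab
  simp only [Nat.add_one_sub_one, Finset.prod_range_one, zero_add, mul_one] at hO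
  have e3 := Cfsg.Agent.Lib.Helper5.index_Omega_odd h2 (minusQF 1 (ZMod 3) 0 1)
    (minusQF_nondeg 1 (ZMod 3) hab) (by simp)
  have hidx := Subgroup.card_mul_index (Cfsg.Omega (ZMod 3) ⇑(minusQF 1 (ZMod 3) 0 1))
  rw [e3] at hidx
  have hcard : Nat.card (alternatingGroup (Fin 6))
      = Nat.card ρ.ker * Nat.card (Cfsg.Omega (ZMod 3) ⇑(minusQF 1 (ZMod 3) 0 1)) := by
    rw [hker, nat_card_alternatingGroup]
    rw [minusQF_coe] at hidx ⊢
    rw [hO] at hidx
    simp [Nat.factorial] at hidx ⊢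
    omega
  have := exc_iso (minusQF 1 (ZMod 3) 0 1) ρ
    (fun a => map_mem_commutator ρ (by rw [hperf]; exact Subgroup.mem_top a)) hcard
    (MonoidHom.id _) Function.surjective_id (alternatingGroup.center_eq_bot (by simp))
    (by rw [hker]; exact bot_le) (by
      intro x hx
      rw [MonoidHom.mem_ker] at hx
      change x = 1 at hx
      rw [hx]; exact one_mem _)
  rwa [minusQF_coe] at this

end Cfsg.Agent.S0254
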