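import Cfsg.Statements.S0256
import Cfsg.Agent.S0242
import Cfsg.Agent.S0243
import Cfsg.Agent.S1554
import Cfsg.Agent.Lib.Helper27.OctadPointwise
import Cfsg.Agent.Lib.Helper30.SixSets
import Cfsg.Agent.Lib.Helper30.AutElemAb

set_option autoImplicit false
open Cfsg

namespace Cfsg.Agent.S0256

open Cfsg.Agent.Lib.Helper27 Cfsg.Agent.Lib.Helper30
open scoped Pointwise

theorem card_GL4 : Nat.card (GL (Fin 4) (ZMod 2)) = 20160 := by
  rw [Matrix.card_GL_field]
  simp [Fin.prod_univ_four]

/-- the complement `A8` of the octad stabiliser `2^4 : A8` is `GL(4,2)`. -/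
theorem compl_equiv_GL : Nonempty (↥(octStab (unmask stdOctad) ⊓
    MulAction.stabilizer (Equiv.Perm GolayPt) (pt 4)) ≃* GL (Fin 4) (ZMod 2)) := by
  have ho := stdOctad_mem
  have hp : pt 4 ∉ unmask stdOctad := by decide +kernel
  have hsq := (Cfsg.Agent.S0381.result _ ho).2
  apply nonempty_equiv_GL_of_conj (octFix (unmask stdOctad)) _ 2 4
  · intro b hb a ha
    have := conj_mem_octFix hb.1.1 ha
    have hbo : b • unmask stdOctad = unmask stdOctad := hb.1.2
    rwa [hbo] at this
  · intro a ha a' ha'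
    have h1 := hsq a ha
    have h2 := hsq a' ha'
    have h3 := hsq (a * a') ((octFix _).mul_mem ha ha')
    calc a * a' = (a' * a') * (a * a') := by rw [h2, one_mul]
      _ = a' * (a * a) * a' * (a * a') := by rw [h1]; group
      _ = a' * a * (a * a' * (a * a')) := by group
      _ = a' * a := by rw [h3, mul_one]
  · intro a ha
    rw [pow_two]; exact hsq a ha
  · rw [(Cfsg.Agent.S0381.result _ ho).1]; norm_num
  · intro b hb hcen
    have hfix : ∀ q ∈ unmask 8241104, b q = q := by
      intro q hq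
      obtain ⟨a, ha, haq, _⟩ := PO_invols q hq
      have ha' : a ∈ octFix (unmask stdOctad) := mem_octFix_iff.mpr (mem_fixer_PO.mp ha)
      have h1 := hcen a ha'
      have hb4 : b (pt 4) = pt 4 := hb.2
      rw [← haq]
      calc b (a (pt 4)) = (b * a) (pt 4) := rfl
        _ = (a * b) (pt 4) := by rw [h1]
        _ = a (b (pt 4)) := rfl
        _ = a (pt 4) := by rw [hb4]
    have ho' : unmask 337856 ∈ octads := unmask_mem_octads (by decide +kernel) (by decide +kernel)
    have hsub : ∀ x ∈ unmask 337856, x ∈ unmask 8241104 := by decide +kernel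
    have hq0 : pt 4 ∉ unmask 337856 := by decide +kernel
    exact Cfsg.Agent.S1554.eq_one_of_fix ho' hq0 hb.1.1 (fun x hx => hfix x (hsub x hx)) hb.2
  · rw [card_GL4]
    exact Cfsg.Agent.S1554.card_joint ho hp

/-- PSL_4(2) is isomorphic to A_8. -/
theorem result {F : Type*} [Field F] [Fintype F] (hF : Fintype.card F = 2) : Nonempty (Matrix.ProjectiveSpecialLinearGroup (Fin 4) F ≃* alternatingGroup (Fin 8)) := by
  have ho := stdOctad_mem
  have hp : pt 4 ∉ unmask stdOctad := by decide +kernel
  obtain ⟨e6⟩ := (Cfsg.Agent.S1554.result _ ho _ hp).2.2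
  obtain ⟨e5⟩ := compl_equiv_GL
  -- orders
  have hSL : Nat.card (Matrix.SpecialLinearGroup (Fin 4) F) = 20160 := by
    have h := Cfsg.Agent.S0242.result hF 4 (by norm_num)
    simp only [Fin.prod_univ_four] at h
    norm_num at h
    omega
  have hPSL : Nat.card (Matrix.ProjectiveSpecialLinearGroup (Fin 4) F) = 20160 := by
    have h := Cfsg.Agent.S0243.result hF 4 (by norm_num)
    simp only [Fin.prod_univ_four] at h
    norm_num at h
    omega
  have hGL : Nat.card (GL (Fin 4) F) = 20160 := by
    rw [Matrix.card_GL_field, hF]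
    simp [Fin.prod_univ_four]
  have hfinSL : Finite (Matrix.SpecialLinearGroup (Fin 4) F) := inferInstance
  -- `PSL ≃* SL`
  have h1 : Function.Bijective (QuotientGroup.mk'
      (Subgroup.center (Matrix.SpecialLinearGroup (Fin 4) F))) :=
    (QuotientGroup.mk'_surjective _).bijective_of_nat_card_le (by
      rw [hSL]; exact hPSL.ge)
  let e1 := MulEquiv.ofBijective _ h1
  -- `SL ≃* GL`
  have h2 : Function.Bijective (Matrix.SpecialLinearGroup.toGL (n := Fin 4) (R := F)) :=
    (Matrix.SpecialLinearGroup.toGL_injective).bijective_of_nat_card_le (by rw [hSL, hGL])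
  let e2 := MulEquiv.ofBijective _ h2
  -- `GL F ≃* GL (ZMod 2)`
  let r : ZMod 2 ≃+* F := ZMod.ringEquivOfPrime F Nat.prime_two hF
  let e3 : GL (Fin 4) (ZMod 2) ≃* GL (Fin 4) F := Units.mapEquiv (RingEquiv.mapMatrix r).toMulEquiv
  exact ⟨e1.symm.trans (e2.trans (e3.symm.trans (e5.symm.trans e6)))⟩

end Cfsg.Agent.S0256
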