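import Cfsg.Statements.S0257
import Mathlib
import Cfsg.Agent.Lib.Helper5.SL2Sylow
import Cfsg.Agent.S0251

set_option autoImplicit false
open Cfsg

namespace Cfsg.Agent.S0257

/-- SL_2(3) has a normal subgroup of index 3 isomorphic to the quaternion group of order 8, and its centre has order 2. -/
theorem result {F : Type*} [Field F] [Fintype F] (hF : Fintype.card F = 3) : (∃ Q : Subgroup (Matrix.SpecialLinearGroup (Fin 2) F), Q.Normal ∧ Q.index = 3 ∧ Nonempty (Q ≃* QuaternionGroup 2)) ∧ Nat.card (Subgroup.center (Matrix.SpecialLinearGroup (Fin 2) F)) = 2 := by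
  constructor
  · obtain ⟨e⟩ := Cfsg.Agent.S0251.result hF
    have h4 : Nat.card (Fin 4) = 4 := by simp
    have hVn := alternatingGroup.normal_kleinFour h4
    set φ : Matrix.SpecialLinearGroup (Fin 2) F →* alternatingGroup (Fin 4) :=
      e.toMonoidHom.comp (QuotientGroup.mk' _) with hφ
    have hφs : Function.Surjective φ := e.surjective.comp (QuotientGroup.mk'_surjective _)
    set Q := (alternatingGroup.kleinFour (Fin 4)).comap φ with hQ
    have hidx : Q.index = 3 := by
      rw [hQ, Subgroup.index_comap_of_surjective _ hφs]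
      have h1 := (alternatingGroup.kleinFour (Fin 4)).card_mul_index
      rw [alternatingGroup.kleinFour_card_of_card_eq_four h4,
        alternatingGroup.card_of_card_eq_four h4] at h1
      omega
    have hcard : Nat.card Q = 2 ^ 3 := by
      have h1 := Q.card_mul_index
      rw [hidx, Cfsg.Agent.Lib.Helper5.card_SL2, hF] at h1
      omega
    refine ⟨Q, hVn.comap φ, hidx, ?_⟩
    have hp : IsPGroup 2 Q := IsPGroup.of_card hcard
    obtain ⟨k, hk, ⟨e2⟩⟩ := Cfsg.Agent.Lib.Helper5.sylow_two_SL2_quaternion (F := F)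
      (by rw [hF]; decide) (hp.toSylow (by rw [hidx]; decide))
    have hk1 : k = 1 := by
      have h1 := Nat.card_congr e2.toEquiv
      rw [Nat.card_eq_fintype_card (α := QuaternionGroup (2 ^ k)), QuaternionGroup.card] at h1
      have h2 : Nat.card Q = 4 * 2 ^ k := h1
      rw [hcard] at h2
      have h3 : 2 ^ k = 2 ^ 1 := by omega
      exact Nat.pow_right_injective (le_refl 2) h3
    subst hk1
    exact ⟨e2⟩
  · rw [Cfsg.Agent.Lib.Helper5.card_center_SL, hF]
    rfl

end Cfsg.Agent.S0257
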