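import Cfsg.Statements.S0267
import Cfsg.Agent.Lib.Helper89.P1

set_option autoImplicit false
open Cfsg

namespace Cfsg.Agent.S0267

open Cfsg.Agent.Lib.Helper89.P1 Matrix Projectivization
open scoped MatrixGroups LinearAlgebra.Projectivization

lemma toGL_smul {F : Type*} [Field F] (s : Matrix.SpecialLinearGroup (Fin 2) F)
    (p : ℙ F (Fin 2 → F)) : (Matrix.SpecialLinearGroup.toGL s) • p = s • p := by
  induction p using Projectivization.ind with | _ v hv =>
  rfl

lemma smul_eq_of_scalar {F : Type*} [Field F] (s : Matrix.SpecialLinearGroup (Fin 2) F)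
    (g : GL (Fin 2) F) (r : F)
    (h : (s : Matrix (Fin 2) (Fin 2) F) = r • (g : Matrix (Fin 2) (Fin 2) F))
    (p : ℙ F (Fin 2 → F)) : s • p = g • p := by
  induction p using Projectivization.ind with | _ v hv =>
  rw [smul_mk, smul_mk, mk_eq_mk_iff']
  refine ⟨r, ?_⟩
  change r • ((g : Matrix (Fin 2) (Fin 2) F) *ᵥ v) = (s : Matrix (Fin 2) (Fin 2) F) *ᵥ v
  rw [h, Matrix.smul_mulVec]

/-- SL_2(q) is 3-transitive on the q+1 points of the projective line if and only if q is even. -/
theorem result {F : Type*} [Field F] [Fintype F] : MulAction.IsMultiplyPretransitive (Matrix.SpecialLinearGroup (Fin 2) F) (Projectivization F (Fin 2 → F)) 3 ↔ ringChar F = 2 := by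
  constructor
  · intro h
    by_contra hc
    obtain ⟨d, hd⟩ := FiniteField.exists_nonsquare hc
    have hd0 : d ≠ 0 := by
      rintro rfl
      exact hd (IsSquare.zero)
    obtain ⟨s, hs⟩ := h.exists_smul_eq (triple (1 : F) one_ne_zero) (triple d hd0)
    have h0 : s • (pInf : ℙ F (Fin 2 → F)) = pInf := congrArg (fun f => f 0) hs
    have h1 : s • (pt 0 : ℙ F (Fin 2 → F)) = pt 0 := congrArg (fun f => f 1) hs
    have h2 : s • (pt 1 : ℙ F (Fin 2 → F)) = pt d := congrArg (fun f => f 2) hs
    rw [← toGL_smul, GL_smul_pInf_eq_iff] at h0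
    rw [← toGL_smul, GL_smul_pt_zero_eq_iff] at h1
    rw [← toGL_smul, GL_smul_pt_eq_iff, h0, h1] at h2
    simp only [mul_one, add_zero, zero_add] at h2
    have hdet := s.det_coe
    rw [Matrix.det_fin_two] at hdet
    change (s : Matrix (Fin 2) (Fin 2) F) 1 0 = 0 at h0
    change (s : Matrix (Fin 2) (Fin 2) F) 0 1 = 0 at h1
    change (s : Matrix (Fin 2) (Fin 2) F) 0 0 = (s : Matrix (Fin 2) (Fin 2) F) 1 1 * d at h2
    rw [h0, h1, mul_zero, sub_zero] at hdet
    apply hd
    refine ⟨(s : Matrix (Fin 2) (Fin 2) F) 0 0, ?_⟩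
    calc d = ((s : Matrix (Fin 2) (Fin 2) F) 0 0 * (s : Matrix (Fin 2) (Fin 2) F) 1 1) * d := by
          rw [hdet, one_mul]
      _ = (s : Matrix (Fin 2) (Fin 2) F) 0 0 * ((s : Matrix (Fin 2) (Fin 2) F) 1 1 * d) := by ring
      _ = _ := by rw [← h2]
  · intro hc
    rw [MulAction.IsMultiplyPretransitive,
      MulAction.isPretransitive_iff_base (triple (1 : F) one_ne_zero)]
    intro y
    obtain ⟨g, h0, h1, h2⟩ := exists_GL (y 0) (y 1) (y 2)
      (fun h => by simpa using y.injective h) (fun h => by simpa using y.injective h)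
      (fun h => by simpa using y.injective h)
    have hdet : (g : Matrix (Fin 2) (Fin 2) F).det ≠ 0 := by
      have := g.isUnit
      rw [Matrix.isUnit_iff_isUnit_det] at this
      exact this.ne_zero
    obtain ⟨r, hr⟩ := FiniteField.isSquare_of_char_two hc ((g : Matrix (Fin 2) (Fin 2) F).det)⁻¹
    let s : Matrix.SpecialLinearGroup (Fin 2) F := ⟨r • (g : Matrix (Fin 2) (Fin 2) F), by
      rw [Matrix.det_smul, Fintype.card_fin, pow_two, ← hr, inv_mul_cancel₀ hdet]⟩
    have hs : ∀ p : ℙ F (Fin 2 → F), s • p = g • p := smul_eq_of_scalar s g r rfl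
    refine ⟨s, ?_⟩
    ext i
    fin_cases i
    · exact (hs _).trans h0
    · exact (hs _).trans h1
    · exact (hs _).trans h2

end Cfsg.Agent.S0267
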