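import Cfsg.Statements.S0275
import Cfsg.Agent.Lib.Helper41.Dickson.SL2Prime
import Cfsg.Agent.S0016
import Cfsg.Agent.S0261

set_option autoImplicit false
set_option linter.style.haveILetI false
open Cfsg

namespace Cfsg.Agent.S0275

open Cfsg.Agent.Lib.Helper41

theorem noncomm_quaternion (k : ℕ) (hk : 1 ≤ k) :
    ∃ x y : QuaternionGroup (2 ^ k), x * y ≠ y * x := by
  refine ⟨QuaternionGroup.a 1, QuaternionGroup.xa 0, ?_⟩
  rw [QuaternionGroup.a_mul_xa, QuaternionGroup.xa_mul_a]
  intro h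
  have h1 : (0 - 1 : ZMod (2 * 2 ^ k)) = 0 + 1 := by
    injection h
  have h2 : ((2 : ℕ) : ZMod (2 * 2 ^ k)) = 0 := by
    push_cast
    linear_combination -h1
  rw [ZMod.natCast_eq_zero_iff] at h2
  have h3 := Nat.le_of_dvd (by norm_num) h2
  have h4 : 2 ^ 1 ≤ 2 ^ k := Nat.pow_le_pow_right (by norm_num) hk
  omega

/-- If p is odd and H is a subgroup of SL_2(q), q a power of p, with more than one Sylow p-subgroup, then the Sylow 2-subgroups of H are generalised quaternion. -/
theorem result {F : Type*} [Field F] [Fintype F] (p : ℕ) [Fact p.Prime] [CharP F p] (hp : p ≠ 2) (H : Subgroup (Matrix.SpecialLinearGroup (Fin 2) F)) (hH : 1 < Nat.card (Sylow p H)) (S : Sylow 2 H) : ∃ k : ℕ, 1 ≤ k ∧ Nonempty ((S : Subgroup H) ≃* QuaternionGroup (2 ^ k)) := by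
  have hpp : p.Prime := Fact.out
  have h2 : (2 : F) ≠ 0 := by
    intro h
    have h3 : ((2 : ℕ) : F) = 0 := by exact_mod_cast h
    rw [CharP.cast_eq_zero_iff F p] at h3
    exact hp ((Nat.prime_dvd_prime_iff_eq hpp Nat.prime_two).1 h3)
  -- `S` is not commutative
  have hnc : ¬ ∀ a b : (S : Subgroup H), a * b = b * a := by
    intro hcomm
    obtain ⟨K, hKH, ⟨e⟩⟩ := Cfsg.Agent.Lib.Helper41.Dickson.exists_sl2_prime p hp H hH
    let φ : Matrix.SpecialLinearGroup (Fin 2) (ZMod p) →* H :=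
      (Subgroup.inclusion hKH).comp e.symm.toMonoidHom
    have hφ : Function.Injective φ := (Subgroup.inclusion_injective hKH).comp e.symm.injective
    obtain ⟨T₀⟩ : Nonempty (Sylow 2 (Matrix.SpecialLinearGroup (Fin 2) (ZMod p))) := inferInstance
    obtain ⟨k, hk, ⟨eT⟩⟩ := Cfsg.Agent.S0261.result (F := ZMod p)
      (by rw [ZMod.card]; exact hpp.odd_of_ne_two hp) T₀
    obtain ⟨x, y, hxy⟩ := noncomm_quaternion k hk
    have hT : IsPGroup 2 ((T₀ : Subgroup _).map φ) := T₀.isPGroup'.map φ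
    obtain ⟨S', hS'⟩ := hT.exists_le_sylow
    obtain ⟨g, rfl⟩ := MulAction.exists_smul_eq H S S'
    have key : ∀ t : (T₀ : Subgroup (Matrix.SpecialLinearGroup (Fin 2) (ZMod p))),
        g⁻¹ * φ t * g ∈ (S : Subgroup H) := by
      intro t
      have h1 := hS' ⟨t, t.2, rfl⟩
      rw [Sylow.coe_subgroup_smul, Subgroup.mem_pointwise_smul_iff_inv_smul_mem] at h1
      simpa [MulAut.smul_def, MulAut.conj_apply] using h1
    apply hxy
    have h3 := hcomm ⟨_, key (eT.symm x)⟩ ⟨_, key (eT.symm y)⟩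
    have h4 : g⁻¹ * φ (eT.symm x) * g * (g⁻¹ * φ (eT.symm y) * g) =
        g⁻¹ * φ (eT.symm y) * g * (g⁻¹ * φ (eT.symm x) * g) := congrArg Subtype.val h3
    have h5 : φ (eT.symm x) * φ (eT.symm y) = φ (eT.symm y) * φ (eT.symm x) := by
      have e1 : φ (eT.symm x) * φ (eT.symm y) =
          g * (g⁻¹ * φ (eT.symm x) * g * (g⁻¹ * φ (eT.symm y) * g)) * g⁻¹ := by group
      rw [e1, h4]; group
    rw [← map_mul, ← map_mul] at h5
    have h6 := hφ h5
    have h7 : eT.symm x * eT.symm y = eT.symm y * eT.symm x := Subtype.ext h6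
    rw [← map_mul, ← map_mul] at h7
    exact eT.symm.injective h7
  -- uniqueness of the subgroup of order two
  have hinv : ∀ (A : Subgroup (S : Subgroup H)), Nat.card A = 2 → ∀ a ∈ A,
      a = 1 ∨ ((a : H) : Matrix.SpecialLinearGroup (Fin 2) F) = -1 := by
    intro A hA a ha
    have h1 : (⟨a, ha⟩ : A) ^ 2 = 1 := by
      have := pow_card_eq_one' (x := (⟨a, ha⟩ : A))
      rwa [hA] at this
    have h3 : ((a : H) : Matrix.SpecialLinearGroup (Fin 2) F) *
        ((a : H) : Matrix.SpecialLinearGroup (Fin 2) F) = 1 := by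
      have := congrArg (fun z : A => (((z : (S : Subgroup H)) : H) :
        Matrix.SpecialLinearGroup (Fin 2) F)) h1
      simpa [sq] using this
    rcases (sl2_mul_self_eq_one_iff h2 _).1 h3 with h4 | h4
    · left
      exact Subtype.ext (Subtype.ext h4)
    · right; exact h4
  have hle : ∀ (A B : Subgroup (S : Subgroup H)), Nat.card A = 2 → Nat.card B = 2 → A ≤ B := by
    intro A B hA hB a ha
    rcases hinv A hA a ha with h | h
    · rw [h]; exact B.one_mem
    · haveI : Nontrivial B := by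
        rw [← Finite.one_lt_card_iff_nontrivial, hB]; norm_num
      obtain ⟨⟨b, hb⟩, hb1⟩ := exists_ne (1 : B)
      rcases hinv B hB b hb with h' | h'
      · exact absurd (Subtype.ext h') hb1
      · have : a = b := Subtype.ext (Subtype.ext (h.trans h'.symm))
        rw [this]; exact hb
  rcases Cfsg.Agent.S0016.result (G := (S : Subgroup H)) 2 S.isPGroup'
    (fun A B hA hB => le_antisymm (hle A B hA hB) (hle B A hB hA)) with hc | ⟨-, n, ⟨e⟩⟩
  · exfalso
    apply hnc
    letI := IsCyclic.commGroup (α := (S : Subgroup H))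
    exact mul_comm
  · refine ⟨n, ?_, ⟨e⟩⟩
    by_contra hcon
    have hn0 : n = 0 := by omega
    subst hn0
    apply hnc
    haveI : IsCyclic (QuaternionGroup (2 ^ 0)) := QuaternionGroup.quaternionGroup_one_isCyclic
    letI := IsCyclic.commGroup (α := QuaternionGroup (2 ^ 0))
    intro a b
    apply e.injective
    rw [map_mul, map_mul, mul_comm]

end Cfsg.Agent.S0275
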