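import Cfsg.Statements.S0295
import Mathlib
import Cfsg.Agent.Lib.Helper5.OmegaSimple
import Cfsg.Agent.Lib.Helper44.StdForms
import Cfsg.Agent.Lib.Helper44.HypInv

set_option autoImplicit false
open Cfsg

open Cfsg.Agent.Lib.Helper5 Cfsg.Agent.Lib.Helper44

namespace Cfsg.Agent.S0295

/-- PΩ_{2m+1}(q) is simple for q odd and m at least 3. -/
theorem result {F : Type*} [Field F] [Fintype F] (hodd : Odd (Fintype.card F)) (m : ℕ) (hm : 3 ≤ m) : IsSimpleGroup (Cfsg.POmega F (Cfsg.quadFormOdd m F)) := by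
  have h2 : (2 : F) ≠ 0 := two_ne_zero_of_odd_card hodd
  have := pOmega_isSimpleGroup (oddQF m F) (oddQF_nondeg m F h2) (by simp; omega)
  rwa [oddQF_coe] at this

end Cfsg.Agent.S0295
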