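import Cfsg.Statements.S0296
import Mathlib
import Cfsg.Agent.Lib.Helper5.OmegaSimple
import Cfsg.Agent.Lib.Helper44.StdForms
import Cfsg.Agent.Lib.Helper44.HypInv

set_option autoImplicit false
open Cfsg

open Cfsg.Agent.Lib.Helper5 Cfsg.Agent.Lib.Helper44

namespace Cfsg.Agent.S0296

/-- PΩ^+_{2m}(q) is simple for m at least 4. -/
theorem result {F : Type*} [Field F] [Fintype F] (m : ℕ) (hm : 4 ≤ m) : IsSimpleGroup (Cfsg.POmega F (Cfsg.quadFormPlus m F)) := by
  have := pOmega_isSimpleGroup (plusQF m F) (plusQF_nondeg m F) (by simp; omega)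
  rwa [plusQF_coe] at this

end Cfsg.Agent.S0296
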