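import Mathlib
import Cfsg.Statements.S0298
import Cfsg.Agent.Lib.Helper14.ExcIso
import Cfsg.Agent.Lib.Helper14.PSL2Center
import Cfsg.Agent.Lib.Helper14.PSL2Sub
import Cfsg.Agent.Lib.Helper5.POmegaOrder
import Cfsg.Agent.S0264
import Cfsg.Agent.S0286

set_option autoImplicit false
open Cfsg

namespace Cfsg.Agent.S0298

open Cfsg.Agent.Lib.Helper14 Cfsg.Agent.Lib.Helper44 Matrix

local notation "W" => Matrix (Fin 2) (Fin 2) _

/-- PΩ_3(q) is isomorphic to PSL_2(q) for q odd. -/
theorem result {F : Type*} [Field F] [Fintype F] (hodd : Odd (Fintype.card F)) : Nonempty (Cfsg.POmega F (Cfsg.quadFormOdd 1 F) ≃* Matrix.ProjectiveSpecialLinearGroup (Fin 2) F) := by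
  classical
  have h2 : (2 : F) ≠ 0 := Cfsg.Agent.Lib.Helper44.two_ne_zero_of_odd_card hodd
  let e : (Unit ⊕ (Fin 1 ⊕ Fin 1) → F) →ₗ[F] W :=
    { toFun := fun v => !![v (.inl ()), v (.inr (.inl 0)); v (.inr (.inr 0)), -v (.inl ())]
      map_add' := fun x y => by
        ext i j; fin_cases i <;> fin_cases j <;> simp [add_comm]
      map_smul' := fun c x => by
        ext i j; fin_cases i <;> fin_cases j <;> simp }
  have he_apply : ∀ v, e v = !![v (.inl ()), v (.inr (.inl 0)); v (.inr (.inr 0)), -v (.inl ())] :=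
    fun v => rfl
  have he : Function.Injective e := by
    intro x y hxy
    rw [he_apply, he_apply] at hxy
    have h00 := congrFun (congrFun hxy 0) 0
    have h01 := congrFun (congrFun hxy 0) 1
    have h10 := congrFun (congrFun hxy 1) 0
    simp at h00 h01 h10
    ext i
    rcases i with ⟨⟩ | i | i
    · exact h00
    · fin_cases i; exact h01
    · fin_cases i; exact h10
  have hrange : ∀ M : W, M.trace = 0 → ∃ v, e v = M := by
    intro M hM
    refine ⟨fun i => match i with
      | .inl _ => M 0 0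
      | .inr (.inl _) => M 0 1
      | .inr (.inr _) => M 1 0, ?_⟩
    rw [he_apply]
    rw [Matrix.trace_fin_two] at hM
    ext i j; fin_cases i <;> fin_cases j <;> simp
    linear_combination -hM
  have htr : ∀ v, (e v).trace = 0 := by
    intro v
    rw [he_apply, Matrix.trace_fin_two]
    simp
  let T : GL (Fin 2) F →* (W ≃ₗ[F] W) :=
    (twoSided F W).comp (MonoidHom.prod (MonoidHom.id _) (MonoidHom.id _))
  have hT_apply : ∀ (g : GL (Fin 2) F) (M : W), T g M = (g : W) * M * ((g⁻¹ : GL (Fin 2) F) : W) :=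
    fun g M => rfl
  have hT : ∀ a v, ∃ v', e v' = T a (e v) := by
    intro a v
    apply hrange
    rw [hT_apply, Matrix.trace_units_conj, htr]
  let N : W → F := fun M => -M.det
  have hN : ∀ v, N (e v) = oddQF 1 F v := by
    intro v
    show -(e v).det = _
    rw [he_apply, Matrix.det_fin_two, oddQF_apply]
    simp
    ring
  have hNT : ∀ a v, N (T a (e v)) = N (e v) := by
    intro a v
    show -(T a (e v)).det = -(e v).det
    rw [hT_apply, Matrix.det_units_conj]
  let ρ' : GL (Fin 2) F →* OQ (oddQF 1 F) := liftOQ (oddQF 1 F) e he T hT N hN hNT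
  let ρ : Matrix.SpecialLinearGroup (Fin 2) F →* OQ (oddQF 1 F) :=
    ρ'.comp Matrix.SpecialLinearGroup.toGL
  have hρ : ∀ a, ρ a ∈ commutator (OQ (oddQF 1 F)) := by
    intro a
    apply map_mem_commutator ρ'
    rw [Cfsg.Agent.S0264.result 2 (fun _ => ⟨-1, by simp, fun h => h2 (by linear_combination -h)⟩)]
    rw [MonoidHom.mem_ker]
    ext
    simp
  have hker : ρ.ker = Subgroup.center (Matrix.SpecialLinearGroup (Fin 2) F) := by
    ext a
    rw [MonoidHom.mem_ker]
    show ρ' (Matrix.SpecialLinearGroup.toGL a) = 1 ↔ _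
    rw [liftOQ_eq_one_iff, Cfsg.Agent.Lib.Helper41.sl2_mem_center_iff]
    simp only [hT_apply, Units.mul_inv_eq_iff_eq_mul, Matrix.SpecialLinearGroup.coe_GL_coe_matrix]
    constructor
    · intro h
      have h1 := h (Pi.single (.inr (.inl 0)) 1)
      have h2 := h (Pi.single (.inr (.inr 0)) 1)
      rw [he_apply] at h1 h2
      have hdet := a.det_coe
      rw [Matrix.det_fin_two] at hdet
      have hXeta := Matrix.eta_fin_two (a : Matrix (Fin 2) (Fin 2) F)
      set x := (a : Matrix (Fin 2) (Fin 2) F) 0 0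
      set y := (a : Matrix (Fin 2) (Fin 2) F) 0 1
      set z := (a : Matrix (Fin 2) (Fin 2) F) 1 0
      set w := (a : Matrix (Fin 2) (Fin 2) F) 1 1
      rw [hXeta] at h1 h2 ⊢
      simp at h1 h2
      obtain ⟨⟨-, hxw⟩, hz⟩ := h1
      obtain ⟨hy, -, -⟩ := h2
      rw [hy, hz, ← hxw] at hdet ⊢
      have : (x - 1) * (x + 1) = 0 := by linear_combination hdet
      rcases mul_eq_zero.mp this with h | h
      · left
        have : x = 1 := by linear_combination h
        rw [this]
        ext i j; fin_cases i <;> fin_cases j <;> simp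
      · right
        have : x = -1 := by linear_combination h
        rw [this]
        ext i j; fin_cases i <;> fin_cases j <;> simp
    · rintro (h | h) v <;> rw [h] <;> simp
  have hcard : Nat.card (Matrix.SpecialLinearGroup (Fin 2) F)
      = Nat.card ρ.ker * Nat.card (Cfsg.Omega F ⇑(oddQF 1 F)) := by
    rw [hker, Subgroup.card_eq_card_quotient_mul_card_subgroup
      (Subgroup.center (Matrix.SpecialLinearGroup (Fin 2) F)), mul_comm]
    congr 1
    have e1 := two_mul_card_psl2 (F := F) rfl hodd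
    have e2 := Cfsg.Agent.S0286.result (F := F) rfl hodd 1
    have e3 := Cfsg.Agent.Lib.Helper5.index_Omega_odd h2 (oddQF 1 F) (oddQF_nondeg 1 F h2) (by simp)
    have e4 := Subgroup.card_mul_index (Cfsg.Omega F ⇑(oddQF 1 F))
    rw [e3] at e4
    rw [oddQF_coe] at e4 ⊢
    rw [e2] at e4
    simp only [one_pow, pow_one, Finset.prod_range_one, zero_add, mul_one] at e4
    change 2 * Nat.card (Matrix.SpecialLinearGroup (Fin 2) F ⧸ Subgroup.center (Matrix.SpecialLinearGroup (Fin 2) F)) = _ at e1
    rw [mul_assoc] at e4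
    omega
  have := exc_iso (oddQF 1 F) ρ hρ hcard
    (QuotientGroup.mk' (Subgroup.center (Matrix.SpecialLinearGroup (Fin 2) F)))
    (QuotientGroup.mk'_surjective _) psl2_center_eq_bot
    (by rw [QuotientGroup.ker_mk', hker]) (by rw [QuotientGroup.ker_mk'])
  rwa [oddQF_coe] at this

end Cfsg.Agent.S0298
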