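import Mathlib
import Cfsg.Statements.S0301
import Cfsg.Agent.Lib.Helper14.Omega5
import Cfsg.Agent.Lib.Helper5.POmegaOrder
import Cfsg.Agent.Lib.Helper5.SpOrder
import Cfsg.Agent.S0286
import Cfsg.Agent.S0269

set_option autoImplicit false
open Cfsg

namespace Cfsg.Agent.S0301

open Cfsg.Agent.Lib.Helper14 Cfsg.Agent.Lib.Helper44 Matrix

/-- PΩ_5(q) is isomorphic to PSp_4(q) for q odd. -/
theorem result {F : Type*} [Field F] [Fintype F] (hodd : Odd (Fintype.card F)) : Nonempty (Cfsg.POmega F (Cfsg.quadFormOdd 2 F) ≃* Cfsg.PSp 2 F) := by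
  classical
  have h2 : (2 : F) ≠ 0 := Cfsg.Agent.Lib.Helper44.two_ne_zero_of_odd_card hodd
  set q := Fintype.card F with hq
  have hq3 : 3 ≤ q := by
    have h1 : 2 ≤ q := Fintype.one_lt_card
    rcases hodd with ⟨k, hk⟩
    omega
  have hO := Cfsg.Agent.S0286.result (F := F) rfl hodd 2
  simp only [Finset.prod_range_succ, Finset.prod_range_zero, one_mul, zero_add, mul_one] at hO
  rw [← hq] at hO
  have hSp := Cfsg.Agent.Lib.Helper5.card_symplecticGroup (F := F) 2
  simp only [Finset.prod_range_succ, Finset.prod_range_zero, one_mul, zero_add, mul_one] at hSp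
  rw [← hq] at hSp
  have hidx := Subgroup.card_mul_index (Cfsg.Omega F ⇑(oddQF 2 F))
  have hperf : commutator (Matrix.symplecticGroup (Fin 2) F) = ⊤ :=
    Cfsg.Agent.S0269.result 2 (Or.inr (Or.inl ⟨rfl, hq3⟩))
  have hcard : Nat.card (Matrix.symplecticGroup (Fin 2) F)
      = Nat.card (rho5 (F := F)).ker * Nat.card (Cfsg.Omega F ⇑(oddQF 2 F)) := by
    rw [hSp]
    have e3 := Cfsg.Agent.Lib.Helper5.index_Omega_odd h2 (oddQF 2 F) (oddQF_nondeg 2 F h2) (by simp)
    rw [e3] at hidx
    rw [oddQF_coe] at hidx ⊢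
    rw [hO] at hidx
    rw [card_rho5_ker h2]
    rw [mul_assoc] at hidx
    omega
  have hP : Group.IsPerfect (Matrix.symplecticGroup (Fin 2) F) := ⟨hperf⟩
  have := exc_iso (oddQF 2 F) rho5
    (fun a => map_mem_commutator rho5 (by rw [hperf]; exact Subgroup.mem_top a)) hcard
    (QuotientGroup.mk' (Subgroup.center (Matrix.symplecticGroup (Fin 2) F)))
    (QuotientGroup.mk'_surjective _)
    (Group.IsPerfect.center_quotient_center_eq_bot (Matrix.symplecticGroup (Fin 2) F))
    (by
      rw [QuotientGroup.ker_mk']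
      intro a ha
      rw [mem_rho5_ker h2] at ha
      rw [Subgroup.mem_center_iff]
      intro g
      apply Subtype.ext
      show (g : Matrix (Fin 2 ⊕ Fin 2) (Fin 2 ⊕ Fin 2) F) * a = a * g
      rcases ha with h | h <;> rw [h] <;> simp)
    (by rw [QuotientGroup.ker_mk'])
  rwa [oddQF_coe] at this

end Cfsg.Agent.S0301
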