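import Mathlib
import Cfsg.Statements.S0302
import Cfsg.Agent.Lib.Helper14.Omega6Plus
import Cfsg.Agent.Lib.Helper5.POmegaOrder
import Cfsg.Agent.S0287
import Cfsg.Agent.S0248

set_option autoImplicit false
open Cfsg

namespace Cfsg.Agent.S0302

open Cfsg.Agent.Lib.Helper14 Cfsg.Agent.Lib.Helper44 Matrix

/-- PΩ^+_6(q) is isomorphic to PSL_4(q). -/
theorem result {F : Type*} [Field F] [Fintype F] : Nonempty (Cfsg.POmega F (Cfsg.quadFormPlus 3 F) ≃* Matrix.ProjectiveSpecialLinearGroup (Fin 4) F) := by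
  classical
  set q := Fintype.card F with hq
  have hO := Cfsg.Agent.S0287.result (F := F) rfl 3 (by norm_num)
  simp only [Nat.add_one_sub_one, Finset.prod_range_succ, Finset.prod_range_zero, one_mul, zero_add, mul_one] at hO
  rw [← hq] at hO
  have hSL := card_SL4 (F := F)
  rw [← hq] at hSL
  have hidx := Subgroup.card_mul_index (Cfsg.Omega F ⇑(plusQF 3 F))
  have hperf : commutator (Matrix.SpecialLinearGroup (Fin 4) F) = ⊤ :=
    Cfsg.Agent.S0248.result 4 (by norm_num)
  have hcard : Nat.card (Matrix.SpecialLinearGroup (Fin 4) F)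
      = Nat.card (rho6 (F := F)).ker * Nat.card (Cfsg.Omega F ⇑(plusQF 3 F)) := by
    rw [hSL]
    rcases Nat.even_or_odd q with hev | hodd
    · have hchar : CharP F 2 := by
        have h := FiniteField.even_card_iff_char_two.mpr (Nat.even_iff.mp hev)
        exact h ▸ ringChar.charP F
      have e3 := Cfsg.Agent.Lib.Helper5.index_Omega_even (plusQF 3 F) (plusQF_nondeg 3 F) (by simp)
      rw [e3] at hidx
      rw [plusQF_coe] at hidx ⊢
      rw [hO] at hidx
      rw [card_rho6_ker_even (CharP.cast_eq_zero F 2), one_mul]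
      have : Nat.card (Cfsg.Omega F (Cfsg.quadFormPlus 3 F)) * 2 = (q ^ 6 * (q ^ 2 - 1) * (q ^ 3 - 1) * (q ^ 4 - 1)) * 2 := by
        rw [hidx]; ring
      omega
    · have h2 : (2 : F) ≠ 0 := Cfsg.Agent.Lib.Helper44.two_ne_zero_of_odd_card hodd
      have e3 := Cfsg.Agent.Lib.Helper5.index_Omega_odd h2 (plusQF 3 F) (plusQF_nondeg 3 F) (by simp)
      rw [e3] at hidx
      rw [plusQF_coe] at hidx ⊢
      rw [hO] at hidx
      rw [card_rho6_ker_odd h2]
      have : Nat.card (Cfsg.Omega F (Cfsg.quadFormPlus 3 F)) * 4 = (q ^ 6 * (q ^ 2 - 1) * (q ^ 3 - 1) * (q ^ 4 - 1)) * 2 := by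
        rw [hidx]; ring
      omega
  have hP : Group.IsPerfect (Matrix.SpecialLinearGroup (Fin 4) F) := ⟨hperf⟩
  have := exc_iso (plusQF 3 F) rho6
    (fun a => map_mem_commutator rho6 (by rw [hperf]; exact Subgroup.mem_top a)) hcard
    (QuotientGroup.mk' (Subgroup.center (Matrix.SpecialLinearGroup (Fin 4) F)))
    (QuotientGroup.mk'_surjective _)
    (Group.IsPerfect.center_quotient_center_eq_bot (Matrix.SpecialLinearGroup (Fin 4) F))
    (by
      rw [QuotientGroup.ker_mk']
      intro a ha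
      rw [mem_rho6_ker] at ha
      rw [Subgroup.mem_center_iff]
      intro g
      apply Matrix.SpecialLinearGroup.ext
      intro i j
      rw [Matrix.SpecialLinearGroup.coe_mul, Matrix.SpecialLinearGroup.coe_mul]
      rcases ha with h | h <;> rw [h] <;> simp)
    (by rw [QuotientGroup.ker_mk'])
  rwa [plusQF_coe] at this

end Cfsg.Agent.S0302
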