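import Cfsg.Statements.S0303
import Cfsg.Agent.Lib.Helper60.O6M.Main

set_option autoImplicit false
open Cfsg

namespace Cfsg.Agent.S0303

/-- PΩ^-_6(q) is isomorphic to PSU_4(q). -/
theorem result {F K : Type*} [Field F] [Fintype F] [Field K] [Fintype K] {q : ℕ} (hF : Fintype.card F = q) (hK : Fintype.card K = q ^ 2) (a b : F) (hab : ∀ z₁ z₂ : F, z₁ ^ 2 + a * z₁ * z₂ + b * z₂ ^ 2 = 0 → z₁ = 0 ∧ z₂ = 0) : Nonempty (Cfsg.POmega F (Cfsg.quadFormMinus 2 F a b) ≃* Cfsg.PSU 4 K q) := by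
  classical
  subst hF
  have hfact : Fact (∀ r : F, r ^ 2 ≠ -b + a * r) := ⟨fun r hr => by
    have := hab r (-1) (by linear_combination hr)
    simpa using this.2⟩
  have hfinE : Fintype (QuadraticAlgebra F (-b) a) :=
    Fintype.ofEquiv (F × F) (QuadraticAlgebra.equivProd (-b) a).symm
  have hE : Fintype.card (QuadraticAlgebra F (-b) a) = Fintype.card F ^ 2 := by
    rw [Fintype.card_congr (QuadraticAlgebra.equivProd (-b) a), Fintype.card_prod, sq]
  obtain ⟨e1⟩ := Cfsg.Agent.Lib.Helper60.O6M.main_model a b hE hab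
  obtain ⟨e2⟩ := Cfsg.Agent.Lib.Helper54.psu_congr_of_card (hE.trans hK.symm) 4 (Fintype.card F)
  exact ⟨e1.trans e2⟩

end Cfsg.Agent.S0303
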