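import Cfsg.Statements.S0305
import Mathlib
import Cfsg.Agent.S0287
import Cfsg.Agent.Lib.Helper73.DihedralRec

set_option autoImplicit false
open Cfsg Matrix

namespace Cfsg.Agent.S0305

/-- GO^+_2(q) is dihedral of order 2(q-1). -/
theorem result {F : Type*} [Field F] [Fintype F] {q : ℕ} (hF : Fintype.card F = q) : Nonempty (Cfsg.isometryGroup F (Cfsg.quadFormPlus 1 F) ≃* DihedralGroup (q - 1)) := by
  classical
  have hq : 2 ≤ q := by rw [← hF]; exact Fintype.one_lt_card
  have hcard : Nat.card (Cfsg.isometryGroup F (Cfsg.quadFormPlus 1 F)) = 2 * (q - 1) := by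
    rw [Cfsg.Agent.S0287.result hF 1 le_rfl]; simp
  have hfin : Finite (Cfsg.isometryGroup F (Cfsg.quadFormPlus 1 F)) :=
    Nat.finite_of_card_ne_zero (by rw [hcard]; omega)
  have : NeZero (q - 1) := ⟨by omega⟩
  have hQ : ∀ v : Fin 1 ⊕ Fin 1 → F, Cfsg.quadFormPlus 1 F v = v (Sum.inl 0) * v (Sum.inr 0) := by
    intro v; simp [Cfsg.quadFormPlus]
  let d : Fˣ → (Fin 1 ⊕ Fin 1 → F) := fun t => Sum.elim (fun _ => (t : F)) (fun _ => ((t⁻¹ : Fˣ) : F))
  have hd : ∀ s t : Fˣ, Matrix.diagonal (d s) * Matrix.diagonal (d t) = Matrix.diagonal (d (s * t)) := by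
    intro s t
    rw [Matrix.diagonal_mul_diagonal]
    congr 1
    funext i
    rcases i with i | i
    · simp [d]
    · simp [d, mul_comm]
  have hd1 : Matrix.diagonal (d 1) = 1 := by
    rw [← Matrix.diagonal_one]
    congr 1
    funext i
    rcases i with i | i <;> simp [d]
  let δ : Fˣ →* Cfsg.isometryGroup F (Cfsg.quadFormPlus 1 F) :=
    { toFun := fun t => ⟨⟨Matrix.diagonal (d t), Matrix.diagonal (d t⁻¹),
          by rw [hd, mul_inv_cancel, hd1], by rw [hd, inv_mul_cancel, hd1]⟩, by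
        intro u _
        change Cfsg.quadFormPlus 1 F (Matrix.diagonal (d t) *ᵥ u) = Cfsg.quadFormPlus 1 F u
        rw [hQ, hQ, Matrix.mulVec_diagonal, Matrix.mulVec_diagonal]
        simp only [d, Sum.elim_inl, Sum.elim_inr]
        have : (t : F) * ((t⁻¹ : Fˣ) : F) = 1 := by rw [← Units.val_mul, mul_inv_cancel, Units.val_one]
        linear_combination (u (Sum.inl 0) * u (Sum.inr 0)) * this⟩
      map_one' := by
        apply Subtype.ext
        apply Units.ext
        exact hd1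
      map_mul' := fun s t => by
        apply Subtype.ext
        apply Units.ext
        exact (hd s t).symm }
  have hδ : Function.Injective δ := by
    intro s t h
    have h1 := congrArg (fun A : Cfsg.isometryGroup F (Cfsg.quadFormPlus 1 F) =>
      A.1.1 (Sum.inl 0) (Sum.inl 0)) h
    change Matrix.diagonal (d s) (Sum.inl 0) (Sum.inl 0) = Matrix.diagonal (d t) (Sum.inl 0) (Sum.inl 0) at h1
    simp only [Matrix.diagonal_apply_eq, d, Sum.elim_inl] at h1
    exact Units.ext h1
  let w : Cfsg.isometryGroup F (Cfsg.quadFormPlus 1 F) :=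
    ⟨Matrix.GeneralLinearGroup.swap F (Sum.inl 0) (Sum.inr 0), by
      intro u _
      change Cfsg.quadFormPlus 1 F (Matrix.swap F (Sum.inl 0) (Sum.inr 0) *ᵥ u) = Cfsg.quadFormPlus 1 F u
      rw [hQ, hQ, Matrix.swap_mulVec]
      simp [mul_comm]⟩
  have hww : w * w = 1 := by
    apply Subtype.ext
    apply Units.ext
    exact Matrix.swap_mul_self _ _
  obtain ⟨g, hg⟩ := IsCyclic.exists_ofOrder_eq_natCard (α := Fˣ)
  rw [Nat.card_eq_fintype_card, Fintype.card_units, hF] at hg
  refine Cfsg.Agent.Lib.Helper73.nonempty_mulEquiv_dihedralGroup (q - 1) (δ g) w ?_ ?_ ?_ ?_ hcard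
  · rw [orderOf_injective δ hδ, hg]
  · rw [sq]; exact hww
  · have hwi : w⁻¹ = w := inv_eq_of_mul_eq_one_left hww
    rw [hwi, ← map_inv]
    apply Subtype.ext
    apply Units.ext
    change Matrix.swap F (Sum.inl 0) (Sum.inr 0) * Matrix.diagonal (d g)
      * Matrix.swap F (Sum.inl 0) (Sum.inr 0) = Matrix.diagonal (d g⁻¹)
    rw [Matrix.ext_iff_mulVec]
    intro v
    rw [← Matrix.mulVec_mulVec, ← Matrix.mulVec_mulVec, Matrix.swap_mulVec, Matrix.swap_mulVec]
    funext i
    rcases i with i | i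
    · have hi : i = 0 := Subsingleton.elim _ _
      subst hi
      simp [Matrix.mulVec_diagonal, d]
    · have hi : i = 0 := Subsingleton.elim _ _
      subst hi
      simp [Matrix.mulVec_diagonal, d]
  · rintro ⟨k, hk⟩
    have h1 : δ (g ^ k) = w := by rw [map_zpow]; exact hk
    have h2 := congrArg (fun A : Cfsg.isometryGroup F (Cfsg.quadFormPlus 1 F) =>
      A.1.1 (Sum.inl 0) (Sum.inl 0)) h1
    change Matrix.diagonal (d (g ^ k)) (Sum.inl 0) (Sum.inl 0)
      = Matrix.swap F (Sum.inl 0) (Sum.inr 0) (Sum.inl 0) (Sum.inl 0) at h2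
    simp only [Matrix.diagonal_apply_eq, d, Sum.elim_inl] at h2
    have h3 : Matrix.swap F (Sum.inl (0 : Fin 1)) (Sum.inr (0 : Fin 1)) (Sum.inl 0) (Sum.inl 0) = 0 := by
      have := Matrix.swap_mul_apply_left (R := F) (Sum.inl (0 : Fin 1)) (Sum.inr (0 : Fin 1))
        (Sum.inl (0 : Fin 1)) (1 : Matrix (Fin 1 ⊕ Fin 1) (Fin 1 ⊕ Fin 1) F)
      rw [Matrix.mul_one] at this
      rw [this]
      simp
    rw [h3] at h2
    exact (g ^ k).ne_zero h2

end Cfsg.Agent.S0305
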