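import Cfsg.Statements.S0307


set_option autoImplicit false
open Cfsg

namespace Cfsg.Agent.S0307

/-- PSL_n(q) is normal in PGL_n(q) with cyclic quotient of order gcd(n, q-1): the image of the natural map PSL_n → PGL_n is the kernel of a surjective homomorphism onto the cyclic group of that order. -/
theorem result {F : Type*} [Field F] [Fintype F] {q : ℕ} (hF : Fintype.card F = q) (n : ℕ) (hn : 1 ≤ n) : ∃ g : Matrix.ProjGenLinGroup (Fin n) F →* Multiplicative (ZMod (Nat.gcd n (q - 1))), Function.Surjective g ∧ g.ker = (Matrix.ProjectiveSpecialLinearGroup.toPGL : Matrix.ProjectiveSpecialLinearGroup (Fin n) F →* Matrix.ProjGenLinGroup (Fin n) F).range := by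
  classical
  have : Nonempty (Fin n) := ⟨⟨0, by omega⟩⟩
  set R : Subgroup Fˣ := (powMonoidHom n : Fˣ →* Fˣ).range with hR
  have hidx : R.index = Nat.gcd n (q - 1) := by
    rw [hR, IsCyclic.index_powMonoidHom_range, Nat.card_units, Nat.card_eq_fintype_card, hF,
      Nat.gcd_comm]
  have hcard : Nat.card (Fˣ ⧸ R) = Nat.card (Multiplicative (ZMod (Nat.gcd n (q - 1)))) := by
    rw [Nat.card_congr Multiplicative.toAdd, Nat.card_zmod, ← hidx]
    rfl
  have hcyc : IsCyclic (Fˣ ⧸ R) :=
    isCyclic_of_surjective (QuotientGroup.mk' R) (QuotientGroup.mk'_surjective R)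
  let e : (Fˣ ⧸ R) ≃* Multiplicative (ZMod (Nat.gcd n (q - 1))) := mulEquivOfCyclicCardEq hcard
  let φ : Fˣ →* Multiplicative (ZMod (Nat.gcd n (q - 1))) :=
    e.toMonoidHom.comp (QuotientGroup.mk' R)
  have hφsurj : Function.Surjective φ := e.surjective.comp (QuotientGroup.mk'_surjective R)
  have hφker : ∀ u : Fˣ, φ u = 1 ↔ ∃ k : Fˣ, k ^ n = u := by
    intro u
    show e (QuotientGroup.mk' R u) = 1 ↔ _
    rw [MulEquiv.map_eq_one_iff]
    show (QuotientGroup.mk u : Fˣ ⧸ R) = 1 ↔ _
    rw [QuotientGroup.eq_one_iff]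
    rfl
  let f : GL (Fin n) F →* Multiplicative (ZMod (Nat.gcd n (q - 1))) :=
    φ.comp Matrix.GeneralLinearGroup.det
  have hf : f.comp (Matrix.GeneralLinearGroup.scalar (Fin n)) = 1 := by
    ext u
    show φ (Matrix.GeneralLinearGroup.det (Matrix.GeneralLinearGroup.scalar (Fin n) u)) = 1
    rw [Matrix.GeneralLinearGroup.det_scalar, hφker]
    exact ⟨u, by simp⟩
  refine ⟨Matrix.ProjGenLinGroup.lift f hf, ?_, ?_⟩
  · intro z
    obtain ⟨u, hu⟩ := hφsurj z
    obtain ⟨A, hA⟩ := Matrix.GeneralLinearGroup.det_surjective (n := Fin n) u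
    refine ⟨Matrix.ProjGenLinGroup.mk A, ?_⟩
    rw [Matrix.ProjGenLinGroup.lift_mk]
    show φ (Matrix.GeneralLinearGroup.det A) = z
    rw [hA, hu]
  · ext x
    induction x using Matrix.ProjGenLinGroup.induction_on with | mk A => ?_
    rw [MonoidHom.mem_ker, Matrix.ProjGenLinGroup.lift_mk]
    show φ (Matrix.GeneralLinearGroup.det A) = 1 ↔ _
    rw [hφker]
    constructor
    · rintro ⟨k, hk⟩
      have hdet : Matrix.GeneralLinearGroup.det (A * Matrix.GeneralLinearGroup.scalar (Fin n) k⁻¹) = 1 := by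
        rw [map_mul, Matrix.GeneralLinearGroup.det_scalar, ← hk]
        simp
      have hdet' : ((A * Matrix.GeneralLinearGroup.scalar (Fin n) k⁻¹ : GL (Fin n) F) :
          Matrix (Fin n) (Fin n) F).det = 1 := by
        have := congrArg Units.val hdet
        simpa using this
      obtain ⟨X, hX⟩ : ∃ X : Matrix.SpecialLinearGroup (Fin n) F,
          (X : Matrix (Fin n) (Fin n) F) = ((A * Matrix.GeneralLinearGroup.scalar (Fin n) k⁻¹ :
            GL (Fin n) F) : Matrix (Fin n) (Fin n) F) := ⟨⟨_, hdet'⟩, rfl⟩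
      refine ⟨QuotientGroup.mk X, ?_⟩
      rw [Matrix.ProjectiveSpecialLinearGroup.toPGL_mk, Matrix.ProjGenLinGroup.mk_eq_mk_iff]
      refine ⟨k, ?_⟩
      apply Units.ext
      rw [Units.val_mul, Matrix.SpecialLinearGroup.coe_GL_coe_matrix, hX, ← Units.val_mul,
        mul_assoc, ← map_mul]
      simp
    · rintro ⟨y, hy⟩
      induction y using QuotientGroup.induction_on with | H X => ?_
      rw [Matrix.ProjectiveSpecialLinearGroup.toPGL_mk, Matrix.ProjGenLinGroup.mk_eq_mk_iff] at hy
      obtain ⟨u, hu⟩ := hy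
      refine ⟨u, ?_⟩
      rw [← hu, map_mul, Matrix.GeneralLinearGroup.det_scalar]
      have : Matrix.GeneralLinearGroup.det (Matrix.SpecialLinearGroup.toGL X) = 1 := by
        apply Units.ext
        simp
      rw [this]
      simp

end Cfsg.Agent.S0307
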