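import Cfsg.Statements.S0316
import Cfsg.Agent.Lib.Helper6.BN2

set_option autoImplicit false
open Cfsg

namespace Cfsg.Agent.S0316

/-- The map `J ↦ P_J` is a lattice isomorphism from the power set of the set of distinguished generators onto the
subgroups containing `B`. -/
theorem result {G : Type*} [Group G] (P : Cfsg.BNPair G) :
    ∃ e : Set P.S ≃o {M : Subgroup G // P.B ≤ M},
      ∀ J : Set P.S, ((e J : {M : Subgroup G // P.B ≤ M}) : Subgroup G) = P.parabolic (Subtype.val '' J) := by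
  have hsub : ∀ J : Set P.S, Subtype.val '' J ⊆ P.S := by
    rintro J _ ⟨s, _, rfl⟩
    exact s.2
  let f : Set P.S → {M : Subgroup G // P.B ≤ M} := fun J =>
    ⟨P.parabolic (Subtype.val '' J), Cfsg.Agent.Lib.Helper6.BN.B_le_parabolic _⟩
  have hf : ∀ J K : Set P.S, f J ≤ f K ↔ J ≤ K := by
    intro J K
    show P.parabolic (Subtype.val '' J) ≤ P.parabolic (Subtype.val '' K) ↔ J ⊆ K
    rw [Cfsg.Agent.Lib.Helper6.BN.parabolic_le_iff (hsub J) (hsub K),
      Set.image_subset_image_iff Subtype.val_injective]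
  have hsurj : Function.Surjective (OrderEmbedding.ofMapLEIff f hf) := by
    rintro ⟨M, hM⟩
    refine ⟨{s : P.S | (s : G) ∈ M}, ?_⟩
    apply Subtype.ext
    show P.parabolic (Subtype.val '' {s : P.S | (s : G) ∈ M}) = M
    have h0 : Subtype.val '' {s : P.S | (s : G) ∈ M} = {s | s ∈ P.S ∧ s ∈ M} := by
      ext s
      constructor
      · rintro ⟨⟨t, ht⟩, htM, rfl⟩
        exact ⟨ht, htM⟩
      · rintro ⟨hs, hsM⟩
        exact ⟨⟨s, hs⟩, hsM, rfl⟩
    rw [h0]
    exact (Cfsg.Agent.Lib.Helper6.BN.eq_parabolic_of_le hM).symm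
  exact ⟨RelIso.ofSurjective (OrderEmbedding.ofMapLEIff f hf) hsurj, fun J => rfl⟩

end Cfsg.Agent.S0316
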