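import Cfsg.Statements.S0318
import Cfsg.Agent.Lib.Helper6.BN

set_option autoImplicit false
open Cfsg

namespace Cfsg.Agent.S0318

/-- For `n ∈ N`, the subgroup generated by `B` and `n` coincides with the subgroup generated by `B` and the
conjugate `n B n⁻¹`. -/
theorem result {G : Type*} [Group G] (P : Cfsg.BNPair G) {n : G}
    (hn : n ∈ P.N) :
    P.B ⊔ Subgroup.closure {n} = P.B ⊔ P.B.map (MulAut.conj n).toMonoidHom := by
  apply le_antisymm
  · refine sup_le le_sup_left ?_
    rw [Subgroup.closure_le]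
    intro x hx
    rw [Set.mem_singleton_iff] at hx
    subst hx
    refine Cfsg.Agent.Lib.Helper6.BN.mem_of_conj_le hn le_sup_left ?_
    intro b hb
    exact (le_sup_right : P.B.map (MulAut.conj x).toMonoidHom ≤ _) ⟨b, hb, rfl⟩
  · refine sup_le le_sup_left ?_
    rintro _ ⟨b, hb, rfl⟩
    have hnm : n ∈ P.B ⊔ Subgroup.closure {n} :=
      (le_sup_right : Subgroup.closure {n} ≤ _) (Subgroup.subset_closure rfl)
    have hbm : b ∈ P.B ⊔ Subgroup.closure {n} := (le_sup_left : P.B ≤ _) hb
    exact Subgroup.mul_mem _ (Subgroup.mul_mem _ hnm hbm) (Subgroup.inv_mem _ hnm)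

end Cfsg.Agent.S0318
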