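import Cfsg.Statements.S0322
import Cfsg.Agent.Lib.Helper6.BN2

set_option autoImplicit false
open Cfsg

namespace Cfsg.Agent.S0322

/-- A group with a (B,N)-pair of rank one acts doubly transitively on the left cosets of `B`. -/
theorem result {G : Type*} [Group G] (P : Cfsg.BNPair G) (h : P.rank = 1) : MulAction.IsMultiplyPretransitive G (G ⧸ P.B) 2 := by
  obtain ⟨hsub, ⟨s, hs⟩⟩ := Nat.card_eq_one_iff_unique.1 h
  have hS : P.S = {s} := by
    ext t
    constructor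
    · intro ht
      have := @Subsingleton.elim _ hsub (⟨t, ht⟩ : P.S) ⟨s, hs⟩
      exact congrArg Subtype.val this
    · rintro rfl
      exact hs
  have hall : ∀ g : G, g ∉ P.B → g ∈ DoubleCoset.doubleCoset s (P.B : Set G) P.B := by
    intro g hg
    have h1 : g ∈ P.parabolic {s} := by
      rw [← hS, Cfsg.Agent.Lib.Helper6.BN.parabolic_S]; trivial
    exact ((Cfsg.Agent.Lib.Helper6.BN.mem_parabolic_singleton hs g).1 h1).resolve_left hg
  rw [MulAction.is_two_pretransitive_iff]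
  intro a b c d hab hcd
  induction a using QuotientGroup.induction_on with | H x => ?_
  induction b using QuotientGroup.induction_on with | H y => ?_
  induction c using QuotientGroup.induction_on with | H z => ?_
  induction d using QuotientGroup.induction_on with | H w => ?_
  have hxy : x⁻¹ * y ∉ P.B := fun h => hab (QuotientGroup.eq.2 h)
  have hzw : z⁻¹ * w ∉ P.B := fun h => hcd (QuotientGroup.eq.2 h)
  obtain ⟨b1, hb1, b2, hb2, h1⟩ := DoubleCoset.mem_doubleCoset.1 (hall _ hxy)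
  obtain ⟨b3, hb3, b4, hb4, h2⟩ := DoubleCoset.mem_doubleCoset.1 (hall _ hzw)
  refine ⟨z * b3 * b1⁻¹ * x⁻¹, ?_, ?_⟩
  · show ((z * b3 * b1⁻¹ * x⁻¹ * x : G) : G ⧸ P.B) = (z : G ⧸ P.B)
    rw [QuotientGroup.eq]
    have : (z * b3 * b1⁻¹ * x⁻¹ * x)⁻¹ * z = b1 * b3⁻¹ := by group
    rw [this]
    exact P.B.mul_mem hb1 (P.B.inv_mem hb3)
  · show ((z * b3 * b1⁻¹ * x⁻¹ * y : G) : G ⧸ P.B) = (w : G ⧸ P.B)
    rw [QuotientGroup.eq]
    have e1 : (z * b3 * b1⁻¹ * x⁻¹ * y)⁻¹ * w = (x⁻¹ * y)⁻¹ * b1 * b3⁻¹ * (z⁻¹ * w) := by group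
    rw [e1, h1, h2]
    have e2 : (b1 * s * b2)⁻¹ * b1 * b3⁻¹ * (b3 * s * b4) = b2⁻¹ * b4 := by group
    rw [e2]
    exact P.B.mul_mem (P.B.inv_mem hb2) hb4

end Cfsg.Agent.S0322
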