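import Cfsg.Statements.S0323


set_option autoImplicit false
open scoped Pointwise
open Cfsg

namespace Cfsg.Agent.S0323

/-- A doubly transitive action on a set with at least three points yields a (B,N)-pair of rank one:
`B` is the stabiliser of a point `x`, `N` the setwise stabiliser of a pair `{x, y}`. -/
theorem result {G Ω : Type*} [Group G] [MulAction G Ω]
    (h2 : MulAction.IsMultiplyPretransitive G Ω 2) {x y z : Ω} (hxy : x ≠ y) (hyz : y ≠ z) (hxz : x ≠ z) :
    ∃ P : Cfsg.BNPair G, P.B = MulAction.stabilizer G x ∧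
      P.N = MulAction.stabilizer G ({x, y} : Set Ω) ∧ P.rank = 1 := by
  rw [MulAction.is_two_pretransitive_iff] at h2
  obtain ⟨s, hsx, hsy⟩ := h2 hxy hxy.symm
  have memN : ∀ g : G, g ∈ MulAction.stabilizer G ({x, y} : Set Ω) ↔
      (g • x = x ∧ g • y = y) ∨ (g • x = y ∧ g • y = x) := by
    intro g
    rw [MulAction.mem_stabilizer_iff, Set.smul_set_insert, Set.smul_set_singleton,
      Set.pair_eq_pair_iff]
  have memB : ∀ g : G, g ∈ MulAction.stabilizer G x ↔ g • x = x := fun g =>
    MulAction.mem_stabilizer_iff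
  have hsN : s ∈ MulAction.stabilizer G ({x, y} : Set Ω) := (memN s).2 (Or.inr ⟨hsx, hsy⟩)
  have hdc : ∀ g g' : G, g • x ≠ x → g' • x ≠ x →
      g' ∈ DoubleCoset.doubleCoset g (MulAction.stabilizer G x : Set G) (MulAction.stabilizer G x) := by
    intro g g' hg hg'
    obtain ⟨b, hbx, hb⟩ := h2 (Ne.symm hg) (Ne.symm hg')
    refine DoubleCoset.mem_doubleCoset.2 ⟨b, (memB b).2 hbx, (b * g)⁻¹ * g', ?_, by group⟩
    show (b * g)⁻¹ * g' ∈ MulAction.stabilizer G x
    rw [memB, mul_smul, inv_smul_eq_iff, mul_smul, hb]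
  have hdcB : ∀ g g' : G, g • x = x → g' • x = x →
      g' ∈ DoubleCoset.doubleCoset g (MulAction.stabilizer G x : Set G) (MulAction.stabilizer G x) := by
    intro g g' hg hg'
    refine DoubleCoset.mem_doubleCoset.2 ⟨1, Subgroup.one_mem _, g⁻¹ * g', ?_, by group⟩
    show g⁻¹ * g' ∈ MulAction.stabilizer G x
    rw [memB, mul_smul, hg', inv_smul_eq_iff, hg]
  refine ⟨{ B := MulAction.stabilizer G x
            N := MulAction.stabilizer G ({x, y} : Set Ω)
            S := {s}
            sup_eq_top := ?_
            conj_mem := ?_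
            subset := ?_
            sq_mem := ?_
            inj := ?_
            closure_sup := ?_
            mul_mem_union := ?_
            conj_ne := ?_ }, rfl, rfl, ?_⟩
  · rw [eq_top_iff]
    intro g _
    by_cases hg : g • x = x
    · exact (le_sup_left : MulAction.stabilizer G x ≤ _) ((memB g).2 hg)
    · obtain ⟨b, hbx, hb⟩ := h2 (Ne.symm hg) hxy
      have h1 : s * b * g ∈ MulAction.stabilizer G x := by
        rw [memB, mul_smul, mul_smul, hb, hsy]
      have h3 : g = b⁻¹ * (s⁻¹ * (s * b * g)) := by group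
      rw [h3]
      refine Subgroup.mul_mem _ (Subgroup.inv_mem _ ((le_sup_left : MulAction.stabilizer G x ≤ _) ((memB b).2 hbx))) ?_
      exact Subgroup.mul_mem _ (Subgroup.inv_mem _ ((le_sup_right : MulAction.stabilizer G ({x, y} : Set Ω) ≤ _) hsN))
        ((le_sup_left : MulAction.stabilizer G x ≤ _) h1)
  · rintro n hn t ⟨htB, htN⟩
    have htx : t • x = x := (memB t).1 htB
    have hty : t • y = y := by
      rcases (memN t).1 htN with h | h
      · exact h.2
      · exact absurd (htx.symm.trans h.1) hxy
    rw [memB, mul_smul, mul_smul]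
    rcases (memN n).1 hn with h | h
    · have : n⁻¹ • x = x := by rw [inv_smul_eq_iff, h.1]
      rw [this, htx, h.1]
    · have : n⁻¹ • x = y := by rw [inv_smul_eq_iff, h.2]
      rw [this, hty, h.2]
  · rintro _ rfl
    exact hsN
  · rintro _ rfl
    rw [memB, mul_smul, hsx, hsy]
  · rintro _ rfl _ rfl _
    rfl
  · apply le_antisymm
    · refine sup_le ?_ inf_le_right
      rw [Subgroup.closure_le]
      rintro _ rfl
      exact hsN
    · intro n hn
      rcases (memN n).1 hn with h | h
      · exact (le_sup_right : MulAction.stabilizer G x ⊓ MulAction.stabilizer G ({x, y} : Set Ω) ≤ _)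
          ⟨(memB n).2 h.1, hn⟩
      · have h1 : s * n ∈ MulAction.stabilizer G x ⊓ MulAction.stabilizer G ({x, y} : Set Ω) := by
          refine ⟨(memB _).2 ?_, Subgroup.mul_mem _ hsN hn⟩
          rw [mul_smul, h.1, hsy]
        have h3 : n = s⁻¹ * (s * n) := by group
        rw [h3]
        refine Subgroup.mul_mem _ (Subgroup.inv_mem _ ?_) ((le_sup_right : MulAction.stabilizer G x ⊓ MulAction.stabilizer G ({x, y} : Set Ω) ≤ _) h1)
        exact (le_sup_left : Subgroup.closure {s} ≤ _) (Subgroup.subset_closure rfl)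
  · intro t ht n hn b hb
    rw [show t = s from ht]
    have hbx : b • x = x := (memB b).1 hb
    by_cases hg : (s * b * n) • x = x
    · rcases (memN n).1 hn with h | h
      · right
        exact hdcB _ _ h.1 hg
      · left
        refine hdcB _ _ ?_ hg
        rw [mul_smul, h.1, hsy]
    · rcases (memN n).1 hn with h | h
      · left
        refine hdc _ _ ?_ hg
        rw [mul_smul, h.1, hsx]
        exact hxy.symm
      · right
        refine hdc _ _ ?_ hg
        rw [h.1]
        exact hxy.symm
  · intro t ht heq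
    rw [show t = s from ht] at heq
    obtain ⟨b, hbx, hby⟩ := h2 hxy hxz
    have h1 : s * b * s ∈ (fun b : G => s * b * s) '' (MulAction.stabilizer G x : Set G) :=
      ⟨b, (memB b).2 hbx, rfl⟩
    rw [heq] at h1
    have h3 : (s * b * s) • x = x := (memB _).1 h1
    rw [mul_smul, mul_smul, hsx, hby] at h3
    have h4 : s • z = s • y := h3.trans hsy.symm
    exact hyz (smul_left_cancel s h4).symm
  · show Nat.card ({s} : Set G) = 1
    simp

end Cfsg.Agent.S0323
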