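import Cfsg.Statements.S0333
import Cfsg.Agent.Lib.Helper37.Suzuki.TorusCount

set_option autoImplicit false
open Cfsg

namespace Cfsg.Agent.S0333

/-- With `q = 2^(2m+1)` and `r = 2^m`, the Suzuki group has cyclic subgroups of orders `q + 2r + 1` and
`q - 2r + 1`; each is the centraliser of each of its non-identity elements and has index `4` in its normaliser. -/
theorem result {F : Type*} [Field F] [Fintype F] {m : ℕ} (hm : 1 ≤ m)
    (hF : Fintype.card F = 2 ^ (2 * m + 1)) :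
    ∀ k ∈ ({2 ^ (2 * m + 1) + 2 ^ (m + 1) + 1, 2 ^ (2 * m + 1) - 2 ^ (m + 1) + 1} : Set ℕ),
      ∃ U : Subgroup (Cfsg.Sz F m), IsCyclic U ∧ Nat.card U = k ∧
        (∀ u ∈ U, u ≠ 1 → Subgroup.centralizer {u} = U) ∧ Nat.card (Subgroup.normalizer (U : Set (Cfsg.Sz F m))) = 4 * k := by
  have _i1 : Cfsg.Agent.Lib.Helper37.Suz.SzField F m := ⟨hm, hF⟩
  obtain ⟨x, y, hx, hy, hcx, hcy⟩ := Cfsg.Agent.Lib.Helper37.Suz.exists_tori (F := F) (m := m)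
  have hle : 2 ^ (m + 1) ≤ 2 ^ (2 * m + 1) := Nat.pow_le_pow_right (by norm_num) (by omega)
  rw [hF] at hcx hcy
  intro k hk
  rcases hk with rfl | hk
  · refine ⟨Cfsg.Agent.Lib.Helper37.Suz.Tor m x, Cfsg.Agent.Lib.Helper37.Suz.isCyclic_Tor hx, hcx,
      fun u hu hu1 => Cfsg.Agent.Lib.Helper37.Suz.Tor_eq hx hu hu1, ?_⟩
    rw [Cfsg.Agent.Lib.Helper37.Suz.card_normalizer_Tor_eq hx, hcx]
  · have hk' : k = 2 ^ (2 * m + 1) - 2 ^ (m + 1) + 1 := hk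
    have hcy' : Nat.card (Cfsg.Agent.Lib.Helper37.Suz.Tor m y) = k := by omega
    refine ⟨Cfsg.Agent.Lib.Helper37.Suz.Tor m y, Cfsg.Agent.Lib.Helper37.Suz.isCyclic_Tor hy, hcy',
      fun u hu hu1 => Cfsg.Agent.Lib.Helper37.Suz.Tor_eq hy hu hu1, ?_⟩
    rw [Cfsg.Agent.Lib.Helper37.Suz.card_normalizer_Tor_eq hy, hcy']

end Cfsg.Agent.S0333
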