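import Cfsg.Statements.S0335
import Cfsg.Agent.Lib.Helper37.Suzuki.Trans

set_option autoImplicit false
open Cfsg

namespace Cfsg.Agent.S0335

open Cfsg.Agent.Lib.Helper37.Suz

theorem independent_smul {F : Type*} [Field F] {ι : Type*} (g : Matrix.SpecialLinearGroup (Fin 4) F)
    (v : ι → (Fin 4 → F)) (hv : ∀ i, v i ≠ 0) (hl : LinearIndependent F v) :
    Projectivization.Independent (fun i => g • Projectivization.mk F (v i) (hv i)) := by
  have h1 : LinearIndependent F (fun i => g.1.mulVec (v i)) := by
    have := hl.map' (Matrix.SpecialLinearGroup.toLin' g).toLinearMap (LinearEquiv.ker _)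
    exact this
  exact Projectivization.Independent.mk _ (fun i => (smul_ne_zero_iff_ne g).mpr (hv i)) h1

/-- The Suzuki–Tits point set is an ovoid: any three distinct points of it are projectively independent
(no line of projective 3-space meets it in more than two points). -/
theorem result {F : Type*} [Field F] [Fintype F] {m : ℕ} (hm : 1 ≤ m)
    (hF : Fintype.card F = 2 ^ (2 * m + 1)) (p : Fin 3 ↪ Cfsg.suzukiOvoid F m) :
    Projectivization.Independent (fun i => (p i : Projectivization F (Fin 4 → F))) := by
  have : SzField F m := ⟨hm, hF⟩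
  have h01 : (p 0 : Projectivization F (Fin 4 → F)) ≠ p 1 := fun h => by
    have := p.injective (Subtype.ext h); simp at this
  have h02 : (p 0 : Projectivization F (Fin 4 → F)) ≠ p 2 := fun h => by
    have := p.injective (Subtype.ext h); simp at this
  have h12 : (p 1 : Projectivization F (Fin 4 → F)) ≠ p 2 := fun h => by
    have := p.injective (Subtype.ext h); simp at this
  obtain ⟨g, hg, g0, g1⟩ := exists_smul_eq_inf_zero m (p 0).2 (p 1).2 h01
  have h2 := smul_mem_of_mem_Sz m hg (p 2).2
  rcases (mem_ovoid_iff m _).1 h2 with h | ⟨x, y, h⟩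
  · exfalso
    rw [← g0] at h
    exact h02 (smul_left_cancel g h).symm
  · have hxy : ¬ (x = 0 ∧ y = 0) := by
      rintro ⟨rfl, rfl⟩
      rw [← g1] at h
      exact h12 (smul_left_cancel g h).symm
    let v : Fin 3 → (Fin 4 → F) := ![e0, vec m 0 0, vec m x y]
    have hv : ∀ i, v i ≠ 0 := by
      intro i
      fin_cases i
      · exact e0_ne_zero
      · exact vec_ne_zero m 0 0
      · exact vec_ne_zero m x y
    have hli : LinearIndependent F v := by
      rw [Fintype.linearIndependent_iff]
      intro c hc
      rw [Fin.sum_univ_three] at hc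
      have c0 := congrFun hc 0
      have c1 := congrFun hc 1
      have c2 := congrFun hc 2
      have c3 := congrFun hc 3
      simp [v, e0, vec] at c0 c1 c2 c3
      have hc2 : c 2 = 0 := by
        by_contra hne
        apply hxy
        exact ⟨c2.resolve_left hne, c1.resolve_left hne⟩
      rw [hc2] at c0 c3
      simp at c0 c3
      intro i
      fin_cases i
      · exact c0
      · exact c3
      · exact hc2
    have key := independent_smul g⁻¹ v hv hli
    convert key using 1
    funext i
    fin_cases i
    · show (p 0 : Projectivization F (Fin 4 → F)) = g⁻¹ • inf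
      rw [← g0, inv_smul_smul]
    · show (p 1 : Projectivization F (Fin 4 → F)) = g⁻¹ • pt m 0 0
      rw [← g1, inv_smul_smul]
    · show (p 2 : Projectivization F (Fin 4 → F)) = g⁻¹ • pt m x y
      rw [← h, inv_smul_smul]

end Cfsg.Agent.S0335
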