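import Cfsg.Statements.S0338
import Cfsg.Agent.Lib.Helper6.Zas

set_option autoImplicit false
open Cfsg

namespace Cfsg.Agent.S0338

/-- A Zassenhaus group of odd degree is a simple group. -/
theorem result {G Ω : Type*} [Group G] [MulAction G Ω] [Fintype Ω]
    (hZ : Cfsg.IsZassenhausGroup G Ω) (hodd : Odd (Fintype.card Ω)) : IsSimpleGroup G := by
  classical
  have hb := Cfsg.Agent.Lib.Helper6.Zas.base_of_zassenhaus hZ
  have hfin := hb.finite
  obtain ⟨g₀, hg₀, a, b, hab, -, -⟩ := hZ.2.2.2.1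
  have : Nontrivial G := ⟨⟨g₀, 1, hg₀⟩⟩
  refine ⟨fun N hN => ?_⟩
  by_cases hNb : N = ⊥
  · left; exact hNb
  right
  obtain ⟨hstab, h2N⟩ := Cfsg.Agent.Lib.Helper6.Zas.normal_props hZ N hNb
  -- involutions fix exactly one point
  have hO : ∀ t : G, t ≠ 1 → t * t = 1 → ∃ c : Ω, t • c = c ∧ ∀ d : Ω, t • d = d → d = c := by
    intro t ht1 ht2
    have hσ : (MulAction.toPerm t : Equiv.Perm Ω) ^ 2 ^ 1 = 1 := by
      ext e
      simp [pow_two, ← mul_smul, ht2]
    have h2 : ¬ 2 ∣ Fintype.card Ω := by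
      rw [← even_iff_two_dvd, Nat.not_even_iff_odd]; exact hodd
    have : Fact (Nat.Prime 2) := ⟨Nat.prime_two⟩
    obtain ⟨c, hc⟩ := Equiv.Perm.exists_fixed_point_of_prime h2 hσ
    have hc' : t • c = c := hc
    refine ⟨c, hc', ?_⟩
    intro d hd
    by_contra hdc
    have hsupp : (MulAction.toPerm t : Equiv.Perm Ω).supportᶜ = {c, d} := by
      ext e
      simp only [Finset.mem_compl, Equiv.Perm.mem_support, MulAction.toPerm_apply, ne_eq, not_not,
        Finset.mem_insert, Finset.mem_singleton]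
      constructor
      · intro he
        by_contra hcon
        push Not at hcon
        exact ht1 (hb.three t c d e (Ne.symm hdc) (Ne.symm hcon.2) (Ne.symm hcon.1) hc' hd he)
      · rintro (rfl | rfl)
        · exact hc'
        · exact hd
    have hmod := Equiv.Perm.card_compl_support_modEq hσ
    rw [hsupp, Finset.card_pair (Ne.symm hdc)] at hmod
    have : Fintype.card Ω % 2 = 1 := Nat.odd_iff.1 hodd
    unfold Nat.ModEq at hmod
    omega
  have hpowfix : ∀ (w : G) (e : Ω), w • e = e → ∀ j : ℕ, (w ^ j) • e = e := by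
    intro w e he j
    induction j with
    | zero => simp
    | succ j ih => rw [pow_succ, mul_smul, he, ih]
  -- an involution of `N` interchanging `a` and `b`
  obtain ⟨u, huN, hua, hub⟩ := h2N hab hab.symm
  have hwa : (u * u) • a = a := by rw [mul_smul, hua, hub]
  have hwb : (u * u) • b = b := by rw [mul_smul, hub, hua]
  have hmpos : 0 < orderOf (u * u) := orderOf_pos _
  have hmodd : Odd (orderOf (u * u)) := by
    rw [← Nat.not_even_iff_odd]
    rintro ⟨j, hj⟩
    have hv1 : (u * u) ^ j ≠ 1 := pow_ne_one_of_lt_orderOf (by omega) (by omega)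
    have hv2 : (u * u) ^ j * (u * u) ^ j = 1 := by
      rw [← pow_add, ← hj, pow_orderOf_eq_one]
    obtain ⟨c, -, hc⟩ := hO _ hv1 hv2
    exact hab ((hc a (hpowfix _ a hwa j)).trans (hc b (hpowfix _ b hwb j)).symm)
  obtain ⟨j, hj⟩ := hmodd
  set t := u ^ orderOf (u * u) with ht
  have htN : t ∈ N := N.pow_mem huN _
  have ht2 : t * t = 1 := by
    rw [ht, ← pow_add, ← two_mul, pow_mul, pow_two, pow_orderOf_eq_one]
  have hteq : t = (u * u) ^ j * u := by
    rw [ht, hj, pow_succ, pow_mul, pow_two]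
  have hta : t • a = b := by rw [hteq, mul_smul, hua, hpowfix _ b hwb]
  have htb : t • b = a := by rw [hteq, mul_smul, hub, hpowfix _ a hwa]
  have ht1 : t ≠ 1 := by
    intro h
    rw [h, one_smul] at hta
    exact hab hta
  have htinv : t⁻¹ = t := (eq_inv_of_mul_eq_one_right ht2).symm
  obtain ⟨c, hc, hcu⟩ := hO t ht1 ht2
  have hca : c ≠ a := by
    rintro rfl
    exact hab (hc.symm.trans hta)
  have hcb : c ≠ b := by
    rintro rfl
    exact hab (htb.symm.trans hc)
  set H : Subgroup G := MulAction.stabilizer G a ⊓ MulAction.stabilizer G b with hH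
  have memH : ∀ x : G, x ∈ H ↔ x • a = a ∧ x • b = b := fun x => Iff.rfl
  let ψ : H → H := fun x => ⟨(x : G)⁻¹ * (t * x * t⁻¹), by
    obtain ⟨hxa, hxb⟩ := (memH _).1 x.2
    refine H.mul_mem (H.inv_mem x.2) ((memH _).2 ⟨?_, ?_⟩)
    · rw [htinv, mul_smul, mul_smul, hta, hxb, htb]
    · rw [htinv, mul_smul, mul_smul, htb, hxa, hta]⟩
  have hψinj : Function.Injective ψ := by
    intro x y hxy
    have h1 : (x : G)⁻¹ * (t * x * t⁻¹) = (y : G)⁻¹ * (t * y * t⁻¹) := congrArg Subtype.val hxy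
    have hcomm : t * ((y : G) * (x : G)⁻¹) = ((y : G) * (x : G)⁻¹) * t := by
      have h2 : (y : G) * (x : G)⁻¹ = (t * y * t⁻¹) * (t * x * t⁻¹)⁻¹ := by
        have h3 := congrArg (fun z => (y : G) * z * (t * x * t⁻¹)⁻¹) h1
        have e1 : (y : G) * ((x : G)⁻¹ * (t * x * t⁻¹)) * (t * x * t⁻¹)⁻¹ = (y : G) * (x : G)⁻¹ := by
          group
        have e2 : (y : G) * ((y : G)⁻¹ * (t * y * t⁻¹)) * (t * x * t⁻¹)⁻¹
            = (t * y * t⁻¹) * (t * x * t⁻¹)⁻¹ := by group
        rw [e1, e2] at h3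
        exact h3
      have h4 : (t * (y : G) * t⁻¹) * (t * (x : G) * t⁻¹)⁻¹ = t * ((y : G) * (x : G)⁻¹) * t⁻¹ := by
        group
      rw [h4] at h2
      have h5 := congrArg (· * t) h2
      simp only [inv_mul_cancel_right] at h5
      exact h5.symm
    have hzH : (y : G) * (x : G)⁻¹ ∈ H := H.mul_mem y.2 (H.inv_mem x.2)
    obtain ⟨hza, hzb⟩ := (memH _).1 hzH
    have hzc : ((y : G) * (x : G)⁻¹) • c = c := by
      apply hcu
      rw [← mul_smul, hcomm, mul_smul, hc]
    have hz1 : (y : G) * (x : G)⁻¹ = 1 :=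
      hb.three _ a b c hab (Ne.symm hcb) (Ne.symm hca) hza hzb hzc
    apply Subtype.ext
    exact (mul_inv_eq_one.1 hz1).symm
  have hψsurj : Function.Surjective ψ := Finite.surjective_of_injective hψinj
  have hHN : H ≤ N := by
    intro h hh
    obtain ⟨x, hx⟩ := hψsurj ⟨h, hh⟩
    have h1 : (x : G)⁻¹ * (t * x * t⁻¹) = h := congrArg Subtype.val hx
    rw [← h1]
    have h2 : (x : G)⁻¹ * (t * x * t⁻¹) = ((x : G)⁻¹ * t * ((x : G)⁻¹)⁻¹) * t⁻¹ := by group
    rw [h2]
    exact N.mul_mem (hN.conj_mem t htN _) (N.inv_mem htN)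
  rw [eq_top_iff]
  intro g _
  have hgab : g • a ≠ g • b := fun h => hab (smul_left_cancel g h)
  obtain ⟨x, hxN, hxa, hxb⟩ := h2N hab hgab
  have h1 : x⁻¹ * g ∈ H := by
    rw [memH]
    constructor
    · rw [mul_smul, inv_smul_eq_iff, hxa]
    · rw [mul_smul, inv_smul_eq_iff, hxb]
  have h2 : g = x * (x⁻¹ * g) := by group
  rw [h2]
  exact N.mul_mem hxN (hHN h1)

end Cfsg.Agent.S0338
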