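import Cfsg.Statements.S0739
import Cfsg.Agent.Lib.Helper6.Zas5

set_option autoImplicit false
open Cfsg

namespace Cfsg.Agent.S0739

/-- In a finite Zassenhaus group whose two-point stabiliser `H = G_{a,b}` has odd order `d`, and which has no normal `q`-complement for any prime `q ∣ d`, `H` is cyclic, `C_G(H) = H`, and every element swapping `a` and `b` inverts each element of `H`. -/
theorem result {G Ω : Type*} [Group G] [Finite G] [MulAction G Ω] [Fintype Ω] (hZ : Cfsg.IsZassenhausGroup G Ω) {a b : Ω} (hab : a ≠ b) (hodd : Odd (Nat.card ↥(MulAction.stabilizer G a ⊓ MulAction.stabilizer G b))) (hnil : ∀ q : ℕ, q.Prime → q ∣ Nat.card ↥(MulAction.stabilizer G a ⊓ MulAction.stabilizer G b) → ¬ ∃ N : Subgroup G, N.Normal ∧ N.index = q ^ (Nat.card G).factorization q) : IsCyclic ↥(MulAction.stabilizer G a ⊓ MulAction.stabilizer G b) ∧ Subgroup.centralizer ((MulAction.stabilizer G a ⊓ MulAction.stabilizer G b : Subgroup G) : Set G) = MulAction.stabilizer G a ⊓ MulAction.stabilizer G b ∧ ∀ s : G, s • a =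 b → s • b = a → ∀ h ∈ MulAction.stabilizer G a ⊓ MulAction.stabilizer G b, s * h * s⁻¹ = h⁻¹ := by
  have hb := Cfsg.Agent.Lib.Helper6.Zas.base_of_zassenhaus hZ
  have hsw := fun s hsa hsb =>
    Cfsg.Agent.Lib.Helper6.Zas.swap_inverts_of_no_complement hZ hab hodd hnil s hsa hsb
  obtain ⟨t, ht2, hta, htb⟩ := Cfsg.Agent.Lib.Helper6.Zas.exists_invol_swap hZ hab
  have hinv := (hsw t hta htb).2
  set E : Subgroup G := MulAction.stabilizer G a ⊓ MulAction.stabilizer G b with hE
  have hcomm : ∀ x ∈ E, ∀ y ∈ E, x * y = y * x := by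
    intro x hx y hy
    have h1 := hinv _ (E.mul_mem (E.inv_mem hy) (E.inv_mem hx))
    have h2 : t * (y⁻¹ * x⁻¹) * t⁻¹ = (t * y⁻¹ * t⁻¹) * (t * x⁻¹ * t⁻¹) := by group
    rw [h2, hinv _ (E.inv_mem hy), hinv _ (E.inv_mem hx)] at h1
    simpa using h1.symm
  refine ⟨?_, ?_, fun s hsa hsb => (hsw s hsa hsb).2⟩
  · have := Cfsg.Agent.Lib.Helper6.Zas.isZGroup_stab2 hZ hab hodd
    have hnilp : Group.IsNilpotent E := by
      letI : CommGroup E :=
        { (inferInstance : Group E) with
          mul_comm := fun x y => Subtype.ext (hcomm x x.2 y y.2) }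
      exact CommGroup.isNilpotent
    infer_instance
  · ext g
    rw [Subgroup.mem_centralizer_iff]
    constructor
    · intro hg
      have hgN : g ∈ Subgroup.normalizer (E : Set G) :=
        Subgroup.centralizer_le_normalizer _ (Subgroup.mem_centralizer_iff.2 hg)
      have h1 := Cfsg.Agent.Lib.Helper6.Zas.one_lt_card_stab2 hZ hab
      have hEne : E ≠ ⊥ := by
        intro h
        rw [← hE, h] at h1
        simp at h1
      rcases hb.normalizer_sub hab t hta htb E le_rfl hEne g hgN with h | h
      · exact h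
      · exfalso
        obtain ⟨x, hx⟩ := (Subgroup.ne_bot_iff_exists_ne_one.1 hEne)
        have hx1 : (x : G) ≠ 1 := fun h => hx (Subtype.ext h)
        have h2 := (Cfsg.Agent.Lib.Helper6.Zas.coset_inverts E t ht2 hinv g h).2 x x.2
        rw [← hg x x.2, mul_inv_cancel_right] at h2
        have h3 : (x : G) * x = 1 := by
          nth_rewrite 1 [h2]
          exact inv_mul_cancel _
        exact hab (hb.invol_fix_unique hab hodd x hx1 h3 x.2.1 x.2.2)
    · intro hg x hx
      exact hcomm x hx g hg

end Cfsg.Agent.S0739
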