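import Cfsg.Statements.S0345
import Cfsg.Agent.Lib.Helper19.ZasSimple
import Cfsg.Agent.Lib.Helper6.Zas6
import Cfsg.Agent.S0739

set_option autoImplicit false
open Cfsg

namespace Cfsg.Agent.S0345

/-- In a finite simple Zassenhaus group the stabiliser `H` of two points `a ≠ b` is cyclic, and some involution
interchanging `a` and `b` inverts every element of `H`. -/
theorem result {G Ω : Type*} [Group G] [Finite G] [MulAction G Ω] [Finite Ω]
    (hZ : Cfsg.IsZassenhausGroup G Ω) [IsSimpleGroup G]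
    {a b : Ω} (hab : a ≠ b) :
    IsCyclic ↥(MulAction.stabilizer G a ⊓ MulAction.stabilizer G b) ∧
      ∃ v : G, orderOf v = 2 ∧ v • a = b ∧ v • b = a ∧ ∀ h ∈ MulAction.stabilizer G a ⊓ MulAction.stabilizer G b, v * h * v⁻¹ = h⁻¹ := by
  open Cfsg.Agent.Lib.Helper19 Cfsg.Agent.Lib.Helper6.Zas MulAction in
  classical
  have := Fintype.ofFinite Ω
  obtain ⟨v, hv2, hva, hvb⟩ := exists_invol_swap hZ hab
  have hv1 : v ≠ 1 := by
    rintro rfl
    rw [one_smul] at hva
    exact hab hva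
  have hord : orderOf v = 2 := orderOf_eq_prime (by rw [sq]; exact hv2) hv1
  rcases Nat.even_or_odd (Nat.card ↥(stabilizer G a ⊓ stabilizer G b)) with heven | hodd
  · obtain ⟨K, z⟩ := exists_zdata_of_zassenhaus hZ hab
    obtain ⟨hcyc, hinv⟩ := cyclic_inverted_of_half z heven (two_mul_card_le_of_simple hZ hab heven)
    exact ⟨hcyc, v, hord, hva, hvb, (hinv v hva hvb).2⟩
  · obtain ⟨hcyc, -, hinv⟩ := Cfsg.Agent.S0739.result hZ hab hodd (no_complement_of_simple hZ hab hodd)
    exact ⟨hcyc, v, hord, hva, hvb, hinv v hva hvb⟩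

end Cfsg.Agent.S0345
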