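import Cfsg.Statements.S0353
import Cfsg.Agent.Lib.Helper6.Steiner
import Cfsg.Agent.S0352

set_option autoImplicit false
open Cfsg

namespace Cfsg.Agent.S0353

/-- In an S(5, 8, 24), the symmetric difference of two blocks meeting in four points is a block. -/
theorem result {α : Type*} [Fintype α] [DecidableEq α] (hα : Fintype.card α = 24) {B : Set (Finset α)} (hB : Cfsg.IsSteinerSystem 5 8 B) {b c : Finset α} (hb : b ∈ B) (hc : c ∈ B) (h4 : (b ∩ c).card = 4) : symmDiff b c ∈ B := by
  classical
  have E : ∀ {x y : Finset α}, x ∈ B → y ∈ B → x ≠ y →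
      (x ∩ y).card = 0 ∨ (x ∩ y).card = 2 ∨ (x ∩ y).card = 4 :=
    fun hx hy hne => Cfsg.Agent.S0352.result hα hB hx hy hne
  have U5 : ∀ {x y : Finset α}, x ∈ B → y ∈ B → 5 ≤ (x ∩ y).card → x = y :=
    fun hx hy h => Cfsg.Agent.Lib.Helper6.Steiner.eq_of_le_card_inter hB hx hy h
  have cb := hB.1 b hb
  have cc := hB.1 c hc
  have cT1 : (b \ c).card = 4 := by
    have := Finset.card_sdiff_add_card_inter b c
    omega
  have cT2 : (c \ b).card = 4 := by
    have := Finset.card_sdiff_add_card_inter c b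
    rw [Finset.inter_comm] at this
    omega
  obtain ⟨y, hy⟩ : (c \ b).Nonempty := Finset.card_pos.1 (by omega)
  have hyc : y ∈ c := (Finset.mem_sdiff.1 hy).1
  have hyb : y ∉ b := (Finset.mem_sdiff.1 hy).2
  have hyT1 : y ∉ b \ c := fun h => hyb (Finset.mem_sdiff.1 h).1
  obtain ⟨d, ⟨hd, hsd⟩, -⟩ := hB.2 (insert y (b \ c))
    (by rw [Finset.card_insert_of_notMem hyT1, cT1])
  have hyd : y ∈ d := hsd (Finset.mem_insert_self _ _)
  have hT1d : b \ c ⊆ d := fun x hx => hsd (Finset.mem_insert_of_mem hx)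
  have hdb : d ≠ b := fun h => hyb (h ▸ hyd)
  have cd := hB.1 d hd
  have hsub1 : (b \ c) ⊆ d ∩ b :=
    fun x hx => Finset.mem_inter.2 ⟨hT1d hx, (Finset.mem_sdiff.1 hx).1⟩
  have hdb4 : (d ∩ b).card = 4 := by
    have h2 := Finset.card_le_card hsub1
    rcases E hd hb hdb with h | h | h <;> omega
  have hdbeq : d ∩ b = b \ c := (Finset.eq_of_subset_of_card_le hsub1 (by omega)).symm
  have hdT : ∀ x ∈ b ∩ c, x ∉ d := by
    intro x hx hxd
    have : x ∈ d ∩ b := Finset.mem_inter.2 ⟨hxd, (Finset.mem_inter.1 hx).1⟩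
    rw [hdbeq] at this
    exact (Finset.mem_sdiff.1 this).2 (Finset.mem_inter.1 hx).2
  obtain ⟨t0, ht0⟩ : (b ∩ c).Nonempty := Finset.card_pos.1 (by omega)
  have hdc : d ≠ c := fun h => hdT t0 ht0 (h ▸ (Finset.mem_inter.1 ht0).2)
  have hsub2 : d ∩ c ⊆ c \ b := by
    intro x hx
    obtain ⟨hxd, hxc⟩ := Finset.mem_inter.1 hx
    refine Finset.mem_sdiff.2 ⟨hxc, fun hxb => ?_⟩
    exact hdT x (Finset.mem_inter.2 ⟨hxb, hxc⟩) hxd
  have hdcpos : 0 < (d ∩ c).card := Finset.card_pos.2 ⟨y, Finset.mem_inter.2 ⟨hyd, hyc⟩⟩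
  rcases E hd hc hdc with h | h | h
  · omega
  · -- the impossible case
    exfalso
    set D2 := d ∩ c with hD2
    have cU : (d \ b).card = 4 := by
      have := Finset.card_sdiff_add_card_inter d b
      omega
    have hD2U : D2 ⊆ d \ b := fun x hx =>
      Finset.mem_sdiff.2 ⟨(Finset.mem_inter.1 hx).1, (Finset.mem_sdiff.1 (hsub2 hx)).2⟩
    obtain ⟨u3, hu3U, hu3D⟩ : ∃ u ∈ d \ b, u ∉ D2 := by
      by_contra hcon
      push Not at hcon
      have := Finset.card_le_card (show d \ b ⊆ D2 from hcon)
      omega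
    have hu3d : u3 ∈ d := (Finset.mem_sdiff.1 hu3U).1
    have hu3b : u3 ∉ b := (Finset.mem_sdiff.1 hu3U).2
    have hu3c : u3 ∉ c := fun hc' => hu3D (Finset.mem_inter.2 ⟨hu3d, hc'⟩)
    have key : ∀ t t', t ∈ b ∩ c → t' ∈ b ∩ c → t ≠ t' → ∀ f ∈ B, D2 ⊆ f → u3 ∈ f → t ∈ f → t' ∈ f →
        d \ b ⊆ f := by
      intro t t' ht ht' htt f hf hDf hu3f htf ht'f
      have hfc : f ≠ c := fun h' => hu3c (h' ▸ hu3f)
      have hfd : f ≠ d := fun h' => hdT t ht (h' ▸ htf)
      have hfb : f ≠ b := fun h' => hu3b (h' ▸ hu3f)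
      have htD : t ∉ D2 := fun h' => hdT t ht (Finset.mem_inter.1 h').1
      have ht'D : t' ∉ D2 := fun h' => hdT t' ht' (Finset.mem_inter.1 h').1
      have c4 : (insert t (insert t' D2)).card = 4 := by
        rw [Finset.card_insert_of_notMem, Finset.card_insert_of_notMem ht'D, h]
        simp only [Finset.mem_insert, not_or]
        exact ⟨htt, htD⟩
      have hs4 : insert t (insert t' D2) ⊆ f ∩ c := by
        intro x hx
        simp only [Finset.mem_insert] at hx
        rcases hx with rfl | rfl | hx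
        · exact Finset.mem_inter.2 ⟨htf, (Finset.mem_inter.1 ht).2⟩
        · exact Finset.mem_inter.2 ⟨ht'f, (Finset.mem_inter.1 ht').2⟩
        · exact Finset.mem_inter.2 ⟨hDf hx, (Finset.mem_inter.1 hx).2⟩
      have hfc4 : (f ∩ c).card = 4 := by
        have h2 := Finset.card_le_card hs4
        rcases E hf hc hfc with h' | h' | h' <;> omega
      have hfceq : f ∩ c = insert t (insert t' D2) :=
        (Finset.eq_of_subset_of_card_le hs4 (by omega)).symm
      -- f ∩ (b ∩ c) = {t, t'}
      have hfT : (f ∩ (b ∩ c)).card = 2 := by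
        have : f ∩ (b ∩ c) = {t, t'} := by
          ext x
          simp only [Finset.mem_inter, Finset.mem_insert, Finset.mem_singleton]
          constructor
          · rintro ⟨hxf, hxb, hxc⟩
            have : x ∈ f ∩ c := Finset.mem_inter.2 ⟨hxf, hxc⟩
            rw [hfceq] at this
            simp only [Finset.mem_insert] at this
            rcases this with h' | h' | h'
            · exact Or.inl h'
            · exact Or.inr h'
            · exact absurd hxb (Finset.mem_sdiff.1 (hsub2 h')).2
          · rintro (rfl | rfl)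
            · exact ⟨htf, (Finset.mem_inter.1 ht).1, (Finset.mem_inter.1 ht).2⟩
            · exact ⟨ht'f, (Finset.mem_inter.1 ht').1, (Finset.mem_inter.1 ht').2⟩
        rw [this, Finset.card_pair htt]
      -- |f ∩ b| = 2 + |f ∩ (b \ c)|
      have hfb_split : (f ∩ b).card = (f ∩ (b ∩ c)).card + (f ∩ (b \ c)).card := by
        rw [← Finset.card_union_of_disjoint]
        · congr 1
          ext x
          simp only [Finset.mem_inter, Finset.mem_union, Finset.mem_sdiff]
          tauto
        · rw [Finset.disjoint_left]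
          intro x hx hx'
          simp only [Finset.mem_inter, Finset.mem_sdiff] at hx hx'
          exact hx'.2.2 hx.2.2
      -- |f ∩ d| = |f ∩ (b \ c)| + |f ∩ (d \ b)|
      have hfd_split : (f ∩ d).card = (f ∩ (b \ c)).card + (f ∩ (d \ b)).card := by
        rw [← hdbeq, ← Finset.card_union_of_disjoint]
        · congr 1
          ext x
          simp only [Finset.mem_inter, Finset.mem_union, Finset.mem_sdiff]
          tauto
        · rw [Finset.disjoint_left]
          intro x hx hx'
          simp only [Finset.mem_inter, Finset.mem_sdiff] at hx hx'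
          exact hx'.2.2 hx.2.2
      have c3 : (insert u3 D2).card = 3 := by
        rw [Finset.card_insert_of_notMem hu3D, h]
      have hs3 : insert u3 D2 ⊆ f ∩ (d \ b) := by
        intro x hx
        simp only [Finset.mem_insert] at hx
        rcases hx with rfl | hx
        · exact Finset.mem_inter.2 ⟨hu3f, hu3U⟩
        · exact Finset.mem_inter.2 ⟨hDf hx, hD2U hx⟩
      have h3 := Finset.card_le_card hs3
      have hfU : (f ∩ (d \ b)).card = 4 := by
        have h5 := Finset.card_le_card (Finset.inter_subset_right : f ∩ (d \ b) ⊆ d \ b)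
        rcases E hf hd hfd with h' | h' | h' <;> rcases E hf hb hfb with h'' | h'' | h'' <;> omega
      have : f ∩ (d \ b) = d \ b :=
        Finset.eq_of_subset_of_card_le Finset.inter_subset_right (by omega)
      rw [← this]
      exact Finset.inter_subset_left
    obtain ⟨t1, ht1, t2, ht2, t3, ht3, h12, h13, h23⟩ := Finset.two_lt_card.1 (show 2 < (b ∩ c).card by omega)
    have htD : ∀ t ∈ b ∩ c, t ∉ D2 := fun t ht h' => hdT t ht (Finset.mem_inter.1 h').1
    have mkblock : ∀ t t', t ∈ b ∩ c → t' ∈ b ∩ c → t ≠ t' →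
        ∃ f ∈ B, D2 ⊆ f ∧ u3 ∈ f ∧ t ∈ f ∧ t' ∈ f := by
      intro t t' ht ht' htt
      have c5 : (insert u3 (insert t (insert t' D2))).card = 5 := by
        rw [Finset.card_insert_of_notMem, Finset.card_insert_of_notMem,
          Finset.card_insert_of_notMem (htD t' ht'), h]
        · simp only [Finset.mem_insert, not_or]
          exact ⟨htt, htD t ht⟩
        · simp only [Finset.mem_insert, not_or]
          refine ⟨?_, ?_, hu3D⟩
          · rintro rfl; exact hu3b (Finset.mem_inter.1 ht).1
          · rintro rfl; exact hu3b (Finset.mem_inter.1 ht').1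
      obtain ⟨f, ⟨hf, hsf⟩, -⟩ := hB.2 _ c5
      refine ⟨f, hf, fun x hx => hsf ?_, hsf ?_, hsf ?_, hsf ?_⟩
      · exact Finset.mem_insert_of_mem (Finset.mem_insert_of_mem (Finset.mem_insert_of_mem hx))
      · exact Finset.mem_insert_self _ _
      · exact Finset.mem_insert_of_mem (Finset.mem_insert_self _ _)
      · exact Finset.mem_insert_of_mem (Finset.mem_insert_of_mem (Finset.mem_insert_self _ _))
    obtain ⟨f, hf, hDf, hu3f, ht1f, ht2f⟩ := mkblock t1 t2 ht1 ht2 h12
    obtain ⟨f', hf', hDf', hu3f', ht1f', ht3f'⟩ := mkblock t1 t3 ht1 ht3 h13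
    have hUf := key t1 t2 ht1 ht2 h12 f hf hDf hu3f ht1f ht2f
    have hUf' := key t1 t3 ht1 ht3 h13 f' hf' hDf' hu3f' ht1f' ht3f'
    have hff' : f = f' := by
      apply U5 hf hf'
      have ht1U : t1 ∉ d \ b := fun h' => (Finset.mem_sdiff.1 h').2 (Finset.mem_inter.1 ht1).1
      have c5 : (insert t1 (d \ b)).card = 5 := by
        rw [Finset.card_insert_of_notMem ht1U, cU]
      rw [← c5]
      apply Finset.card_le_card
      intro x hx
      rcases Finset.mem_insert.1 hx with rfl | hx
      · exact Finset.mem_inter.2 ⟨ht1f, ht1f'⟩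
      · exact Finset.mem_inter.2 ⟨hUf hx, hUf' hx⟩
    subst hff'
    have hfc : f = c := by
      apply U5 hf hc
      have c5 : (insert t1 (insert t2 (insert t3 D2))).card = 5 := by
        rw [Finset.card_insert_of_notMem, Finset.card_insert_of_notMem,
          Finset.card_insert_of_notMem (htD t3 ht3), h]
        · simp only [Finset.mem_insert, not_or]
          exact ⟨h23, htD t2 ht2⟩
        · simp only [Finset.mem_insert, not_or]
          exact ⟨h12, h13, htD t1 ht1⟩
      rw [← c5]
      apply Finset.card_le_card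
      intro x hx
      simp only [Finset.mem_insert] at hx
      rcases hx with rfl | rfl | rfl | hx
      · exact Finset.mem_inter.2 ⟨ht1f, (Finset.mem_inter.1 ht1).2⟩
      · exact Finset.mem_inter.2 ⟨ht2f, (Finset.mem_inter.1 ht2).2⟩
      · exact Finset.mem_inter.2 ⟨ht3f', (Finset.mem_inter.1 ht3).2⟩
      · exact Finset.mem_inter.2 ⟨hDf hx, (Finset.mem_inter.1 hx).2⟩
    exact hu3c (hfc ▸ hu3f)
  · -- d = b Δ c
    have hdceq : d ∩ c = c \ b := Finset.eq_of_subset_of_card_le hsub2 (by omega)
    have hsd : symmDiff b c = (b \ c) ∪ (c \ b) := rfl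
    have hsub3 : symmDiff b c ⊆ d := by
      rw [hsd]
      apply Finset.union_subset hT1d
      rw [← hdceq]
      exact Finset.inter_subset_left
    have hcard : (symmDiff b c).card = 8 := by
      rw [hsd, Finset.card_union_of_disjoint, cT1, cT2]
      rw [Finset.disjoint_left]
      intro x hx hx'
      exact (Finset.mem_sdiff.1 hx').2 (Finset.mem_sdiff.1 hx).1
    rw [Finset.eq_of_subset_of_card_le hsub3 (by omega)]
    exact hd

end Cfsg.Agent.S0353
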