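import Cfsg.Statements.S0357
import Cfsg.Agent.Lib.Helper6.Steiner

set_option autoImplicit false
open Cfsg

namespace Cfsg.Agent.S0357


open Cfsg.Agent.Lib.Helper6.Steiner in
theorem xvals {α : Type*} [Fintype α] [DecidableEq α] (hα : Fintype.card α = 12)
    {B : Set (Finset α)} (hB : Cfsg.IsSteinerSystem 5 6 B) {b : Finset α} (hb : b ∈ B) :
    xnum B b 0 = 1 ∧ xnum B b 1 = 0 ∧ xnum B b 2 = 45 ∧ xnum B b 3 = 40 ∧ xnum B b 4 = 45 := by
  have m0 := moment hB hb (i := 0) (by norm_num)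
  have m1 := moment hB hb (i := 1) (by norm_num)
  have m2 := moment hB hb (i := 2) (by norm_num)
  have m3 := moment hB hb (i := 3) (by norm_num)
  have m4 := moment hB hb (i := 4) (by norm_num)
  have x6 := xnum_top hB hb
  have x5 := xnum_eq_zero hB hb (j := 5) (by norm_num) (by norm_num)
  simp only [Finset.sum_range_succ, Finset.sum_range_zero, hα, x5, x6] at m0 m1 m2 m3 m4
  norm_num [Nat.choose] at m0 m1 m2 m3 m4
  omega

/-- In a Steiner system S(5, 6, 12), the complement of every block is again a block. -/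
theorem result {α : Type*} [Fintype α] [DecidableEq α] (hα : Fintype.card α = 12) {B : Set (Finset α)} (hB : Cfsg.IsSteinerSystem 5 6 B) {b : Finset α} (hb : b ∈ B) : bᶜ ∈ B := by
  obtain ⟨h0, -⟩ := xvals hα hB hb
  rw [Cfsg.Agent.Lib.Helper6.Steiner.xnum, Finset.card_eq_one] at h0
  obtain ⟨c, hc⟩ := h0
  have hc' : c ∈ (Cfsg.Agent.Lib.Helper6.Steiner.blocks B).filter (fun c => (b ∩ c).card = 0) := by
    rw [hc]; simp
  simp only [Finset.mem_filter, Cfsg.Agent.Lib.Helper6.Steiner.mem_blocks, Finset.card_eq_zero] at hc'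
  obtain ⟨hcB, hdisj⟩ := hc'
  have hsub : c ⊆ bᶜ := by
    intro x hx
    rw [Finset.mem_compl]
    intro hxb
    have : x ∈ b ∩ c := Finset.mem_inter.2 ⟨hxb, hx⟩
    rw [hdisj] at this
    simp at this
  have hcard : bᶜ.card ≤ c.card := by
    rw [Finset.card_compl, hα, hB.1 b hb, hB.1 c hcB]
  rw [← Finset.eq_of_subset_of_card_le hsub hcard]
  exact hcB

end Cfsg.Agent.S0357
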