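import Cfsg.Statements.S0371
import Cfsg.Agent.Lib.Helper93.M24Mem

set_option autoImplicit false
open Cfsg

namespace Cfsg.Agent.S0371

open Cfsg.Agent.Lib.Helper93.M24 Cfsg.Agent.Lib.Helper27

/-- Multiplication by a nonzero square residue modulo 23, fixing the extra point, lies in the group of the length-24 code. -/
theorem result (u : (ZMod 23)ˣ) (hu : IsSquare u) : Equiv.optionCongr (Units.mulLeft u) ∈ Cfsg.M24 := by
  apply mem_M24_of_comp
  intro t
  obtain ⟨s, hs⟩ := hu
  have : (Cfsg.qrWord t) ∘ (Equiv.optionCongr (Units.mulLeft u)) = Cfsg.qrWord ((u⁻¹ : (ZMod 23)ˣ) * t) := by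
    funext p
    cases p with
    | none => rfl
    | some x =>
      simp only [Function.comp_apply, Equiv.optionCongr_apply, Option.map_some, Cfsg.qrWord,
        Units.mulLeft_apply]
      congr 1
      apply propext
      constructor
      · rintro ⟨r, hr⟩
        refine ⟨(s⁻¹ : (ZMod 23)ˣ) * r, ?_⟩
        have h1 : x = (u⁻¹ : (ZMod 23)ˣ) * ((u : ZMod 23) * x) := by
          rw [← mul_assoc, ← Units.val_mul, inv_mul_cancel, Units.val_one, one_mul]
        rw [h1, hr, mul_add, hs]
        congr 1
        rw [mul_inv, Units.val_mul]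
        ring
      · rintro ⟨r, hr⟩
        refine ⟨(s : ZMod 23) * r, ?_⟩
        rw [hr, mul_add, ← mul_assoc, ← Units.val_mul, mul_inv_cancel, Units.val_one, one_mul, hs,
          Units.val_mul]
        ring
  rw [this]
  exact Submodule.subset_span (Or.inl ⟨_, rfl⟩)

end Cfsg.Agent.S0371
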