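import Cfsg.Statements.S0375
import Cfsg.Agent.Lib.Helper27.WChain
import Cfsg.Agent.S5622
import Cfsg.Agent.S0358

set_option autoImplicit false
open Cfsg

namespace Cfsg.Agent.S0375

/-- A doubly even self-dual binary code of length 24 with no words of weight 4 is equivalent to the length-24 code built from the squares modulo 23. -/
theorem result (C : Submodule (ZMod 2) (Fin 24 → ZMod 2)) (hdim : Module.finrank (ZMod 2) C = 12) (horth : ∀ v ∈ C, ∀ w ∈ C, ∑ i, v i * w i = 0) (h4 : ∀ w ∈ C, 4 ∣ hammingNorm w) (hno4 : ∀ w ∈ C, hammingNorm w ≠ 4) : ∃ e : Fin 24 ≃ Cfsg.GolayPt, ∀ w : Cfsg.GolayPt → ZMod 2, w ∈ Cfsg.golayCode ↔ (fun i => w (e i)) ∈ C := by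
  open Cfsg.Agent.Lib.Helper27 in
  have hmin : ∀ w ∈ C, w ≠ 0 → 8 ≤ hammingNorm w := by
    intro w hw hne
    have h1 := h4 w hw
    have h2 := hno4 w hw
    have h3 : hammingNorm w ≠ 0 := by rwa [Ne, hammingNorm_eq_zero]
    omega
  have hS := (Cfsg.Agent.S5622.result C hdim horth hmin).2
  obtain ⟨f, hf, hr, hB⟩ := Cfsg.Agent.Lib.Helper27.emb0 (by simp) hS
  have hsurj : Function.Surjective f := fun p => (hr p).1 (by simp)
  let e : Fin 24 ≃ Cfsg.GolayPt := Equiv.ofBijective f ⟨hf, hsurj⟩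
  have he : ∀ i, e i = f i := fun i => rfl
  let Φ : (Cfsg.GolayPt → ZMod 2) ≃ₗ[ZMod 2] (Fin 24 → ZMod 2) :=
    LinearEquiv.funCongrLeft (ZMod 2) (ZMod 2) e
  have hΦ : ∀ w i, Φ w i = w (e i) := fun w i => rfl
  have hz : ∀ a : ZMod 2, a ≠ 0 → a = 1 := by decide
  -- octad words land in `C`
  have hoct : ∀ o, Cfsg.Agent.Lib.Helper27.isCode o = true → Cfsg.Agent.Lib.Helper27.pc o = 8 →
      Φ (Cfsg.Agent.Lib.Helper27.wordOf o) ∈ C := by
    intro o h1 h2
    have ho := Cfsg.Agent.Lib.Helper27.unmask_mem_octads h1 h2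
    have hb : (Finset.univ.filter (fun i => f i ∈ Cfsg.Agent.Lib.Helper27.unmask o)) ∈
        Cfsg.wordsOfWeight (C : Set (Fin 24 → ZMod 2)) 8 := by
      rw [hB, Finset.union_empty]
      have : (Finset.univ.filter (fun i => f i ∈ Cfsg.Agent.Lib.Helper27.unmask o)).image f =
          Cfsg.Agent.Lib.Helper27.unmask o := by
        ext p
        simp only [Finset.mem_image, Finset.mem_filter, Finset.mem_univ, true_and]
        constructor
        · rintro ⟨i, hi, rfl⟩; exact hi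
        · intro hp
          obtain ⟨i, rfl⟩ := hsurj p
          exact ⟨i, hp, rfl⟩
      rw [this]; exact ho
    obtain ⟨⟨v, hv, hvs⟩, -⟩ := hb
    have : Φ (Cfsg.Agent.Lib.Helper27.wordOf o) = v := by
      ext i
      have hi : i ∈ Cfsg.support₂ v ↔ f i ∈ Cfsg.Agent.Lib.Helper27.unmask o := by
        rw [hvs]; simp
      rw [hΦ, he]
      unfold Cfsg.Agent.Lib.Helper27.wordOf
      rw [Cfsg.Agent.Lib.Helper27.mem_unmask] at hi
      by_cases h : o.testBit (Cfsg.Agent.Lib.Helper27.idx (f i)) = true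
      · rw [if_pos h]
        have := hi.2 h
        simp only [Cfsg.support₂, Finset.mem_filter, Finset.mem_univ, true_and] at this
        exact (hz _ this).symm
      · rw [if_neg h]
        have : i ∉ Cfsg.support₂ v := fun h' => h (hi.1 h')
        simp only [Cfsg.support₂, Finset.mem_filter, Finset.mem_univ, true_and, not_not] at this
        exact this.symm
    rw [this]; exact hv
  have hle : Cfsg.golayCode ≤ C.comap (Φ : (Cfsg.GolayPt → ZMod 2) →ₗ[ZMod 2] (Fin 24 → ZMod 2)) := by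
    intro w hw
    rw [Cfsg.Agent.Lib.Helper27.mem_golayCode_iff] at hw
    rw [← Cfsg.Agent.Lib.Helper27.wordOf_mask_support₂ w]
    refine Cfsg.Agent.Lib.Helper27.isCode_induction
      (fun m => Cfsg.Agent.Lib.Helper27.wordOf m ∈
        C.comap (Φ : (Cfsg.GolayPt → ZMod 2) →ₗ[ZMod 2] (Fin 24 → ZMod 2))) ?_ ?_ ?_ hw
    · rw [Cfsg.Agent.Lib.Helper27.wordOf_zero]; exact Submodule.zero_mem _
    · intro a b _ _ ha hb
      rw [Cfsg.Agent.Lib.Helper27.wordOf_xor]; exact Submodule.add_mem _ ha hb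
    · intro o h1 h2
      exact hoct o h1 h2
  have hfr : Module.finrank (ZMod 2) (C.comap
      (Φ : (Cfsg.GolayPt → ZMod 2) →ₗ[ZMod 2] (Fin 24 → ZMod 2))) = 12 := by
    rw [← hdim]
    exact LinearEquiv.finrank_eq (Φ.submoduleMap _ |>.trans (LinearEquiv.ofEq _ _ (by
      rw [Submodule.map_comap_eq_of_surjective Φ.surjective])))
  have heq : Cfsg.golayCode = C.comap
      (Φ : (Cfsg.GolayPt → ZMod 2) →ₗ[ZMod 2] (Fin 24 → ZMod 2)) :=
    Submodule.eq_of_le_of_finrank_eq hle (by rw [hfr, Cfsg.Agent.S0358.result])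
  refine ⟨e, fun w => ?_⟩
  rw [heq]
  rfl

end Cfsg.Agent.S0375
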