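import Cfsg.Statements.S0384
import Cfsg.Agent.Lib.Helper27.M12Order

set_option autoImplicit false
open scoped Pointwise
open Cfsg

namespace Cfsg.Agent.S0384

/-- A dodecad stabiliser is sharply 5-transitive on the dodecad. -/
theorem result (d : Finset Cfsg.GolayPt) (hd : d ∈ Cfsg.dodecads) (x y : Fin 5 ↪ Cfsg.GolayPt) (hx : ∀ i, x i ∈ d) (hy : ∀ i, y i ∈ d) : ∃! g : MulAction.stabilizer Cfsg.M24 d, ∀ i, ((g : Cfsg.M24) : Equiv.Perm Cfsg.GolayPt) (x i) = y i := by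
  obtain ⟨g, hg, hgd, hgx⟩ := Cfsg.Agent.Lib.Helper27.dodecad_five_trans hd x y hx hy
  refine ⟨⟨⟨g, hg⟩, hgd⟩, hgx, ?_⟩
  intro k hk
  have hkd : ((k : Cfsg.M24) : Equiv.Perm Cfsg.GolayPt) • d = d := k.2
  have h1 : (g⁻¹ * ((k : Cfsg.M24) : Equiv.Perm Cfsg.GolayPt)) = 1 := by
    apply Cfsg.Agent.Lib.Helper27.eq_one_of_fix_dodecad_five hd x hx
      (Cfsg.M24.mul_mem (Cfsg.M24.inv_mem hg) k.1.2)
    · rw [mul_smul, hkd, inv_smul_eq_iff, hgd]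
    · intro i
      rw [Equiv.Perm.mul_apply, hk i, ← hgx i]; simp
  apply Subtype.ext
  apply Subtype.ext
  show ((k : Cfsg.M24) : Equiv.Perm Cfsg.GolayPt) = g
  exact (inv_mul_eq_one.1 h1).symm

end Cfsg.Agent.S0384
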