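import Cfsg.Statements.S0385
import Cfsg.Agent.Lib.Helper27.OctadFlags

set_option autoImplicit false
open Cfsg

namespace Cfsg.Agent.S0385

/-- The 6-point intersections of octads with a fixed dodecad form a Steiner system S(5, 6, 12) on the dodecad. -/
theorem result (d : Finset Cfsg.GolayPt) (hd : d ∈ Cfsg.dodecads) : Cfsg.IsSteinerSystem 5 6 {h : Finset {p : Cfsg.GolayPt // p ∈ d} | ∃ o ∈ Cfsg.octads, (o ∩ d).card = 6 ∧ h = Finset.subtype (fun p => p ∈ d) o} := by
  open Cfsg.Agent.Lib.Helper27 in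
  have key : ∀ o ∈ Cfsg.octads, (o ∩ d).card = 2 ∨ (o ∩ d).card = 4 ∨ (o ∩ d).card = 6 := by
    intro o ho
    rw [mem_octads_iff] at ho
    rw [mem_dodecads_iff] at hd
    have h1 := pc_xor_add (mask_lt o) (mask_lt d)
    have h2 := pc_of_isCode (isCode_xor ho.1 hd.1)
    have h3 : (o ∩ d).card ≤ 8 := by
      have := Finset.card_le_card (Finset.inter_subset_left (s₁ := o) (s₂ := d))
      rwa [card_eq_pc o, ho.2] at this
    rw [card_eq_pc, mask_inter] at h3 ⊢
    omega
  have hcard : ∀ o : Finset Cfsg.GolayPt,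
      (Finset.subtype (fun p => p ∈ d) o).card = (o ∩ d).card := by
    intro o
    rw [Finset.card_subtype, Finset.filter_mem_eq_inter]
  refine ⟨?_, ?_⟩
  · rintro b ⟨o, ho, h6, rfl⟩
    rw [hcard, h6]
  · intro s hs
    have hs' : (s.map (Function.Embedding.subtype _)).card = 5 := by rw [Finset.card_map, hs]
    obtain ⟨o, ⟨ho, hso⟩, huniq⟩ := Cfsg.Agent.Lib.Helper27.steiner_octads.2 _ hs'
    have hsub : ∀ o' : Finset Cfsg.GolayPt,
        s ⊆ Finset.subtype (fun p => p ∈ d) o' ↔ s.map (Function.Embedding.subtype _) ⊆ o' := by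
      intro o'
      constructor
      · intro h x hx
        rw [Finset.mem_map] at hx
        obtain ⟨y, hy, rfl⟩ := hx
        exact Finset.mem_subtype.1 (h hy)
      · intro h y hy
        exact Finset.mem_subtype.2 (h (Finset.mem_map_of_mem _ hy))
    have h5 : 5 ≤ (o ∩ d).card := by
      rw [← hs']
      apply Finset.card_le_card
      intro x hx
      refine Finset.mem_inter.2 ⟨hso hx, ?_⟩
      rw [Finset.mem_map] at hx
      obtain ⟨y, _, rfl⟩ := hx
      exact y.2
    have h6 : (o ∩ d).card = 6 := by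
      rcases key o ho with h | h | h <;> omega
    refine ⟨Finset.subtype (fun p => p ∈ d) o, ⟨⟨o, ho, h6, rfl⟩, (hsub o).2 hso⟩, ?_⟩
    rintro b ⟨⟨o', ho', _, rfl⟩, hb⟩
    rw [huniq o' ⟨ho', (hsub o').1 hb⟩]

end Cfsg.Agent.S0385
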