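import Cfsg.Statements.S0386
import Cfsg.Agent.Lib.Helper27.OctadFlags
import Cfsg.Agent.Lib.Helper27.DFlag

set_option autoImplicit false
open Cfsg

namespace Cfsg.Agent.S0386

/-- For a fixed dodecad, 132 octads meet it in 6 points, 132 in 2 points and 495 in 4 points. -/
theorem result (d : Finset Cfsg.GolayPt) (hd : d ∈ Cfsg.dodecads) : {o : Finset Cfsg.GolayPt | o ∈ Cfsg.octads ∧ (o ∩ d).card = 6}.ncard = 132 ∧ {o : Finset Cfsg.GolayPt | o ∈ Cfsg.octads ∧ (o ∩ d).card = 2}.ncard = 132 ∧ {o : Finset Cfsg.GolayPt | o ∈ Cfsg.octads ∧ (o ∩ d).card = 4}.ncard = 495 := by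
  obtain ⟨t, ht, ed⟩ := Cfsg.Agent.Lib.Helper27.dodecad_to_std hd
  open Cfsg.Agent.Lib.Helper27 in
  open scoped Pointwise in
  have hiff : ∀ (c : ℕ) (s : Finset Cfsg.GolayPt),
      (s ∈ Cfsg.octads ∧ (s ∩ d).card = c) ↔
      (s ∈ Cfsg.supports (Cfsg.golayCode : Set (Cfsg.GolayPt → ZMod 2)) ∧
        (fun m => octTest 340831 c m) (mask (t • s)) = true) := by
    intro c s
    have ed' : t • d = unmask 340831 := ed
    simp only [octTest, band_eq, Bool.and_eq_true, Nat.beq_eq, pc_mask_smul,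
      pc_land_mask_smul (by norm_num) ed', Finset.inter_comm s d]
    unfold Cfsg.octads Cfsg.wordsOfWeight
    simp only [Set.mem_ofPred_eq]
    tauto
  refine ⟨?_, ?_, ?_⟩
  · rw [Cfsg.Agent.Lib.Helper27.ncard_eq_count ht
      {o : Finset Cfsg.GolayPt | o ∈ Cfsg.octads ∧ (o ∩ d).card = 6}
      (fun m => Cfsg.Agent.Lib.Helper27.octTest 340831 6 m) (hiff 6)]
    decide +kernel
  · rw [Cfsg.Agent.Lib.Helper27.ncard_eq_count ht
      {o : Finset Cfsg.GolayPt | o ∈ Cfsg.octads ∧ (o ∩ d).card = 2}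
      (fun m => Cfsg.Agent.Lib.Helper27.octTest 340831 2 m) (hiff 2)]
    decide +kernel
  · rw [Cfsg.Agent.Lib.Helper27.ncard_eq_count ht
      {o : Finset Cfsg.GolayPt | o ∈ Cfsg.octads ∧ (o ∩ d).card = 4}
      (fun m => Cfsg.Agent.Lib.Helper27.octTest 340831 4 m) (hiff 4)]
    decide +kernel

end Cfsg.Agent.S0386
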