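import Cfsg.Statements.S0389
import Cfsg.Agent.Lib.Helper27.StabOrders

set_option autoImplicit false
open scoped Pointwise
open Cfsg

namespace Cfsg.Agent.S0389

/-- The stabiliser of a dodecad and a point on it is 3-transitive on the complementary dodecad. -/
theorem result (d : Finset Cfsg.GolayPt) (hd : d ∈ Cfsg.dodecads) (p : Cfsg.GolayPt) (hp : p ∈ d) (x y : Fin 3 ↪ Cfsg.GolayPt) (hx : ∀ i, x i ∉ d) (hy : ∀ i, y i ∉ d) : ∃ g ∈ MulAction.stabilizer Cfsg.M24 d ⊓ MulAction.stabilizer Cfsg.M24 p, ∀ i, (g : Equiv.Perm Cfsg.GolayPt) (x i) = y i := by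
  have hne : ∀ (z : Fin 3 ↪ Cfsg.GolayPt) (i j : Fin 3), i ≠ j → z i ≠ z j :=
    fun z i j h e => h (z.injective e)
  obtain ⟨g, hg, h⟩ := Cfsg.Agent.Lib.Helper27.eflag3 hd hp (hx 0) (hx 1) (hx 2)
    (hne x 0 1 (by decide)) (hne x 0 2 (by decide)) (hne x 1 2 (by decide))
  obtain ⟨k, hk, h'⟩ := Cfsg.Agent.Lib.Helper27.eflag3 hd hp (hy 0) (hy 1) (hy 2)
    (hne y 0 1 (by decide)) (hne y 0 2 (by decide)) (hne y 1 2 (by decide))
  have := h.trans_inv h'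
  simp only [List.forall₂_cons, Cfsg.Agent.Lib.Helper27.smul_singleton_iff] at this
  obtain ⟨e2, e1, e0, ep, ed, _⟩ := this
  refine ⟨⟨k⁻¹ * g, Cfsg.M24.mul_mem (Cfsg.M24.inv_mem hk) hg⟩, ⟨ed, ep⟩, fun i => ?_⟩
  fin_cases i
  · exact e0
  · exact e1
  · exact e2

end Cfsg.Agent.S0389
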