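import Cfsg.Statements.S5594
import Cfsg.Agent.Lib.Helper93.LeechMonomial
import Cfsg.Agent.S0372

set_option autoImplicit false
open Cfsg

namespace Cfsg.Agent.S5594

open Cfsg.Agent.Lib.Helper93.LM Cfsg.Agent.Lib.Helper7

/-- the dodecad of squares -/
def dd : Finset Cfsg.GolayPt := Cfsg.support₂ (Cfsg.qrWord 0)

theorem dd_mem : dd ∈ GC := ⟨Cfsg.qrWord 0, Submodule.subset_span (Or.inl ⟨0, rfl⟩), rfl⟩

theorem swap_dd : ∀ i : Cfsg.GolayPt, (i ∈ dd ↔ Cfsg.projInv.symm i ∉ dd) := by decide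

theorem symm_symm : ∀ i : Cfsg.GolayPt, Cfsg.projInv.symm (Cfsg.projInv.symm i) = i := by decide

/-- the monomial map whose square is negation -/
def G0 (x : Cfsg.GolayPt → ℤ) : Cfsg.GolayPt → ℤ := Cfsg.signedPerm Cfsg.projInv dd x

theorem G0_G0 (x : Cfsg.GolayPt → ℤ) : G0 (G0 x) = -x := by
  funext i
  have h1 := swap_dd i
  have h2 := symm_symm i
  simp only [G0, Cfsg.signedPerm, Pi.neg_apply, h2]
  by_cases hi : i ∈ dd
  · have := h1.1 hi
    simp [hi, this]
  · have : Cfsg.projInv.symm i ∈ dd := by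
      by_contra hc
      exact hi (h1.2 hc)
    simp [hi, this]

theorem G0_mem {x : Cfsg.GolayPt → ℤ} (hx : x ∈ Cfsg.leechLattice) : G0 x ∈ Cfsg.leechLattice :=
  signedPerm_mem Cfsg.Agent.S0372.result dd_mem hx

/-- `G0` as a permutation of the lattice -/
def gPerm : Equiv.Perm ↥Cfsg.leechLattice where
  toFun v := ⟨G0 v, G0_mem v.2⟩
  invFun v := ⟨-G0 v, neg_mem (G0_mem v.2)⟩
  left_inv v := by
    apply Subtype.ext
    show -G0 (G0 v) = v
    rw [G0_G0, neg_neg]
  right_inv v := by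
    apply Subtype.ext
    show G0 (-G0 v) = v
    rw [G0, signedPerm_neg, ← G0, G0_G0, neg_neg]

theorem gPerm_mem : gPerm ∈ Cfsg.Co0 := by
  refine ⟨fun v w => ?_, fun v => ?_⟩
  · apply Subtype.ext
    exact signedPerm_add _ _ _ _
  · exact sqNorm_signedPerm _ _ _

theorem neg_mem_Co0 : (Equiv.neg ↥Cfsg.leechLattice) ∈ Cfsg.Co0 := by
  refine ⟨fun v w => ?_, fun v => ?_⟩
  · simp only [Equiv.neg_apply, neg_add_rev]; abel
  · simp [Cfsg.sqNorm]

/-- a non-zero lattice vector -/
theorem four_mem : (fun _ => 4 : Cfsg.GolayPt → ℤ) ∈ Cfsg.leechLattice := by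
  rw [mem_leechLattice_iff, mem_leechSet_iff]
  refine ⟨0, fun i => by decide, by decide, ?_⟩
  have : (Finset.univ.filter fun _i : Cfsg.GolayPt => (4 : ℤ) ≡ 0 + 2 [ZMOD 4]) = ∅ := by decide
  rw [this]; exact GC_empty

/-- The automorphism group of the Leech lattice contains the negation map, and the subgroup of order 2 it generates has no complement: the automorphism group is a non-split extension of its quotient by that subgroup (it is not the direct product of a group of order 2 with the first Conway group). -/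
theorem result :
    ∃ n : ↥Cfsg.Co0, (∀ v : ↥Cfsg.leechLattice, ((n • v : ↥Cfsg.leechLattice) : Cfsg.GolayPt → ℤ) = -(v : Cfsg.GolayPt → ℤ)) ∧
    ∀ K : Subgroup ↥Cfsg.Co0, ¬ (Subgroup.zpowers n).IsComplement' K := by
  set n : ↥Cfsg.Co0 := ⟨Equiv.neg _, neg_mem_Co0⟩ with hn
  set g : ↥Cfsg.Co0 := ⟨gPerm, gPerm_mem⟩ with hg
  have hgg : g * g = n := by
    apply Subtype.ext
    apply Equiv.ext
    intro v
    apply Subtype.ext
    show G0 (G0 v) = -v
    exact G0_G0 _
  have hnn : n * n = 1 := by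
    apply Subtype.ext
    apply Equiv.ext
    intro v
    show - - v = v
    exact neg_neg v
  have hn1 : n ≠ 1 := by
    intro h
    have h1 := congrArg (fun f : ↥Cfsg.Co0 => ((f : Equiv.Perm ↥Cfsg.leechLattice)
      ⟨_, four_mem⟩ : Cfsg.GolayPt → ℤ) none) h
    simp [hn] at h1
  have hcentral : ∀ f : ↥Cfsg.Co0, n * f = f * n := by
    intro f
    apply Subtype.ext
    apply Equiv.ext
    intro v
    show - (f : Equiv.Perm ↥Cfsg.leechLattice) v = (f : Equiv.Perm ↥Cfsg.leechLattice) (-v)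
    have h1 := f.2.1 v (-v)
    have h0 := f.2.1 0 0
    rw [add_zero] at h0
    have h0' : (f : Equiv.Perm ↥Cfsg.leechLattice) 0 = 0 := by
      have := congrArg (fun t => t - (f : Equiv.Perm ↥Cfsg.leechLattice) 0) h0
      simpa using this.symm
    rw [add_neg_cancel, h0'] at h1
    exact neg_eq_of_add_eq_zero_right h1.symm
  refine ⟨n, fun v => rfl, fun K hK => ?_⟩
  obtain ⟨⟨a, k⟩, hak⟩ := hK.2 g
  simp only at hak
  have ha : (a : ↥Cfsg.Co0) = 1 ∨ (a : ↥Cfsg.Co0) = n := by
    obtain ⟨j, hj⟩ := Subgroup.mem_zpowers_iff.mp a.2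
    rcases Int.even_or_odd' j with ⟨m, rfl | rfl⟩
    · left
      rw [← hj, zpow_mul, zpow_two, hnn, one_zpow]
    · right
      rw [← hj, zpow_add, zpow_mul, zpow_two, hnn, one_zpow, one_mul, zpow_one]
  have hkk : (k : ↥Cfsg.Co0) * k = n := by
    rcases ha with ha | ha
    · rw [ha, one_mul] at hak
      rw [hak, hgg]
    · rw [ha] at hak
      rw [← hgg, ← hak]
      calc (k : ↥Cfsg.Co0) * k = (n * n) * (k * k) := by rw [hnn, one_mul]
        _ = n * (n * k) * k := by simp only [mul_assoc]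
        _ = n * (k * n) * k := by rw [hcentral k]
        _ = n * k * (n * k) := by simp only [mul_assoc]
  have hnK : n ∈ K := by rw [← hkk]; exact K.mul_mem k.2 k.2
  have := (Subgroup.disjoint_def.mp hK.disjoint) (Subgroup.mem_zpowers n) hnK
  exact hn1 this

end Cfsg.Agent.S5594
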