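import Cfsg.Statements.S0398
import Cfsg.Agent.Lib.Helper93.LeechMonomial
import Cfsg.Agent.Lib.Helper27.StabOrders
import Cfsg.Agent.S5594

set_option autoImplicit false
open Cfsg

namespace Cfsg.Agent.S0398

open Cfsg.Agent.Lib.Helper93.LM Cfsg.Agent.Lib.Helper7
open scoped Pointwise

theorem signedPerm_one_apply (c : Finset GolayPt) (x : GolayPt → ℤ) (i : GolayPt) :
    signedPerm 1 c x i = if i ∈ c then -x i else x i := rfl

/-- sign change on a codeword, as a permutation of the lattice -/
def eps (c : Finset GolayPt) (hc : c ∈ GC) : Equiv.Perm ↥leechLattice where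
  toFun v := ⟨signedPerm 1 c v, signedPerm_mem (one_mem _) hc v.2⟩
  invFun v := ⟨signedPerm 1 c v, signedPerm_mem (one_mem _) hc v.2⟩
  left_inv v := by
    apply Subtype.ext
    funext i
    show signedPerm 1 c (signedPerm 1 c v) i = _
    simp only [signedPerm_one_apply]
    by_cases h : i ∈ c <;> simp [h]
  right_inv v := by
    apply Subtype.ext
    funext i
    show signedPerm 1 c (signedPerm 1 c v) i = _
    simp only [signedPerm_one_apply]
    by_cases h : i ∈ c <;> simp [h]

theorem eps_mem (c : Finset GolayPt) (hc : c ∈ GC) : eps c hc ∈ Co0 := by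
  refine ⟨fun v w => ?_, fun v => ?_⟩
  · apply Subtype.ext
    exact signedPerm_add 1 c v w
  · exact sqNorm_signedPerm 1 c v

/-- coordinate permutation, as a permutation of the lattice -/
def prm (σ : Equiv.Perm GolayPt) (hσ : σ ∈ M24) : Equiv.Perm ↥leechLattice where
  toFun v := ⟨signedPerm σ ∅ v, signedPerm_mem hσ GC_empty v.2⟩
  invFun v := ⟨signedPerm σ⁻¹ ∅ v, signedPerm_mem (inv_mem hσ) GC_empty v.2⟩
  left_inv v := by
    apply Subtype.ext
    funext i
    show signedPerm σ⁻¹ ∅ (signedPerm σ ∅ v) i = _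
    simp only [signedPerm, Finset.notMem_empty, if_false]
    show (v : GolayPt → ℤ) (σ.symm (σ i)) = _
    simp
  right_inv v := by
    apply Subtype.ext
    funext i
    show signedPerm σ ∅ (signedPerm σ⁻¹ ∅ v) i = _
    simp only [signedPerm, Finset.notMem_empty, if_false]
    show (v : GolayPt → ℤ) (σ (σ.symm i)) = _
    simp

theorem prm_mem (σ : Equiv.Perm GolayPt) (hσ : σ ∈ M24) : prm σ hσ ∈ Co0 := by
  refine ⟨fun v w => ?_, fun v => ?_⟩
  · apply Subtype.ext
    exact signedPerm_add σ ∅ v w
  · exact sqNorm_signedPerm σ ∅ v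

theorem single_mem (i : GolayPt) : (Pi.single i 8 : GolayPt → ℤ) ∈ leechLattice := by
  rw [mem_leechLattice_iff, mem_leechSet_iff]
  refine ⟨0, fun j => ?_, ?_, ?_⟩
  · by_cases h : j = i
    · subst h; simp only [Pi.single_eq_same]; decide
    · simp only [Pi.single_eq_of_ne h]; rfl
  · rw [Finset.sum_pi_single' i 8 Finset.univ]
    simp only [Finset.mem_univ, if_true]; decide
  · have : (Finset.univ.filter fun j : GolayPt => (Pi.single i 8 : GolayPt → ℤ) j ≡ 0 + 2 [ZMOD 4]) = ∅ := by
      ext j
      simp only [Finset.mem_filter, Finset.mem_univ, true_and, Finset.notMem_empty, iff_false]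
      by_cases h : j = i
      · subst h; simp only [Pi.single_eq_same]; decide
      · simp only [Pi.single_eq_of_ne h]; decide
    rw [this]; exact GC_empty

/-- the lattice vector `8 e_i` -/
def E (i : GolayPt) : ↥leechLattice := ⟨Pi.single i 8, single_mem i⟩

theorem exists_codeword {i j : GolayPt} (h : i ≠ j) : ∃ c ∈ GC, i ∉ c ∧ j ∈ c := by
  have h0 : (none : GolayPt) ∉ Cfsg.Agent.S5594.dd := by decide
  have h1 : (some 0 : GolayPt) ∈ Cfsg.Agent.S5594.dd := by decide
  obtain ⟨g, hg, e1, e2⟩ := Cfsg.Agent.Lib.Helper27.trans2pt (x1 := none) (x2 := some 0)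
    (y1 := i) (y2 := j) (by decide) h
  refine ⟨g • Cfsg.Agent.S5594.dd, Cfsg.Agent.Lib.Helper93.M24.smul_mem_supports hg
    Cfsg.Agent.S5594.dd_mem, ?_, ?_⟩
  · intro hi
    obtain ⟨k, hk, hk'⟩ := Finset.mem_smul_finset.mp hi
    have : k = none := g.injective (by rw [e1]; exact hk')
    exact h0 (this ▸ hk)
  · exact Finset.mem_smul_finset.mpr ⟨some 0, h1, e2⟩

theorem eps_E {c : Finset GolayPt} (hc : c ∈ GC) {i : GolayPt} (hi : i ∉ c) :
    eps c hc (E i) = E i := by
  apply Subtype.ext
  funext k
  show signedPerm 1 c (Pi.single i 8) k = (Pi.single i 8 : GolayPt → ℤ) k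
  simp only [signedPerm_one_apply]
  by_cases hk : k ∈ c
  · have : k ≠ i := fun e => hi (e ▸ hk)
    simp [hk, Pi.single_eq_of_ne this]
  · simp [hk]

theorem signedPerm_single (σ : Equiv.Perm GolayPt) (i : GolayPt) (s : ℤ) :
    signedPerm σ ∅ (Pi.single i s) = Pi.single (σ i) s := by
  funext k
  simp only [signedPerm, Finset.notMem_empty, if_false]
  by_cases hk : k = σ i
  · subst hk; simp
  · have : σ.symm k ≠ i := fun e => hk (by rw [← e]; simp)
    rw [Pi.single_eq_of_ne hk, Pi.single_eq_of_ne this]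

/-- a central element acts as a scalar `±1` -/
theorem central_scalar (z : Equiv.Perm ↥leechLattice) (hz : z ∈ Co0)
    (hcomm : ∀ f ∈ Co0, ∀ v, z (f v) = f (z v)) :
    (∀ v, z v = v) ∨ (∀ v, z v = -v) := by
  -- shape of the images of `8 e_i`
  have h1 : ∀ i j, i ≠ j → (z (E i) : GolayPt → ℤ) j = 0 := by
    intro i j hij
    obtain ⟨c, hc, hi, hj⟩ := exists_codeword hij
    have h := hcomm _ (eps_mem c hc) (E i)
    rw [eps_E hc hi] at h
    have h' := congrArg (fun w : ↥leechLattice => (w : GolayPt → ℤ) j) h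
    have e : ((eps c hc (z (E i)) : ↥leechLattice) : GolayPt → ℤ) j
        = - (z (E i) : GolayPt → ℤ) j := by
      show signedPerm 1 c (z (E i) : GolayPt → ℤ) j = _
      simp [signedPerm_one_apply, hj]
    simp only [e] at h'
    omega
  have h2 : ∀ i, (z (E i) : GolayPt → ℤ) = Pi.single i ((z (E i) : GolayPt → ℤ) i) := by
    intro i
    funext j
    by_cases hj : j = i
    · subst hj; simp
    · rw [Pi.single_eq_of_ne hj]; exact h1 i j (Ne.symm hj)
  have h3 : ∀ i, (z (E i) : GolayPt → ℤ) i = 8 ∨ (z (E i) : GolayPt → ℤ) i = -8 := by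
    intro i
    have h := hz.2 (E i)
    rw [h2 i] at h
    have n1 : ∀ s : ℤ, sqNorm (Pi.single i s : GolayPt → ℤ) = s ^ 2 := by
      intro s
      unfold sqNorm
      rw [Finset.sum_eq_single i]
      · simp
      · intro b _ hb; rw [Pi.single_eq_of_ne hb]; simp
      · intro hh; exact absurd (Finset.mem_univ i) hh
    have n2 : sqNorm ((E i : ↥leechLattice) : GolayPt → ℤ) = 8 ^ 2 := n1 8
    rw [n1, n2] at h
    generalize (z (E i) : GolayPt → ℤ) i = s at h
    have : (s - 8) * (s + 8) = 0 := by ring_nf; ring_nf at h; omega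
    rcases mul_eq_zero.mp this with h | h
    · left; omega
    · right; omega
  have h4 : ∀ i j, (z (E i) : GolayPt → ℤ) i = (z (E j) : GolayPt → ℤ) j := by
    intro i j
    obtain ⟨σ, hσ, e⟩ := Cfsg.Agent.Lib.Helper27.trans1pt i j
    have h := hcomm _ (prm_mem σ hσ) (E i)
    have e1 : prm σ hσ (E i) = E j := by
      apply Subtype.ext
      show signedPerm σ ∅ (Pi.single i 8) = Pi.single j 8
      rw [signedPerm_single, e]
    rw [e1] at h
    have h' := congrArg (fun w : ↥leechLattice => (w : GolayPt → ℤ) j) h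
    have e2 : ((prm σ hσ (z (E i)) : ↥leechLattice) : GolayPt → ℤ) j
        = (z (E i) : GolayPt → ℤ) i := by
      show signedPerm σ ∅ (z (E i) : GolayPt → ℤ) j = _
      rw [h2 i, signedPerm_single, e]; simp
    simp only [e2] at h'
    exact h'.symm
  -- linearity
  let zh : ↥leechLattice →+ ↥leechLattice := AddMonoidHom.mk' z hz.1
  have h5 : ∀ (v : ↥leechLattice) (k : GolayPt),
      8 * (z v : GolayPt → ℤ) k = (v : GolayPt → ℤ) k * (z (E k) : GolayPt → ℤ) k := by
    intro v k
    let φ : ↥leechLattice →+ ℤ :=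
      (Pi.evalAddMonoidHom (fun _ : GolayPt => ℤ) k).comp (leechLattice.subtype.comp zh)
    have hφ : ∀ w, φ w = (z w : GolayPt → ℤ) k := fun w => rfl
    have hv : (8 : ℤ) • v = ∑ i, ((v : GolayPt → ℤ) i) • E i := by
      apply Subtype.ext
      have c1 : (((∑ i, ((v : GolayPt → ℤ) i) • E i : ↥leechLattice)) : GolayPt → ℤ)
          = ∑ i, ((v : GolayPt → ℤ) i) • (Pi.single i 8 : GolayPt → ℤ) := by
        have := map_sum leechLattice.subtype (fun i => ((v : GolayPt → ℤ) i) • E i) Finset.univ
        exact this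
      rw [c1]
      funext j
      rw [Finset.sum_apply, Finset.sum_eq_single j]
      · simp [mul_comm]
      · intro b _ hb
        simp [Pi.single_eq_of_ne (Ne.symm hb)]
      · intro hh; exact absurd (Finset.mem_univ j) hh
    have := congrArg φ hv
    have hs : ∀ i, φ (((v : GolayPt → ℤ) i) • E i)
        = (v : GolayPt → ℤ) i * (z (E i) : GolayPt → ℤ) k := by
      intro i
      rw [map_zsmul, hφ, smul_eq_mul]
    rw [map_zsmul, map_sum, hφ] at this
    simp only [hs] at this
    rw [Finset.sum_eq_single k] at this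
    · simpa using this
    · intro b _ hb
      rw [h1 b k hb]; simp
    · intro hh; exact absurd (Finset.mem_univ k) hh
  rcases h3 none with h | h
  · left
    intro v
    apply Subtype.ext
    funext k
    have := h5 v k
    rw [h4 k none, h] at this
    omega
  · right
    intro v
    apply Subtype.ext
    funext k
    have := h5 v k
    rw [h4 k none, h] at this
    show _ = - (v : GolayPt → ℤ) k
    omega

/-- The centre of the lattice's automorphism group has order 2. -/
theorem result : Nat.card (Subgroup.center Cfsg.Co0) = 2 := by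
  set n : ↥Cfsg.Co0 := ⟨Equiv.neg _, Cfsg.Agent.S5594.neg_mem_Co0⟩ with hn
  have hneg : ∀ (f : ↥Cfsg.Co0) (v : ↥leechLattice),
      (f : Equiv.Perm ↥leechLattice) (-v) = - (f : Equiv.Perm ↥leechLattice) v := by
    intro f v
    exact map_neg (AddMonoidHom.mk' (f : Equiv.Perm ↥leechLattice) f.2.1) v
  have hnc : n ∈ Subgroup.center Cfsg.Co0 := by
    rw [Subgroup.mem_center_iff]
    intro f
    apply Subtype.ext
    apply Equiv.ext
    intro v
    show (f : Equiv.Perm ↥leechLattice) (-v) = - (f : Equiv.Perm ↥leechLattice) v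
    exact hneg f v
  have hn1 : n ≠ 1 := by
    intro h
    have h1 := congrArg (fun f : ↥Cfsg.Co0 => ((f : Equiv.Perm ↥Cfsg.leechLattice)
      ⟨_, Cfsg.Agent.S5594.four_mem⟩ : Cfsg.GolayPt → ℤ) none) h
    simp [hn] at h1
  rw [Nat.card_eq_two_iff]
  refine ⟨1, ⟨n, hnc⟩, ?_, ?_⟩
  · intro h
    exact hn1 (congrArg Subtype.val h).symm
  · ext z
    simp only [Set.mem_insert_iff, Set.mem_singleton_iff, Set.mem_univ, iff_true]
    have hz := Subgroup.mem_center_iff.mp z.2
    rcases central_scalar (z : ↥Cfsg.Co0) (z : ↥Cfsg.Co0).2 (fun f hf v => by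
      have := hz ⟨f, hf⟩
      have h2 := congrArg (fun t : ↥Cfsg.Co0 => (t : Equiv.Perm ↥leechLattice) v) this
      exact h2.symm) with h | h
    · left
      apply Subtype.ext
      apply Subtype.ext
      apply Equiv.ext
      intro v
      exact h v
    · right
      apply Subtype.ext
      apply Subtype.ext
      apply Equiv.ext
      intro v
      exact h v

end Cfsg.Agent.S0398
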