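import Mathlib
import Cfsg.Statements.S0408
import Cfsg.Agent.Lib.Helper56.St12Unique

set_option autoImplicit false
open Cfsg

namespace Cfsg.Agent.S0408

open Cfsg.Agent.Lib.Helper56.St12 Cfsg.Agent.Lib.Helper56.TG

/-- Uniqueness of the Steiner system S(5, 6, 12) up to isomorphism. -/
theorem result {α β : Type*} [Fintype α] [DecidableEq α] [Fintype β] [DecidableEq β] (hα : Fintype.card α = 12) (hβ : Fintype.card β = 12) {B : Set (Finset α)} {B' : Set (Finset β)} (hB : Cfsg.IsSteinerSystem 5 6 B) (hB' : Cfsg.IsSteinerSystem 5 6 B') : Cfsg.SetSystemIso B B' := by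
  obtain ⟨e1, h1⟩ := iso_HexB hα hB
  obtain ⟨e2, h2⟩ := iso_HexB hβ hB'
  refine ⟨e1.trans e2.symm, ?_⟩
  have h3 : (fun b : Finset α => b.image (e1.trans e2.symm)) =
      (fun c : Finset ArrayPt => c.image e2.symm) ∘ (fun b : Finset α => b.image e1) := by
    funext b
    simp only [Function.comp, Finset.image_image]
    rfl
  rw [h3, Set.image_comp, h1, ← h2, ← Set.image_comp]
  have h4 : (fun c : Finset ArrayPt => c.image e2.symm) ∘ (fun b : Finset β => b.image e2) = id := by
    funext b
    simp only [Function.comp, Finset.image_image, id]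
    have : (e2.symm ∘ e2 : β → β) = id := by funext x; simp
    rw [this, Finset.image_id]
  rw [h4, Set.image_id]

end Cfsg.Agent.S0408
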