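import Cfsg.Statements.S0412
import Cfsg.Agent.Lib.Helper27.WAut2
import Cfsg.Agent.S0365

set_option autoImplicit false
open Cfsg

namespace Cfsg.Agent.S0412

/-- Aut of an S(5, 8, 24) is simple of order 244823040 and 5-transitive on points. -/
theorem result {α : Type*} [Fintype α] [DecidableEq α] (hα : Fintype.card α = 24) {B : Set (Finset α)} (hB : Cfsg.IsSteinerSystem 5 8 B) : Cfsg.IsM24 (Cfsg.setSystemAut B) ∧ MulAction.IsMultiplyPretransitive (Cfsg.setSystemAut B) α 5 := by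
  open Cfsg.Agent.Lib.Helper27 in
  have hemb := emb0 hα hB
  open Cfsg.Agent.Lib.Helper27 in
  obtain ⟨f, φ, -, -, -, -⟩ := exists_autEquiv hemb
  open Cfsg.Agent.Lib.Helper27 in
  let ψ : Cfsg.setSystemAut B ≃* Cfsg.M24 := φ.trans (MulEquiv.subgroupCongr autR_empty)
  refine ⟨⟨?_, ?_⟩, ?_⟩
  · haveI := Cfsg.Agent.S0365.result
    exact ψ.isSimpleGroup
  · rw [Nat.card_congr ψ.toEquiv]
    exact Cfsg.Agent.Lib.Helper27.card_M24
  · apply Cfsg.Agent.Lib.Helper27.pretransitive_of_autR hemb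
    intro x y _ _
    rw [Cfsg.Agent.Lib.Helper27.autR_empty]
    exact Cfsg.Agent.Lib.Helper27.five_transitive x y

end Cfsg.Agent.S0412
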