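import Cfsg.Statements.S0413
import Cfsg.Agent.Lib.Helper27.WAut2
import Cfsg.Agent.S0377

set_option autoImplicit false
open Cfsg

namespace Cfsg.Agent.S0413

/-- Aut of an S(4, 7, 23) is simple of order 10200960 and 4-transitive. -/
theorem result {α : Type*} [Fintype α] [DecidableEq α] (hα : Fintype.card α = 23) {B : Set (Finset α)} (hB : Cfsg.IsSteinerSystem 4 7 B) : Cfsg.IsM23 (Cfsg.setSystemAut B) ∧ MulAction.IsMultiplyPretransitive (Cfsg.setSystemAut B) α 4 := by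
  open Cfsg.Agent.Lib.Helper27 in
  have hemb := emb1 hα hB
  open Cfsg.Agent.Lib.Helper27 in
  obtain ⟨f, φ, -, -, -, -⟩ := exists_autEquiv hemb
  open Cfsg.Agent.Lib.Helper27 in
  obtain ⟨χ⟩ := exists_equiv_R1
  refine ⟨⟨?_, ?_⟩, ?_⟩
  · haveI := Cfsg.Agent.S0377.result (Cfsg.Agent.Lib.Helper27.pt 23)
    exact (φ.trans χ.symm).isSimpleGroup
  · rw [Nat.card_congr (φ.trans χ.symm).toEquiv]
    exact Cfsg.Agent.Lib.Helper27.card_stab_pt _
  · exact Cfsg.Agent.Lib.Helper27.pretransitive_of_autR hemb 4 Cfsg.Agent.Lib.Helper27.trans4_R1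

end Cfsg.Agent.S0413
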