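import Cfsg.Statements.S0414
import Cfsg.Agent.Lib.Helper27.WAut2
import Cfsg.Agent.S0379

set_option autoImplicit false
open Cfsg

namespace Cfsg.Agent.S0414

/-- Aut of an S(3, 6, 22) has order 887040, is 3-transitive, and contains a simple subgroup of index 2. -/
theorem result {α : Type*} [Fintype α] [DecidableEq α] (hα : Fintype.card α = 22) {B : Set (Finset α)} (hB : Cfsg.IsSteinerSystem 3 6 B) : Nat.card (Cfsg.setSystemAut B) = 887040 ∧ MulAction.IsMultiplyPretransitive (Cfsg.setSystemAut B) α 3 ∧ ∃ H : Subgroup (Cfsg.setSystemAut B), H.index = 2 ∧ Cfsg.IsM22 H := by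
  open Cfsg.Agent.Lib.Helper27 in
  have hemb := emb2 hα hB
  open Cfsg.Agent.Lib.Helper27 in
  obtain ⟨f, φ, -, -, -, -⟩ := exists_autEquiv hemb
  open Cfsg.Agent.Lib.Helper27 in
  obtain ⟨χ⟩ := exists_equiv_R2
  open Cfsg.Agent.Lib.Helper27 in
  let P := (autR (unmask 12582912) ⊓ Cfsg.M24).subgroupOf (autR (unmask 12582912))
  open Cfsg.Agent.Lib.Helper27 in
  have hPi : P.index = 2 := index_R2
  open Cfsg.Agent.Lib.Helper27 in
  let ξ : P ≃* ↥(MulAction.stabilizer Cfsg.M24 (pt 22) ⊓ MulAction.stabilizer Cfsg.M24 (pt 23)) :=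
    (Subgroup.subgroupOfEquivOfLe inf_le_left).trans χ.symm
  have hPc : Nat.card P = 443520 := by
    rw [Nat.card_congr ξ.toEquiv]
    exact Cfsg.Agent.Lib.Helper27.card_stab_two_pt (by decide)
  refine ⟨?_, ?_, ?_⟩
  · rw [Nat.card_congr φ.toEquiv, ← P.index_mul_card, hPi, hPc]
  · exact Cfsg.Agent.Lib.Helper27.pretransitive_of_autR hemb 3 Cfsg.Agent.Lib.Helper27.trans3_R2
  · refine ⟨P.map (φ.symm : _ →* _), ?_, ?_, ?_⟩
    · rw [Subgroup.index_map_equiv, hPi]
    · haveI := Cfsg.Agent.S0379.result (Cfsg.Agent.Lib.Helper27.pt 22) (Cfsg.Agent.Lib.Helper27.pt 23)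
        (by decide)
      exact ((φ.symm.subgroupMap P).symm.trans ξ).isSimpleGroup
    · rw [Nat.card_congr ((φ.symm.subgroupMap P).symm).toEquiv, hPc]

end Cfsg.Agent.S0414
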