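import Cfsg.Statements.S0423
import Cfsg.Agent.Lib.Helper27.J2PMain

set_option autoImplicit false
open Cfsg

namespace Cfsg.Agent.S0423

/-- Existence of a simple group of order 604800. -/
theorem result : ∃ G : Subgroup (Equiv.Perm (Fin 100)), Cfsg.IsJ2 G := by
  have key : ∃ H : Subgroup (Equiv.Perm (Fin 100)),
      Nonempty (Cfsg.Agent.Lib.Helper28.Sg (Cfsg.Agent.Lib.Helper27.PC.val Cfsg.Agent.Lib.Helper27.J2P.V) [0, 1, 2, 3, 4, 5, 6, 7, 8, 9, 10, 11, 12, 13, 14, 15] ≃* H) ∧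
      MulAction.IsPretransitive H (Fin 100) ∧
      Nonempty (Cfsg.Agent.Lib.Helper27.PC.stab0 (Cfsg.Agent.Lib.Helper28.Sg
        (Cfsg.Agent.Lib.Helper27.PC.val Cfsg.Agent.Lib.Helper27.J2P.V) [0, 1, 2, 3, 4, 5, 6, 7, 8, 9, 10, 11, 12, 13, 14, 15]) ≃*
          MulAction.stabilizer H (0 : Fin 100)) :=
    Cfsg.Agent.Lib.Helper27.PC.to_fin Cfsg.Agent.Lib.Helper27.J2P.V [0, 1, 2, 3, 4, 5, 6, 7, 8, 9, 10, 11, 12, 13, 14, 15]
      (by decide) (Cfsg.Agent.Lib.Helper27.PC.trans_top Cfsg.Agent.Lib.Helper27.J2P.V _ (by decide +kernel))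
  obtain ⟨H, ⟨E⟩, _, _⟩ := key
  refine ⟨H, ?_, ?_⟩
  · have := Cfsg.Agent.Lib.Helper27.J2P.simple0
    exact E.symm.isSimpleGroup
  · rw [← Nat.card_congr E.toEquiv]
    exact Cfsg.Agent.Lib.Helper27.J2P.card0

end Cfsg.Agent.S0423
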