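import Mathlib
import Cfsg.Statements.S0425
import Cfsg.Agent.Lib.Helper56.St12Unique
import Cfsg.Agent.Lib.Helper7.SharpSimple

set_option autoImplicit false
open Cfsg

namespace Cfsg.Agent.S0425

open Cfsg.Agent.Lib.Helper56 Cfsg.Agent.Lib.Helper56.St12 Cfsg.Agent.Lib.Helper56.TG
open scoped Pointwise

def y0 : Fin 5 ↪ ArrayPt := ⟨fun i => pt i.val, by decide⟩

theorem stab_y0 : MulAction.stabilizer (setSystemAut HexB) y0 = ⊥ := by
  rw [eq_bot_iff]
  rintro ⟨g, hg⟩ hgy
  have h : ∀ k < 5, g (pt k) = pt k := by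
    intro k hk
    have := DFunLike.congr_fun (MulAction.mem_stabilizer_iff.1 hgy) (⟨k, hk⟩ : Fin 5)
    exact this
  rw [Subgroup.mem_bot]
  exact Subtype.ext (Cfsg.Agent.S1594.eq_one_of_fix hg h)

theorem std : MulAction.IsPretransitive (setSystemAut HexB) (Fin 5 ↪ ArrayPt) ∧
    ∀ x : Fin 5 ↪ ArrayPt, MulAction.stabilizer (setSystemAut HexB) x = ⊥ := by
  apply regular_of_card y0 stab_y0
  rw [Cfsg.Agent.S1594.card_aut, Nat.card_eq_fintype_card, Fintype.card_embedding_eq]
  simp [Nat.descFactorial, ZMod.card]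

section
variable {α : Type*} [DecidableEq α] (e : α ≃ ArrayPt)

theorem conj_smul_image (σ : Equiv.Perm α) (b : Finset α) :
    (e.permCongr σ) • (b.image e) = (σ • b).image e := by
  show (b.image e).image (e.permCongr σ) = (b.image σ).image e
  rw [Finset.image_image, Finset.image_image]
  congr 1
  funext x
  simp [Equiv.permCongr_apply]

theorem mem_aut_iff {B : Set (Finset α)} (h : (fun b => b.image e) '' B = HexB) (σ : Equiv.Perm α) :
    σ ∈ setSystemAut B ↔ e.permCongr σ ∈ setSystemAut HexB := by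
  have key : (e.permCongr σ) • HexB = (fun b => b.image e) '' (σ • B) := by
    rw [← h]
    ext c
    constructor
    · rintro ⟨_, ⟨b, hb, rfl⟩, rfl⟩
      exact ⟨σ • b, Set.smul_mem_smul_set hb, (conj_smul_image e σ b).symm⟩
    · rintro ⟨_, ⟨b, hb, rfl⟩, rfl⟩
      exact ⟨b.image e, ⟨b, hb, rfl⟩, conj_smul_image e σ b⟩
  show σ • B = B ↔ (e.permCongr σ) • HexB = HexB
  rw [key]
  constructor
  · intro h1
    rw [h1, h]
  · intro h1
    rw [← h] at h1
    exact (Set.image_injective.2 (Finset.image_injective e.injective)) h1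

end

/-- Aut of an S(5, 6, 12) is simple of order 95040 and sharply 5-transitive on points. -/
theorem result {α : Type*} [Fintype α] [DecidableEq α] (hα : Fintype.card α = 12) {B : Set (Finset α)} (hB : Cfsg.IsSteinerSystem 5 6 B) : Cfsg.IsM12 (Cfsg.setSystemAut B) ∧ MulAction.IsMultiplyPretransitive (Cfsg.setSystemAut B) α 5 ∧ ∀ x : Fin 5 ↪ α, MulAction.stabilizer (Cfsg.setSystemAut B) x = ⊥ := by
  obtain ⟨e, he⟩ := iso_HexB hα hB
  obtain ⟨ht, hs⟩ := std
  have h1 : MulAction.IsMultiplyPretransitive (Cfsg.setSystemAut B) α 5 := by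
    refine ⟨fun x y => ?_⟩
    obtain ⟨g, hg⟩ := ht.exists_smul_eq (x.trans e.toEmbedding) (y.trans e.toEmbedding)
    have hmem : e.symm.permCongr g.1 ∈ setSystemAut B := by
      rw [mem_aut_iff e he]
      have : e.permCongr (e.symm.permCongr g.1) = g.1 := by
        apply Equiv.ext
        intro p
        simp [Equiv.permCongr_apply]
      rw [this]
      exact g.2
    refine ⟨⟨_, hmem⟩, ?_⟩
    ext i
    have h2 : g.1 (e (x i)) = e (y i) := DFunLike.congr_fun hg i
    show (e.symm.permCongr g.1) (x i) = y i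
    simp [Equiv.permCongr_apply, h2]
  have h2 : ∀ x : Fin 5 ↪ α, MulAction.stabilizer (Cfsg.setSystemAut B) x = ⊥ := by
    intro x
    rw [eq_bot_iff]
    rintro ⟨σ, hσ⟩ hx
    have hmem := (mem_aut_iff e he σ).1 hσ
    have h3 : (⟨e.permCongr σ, hmem⟩ : setSystemAut HexB) ∈
        MulAction.stabilizer (setSystemAut HexB) (x.trans e.toEmbedding) := by
      rw [MulAction.mem_stabilizer_iff]
      apply Function.Embedding.ext
      intro i
      have h4 : σ (x i) = x i := DFunLike.congr_fun (MulAction.mem_stabilizer_iff.1 hx) i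
      show (e.permCongr σ) (e (x i)) = e (x i)
      simp [Equiv.permCongr_apply, h4]
    rw [hs, Subgroup.mem_bot] at h3
    have h5 : e.permCongr σ = 1 := congrArg Subtype.val h3
    rw [Subgroup.mem_bot]
    apply Subtype.ext
    show σ = 1
    apply e.permCongr.injective
    rw [h5]
    apply Equiv.ext
    intro p
    simp [Equiv.permCongr_apply]
  refine ⟨?_, h1, h2⟩
  exact Cfsg.Agent.Lib.Helper7.sharp5_deg12 (G := setSystemAut B) (X := α)
    (by rw [Nat.card_eq_fintype_card, hα]) h2

end Cfsg.Agent.S0425
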