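import Cfsg.Statements.S0426
import Cfsg.Agent.Lib.Helper30.SteinerData411
import Cfsg.Agent.Lib.Helper30.SteinerRigid
import Cfsg.Agent.S0418

set_option autoImplicit false
open Cfsg

namespace Cfsg.Agent.S0426

open Cfsg.Agent.Lib.Helper27 Cfsg.Agent.Lib.Helper30.SS Cfsg.Agent.Lib.Helper30.SS.D411
open scoped Pointwise

/-- the 3-subsets of the base block. -/
def Ts : List ℕ := [7, 11, 19, 13, 21, 25, 14, 22, 26, 28]

/-- certificate words. -/
def W : List (List ℕ) := [[], [7], [11], [13], [21], [19], [11, 22], [7, 25]]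

theorem ts_ok : tsOk 4 11 L0 Ts = true := by decide +kernel

theorem rig_ok : rigOk 4 11 L0 Ts W = true := by decide +kernel

theorem rst : RSt 4 11 (B0 L0) := rst_B0 (by norm_num) std

theorem rigid411 (σ : Equiv.Perm GolayPt) (h1 : ∀ i < 4, σ (pt i) = pt i)
    (h2 : ∀ b ∈ B0 L0, σ • b ∈ B0 L0) (h3 : σ • PU 11 = PU 11) : ∀ i < 11, σ (pt i) = pt i := by
  have h4 : σ (pt 4) = pt 4 := by
    refine forced (T := 7) (x := 3) (y := 4) (x' := 3) (y' := 4) rst h2 (by norm_num) (by norm_num)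
      (by norm_num) (by norm_num) ?_ (h1 3 (by norm_num)) (by decide +kernel) (by decide +kernel)
      (by decide +kernel) (by decide +kernel)
    intro p hp
    have := mem_PU.1 (unmask_subset_PU (v := 3) (by norm_num) hp)
    have h5 := h1 (idx p) (by omega)
    rwa [pt_idx] at h5
  refine rigid (by norm_num) (by norm_num) rst ts_ok rig_ok ?_ h2 h3
  intro i hi
  rcases Nat.lt_succ_iff_lt_or_eq.1 hi with h | rfl
  · exact h1 i h
  · exact h4

/-- Aut of an S(4, 5, 11) is simple of order 7920 and sharply 4-transitive on points. -/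
theorem result {α : Type*} [Fintype α] [DecidableEq α] (hα : Fintype.card α = 11) {B : Set (Finset α)} (hB : Cfsg.IsSteinerSystem 4 5 B) : Cfsg.IsM11 (Cfsg.setSystemAut B) ∧ MulAction.IsMultiplyPretransitive (Cfsg.setSystemAut B) α 4 ∧ ∀ x : Fin 4 ↪ α, MulAction.stabilizer (Cfsg.setSystemAut B) x = ⊥ := by
  obtain ⟨h1, h2⟩ := aut_props (t := 4) (v := 11) (L0 := L0) (B := B) rst (fun x => emb hα hB x)
    rigid411
  exact ⟨Cfsg.Agent.S0418.result hα _ h2, h1, h2⟩

end Cfsg.Agent.S0426
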