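import Cfsg.Statements.S0432
import Mathlib

set_option autoImplicit false
open Cfsg

namespace Cfsg.Agent.S0432

open scoped Pointwise

theorem leechSet_perm (σ : Equiv.Perm Cfsg.GolayPt) (hσ : σ ∈ Cfsg.M24) (x : Cfsg.GolayPt → ℤ)
    (hx : x ∈ Cfsg.leechSet) : (fun i => x (σ i)) ∈ Cfsg.leechSet := by
  obtain ⟨m, h1, h2, h3⟩ := hx
  refine ⟨m, fun i => h1 (σ i), ?_, fun k => ?_⟩
  · rw [Equiv.sum_comp σ x]; exact h2
  · have hinv : σ⁻¹ ∈ Cfsg.M24 := inv_mem hσ
    have hst : σ⁻¹ • (Cfsg.supports (Cfsg.golayCode : Set (Cfsg.GolayPt → ZMod 2))) = Cfsg.supports (Cfsg.golayCode : Set (Cfsg.GolayPt → ZMod 2)) :=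
      MulAction.mem_stabilizer_iff.mp hinv
    have := Set.smul_mem_smul_set (a := σ⁻¹) (h3 k)
    rw [hst] at this
    convert this using 1
    ext i
    rw [Finset.mem_inv_smul_finset_iff]
    simp

/-- Coordinate permutations from the code's group preserve the lattice. -/
theorem result (σ : Equiv.Perm Cfsg.GolayPt) (hσ : σ ∈ Cfsg.M24) (x : Cfsg.GolayPt → ℤ) (hx : x ∈ Cfsg.leechLattice) : (fun i => x (σ i)) ∈ Cfsg.leechLattice := by
  unfold Cfsg.leechLattice at hx ⊢
  induction hx using AddSubgroup.closure_induction with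
  | mem x hx => exact AddSubgroup.subset_closure (leechSet_perm σ hσ x hx)
  | zero => exact zero_mem _
  | add x y _ _ hx hy => exact add_mem hx hy
  | neg x _ hx => exact neg_mem hx

end Cfsg.Agent.S0432
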