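import Cfsg.Statements.S0433
import Cfsg.Agent.Lib.Helper8.Golay

set_option autoImplicit false
open Cfsg

namespace Cfsg.Agent.S0433

open Cfsg.Agent.Lib.Helper8

theorem key (c : Finset Cfsg.GolayPt) (hc : c ∈ Cfsg.supports (Cfsg.golayCode : Set (Cfsg.GolayPt → ZMod 2)))
    (x : Cfsg.GolayPt → ℤ) (m : ℤ) (h1 : ∀ i, x i ≡ m [ZMOD 2])
    (h3 : ∀ k : ℤ, (Finset.univ.filter fun i => x i ≡ k [ZMOD 4]) ∈
      supports (golayCode : Set (GolayPt → ZMod 2))) :
    ∑ i ∈ c, x i ≡ 0 [ZMOD 4] := by
  rcases Int.emod_two_eq_zero_or_one m with hm | hm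
  · have h4 : ∀ i ∈ c, x i ≡ 2 * (if x i ≡ 2 [ZMOD 4] then 1 else 0) [ZMOD 4] := by
      intro i _
      have := h1 i
      split_ifs with h <;> unfold Int.ModEq at * <;> omega
    refine (Int.ModEq.sum h4).trans ?_
    rw [← Finset.mul_sum, Finset.sum_boole]
    have h5 : c.filter (fun i => x i ≡ 2 [ZMOD 4]) = c ∩ (Finset.univ.filter fun i => x i ≡ 2 [ZMOD 4]) := by
      rw [Finset.inter_filter, Finset.inter_univ]
    rw [h5]
    obtain ⟨k, hk⟩ := golay_inter_even hc (h3 2)
    rw [hk]
    push_cast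
    unfold Int.ModEq
    omega
  · have h4 : ∀ i ∈ c, x i ≡ 1 - 2 * (if x i ≡ 3 [ZMOD 4] then 1 else 0) [ZMOD 4] := by
      intro i _
      have := h1 i
      split_ifs with h <;> unfold Int.ModEq at * <;> omega
    refine (Int.ModEq.sum h4).trans ?_
    rw [Finset.sum_sub_distrib, ← Finset.mul_sum, Finset.sum_boole]
    have h5 : c.filter (fun i => x i ≡ 3 [ZMOD 4]) = c ∩ (Finset.univ.filter fun i => x i ≡ 3 [ZMOD 4]) := by
      rw [Finset.inter_filter, Finset.inter_univ]
    rw [h5]
    obtain ⟨k, hk⟩ := golay_inter_even hc (h3 3)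
    obtain ⟨l, hl⟩ := golay_four_dvd hc
    rw [hk]
    simp only [Finset.sum_const, nsmul_eq_mul, mul_one]
    rw [hl]
    push_cast
    unfold Int.ModEq
    omega

theorem leechSet_sign (c : Finset Cfsg.GolayPt) (hc : c ∈ Cfsg.supports (Cfsg.golayCode : Set (Cfsg.GolayPt → ZMod 2)))
    (x : Cfsg.GolayPt → ℤ) (hx : x ∈ Cfsg.leechSet) :
    (fun i => if i ∈ c then -x i else x i) ∈ Cfsg.leechSet := by
  obtain ⟨m, h1, h2, h3⟩ := hx
  refine ⟨m, ?_, ?_, ?_⟩
  · intro i
    have := h1 i
    show (if i ∈ c then -x i else x i) ≡ m [ZMOD 2]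
    split_ifs <;> unfold Int.ModEq at * <;> omega
  · have hk := key c hc x m h1 h3
    have hs : ∑ i, (if i ∈ c then -x i else x i) = ∑ i, x i - 2 * ∑ i ∈ c, x i := by
      have : ∀ i, (if i ∈ c then -x i else x i) = x i - 2 * (if i ∈ c then x i else 0) := by
        intro i; split_ifs <;> ring
      simp only [this]
      rw [Finset.sum_sub_distrib, ← Finset.mul_sum, Finset.sum_ite_mem, Finset.univ_inter]
    rw [hs]
    unfold Int.ModEq at *
    omega
  · intro k
    by_cases hcase : m % 2 = 1 ∧ k % 2 = 1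
    · have := golay_symmDiff (h3 k) hc
      convert this using 1
      ext i
      have h1i := h1 i
      simp only [Finset.mem_filter, Finset.mem_univ, true_and, Finset.mem_symmDiff]
      by_cases hi : i ∈ c
      · simp only [hi, if_true, not_true, and_false, true_and, false_or]
        unfold Int.ModEq at *
        omega
      · simp only [hi, if_false, not_false_iff, and_true, false_and, or_false]
    · convert h3 k using 1
      apply Finset.filter_congr
      intro i _
      have h1i := h1 i
      show (if i ∈ c then -x i else x i) ≡ k [ZMOD 4] ↔ x i ≡ k [ZMOD 4]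
      split_ifs
      · unfold Int.ModEq at *
        omega
      · rfl

/-- Sign changes on the support of a codeword preserve the lattice. -/
theorem result (c : Finset Cfsg.GolayPt) (hc : c ∈ Cfsg.supports (Cfsg.golayCode : Set (Cfsg.GolayPt → ZMod 2))) (x : Cfsg.GolayPt → ℤ) (hx : x ∈ Cfsg.leechLattice) : (fun i => if i ∈ c then -x i else x i) ∈ Cfsg.leechLattice := by
  unfold Cfsg.leechLattice at hx ⊢
  induction hx using AddSubgroup.closure_induction with
  | mem x hx => exact AddSubgroup.subset_closure (leechSet_sign c hc x hx)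
  | zero =>
    have : (fun i => if i ∈ c then -(0 : GolayPt → ℤ) i else (0 : GolayPt → ℤ) i) = 0 := by
      ext i; simp
    rw [this]; exact zero_mem _
  | add x y _ _ hx hy =>
    convert add_mem hx hy using 1
    ext i
    simp only [Pi.add_apply]
    split_ifs <;> ring
  | neg x _ hx =>
    convert neg_mem hx using 1
    ext i
    simp only [Pi.neg_apply]
    split_ifs <;> ring

end Cfsg.Agent.S0433
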