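import Cfsg.Statements.S0439
import Mathlib

set_option autoImplicit false
open Cfsg

namespace Cfsg.Agent.S0439

open Equiv Equiv.Perm

theorem same {α : Type*} [DecidableEq α] [Fintype α] {a b c : α} (ab : a ≠ b) (ac : a ≠ c) :
    (swap a b * swap a c) ^ 2 = 1 ∨ (swap a b * swap a c) ^ 3 = 1 := by
  by_cases bc : b = c
  · subst bc
    left; simp
  · right
    have := (isThreeCycle_swap_mul_swap_same ab ac bc).orderOf
    rw [← this]; exact pow_orderOf_eq_one _

/-- In the symmetric group of degree n ≥ 2, the set of transpositions is a conjugacy class of 3-transpositions which generates the group. -/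
theorem result (n : ℕ) (hn : 2 ≤ n) : Cfsg.IsThreeTranspositionClass {σ : Equiv.Perm (Fin n) | σ.IsSwap} := by
  refine ⟨⟨?_, ?_⟩, ?_, closure_isSwap⟩
  · intro d hd
    exact IsSwap.orderOf hd
  · rintro _ ⟨a, b, ab, rfl⟩ _ ⟨c, d, cd, rfl⟩
    by_cases ac : a = c
    · subst ac; exact same ab cd
    by_cases ad : a = d
    · subst ad; rw [swap_comm c a]; exact same ab cd.symm
    by_cases bc : b = c
    · subst bc; rw [swap_comm a b]; exact same ab.symm cd
    by_cases bd : b = d
    · subst bd; rw [swap_comm a b, swap_comm c b]; exact same ab.symm cd.symm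
    left
    have hdis : Disjoint (swap a b) (swap c d) := disjoint_swap_swap (by simp [*])
    rw [hdis.commute.mul_pow]
    simp [pow_two]
  · have h01 : (⟨0, by omega⟩ : Fin n) ≠ ⟨1, by omega⟩ := by
      intro h; simp [Fin.ext_iff] at h
    refine ⟨swap ⟨0, by omega⟩ ⟨1, by omega⟩, ⟨_, _, h01, rfl⟩, ?_⟩
    ext σ
    show σ.IsSwap ↔ IsConj _ σ
    constructor
    · rintro ⟨a, b, ab, rfl⟩
      exact isConj_swap h01 ab
    · intro h
      obtain ⟨g, hg⟩ := isConj_iff.mp h
      rw [← hg, ← swap_apply_apply]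
      exact ⟨_, _, fun h => h01 (g.injective h), rfl⟩

end Cfsg.Agent.S0439
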