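import Cfsg.Statements.S0442
import Mathlib

set_option autoImplicit false
open Cfsg

namespace Cfsg.Agent.S0442

theorem aux {G : Type*} [Group G] (a c : G) (ha : a * a = 1) (hc : c * c = 1) (k : ℕ) :
    (a * c) ^ k * a = a * ((a * c) ^ k)⁻¹ := by
  have hinv : (a * c)⁻¹ = c * a := by
    rw [inv_eq_iff_mul_eq_one]
    calc a * c * (c * a) = a * (c * c) * a := by group
      _ = 1 := by rw [hc, mul_one, ha]
  induction k with
  | zero => simp
  | succ k ih =>
    rw [pow_succ', mul_assoc, ih, mul_inv_rev, hinv]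
    calc a * c * (a * ((a * c) ^ k)⁻¹) = a * ((c * a) * ((a * c) ^ k)⁻¹) := by group
      _ = a * (((a * c) ^ k)⁻¹ * (c * a)) := by
        rw [← hinv]
        congr 1
        rw [← inv_pow]
        exact (pow_succ' _ k).symm.trans (pow_succ _ k)

theorem aux2 {G : Type*} [Group G] (a c : G) (ha : a * a = 1) (hc : c * c = 1) (m : ℕ)
    (h : (a * c) ^ (2 * m) = 1) : Commute ((a * c) ^ m) a := by
  show (a * c) ^ m * a = a * (a * c) ^ m
  rw [aux a c ha hc m]
  congr 1
  rw [inv_eq_iff_mul_eq_one, ← pow_add, ← two_mul, h]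

/-- A standard trick for producing elements of an involution centraliser: for an involution a and an element g, let b be the conjugate g⁻¹ * a * g. If a * b has odd order 2m + 1 then g * (a * b) ^ m commutes with a; if a * b has even order 2m then (a * b) ^ m and (a * (g * a * g⁻¹)) ^ m commute with a. -/
theorem result {G : Type*} [Group G] (a g : G) (ha : orderOf a = 2) : (∀ m : ℕ, orderOf (a * (g⁻¹ * a * g)) = 2 * m + 1 → Commute (g * (a * (g⁻¹ * a * g)) ^ m) a) ∧ (∀ m : ℕ, orderOf (a * (g⁻¹ * a * g)) = 2 * m → Commute ((a * (g⁻¹ * a * g)) ^ m) a ∧ Commute ((a * (g * a * g⁻¹)) ^ m) a) := by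
  have haa : a * a = 1 := by
    have := pow_orderOf_eq_one a
    rwa [ha, pow_two] at this
  have hbb : (g⁻¹ * a * g) * (g⁻¹ * a * g) = 1 := by
    calc (g⁻¹ * a * g) * (g⁻¹ * a * g) = g⁻¹ * (a * a) * g := by group
      _ = 1 := by rw [haa]; group
  have hcc : (g * a * g⁻¹) * (g * a * g⁻¹) = 1 := by
    calc (g * a * g⁻¹) * (g * a * g⁻¹) = g * (a * a) * g⁻¹ := by group
      _ = 1 := by rw [haa]; group
  have hinv : (a * (g⁻¹ * a * g))⁻¹ = (g⁻¹ * a * g) * a := by
    rw [inv_eq_iff_mul_eq_one]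
    calc a * (g⁻¹ * a * g) * ((g⁻¹ * a * g) * a) = a * ((g⁻¹ * a * g) * (g⁻¹ * a * g)) * a := by group
      _ = 1 := by rw [hbb, mul_one, haa]
  constructor
  · intro m hm
    have h1 : (a * (g⁻¹ * a * g)) ^ (2 * m + 1) = 1 := by
      rw [← hm]; exact pow_orderOf_eq_one _
    show g * (a * (g⁻¹ * a * g)) ^ m * a = a * (g * (a * (g⁻¹ * a * g)) ^ m)
    rw [mul_assoc, aux a _ haa hbb m]
    generalize hw : (a * (g⁻¹ * a * g)) = w at *
    -- g * (a * (w^m)⁻¹) = a * (g * w^m)
    have h2 : w ^ m * w ^ m = w⁻¹ := by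
      rw [eq_inv_iff_mul_eq_one, ← pow_add, ← pow_succ, ← two_mul, h1]
    have h3 : (w ^ m)⁻¹ = w * w ^ m := by
      rw [inv_eq_iff_mul_eq_one]
      calc w ^ m * (w * w ^ m) = w * (w ^ m * w ^ m) := by
            rw [← pow_succ', ← pow_add, ← pow_add, ← pow_succ']; congr 1
        _ = 1 := by rw [h2]; group
    rw [h3]
    generalize w ^ m = v
    rw [← hw]
    calc g * (a * (a * (g⁻¹ * a * g) * v))
        = g * (a * a) * g⁻¹ * a * g * v := by group
      _ = a * (g * v) := by rw [haa]; group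
  · intro m hm
    have h1 : (a * (g⁻¹ * a * g)) ^ (2 * m) = 1 := by
      rw [← hm]; exact pow_orderOf_eq_one _
    refine ⟨aux2 a _ haa hbb m h1, aux2 a _ haa hcc m ?_⟩
    have h4 : a * (g * a * g⁻¹) = g * (a * (g⁻¹ * a * g))⁻¹ * g⁻¹ := by
      rw [hinv]; group
    rw [h4, conj_pow, inv_pow, h1]
    group

end Cfsg.Agent.S0442
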