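import Cfsg.Statements.S0443

set_option autoImplicit false
open Cfsg

namespace Cfsg.Agent.S0443

/-- Two definitions of a 2-central involution agree: an element t of order 2 of a finite group lies in the centre of some Sylow 2-subgroup if and only if its centraliser contains some Sylow 2-subgroup. -/
theorem result {G : Type*} [Group G] [Finite G] (t : G) (ht : orderOf t = 2) : Cfsg.IsTwoCentralInvolution t ↔ ∃ P : Sylow 2 G, (P : Subgroup G) ≤ Subgroup.centralizer ({t} : Set G) := by
  constructor
  · rintro ⟨-, P, -, hP⟩
    refine ⟨P, fun x hx => ?_⟩
    rw [Subgroup.mem_centralizer_singleton_iff]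
    exact hP x hx
  · rintro ⟨P, hP⟩
    refine ⟨ht, P, ?_, fun x hx => ?_⟩
    · -- t ∈ P: the subgroup generated by P and t is a 2-group
      have hcomm : ∀ x ∈ (P : Subgroup G), x * t = t * x := by
        intro x hx
        have := hP hx
        rwa [Subgroup.mem_centralizer_singleton_iff] at this
      -- zpowers t normalizes P
      have hle : Subgroup.zpowers t ≤ Subgroup.normalizer ((P : Subgroup G) : Set G) := by
        rw [Subgroup.zpowers_le]
        rw [Subgroup.mem_normalizer_iff]
        intro h
        constructor
        · intro hh
          have : t * h * t⁻¹ = h := by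
            rw [← hcomm h hh]; group
          rwa [this]
        · intro hh
          have h2 := hcomm _ hh
          have : h = t * h * t⁻¹ := by
            have h3 : t * h * t⁻¹ * t = t * (t * h * t⁻¹) := h2
            have h4 : t * h = t * (t * h * t⁻¹) := by
              simpa using h3
            exact mul_left_cancel h4
          rw [this]; exact hh
      have hpg : IsPGroup 2 (Subgroup.zpowers t) := by
        rw [IsPGroup.iff_card]
        refine ⟨1, ?_⟩
        rw [Nat.card_zpowers, ht]; rfl
      have := IsPGroup.sylow_mem_fixedPoints_iff (P := Subgroup.zpowers t) hpg (Q := P)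
      have h3 : Subgroup.zpowers t ≤ P := by
        rw [← this, Subgroup.sylow_mem_fixedPoints_iff]
        exact hle
      exact h3 (Subgroup.mem_zpowers t)
    · have := hP hx
      rwa [Subgroup.mem_centralizer_singleton_iff] at this

end Cfsg.Agent.S0443
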