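import Cfsg.Statements.S0446

set_option autoImplicit false
open Cfsg

namespace Cfsg.Agent.S0446

/-- Every finite group of even order contains a 2-central involution, i.e. an element of order 2 in the centre of some Sylow 2-subgroup. -/
theorem result {G : Type*} [Group G] [Finite G] (h : Even (Nat.card G)) : ∃ t : G, Cfsg.IsTwoCentralInvolution t := by
  haveI : Fact (Nat.Prime 2) := ⟨Nat.prime_two⟩
  obtain ⟨P⟩ : Nonempty (Sylow 2 G) := inferInstance
  have h2 : 2 ∣ Nat.card (P : Subgroup G) := by
    have := P.card_eq_multiplicity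
    rw [this]
    have hpos : 0 < (Nat.card G).factorization 2 := by
      apply Nat.Prime.factorization_pos_of_dvd Nat.prime_two Nat.card_pos.ne' h.two_dvd
    exact dvd_pow_self 2 hpos.ne'
  haveI : Nontrivial (P : Subgroup G) := by
    rw [← Finite.one_lt_card_iff_nontrivial]
    have := Nat.le_of_dvd Nat.card_pos h2
    omega
  haveI := P.isPGroup'.center_nontrivial
  have h3 : 2 ∣ Nat.card (Subgroup.center (P : Subgroup G)) := by
    have hpg : IsPGroup 2 (Subgroup.center (P : Subgroup G)) := P.isPGroup'.to_subgroup _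
    obtain ⟨n, hn⟩ := IsPGroup.iff_card.mp hpg
    rw [hn]
    have : 1 < Nat.card (Subgroup.center (P : Subgroup G)) := Finite.one_lt_card
    rw [hn] at this
    have hn0 : n ≠ 0 := by
      rintro rfl
      simp at this
    exact dvd_pow_self 2 hn0
  obtain ⟨z, hz⟩ := exists_prime_orderOf_dvd_card' 2 h3
  refine ⟨((z : (P : Subgroup G)) : G), ?_, P, (z : (P : Subgroup G)).2, ?_⟩
  · rw [Subgroup.orderOf_coe, Subgroup.orderOf_coe]; exact hz
  · intro x hx
    have := Subgroup.mem_center_iff.mp z.2 ⟨x, hx⟩
    exact congrArg Subtype.val this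

end Cfsg.Agent.S0446
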