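import Cfsg.Statements.S0458
import Cfsg.Agent.Lib.Helper93.J3.Simple
import Cfsg.Agent.Lib.Helper93.PermFin

set_option autoImplicit false
open Cfsg

namespace Cfsg.Agent.S0458

/-- Janko's third group exists as a transitive permutation group of degree 6156 with point stabiliser of order 8160: a simple group of order 50232960. -/
theorem result : ∃ H : Subgroup (Equiv.Perm (Fin 6156)), Cfsg.IsJ3 H ∧ MulAction.IsPretransitive H (Fin 6156) ∧ Nat.card (MulAction.stabilizer H (0 : Fin 6156)) = 8160 := by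
  have ok := Cfsg.Agent.Lib.Helper93.J3.ok
  have main := Cfsg.Agent.Lib.Helper93.J3.main
  obtain ⟨H, ⟨E⟩, htr, ⟨e⟩⟩ := Cfsg.Agent.Lib.Helper93.PermFin.exists_perm_group
    (Cfsg.Agent.Lib.Helper28.Prob.phi ok) 6156
    (fun g c hc => Cfsg.Agent.Lib.Helper28.Prob.OK.phi_lt ok g hc) (by norm_num) main.2.2
    (fun g c hc => Cfsg.Agent.Lib.Helper28.Prob.OK.phi_ge ok g hc) ok.index.2.2.2.2
    (Cfsg.Agent.Lib.Helper28.Prob.HS Cfsg.Agent.Lib.Helper93.J3.Q Cfsg.Agent.Lib.Helper93.J3.S)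
    (fun g => ⟨ok.index.2.2.2.1 g, ok.index.2.1 g⟩)
  refine ⟨H, ⟨?_, ?_⟩, htr, ?_⟩
  · haveI := main.1
    exact E.symm.isSimpleGroup
  · rw [← Nat.card_congr E.toEquiv]
    exact main.2.1
  · have h1 : Nat.card (MulAction.stabilizer H (0 : Fin 6156)) =
        Nat.card (Cfsg.Agent.Lib.Helper28.Prob.HS Cfsg.Agent.Lib.Helper93.J3.Q
          Cfsg.Agent.Lib.Helper93.J3.S) := (Nat.card_congr e.toEquiv).symm
    have h2 := (Cfsg.Agent.Lib.Helper28.Prob.HS Cfsg.Agent.Lib.Helper93.J3.Q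
      Cfsg.Agent.Lib.Helper93.J3.S).card_mul_index
    rw [ok.index.1, main.2.1] at h2
    have h3 : Cfsg.Agent.Lib.Helper93.J3.Q.n = 6156 := rfl
    rw [h3] at h2
    rw [h1]
    exact Nat.eq_of_mul_eq_mul_right (by norm_num : 0 < 6156) (h2.trans (by norm_num))

end Cfsg.Agent.S0458
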