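import Cfsg.Statements.S0459
import Cfsg.Agent.Lib.Helper27.RuPMain

set_option autoImplicit false
open Cfsg

namespace Cfsg.Agent.S0459

/-- The Rudvalis group exists as a transitive permutation group of degree 4060: simple of order 145926144000, with point stabiliser of order 35942400 containing a simple subgroup of order 17971200 (the order of the Tits group). -/
theorem result : ∃ H : Subgroup (Equiv.Perm (Fin 4060)), Cfsg.IsRu H ∧ MulAction.IsPretransitive H (Fin 4060) ∧ Nat.card (MulAction.stabilizer H (0 : Fin 4060)) = 35942400 ∧ ∃ T : Subgroup (MulAction.stabilizer H (0 : Fin 4060)), Cfsg.IsTits T := by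
  have key : ∃ H : Subgroup (Equiv.Perm (Fin 4060)),
      Nonempty (Cfsg.Agent.Lib.Helper28.Sg (Cfsg.Agent.Lib.Helper27.PC.val Cfsg.Agent.Lib.Helper27.RuP.V) [0, 1, 2, 3, 4, 5, 6, 7, 8, 9, 10, 11, 12, 13, 14, 15, 16] ≃* H) ∧
      MulAction.IsPretransitive H (Fin 4060) ∧
      Nonempty (Cfsg.Agent.Lib.Helper27.PC.stab0 (Cfsg.Agent.Lib.Helper28.Sg
        (Cfsg.Agent.Lib.Helper27.PC.val Cfsg.Agent.Lib.Helper27.RuP.V) [0, 1, 2, 3, 4, 5, 6, 7, 8, 9, 10, 11, 12, 13, 14, 15, 16]) ≃*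
          MulAction.stabilizer H (0 : Fin 4060)) :=
    Cfsg.Agent.Lib.Helper27.PC.to_fin Cfsg.Agent.Lib.Helper27.RuP.V [0, 1, 2, 3, 4, 5, 6, 7, 8, 9, 10, 11, 12, 13, 14, 15, 16]
      (by decide) (Cfsg.Agent.Lib.Helper27.PC.trans_top Cfsg.Agent.Lib.Helper27.RuP.V _ (by decide +kernel))
  obtain ⟨H, ⟨E⟩, htr, ⟨e⟩⟩ := key
  have hcard : Nat.card H = 145926144000 := by
    rw [← Nat.card_congr E.toEquiv]
    exact Cfsg.Agent.Lib.Helper27.RuP.card0
  refine ⟨H, ⟨?_, hcard⟩, htr, ?_, ?_⟩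
  · have := Cfsg.Agent.Lib.Helper27.RuP.simple0
    exact E.symm.isSimpleGroup
  · exact Cfsg.Agent.Lib.Helper27.PC.card_stab_fin H htr 0 145926144000 35942400 hcard (by norm_num) (by norm_num)
  · obtain ⟨T, ⟨f⟩⟩ := Cfsg.Agent.Lib.Helper27.PC.exists_sub _ _ Cfsg.Agent.Lib.Helper27.RuP.T_le
      Cfsg.Agent.Lib.Helper27.RuP.T_fix e
    refine ⟨T, ?_, ?_⟩
    · have := Cfsg.Agent.Lib.Helper27.RuP.simpleT
      exact f.isSimpleGroup
    · rw [Nat.card_congr f.toEquiv]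
      exact Cfsg.Agent.Lib.Helper27.RuP.cardT

end Cfsg.Agent.S0459
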