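import Cfsg.Statements.S0460
import Cfsg.Agent.Lib.Helper28.V2.ONSub
import Cfsg.Agent.Lib.Helper93.PermFin

set_option autoImplicit false
open Cfsg

namespace Cfsg.Agent.S0460

/-- The O'Nan group exists as a transitive permutation group of degree 122760: simple of order 460815505920, point stabiliser of order 3753792, and containing simple subgroups of orders 175560 and 7920. -/
theorem result : ∃ H : Subgroup (Equiv.Perm (Fin 122760)), Cfsg.IsON H ∧ MulAction.IsPretransitive H (Fin 122760) ∧ Nat.card (MulAction.stabilizer H (0 : Fin 122760)) = 3753792 ∧ (∃ K : Subgroup H, Cfsg.IsJ1 K) ∧ (∃ K : Subgroup H, Cfsg.IsM11 K) := by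
  have ok := Cfsg.Agent.Lib.Helper28.V2.ON122760.ok
  have main := Cfsg.Agent.Lib.Helper28.V2.ON122760.main
  obtain ⟨H, ⟨E⟩, htr, ⟨e⟩⟩ := Cfsg.Agent.Lib.Helper93.PermFin.exists_perm_group
    (Cfsg.Agent.Lib.Helper28.V2.Prob.phi ok) 122760
    (fun g c hc => Cfsg.Agent.Lib.Helper28.V2.Prob.OK.phi_lt ok g hc) (by norm_num) main.2.2
    (fun g c hc => Cfsg.Agent.Lib.Helper28.V2.Prob.OK.phi_ge ok g hc) ok.index.2.2.2.2
    (Cfsg.Agent.Lib.Helper28.V2.Prob.HS Cfsg.Agent.Lib.Helper28.V2.ON122760.Q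
      Cfsg.Agent.Lib.Helper28.V2.ON122760.S) (fun g => ⟨ok.index.2.2.2.1 g, ok.index.2.1 g⟩)
  obtain ⟨fJ, hfJ⟩ := Cfsg.Agent.Lib.Helper28.V2.ON122760.embedJ
  obtain ⟨fM, hfM⟩ := Cfsg.Agent.Lib.Helper28.V2.ON122760.embedM
  refine ⟨H, ⟨?_, ?_⟩, htr, ?_, ?_, ?_⟩
  · haveI := main.1
    exact E.symm.isSimpleGroup
  · rw [← Nat.card_congr E.toEquiv]
    exact main.2.1
  · rw [← Cfsg.Agent.Lib.Helper28.V2.ON122760.card_HS]
    exact (Nat.card_congr e.toEquiv).symm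
  · exact Cfsg.Agent.Lib.Helper28.exists_simple_subgroup_of_embedding
      Cfsg.Agent.Lib.Helper28.J1p266.main.1 175560 Cfsg.Agent.Lib.Helper28.J1p266.main.2.1 fJ hfJ E
  · exact Cfsg.Agent.Lib.Helper28.exists_simple_subgroup_of_embedding
      Cfsg.Agent.Lib.Helper28.M11p11.main.1 7920 Cfsg.Agent.Lib.Helper28.M11p11.main.2.1 fM hfM E

end Cfsg.Agent.S0460
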