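import Cfsg.Statements.S0462
import Cfsg.Agent.Lib.Helper93.Sp4.Iso
import Cfsg.Agent.Lib.Helper93.PermFin

set_option autoImplicit false
open Cfsg

namespace Cfsg.Agent.S0462

/-- The Held group exists as a transitive permutation group of degree 2058: simple of order 4030387200, with point stabiliser containing, with index 2, a copy of the 4-dimensional symplectic group over the field with four elements. -/
theorem result : ∃ H : Subgroup (Equiv.Perm (Fin 2058)), Cfsg.IsHe H ∧ MulAction.IsPretransitive H (Fin 2058) ∧ ∃ (F : Type) (_ : Field F) (_ : Fintype F), Fintype.card F = 4 ∧ ∃ N : Subgroup (MulAction.stabilizer H (0 : Fin 2058)), N.index = 2 ∧ Nonempty (N ≃* Matrix.symplecticGroup (Fin 2) F) := by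
  have ok := Cfsg.Agent.Lib.Helper28.He2058.ok
  have main := Cfsg.Agent.Lib.Helper28.He2058.main
  obtain ⟨H, ⟨E⟩, htr, ⟨e⟩⟩ := Cfsg.Agent.Lib.Helper93.PermFin.exists_perm_group
    (Cfsg.Agent.Lib.Helper28.Prob.phi ok) 2058
    (fun g c hc => Cfsg.Agent.Lib.Helper28.Prob.OK.phi_lt ok g hc) (by norm_num) main.2.2
    (fun g c hc => Cfsg.Agent.Lib.Helper28.Prob.OK.phi_ge ok g hc) ok.index.2.2.2.2
    Cfsg.Agent.Lib.Helper93.Sp4.H0 (fun g => ⟨ok.index.2.2.2.1 g, ok.index.2.1 g⟩)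
  refine ⟨H, ⟨?_, ?_⟩, htr, Cfsg.Agent.Lib.Helper93.Sp4.K4, inferInstance, inferInstance,
    Cfsg.Agent.Lib.Helper93.Sp4.K4.card_eq, ?_⟩
  · haveI := main.1
    exact E.symm.isSimpleGroup
  · rw [← Nat.card_congr E.toEquiv]
    exact main.2.1
  · exact Cfsg.Agent.Lib.Helper93.PermFin.exists_subgroup_of_equiv e Cfsg.Agent.Lib.Helper93.Sp4.N1 2
      Cfsg.Agent.Lib.Helper93.Sp4.N1_index Cfsg.Agent.Lib.Helper93.Sp4.N1_iso

end Cfsg.Agent.S0462
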