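import Cfsg.Statements.S0471
import Cfsg.Agent.Lib.Helper40.U6.Main

set_option autoImplicit false
open Cfsg

namespace Cfsg.Agent.S0471

open Cfsg.Agent.Lib.Helper40.PE

theorem isFi22 : Cfsg.IsFi22 Cfsg.Spor.Fi22 := by
  refine ⟨?_, F22M.card_eq⟩
  have := F22M.prim3510
  have : Nontrivial Cfsg.Spor.Fi22 := by
    have := F22M.fin
    apply (Finite.one_lt_card_iff_nontrivial).mp
    rw [F22M.card_eq]; norm_num
  exact MulAction.IwasawaStructure.isSimpleGroup F22M.perfect (iwasawa F22M.H_comm F22M.gen_conj)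
    (faithful_of_center F22M.H_comm F22M.gen_conj F22M.center_triv)

theorem widen (w : List ℕ) (h1 : ∀ k ∈ w, k < F22P14080.P.A)
    (h2 : allL (fun b => Nat.beq (F22P14080.P.walk w.reverse b)
      (F22P14080.P.walk ([] : List ℕ).reverse b)) F22P14080.base = true) : wp F22.s w = 1 :=
  F22M.word_eq w [] h1 (by simp) h2

theorem transp : ∀ d ∈ conjugatesOf (F22.s 8), ∀ e ∈ conjugatesOf (F22.s 8),
    (d * e) ^ 2 = 1 ∨ (d * e) ^ 3 = 1 := by
  obtain ⟨ρ, hρ⟩ := F22.exists_rho (p := F22P3510.P) rfl F22M.good3510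
  obtain ⟨hfix, hidx, hinj, hlt, t1, t2, m2⟩ := F22M.act3510 hρ
  have e1 : ρ (wp F22.s [5])⁻¹ 0 = 1 := by
    rw [PTab.rho_wp_inv F22M.good3510 hρ [5] (by decide) 0 (by decide), F22P3510.root1]
  have e2 : ρ (wp F22.s [5, 0, 8, 5])⁻¹ 0 = 2817 := by
    rw [PTab.rho_wp_inv F22M.good3510 hρ [5, 0, 8, 5] (by decide) 0 (by decide), F22P3510.root2]
  have hdc := dc_of_rank3 hfix hinj hlt t1 t2 e1 e2
  have e8 : F22.s 8 = wp F22.s [8] := by simp
  have h3 : (F22.s 8 * ((wp F22.s [5])⁻¹ * F22.s 8 * (wp F22.s [5])⁻¹⁻¹)) ^ 3 = 1 := by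
    rw [inv_inv, ← wp_reverse _ F22.s_inv, e8, ← wp_append, ← wp_append, ← wp_append,
      ← wp_flatten_replicate]
    exact widen _ (by decide +kernel) (by decide +kernel)
  have h2 : (F22.s 8 * ((wp F22.s [5, 0, 8, 5])⁻¹ * F22.s 8 * (wp F22.s [5, 0, 8, 5])⁻¹⁻¹)) ^ 2
      = 1 := by
    rw [inv_inv, ← wp_reverse _ F22.s_inv, e8, ← wp_append, ← wp_append, ← wp_append,
      ← wp_flatten_replicate]
    exact widen _ (by decide +kernel) (by decide +kernel)
  exact transp_of_dc F22M.H_comm (F22.s_inv 8) hdc h3 h2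

/-- The Fischer group of order 64561751654400 exists as a 3-transposition group: a simple group of that order generated by a conjugacy class of 3510 3-transpositions, the centraliser of each being a non-split double cover of PSU(6, 2). -/
theorem result : ∃ (G : Type) (_ : Group G) (_ : Finite G), Cfsg.IsFi22 G ∧ ∃ D : Set G, Cfsg.IsThreeTranspositionClass D ∧ Nat.card D = 3510 ∧ ∀ d ∈ D, ∃ (F : Type) (_ : Field F) (_ : Fintype F), Fintype.card F = 4 ∧ Cfsg.IsNonsplitDoubleCover (Subgroup.centralizer ({d} : Set G)) (Cfsg.PSU 6 F 2) := by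
  refine ⟨Cfsg.Spor.Fi22, inferInstance, F22M.fin, isFi22, conjugatesOf (F22.s 8),
    ⟨⟨?_, transp⟩, ⟨_, mem_conjugatesOf_self, rfl⟩, ?_⟩, ?_, ?_⟩
  · intro d hd
    obtain ⟨a, rfl⟩ := isConj_iff.mp (show IsConj (F22.s 8) d from hd)
    apply orderOf_eq_prime
    · rw [conj_pow, pow_two, F22.s_inv 8]; simp
    · intro h
      apply F22M.s8_ne_one
      calc F22.s 8 = a⁻¹ * (a * F22.s 8 * a⁻¹) * a := by group
        _ = 1 := by rw [h]; simp
  · rw [← F22M.gen_conj]
    apply le_antisymm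
    · apply Subgroup.closure_mono
      intro x hx
      obtain ⟨a, rfl⟩ := isConj_iff.mp (show IsConj (F22.s 8) x from hx)
      exact ⟨a, rfl⟩
    · apply Subgroup.closure_mono
      rintro _ ⟨a, rfl⟩
      exact isConj_iff.mpr ⟨a, rfl⟩
  · rw [card_conjugates F22M.H_comm F22M.centralizer_s8, F22M.index_H]
  · intro d hd
    obtain ⟨a, rfl⟩ := isConj_iff.mp (show IsConj (F22.s 8) d from hd)
    refine ⟨Cfsg.Agent.Lib.Helper40.U6.K4, inferInstance, inferInstance, rfl, ?_⟩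
    apply nonsplit_congr (centralizerConj a (F22.s 8))
    apply nonsplit_congr (MulEquiv.subgroupCongr F22M.centralizer_s8.symm)
    exact Cfsg.Agent.Lib.Helper40.U6.main

end Cfsg.Agent.S0471
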