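import Cfsg.Statements.S0478
import Cfsg.Agent.Lib.Helper56.J3Unitary

set_option autoImplicit false
open Cfsg

namespace Cfsg.Agent.S0478

open Cfsg.Agent.Lib.Helper56.J3 Cfsg.Spor

noncomputable def e9 : Fin 9 ≃ F9 := (Fintype.equivFinOfCardEq (by decide : Fintype.card F9 = 9)).symm

section
variable {F : Type} [Field F]

/-- the special unitary group as a group of matrices indexed by `F9` -/
noncomputable def psi (F : Type) [Field F] : Cfsg.SU 9 F 2 →* GL F9 F :=
  (Units.map ((Matrix.reindexAlgEquiv F F e9 : Matrix (Fin 9) (Fin 9) F ≃ₐ[F] Matrix F9 F9 F) :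
    Matrix (Fin 9) (Fin 9) F →* Matrix F9 F9 F)).comp
    (Matrix.SpecialLinearGroup.toGL.comp (Cfsg.SU 9 F 2).subtype)

theorem psi_val (s : Cfsg.SU 9 F 2) :
    (psi F s : Matrix F9 F9 F) = Matrix.reindex e9 e9 ((s : Matrix.SpecialLinearGroup (Fin 9) F) :
      Matrix (Fin 9) (Fin 9) F) := rfl

theorem psi_injective : Function.Injective (psi F) := by
  intro s t h
  have h1 := congrArg Units.val h
  rw [psi_val, psi_val] at h1
  exact Subtype.ext (Subtype.ext ((Matrix.reindex e9 e9).injective h1))

theorem mem_range_psi {g : GL F9 F} (hdet : Matrix.GeneralLinearGroup.det g = 1)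
    (hu : g ∈ GU9 F) : g ∈ (psi F).range := by
  let A : Matrix (Fin 9) (Fin 9) F := Matrix.reindex e9.symm e9.symm (g : Matrix F9 F9 F)
  have hA : A.det = 1 := by
    rw [Matrix.det_reindex_self]
    have := congrArg Units.val hdet
    simpa using this
  let s0 : Matrix.SpecialLinearGroup (Fin 9) F := ⟨A, hA⟩
  have hs : s0 ∈ Cfsg.SU 9 F 2 := by
    intro u v
    show Cfsg.hermForm 9 F 2 (A.mulVec u) (A.mulVec v) = Cfsg.hermForm 9 F 2 u v
    have hAm : ∀ x : Fin 9 → F, A.mulVec x = ((g : Matrix F9 F9 F).mulVec (x ∘ e9.symm)) ∘ e9 := by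
      intro x
      show ((g : Matrix F9 F9 F).submatrix e9 e9).mulVec x = _
      rw [Matrix.submatrix_mulVec_equiv]
    have h1 := hu (u ∘ e9.symm) (v ∘ e9.symm)
    have h2 : herm9 ((g : Matrix F9 F9 F).mulVec (u ∘ e9.symm))
        ((g : Matrix F9 F9 F).mulVec (v ∘ e9.symm)) = herm9 (u ∘ e9.symm) (v ∘ e9.symm) := h1
    rw [hAm, hAm]
    unfold Cfsg.hermForm
    unfold herm9 at h2
    rw [← Equiv.sum_comp e9, ← Equiv.sum_comp e9] at h2
    simpa using h2
  refine ⟨⟨s0, hs⟩, ?_⟩
  apply Units.ext
  rw [psi_val]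
  show Matrix.reindex e9 e9 (Matrix.reindex e9.symm e9.symm (g : Matrix F9 F9 F)) = _
  simp [Matrix.reindex_apply]

theorem map_center {G H : Type*} [Group G] [Group H] (e : G ≃* H) :
    (Subgroup.center G).map (e : G →* H) = Subgroup.center H := by
  ext x
  constructor
  · rintro ⟨y, hy, rfl⟩
    rw [Subgroup.mem_center_iff]
    intro g
    obtain ⟨g', rfl⟩ := e.surjective g
    have := Subgroup.mem_center_iff.1 hy g'
    show e g' * e y = e y * e g'
    rw [← map_mul, ← map_mul, this]
  · intro hx
    refine ⟨e.symm x, ?_, by simp⟩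
    rw [SetLike.mem_coe, Subgroup.mem_center_iff]
    intro g
    apply e.injective
    rw [map_mul, map_mul, e.apply_symm_apply]
    exact Subgroup.mem_center_iff.1 hx (e g)

theorem exists_omega [Fintype F] (hcard : Fintype.card F = 4) : ∃ ω : F, ω ^ 2 + ω + 1 = 0 := by
  classical
  obtain ⟨x, hx0, hx1⟩ : ∃ x : F, x ≠ 0 ∧ x ≠ 1 := by
    by_contra hcon
    push Not at hcon
    have hsub : (Finset.univ : Finset F) ⊆ {0, 1} := by
      intro x _
      by_cases h0 : x = 0
      · simp [h0]
      · simp [hcon x h0]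
    have := Finset.card_le_card hsub
    rw [Finset.card_univ, hcard] at this
    have h2 : ({0, 1} : Finset F).card ≤ 2 := Finset.card_le_two
    omega
  refine ⟨x, ?_⟩
  have h3 : x ^ 3 = 1 := by
    have := FiniteField.pow_card_sub_one_eq_one x hx0
    rwa [hcard] at this
  have h4 : (x - 1) * (x ^ 2 + x + 1) = 0 := by linear_combination h3
  rcases mul_eq_zero.1 h4 with h5 | h5
  · exact absurd (sub_eq_zero.1 h5) hx1
  · exact h5

theorem core [Fintype F] (hcard : Fintype.card F = 4) :
    ∃ H : Subgroup (Cfsg.SU 9 F 2), Nat.card (Subgroup.center H) = 3 ∧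
      Cfsg.IsJ3 (H ⧸ Subgroup.center H) := by
  obtain ⟨ω, hω⟩ := exists_omega hcard
  have h4 : Hyp4 ω := hyp4_of_card hcard hω
  obtain ⟨m1, -, m3, m4⟩ := main_KK h4
  set K := KK h4.toHyp with hK
  let H : Subgroup (Cfsg.SU 9 F 2) := K.comap (psi F)
  have hbij : Function.Bijective ((psi F).subgroupComap K) := by
    constructor
    · intro a b hab
      have : psi F a = psi F b := congrArg Subtype.val hab
      exact Subtype.ext (psi_injective this)
    · rintro ⟨g, hg⟩
      obtain ⟨s, hs⟩ := mem_range_psi (MonoidHom.mem_ker.1 (det_eq_one h4 hg))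
        (KK_le_GU9 h4.toHyp hg)
      exact ⟨⟨s, by show psi F s ∈ K; rw [hs]; exact hg⟩, Subtype.ext hs⟩
  let e : H ≃* K := MulEquiv.ofBijective ((psi F).subgroupComap K) hbij
  have hc : (Subgroup.center H).map (e : H →* K) = Subgroup.center K := map_center e
  let eq : H ⧸ Subgroup.center H ≃* K ⧸ Subgroup.center K :=
    QuotientGroup.congr (Subgroup.center H) (Subgroup.center K) e hc
  refine ⟨H, ?_, ?_, ?_⟩
  · rw [← m1, ← hc]
    exact (Nat.card_congr (Subgroup.equivMapOfInjective _ (e : H →* K) e.injective).toEquiv)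
  · exact eq.isSimpleGroup
  · rw [← m3]
    exact Nat.card_congr eq.toEquiv

end

/-- A triple cover of Janko's third group inside a unitary group: for a field F with four elements, the special unitary group of dimension 9 (with respect to the form with q = 2) has a subgroup whose centre has order 3 and whose quotient by its centre is simple of order 50232960. -/
theorem result : ∃ (F : Type) (_ : Field F) (_ : Fintype F), Fintype.card F = 4 ∧ ∃ H : Subgroup (Cfsg.SU 9 F 2), Nat.card (Subgroup.center H) = 3 ∧ Cfsg.IsJ3 (H ⧸ Subgroup.center H) := by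
  have hp : Fact (Nat.Prime 2) := ⟨Nat.prime_two⟩
  have hfin : Finite (GaloisField 2 2) := inferInstance
  let ft : Fintype (GaloisField 2 2) := Fintype.ofFinite _
  have hcard : Fintype.card (GaloisField 2 2) = 4 := by
    rw [← Nat.card_eq_fintype_card, GaloisField.card 2 2 (by norm_num)]
    norm_num
  exact ⟨GaloisField 2 2, inferInstance, ft, hcard, core hcard⟩

end Cfsg.Agent.S0478
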