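import Cfsg.Statements.S0481
import Cfsg.Agent.S0443
import Mathlib

set_option autoImplicit false
open Cfsg

namespace Cfsg.Agent.S0481

open scoped Pointwise

/-- Large extraspecial subgroups: let z be an involution of a finite group G whose centraliser C contains a normal 2-subgroup Q with centre of order 2 and all squares central, such that every element of G centralising Q lies in Q. Then C contains a Sylow 2-subgroup of G, and any involution of G whose centraliser contains a Sylow 2-subgroup of G is conjugate to z. -/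
theorem result {G : Type*} [Group G] [Finite G] (z : G) (hz : orderOf z = 2) (Q : Subgroup G) (hQC : Q ≤ Subgroup.centralizer ({z} : Set G)) (hQn : ∀ g ∈ Subgroup.centralizer ({z} : Set G), ∀ q ∈ Q, g * q * g⁻¹ ∈ Q) (hQ2 : IsPGroup 2 Q) (hZ : Nat.card (Subgroup.center Q) = 2) (hsq : ∀ x : Q, x ^ 2 ∈ Subgroup.center Q) (hlarge : Subgroup.centralizer (Q : Set G) ≤ Q) : (∃ P : Sylow 2 G, (P : Subgroup G) ≤ Subgroup.centralizer ({z} : Set G)) ∧ ∀ u : G, orderOf u = 2 → (∃ P : Sylow 2 G, (P : Subgroup G) ≤ Subgroup.centralizer ({u} : Set G)) → IsConj z u := by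
  have : Fact (Nat.Prime 2) := ⟨Nat.prime_two⟩
  have hz1 : z ≠ 1 := by
    rintro rfl; simp at hz
  have hzcomm : ∀ q ∈ Q, q * z = z * q := by
    intro q hq
    have := hQC hq
    rwa [Subgroup.mem_centralizer_singleton_iff] at this
  have hzQ : z ∈ Q := by
    apply hlarge
    rw [Subgroup.mem_centralizer_iff]
    intro q hq
    exact hzcomm q hq
  have hzc : (⟨z, hzQ⟩ : Q) ∈ Subgroup.center Q := by
    rw [Subgroup.mem_center_iff]
    rintro ⟨q, hq⟩
    exact Subtype.ext (hzcomm q hq)
  obtain ⟨y, hy1, hyu⟩ := (Nat.card_eq_two_iff' (1 : Subgroup.center Q)).mp hZ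
  have hzy : (⟨⟨z, hzQ⟩, hzc⟩ : Subgroup.center Q) = y := by
    apply hyu
    intro h
    apply hz1
    have := congrArg (fun t : Subgroup.center Q => ((t : Q) : G)) h
    simpa using this
  obtain ⟨P, hQP⟩ := hQ2.exists_le_sylow
  -- Claim A
  have claimA : ∀ x ∈ (P : Subgroup G), (∀ y ∈ (P : Subgroup G), y * x = x * y) → x = 1 ∨ x = z := by
    intro x _ hxc
    have hxQ : x ∈ Q := by
      apply hlarge
      rw [Subgroup.mem_centralizer_iff]
      intro q hq
      exact hxc q (hQP hq)
    have hxcen : (⟨x, hxQ⟩ : Q) ∈ Subgroup.center Q := by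
      rw [Subgroup.mem_center_iff]
      rintro ⟨q, hq⟩
      exact Subtype.ext (hxc q (hQP hq))
    by_cases hx1 : x = 1
    · exact Or.inl hx1
    · right
      have : (⟨⟨x, hxQ⟩, hxcen⟩ : Subgroup.center Q) = y := by
        apply hyu
        intro h
        apply hx1
        have := congrArg (fun t : Subgroup.center Q => ((t : Q) : G)) h
        simpa using this
      rw [← hzy] at this
      have := congrArg (fun t : Subgroup.center Q => ((t : Q) : G)) this
      simpa using this
  -- Claim B
  have : Nontrivial (P : Subgroup G) := by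
    refine ⟨⟨⟨z, hQP hzQ⟩, 1, ?_⟩⟩
    intro h
    exact hz1 (congrArg Subtype.val h)
  have := P.isPGroup'.center_nontrivial
  obtain ⟨c, hc⟩ := exists_ne (1 : Subgroup.center (P : Subgroup G))
  have hcz : ((c : (P : Subgroup G)) : G) = z := by
    have h1 := claimA ((c : (P : Subgroup G)) : G) (c : (P : Subgroup G)).2 (by
      intro y hy
      have := Subgroup.mem_center_iff.mp c.2 ⟨y, hy⟩
      exact congrArg Subtype.val this)
    rcases h1 with h1 | h1
    · exfalso; apply hc
      apply Subtype.ext; apply Subtype.ext; exact h1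
    · exact h1
  have hzP : ∀ y ∈ (P : Subgroup G), y * z = z * y := by
    intro y hy
    have := Subgroup.mem_center_iff.mp c.2 ⟨y, hy⟩
    rw [← hcz]
    exact congrArg Subtype.val this
  refine ⟨⟨P, ?_⟩, ?_⟩
  · intro y hy
    rw [Subgroup.mem_centralizer_singleton_iff]
    exact hzP y hy
  · intro u hu hPu
    obtain ⟨-, P'', huP, hucomm⟩ := (Cfsg.Agent.S0443.result u hu).mpr hPu
    obtain ⟨g, hg⟩ := MulAction.exists_smul_eq G P P''
    have hmem : ∀ x : G, x ∈ (P'' : Subgroup G) ↔ g⁻¹ * x * g ∈ (P : Subgroup G) := by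
      intro x
      rw [← hg, Sylow.coe_subgroup_smul, Subgroup.mem_pointwise_smul_iff_inv_smul_mem]
      simp [MulAut.smul_def]
    have hu1 : u ≠ 1 := by
      rintro rfl; simp at hu
    have h2 := claimA (g⁻¹ * u * g) ((hmem u).mp huP) (by
      intro y hy
      have hy' : g * y * g⁻¹ ∈ (P'' : Subgroup G) := by
        rw [hmem]
        have : g⁻¹ * (g * y * g⁻¹) * g = y := by group
        rwa [this]
      have := hucomm _ hy'
      calc y * (g⁻¹ * u * g) = g⁻¹ * ((g * y * g⁻¹) * u) * g := by group
        _ = g⁻¹ * (u * (g * y * g⁻¹)) * g := by rw [this]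
        _ = g⁻¹ * u * g * y := by group)
    rcases h2 with h2 | h2
    · exfalso; apply hu1
      calc u = g * (g⁻¹ * u * g) * g⁻¹ := by group
        _ = 1 := by rw [h2]; group
    · rw [isConj_iff]
      refine ⟨g, ?_⟩
      rw [← h2]; group

end Cfsg.Agent.S0481
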