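import Cfsg.Statements.S0496
import Cfsg.Agent.S0493
import Cfsg.Agent.Lib.Helper25.O496.Chunk0
import Cfsg.Agent.Lib.Helper25.O496.Chunk1
import Cfsg.Agent.Lib.Helper25.O496.Chunk2
import Cfsg.Agent.Lib.Helper25.O496.Chunk3
import Cfsg.Agent.Lib.Helper25.O496.Chunk4
import Cfsg.Agent.Lib.Helper25.O496.Chunk5
import Cfsg.Agent.Lib.Helper25.O496.Chunk6
import Cfsg.Agent.Lib.Helper25.O496.Chunk7
import Cfsg.Agent.Lib.Helper25.O496.Chunk8
import Cfsg.Agent.Lib.Helper25.O496.Chunk9
import Cfsg.Agent.Lib.Helper25.O496.O420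
import Cfsg.Agent.Lib.Helper25.O496.O612
import Cfsg.Agent.Lib.Helper25.O496.O756
import Cfsg.Agent.Lib.Helper25.O496.O840
import Cfsg.Agent.Lib.Helper25.O496.O900
import Cfsg.Agent.Lib.Helper25.O496.O924
import Cfsg.Agent.Lib.Helper25.O496.O960
import Cfsg.Agent.Lib.Helper74.O720.Main

set_option autoImplicit false
open Cfsg

namespace Cfsg.Agent.S0496

open Cfsg.Agent.Lib.Helper25.O496

/-- A non-abelian finite simple group of order at most 1092 has order 60, 168, 360, 504, 660 or 1092. -/
theorem result {G : Type*} [Group G] [Finite G] [IsSimpleGroup G]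
    (hG : ¬ IsMulCommutative G) (h : Nat.card G ≤ 1092) :
    Nat.card G = 60 ∨ Nat.card G = 168 ∨ Nat.card G = 360 ∨ Nat.card G = 504 ∨ Nat.card G = 660 ∨
      Nat.card G = 1092 := by
  by_cases h100 : Nat.card G ≤ 100
  · left
    refine Cfsg.Agent.S0493.result (G := G) ?_ h100
    intro hc
    apply hG
    let _ := hc.commGroup
    exact ⟨⟨fun a b => mul_comm a b⟩⟩
  · have hmem : Nat.card G ∈ ([168, 360, 420, 504, 612, 660, 720, 756, 840, 900, 924, 960, 1092] : List ℕ) := by
      have h1 : 101 ≤ Nat.card G := by omega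
      by_cases c0 : Nat.card G ≤ 200
      · exact chunk0 hG _ rfl h1 c0
      by_cases c1 : Nat.card G ≤ 300
      · exact chunk1 hG _ rfl (by omega) c1
      by_cases c2 : Nat.card G ≤ 400
      · exact chunk2 hG _ rfl (by omega) c2
      by_cases c3 : Nat.card G ≤ 500
      · exact chunk3 hG _ rfl (by omega) c3
      by_cases c4 : Nat.card G ≤ 600
      · exact chunk4 hG _ rfl (by omega) c4
      by_cases c5 : Nat.card G ≤ 700
      · exact chunk5 hG _ rfl (by omega) c5
      by_cases c6 : Nat.card G ≤ 800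
      · exact chunk6 hG _ rfl (by omega) c6
      by_cases c7 : Nat.card G ≤ 900
      · exact chunk7 hG _ rfl (by omega) c7
      by_cases c8 : Nat.card G ≤ 1000
      · exact chunk8 hG _ rfl (by omega) c8
      · exact chunk9 hG _ rfl (by omega) h
    simp only [List.mem_cons, List.not_mem_nil, or_false] at hmem
    rcases hmem with e | e | e | e | e | e | e | e | e | e | e | e | e
    · exact Or.inr (Or.inl e)
    · exact Or.inr (Or.inr (Or.inl e))
    · exact (no_420 e).elim
    · exact Or.inr (Or.inr (Or.inr (Or.inl e)))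
    · exact (no_612 e).elim
    · exact Or.inr (Or.inr (Or.inr (Or.inr (Or.inl e))))
    · exact (Cfsg.Agent.Lib.Helper74.O720.no_720 e).elim
    · exact (no_756 e).elim
    · exact (no_840 e).elim
    · exact (no_900 e).elim
    · exact (no_924 e).elim
    · exact (no_960 e).elim
    · exact Or.inr (Or.inr (Or.inr (Or.inr (Or.inr e))))

end Cfsg.Agent.S0496
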