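import Mathlib
import Cfsg.Statements.S0498
import Cfsg.Agent.Lib.Helper17.Basic
import Cfsg.Agent.Lib.Helper17.PSLLabel

set_option autoImplicit false
open Cfsg

namespace Cfsg.Agent.S0498

open Cfsg.Agent.Lib.Helper17

/-- A simple group of order 660, respectively 1092, is isomorphic to the projective special linear group of dimension 2
over the field with 11, respectively 13, elements. -/
theorem result {G : Type*} [Group G] [Finite G] [IsSimpleGroup G] (p : ℕ)
    (hp : p = 11 ∨ p = 13) (h : 2 * Nat.card G = p * (p ^ 2 - 1)) {F : Type*} [Field F] [Fintype F]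
    (hF : Fintype.card F = p) : Nonempty (G ≃* Matrix.ProjectiveSpecialLinearGroup (Fin 2) F) := by
  rcases hp with rfl | rfl
  · have h : Nat.card G = 660 := by omega
    have : Fact (Nat.Prime 11) := ⟨by norm_num⟩
    have hfac : Nat.card G = 11 ^ 1 * (5 * (11 + 1)) := by rw [h]; norm_num
    have hfac' : Nat.card G = 11 ^ 1 * 60 := by rw [h]; norm_num
    have h1 := mem_divisors_filter (by norm_num) (card_sylow_mem (p := 11) hfac' (by norm_num))
    rw [show (Nat.divisors 60).filter (fun d => d % 11 = 1) = {1, 12} by decide +kernel] at h1
    have h2 := card_sylow_ne_one (p := 11) hfac' (by norm_num) (by norm_num) (by norm_num)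
    have h3 : Nat.card (Sylow 11 G) = 11 + 1 := by
      simp only [Finset.mem_insert, Finset.mem_singleton] at h1
      rcases h1 with h1 | h1
      · exact absurd h1 h2
      · exact h1
    refine psl2_recognition 11 5 (by norm_num) (by norm_num) hF hfac h3 ?_
    intro _
    exact ⟨5, 1, by norm_num, by norm_num, by norm_num, by norm_num, by decide⟩
  · have h : Nat.card G = 1092 := by omega
    have : Fact (Nat.Prime 13) := ⟨by norm_num⟩
    have hfac : Nat.card G = 13 ^ 1 * (6 * (13 + 1)) := by rw [h]; norm_num
    have hfac' : Nat.card G = 13 ^ 1 * 84 := by rw [h]; norm_num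
    have h1 := mem_divisors_filter (by norm_num) (card_sylow_mem (p := 13) hfac' (by norm_num))
    rw [show (Nat.divisors 84).filter (fun d => d % 13 = 1) = {1, 14} by decide +kernel] at h1
    have h2 := card_sylow_ne_one (p := 13) hfac' (by norm_num) (by norm_num) (by norm_num)
    have h3 : Nat.card (Sylow 13 G) = 13 + 1 := by
      simp only [Finset.mem_insert, Finset.mem_singleton] at h1
      rcases h1 with h1 | h1
      · exact absurd h1 h2
      · exact h1
    refine psl2_recognition 13 6 (by norm_num) (by norm_num) hF hfac h3 ?_
    intro hodd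
    exact absurd hodd (by decide)

end Cfsg.Agent.S0498
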