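import Cfsg.Statements.S0502
import Cfsg.Agent.Lib.Helper9.KleinFour
import Cfsg.Agent.Lib.Helper9.Supersolvable5

set_option autoImplicit false
open Cfsg

namespace Cfsg.Agent.S0502

open Subgroup Cfsg.Agent.Lib.Helper9

/-- The adjacency relation of the commuting graph on four-subgroups. -/
def Adj {P : Type*} [Group P] (A B : Subgroup P) : Prop :=
  IsKleinFour A ∧ IsKleinFour B ∧ ∀ a ∈ A, ∀ b ∈ B, a * b = b * a

theorem Adj.symm {P : Type*} [Group P] {A B : Subgroup P} (h : Adj A B) : Adj B A :=
  ⟨h.2.1, h.1, fun a ha b hb => (h.2.2 b hb a ha).symm⟩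

theorem chain_symm {P : Type*} [Group P] {A B : Subgroup P} (h : Relation.ReflTransGen Adj A B) :
    Relation.ReflTransGen Adj B A := by
  induction h with
  | refl => exact .refl
  | tail _ h ih => exact Relation.ReflTransGen.head h.symm ih

open scoped IsMulCommutative in
/-- An involution acting on an elementary abelian 2-group `E` satisfies `|E| ≤ |C_E(u)|²`. -/
theorem card_le_sq_card_centralizer {P : Type*} [Group P] [Finite P] (E : Subgroup P) [E.Normal]
    (hE : IsMulCommutative E) (hE2 : ∀ e ∈ E, e ^ 2 = 1) (u : P) (hu : u ^ 2 = 1) :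
    Nat.card E ≤ Nat.card (E ⊓ centralizer {u} : Subgroup P) ^ 2 := by
  let c : MulAut E := MulAut.conjNormal u
  let φ : E →* E := MonoidHom.mk' (fun x => x * c x) (by
    intro a b
    change a * b * c (a * b) = a * c a * (b * c b)
    rw [map_mul, mul_mul_mul_comm])
  let C : Subgroup E := (centralizer {u}).subgroupOf E
  have hcc : ∀ x : E, c (c x) = x := by
    intro x
    apply Subtype.ext
    change ((MulAut.conjNormal u (MulAut.conjNormal u x) : E) : P) = x
    rw [MulAut.conjNormal_apply, MulAut.conjNormal_apply]
    have h1 : u * u = 1 := by rw [← sq]; exact hu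
    have h2 : u⁻¹ = u := inv_eq_of_mul_eq_one_left h1
    rw [h2]
    calc u * (u * x * u) * u = (u * u) * x * (u * u) := by group
      _ = x := by rw [h1]; group
  have hmemC : ∀ x : E, x ∈ C ↔ c x = x := by
    intro x
    change (x : P) ∈ centralizer {u} ↔ _
    rw [Subgroup.mem_centralizer_singleton_iff]
    constructor
    · intro h
      apply Subtype.ext
      change ((MulAut.conjNormal u x : E) : P) = x
      rw [MulAut.conjNormal_apply, ← h]; group
    · intro h
      have h1 := congrArg Subtype.val h
      change ((MulAut.conjNormal u x : E) : P) = x at h1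
      rw [MulAut.conjNormal_apply] at h1
      calc (x : P) * u = (u * x * u⁻¹) * u := by rw [h1]
        _ = u * x := by group
  have hinv : ∀ x : E, x⁻¹ = x := by
    intro x
    apply inv_eq_of_mul_eq_one_left
    apply Subtype.ext
    have := hE2 x x.2
    rw [sq] at this
    exact this
  have hker : φ.ker ≤ C := by
    intro x hx
    rw [hmemC]
    have h1 : x * c x = 1 := hx
    have h2 : c x = x⁻¹ := eq_inv_of_mul_eq_one_right h1
    rw [h2, hinv]
  have hrange : φ.range ≤ C := by
    rintro _ ⟨x, rfl⟩
    rw [hmemC]
    change c (x * c x) = x * c x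
    rw [map_mul, hcc, mul_comm]
  have h1 := Subgroup.card_mul_index φ.ker
  rw [Subgroup.index_ker] at h1
  have h2 : Nat.card C = Nat.card (E ⊓ centralizer {u} : Subgroup P) := by
    have h3 : C = (E ⊓ centralizer {u}).subgroupOf E := by
      change (centralizer {u}).subgroupOf E = _
      rw [inf_comm, Subgroup.inf_subgroupOf_right]
    rw [h3]
    exact Nat.card_congr (Subgroup.subgroupOfEquivOfLe inf_le_left).toEquiv
  rw [← h1, ← h2, sq]
  exact Nat.mul_le_mul (Subgroup.card_le_of_le hker) (Subgroup.card_le_of_le hrange)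

/-- If a finite 2-group has a normal elementary abelian subgroup of order at least 8, then any two of its Klein
four-subgroups are joined by a chain of Klein four-subgroups with consecutive members commuting elementwise. -/
theorem result {P : Type*} [Group P] [Finite P] (hP : IsPGroup 2 P)
    (E : Subgroup P) [E.Normal] (hE : IsMulCommutative E) (hE2 : ∀ e ∈ E, e ^ 2 = 1) (hE8 : 8 ≤ Nat.card E) :
    Cfsg.IsFourConnected P := by
  have : Fact (Nat.Prime 2) := ⟨Nat.prime_two⟩
  have hEne : E ≠ ⊥ := by
    rintro rfl
    rw [Subgroup.card_bot] at hE8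
    omega
  -- every four-group is joined to a four-subgroup of `E`
  have key : ∀ U : Subgroup P, IsKleinFour U →
      ∃ B : Subgroup P, B ≤ E ∧ IsKleinFour B ∧ Relation.ReflTransGen Adj U B := by
    intro U hU
    obtain ⟨e, heE, he1, hfix⟩ := exists_fixed_of_normal_pgroup 2 U E (hP.to_subgroup U)
      (hP.to_subgroup E) hEne
    have heU : ∀ u ∈ U, u * e = e * u := by
      intro u hu
      calc u * e = (u * e * u⁻¹) * u := by group
        _ = e * u := by rw [hfix u hu]
    obtain ⟨u, huU, hu1, hue⟩ := exists_mem_ne_one_ne (U := U) (by rw [hU.card_four]; norm_num) e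
    have hu2 : u ^ 2 = 1 := IsKleinFour.sq_eq_one hU huU
    have he2 : e ^ 2 = 1 := hE2 e heE
    have hA : IsKleinFour (closure ({u, e} : Set P)) :=
      isKleinFour_closure_pair hu1 he1 hue hu2 he2 (heU u huU)
    have hcard := card_le_sq_card_centralizer E hE hE2 u hu2
    have h3 : 3 ≤ Nat.card (E ⊓ centralizer {u} : Subgroup P) := by
      by_contra hlt
      have h4 : Nat.card (E ⊓ centralizer {u} : Subgroup P) ≤ 2 := by omega
      have h5 : Nat.card (E ⊓ centralizer {u} : Subgroup P) ^ 2 ≤ 2 ^ 2 := Nat.pow_le_pow_left h4 2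
      omega
    obtain ⟨e', he', he'1, he'e⟩ := exists_mem_ne_one_ne h3 e
    have he'E : e' ∈ E := he'.1
    have he'u : e' * u = u * e' := Subgroup.mem_centralizer_singleton_iff.mp he'.2
    have hee' : e * e' = e' * e := setLike_mul_comm heE he'E
    have hB : IsKleinFour (closure ({e, e'} : Set P)) :=
      isKleinFour_closure_pair he1 he'1 (Ne.symm he'e) he2 (hE2 e' he'E) hee'
    refine ⟨closure ({e, e'} : Set P), ?_, hB, ?_⟩
    · rw [closure_le]
      rintro x (rfl | rfl)
      · exact heE
      · exact he'E
    · have h1 : Adj U (closure ({u, e} : Set P)) := by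
        refine ⟨hU, hA, ?_⟩
        intro a ha b hb
        have := commute_of_mem_closure (S := (U : Set P)) (T := {u, e}) (by
          rintro a ha b (rfl | rfl)
          · exact IsKleinFour.comm hU ha huU
          · exact heU a ha) a (subset_closure ha) b hb
        exact this
      have h2 : Adj (closure ({u, e} : Set P)) (closure ({e, e'} : Set P)) := by
        refine ⟨hA, hB, ?_⟩
        apply commute_of_mem_closure
        rintro a (rfl | rfl) b (rfl | rfl)
        · exact heU a huU
        · exact he'u.symm
        · rfl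
        · exact hee'
      exact (Relation.ReflTransGen.single h1).tail h2
  intro U V hU hV
  obtain ⟨B, hBE, hB, hUB⟩ := key U hU
  obtain ⟨B', hB'E, hB', hVB'⟩ := key V hV
  have hBB' : Adj B B' := ⟨hB, hB', fun a ha b hb => setLike_mul_comm (hBE ha) (hB'E hb)⟩
  exact (hUB.tail hBB').trans (chain_symm hVB')

end Cfsg.Agent.S0502
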