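import Cfsg.Statements.S0505
import Cfsg.Agent.Lib.Helper9.PPrimeCoreOf
import Cfsg.Agent.Lib.Helper47.AxB
import Cfsg.Agent.Lib.Helper1.Tools
import Cfsg.Agent.S0017
import Cfsg.Agent.S0028

set_option autoImplicit false
open Cfsg

namespace Cfsg.Agent.S0505


open Subgroup Cfsg.Agent.Lib.Helper47 Cfsg.Agent.Lib.Helper9

/-- Let G be a finite group of even order in which the centralizer of every involution is solvable and has trivial
core (no nontrivial normal subgroup of odd order). Then G is of characteristic 2 type. -/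
theorem result {G : Type*} [Group G] [Finite G]
    (h2 : Even (Nat.card G))
    (hs : ∀ t : G, orderOf t = 2 → Group.IsSolvable (Subgroup.centralizer ({t} : Set G)))
    (hc : ∀ t : G, orderOf t = 2 → Cfsg.oddCore (Subgroup.centralizer ({t} : Set G)) = ⊥) :
    Cfsg.IsCharacteristicTwoType G := by
  refine ⟨h2, fun T hT hTne => ?_⟩
  unfold IsOfCharacteristicTwo
  rw [Cfsg.Agent.Lib.Helper47.charP_iff]
  have : Fact (Nat.Prime 2) := ⟨Nat.prime_two⟩
  set N := normalizer (T : Set G) with hN
  set Q := pCoreOf 2 N with hQ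
  have hTQ : T ≤ Q := le_pCoreOf le_normalizer le_rfl hT
  have hQne : Q ≠ ⊥ := fun h => hTne (le_bot_iff.mp (h ▸ hTQ))
  have hQ2 : IsPGroup 2 Q := pCoreOf_isPGroup N
  have hZ := center_ne_bot hQ2 hQne
  obtain ⟨t, htZ, ht⟩ : ∃ t ∈ Q ⊓ centralizer (Q : Set G), orderOf t = 2 := by
    have hZ2 : IsPGroup 2 (Q ⊓ centralizer (Q : Set G) : Subgroup G) := hQ2.to_inf_left
    have hdvd : 2 ∣ Nat.card (Q ⊓ centralizer (Q : Set G) : Subgroup G) := by
      rcases hZ2.card_eq_or_dvd with h | h
      · exact absurd (Subgroup.card_eq_one.mp h) hZ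
      · exact h
    obtain ⟨z, hz⟩ := exists_prime_orderOf_dvd_card' 2 hdvd
    exact ⟨z, z.2, by rwa [Subgroup.orderOf_coe]⟩
  set K := centralizer (Q : Set G) with hK
  set C := centralizer ({t} : Set G) with hC
  have hKC : K ≤ C := centralizer_le (by simpa using htZ.1)
  have hQC : Q ≤ C := by
    intro q hq
    rw [hC, mem_centralizer_singleton_iff]
    exact ((mem_centralizer_iff.mp htZ.2) q hq)
  have hCsol : Group.IsSolvable C := hs t ht
  have hKsol : Group.IsSolvable K := Cfsg.Agent.Lib.Helper1.isSolvable_of_le hKC hCsol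
  have hNQ : N ≤ normalizer (Q : Set G) := le_normalizer_pCoreOf N
  have hNK : N ≤ normalizer (K : Set G) := by
    intro g hg
    apply mem_normalizer_of_cj_eq
    rw [hK, cj_centralizer, cj_eq_self_of_mem_normalizer (hNQ hg)]
  have hKN : K ≤ N := (centralizer_le (by exact_mod_cast hTQ)).trans (centralizer_le_normalizer _)
  set D := pPrimeCoreOf 2 K with hD
  set R := pCoreOf 2 C with hR
  have hDK : D ≤ K := pPrimeCoreOf_le K
  have hDodd : (Nat.card D).Coprime 2 := card_pPrimeCoreOf_coprime K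
  have hR2 : IsPGroup 2 R := pCoreOf_isPGroup C
  have hCR : C ≤ normalizer (R : Set G) := le_normalizer_pCoreOf C
  have hchC : C ⊓ centralizer (R : Set G) ≤ R := by
    rw [hR, ← Cfsg.Agent.Lib.Helper47.charP_iff]
    exact Cfsg.Agent.S0017.result 2 (hc t ht)
  have hDR : D ≤ centralizer (R : Set G) := by
    apply Cfsg.Agent.S0028.result 2 Q D R hQ2 hDodd hR2
    · exact le_centralizer_iff.mp hDK
    · exact hQC.trans hCR
    · exact (hDK.trans hKC).trans hCR
    · apply le_centralizer_of_normalize_of_inf_eq_bot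
      · exact inf_le_right.trans (le_normalizer_pPrimeCoreOf K)
      · intro d hd
        apply mem_normalizer_of_cj_eq
        rw [cj_inf, cj_eq_self_of_mem_normalizer (hCR (hKC (hDK hd))), cj_eq_self_of_mem (hDK hd)]
      · exact inf_eq_bot_of_isPGroup_of_coprime hR2.to_inf_left hDodd
  have hDbot : D = ⊥ := by
    rw [← le_bot_iff, ← inf_eq_bot_of_isPGroup_of_coprime hR2 hDodd]
    exact le_inf ((le_inf (hDK.trans hKC) hDR).trans hchC) le_rfl
  have hchK : K ⊓ centralizer (pCoreOf 2 K : Set G) ≤ pCoreOf 2 K := by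
    rw [← Cfsg.Agent.Lib.Helper47.charP_iff]
    exact Cfsg.Agent.S0017.result 2 (pPrimeCore_eq_bot_iff_pPrimeCoreOf.mpr hDbot)
  have hOKQ : pCoreOf 2 K ≤ Q := pCoreOf_le_pCoreOf_of_normal hKN hNK
  have hK1 : K ≤ centralizer (pCoreOf 2 K : Set G) := centralizer_le (by exact_mod_cast hOKQ)
  exact inf_le_right.trans (((le_inf le_rfl hK1).trans hchK).trans hOKQ)

end Cfsg.Agent.S0505
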