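import Cfsg.Statements.S0520
import Cfsg.Agent.S0502
import Cfsg.Agent.Lib.Helper49.Conj

set_option autoImplicit false
open Cfsg

namespace Cfsg.Agent.S0520

open Subgroup Cfsg.Agent.Lib.Helper49 Cfsg.Agent.Lib.Helper9 Cfsg.Agent.S0502

theorem kf_of_equiv {A B : Type*} [Group A] [Group B] (e : A ≃* B) (h : IsKleinFour A) :
    IsKleinFour B :=
  ⟨by rw [← Nat.card_congr e.toEquiv]; exact h.card_four,
   by rw [← Monoid.exponent_eq_of_mulEquiv e]; exact h.exponent_two⟩

variable {G : Type*} [Group G]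

theorem kf_cj (g : G) {U : Subgroup G} (h : IsKleinFour U) : IsKleinFour (cj g U) :=
  kf_of_equiv (U.equivMapOfInjective _ (MulAut.conj g).injective) h

theorem kf_isPGroup {U : Subgroup G} (h : IsKleinFour U) : IsPGroup 2 U :=
  IsPGroup.of_card (n := 2) (by rw [h.card_four]; norm_num)

/-- `Q` contains a four-group. -/
def HasFour (Q : Subgroup G) : Prop := ∃ V : Subgroup G, V ≤ Q ∧ IsKleinFour V

theorem exists_kf_of_not_rank {X : Type*} [Group X] [Finite X] (h : ¬ Cfsg.PRankLE 2 1 X) :
    ∃ V : Subgroup X, IsKleinFour V := by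
  unfold Cfsg.PRankLE at h
  push Not at h
  obtain ⟨A, hc, he, hcard⟩ := h
  obtain ⟨x, hx, hx1, -⟩ := exists_mem_ne_one_ne (U := A) (by omega) 1
  obtain ⟨y, hy, hy1, hyx⟩ := exists_mem_ne_one_ne (U := A) (by omega) x
  exact ⟨_, isKleinFour_closure_pair hx1 hy1 hyx.symm (he x hx) (he y hy) (setLike_mul_comm hx hy)⟩

theorem not_rank_of_kf {X : Type*} [Group X] {V : Subgroup X} (hV : IsKleinFour V) :
    ¬ Cfsg.PRankLE 2 1 X := by
  intro h
  have := h V IsKleinFour.isMulCommutative (fun a ha => IsKleinFour.sq_eq_one hV ha)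
  rw [hV.card_four] at this
  omega

theorem hasFour_iff [Finite G] {Q : Subgroup G} : ¬ Cfsg.PRankLE 2 1 Q ↔ HasFour Q := by
  constructor
  · intro h
    obtain ⟨V, hV⟩ := exists_kf_of_not_rank h
    refine ⟨V.map Q.subtype, ?_, kf_of_equiv (V.equivMapOfInjective _ Q.subtype_injective) hV⟩
    rintro _ ⟨v, -, rfl⟩
    exact v.2
  · rintro ⟨V, hVQ, hV⟩
    exact not_rank_of_kf (V := V.subgroupOf Q) (kf_of_equiv (subgroupOfEquivOfLe hVQ).symm hV)

theorem HasFour.mono {Q R : Subgroup G} (h : HasFour Q) (hQR : Q ≤ R) : HasFour R := by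
  obtain ⟨V, hV, hk⟩ := h
  exact ⟨V, hV.trans hQR, hk⟩

theorem HasFour.cj {Q : Subgroup G} (h : HasFour Q) (g : G) : HasFour (Cfsg.Agent.Lib.Helper49.cj g Q) := by
  obtain ⟨V, hV, hk⟩ := h
  exact ⟨_, cj_mono g hV, kf_cj g hk⟩

theorem chain_cj (g : G) {A B : Subgroup G} (h : Relation.ReflTransGen Adj A B) :
    Relation.ReflTransGen Adj (cj g A) (cj g B) := by
  refine Relation.ReflTransGen.lift (cj g) ?_ _ _ h
  rintro A B ⟨hA, hB, hc⟩
  refine ⟨kf_cj g hA, kf_cj g hB, ?_⟩
  rintro _ ⟨a, ha, rfl⟩ _ ⟨b, hb, rfl⟩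
  simp only [MulEquiv.coe_toMonoidHom, ← map_mul, hc a ha b hb]

theorem chain_in {S : Subgroup G} (hS : Cfsg.IsFourConnected S) {U V : Subgroup G} (hUS : U ≤ S)
    (hVS : V ≤ S) (hU : IsKleinFour U) (hV : IsKleinFour V) : Relation.ReflTransGen Adj U V := by
  have h := hS (U.subgroupOf S) (V.subgroupOf S) (kf_of_equiv (subgroupOfEquivOfLe hUS).symm hU)
    (kf_of_equiv (subgroupOfEquivOfLe hVS).symm hV)
  have h2 := Relation.ReflTransGen.lift (p := Adj (P := G)) (fun A : Subgroup S => A.map S.subtype)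
    (by
      rintro A B ⟨hA, hB, hc⟩
      refine ⟨kf_of_equiv (A.equivMapOfInjective _ S.subtype_injective) hA,
        kf_of_equiv (B.equivMapOfInjective _ S.subtype_injective) hB, ?_⟩
      rintro _ ⟨a, ha, rfl⟩ _ ⟨b, hb, rfl⟩
      exact congrArg Subtype.val (hc a ha b hb)) _ _ h
  have h3 : Relation.ReflTransGen Adj ((U.subgroupOf S).map S.subtype)
      ((V.subgroupOf S).map S.subtype) := h2
  rwa [subgroupOf_map_subtype, subgroupOf_map_subtype, inf_eq_left.2 hUS, inf_eq_left.2 hVS] at h3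

section main

variable [Finite G] (S : Sylow 2 G) (M : Subgroup G)

theorem sylow_conj (hSM : (S : Subgroup G) ≤ M) {D : Subgroup G} (hD : IsPGroup 2 D)
    (hDM : D ≤ M) : ∃ m ∈ M, cj m D ≤ (S : Subgroup G) := by
  have : Fact (Nat.Prime 2) := ⟨Nat.prime_two⟩
  obtain ⟨P, hP, hDP⟩ := exists_sylIn_ge hD hDM
  have hS : SylIn 2 (S : Subgroup G) M := (sylIn_top_sylow S).of_le hSM le_top
  obtain ⟨x, hx, hxP⟩ := hP.exists_conj hS
  exact ⟨x, hx, hxP ▸ cj_mono x hDP⟩

variable (hM : ∀ Q : Subgroup G, Q ≤ (S : Subgroup G) → HasFour Q → normalizer (Q : Set G) ≤ M)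

include hM in
theorem control (hS4 : HasFour (S : Subgroup G)) : ∀ (n : ℕ) (Q : Subgroup G), Q ≤ (S : Subgroup G) →
    HasFour Q → Nat.card (S : Subgroup G) - Nat.card Q = n → ∀ x : G, cj x Q ≤ (S : Subgroup G) →
    x ∈ M := by
  have : Fact (Nat.Prime 2) := ⟨Nat.prime_two⟩
  have hSM : (S : Subgroup G) ≤ M := le_normalizer.trans (hM _ le_rfl hS4)
  intro n
  induction n using Nat.strong_induction_on with
  | _ n ih =>
    intro Q hQS hQ4 hn x hx
    by_cases hQeq : Q = (S : Subgroup G)
    · subst hQeq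
      have : cj x (S : Subgroup G) = (S : Subgroup G) :=
        Subgroup.eq_of_le_of_card_ge hx (by rw [card_cj])
      exact hM _ le_rfl hS4 (cj_eq_iff_mem_normalizer.1 this)
    · have hlt := exists_mem_normalizer_not_mem S.isPGroup' hQS hQeq
      set R := (S : Subgroup G) ⊓ normalizer (Q : Set G) with hR
      have hRS : R ≤ (S : Subgroup G) := inf_le_left
      have hR2 : IsPGroup 2 R := S.isPGroup'.to_le hRS
      have h1 : cj x R ≤ M := by
        refine le_trans ?_ (hM (cj x Q) hx (hQ4.cj x))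
        rw [normalizer_cj]
        exact cj_mono x inf_le_right
      obtain ⟨m, hm, hmS⟩ := sylow_conj S M hSM (isPGroup_cj x hR2) h1
      rw [cj_cj] at hmS
      have hcard : Nat.card Q < Nat.card R := by
        have := Set.ncard_lt_ncard (s := (Q : Set G)) (t := (R : Set G)) hlt (Set.toFinite _)
        exact this
      have hcard2 : Nat.card R ≤ Nat.card (S : Subgroup G) := Subgroup.card_le_of_le hRS
      have := ih (Nat.card (S : Subgroup G) - Nat.card R) (by omega) R hRS (hQ4.mono hlt.le) rfl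
        (m * x) hmS
      have e : x = m⁻¹ * (m * x) := by group
      rw [e]
      exact M.mul_mem (M.inv_mem hm) this

include hM in
theorem chain_conj (hS4 : HasFour (S : Subgroup G)) {U : Subgroup G} (hU : U ≤ (S : Subgroup G))
    {B : Subgroup G} (h : Relation.ReflTransGen Adj U B) : ∃ m ∈ M, cj m B ≤ (S : Subgroup G) := by
  have hSM : (S : Subgroup G) ≤ M := le_normalizer.trans (hM _ le_rfl hS4)
  induction h with
  | refl => exact ⟨1, M.one_mem, by rw [cj_one]; exact hU⟩
  | @tail B C _ hadj ih =>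
    obtain ⟨m, hm, hmB⟩ := ih
    obtain ⟨hB, hC, hc⟩ := hadj
    have h1 : normalizer (cj m B : Set G) ≤ M := hM _ hmB ⟨_, le_rfl, kf_cj m hB⟩
    have h2 : C ≤ normalizer (B : Set G) := by
      intro c hcC
      rw [mem_normalizer_iff]
      intro b
      constructor
      · intro hb
        rw [← hc b hb c hcC, mul_inv_cancel_right]
        exact hb
      · intro hb
        have := hc _ hb c hcC
        rw [inv_mul_cancel_right] at this
        have e : b = c * b * c⁻¹ := mul_left_cancel this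
        rw [e]
        exact hb
    have h3 : C ≤ M := by
      intro c hcC
      have h4 : m * c * m⁻¹ ∈ normalizer (cj m B : Set G) := by
        rw [normalizer_cj]
        exact conj_mem_cj m (h2 hcC)
      have h5 := h1 h4
      have e : c = m⁻¹ * (m * c * m⁻¹) * m := by group
      rw [e]
      exact M.mul_mem (M.mul_mem (M.inv_mem hm) h5) hm
    exact sylow_conj S M hSM (kf_isPGroup hC) h3

end main

/-- Let G be a finite group of 2-rank at least 2 and S a Sylow 2-subgroup whose commuting graph of Klein four-subgroups is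
connected. Then the commuting graph of Klein four-subgroups of G is disconnected if and only if the 2-generated core — the
subgroup generated by the normalizers N_G(Q) of the subgroups Q of S that contain a Klein four-group — is a proper
subgroup of G. -/
theorem result {G : Type*} [Group G] [Finite G] (h2 : ¬ Cfsg.PRankLE 2 1 G)
    (S : Sylow 2 G) (hS : Cfsg.IsFourConnected (S : Subgroup G)) :
    ¬ Cfsg.IsFourConnected G ↔
      (⨆ Q : {Q : Subgroup G // Q ≤ (S : Subgroup G) ∧ ¬ Cfsg.PRankLE 2 1 Q},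
          Subgroup.normalizer ((Q : Subgroup G) : Set G)) ≠ ⊤ := by
  set M := (⨆ Q : {Q : Subgroup G // Q ≤ (S : Subgroup G) ∧ ¬ Cfsg.PRankLE 2 1 Q},
          Subgroup.normalizer ((Q : Subgroup G) : Set G)) with hMdef
  have hM : ∀ Q : Subgroup G, Q ≤ (S : Subgroup G) → HasFour Q → normalizer (Q : Set G) ≤ M := by
    intro Q hQ h4
    exact le_iSup (fun Q : {Q : Subgroup G // Q ≤ (S : Subgroup G) ∧ ¬ Cfsg.PRankLE 2 1 Q} =>
      Subgroup.normalizer ((Q : Subgroup G) : Set G)) ⟨Q, hQ, hasFour_iff.2 h4⟩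
  obtain ⟨V₀, hV₀⟩ := exists_kf_of_not_rank h2
  obtain ⟨a₀, -, ha₀⟩ := sylow_conj S ⊤ le_top (kf_isPGroup hV₀) le_top
  set U := cj a₀ V₀ with hU
  have hUk : IsKleinFour U := kf_cj a₀ hV₀
  have hS4 : HasFour (S : Subgroup G) := ⟨U, ha₀, hUk⟩
  rw [not_iff_comm, not_not]
  constructor
  · intro hMtop A B hA hB
    -- the stabiliser of the component of `U`
    let H : Subgroup G :=
      { carrier := {g | Relation.ReflTransGen Adj (cj g U) U}
        one_mem' := by
          change Relation.ReflTransGen Adj (cj 1 U) U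
          rw [cj_one]
        mul_mem' := by
          intro g h hg hh
          change Relation.ReflTransGen Adj (cj (g * h) U) U
          rw [← cj_cj]
          exact (chain_cj g hh).trans hg
        inv_mem' := by
          intro g hg
          change Relation.ReflTransGen Adj (cj g⁻¹ U) U
          have := chain_cj g⁻¹ hg
          rw [cj_inv_cj] at this
          exact chain_symm this }
    have hMH : M ≤ H := by
      rw [hMdef]
      apply iSup_le
      rintro ⟨Q, hQS, hQr⟩ g hg
      obtain ⟨V, hVQ, hV⟩ := hasFour_iff.1 hQr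
      change Relation.ReflTransGen Adj (cj g U) U
      have h1 : cj g V ≤ (S : Subgroup G) := by
        refine le_trans ?_ hQS
        have := cj_mono g hVQ
        rwa [cj_eq_iff_mem_normalizer.2 hg] at this
      have h2 : Relation.ReflTransGen Adj (cj g U) (cj g V) :=
        chain_cj g (chain_in hS ha₀ (hVQ.trans hQS) hUk hV)
      exact h2.trans (chain_in hS h1 ha₀ (kf_cj g hV) hUk)
    have hH : ∀ g : G, Relation.ReflTransGen Adj (cj g U) U := by
      intro g
      have : g ∈ H := hMH (hMtop ▸ Subgroup.mem_top g)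
      exact this
    have key : ∀ A : Subgroup G, IsKleinFour A → Relation.ReflTransGen Adj A U := by
      intro A hA
      obtain ⟨a, -, ha⟩ := sylow_conj S ⊤ le_top (kf_isPGroup hA) le_top
      have h1 := chain_cj a⁻¹ (chain_in hS ha ha₀ (kf_cj a hA) hUk)
      rw [cj_inv_cj] at h1
      exact h1.trans (hH a⁻¹)
    exact (key A hA).trans (chain_symm (key B hB))
  · intro hconn
    rw [eq_top_iff]
    intro g _
    have hch : Relation.ReflTransGen Adj U (cj g U) := hconn U (cj g U) hUk (kf_cj g hUk)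
    obtain ⟨m, hm, hmS⟩ := chain_conj S M hM hS4 ha₀ hch
    rw [cj_cj] at hmS
    have := control S M hM hS4 _ U ha₀ ⟨U, le_rfl, hUk⟩ rfl (m * g) hmS
    have e : g = m⁻¹ * (m * g) := by group
    rw [e]
    exact M.mul_mem (M.inv_mem hm) this

end Cfsg.Agent.S0520
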