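import Cfsg.Statements.S0521
import Cfsg.Agent.Lib.Helper34.PStable2
import Cfsg.Agent.Lib.Helper30.FrattiniCentral
import Cfsg.Agent.Lib.Helper2.PGroupFrattini
import Cfsg.Agent.Lib.Helper9.PConstrained2

set_option autoImplicit false
open Cfsg

namespace Cfsg.Agent.S0521

open Cfsg.Agent.Lib.Lead Cfsg.Agent.Lib.Helper34
open scoped commutatorElement

/-- a `p`-element normalizing the cyclic `p`-group `⟨c⟩` raises `c` to a power `≡ 1 mod p`. -/
theorem exists_pow_conj {Y : Type*} [Group Y] [Finite Y] {p : ℕ} [Fact p.Prime] (x c : Y)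
    (hx : ∃ k : ℕ, x ^ (p ^ k) = 1) (hcp : ∃ k : ℕ, c ^ (p ^ k) = 1) (hc1 : c ≠ 1)
    (hxc : x * c * x⁻¹ ∈ Subgroup.zpowers c) :
    ∃ t : ℕ, x * c * x⁻¹ = c ^ (1 + p * t) := by
  have hpp : p.Prime := Fact.out
  rw [← mem_powers_iff_mem_zpowers] at hxc
  obtain ⟨m, hm⟩ := hxc
  have hm' : x * c * x⁻¹ = c ^ m := hm.symm
  have hiter : ∀ j : ℕ, x ^ j * c * (x ^ j)⁻¹ = c ^ (m ^ j) := by
    intro j
    induction j with
    | zero => simp
    | succ j ih =>
      calc x ^ (j + 1) * c * (x ^ (j + 1))⁻¹ = x * (x ^ j * c * (x ^ j)⁻¹) * x⁻¹ := by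
            rw [pow_succ']; group
        _ = (x * c * x⁻¹) ^ (m ^ j) := by rw [ih, conj_pow]
        _ = c ^ (m ^ (j + 1)) := by rw [hm', ← pow_mul, pow_succ']
  obtain ⟨k, hk⟩ := hx
  have h1 := hiter (p ^ k)
  rw [hk] at h1
  have h2 : c ^ (m ^ (p ^ k)) = c ^ 1 := by rw [← h1]; simp
  rw [pow_eq_pow_iff_modEq] at h2
  have hpd : p ∣ orderOf c := by
    obtain ⟨j, hj⟩ := hcp
    obtain ⟨i, _, hi⟩ := (Nat.dvd_prime_pow hpp).mp (orderOf_dvd_of_pow_eq_one hj)
    rcases Nat.eq_zero_or_pos i with rfl | hpos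
    · rw [pow_zero] at hi
      exact absurd (orderOf_eq_one_iff.mp hi) hc1
    · rw [hi]; exact dvd_pow_self p hpos.ne'
  have h3 : m ^ (p ^ k) ≡ 1 [MOD p] := h2.of_dvd hpd
  have h4 : ((m : ℕ) : ZMod p) = 1 := by
    have := (ZMod.natCast_eq_natCast_iff _ _ _).mpr h3
    push_cast at this
    rwa [ZMod.pow_card_pow] at this
  have h5 : m ≡ 1 [MOD p] := by
    apply (ZMod.natCast_eq_natCast_iff _ _ _).mp
    rw [h4]; simp
  have h6 : m % p = 1 := by
    have := h5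
    unfold Nat.ModEq at this
    rwa [Nat.mod_eq_of_lt hpp.one_lt] at this
  refine ⟨m / p, ?_⟩
  rw [hm']
  congr 1
  have := Nat.div_add_mod m p
  omega

theorem lemA {Y : Type*} [Group Y] [Finite Y] (hodd : Odd (Nat.card Y)) {p : ℕ} [Fact p.Prime]
    (hp2 : p ≠ 2)
    (hC : Subgroup.centralizer (pCore p Y : Set Y) ≤ pCore p Y)
    (S : Subgroup Y) (hSp : IsPGroup p S) (hQS : pCore p Y ≤ S) (c : Y)
    (hc : ⁅S, S⁆ = Subgroup.zpowers c) :
    S ≤ pCore p Y := by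
  intro x hx
  have hQp : IsPGroup p (pCore p Y) := pCore_isPGroup p Y
  obtain ⟨Φ, hΦ⟩ : ∃ Φ, Φ = (frattini ↥(pCore p Y)).map (pCore p Y).subtype := ⟨_, rfl⟩
  have hΦn : Φ.Normal := hΦ ▸ normal_map_subtype_of_characteristic (pCore p Y) (frattini ↥(pCore p Y))
  have hpowΦ : ∀ w ∈ pCore p Y, w ^ p ∈ Φ := by
    intro w hw
    rw [hΦ]
    exact ⟨⟨w, hw⟩ ^ p, Cfsg.Agent.Lib.Helper2.pow_p_mem_frattini hQp ⟨w, hw⟩, rfl⟩
  have hcS : c ∈ ⁅S, S⁆ := hc ▸ Subgroup.mem_zpowers c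
  have hcS' : c ∈ S := Subgroup.commutator_le_self S hcS
  have hpel : ∀ y ∈ S, ∃ k : ℕ, y ^ (p ^ k) = 1 := by
    intro y hy
    obtain ⟨k, hk⟩ := hSp ⟨y, hy⟩
    exact ⟨k, congrArg Subtype.val hk⟩
  have hkey : ∀ w ∈ ⁅S, S⁆, w ∈ pCore p Y → x * w * x⁻¹ * w⁻¹ ∈ Φ := by
    intro w hw hwQ
    by_cases hc1 : c = 1
    · rw [hc, hc1, Subgroup.zpowers_one_eq_bot, Subgroup.mem_bot] at hw
      rw [hw]; simp [one_mem]
    have hxc : x * c * x⁻¹ ∈ Subgroup.zpowers c := by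
      rw [← hc]
      have e : x * c * x⁻¹ = ⁅x, c⁆ * c := by rw [commutatorElement_def]; group
      rw [e]
      exact mul_mem (Subgroup.commutator_mem_commutator hx hcS') hcS
    obtain ⟨t, ht⟩ := exists_pow_conj (p := p) x c (hpel x hx) (hpel c hcS') hc1 hxc
    rw [hc] at hw
    obtain ⟨j, rfl⟩ := hw
    have e1 : x * c ^ j * x⁻¹ = (c ^ j) ^ (1 + p * t) := by
      rw [← conj_zpow, ht, ← zpow_natCast, ← zpow_natCast, ← zpow_mul, ← zpow_mul, mul_comm]
    rw [e1, pow_add, pow_one, pow_mul]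
    have e2 : c ^ j * ((c ^ j) ^ p) ^ t * (c ^ j)⁻¹ = ((c ^ j) ^ p) ^ t := by
      have hcm : Commute (c ^ j) (((c ^ j) ^ p) ^ t) :=
        ((Commute.refl (c ^ j)).pow_right p).pow_right t
      rw [hcm.eq, mul_assoc, mul_inv_cancel, mul_one]
    rw [e2]
    exact pow_mem (hpowΦ _ hwQ) t
  have hoddZ : Odd (Nat.card (Y ⧸ Φ)) := Odd.of_dvd_nat hodd (Subgroup.card_quotient_dvd_card Φ)
  have hVn : ((pCore p Y).map (QuotientGroup.mk' Φ)).Normal :=
    Subgroup.Normal.map inferInstance _ (QuotientGroup.mk'_surjective Φ)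
  have hquad : QuadOn ((pCore p Y).map (QuotientGroup.mk' Φ)) (QuotientGroup.mk' Φ x) := by
    rintro _ ⟨q, hq, rfl⟩
    have hw1 : x * q * x⁻¹ * q⁻¹ ∈ ⁅S, S⁆ := by
      rw [← commutatorElement_def]
      exact Subgroup.commutator_mem_commutator hx (hQS hq)
    have hw2 : x * q * x⁻¹ * q⁻¹ ∈ pCore p Y :=
      mul_mem ((pCore_normal' p Y).conj_mem q hq x) (inv_mem hq)
    have h1 := hkey _ hw1 hw2
    obtain ⟨w, hw⟩ : ∃ w, w = x * q * x⁻¹ * q⁻¹ := ⟨_, rfl⟩
    rw [← hw] at h1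
    simp only [← map_mul, ← map_inv]
    rw [← hw]
    have e : x * w * x⁻¹ = (x * w * x⁻¹ * w⁻¹) * w := by group
    have h1' : QuotientGroup.mk' Φ (x * w * x⁻¹ * w⁻¹) = 1 := (QuotientGroup.eq_one_iff _).mpr h1
    rw [e, map_mul, h1', one_mul]
  obtain ⟨M, hMn, hxM, hM⟩ := (abSylTwo_of_odd hoddZ).qStable hp2 _ _ hVn (hQp.map _) hquad
  have hM0 : IsPGroup p (M.comap (QuotientGroup.mk' Φ)) := by
    rintro ⟨y, hy⟩
    obtain ⟨k, hk⟩ := hM _ hy
    have hyQ : y ^ (p ^ k) ∈ pCore p Y := by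
      apply Cfsg.Agent.Lib.Helper30.mem_pCore_of_commutator_mem_frattini p hC
      intro q hq
      rw [← hΦ, ← QuotientGroup.eq_one_iff, ← QuotientGroup.mk'_apply]
      have h2 := Subgroup.mem_centralizer_iff.mp hk _ (Subgroup.mem_map_of_mem (QuotientGroup.mk' Φ) hq)
      rw [map_mul, map_mul, map_mul, map_pow, ← h2, map_inv, map_inv, map_pow]
      group
    obtain ⟨j, hj⟩ := hQp ⟨_, hyQ⟩
    refine ⟨k + j, Subtype.ext ?_⟩
    have := congrArg Subtype.val hj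
    simpa [pow_add, pow_mul] using this
  exact le_pCore (hMn.comap _) hM0 hxM

/-- If X is a solvable group of odd order whose Sylow p-subgroup S has cyclic derived subgroup, then O_{p'}(X)S is normal in X. -/
theorem result {X : Type*} [Group X] [Finite X] [Group.IsSolvable X]
    (hX : Odd (Nat.card X)) (p : ℕ) [Fact p.Prime] (S : Sylow p X) (hS : IsCyclic (commutator (S : Subgroup X))) :
    (Cfsg.pPrimeCore p X ⊔ (S : Subgroup X)).Normal := by
  by_cases hp2 : p = 2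
  · have hSb : (S : Subgroup X) = ⊥ := by
      rcases S.isPGroup'.card_eq_or_dvd with h2 | h2
      · exact Subgroup.card_eq_one.mp h2
      · exfalso
        have h3 : 2 ∣ Nat.card X := hp2 ▸ h2.trans (Subgroup.card_subgroup_dvd_card _)
        exact (Nat.not_even_iff_odd.mpr hX) (even_iff_two_dvd.mpr h3)
    rw [hSb, sup_bot_eq]
    infer_instance
  obtain ⟨g, h1⟩ : ∃ g : (S : Subgroup X), commutator (S : Subgroup X) = Subgroup.zpowers g := by
    obtain ⟨g, hg⟩ := hS.exists_generator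
    refine ⟨g, ?_⟩
    apply le_antisymm
    · intro y hy
      obtain ⟨n, hn⟩ := hg ⟨y, hy⟩
      exact ⟨n, congrArg Subtype.val hn⟩
    · exact Subgroup.zpowers_le.mpr g.2
  have hc : ⁅(S : Subgroup X), (S : Subgroup X)⁆
      = Subgroup.zpowers (g : X) := by
    have h2 : ⁅(S : Subgroup X), (S : Subgroup X)⁆
        = (commutator (S : Subgroup X)).map (S : Subgroup X).subtype := by
      rw [commutator_def, Subgroup.map_commutator, ← MonoidHom.range_eq_map, Subgroup.range_subtype]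
    rw [h2, h1, MonoidHom.map_zpowers]
    rfl
  have hsurj := QuotientGroup.mk'_surjective (pPrimeCore p X)
  have hQS : pCore p (X ⧸ pPrimeCore p X) ≤ (S : Subgroup X).map (QuotientGroup.mk' (pPrimeCore p X)) :=
    pCore_le_sylow (S.mapSurjective hsurj)
  have hle := lemA (Odd.of_dvd_nat hX (Subgroup.card_quotient_dvd_card _)) hp2
    (Cfsg.Agent.Lib.Helper9.pConstrained_of_isSolvable (G := X) (p := p))
    ((S : Subgroup X).map (QuotientGroup.mk' (pPrimeCore p X))) (S.2.map _) hQS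
    (QuotientGroup.mk' (pPrimeCore p X) (g : X))
    (by rw [← Subgroup.map_commutator, hc, MonoidHom.map_zpowers])
  have heq : (S : Subgroup X).map (QuotientGroup.mk' (pPrimeCore p X)) = pCore p (X ⧸ pPrimeCore p X) :=
    le_antisymm hle hQS
  have h3 : pPrimeCore p X ⊔ (S : Subgroup X)
      = (pCore p (X ⧸ pPrimeCore p X)).comap (QuotientGroup.mk' (pPrimeCore p X)) := by
    rw [← heq, Subgroup.comap_map_eq, QuotientGroup.ker_mk', sup_comm]
  rw [h3]
  infer_instance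

end Cfsg.Agent.S0521
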