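import Cfsg.Statements.S1480
import Cfsg.Agent.Lib.Helper9.Transitivity5

set_option autoImplicit false
open Cfsg

namespace Cfsg.Agent.S1480


open scoped commutatorElement

/-- Let G be a finite group and p a prime such that the normalizer of every nontrivial p-subgroup of G is p-constrained; if p = 2 assume also that the Sylow 2-subgroups of G have nilpotency class at most 2. Let E be an abelian p-subgroup containing an elementary abelian subgroup of order p ^ 3 and containing every element of p-power order of C_G(E). Then for every prime q ≠ p, any two maximal E-invariant q-subgroups of G are conjugate by an element of O_{p'}(C_G(E)). -/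
theorem result {G : Type*} [Group G] [Finite G] (p : ℕ) [Fact p.Prime]
    (hloc : ∀ T : Subgroup G, IsPGroup p T → T ≠ ⊥ → Cfsg.IsPConstrained p ↥(Subgroup.normalizer (T : Set G)))
    (h2 : p = 2 → ∀ S : Sylow p G, Group.IsNilpotent (S : Subgroup G) ∧ Group.nilpotencyClass (S : Subgroup G) ≤ 2)
    (E : Subgroup G) (hEp : IsPGroup p E) (hEc : IsMulCommutative E) (hE3 : ¬ Cfsg.PRankLE p 2 E)
    (hEfull : ∀ x ∈ Subgroup.centralizer (E : Set G), IsPGroup p (Subgroup.zpowers x) → x ∈ E)
    (q : ℕ) [Fact q.Prime] (hqp : q ≠ p) :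
    ∀ Q₁ ∈ Cfsg.maxInvSubgroups ⊤ E {q}, ∀ Q₂ ∈ Cfsg.maxInvSubgroups ⊤ E {q},
        ∃ k ∈ Cfsg.piCoreOf (Cfsg.primesNotDvd p) (Subgroup.centralizer (E : Set G)), Q₂ = Q₁.map (MulAut.conj k).toMonoidHom := by
  have hcl : p = 2 → Cfsg.Agent.Lib.Helper9.PCl2 p G := by
    intro hp2 T hT x hx y hy z hz
    obtain ⟨S, hS⟩ := hT.exists_le_sylow
    obtain ⟨hnil, hle⟩ := h2 hp2 S
    have h1 : Subgroup.lowerCentralSeries (⊤ : Subgroup (S : Subgroup G)) 2 = ⊥ :=
      Subgroup.lowerCentralSeries_eq_bot_iff_nilpotencyClass_le.mpr hle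
    let x' : (S : Subgroup G) := ⟨x, hS hx⟩
    let y' : (S : Subgroup G) := ⟨y, hS hy⟩
    let z' : (S : Subgroup G) := ⟨z, hS hz⟩
    have h4 : ⁅⁅x', y'⁆, z'⁆ ∈ Subgroup.lowerCentralSeries (⊤ : Subgroup (S : Subgroup G)) 2 := by
      rw [Subgroup.lowerCentralSeries_succ, Subgroup.lowerCentralSeries_succ,
        Subgroup.lowerCentralSeries_zero]
      exact Subgroup.commutator_mem_commutator
        (Subgroup.commutator_mem_commutator (Subgroup.mem_top _) (Subgroup.mem_top _))
        (Subgroup.mem_top _)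
    rw [h1, Subgroup.mem_bot] at h4
    simpa [commutatorElement_def, x', y', z'] using congrArg Subtype.val h4
  intro Q₁ hQ₁ Q₂ hQ₂
  exact Cfsg.Agent.Lib.Helper9.thompson_transitivity hloc hcl E hEp hEc hE3 hEfull q hqp _ Q₁ hQ₁ Q₂ hQ₂ rfl

end Cfsg.Agent.S1480
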