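import Cfsg.Statements.S0522
import Cfsg.Agent.S1480
import Cfsg.Agent.Lib.Helper23.Trans4
import Cfsg.Agent.Lib.Helper10.Card

set_option autoImplicit false
open Cfsg

namespace Cfsg.Agent.S0522

open Cfsg.Agent.Lib.Helper10

theorem isPGroup_iff_primes {X : Type*} [Group X] [Finite X] (q : ℕ) [Fact q.Prime] (Q : Subgroup X) :
    IsPGroup q Q ↔ ∀ r : ℕ, r.Prime → r ∣ Nat.card Q → r ∈ ({q} : Set ℕ) := by
  constructor
  · intro h r hr hd
    obtain ⟨k, hk⟩ := IsPGroup.iff_card.mp h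
    rw [hk] at hd
    exact (Nat.prime_dvd_prime_iff_eq hr Fact.out).mp (hr.dvd_of_dvd_pow hd)
  · intro h
    exact IsPGroup.of_card (Nat.eq_prime_pow_of_unique_prime_dvd Nat.card_pos.ne'
      (fun {d} hd hdd => h d hd hdd))

theorem mem_maxInv {X : Type*} [Group X] [Finite X] (q : ℕ) [Fact q.Prime] (B Q : Subgroup X)
    (h : IsPGroup q Q ∧ B ≤ Subgroup.normalizer (Q : Set X) ∧
      ∀ R : Subgroup X, IsPGroup q R → B ≤ Subgroup.normalizer (R : Set X) → Q ≤ R → R = Q) :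
    Q ∈ Cfsg.maxInvSubgroups ⊤ B {q} := by
  refine ⟨⟨le_top, (isPGroup_iff_primes q Q).mp h.1, h.2.1⟩, ?_⟩
  rintro R ⟨_, hR1, hR2⟩ hQR
  exact h.2.2 R ((isPGroup_iff_primes q R).mpr hR1) hR2 hQR

theorem full {X : Type*} [Group X] [Finite X] (p : ℕ) [Fact p.Prime]
    (P : Sylow p X) (B : Subgroup X) (hBP : B ≤ (P : Subgroup X))
    (hBn : ∀ x ∈ (P : Subgroup X), ∀ b ∈ B, x * b * x⁻¹ ∈ B) (hBa : IsMulCommutative B)
    (hBc : (P : Subgroup X) ⊓ Subgroup.centralizer (B : Set X) = B) :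
    ∀ x ∈ Subgroup.centralizer (B : Set X), IsPGroup p (Subgroup.zpowers x) → x ∈ B := by
  intro x hx hxp
  have hpp : p.Prime := Fact.out
  have hBp : IsPGroup p B := P.2.to_le hBP
  have hBC : B ≤ Subgroup.centralizer (B : Set X) := by
    intro b hb
    rw [Subgroup.mem_centralizer_iff]
    intro c hc
    exact congrArg Subtype.val (mul_comm' (⟨c, hc⟩ : B) ⟨b, hb⟩)
  -- P normalizes C(B)
  have hconj : ∀ y ∈ (P : Subgroup X), ∀ c ∈ Subgroup.centralizer (B : Set X),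
      y * c * y⁻¹ ∈ Subgroup.centralizer (B : Set X) := by
    intro y hy c hc
    rw [Subgroup.mem_centralizer_iff]
    intro b hb
    have h1 : y⁻¹ * b * y⁻¹⁻¹ ∈ B := hBn y⁻¹ (inv_mem hy) b hb
    have h2 := Subgroup.mem_centralizer_iff.mp hc _ h1
    calc b * (y * c * y⁻¹) = y * ((y⁻¹ * b * y⁻¹⁻¹) * c) * y⁻¹ := by group
      _ = y * (c * (y⁻¹ * b * y⁻¹⁻¹)) * y⁻¹ := by rw [h2]
      _ = y * c * y⁻¹ * b := by group
  have hPN : (P : Subgroup X) ≤ Subgroup.normalizer (Subgroup.centralizer (B : Set X) : Set X) := by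
    intro y hy
    rw [Subgroup.mem_normalizer_iff]
    intro c
    constructor
    · exact hconj y hy c
    · intro h
      have := hconj y⁻¹ (inv_mem hy) _ h
      simpa [mul_assoc] using this
  have hcard := card_sup_mul_card_inf (P : Subgroup X) (Subgroup.centralizer (B : Set X)) hPN
  rw [hBc] at hcard
  have hrel := card_mul_relIndex (H := (P : Subgroup X))
    (K := (P : Subgroup X) ⊔ Subgroup.centralizer (B : Set X)) le_sup_left
  obtain ⟨r, hr⟩ : ∃ r, r = (P : Subgroup X).relIndex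
    ((P : Subgroup X) ⊔ Subgroup.centralizer (B : Set X)) := ⟨_, rfl⟩
  rw [← hr] at hrel
  have hrp : ¬ p ∣ r := by
    intro hd
    apply P.not_dvd_index
    rw [hr] at hd
    exact hd.trans (Subgroup.relIndex_dvd_index_of_le le_sup_left)
  have hC : Nat.card (Subgroup.centralizer (B : Set X)) = r * Nat.card B := by
    rw [← hrel, mul_assoc] at hcard
    exact (Nat.eq_of_mul_eq_mul_left Nat.card_pos hcard).symm
  -- T = B ⊔ ⟨x⟩
  have hxN : Subgroup.zpowers x ≤ Subgroup.normalizer (B : Set X) :=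
    (Subgroup.zpowers_le.mpr hx).trans (Subgroup.centralizer_le_normalizer _)
  have hT : IsPGroup p (B ⊔ Subgroup.zpowers x : Subgroup X) :=
    hBp.to_sup_of_normal_left' hxp hxN
  have hTC : B ⊔ Subgroup.zpowers x ≤ Subgroup.centralizer (B : Set X) :=
    sup_le hBC (Subgroup.zpowers_le.mpr hx)
  obtain ⟨t, ht⟩ := IsPGroup.iff_card.mp hT
  obtain ⟨b, hb⟩ := IsPGroup.iff_card.mp hBp
  have hd : p ^ t ∣ r * p ^ b := by
    rw [← ht, ← hb, ← hC]
    exact Subgroup.card_dvd_of_le hTC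
  have hd' : p ^ t ∣ p ^ b :=
    (Nat.Coprime.pow_left t ((Nat.Prime.coprime_iff_not_dvd hpp).mpr hrp)).dvd_of_dvd_mul_left hd
  have hle : Nat.card (B ⊔ Subgroup.zpowers x : Subgroup X) ≤ Nat.card B := by
    rw [ht, hb]
    exact Nat.le_of_dvd (pow_pos hpp.pos b) hd'
  have heq : B = B ⊔ Subgroup.zpowers x :=
    Subgroup.eq_of_le_of_card_ge le_sup_left hle
  rw [heq]
  exact le_sup_right (a := B) (Subgroup.mem_zpowers x)

/-- Thompson transitivity, odd order form. -/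
theorem result {X : Type*} [Group X] [Finite X] (hX : Odd (Nat.card X)) (p : ℕ)
    [Fact p.Prime] (hloc : ∀ T : Subgroup X, IsPGroup p T → T ≠ ⊥ → Group.IsSolvable (Subgroup.normalizer (T : Set X)))
    (P : Sylow p X) (B : Subgroup X) (hBP : B ≤ (P : Subgroup X))
    (hBn : ∀ x ∈ (P : Subgroup X), ∀ b ∈ B, x * b * x⁻¹ ∈ B) (hBa : IsMulCommutative B)
    (hBc : (P : Subgroup X) ⊓ Subgroup.centralizer (B : Set X) = B)
    (hB3 : ∃ E : Subgroup X, E ≤ B ∧ (∀ e ∈ E, e ^ p = 1) ∧ p ^ 3 ≤ Nat.card E)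
    (q : ℕ) [Fact q.Prime] (hqp : q ≠ p) (Q₁ Q₂ : Subgroup X)
    (h₁ : IsPGroup q Q₁ ∧ B ≤ Subgroup.normalizer (Q₁ : Set X) ∧
      ∀ R : Subgroup X, IsPGroup q R → B ≤ Subgroup.normalizer (R : Set X) → Q₁ ≤ R → R = Q₁)
    (h₂ : IsPGroup q Q₂ ∧ B ≤ Subgroup.normalizer (Q₂ : Set X) ∧
      ∀ R : Subgroup X, IsPGroup q R → B ≤ Subgroup.normalizer (R : Set X) → Q₂ ≤ R → R = Q₂) :
    ∃ c ∈ Subgroup.centralizer (B : Set X), Q₂ = Q₁.map (MulAut.conj c).toMonoidHom := by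
  have hpp : p.Prime := Fact.out
  obtain ⟨k, hk, hkQ⟩ := Cfsg.Agent.S1480.result p
    (fun T hT hne => by
      have := hloc T hT hne
      exact Cfsg.Agent.Lib.Helper23.isPConstrained_of_isSolvable p _)
    (by
      intro hp2 S
      have hsub : Subsingleton (S : Subgroup X) := by
        obtain ⟨n, hn⟩ := IsPGroup.iff_card.mp S.2
        have hodd : Odd (Nat.card (S : Subgroup X)) :=
          Odd.of_dvd_nat hX (Subgroup.card_subgroup_dvd_card _)
        rw [hn, hp2] at hodd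
        rcases Nat.eq_zero_or_pos n with rfl | hpos
        · rw [pow_zero] at hn
          exact (Nat.card_eq_one_iff_unique.mp hn).1
        · exfalso
          have : Even (2 ^ n) := (Nat.even_pow.mpr ⟨even_two, hpos.ne'⟩)
          exact (Nat.not_even_iff_odd.mpr hodd) this
      refine ⟨inferInstance, ?_⟩
      rw [Group.nilpotencyClass_zero_iff_subsingleton.mpr hsub]
      exact Nat.zero_le _)
    B (P.2.to_le hBP) hBa
    (by
      intro h
      obtain ⟨E, hEB, hEp, hE3⟩ := hB3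
      have h1 := h (E.subgroupOf B) inferInstance (by
        intro a ha
        exact Subtype.ext (hEp a ha))
      rw [Nat.card_congr (Subgroup.subgroupOfEquivOfLe hEB).toEquiv] at h1
      have h2 : p ^ 2 < p ^ 3 := Nat.pow_lt_pow_right hpp.one_lt (by norm_num)
      omega)
    (full p P B hBP hBn hBa hBc) q hqp Q₁ (mem_maxInv q B Q₁ h₁) Q₂ (mem_maxInv q B Q₂ h₂)
  exact ⟨k, Subgroup.map_subtype_le _ hk, hkQ⟩

end Cfsg.Agent.S0522
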