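import Cfsg.Statements.S0534
import Cfsg.Agent.Lib.Helper9.Supersolvable7
import Cfsg.Agent.S0003

set_option autoImplicit false
open Cfsg

namespace Cfsg.Agent.S0534

open Cfsg.Agent.Lib.Helper9

/-- The arithmetic behind the statement. -/
theorem arith (g a d : ℕ) (hg : g ≠ 0) (ha : a ≠ 0)
    (hA : ∀ p : ℕ, p.Prime → p ∣ a → p ∣ g)
    (hexp : ∀ p : ℕ, p.Prime → p ∣ g → a.factorization p + 1 = g.factorization p)
    (hd : d ∣ g * a) :
    ∃ m n b : ℕ, g = m * n ∧ m.Coprime n ∧ b ∣ a ∧ d = m * b := by
  classical
  have hd0 : d ≠ 0 := fun h => by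
    rw [h, zero_dvd_iff] at hd
    exact (mul_ne_zero hg ha) hd
  set P : ℕ → Prop := fun p => g.factorization p ≤ d.factorization p with hP
  set f := g.factorization.filter P with hf
  set f' := g.factorization.filter (fun p => ¬ P p) with hf'
  have hfp : ∀ p ∈ f.support, p.Prime := by
    intro p hp
    rw [hf, Finsupp.support_filter, Finset.mem_filter, Nat.support_factorization] at hp
    exact Nat.prime_of_mem_primeFactors hp.1
  have hfp' : ∀ p ∈ f'.support, p.Prime := by
    intro p hp
    rw [hf', Finsupp.support_filter, Finset.mem_filter, Nat.support_factorization] at hp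
    exact Nat.prime_of_mem_primeFactors hp.1
  set m := f.prod (fun x1 x2 => x1 ^ x2) with hm
  set n := f'.prod (fun x1 x2 => x1 ^ x2) with hn
  have hmf : m.factorization = f := Nat.prod_pow_factorization_eq_self hfp
  have hnf : n.factorization = f' := Nat.prod_pow_factorization_eq_self hfp'
  have hm0 : m ≠ 0 := by
    rw [hm, Finsupp.prod]
    exact Finset.prod_ne_zero_iff.mpr fun p hp => pow_ne_zero _ (hfp p hp).ne_zero
  have hn0 : n ≠ 0 := by
    rw [hn, Finsupp.prod]
    exact Finset.prod_ne_zero_iff.mpr fun p hp => pow_ne_zero _ (hfp' p hp).ne_zero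
  have hgmn : g = m * n := by
    apply Nat.eq_of_factorization_eq hg (mul_ne_zero hm0 hn0)
    intro p
    rw [Nat.factorization_mul hm0 hn0, hmf, hnf, hf, hf', Finsupp.filter_add_filter_not]
  have hcop : m.Coprime n := by
    apply Nat.coprime_of_dvd
    intro k hk hkm hkn
    have h1 := (hk.dvd_iff_one_le_factorization hm0).mp hkm
    have h2 := (hk.dvd_iff_one_le_factorization hn0).mp hkn
    rw [hmf, hf, Finsupp.filter_apply] at h1
    rw [hnf, hf', Finsupp.filter_apply] at h2
    by_cases hPk : P k
    · rw [if_neg (not_not.mpr hPk)] at h2; omega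
    · rw [if_neg hPk] at h1; omega
  have hmd : m ∣ d := by
    rw [← Nat.factorization_le_iff_dvd hm0 hd0, hmf]
    intro p
    rw [hf, Finsupp.filter_apply]
    split_ifs with h
    · exact h
    · exact Nat.zero_le _
  have hdga : ∀ p, d.factorization p ≤ g.factorization p + a.factorization p := by
    intro p
    have := (Nat.factorization_le_iff_dvd hd0 (mul_ne_zero hg ha)).mpr hd p
    rwa [Nat.factorization_mul hg ha] at this
  refine ⟨m, n, d / m, hgmn, hcop, ?_, (Nat.mul_div_cancel' hmd).symm⟩
  have hb0 : d / m ≠ 0 := by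
    intro h
    have := Nat.mul_div_cancel' hmd
    rw [h, mul_zero] at this
    exact hd0 this.symm
  rw [← Nat.factorization_le_iff_dvd hb0 ha, Nat.factorization_div hmd, hmf]
  intro p
  rw [Finsupp.coe_tsub, Pi.sub_apply, hf, Finsupp.filter_apply]
  have h1 := hdga p
  split_ifs with h
  · omega
  · by_cases hp : p.Prime
    · by_cases hpg : p ∣ g
      · have h2 := hexp p hp hpg
        have h3 : ¬ g.factorization p ≤ d.factorization p := h
        omega
      · have h2 : g.factorization p = 0 := Nat.factorization_eq_zero_of_not_dvd hpg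
        omega
    · have : d.factorization p = 0 := Nat.factorization_eq_zero_of_not_prime _ hp
      omega

/-- Let G be a finite solvable group and A a finite abelian group such that every prime dividing the order of A divides the order of G and, for each prime p dividing the order of G, the exponent of p in the order of A is one less than its exponent in the order of G. Then G × A has a subgroup of every order dividing its order. -/
theorem result {G A : Type*} [Group G] [CommGroup A] [Finite G] [Finite A] [Group.IsSolvable G] (hA : ∀ p : ℕ, p.Prime → p ∣ Nat.card A → p ∣ Nat.card G) (hexp : ∀ p : ℕ, p.Prime → p ∣ Nat.card G → (Nat.card A).factorization p + 1 = (Nat.card G).factorization p) : Cfsg.HasSubgroupOfEveryOrder (G × A) := by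
  intro d hd
  rw [Nat.card_prod] at hd
  obtain ⟨m, n, b, hgmn, hcop, hba, rfl⟩ := arith (Nat.card G) (Nat.card A) d Nat.card_pos.ne'
    Nat.card_pos.ne' hA hexp hd
  obtain ⟨H, hH⟩ := Cfsg.Agent.S0003.result m n hgmn hcop
  have hAs : Cfsg.IsSupersolvable A := isSupersolvable_of_isNilpotent
  obtain ⟨B, hB⟩ := hasSubgroupOfEveryOrder_of_isSupersolvable hAs b hba
  refine ⟨H.prod B, ?_⟩
  rw [Nat.card_congr (Subgroup.prodEquiv H B).toEquiv, Nat.card_prod, hH, hB]

end Cfsg.Agent.S0534
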