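import Cfsg.Statements.S0535
import Cfsg.Agent.S0006

set_option autoImplicit false
open Cfsg

namespace Cfsg.Agent.S0535

/-- Suppose that for every nontrivial subgroup H of a finite group and every prime p dividing the order of H there is a proper subgroup of H whose index in H is a power of p. Then the group is solvable. -/
theorem result {G : Type*} [Group G] [Finite G] (h : ∀ H : Subgroup G, H ≠ ⊥ → ∀ p : ℕ, p.Prime → p ∣ Nat.card H → ∃ K : Subgroup H, K ≠ ⊤ ∧ ∃ k : ℕ, K.index = p ^ k) : Group.IsSolvable G := by
  apply Cfsg.Agent.S0006.result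
  intro p hp
  have key : ∀ n : ℕ, ∀ H : Subgroup G, Nat.card H = n →
      ∃ L : Subgroup G, L ≤ H ∧ ¬ p ∣ Nat.card L ∧ ∃ j : ℕ, L.relIndex H = p ^ j := by
    intro n
    induction n using Nat.strong_induction_on with
    | _ n ih =>
      intro H hH
      by_cases hpH : p ∣ Nat.card H
      · have hne : H ≠ ⊥ := by
          rintro rfl
          rw [Subgroup.card_bot] at hpH
          exact hp.one_lt.ne' (Nat.dvd_one.mp hpH)
        obtain ⟨K, hK, k, hk⟩ := h H hne p hp hpH
        have hcard : Nat.card (K.map H.subtype) = Nat.card K :=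
          Subgroup.card_map_of_injective H.subtype_injective
        have hlt : Nat.card (K.map H.subtype) < n := by
          rw [hcard, ← hH]
          have h1 : Nat.card K * K.index = Nat.card H := K.card_mul_index
          have h2 : K.index ≠ 1 := fun h => hK (Subgroup.index_eq_one.mp h)
          have h3 : K.index ≠ 0 := Subgroup.index_ne_zero_of_finite
          have h4 : 0 < Nat.card K := Nat.card_pos
          nlinarith [show 2 ≤ K.index by omega]
        obtain ⟨L, hL, hpL, j, hj⟩ := ih _ hlt (K.map H.subtype) rfl
        have hKH : K.map H.subtype ≤ H := Subgroup.map_subtype_le K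
        refine ⟨L, hL.trans hKH, hpL, j + k, ?_⟩
        rw [← Subgroup.relIndex_mul_relIndex L _ H hL hKH, hj, pow_add]
        congr 1
        rw [Subgroup.relIndex, ← hk]
        congr 1
        ext x
        simp [Subgroup.mem_subgroupOf]
      · exact ⟨H, le_rfl, hpH, 0, by simp⟩
  obtain ⟨L, -, hpL, j, hj⟩ := key _ ⊤ rfl
  refine ⟨L, ?_⟩
  rw [Subgroup.relIndex_top_right] at hj
  rw [hj]
  congr 1
  have h1 : Nat.card L * L.index = Nat.card G := L.card_mul_index
  rw [← h1, hj, Nat.factorization_mul Nat.card_pos.ne' (pow_ne_zero _ hp.ne_zero)]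
  simp [Nat.factorization_eq_zero_of_not_dvd hpL, hp.factorization]

end Cfsg.Agent.S0535
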