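import Cfsg.Statements.S0537
import Cfsg.Agent.Lib.Helper9.Schmidt
import Cfsg.Agent.S0046
import Cfsg.Agent.S0056

set_option autoImplicit false
open Cfsg

namespace Cfsg.Agent.S0537

open Subgroup Cfsg.Agent.Lib.Helper9

open scoped IsMulCommutative in
theorem isNilpotent_of_comm {H : Type*} [Group H] (h : IsMulCommutative H) : Group.IsNilpotent H :=
  inferInstance

theorem pgroup_of_nilpotent {G : Type*} [Group G] [Finite G] (hna : ¬ IsMulCommutative G)
    (h : ∀ H : Subgroup G, H ≠ ⊤ → IsMulCommutative H) (hnil : Group.IsNilpotent G) :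
    ∃ p : ℕ, p.Prime ∧ IsPGroup p G := by
  by_contra hcon
  push Not at hcon
  apply hna
  have hS : ∀ (p : ℕ) [Fact p.Prime] (P : Sylow p G), IsMulCommutative (P : Subgroup G) := by
    intro p hp P
    apply h
    intro htop
    apply hcon p hp.out
    have := P.isPGroup'
    rw [htop] at this
    exact this.of_equiv Subgroup.topEquiv
  obtain ⟨e⟩ := (Group.isNilpotent_of_finite_tfae (G := G)).out 0 4 |>.mp hnil
  rw [isMulCommutative_iff]
  intro a b
  obtain ⟨x, rfl⟩ := e.surjective a
  obtain ⟨y, rfl⟩ := e.surjective b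
  rw [← map_mul, ← map_mul]
  congr 1
  funext p P
  have : Fact (p : ℕ).Prime := ⟨Nat.prime_of_mem_primeFactors p.2⟩
  exact (hS p P).is_comm.comm _ _

/-- A finite non-abelian group in which every proper subgroup is abelian is either of prime-power order, or is generated by a cyclic Sylow p-subgroup and a normal Sylow q-subgroup that is elementary abelian, for distinct primes p and q. -/
theorem result {G : Type*} [Group G] [Finite G] (hna : ¬ IsMulCommutative G) (h : ∀ H : Subgroup G, H ≠ ⊤ → IsMulCommutative H) : (∃ p : ℕ, p.Prime ∧ IsPGroup p G) ∨ ∃ p q : ℕ, p.Prime ∧ q.Prime ∧ p ≠ q ∧ ∃ (P : Sylow p G) (Q : Sylow q G), IsCyclic P ∧ (Q : Subgroup G).Normal ∧ Cfsg.IsElementaryAbelian q (Q : Subgroup G) ∧ (P : Subgroup G) ⊔ Q = ⊤ := by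
  by_cases hnil : Group.IsNilpotent G
  · exact Or.inl (pgroup_of_nilpotent hna h hnil)
  right
  have hmin : Cfsg.IsMinimalNonNilpotent G := ⟨hnil, fun H hH => isNilpotent_of_comm (h H hH)⟩
  obtain ⟨p, q, hp, hq, hpq, P, Q, hPc, hQn, hPQ⟩ := schmidt_structure hmin
    (Cfsg.Agent.S0046.result fun M hM => hmin.2 M hM.1)
  have : Fact p.Prime := ⟨hp⟩
  have : Fact q.Prime := ⟨hq⟩
  refine ⟨p, q, hp, hq, hpq, P, Q, hPc, hQn, ?_, hPQ⟩
  have hQne : (Q : Subgroup G) ≠ ⊤ := by
    intro htop
    apply hnil
    have := Q.isPGroup'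
    rw [htop] at this
    exact (this.of_equiv Subgroup.topEquiv).isNilpotent
  have hQc : IsMulCommutative (Q : Subgroup G) := h _ hQne
  refine ⟨hQc, ?_⟩
  -- the subgroup of elements of order dividing `q`
  let Ω : Subgroup G :=
    { carrier := {x | x ∈ (Q : Subgroup G) ∧ x ^ q = 1}
      mul_mem' := by
        rintro a b ⟨ha, ha'⟩ ⟨hb, hb'⟩
        refine ⟨mul_mem ha hb, ?_⟩
        have hc : Commute a b := setLike_mul_comm ha hb
        rw [hc.mul_pow, ha', hb', one_mul]
      one_mem' := ⟨one_mem _, one_pow _⟩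
      inv_mem' := by
        rintro a ⟨ha, ha'⟩
        exact ⟨inv_mem ha, by rw [inv_pow, ha', inv_one]⟩ }
  have hΩn : Ω.Normal := by
    constructor
    rintro x ⟨hx, hx'⟩ g
    exact ⟨hQn.conj_mem x hx g, by rw [conj_pow, hx', mul_one, mul_inv_cancel]⟩
  have hdis : Disjoint (P : Subgroup G) (Q : Subgroup G) :=
    IsPGroup.disjoint_of_ne p q hpq _ _ P.isPGroup' Q.isPGroup'
  by_cases htop : Ω ⊔ (P : Subgroup G) = ⊤
  · intro a ha
    have h1 : a ∈ ((Ω ⊔ (P : Subgroup G) : Subgroup G) : Set G) := by
      rw [htop]; exact Subgroup.mem_top a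
    rw [Subgroup.normal_mul] at h1
    obtain ⟨w, hw, y, hy, rfl⟩ := Set.mem_mul.mp h1
    have hyQ : y ∈ (Q : Subgroup G) := by
      have : y = w⁻¹ * (w * y) := by group
      rw [this]
      exact mul_mem (inv_mem hw.1) ha
    have hy1 : y = 1 := by
      have : y ∈ (P : Subgroup G) ⊓ Q := ⟨hy, hyQ⟩
      rw [disjoint_iff.mp hdis] at this
      exact Subgroup.mem_bot.mp this
    rw [hy1, mul_one]
    exact hw.2
  · exfalso
    have hcomm : IsMulCommutative (Ω ⊔ (P : Subgroup G) : Subgroup G) := h _ htop
    have hcent : (P : Subgroup G) ≤ centralizer ((Q : Subgroup G) : Set G) := by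
      apply Cfsg.Agent.S0056.result (P : Subgroup G) (Q : Subgroup G)
        Subgroup.le_normalizer_of_normal
      · obtain ⟨k, hk⟩ := (IsPGroup.iff_card).mp P.isPGroup'
        obtain ⟨l, hl⟩ := (IsPGroup.iff_card).mp Q.isPGroup'
        rw [hk, hl]
        exact Nat.Coprime.pow _ _ ((Nat.coprime_primes hp hq).mpr hpq)
      · intro v hv hvp a ha
        have hvΩ : v ∈ Ω := by
          refine ⟨hv, ?_⟩
          obtain ⟨k, hk⟩ := (IsPGroup.iff_orderOf.mp Q.isPGroup') ⟨v, hv⟩
          rw [Subgroup.orderOf_mk] at hk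
          have hqv : orderOf v = q := by
            have hk0 : k ≠ 0 := by
              rintro rfl
              rw [hk, pow_zero] at hvp
              exact Nat.not_prime_one hvp
            have hd : q ∣ orderOf v := by rw [hk]; exact dvd_pow_self q hk0
            exact ((Nat.prime_dvd_prime_iff_eq hq hvp).mp hd).symm
          rw [← hqv]; exact pow_orderOf_eq_one v
        exact setLike_mul_comm (Subgroup.mem_sup_right ha)
          (Subgroup.mem_sup_left hvΩ)
    apply hna
    have hPcomm : IsMulCommutative (P : Subgroup G) := by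
      rw [isMulCommutative_iff]
      intro a b
      obtain ⟨g, hg⟩ := hPc.exists_generator
      obtain ⟨i, rfl⟩ := hg a
      obtain ⟨j, rfl⟩ := hg b
      change g ^ i * g ^ j = g ^ j * g ^ i
      rw [← zpow_add, ← zpow_add, add_comm]
    have hcen : center G = ⊤ := by
      rw [eq_top_iff, ← hPQ]
      apply sup_le
      · intro a ha
        rw [Subgroup.mem_center_iff]
        have h1 : (P : Subgroup G) ⊔ Q ≤ centralizer {a} := by
          apply sup_le
          · intro b hb
            rw [Subgroup.mem_centralizer_singleton_iff]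
            exact setLike_mul_comm hb ha
          · intro b hb
            rw [Subgroup.mem_centralizer_singleton_iff]
            exact (Subgroup.mem_centralizer_iff.mp (hcent ha) b hb)
        intro g
        have h2 : g ∈ centralizer {a} := h1 (hPQ ▸ Subgroup.mem_top g)
        exact Subgroup.mem_centralizer_singleton_iff.mp h2
      · intro a ha
        rw [Subgroup.mem_center_iff]
        have h1 : (P : Subgroup G) ⊔ Q ≤ centralizer {a} := by
          apply sup_le
          · intro b hb
            rw [Subgroup.mem_centralizer_singleton_iff]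
            exact (Subgroup.mem_centralizer_iff.mp (hcent hb) a ha).symm
          · intro b hb
            rw [Subgroup.mem_centralizer_singleton_iff]
            exact setLike_mul_comm hb ha
        intro g
        have h2 : g ∈ centralizer {a} := h1 (hPQ ▸ Subgroup.mem_top g)
        exact Subgroup.mem_centralizer_singleton_iff.mp h2
    rw [isMulCommutative_iff]
    intro a b
    have : b ∈ center G := hcen ▸ Subgroup.mem_top b
    exact (Subgroup.mem_center_iff.mp this a)

end Cfsg.Agent.S0537
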