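import Cfsg.Statements.S0540
import Cfsg.Agent.Lib.Helper9.Subnormal2

set_option autoImplicit false
open Pointwise
open Cfsg

namespace Cfsg.Agent.S0540

open Subgroup Cfsg.Agent.Lib.Helper9
open scoped Pointwise

theorem le_normalizer_sSup {G : Type*} [Group G] (V : Subgroup G) (F : Set (Subgroup G))
    (hF : ∀ B ∈ F, ∀ g ∈ V, MulAut.conj g • B ∈ F) :
    V ≤ normalizer ((sSup F : Subgroup G) : Set G) := by
  rw [Subgroup.le_normalizer_iff]
  intro x hx k hk
  have hle : sSup F ≤ (sSup F).comap (MulAut.conj x).toMonoidHom := by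
    apply sSup_le
    intro B hB u hu
    rw [Subgroup.mem_comap]
    change x * u * x⁻¹ ∈ _
    exact (le_sSup (hF B hB x hx)) (conj_mem_conj_smul hu x)
  exact hle hk

theorem subgroupOf_conj_smul {G : Type*} [Group G] (V B : Subgroup G) (g : V) :
    (MulAut.conj (g : G) • B).subgroupOf V = MulAut.conj g • (B.subgroupOf V) := by
  ext y
  rw [Subgroup.mem_subgroupOf]
  constructor
  · intro hy
    obtain ⟨u, hu, hyu⟩ := exists_of_mem_conj_smul hy
    have huV : u ∈ V := by
      have : u = (g : G)⁻¹ * y * g := by rw [hyu]; group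
      rw [this]
      exact mul_mem (mul_mem (inv_mem g.2) y.2) g.2
    have h1 : y = g * ⟨u, huV⟩ * g⁻¹ := Subtype.ext hyu
    rw [h1]
    exact conj_mem_conj_smul (U := B.subgroupOf V) (Subgroup.mem_subgroupOf.mpr hu) g
  · intro hy
    obtain ⟨u, hu, rfl⟩ := exists_of_mem_conj_smul hy
    exact conj_mem_conj_smul (Subgroup.mem_subgroupOf.mp hu) (g : G)

/-- A uniqueness lemma of zipper type. Let A be a subgroup of a finite group G and U a nonempty family of subgroups. For V in U write S(V) for the set of conjugates of A that lie in V and are subnormal in V. Assume: A belongs to S(V) for every V in U; a member of some S(W) that lies in V belongs to S(V); and for all V, W in U the normalizer of the join of S(V) ∩ S(W) lies in some member of U. Then U has a greatest element. -/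
theorem result {G : Type*} [Group G] [Finite G] (A : Subgroup G) (U : Set (Subgroup G)) (hU : U.Nonempty) (S : Subgroup G → Set (Subgroup G)) (hS : ∀ V B : Subgroup G, B ∈ S V ↔ (∃ g : G, B = MulAut.conj g • A) ∧ B ≤ V ∧ (B.subgroupOf V).IsSubnormal) (h1 : ∀ V ∈ U, A ∈ S V) (h2 : ∀ V ∈ U, ∀ W ∈ U, ∀ B ∈ S W, B ≤ V → B ∈ S V) (h3 : ∀ V ∈ U, ∀ W ∈ U, ∃ X ∈ U, Subgroup.normalizer ((sSup (S V ∩ S W) : Subgroup G) : Set G) ≤ X) : ∃ M ∈ U, ∀ V ∈ U, V ≤ M := by
  -- `S V` is closed under conjugation by `V`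
  have hconj : ∀ V : Subgroup G, ∀ B ∈ S V, ∀ g ∈ V, MulAut.conj g • B ∈ S V := by
    intro V B hB g hg
    obtain ⟨⟨g', rfl⟩, hBV, hBsn⟩ := (hS V B).mp hB
    refine (hS V _).mpr ⟨⟨g * g', by rw [smul_smul, map_mul]⟩, ?_, ?_⟩
    · intro y hy
      obtain ⟨u, hu, rfl⟩ := exists_of_mem_conj_smul hy
      exact mul_mem (mul_mem hg (hBV hu)) (inv_mem hg)
    · have := subgroupOf_conj_smul V (MulAut.conj g' • A) ⟨g, hg⟩
      rw [this]
      exact hBsn.smul _
  have hrel : ∀ V : Subgroup G, ∀ B ∈ S V, B ≤ V ∧ (B.subgroupOf V).IsSubnormal :=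
    fun V B hB => ((hS V B).mp hB).2
  obtain ⟨M, hM⟩ := exists_maximal_of_wellFoundedGT (fun V : Subgroup G => V ∈ U) hU
  refine ⟨M, hM.1, ?_⟩
  by_contra hcon
  push Not at hcon
  obtain ⟨V, ⟨hVU, hVM⟩, hVmax⟩ := Set.exists_max_image {V : Subgroup G | V ∈ U ∧ ¬ V ≤ M}
    (fun V => (S V ∩ S M).ncard) (Set.toFinite _) hcon
  obtain ⟨X, hXU, hX⟩ := h3 V hVU M hM.1
  set D : Subgroup G := sSup (S V ∩ S M) with hD
  have ha : ∀ B ∈ S V ∩ S M, B ∈ S X := fun B hB =>
    h2 X hXU M hM.1 B hB.2 (((le_sSup hB).trans Subgroup.le_normalizer).trans hX)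
  have hXM : X ≤ M := by
    by_cases h0 : S V ∩ S M = S M
    · have h4 : M ≤ normalizer (D : Set G) := by
        rw [hD, h0]; exact le_normalizer_sSup M (S M) (hconj M)
      exact hM.2 hXU (h4.trans hX)
    · have hss : S V ∩ S M ⊂ S M := ⟨Set.inter_subset_right, fun h => h0
        (Set.Subset.antisymm Set.inter_subset_right h)⟩
      obtain ⟨B, hBM, hB0, hBN⟩ := exists_normalizing_member_rel M (S M) (S V ∩ S M) (hrel M)
        (hconj M) hss
      have hBX : B ∈ S X := h2 X hXU M hM.1 B hBM (hBN.trans hX)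
      by_contra hXM
      have h5 := hVmax X ⟨hXU, hXM⟩
      have h6 : S V ∩ S M ⊂ S X ∩ S M := by
        refine ⟨fun C hC => ⟨ha C hC, hC.2⟩, fun h => hB0 (h ⟨hBX, hBM⟩)⟩
      have h7 := Set.ncard_lt_ncard h6 (Set.toFinite _)
      omega
  have h0 : S V ∩ S M = S V := by
    by_contra h0
    have hss : S V ∩ S M ⊂ S V := ⟨Set.inter_subset_left, fun h => h0
        (Set.Subset.antisymm Set.inter_subset_left h)⟩
    obtain ⟨B, hBV, hB0, hBN⟩ := exists_normalizing_member_rel V (S V) (S V ∩ S M) (hrel V)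
        (hconj V) hss
    exact hB0 ⟨hBV, h2 M hM.1 V hVU B hBV ((hBN.trans hX).trans hXM)⟩
  have h4 : V ≤ normalizer (D : Set G) := by
    rw [hD, h0]; exact le_normalizer_sSup V (S V) (hconj V)
  exact hVM ((h4.trans hX).trans hXM)

end Cfsg.Agent.S0540
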