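import Cfsg.Statements.S0541
import Cfsg.Agent.Lib.Helper9.Subnormal2

set_option autoImplicit false
open Pointwise
open Cfsg

namespace Cfsg.Agent.S0541

open Subgroup Cfsg.Agent.Lib.Helper9
open scoped Pointwise

theorem isSubnormal_of_normalizerCondition {G : Type*} [Group G] [Finite G]
    (h : NormalizerCondition G) (H : Subgroup G) : H.IsSubnormal := by
  induction H using WellFoundedGT.induction with
  | ind H ih =>
    by_cases hH : H = ⊤
    · subst hH; exact .top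
    · exact .step H (normalizer (H : Set G)) le_normalizer
        (ih _ (h H (lt_top_iff_ne_top.mpr hH))) normal_in_normalizer

/-- weak closure of `Z` in `T` -/
def wcl {G : Type*} [Group G] (Z T : Subgroup G) : Subgroup G :=
  ⨆ g ∈ {g : G | MulAut.conj g • Z ≤ T}, MulAut.conj g • Z

theorem wcl_le {G : Type*} [Group G] (Z T : Subgroup G) : wcl Z T ≤ T :=
  iSup₂_le fun _ hg => hg

theorem le_wcl {G : Type*} [Group G] {Z T : Subgroup G} {g : G} (hg : MulAut.conj g • Z ≤ T) :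
    MulAut.conj g • Z ≤ wcl Z T :=
  le_iSup₂ (f := fun g (_ : g ∈ {g : G | MulAut.conj g • Z ≤ T}) => MulAut.conj g • Z) g hg

theorem wcl_mono {G : Type*} [Group G] (Z : Subgroup G) {T T' : Subgroup G} (h : T ≤ T') :
    wcl Z T ≤ wcl Z T' :=
  iSup₂_le fun _ hg => le_wcl (le_trans hg h)

theorem conj_smul_smul {G : Type*} [Group G] (a b : G) (Z : Subgroup G) :
    MulAut.conj a • MulAut.conj b • Z = MulAut.conj (a * b) • Z := by
  rw [smul_smul, map_mul]

theorem le_normalizer_W {G : Type*} [Group G] (Z Y : Subgroup G) (g : G) :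
    Y ≤ normalizer ((⨆ y ∈ Y, MulAut.conj (y * g) • Z : Subgroup G) : Set G) := by
  rw [Subgroup.le_normalizer_iff]
  intro y' hy' k hk
  have hle : (⨆ y ∈ Y, MulAut.conj (y * g) • Z : Subgroup G) ≤
      (⨆ y ∈ Y, MulAut.conj (y * g) • Z : Subgroup G).comap (MulAut.conj y').toMonoidHom := by
    apply iSup₂_le
    intro y hy u hu
    rw [Subgroup.mem_comap]
    change y' * u * y'⁻¹ ∈ _
    have h1 : y' * u * y'⁻¹ ∈ MulAut.conj y' • MulAut.conj (y * g) • Z := conj_mem_conj_smul hu y'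
    rw [conj_smul_smul, ← mul_assoc] at h1
    exact (le_iSup₂ (f := fun y (_ : y ∈ Y) => MulAut.conj (y * g) • Z) (y' * y)
      (mul_mem hy' hy)) h1
  exact hle hk

theorem le_normalizer_sup {G : Type*} [Group G] {Y A B : Subgroup G}
    (hA : Y ≤ normalizer (A : Set G)) (hB : Y ≤ normalizer (B : Set G)) :
    Y ≤ normalizer ((A ⊔ B : Subgroup G) : Set G) := by
  intro m hm
  rw [Subgroup.mem_normalizer_iff_map_conj_eq, Subgroup.map_sup,
    Subgroup.mem_normalizer_iff_map_conj_eq.mp (hA hm),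
    Subgroup.mem_normalizer_iff_map_conj_eq.mp (hB hm)]

/-- Let Z and Y be subgroups of a finite group G and p a prime. Suppose that for every g in G the subgroup generated by the conjugates of g Z g⁻¹ under Y is a p-group. Then there is a Sylow p-subgroup P of G such that Y normalizes the subgroup generated by all conjugates of Z contained in P. -/
theorem result {G : Type*} [Group G] [Finite G] (p : ℕ) [Fact p.Prime] (Z Y : Subgroup G) (h : ∀ g : G, IsPGroup p ↥(⨆ y ∈ Y, MulAut.conj (y * g) • Z)) : ∃ P : Sylow p G, Y ≤ Subgroup.normalizer ((⨆ g ∈ {g : G | MulAut.conj g • Z ≤ (P : Subgroup G)}, MulAut.conj g • Z : Subgroup G) : Set G) := by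
  change ∃ P : Sylow p G, Y ≤ normalizer ((wcl Z (P : Subgroup G) : Subgroup G) : Set G)
  -- the family of candidate subgroups
  have hne : ∃ T : Subgroup G, IsPGroup p T ∧ Y ≤ normalizer (T : Set G) ∧ T ≤ wcl Z T := by
    refine ⟨⨆ y ∈ Y, MulAut.conj (y * 1) • Z, h 1, le_normalizer_W Z Y 1, ?_⟩
    apply iSup₂_le
    intro y hy
    exact le_wcl (le_iSup₂ (f := fun y (_ : y ∈ Y) => MulAut.conj (y * 1) • Z) y hy)
  obtain ⟨T, hT⟩ := exists_maximal_of_wellFoundedGT
    (fun T : Subgroup G => IsPGroup p T ∧ Y ≤ normalizer (T : Set G) ∧ T ≤ wcl Z T) hne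
  obtain ⟨⟨hTp, hYT, hTw⟩, hmax⟩ := hT
  obtain ⟨P, hTP⟩ := hTp.exists_le_sylow
  refine ⟨P, ?_⟩
  have hTeq : wcl Z T = T := le_antisymm (wcl_le Z T) hTw
  suffices hw : wcl Z (P : Subgroup G) = T by rw [hw]; exact hYT
  apply le_antisymm _ (hTw.trans (wcl_mono Z hTP))
  by_contra hcon
  let S : Set (Subgroup G) := {U | ∃ g : G, U = MulAut.conj g • Z ∧ U ≤ (P : Subgroup G)}
  let S₀ : Set (Subgroup G) := {U | ∃ g : G, U = MulAut.conj g • Z ∧ U ≤ T}
  have hsS₀ : sSup S₀ = T := by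
    rw [← hTeq]
    apply le_antisymm
    · apply sSup_le
      rintro U ⟨g, rfl, hU⟩
      exact le_wcl hU
    · apply iSup₂_le
      intro g hg
      exact le_sSup ⟨g, rfl, hg⟩
  have hsub : S₀ ⊂ S := by
    refine ⟨fun U ⟨g, hg, hU⟩ => ⟨g, hg, hU.trans hTP⟩, ?_⟩
    intro hSS
    apply hcon
    apply iSup₂_le
    intro g hg
    obtain ⟨g', _, hU⟩ := hSS ⟨g, rfl, hg⟩
    exact hU
  have hPnil : Group.IsNilpotent (P : Subgroup G) := P.isPGroup'.isNilpotent
  have hS : ∀ U ∈ S, U ≤ (P : Subgroup G) ∧ (U.subgroupOf (P : Subgroup G)).IsSubnormal :=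
    fun U hU => ⟨hU.choose_spec.2,
      isSubnormal_of_normalizerCondition Group.normalizerCondition_of_isNilpotent _⟩
  have hconj : ∀ U ∈ S, ∀ g ∈ (P : Subgroup G), MulAut.conj g • U ∈ S := by
    rintro U ⟨g₀, rfl, hU⟩ g hg
    refine ⟨g * g₀, conj_smul_smul _ _ _, ?_⟩
    intro y hy
    obtain ⟨u, hu, rfl⟩ := exists_of_mem_conj_smul hy
    exact mul_mem (mul_mem hg (hU hu)) (inv_mem hg)
  obtain ⟨X, ⟨g₀, rfl, hXP⟩, hX₀, hXN⟩ := exists_normalizing_member_rel (P : Subgroup G) S S₀ hS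
    hconj hsub
  rw [hsS₀] at hXN
  have hXT : ¬ MulAut.conj g₀ • Z ≤ T := fun hle => hX₀ ⟨g₀, rfl, hle⟩
  set W : Subgroup G := ⨆ y ∈ Y, MulAut.conj (y * g₀) • Z with hW
  have hWN : W ≤ normalizer (T : Set G) := by
    apply iSup₂_le
    intro y hy u hu
    rw [← conj_smul_smul] at hu
    obtain ⟨v, hv, rfl⟩ := exists_of_mem_conj_smul hu
    exact mul_mem (mul_mem (hYT hy) (hXN hv)) (inv_mem (hYT hy))
  have hXW : MulAut.conj g₀ • Z ≤ W := by
    have := le_iSup₂ (f := fun y (_ : y ∈ Y) => MulAut.conj (y * g₀) • Z) 1 (one_mem Y)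
    rwa [one_mul] at this
  have hT' : IsPGroup p (T ⊔ W : Subgroup G) ∧ Y ≤ normalizer ((T ⊔ W : Subgroup G) : Set G) ∧
      T ⊔ W ≤ wcl Z (T ⊔ W) := by
    refine ⟨hTp.to_sup_of_normal_left' (h g₀) hWN, le_normalizer_sup hYT (le_normalizer_W Z Y g₀),
      sup_le (hTw.trans (wcl_mono Z le_sup_left)) ?_⟩
    apply iSup₂_le
    intro y hy
    exact le_wcl ((le_iSup₂ (f := fun y (_ : y ∈ Y) => MulAut.conj (y * g₀) • Z) y hy).trans
      le_sup_right)
  exact hXT ((hXW.trans le_sup_right).trans (hmax hT' le_sup_left))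

end Cfsg.Agent.S0541
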