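import Cfsg.Statements.S0547
import Cfsg.Agent.Lib.Helper10.MinNormal

set_option autoImplicit false
open Cfsg

namespace Cfsg.Agent.S0547

open Cfsg.Agent.Lib.Helper10

theorem pretransitive {G : Type*} [Group G] {Ω : Type*} [MulAction G Ω] [FaithfulSMul G Ω]
    (hprim : MulAction.IsPreprimitive G Ω) (M : Subgroup G) [M.Normal] (hM : M ≠ ⊥) :
    MulAction.IsPretransitive M Ω := by
  apply MulAction.IsQuasiPreprimitive.isPretransitive_of_normal (G := G)
  intro h
  apply hM
  rw [eq_bot_iff]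
  intro m hm
  rw [Subgroup.mem_bot]
  apply FaithfulSMul.eq_of_smul_eq_smul (α := Ω)
  intro ω
  have : ω ∈ MulAction.fixedPoints M Ω := by rw [h]; trivial
  rw [one_smul]
  exact this ⟨m, hm⟩

theorem stabilizer_eq_bot {G : Type*} [Group G] {Ω : Type*} [MulAction G Ω] [FaithfulSMul G Ω]
    (M : Subgroup G) (hc : ∀ x ∈ M, ∀ y ∈ M, x * y = y * x) (ht : MulAction.IsPretransitive M Ω)
    (ω : Ω) : MulAction.stabilizer M ω = ⊥ := by
  rw [eq_bot_iff]
  intro m hm
  rw [Subgroup.mem_bot]
  ext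
  apply FaithfulSMul.eq_of_smul_eq_smul (α := Ω)
  intro ω'
  obtain ⟨m', rfl⟩ := MulAction.exists_smul_eq M ω ω'
  have h1 : m • ω = ω := hm
  show (m : G) • (m' • ω) = ((1 : M) : G) • (m' • ω)
  have h2 : (m : G) • (m' • ω) = (m * m') • ω := by rw [mul_smul]; rfl
  have h3 : m * m' = m' * m := Subtype.ext (hc m m.2 m' m'.2)
  rw [h2, h3, mul_smul, h1]; simp

/-- Let a finite solvable group G act faithfully and primitively on a set, and let M be a minimal normal subgroup of G. Then M is transitive with trivial point stabilizers, and the number of points equals the order of M, which is a prime power p ^ d with d ≥ 1. -/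
theorem result {G : Type*} [Group G] [Finite G] [Group.IsSolvable G] {Ω : Type*} [Nonempty Ω] [MulAction G Ω] [FaithfulSMul G Ω] (hprim : MulAction.IsPreprimitive G Ω) (M : Subgroup G) [M.Normal] (hM : M ≠ ⊥) (hmin : ∀ K : Subgroup G, K.Normal → K ≤ M → K = ⊥ ∨ K = M) : MulAction.IsPretransitive M Ω ∧ (∀ ω : Ω, MulAction.stabilizer M ω = ⊥) ∧ ∃ p d : ℕ, p.Prime ∧ 0 < d ∧ Nat.card Ω = p ^ d ∧ Nat.card M = p ^ d := by
  have hMN : IsMinNormal M := ⟨inferInstance, hM, hmin⟩
  have ht := pretransitive hprim M hM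
  have hs := stabilizer_eq_bot M hMN.comm ht
  refine ⟨ht, hs, ?_⟩
  obtain ⟨p, hp, hEA⟩ := hMN.exists_isEA_of_solvable
  obtain ⟨d, hd, hcard⟩ := card_eq_pow_of_isEA hp hEA hM
  refine ⟨p, d, hp, hd, ?_, hcard⟩
  rw [← hcard]
  obtain ⟨ω⟩ : Nonempty Ω := inferInstance
  have hbij : Function.Bijective (fun m : M => m • ω) := by
    constructor
    · intro m m' h
      have h1 : (m'⁻¹ * m) • ω = ω := by
        rw [mul_smul]; show m'⁻¹ • (m • ω) = ω
        have : m • ω = m' • ω := h
        rw [this, inv_smul_smul]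
      have h2 : m'⁻¹ * m ∈ MulAction.stabilizer M ω := h1
      rw [hs ω, Subgroup.mem_bot] at h2
      exact (inv_mul_eq_one.mp h2).symm
    · intro ω'
      exact MulAction.exists_smul_eq M ω ω'
  exact (Nat.card_congr (Equiv.ofBijective _ hbij)).symm

end Cfsg.Agent.S0547
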