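import Cfsg.Statements.S0548
import Cfsg.Agent.Lib.Helper10.MinNormal
import Cfsg.Agent.S0547

set_option autoImplicit false
open Cfsg

namespace Cfsg.Agent.S0548

open Cfsg.Agent.Lib.Helper10

/-- Let a finite solvable group G act faithfully and primitively on a set, let M be a minimal normal subgroup and H the stabilizer of a point. Then H is a complement to M, no non-identity element of H centralizes M, and the only subgroups of M normalized by H are the trivial subgroup and M. -/
theorem result {G : Type*} [Group G] [Finite G] [Group.IsSolvable G] {Ω : Type*} [MulAction G Ω] [FaithfulSMul G Ω] (hprim : MulAction.IsPreprimitive G Ω) (M : Subgroup G) [M.Normal] (hM : M ≠ ⊥) (hmin : ∀ K : Subgroup G, K.Normal → K ≤ M → K = ⊥ ∨ K = M) (ω : Ω) : Subgroup.IsComplement' M (MulAction.stabilizer G ω) ∧ MulAction.stabilizer G ω ⊓ Subgroup.centralizer (M : Set G) = ⊥ ∧ ∀ K : Subgroup G, K ≤ M → MulAction.stabilizer G ω ≤ Subgroup.normalizer (K : Set G) → K = ⊥ ∨ K = M := by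
  have hMN : IsMinNormal M := ⟨inferInstance, hM, hmin⟩
  have ht := Cfsg.Agent.S0547.pretransitive hprim M hM
  have hs := Cfsg.Agent.S0547.stabilizer_eq_bot M hMN.comm ht
  set H := MulAction.stabilizer G ω with hH
  have hinf : M ⊓ H = ⊥ := by
    rw [eq_bot_iff]
    intro m hm
    have h1 : (⟨m, hm.1⟩ : M) ∈ MulAction.stabilizer M ω := hm.2
    rw [hs ω, Subgroup.mem_bot] at h1
    rw [Subgroup.mem_bot]
    exact congrArg Subtype.val h1
  have hmul : ∀ g : G, ∃ m ∈ M, ∃ h ∈ H, g = m * h := by
    intro g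
    obtain ⟨m, hm⟩ := MulAction.exists_smul_eq M ω (g • ω)
    refine ⟨m, m.2, (m : G)⁻¹ * g, ?_, by group⟩
    show ((m : G)⁻¹ * g) • ω = ω
    rw [mul_smul, ← hm]
    exact inv_smul_smul (m : G) ω
  have hsup : M ⊔ H = ⊤ := by
    rw [eq_top_iff]
    intro g _
    obtain ⟨m, hm, h, hh, rfl⟩ := hmul g
    exact mul_mem (Subgroup.mem_sup_left hm) (Subgroup.mem_sup_right hh)
  refine ⟨isComplement'_of_normal inferInstance hinf hsup, ?_, ?_⟩
  · rw [eq_bot_iff]
    intro h hh
    rw [Subgroup.mem_bot]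
    apply FaithfulSMul.eq_of_smul_eq_smul (α := Ω)
    intro ω'
    obtain ⟨m, rfl⟩ := MulAction.exists_smul_eq M ω ω'
    have h1 : h • ω = ω := hh.1
    have h2 : (m : G) * h = h * m := (Subgroup.mem_centralizer_iff.mp hh.2) m m.2
    show h • ((m : G) • ω) = (1 : G) • ((m : G) • ω)
    rw [← mul_smul, ← h2, mul_smul, h1, one_smul]
  · intro K hK hHK
    apply hmin K _ hK
    rw [← Subgroup.normalizer_eq_top_iff, eq_top_iff, ← hsup]
    apply sup_le _ hHK
    refine le_trans ?_ (Subgroup.centralizer_le_normalizer _)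
    intro m hm
    rw [Subgroup.mem_centralizer_iff]
    intro k hk
    exact hMN.comm k (hK hk) m hm

end Cfsg.Agent.S0548
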