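import Cfsg.Statements.S0549
import Cfsg.Agent.Lib.Helper10.MinNormal

set_option autoImplicit false
open Cfsg

namespace Cfsg.Agent.S0549

theorem not_le_of_corefree {G : Type*} [Group G] {U : Subgroup G} (hcore : U.normalCore = ⊥)
    {N : Subgroup G} (hN : N.Normal) (hne : N ≠ ⊥) : ¬ N ≤ U := by
  intro h
  apply hne
  rw [eq_bot_iff, ← hcore]
  exact (Subgroup.normal_le_normalCore).mpr h

theorem sup_eq_top_of_corefree {G : Type*} [Group G] {U : Subgroup G} (hU : IsCoatom U)
    (hcore : U.normalCore = ⊥) {N : Subgroup G} (hN : N.Normal) (hne : N ≠ ⊥) : N ⊔ U = ⊤ := by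
  apply hU.2
  exact lt_of_le_of_ne le_sup_right (fun h => not_le_of_corefree hcore hN hne (h ▸ le_sup_left))

theorem exists_mul_of_corefree {G : Type*} [Group G] {U : Subgroup G} (hU : IsCoatom U)
    (hcore : U.normalCore = ⊥) {N : Subgroup G} (hN : N.Normal) (hne : N ≠ ⊥) (g : G) :
    ∃ n ∈ N, ∃ u ∈ U, g = n * u := by
  have : g ∈ N ⊔ U := by rw [sup_eq_top_of_corefree hU hcore hN hne]; trivial
  rw [← SetLike.mem_coe, Subgroup.normal_mul] at this
  obtain ⟨n, hn, u, hu, rfl⟩ := this
  exact ⟨n, hn, u, hu, rfl⟩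

/-- Let U be a maximal subgroup of a finite group G whose normal core is trivial, and N a nontrivial normal subgroup with centralizer C. Then C ∩ U = 1, and either C = 1 or C is a minimal normal subgroup of G. -/
theorem result {G : Type*} [Group G] [Finite G] (U : Subgroup G) (hU : IsCoatom U) (hcore : U.normalCore = ⊥) (N : Subgroup G) [N.Normal] (hN : N ≠ ⊥) : Subgroup.centralizer (N : Set G) ⊓ U = ⊥ ∧ (Subgroup.centralizer (N : Set G) = ⊥ ∨ (Subgroup.centralizer (N : Set G) ≠ ⊥ ∧ ∀ K : Subgroup G, K.Normal → K ≤ Subgroup.centralizer (N : Set G) → K = ⊥ ∨ K = Subgroup.centralizer (N : Set G))) := by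
  set C := Subgroup.centralizer (N : Set G) with hC
  have hCn : C.Normal := inferInstance
  have h1 : C ⊓ U = ⊥ := by
    have hn : (C ⊓ U).Normal := by
      constructor
      intro x hx g
      obtain ⟨n, hn, u, hu, rfl⟩ := exists_mul_of_corefree hU hcore (inferInstance : N.Normal) hN g
      have hy : u * x * u⁻¹ ∈ C ⊓ U :=
        Subgroup.mem_inf.mpr ⟨hCn.conj_mem x hx.1 u, mul_mem (mul_mem hu hx.2) (inv_mem hu)⟩
      have hcomm : n * (u * x * u⁻¹) = (u * x * u⁻¹) * n := (Subgroup.mem_centralizer_iff.mp hy.1) n hn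
      have : n * u * x * (n * u)⁻¹ = u * x * u⁻¹ := by
        calc n * u * x * (n * u)⁻¹ = (n * (u * x * u⁻¹)) * n⁻¹ := by group
          _ = ((u * x * u⁻¹) * n) * n⁻¹ := by rw [hcomm]
          _ = u * x * u⁻¹ := by group
      rw [this]; exact hy
    by_contra hne
    exact not_le_of_corefree hcore hn hne inf_le_right
  refine ⟨h1, ?_⟩
  by_cases hb : C = ⊥
  · exact Or.inl hb
  · refine Or.inr ⟨hb, ?_⟩
    intro K hK hKC
    by_cases hKb : K = ⊥
    · exact Or.inl hKb
    · right
      apply le_antisymm hKC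
      intro c hc
      obtain ⟨k, hk, u, hu, rfl⟩ := exists_mul_of_corefree hU hcore hK hKb c
      have huC : u ∈ C := by
        have : u = k⁻¹ * (k * u) := by group
        rw [this]; exact mul_mem (inv_mem (hKC hk)) hc
      have : u ∈ C ⊓ U := Subgroup.mem_inf.mpr ⟨huC, hu⟩
      rw [h1, Subgroup.mem_bot] at this
      rw [this, mul_one]; exact hk

end Cfsg.Agent.S0549
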