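import Cfsg.Statements.S0550
import Cfsg.Agent.Lib.Helper10.MinNormal
import Cfsg.Agent.S0549

set_option autoImplicit false
open Cfsg

namespace Cfsg.Agent.S0550

open Cfsg.Agent.Lib.Helper10 Cfsg.Agent.S0549

theorem half {G : Type*} [Group G] [Finite G] (U : Subgroup G) (hU : IsCoatom U) (hcore : U.normalCore = ⊥) (A B : Subgroup G) [A.Normal] [B.Normal] (hA : A ≠ ⊥) (hB : B ≠ ⊥) (hAmin : ∀ K : Subgroup G, K.Normal → K ≤ A → K = ⊥ ∨ K = A) (hBmin : ∀ K : Subgroup G, K.Normal → K ≤ B → K = ⊥ ∨ K = B) (hAB : A ≠ B) :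
    A ⊓ B = ⊥ ∧ Subgroup.centralizer (A : Set G) = B ∧ B ⊓ U = ⊥ ∧
      Nonempty (A ≃* ↥((A ⊔ B) ⊓ U)) := by
  have hinf : A ⊓ B = ⊥ := by
    rcases hAmin (A ⊓ B) inferInstance inf_le_left with h | h
    · exact h
    · exfalso
      have hle : A ≤ B := inf_eq_left.mp h
      rcases hBmin A inferInstance hle with h' | h'
      · exact hA h'
      · exact hAB h'
  have hcomm : ⁅B, A⁆ = ⊥ := Subgroup.commutator_eq_bot_of_disjoint (disjoint_iff.mpr (by rw [inf_comm]; exact hinf))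
  have hBC : B ≤ Subgroup.centralizer (A : Set G) := Subgroup.commutator_eq_bot_iff_le_centralizer.mp hcomm
  obtain ⟨h1, h2⟩ := Cfsg.Agent.S0549.result U hU hcore A hA
  have hCA : Subgroup.centralizer (A : Set G) = B := by
    rcases h2 with h | ⟨_, h⟩
    · exfalso; apply hB; rw [eq_bot_iff, ← h]; exact hBC
    · exact ((h B inferInstance hBC).resolve_left hB).symm
  have hBU : B ⊓ U = ⊥ := by rw [← hCA]; exact h1
  refine ⟨hinf, hCA, hBU, ?_⟩
  apply nonempty_mulEquiv_of_complements B A ((A ⊔ B) ⊓ U) hinf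
  · rw [eq_bot_iff, ← hBU]
    exact le_inf inf_le_right (inf_le_left.trans inf_le_right)
  · apply le_antisymm
    · intro x hx
      obtain ⟨b, hb, u, hu, rfl⟩ := exists_mul_of_corefree hU hcore (inferInstance : B.Normal) hB x
      have hu' : u ∈ A ⊔ B := by
        have : u = b⁻¹ * (b * u) := by group
        rw [this]; exact mul_mem (inv_mem (Subgroup.mem_sup_right hb)) hx
      exact mul_mem (Subgroup.mem_sup_right hb) (Subgroup.mem_sup_left (Subgroup.mem_inf.mpr ⟨hu', hu⟩))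
    · exact sup_le inf_le_left le_sup_right

/-- Let U be a maximal subgroup with trivial normal core in a finite group G, and A ≠ B two minimal normal subgroups. Then A is the centralizer of B and B that of A, U complements each of them, A and B are non-abelian, and A, B and (A ⊔ B) ∩ U are pairwise isomorphic. -/
theorem result {G : Type*} [Group G] [Finite G] (U : Subgroup G) (hU : IsCoatom U) (hcore : U.normalCore = ⊥) (A B : Subgroup G) [A.Normal] [B.Normal] (hA : A ≠ ⊥) (hB : B ≠ ⊥) (hAmin : ∀ K : Subgroup G, K.Normal → K ≤ A → K = ⊥ ∨ K = A) (hBmin : ∀ K : Subgroup G, K.Normal → K ≤ B → K = ⊥ ∨ K = B) (hAB : A ≠ B) : Subgroup.centralizer (B : Set G) = A ∧ Subgroup.centralizer (A : Set G) = B ∧ Subgroup.IsComplement' A U ∧ Subgroup.IsComplement' B U ∧ ¬ IsMulCommutative A ∧ Nonempty (A ≃* B) ∧ Nonempty (A ≃* ↥((A ⊔ B) ⊓ U)) := by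
  obtain ⟨a1, a2, a3, ⟨a4⟩⟩ := half U hU hcore A B hA hB hAmin hBmin hAB
  obtain ⟨b1, b2, b3, ⟨b4⟩⟩ := half U hU hcore B A hB hA hBmin hAmin hAB.symm
  refine ⟨b2, a2, ?_, ?_, ?_, ?_, ⟨a4⟩⟩
  · exact isComplement'_of_normal inferInstance b3 (sup_eq_top_of_corefree hU hcore inferInstance hA)
  · exact isComplement'_of_normal inferInstance a3 (sup_eq_top_of_corefree hU hcore inferInstance hB)
  · intro hc
    apply hA
    have h1 : A ≤ Subgroup.centralizer (A : Set G) := Subgroup.le_centralizer A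
    rw [a2] at h1
    rw [eq_bot_iff, ← a1]
    exact le_inf le_rfl h1
  · have e : (B ⊔ A) ⊓ U = (A ⊔ B) ⊓ U := by rw [sup_comm]
    exact ⟨a4.trans ((MulEquiv.subgroupCongr e).symm.trans b4.symm)⟩

end Cfsg.Agent.S0550
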