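import Cfsg.Statements.S0583
import Mathlib

set_option autoImplicit false
open Cfsg

namespace Cfsg.Agent.S0583

/-- If `N` is a nilpotent subgroup and `M ≤ ⁅M, N⁆`, `M ≤ N`, then `M = ⊥`. -/
theorem eq_bot_of_le_commutator {G : Type*} [Group G] (M N : Subgroup G)
    (hN : Group.IsNilpotent N) (hMN : M ≤ N) (h : M ≤ ⁅M, N⁆) : M = ⊥ := by
  obtain ⟨n, hn⟩ := (Subgroup.isNilpotent_iff_lowerCentralSeries N).mp hN
  have key : ∀ k, M ≤ N.lowerCentralSeries k := by
    intro k
    induction k with
    | zero => simpa using hMN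
    | succ k ih =>
      rw [Subgroup.lowerCentralSeries_succ]
      exact h.trans (Subgroup.commutator_mono ih le_rfl)
  have := key n
  rw [hn] at this
  simpa using this

/-- In a finite group the Fitting subgroup is contained in the centralizer of each minimal normal subgroup. -/
theorem result {G : Type*} [Group G] [Finite G] (M : Subgroup G) [M.Normal] (hM : M ≠ ⊥) (hmin : ∀ K : Subgroup G, K.Normal → K ≤ M → K = ⊥ ∨ K = M) : Cfsg.fittingSubgroup G ≤ Subgroup.centralizer (M : Set G) := by
  unfold Cfsg.fittingSubgroup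
  apply sSup_le
  rintro N ⟨hNn, hNnil⟩
  rw [← Subgroup.commutator_eq_bot_iff_le_centralizer, Subgroup.commutator_comm]
  rcases hmin ⁅M, N⁆ inferInstance (Subgroup.commutator_le_left _ _) with h | h
  · exact h
  · exfalso
    apply hM
    apply eq_bot_of_le_commutator M N hNnil
    · rw [← h]; exact Subgroup.commutator_le_right _ _
    · exact h.ge

end Cfsg.Agent.S0583
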