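import Cfsg.Statements.S0551
import Cfsg.Agent.Lib.Helper10.PCore
import Cfsg.Agent.Lib.Helper10.SylowConj
import Cfsg.Agent.S0549
import Cfsg.Agent.S0583

set_option autoImplicit false
open Pointwise
open Cfsg

namespace Cfsg.Agent.S0551

open Cfsg.Agent.Lib.Helper10 Cfsg.Agent.S0549

theorem normalizer_eq_of_corefree {G : Type*} [Group G] {U : Subgroup G} (hU : IsCoatom U)
    (hcore : U.normalCore = ⊥) {Q : Subgroup G} (hQU : Q ≤ U) (hne : Q ≠ ⊥)
    (hn : U ≤ Subgroup.normalizer (Q : Set G)) : Subgroup.normalizer (Q : Set G) = U := by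
  rcases hU.le_iff.mp hn with h | h
  · exfalso
    exact not_le_of_corefree hcore (Subgroup.normalizer_eq_top_iff.mp h) hne hQU
  · exact h

/-- In a finite solvable group all core-free maximal subgroups are conjugate. -/
theorem result {G : Type*} [Group G] [Finite G] [Group.IsSolvable G] (U V : Subgroup G) (hU : IsCoatom U) (hV : IsCoatom V) (hUc : U.normalCore = ⊥) (hVc : V.normalCore = ⊥) : ∃ g : G, MulAut.conj g • U = V := by
  have hnt : Nontrivial G := by
    by_contra h
    rw [not_nontrivial_iff_subsingleton] at h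
    exact hU.1 (Subsingleton.elim _ _)
  obtain ⟨N, hN⟩ := exists_minNormal (G := G)
  have hNn := hN.1
  obtain ⟨p, hp, hEA⟩ := hN.exists_isEA_of_solvable
  have : Fact p.Prime := ⟨hp⟩
  have hNC : N ≤ Subgroup.centralizer (N : Set G) := by
    intro x hx
    rw [Subgroup.mem_centralizer_iff]
    intro y hy
    exact hN.comm y hy x hx
  have hCN : Subgroup.centralizer (N : Set G) = N := by
    obtain ⟨_, h2⟩ := Cfsg.Agent.S0549.result U hU hUc N hN.2.1
    rcases h2 with h | ⟨_, h⟩
    · exfalso; apply hN.2.1; rw [eq_bot_iff, ← h]; exact hNC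
    · exact ((h N hNn hNC).resolve_left hN.2.1).symm
  have hNU : N ⊓ U = ⊥ := by
    have := (Cfsg.Agent.S0549.result U hU hUc N hN.2.1).1
    rwa [hCN] at this
  have hNV : N ⊓ V = ⊥ := by
    have := (Cfsg.Agent.S0549.result V hV hVc N hN.2.1).1
    rwa [hCN] at this
  have hNUt : N ⊔ U = ⊤ := sup_eq_top_of_corefree hU hUc hNn hN.2.1
  have hNVt : N ⊔ V = ⊤ := sup_eq_top_of_corefree hV hVc hNn hN.2.1
  by_cases hUb : U = ⊥
  · refine ⟨1, ?_⟩
    rw [hUb] at hNUt ⊢
    rw [sup_bot_eq] at hNUt
    rw [hNUt, top_inf_eq] at hNV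
    rw [hNV]; simp
  · have hUnt : Nontrivial U := (Subgroup.nontrivial_iff_ne_bot U).mpr hUb
    obtain ⟨Q', hQ'⟩ := exists_minNormal (G := U)
    obtain ⟨q, hq, hEAq⟩ := hQ'.exists_isEA_of_solvable
    have : Fact q.Prime := ⟨hq⟩
    set Q : Subgroup G := Q'.map U.subtype with hQdef
    have hQne : Q ≠ ⊥ := by
      intro h
      apply hQ'.2.1
      rw [hQdef] at h
      exact (Subgroup.map_eq_bot_iff_of_injective _ U.subtype_injective).mp h
    have hQq : IsPGroup q Q := (IsEA.isPGroup hEAq).map _
    have hQU : Q ≤ U := Subgroup.map_subtype_le _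
    have hUQ : U ≤ Subgroup.normalizer (Q : Set G) := by
      have hn := hQ'.1
      rw [Subgroup.le_normalizer_iff]
      rintro m hm _ ⟨x, hx, rfl⟩
      exact ⟨⟨m, hm⟩ * x * ⟨m, hm⟩⁻¹, hn.conj_mem x hx ⟨m, hm⟩, by simp⟩
    set R := N ⊔ Q with hR
    have hRn : R.Normal := by
      rw [← Subgroup.normalizer_eq_top_iff, eq_top_iff, ← hNUt]
      apply sup_le
      · exact le_sup_left.trans Subgroup.le_normalizer
      · refine le_trans ?_ (Subgroup.normalizer_inf_normalizer_le_normalizer_sup N Q)
        exact le_inf Subgroup.le_normalizer_of_normal hUQ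
    have hNQ : N ⊓ Q = ⊥ := by
      rw [eq_bot_iff, ← hNU]; exact inf_le_inf_left _ hQU
    have hqp : q ≠ p := by
      rintro rfl
      apply hQne
      have h3 : IsPGroup q R := (IsEA.isPGroup hEA).to_sup_of_normal_left hQq
      have h4 : R ≤ Subgroup.centralizer (N : Set G) :=
        ((le_pCore hRn h3).trans (pCore_le_fitting q)).trans (Cfsg.Agent.S0583.result N hN.2.1 hN.2.2)
      rw [hCN] at h4
      rw [eq_bot_iff, ← hNQ]
      exact le_inf (le_sup_right.trans h4) le_rfl
    set T := R ⊓ V with hT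
    have cR : Nat.card R = Nat.card N * Nat.card Q := by
      have := card_sup_mul_card_inf' N Q Subgroup.le_normalizer_of_normal
      rwa [hNQ, Subgroup.card_bot, mul_one] at this
    have cG : Nat.card G = Nat.card N * Nat.card V := by
      have := card_sup_mul_card_inf' N V Subgroup.le_normalizer_of_normal
      rwa [hNV, Subgroup.card_bot, mul_one, hNVt, Subgroup.card_top] at this
    have hRV : R ⊔ V = ⊤ := by
      rw [eq_top_iff, ← hNVt]; exact sup_le_sup_right le_sup_left _
    have cT : Nat.card T = Nat.card Q := by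
      have := card_sup_mul_card_inf' R V Subgroup.le_normalizer_of_normal
      rw [hRV, Subgroup.card_top, cG, cR] at this
      have hpos : 0 < Nat.card N * Nat.card V := Nat.mul_pos Nat.card_pos Nat.card_pos
      apply Nat.eq_of_mul_eq_mul_left hpos
      rw [this]; ring
    have hTq : IsPGroup q T := by
      obtain ⟨n, hn⟩ := IsPGroup.iff_card.mp hQq
      exact IsPGroup.of_card (n := n) (by rw [cT, hn])
    have hTne : T ≠ ⊥ := by
      intro h
      apply hQne
      rw [← Subgroup.card_eq_one, ← cT, h, Subgroup.card_bot]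
    obtain ⟨a, ha⟩ := IsPGroup.iff_card.mp (IsEA.isPGroup hEA)
    have hnd : ¬ q ∣ Nat.card N := by
      rw [ha]
      intro h
      exact hqp ((Nat.prime_dvd_prime_iff_eq hq hp).mp (hq.dvd_of_dvd_pow h))
    have iQ : Q.relIndex R = Nat.card N := by
      have := card_mul_relIndex (le_sup_right : Q ≤ R)
      rw [cR] at this
      apply Nat.eq_of_mul_eq_mul_left (Nat.card_pos : 0 < Nat.card Q)
      rw [this]; ring
    have iT : T.relIndex R = Nat.card N := by
      have := card_mul_relIndex (inf_le_left : T ≤ R)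
      rw [cR, cT] at this
      apply Nat.eq_of_mul_eq_mul_left (Nat.card_pos : 0 < Nat.card Q)
      rw [this]; ring
    obtain ⟨r, _, hr⟩ := exists_conj_of_sylow_in (le_sup_right : Q ≤ R) (inf_le_left : T ≤ R) hQq hTq
      (by rw [iQ]; exact hnd) (by rw [iT]; exact hnd)
    refine ⟨r, ?_⟩
    have nU := normalizer_eq_of_corefree hU hUc hQU hQne hUQ
    have hVT : V ≤ Subgroup.normalizer (T : Set G) := by
      refine le_trans ?_ Subgroup.inf_normalizer_le_normalizer_inf
      exact le_inf Subgroup.le_normalizer_of_normal Subgroup.le_normalizer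
    have nV := normalizer_eq_of_corefree hV hVc (inf_le_right : T ≤ V) hTne hVT
    rw [← nU, conj_smul_normalizer, hr, nV]

end Cfsg.Agent.S0551
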