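import Cfsg.Statements.S0552
import Cfsg.Agent.S0044

set_option autoImplicit false
open Cfsg

namespace Cfsg.Agent.S0552

/-- Let σ be an automorphism of a finite solvable group G fixing every element of the Fitting subgroup. If σ is not the identity then the order of σ and the order of G have a common prime factor. -/
theorem result {G : Type*} [Group G] [Finite G] [Group.IsSolvable G] (σ : G ≃* G) (hσ : ∀ x ∈ Cfsg.fittingSubgroup G, σ x = x) (hne : σ ≠ MulEquiv.refl G) : ¬ (orderOf σ).Coprime (Nat.card G) := by
  intro hcop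
  apply hne
  have hFn : (Cfsg.fittingSubgroup G).Normal := Subgroup.sSup_normal _ (fun _ h => h.1)
  ext g
  set z := g⁻¹ * σ g with hz
  have hzC : z ∈ Subgroup.centralizer (Cfsg.fittingSubgroup G : Set G) := by
    rw [Subgroup.mem_centralizer_iff]
    intro f hf
    have h1 : σ (g * f * g⁻¹) = g * f * g⁻¹ := hσ _ (hFn.conj_mem f hf g)
    rw [map_mul, map_mul, map_inv, hσ f hf] at h1
    calc f * z = g⁻¹ * (g * f * g⁻¹) * σ g := by rw [hz]; group
      _ = g⁻¹ * (σ g * f * (σ g)⁻¹) * σ g := by rw [h1]
      _ = z * f := by rw [hz]; group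
  have hzF : σ z = z := hσ z (Cfsg.Agent.S0044.result hzC)
  have hσg : σ g = g * z := by rw [hz]; group
  have key : ∀ n : ℕ, (σ ^ n) g = g * z ^ n := by
    intro n
    induction n with
    | zero => simp
    | succ n ih =>
      rw [pow_succ', MulAut.mul_apply, ih, map_mul, map_pow, hzF, hσg, pow_succ']
      group
  have h1 := key (orderOf σ)
  rw [pow_orderOf_eq_one, MulAut.one_apply] at h1
  have h2 : z ^ orderOf σ = 1 := by
    have : g * z ^ orderOf σ = g * 1 := by rw [mul_one]; exact h1.symm
    exact mul_left_cancel this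
  have h3 : orderOf z ∣ orderOf σ := orderOf_dvd_of_pow_eq_one h2
  have h4 : orderOf z ∣ Nat.card G := orderOf_dvd_natCard z
  have h5 : orderOf z = 1 := Nat.eq_one_of_dvd_coprimes hcop h3 h4
  rw [orderOf_eq_one_iff] at h5
  rw [hσg, h5, mul_one]; rfl

end Cfsg.Agent.S0552
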