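import Cfsg.Statements.S0553
import Cfsg.Agent.Lib.Helper10.PCore
import Cfsg.Agent.Lib.Lead.Cores

set_option autoImplicit false
open Cfsg

namespace Cfsg.Agent.S0553

open Cfsg.Agent.Lib.Helper10

theorem aux (n : ℕ) : ∀ (G : Type*) [Group G] [Finite G] [Group.IsSolvable G] [Nontrivial G],
    Nat.card G = n → (∀ M : Subgroup G, IsCoatom M → (Nat.card M).Coprime M.index) →
    ∃ p : ℕ, p.Prime ∧ p ∣ Nat.card G ∧ ∀ P : Sylow p G, (P : Subgroup G).Normal := by
  induction n using Nat.strong_induction_on with
  | _ n ih =>
    intro G _ _ _ _ hn h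
    obtain ⟨N, hN⟩ := exists_minNormal (G := G)
    have hNn := hN.1
    obtain ⟨p, hp, hEA⟩ := hN.exists_isEA_of_solvable
    have : Fact p.Prime := ⟨hp⟩
    have hNp : IsPGroup p N := IsEA.isPGroup hEA
    obtain ⟨d, hd, hcardN⟩ := card_eq_pow_of_isEA hp hEA hN.2.1
    by_cases hc : ∃ M : Subgroup G, IsCoatom M ∧ ¬ N ≤ M
    · obtain ⟨M, hM, hNM⟩ := hc
      have hsup : N ⊔ M = ⊤ := by
        apply hM.2
        exact lt_of_le_of_ne le_sup_right (fun h => hNM (h ▸ le_sup_left))
      have e1 := card_sup_mul_card_inf' N M Subgroup.le_normalizer_of_normal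
      rw [hsup, Subgroup.card_top, ← Subgroup.card_mul_index M] at e1
      have e2 : M.index * Nat.card (N ⊓ M : Subgroup G) = Nat.card N := by
        apply Nat.eq_of_mul_eq_mul_left (Nat.card_pos : 0 < Nat.card M)
        rw [← mul_assoc, e1]; ring
      have hidx : M.index ∣ p ^ d := by rw [← hcardN, ← e2]; exact dvd_mul_right _ _
      have hidx1 : M.index ≠ 1 := by
        intro h1; exact hM.1 (Subgroup.index_eq_one.mp h1)
      have hpidx : p ∣ M.index := by
        obtain ⟨j, _, hj⟩ := (Nat.dvd_prime_pow hp).mp hidx
        rcases Nat.eq_zero_or_pos j with rfl | hpos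
        · exact absurd (by simpa using hj) hidx1
        · rw [hj]; exact dvd_pow_self p hpos.ne'
      have hcop := h M hM
      have hpM : (Nat.card M).Coprime p := Nat.Coprime.coprime_dvd_right hpidx hcop
      refine ⟨p, hp, ?_, ?_⟩
      · exact (dvd_card_of_isPGroup_ne_bot hNp hN.2.1).trans (Subgroup.card_subgroup_dvd_card N)
      · intro P
        have hNP : N ≤ (P : Subgroup G) := hNp.le_sylow_of_normal P
        obtain ⟨k, hk⟩ := IsPGroup.iff_card.mp P.2
        have h1 : Nat.card (P : Subgroup G) ∣ Nat.card M * M.index := by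
          rw [Subgroup.card_mul_index]; exact Subgroup.card_subgroup_dvd_card _
        have h2 : (Nat.card (P : Subgroup G)).Coprime (Nat.card M) := by
          rw [hk]; exact (Nat.Coprime.pow_right k hpM).symm
        have h3 : Nat.card (P : Subgroup G) ∣ M.index := h2.dvd_of_dvd_mul_left h1
        have h4 : Nat.card (P : Subgroup G) ≤ Nat.card N := by
          apply Nat.le_of_dvd Nat.card_pos
          rw [hcardN]; exact h3.trans hidx
        have := Subgroup.eq_of_le_of_card_ge hNP h4
        rw [← this]; exact hNn
    · push Not at hc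
      have hNF : N ≤ frattini G := by
        unfold frattini Order.radical
        rw [le_iInf₂_iff]
        exact hc
      have hNtop : N ≠ ⊤ := by
        intro ht
        obtain ⟨M, hM⟩ : ∃ M : Subgroup G, IsCoatom M := by
          obtain ⟨M, hM, _⟩ := (eq_top_or_exists_le_coatom (⊥ : Subgroup G)).resolve_left bot_ne_top
          exact ⟨M, hM⟩
        apply hM.1
        rw [eq_top_iff, ← ht]; exact hc M hM
      have hnt : Nontrivial (G ⧸ N) := by
        rw [← Finite.one_lt_card_iff_nontrivial, ← Subgroup.index_eq_card]
        have h1 : N.index ≠ 1 := fun h1 => hNtop (Subgroup.index_eq_one.mp h1)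
        have h0 : N.index ≠ 0 := Subgroup.index_ne_zero_of_finite
        omega
      have hlt : Nat.card (G ⧸ N) < n := by
        rw [← hn, ← Subgroup.index_eq_card, ← Subgroup.card_mul_index N]
        have h1 : 1 < Nat.card N := by
          rw [Subgroup.one_lt_card_iff_ne_bot]; exact hN.2.1
        have h2 : 0 < N.index := Nat.pos_of_ne_zero Subgroup.index_ne_zero_of_finite
        nlinarith
      obtain ⟨q, hq, hqd, hqn⟩ := ih _ hlt (G ⧸ N) rfl (by
        intro M hM
        have h1 := h (M.comap (QuotientGroup.mk' N))
          (Subgroup.isCoatom_comap_of_surjective (QuotientGroup.mk'_surjective _) hM)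
        rw [Subgroup.index_comap_of_surjective _ (QuotientGroup.mk'_surjective _),
          Cfsg.Agent.Lib.Lead.card_comap_mk'] at h1
        exact Nat.Coprime.coprime_dvd_left (dvd_mul_left _ _) h1)
      have : Fact q.Prime := ⟨hq⟩
      refine ⟨q, hq, ?_, ?_⟩
      · refine hqd.trans ?_
        rw [← Subgroup.index_eq_card]; exact Subgroup.index_dvd_card N
      · intro Q
        have hQn := hqn (Q.mapSurjective (QuotientGroup.mk'_surjective N))
        rw [Sylow.coe_mapSurjective] at hQn
        have hK : (((Q : Subgroup G).map (QuotientGroup.mk' N)).comap (QuotientGroup.mk' N)).Normal :=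
          hQn.comap _
        rw [Subgroup.comap_map_eq, QuotientGroup.ker_mk'] at hK
        have hF := Sylow.normalizer_sup_eq_top' Q (le_sup_left : (Q : Subgroup G) ≤ (Q : Subgroup G) ⊔ N)
        rw [← Subgroup.normalizer_eq_top_iff]
        apply frattini_nongenerating
        rw [eq_top_iff, ← hF]
        apply sup_le le_sup_left
        apply sup_le
        · exact Subgroup.le_normalizer.trans le_sup_left
        · exact hNF.trans le_sup_right

/-- Let G be a nontrivial finite solvable group in which every maximal subgroup has order coprime to its index. Then for some prime p dividing the order of G the Sylow p-subgroups of G are normal. -/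
theorem result {G : Type*} [Group G] [Finite G] [Group.IsSolvable G] [Nontrivial G] (h : ∀ M : Subgroup G, IsCoatom M → (Nat.card M).Coprime M.index) : ∃ p : ℕ, p.Prime ∧ p ∣ Nat.card G ∧ ∀ P : Sylow p G, (P : Subgroup G).Normal := by
  exact aux _ G rfl h

end Cfsg.Agent.S0553
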