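import Cfsg.Statements.S0554
import Cfsg.Agent.Lib.Helper10.PCore

set_option autoImplicit false
open Cfsg

namespace Cfsg.Agent.S0554

open Cfsg.Agent.Lib.Helper10

theorem move {G : Type*} [Group G] (N : Subgroup G) (hN : N.Normal) (t : ℕ) :
    ∀ (H : Fin t → Subgroup G) (j : Fin t) (_ : N ≤ H j) (s : Fin t → G) (_ : ∀ i, s i ∈ H i)
      (n : G) (_ : n ∈ N),
      ∃ s' : Fin t → G, (∀ i, s' i ∈ H i) ∧ (List.ofFn s').prod = (List.ofFn s).prod * n := by
  induction t with
  | zero => intro H j; exact j.elim0
  | succ t ih =>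
    intro H j hj s hs n hn
    set g' := (List.ofFn (fun i : Fin t => s i.succ)).prod with hg'
    induction j using Fin.cases with
    | zero =>
      refine ⟨Fin.cons (s 0 * (g' * n * g'⁻¹)) (fun i : Fin t => s i.succ), ?_, ?_⟩
      · intro i
        induction i using Fin.cases with
        | zero =>
          simp only [Fin.cons_zero]
          exact mul_mem (hs 0) (hj (hN.conj_mem n hn g'))
        | succ i => simpa using hs i.succ
      · rw [List.ofFn_succ, List.ofFn_succ, List.prod_cons, List.prod_cons]
        simp only [Fin.cons_zero, Fin.cons_succ]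
        rw [← hg']; group
    | succ j =>
      obtain ⟨s'', hs'', hprod⟩ := ih (fun i => H i.succ) j hj (fun i => s i.succ) (fun i => hs i.succ) n hn
      refine ⟨Fin.cons (s 0) s'', ?_, ?_⟩
      · intro i
        induction i using Fin.cases with
        | zero => simpa using hs 0
        | succ i => simpa using hs'' i
      · rw [List.ofFn_succ, List.ofFn_succ, List.prod_cons, List.prod_cons]
        simp only [Fin.cons_zero, Fin.cons_succ]
        rw [hprod, mul_assoc]

theorem aux (n : ℕ) : ∀ (G : Type*) [Group G] [Finite G] [Group.IsSolvable G], Nat.card G = n →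
    ∀ (t : ℕ) (p : Fin t → ℕ) (_ : ∀ i, (p i).Prime)
    (_ : ∀ q : ℕ, q.Prime → q ∣ Nat.card G → ∃ i, p i = q) (S : (i : Fin t) → Sylow (p i) G),
    ∀ g : G, ∃ s : (i : Fin t) → G, (∀ i, s i ∈ (S i : Subgroup G)) ∧ g = (List.ofFn s).prod := by
  induction n using Nat.strong_induction_on with
  | _ n ih =>
    intro G _ _ _ hn t p hp hall S g
    rcases subsingleton_or_nontrivial G with hs | hnt
    · refine ⟨fun _ => 1, fun i => one_mem _, Subsingleton.elim _ _⟩
    obtain ⟨N, hN⟩ := exists_minNormal (G := G)
    have hNn := hN.1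
    obtain ⟨q, hq, hEA⟩ := hN.exists_isEA_of_solvable
    have : Fact q.Prime := ⟨hq⟩
    have hNq : IsPGroup q N := IsEA.isPGroup hEA
    have hqd : q ∣ Nat.card G :=
      (dvd_card_of_isPGroup_ne_bot hNq hN.2.1).trans (Subgroup.card_subgroup_dvd_card N)
    obtain ⟨j, hj⟩ := hall q hq hqd
    have hNS : N ≤ (S j : Subgroup G) := by
      have h1 : IsPGroup (p j) N := by rw [hj]; exact hNq
      exact h1.le_sylow_of_normal (S j)
    have hlt : Nat.card (G ⧸ N) < n := by
      rw [← hn, ← Subgroup.index_eq_card, ← Subgroup.card_mul_index N]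
      have h1 : 1 < Nat.card N := by
        rw [Subgroup.one_lt_card_iff_ne_bot]; exact hN.2.1
      have h2 : 0 < N.index := Nat.pos_of_ne_zero Subgroup.index_ne_zero_of_finite
      nlinarith
    have hF : ∀ i, Fact (p i).Prime := fun i => ⟨hp i⟩
    obtain ⟨sbar, hsbar, hprod⟩ := ih _ hlt (G ⧸ N) rfl t p hp (by
      intro r hr hrd
      apply hall r hr
      refine hrd.trans ?_
      rw [← Subgroup.index_eq_card]; exact Subgroup.index_dvd_card N)
      (fun i => (S i).mapSurjective (QuotientGroup.mk'_surjective N)) (QuotientGroup.mk' N g)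
    have hex : ∀ i, ∃ x ∈ (S i : Subgroup G), QuotientGroup.mk' N x = sbar i := fun i => hsbar i
    choose s hs hs' using hex
    have h1 : QuotientGroup.mk' N g = QuotientGroup.mk' N (List.ofFn s).prod := by
      rw [hprod, map_list_prod, List.map_ofFn]
      congr 2
      funext i
      exact (hs' i).symm
    have h2 : ((List.ofFn s).prod)⁻¹ * g ∈ N := QuotientGroup.eq.mp h1.symm
    obtain ⟨s', hs1, hs2⟩ := move N hNn t (fun i => (S i : Subgroup G)) j hNS s hs _ h2
    refine ⟨s', hs1, ?_⟩
    rw [hs2]; group

/-- Let G be a finite solvable group and let S assign to each of t distinct primes, including every prime divisor of the order of G, a Sylow subgroup of G. Then every element of G is a product s_0 s_1 ⋯ s_(t-1) with s_i in S i, the factors taken in the given order. -/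
theorem result {G : Type*} [Group G] [Finite G] [Group.IsSolvable G] (t : ℕ) (p : Fin t → ℕ) (hp : ∀ i, (p i).Prime) (hinj : Function.Injective p) (hall : ∀ q : ℕ, q.Prime → q ∣ Nat.card G → ∃ i, p i = q) (S : (i : Fin t) → Sylow (p i) G) : ∀ g : G, ∃ s : (i : Fin t) → G, (∀ i, s i ∈ (S i : Subgroup G)) ∧ g = (List.ofFn s).prod := by
  exact aux _ G rfl t p hp hall S

end Cfsg.Agent.S0554
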