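import Cfsg.Statements.S0555
import Mathlib

set_option autoImplicit false
open Cfsg

namespace Cfsg.Agent.S0555

open scoped commutatorElement

/-- from cyclicity of `B / C` get a generator -/
theorem exists_gen {G : Type*} [Group G] (B C : Subgroup G) [(C.subgroupOf B).Normal]
    (h : IsCyclic (↥B ⧸ C.subgroupOf B)) :
    ∃ b ∈ B, ∀ x ∈ B, ∃ k : ℤ, (b ^ k)⁻¹ * x ∈ C := by
  obtain ⟨g, hg⟩ := h.exists_generator
  obtain ⟨b, rfl⟩ := QuotientGroup.mk_surjective g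
  refine ⟨b, b.2, fun x hx => ?_⟩
  obtain ⟨k, hk⟩ := hg (QuotientGroup.mk ⟨x, hx⟩)
  refine ⟨k, ?_⟩
  have h1 : (QuotientGroup.mk (b ^ k) : ↥B ⧸ C.subgroupOf B) = QuotientGroup.mk ⟨x, hx⟩ := by
    rw [QuotientGroup.mk_zpow]; exact hk
  have h2 := QuotientGroup.eq.mp h1
  rw [Subgroup.mem_subgroupOf] at h2
  simpa using h2

/-- Let i ≥ 1. If in the derived series of a group the quotient of the i-th term by the (i+1)-st and the quotient of the (i+1)-st by the (i+2)-nd are both cyclic, then the (i+1)-st and (i+2)-nd terms coincide. -/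
theorem result {G : Type*} [Group G] (i : ℕ) (hi : 1 ≤ i) (h₁ : IsCyclic (↥(derivedSeries G i) ⧸ (derivedSeries G (i + 1)).subgroupOf (derivedSeries G i))) (h₂ : IsCyclic (↥(derivedSeries G (i + 1)) ⧸ (derivedSeries G (i + 2)).subgroupOf (derivedSeries G (i + 1)))) : derivedSeries G (i + 1) = derivedSeries G (i + 2) := by
  apply le_antisymm _ (derivedSeries_antitone G (by omega))
  have hAB : derivedSeries G (i + 1) = ⁅derivedSeries G i, derivedSeries G i⁆ := derivedSeries_succ G i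
  have hA1 : derivedSeries G i ≤ commutator G := by
    rw [← derivedSeries_one]; exact derivedSeries_antitone G hi
  have hBn : (derivedSeries G (i + 1)).Normal := derivedSeries_normal G _
  have hCn : (derivedSeries G (i + 2)).Normal := derivedSeries_normal G _
  obtain ⟨a, ha, hagen⟩ := exists_gen _ _ h₁
  obtain ⟨b, hb, hbgen⟩ := exists_gen _ _ h₂
  clear h₁ h₂
  generalize derivedSeries G i = A at *
  generalize derivedSeries G (i + 1) = B at *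
  generalize derivedSeries G (i + 2) = C at *
  let π := QuotientGroup.mk' C
  have hπ : ∀ x y : G, x⁻¹ * y ∈ C → π x = π y := fun x y h => QuotientGroup.eq.mpr h
  set β := π b with hβ
  set α := π a with hα
  have hB : ∀ x ∈ B, ∃ k : ℤ, π x = β ^ k := by
    intro x hx
    obtain ⟨k, hk⟩ := hbgen x hx
    exact ⟨k, by rw [hβ, ← map_zpow]; exact (hπ _ _ hk).symm⟩
  have hconj : ∀ x : G ⧸ C, ∃ m : ℤ, x * β * x⁻¹ = β ^ m := by
    intro x
    obtain ⟨g, rfl⟩ := QuotientGroup.mk'_surjective C x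
    obtain ⟨m, hm⟩ := hB (g * b * g⁻¹) (hBn.conj_mem b hb g)
    exact ⟨m, by rw [← hm]; simp [π, hβ]⟩
  have hcomm : ∀ x y : G ⧸ C, ⁅x, y⁆ * β = β * ⁅x, y⁆ := by
    intro x y
    obtain ⟨m, hm⟩ := hconj x⁻¹
    obtain ⟨n, hn⟩ := hconj y⁻¹
    have e1 : (x⁻¹ * y⁻¹) * β * (x⁻¹ * y⁻¹)⁻¹ = β ^ (n * m) := by
      calc (x⁻¹ * y⁻¹) * β * (x⁻¹ * y⁻¹)⁻¹ = x⁻¹ * (y⁻¹ * β * y⁻¹⁻¹) * x⁻¹⁻¹ := by group
        _ = x⁻¹ * β ^ n * x⁻¹⁻¹ := by rw [hn]
        _ = (x⁻¹ * β * x⁻¹⁻¹) ^ n := by rw [conj_zpow]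
        _ = β ^ (n * m) := by rw [hm, ← zpow_mul, mul_comm]
    have e2 : (y⁻¹ * x⁻¹) * β * (y⁻¹ * x⁻¹)⁻¹ = β ^ (n * m) := by
      calc (y⁻¹ * x⁻¹) * β * (y⁻¹ * x⁻¹)⁻¹ = y⁻¹ * (x⁻¹ * β * x⁻¹⁻¹) * y⁻¹⁻¹ := by group
        _ = y⁻¹ * β ^ m * y⁻¹⁻¹ := by rw [hm]
        _ = (y⁻¹ * β * y⁻¹⁻¹) ^ m := by rw [conj_zpow]
        _ = β ^ (n * m) := by rw [hn, ← zpow_mul]
    have e3 : ⁅x, y⁆ = (y⁻¹ * x⁻¹)⁻¹ * (x⁻¹ * y⁻¹) := by
      rw [commutatorElement_def]; group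
    rw [e3]
    calc (y⁻¹ * x⁻¹)⁻¹ * (x⁻¹ * y⁻¹) * β
        = (y⁻¹ * x⁻¹)⁻¹ * ((x⁻¹ * y⁻¹) * β * (x⁻¹ * y⁻¹)⁻¹) * (x⁻¹ * y⁻¹) := by group
      _ = (y⁻¹ * x⁻¹)⁻¹ * ((y⁻¹ * x⁻¹) * β * (y⁻¹ * x⁻¹)⁻¹) * (x⁻¹ * y⁻¹) := by rw [e1, e2]
      _ = β * ((y⁻¹ * x⁻¹)⁻¹ * (x⁻¹ * y⁻¹)) := by group
  have hcent : commutator (G ⧸ C) ≤ Subgroup.centralizer ({β} : Set (G ⧸ C)) := by
    rw [commutator_eq_closure, Subgroup.closure_le]
    rintro _ ⟨x, y, rfl⟩
    rw [SetLike.mem_coe, Subgroup.mem_centralizer_singleton_iff]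
    exact hcomm x y
  have hαβ : α * β = β * α := by
    have h1 : α ∈ commutator (G ⧸ C) := by
      have : a ∈ commutator G := hA1 ha
      have h2 : π a ∈ (commutator G).map π := ⟨a, this, rfl⟩
      rw [map_commutator_eq] at h2
      exact Subgroup.commutator_mono le_top le_top h2
    have := hcent h1
    rwa [Subgroup.mem_centralizer_singleton_iff] at this
  have hA : ∀ x ∈ A, ∃ k l : ℤ, π x = α ^ k * β ^ l := by
    intro x hx
    obtain ⟨k, hk⟩ := hagen x hx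
    obtain ⟨l, hl⟩ := hB _ hk
    refine ⟨k, l, ?_⟩
    rw [← hl, hα, ← map_zpow, ← map_mul]
    congr 1; group
  rw [hAB, Subgroup.commutator_le]
  intro x hx y hy
  obtain ⟨k, l, hxe⟩ := hA x hx
  obtain ⟨k', l', hye⟩ := hA y hy
  have hc : Commute α β := hαβ
  have h1 : Commute (π x) (π y) := by
    rw [hxe, hye]
    apply Commute.mul_left
    · apply Commute.mul_right
      · exact (Commute.refl α).zpow_zpow k k'
      · exact hc.zpow_zpow k l'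
    · apply Commute.mul_right
      · exact (hc.symm).zpow_zpow l k'
      · exact (Commute.refl β).zpow_zpow l l'
  have h2 : π ⁅x, y⁆ = 1 := by
    rw [map_commutatorElement]; exact h1.commutator_eq
  exact (QuotientGroup.eq_one_iff _).mp h2

end Cfsg.Agent.S0555
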