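import Mathlib
import Cfsg.Statements.S0556
import Cfsg.Agent.S0034
import Cfsg.Agent.S0035
import Cfsg.Agent.S3743
import Cfsg.Agent.Lib.Helper1.CoprimeSylow
import Cfsg.Agent.Lib.Helper1.MinimalNormal
import Cfsg.Agent.Lib.Helper1.Frattini
import Cfsg.Agent.Lib.Helper1.Tools
import Cfsg.Agent.Lib.Helper91.Fitting
-- import your own Cfsg.Agent.* helpers here

set_option autoImplicit false
open Cfsg
open Cfsg.Agent.Lib.Helper91
open scoped commutatorElement
open scoped Pointwise

namespace Cfsg.Agent.S0556


theorem comm_bot {G : Type*} [Group G] {M : Subgroup G} (hMc : ∀ a ∈ M, ∀ b ∈ M, a * b = b * a) :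
    ⁅M, M⁆ = ⊥ := by
  rw [eq_bot_iff, Subgroup.commutator_le]
  intro a ha b hb
  rw [commutatorElement_eq_one_iff_mul_comm.2 (hMc a ha b hb)]
  exact Subgroup.one_mem _

/-- if `X` is normalized by the complement `M` of `N`, `X ≤ N` and `X ⊔ M = ⊤` then `X = N`. -/
theorem eq_of_sup_eq_top {G : Type*} [Group G] [Finite G] {N M X : Subgroup G}
    (hc : N.IsComplement' M) (hXN : X ≤ N) (hn : M ≤ Subgroup.normalizer (X : Set G))
    (htop : X ⊔ M = ⊤) : X = N := by
  apply Subgroup.eq_of_le_of_card_ge hXN
  have h1 : Nat.card (M ⊔ X : Subgroup G) ∣ Nat.card M * Nat.card X :=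
    Cfsg.Agent.S3743.card_sup_dvd M X hn
  rw [sup_comm, htop, Subgroup.card_top, ← hc.card_mul_card, mul_comm] at h1
  exact Nat.le_of_dvd Nat.card_pos (Nat.dvd_of_mul_dvd_mul_left Nat.card_pos h1)

/-- A Frobenius group with an abelian maximal Frobenius complement is metabelian. -/
theorem metabelian_of_frobenius {G : Type*} [Group G] [Finite G] (M : Subgroup G) (hM : IsCoatom M)
    (hMc : ∀ a ∈ M, ∀ b ∈ M, a * b = b * a) (hF : Cfsg.IsFrobeniusComplement M) :
    derivedSeries G 2 = ⊥ := by
  obtain ⟨N, -, hNn, hc⟩ := Cfsg.Agent.S0035.result M hF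
  have hdisj : N ⊓ M = ⊥ := hc.disjoint.eq_bot
  have hsup : N ⊔ M = ⊤ := hc.sup_eq_top
  have hcardN : Nat.card N = M.index := by
    have h1 := hc.card_mul_card
    rw [← M.card_mul_index, mul_comm] at h1
    exact Nat.eq_of_mul_eq_mul_left Nat.card_pos h1
  have hcop : (Nat.card M).Coprime (Nat.card N) := by
    have h1 : M.index ≡ 1 [MOD Nat.card M] := (Cfsg.Agent.S0034.result M hF).2
    have h2 := h1.gcd_eq
    rw [Nat.gcd_one_left] at h2
    rw [hcardN]
    exact Nat.Coprime.symm h2
  have hNne : N ≠ ⊥ := by
    rintro rfl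
    rw [bot_sup_eq] at hsup
    exact hM.1 hsup
  have hcard1 : Nat.card N ≠ 1 := fun h => hNne (Subgroup.card_eq_one.1 h)
  obtain ⟨r, hr, hrd⟩ := Nat.exists_prime_and_dvd hcard1
  have := Fact.mk hr
  have hMsol : Group.IsSolvable M := by
    apply Group.isSolvable_of_comm
    intro a b
    exact Subtype.ext (hMc a a.2 b b.2)
  have hMN : M ≤ Subgroup.normalizer (N : Set G) := by
    rw [Subgroup.normalizer_eq_top_iff.2 hNn]; exact le_top
  obtain ⟨R, hRN, hRr, hRi, hMR⟩ :=
    Cfsg.Agent.Lib.Helper1.exists_invariant_sylow M N hMN hcop (Or.inl hMsol) r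
  -- dichotomy for `M`-invariant subgroups of `N`
  have dich : ∀ X : Subgroup G, X ≤ N → M ≤ Subgroup.normalizer (X : Set G) → X = ⊥ ∨ X = N := by
    intro X hXN hn
    rcases hM.le_iff.1 (le_sup_right : M ≤ X ⊔ M) with h | h
    · exact Or.inr (eq_of_sup_eq_top hc hXN hn h)
    · left
      have : X ≤ M := h ▸ le_sup_left
      exact le_bot_iff.1 (hdisj ▸ le_inf hXN this)
  have hRN' : R = N := by
    rcases dich R hRN hMR with h | h
    · exfalso
      apply hRi
      rw [h, Subgroup.relIndex_bot_left]
      exact hrd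
    · exact h
  have hNr : IsPGroup r N := hRN' ▸ hRr
  have hNsol : Group.IsSolvable N := by
    have := hNr.isNilpotent
    infer_instance
  have hN' : ⁅N, N⁆ = ⊥ := by
    have hn : (⁅N, N⁆).Normal := inferInstance
    rcases dich ⁅N, N⁆ (Subgroup.commutator_le_left N N)
      (by rw [Subgroup.normalizer_eq_top_iff.2 hn]; exact le_top) with h | h
    · exact h
    · exact absurd h (Cfsg.Agent.Lib.Helper1.commutator_lt_of_isSolvable hNsol hNne).ne
  have h1 : ⁅(⊤ : Subgroup G), ⊤⁆ ≤ N := by
    rw [← hsup]
    apply sup_commutator_le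
    · exact Subgroup.commutator_le_left _ _
    · apply commutator_sup_le
      · exact Subgroup.commutator_le_right _ _
      · rw [comm_bot hMc]; exact bot_le
  rw [derivedSeries_succ, derivedSeries_succ, derivedSeries_zero, eq_bot_iff, ← hN']
  exact Subgroup.commutator_mono h1 h1

/-- If a finite group has a maximal subgroup that is abelian, then the third term of its derived series is trivial (so the group is solvable of derived length at most three). -/
theorem result {G : Type*} [Group G] [Finite G] (A : Subgroup G) (hA : IsCoatom A) [IsMulCommutative A] : derivedSeries G 3 = ⊥ := by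
  classical
  have hAc : ∀ a ∈ A, ∀ b ∈ A, a * b = b * a := fun a ha b hb => setLike_mul_comm ha hb
  by_cases hAn : A.Normal
  · -- `G/A` is cyclic
    obtain ⟨g, hg⟩ : ∃ g : G, g ∉ A := by
      by_contra hcon
      push Not at hcon
      exact hA.1 (eq_top_iff.2 fun x _ => hcon x)
    have hsup : Subgroup.zpowers g ⊔ A = ⊤ := by
      rcases hA.le_iff.1 (le_sup_right : A ≤ Subgroup.zpowers g ⊔ A) with h | h
      · exact h
      · exact absurd (h ▸ (le_sup_left : Subgroup.zpowers g ≤ _) (Subgroup.mem_zpowers g)) hg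
    have h1 : ⁅(⊤ : Subgroup G), ⊤⁆ ≤ A := by
      rw [← hsup]
      apply sup_commutator_le
      · apply commutator_sup_le
        · rw [comm_bot]
          · exact bot_le
          · intro a ha b hb
            exact setLike_mul_comm ha hb
        · exact Subgroup.commutator_le_right _ _
      · exact Subgroup.commutator_le_left _ _
    have h2 : derivedSeries G 2 = ⊥ := by
      rw [derivedSeries_succ, derivedSeries_succ, derivedSeries_zero, eq_bot_iff, ← comm_bot hAc]
      exact Subgroup.commutator_mono h1 h1
    rw [derivedSeries_succ, h2, Subgroup.commutator_bot_left]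
  · have hnorm : Subgroup.normalizer (A : Set G) = A := by
      rcases hA.le_iff.1 (Subgroup.le_normalizer : A ≤ Subgroup.normalizer (A : Set G)) with h | h
      · exact absurd (Subgroup.normalizer_eq_top_iff.1 h) hAn
      · exact h
    have hZA : Subgroup.center G ≤ A := by
      rw [← hnorm]
      intro z hz
      rw [Subgroup.mem_normalizer_iff]
      intro x
      rw [(Subgroup.mem_center_iff.1 hz x).symm, mul_inv_cancel_right]
    have hTI : ∀ g : G, g ∉ A → ∀ x ∈ A, g⁻¹ * x * g ∈ A → x ∈ Subgroup.center G := by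
      intro g hg x hx hx'
      set B := MulAut.conj g • A with hB
      have hBmem : ∀ y, y ∈ B ↔ g⁻¹ * y * g ∈ A := fun y => Cfsg.Agent.Lib.Helper1.mem_conj_smul_iff
      have hBA : ¬ B ≤ A := by
        intro hle
        have hcard : Nat.card B = Nat.card A := Cfsg.Agent.Lib.Helper1.card_conj_smul g A
        have heq : B = A := Subgroup.eq_of_le_of_card_ge hle hcard.ge
        apply hg
        rw [← hnorm]
        exact Cfsg.Agent.Lib.Helper1.mem_normalizer_iff_conj_smul.2 heq
      have hsup : A ⊔ B = ⊤ := by
        rcases hA.le_iff.1 (le_sup_left : A ≤ A ⊔ B) with h | h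
        · exact h
        · exact absurd (h ▸ le_sup_right) hBA
      have hcen : Subgroup.centralizer ({x} : Set G) = ⊤ := by
        rw [eq_top_iff, ← hsup]
        apply sup_le
        · intro a ha
          rw [Subgroup.mem_centralizer_singleton_iff]
          exact hAc a ha x hx
        · intro b hb
          rw [Subgroup.mem_centralizer_singleton_iff]
          have h1 := hAc _ ((hBmem b).1 hb) _ hx'
          have e1 : g⁻¹ * b * g * (g⁻¹ * x * g) = g⁻¹ * (b * x) * g := by group
          have e2 : g⁻¹ * x * g * (g⁻¹ * b * g) = g⁻¹ * (x * b) * g := by group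
          rw [e1, e2] at h1
          exact mul_left_cancel (mul_right_cancel h1)
      rw [Subgroup.mem_center_iff]
      intro y
      have : y ∈ Subgroup.centralizer ({x} : Set G) := hcen ▸ Subgroup.mem_top y
      exact Subgroup.mem_centralizer_singleton_iff.1 this
    let π := QuotientGroup.mk' (Subgroup.center G)
    have hπs : Function.Surjective π := QuotientGroup.mk'_surjective _
    have hker : π.ker ≤ A := by rw [QuotientGroup.ker_mk']; exact hZA
    have hπ1 : ∀ x : G, π x = 1 ↔ x ∈ Subgroup.center G := fun x => QuotientGroup.eq_one_iff x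
    have hmemA : ∀ x : G, π x ∈ A.map π ↔ x ∈ A := by
      intro x
      rw [← Subgroup.mem_comap, Subgroup.comap_map_eq_self hker]
    have hco : IsCoatom (A.map π) := Cfsg.Agent.Lib.Helper1.isCoatom_map_of_surjective hπs hker hA
    have hFrob : Cfsg.IsFrobeniusComplement (A.map π) := by
      refine ⟨?_, hco.1, ?_⟩
      · intro h
        apply hAn
        have hle : A ≤ Subgroup.center G := by
          intro a ha
          rw [← hπ1]
          have : π a ∈ A.map π := ⟨a, ha, rfl⟩
          rwa [h, Subgroup.mem_bot] at this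
        rw [le_antisymm hle hZA]
        infer_instance
      · intro g' hg'
        obtain ⟨g, rfl⟩ := hπs g'
        have hg : g ∉ A := fun h => hg' ((hmemA g).2 h)
        rw [eq_bot_iff]
        rintro x' ⟨hx1, hx2⟩
        obtain ⟨x, rfl⟩ := hπs x'
        have h1 : x ∈ A := (hmemA x).1 hx1
        have h2 : g⁻¹ * x * g ∈ A := by
          rw [← hmemA]
          have := Cfsg.Agent.Lib.Helper1.mem_conj_smul_iff.1 hx2
          simpa using this
        rw [Subgroup.mem_bot, hπ1]
        exact hTI g hg x h1 h2
    have hmeta : derivedSeries (G ⧸ Subgroup.center G) 2 = ⊥ := by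
      apply metabelian_of_frobenius (A.map π) hco _ hFrob
      rintro _ ⟨a, ha, rfl⟩ _ ⟨b, hb, rfl⟩
      rw [← map_mul, ← map_mul, hAc a ha b hb]
    have h2 : derivedSeries G 2 ≤ Subgroup.center G := by
      have := map_derivedSeries_eq hπs 2
      rw [hmeta, Subgroup.map_eq_bot_iff, QuotientGroup.ker_mk'] at this
      exact this
    rw [derivedSeries_succ, eq_bot_iff, Subgroup.commutator_le]
    intro a ha b hb
    rw [commutatorElement_eq_one_iff_mul_comm.2 ((Subgroup.mem_center_iff.1 (h2 hb)) a)]
    exact Subgroup.one_mem _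

end Cfsg.Agent.S0556
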