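import Cfsg.Statements.S0563
import Mathlib
import Cfsg.Agent.Lib.Helper91.KW7

set_option autoImplicit false
open Pointwise
open Cfsg
open Cfsg.Agent.Lib.Helper91.KW

namespace Cfsg.Agent.S0563

/-- If a finite group G is the product AB of two nilpotent subgroups of coprime orders, then G is solvable, and for every Sylow p-subgroup P of A and Sylow q-subgroup Q of B the product set PQ is a subgroup. -/
theorem result {G : Type*} [Group G] [Finite G] (A B : Subgroup G) (hA : Group.IsNilpotent A) (hB : Group.IsNilpotent B) (hcop : (Nat.card A).Coprime (Nat.card B)) (hAB : ∀ g : G, ∃ a ∈ A, ∃ b ∈ B, g = a * b) : Group.IsSolvable G ∧ ∀ (p q : ℕ) [Fact p.Prime] [Fact q.Prime] (P : Sylow p A) (Q : Sylow q B), ∃ S : Subgroup G, (S : Set G) = (((P : Subgroup A).map A.subtype : Subgroup G) : Set G) * (((Q : Subgroup B).map B.subtype : Subgroup G) : Set G) := by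
  have hf : Fac A B := ⟨hA, hB, hcop, hAB⟩
  have hsolv : Group.IsSolvable G := wielandt hf
  refine ⟨hsolv, ?_⟩
  intro p q _ _ P Q
  have key : ∀ {A B : Subgroup G} (hf : Fac A B) (p : ℕ) [Fact p.Prime],
      (Nat.card (syl A p)).Coprime (syl A p).index := by
    intro A B hf p _
    by_cases hp : p ∣ Nat.card A
    · obtain ⟨k, hk⟩ := IsPGroup.iff_card.1 (syl_isPGroup (A := A) (p := p))
      rw [hk]
      exact Nat.Coprime.pow_left k
        ((Nat.Prime.coprime_iff_not_dvd Fact.out).2 (syl_not_dvd_index hf.hall_left hp))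
    · rw [syl_eq_bot hp, Subgroup.card_bot]
      exact Nat.coprime_one_left _
  obtain ⟨h1, h2, h3⟩ := Cfsg.Agent.Lib.Helper1.sylow_map_subtype_props P
  obtain ⟨h4, h5, h6⟩ := Cfsg.Agent.Lib.Helper1.sylow_map_subtype_props Q
  rw [syl_eq hA h1 h2 h3, syl_eq hB h4 h5 h6]
  obtain ⟨S, hS⟩ := Cfsg.Agent.S0561.result A B (syl A p) (syl B q) hAB syl_le
    ((Subgroup.normal_subgroupOf_iff_le_normalizer syl_le).2 (le_normalizer_syl hA)) syl_le
    ((Subgroup.normal_subgroupOf_iff_le_normalizer syl_le).2 (le_normalizer_syl hB))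
    (key hf p) (key hf.symm q) 1 1
  rw [map_one, one_smul, one_smul] at hS
  exact ⟨S, hS⟩

end Cfsg.Agent.S0563
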