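import Cfsg.Statements.S0565
import Mathlib
import Cfsg.Agent.Lib.Helper91.KW9

set_option autoImplicit false
open Cfsg
open Cfsg.Agent.Lib.Helper91 Cfsg.Agent.Lib.Helper91.KW

namespace Cfsg.Agent.S0565

universe u

theorem exists_normal_of_nilpotent {G : Type*} [Group G] [Finite G] (hG : Group.IsNilpotent G)
    {A : Subgroup G} (hA : A ≠ ⊤) : ∃ N : Subgroup G, N.Normal ∧ N ≠ ⊤ ∧ A ≤ N := by
  rcases eq_top_or_exists_le_coatom A with h | ⟨M, hM, hAM⟩
  · exact absurd h hA
  · have q := (Group.isNilpotent_of_finite_tfae (G := G)).out 0 2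
    exact ⟨M, (q.1 hG) M hM, hM.1, hAM⟩

/-- key step: a nilpotent supplement of the minimal normal `r`-subgroup `K`, containing no
nontrivial normal subgroup of `G`, has order prime to `r`. -/
theorem not_dvd_card_of_supplement {G : Type*} [Group G] [Finite G] {r : ℕ} [Fact r.Prime]
    {K : Subgroup G} [hKn : K.Normal] (hKp : IsPGroup r K) (hKab : IsMulCommutative K)
    (hKne : K ≠ ⊥)
    (hmin : ∀ M : Subgroup G, M.Normal → M ≤ K → M = ⊥ ∨ M = K)
    {A : Subgroup G} (hA : Group.IsNilpotent A) (hAK : A ⊔ K = ⊤)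
    (hcore : ∀ M : Subgroup G, M.Normal → M ≤ A → M = ⊥) : ¬ r ∣ Nat.card A := by
  intro hr
  obtain ⟨z, hzS, hz1, hzc⟩ := exists_central_of_normal_in_nilpotent hA
    (syl_le (A := A) (p := r)) (le_normalizer_syl hA) (syl_ne_bot hr)
  have hzp : IsPGroup r (Subgroup.zpowers z) :=
    (syl_isPGroup (A := A) (p := r)).to_le (by rwa [Subgroup.zpowers_le])
  have hHp : IsPGroup r (K ⊔ Subgroup.zpowers z : Subgroup G) :=
    IsPGroup.to_sup_of_normal_left hKp hzp
  obtain ⟨w, hwK, hw1, hwc⟩ := exists_central_of_normal_in_nilpotent hHp.isNilpotent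
    (le_sup_left : K ≤ K ⊔ Subgroup.zpowers z) Subgroup.le_normalizer_of_normal hKne
  set D := K ⊓ Subgroup.centralizer ({z} : Set G) with hD
  have hwD : w ∈ D := by
    refine Subgroup.mem_inf.2 ⟨hwK, ?_⟩
    rw [Subgroup.mem_centralizer_singleton_iff]
    exact (hwc z (Subgroup.mem_sup_right (Subgroup.mem_zpowers z))).symm
  have hDn : D.Normal := by
    rw [← Subgroup.normalizer_eq_top_iff, eq_top_iff, ← hAK]
    apply sup_le
    · rw [Subgroup.le_normalizer_iff]
      intro a ha d hd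
      obtain ⟨hd1, hd2⟩ := Subgroup.mem_inf.1 hd
      refine Subgroup.mem_inf.2 ⟨hKn.conj_mem d hd1 a, ?_⟩
      rw [Subgroup.mem_centralizer_singleton_iff] at hd2 ⊢
      have e1 : a * z = z * a := hzc a ha
      have e2 : a⁻¹ * z = z * a⁻¹ := hzc a⁻¹ (inv_mem ha)
      calc a * d * a⁻¹ * z = a * d * (a⁻¹ * z) := by group
        _ = a * (d * z) * a⁻¹ := by rw [e2]; group
        _ = (a * z) * d * a⁻¹ := by rw [hd2]; group
        _ = z * (a * d * a⁻¹) := by rw [e1]; group
    · rw [Subgroup.le_normalizer_iff]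
      intro k hk d hd
      have e : k * d = d * k := setLike_mul_comm (s := K) hk (Subgroup.mem_inf.1 hd).1
      rw [e, mul_inv_cancel_right]
      exact hd
  have hDK : D = K := by
    rcases hmin D hDn inf_le_left with h | h
    · rw [h, Subgroup.mem_bot] at hwD
      exact absurd hwD hw1
    · exact h
  have hzcen : z ∈ Subgroup.center G := by
    have h1 : A ⊔ K ≤ Subgroup.centralizer ({z} : Set G) := by
      apply sup_le
      · intro a ha
        rw [Subgroup.mem_centralizer_singleton_iff]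
        exact hzc a ha
      · rw [← hDK]
        exact inf_le_right
    rw [hAK] at h1
    rw [Subgroup.mem_center_iff]
    intro g
    exact Subgroup.mem_centralizer_singleton_iff.1 (h1 (Subgroup.mem_top g))
  have hZn : (Subgroup.zpowers z).Normal :=
    Cfsg.Agent.Lib.Helper1.normal_of_le_center (by rwa [Subgroup.zpowers_le])
  have h0 := hcore _ hZn (by rw [Subgroup.zpowers_le]; exact syl_le hzS)
  rw [Subgroup.zpowers_eq_bot] at h0
  exact hz1 h0

theorem aux (n : ℕ) : ∀ (G : Type u) [Group G] [Finite G], Nat.card G = n →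
    ∀ A B : Subgroup G, Group.IsNilpotent A → Group.IsNilpotent B →
      (∀ g : G, ∃ a ∈ A, ∃ b ∈ B, g = a * b) → (A ≠ ⊤ ∨ B ≠ ⊤) →
        ∃ N : Subgroup G, N.Normal ∧ N ≠ ⊤ ∧ (A ≤ N ∨ B ≤ N) := by
  induction n using Nat.strong_induction_on with
  | _ n ih =>
  intro G _ _ hn A B hA hB hAB hproper
  subst hn
  by_cases hnil : Group.IsNilpotent G
  · rcases hproper with h | h
    · obtain ⟨N, h1, h2, h3⟩ := exists_normal_of_nilpotent hnil h
      exact ⟨N, h1, h2, Or.inl h3⟩
    · obtain ⟨N, h1, h2, h3⟩ := exists_normal_of_nilpotent hnil h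
      exact ⟨N, h1, h2, Or.inr h3⟩
  have hsolv : Group.IsSolvable G := kegel_wielandt A B hA hB hAB
  have hnt : Nontrivial G := by
    by_contra h
    rw [not_nontrivial_iff_subsingleton] at h
    exact hnil inferInstance
  by_contra hgoal
  have hQ : ∀ (K' : Subgroup G) [K'.Normal], K' ≠ ⊥ → A ⊔ K' = ⊤ ∧ B ⊔ K' = ⊤ := by
    intro K' _ hne
    by_contra hcon
    apply hgoal
    let π := QuotientGroup.mk' K'
    have hπ : Function.Surjective π := QuotientGroup.mk'_surjective K'
    have hker : π.ker = K' := QuotientGroup.ker_mk' K'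
    have hmap : ∀ X : Subgroup G, X.map π = ⊤ → X ⊔ K' = ⊤ := by
      intro X hX
      have := congrArg (Subgroup.comap π) hX
      rwa [Subgroup.comap_map_eq, hker, Subgroup.comap_top] at this
    obtain ⟨N, hN1, hN2, hN3⟩ := ih _ (Cfsg.Agent.Lib.Helper1.card_quotient_lt_of_ne_bot hne)
      (G ⧸ K') rfl (A.map π) (B.map π) (isNilpotent_map _ hA) (isNilpotent_map _ hB)
      (by
        intro g
        obtain ⟨g', rfl⟩ := hπ g
        obtain ⟨a, ha, b, hb, e⟩ := hAB g'
        exact ⟨_, Subgroup.mem_map_of_mem _ ha, _, Subgroup.mem_map_of_mem _ hb, by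
          rw [e, map_mul]⟩)
      (by
        by_contra h
        push Not at h
        exact hcon ⟨hmap A h.1, hmap B h.2⟩)
    refine ⟨N.comap π, hN1.comap π, ?_, ?_⟩
    · intro h
      apply hN2
      rw [← Subgroup.map_comap_eq_self_of_surjective hπ N, h, ← MonoidHom.range_eq_map,
        MonoidHom.range_eq_top.2 hπ]
    · rcases hN3 with h | h
      · exact Or.inl (Subgroup.map_le_iff_le_comap.1 h)
      · exact Or.inr (Subgroup.map_le_iff_le_comap.1 h)
  have htop : ∀ X : Subgroup G, Group.IsNilpotent X → X ≠ ⊤ := by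
    intro X hX h
    rw [h] at hX
    exact hnil (Group.nilpotent_of_mulEquiv (Subgroup.topEquiv (G := G)))
  have hcoreA : ∀ M : Subgroup G, M.Normal → M ≤ A → M = ⊥ := by
    intro M hM hMA
    by_contra hne
    have := (hQ M hne).1
    rw [sup_eq_left.2 hMA] at this
    exact htop A hA this
  have hcoreB : ∀ M : Subgroup G, M.Normal → M ≤ B → M = ⊥ := by
    intro M hM hMB
    by_contra hne
    have := (hQ M hne).2
    rw [sup_eq_left.2 hMB] at this
    exact htop B hB this
  obtain ⟨r, K, hr, hKn, hKne, hKp, hKab, hmin⟩ :=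
    Cfsg.Agent.Lib.Helper1.exists_normal_pSubgroup_of_solvable (G := G)
  have : Fact r.Prime := ⟨hr⟩
  have hrA := not_dvd_card_of_supplement hKp hKab hKne hmin hA (hQ K hKne).1 hcoreA
  have hrB := not_dvd_card_of_supplement hKp hKab hKne hmin hB (hQ K hKne).2 hcoreB
  obtain ⟨P, Q, R, hR⟩ := Cfsg.Agent.S0560.result A B hAB r
  obtain ⟨h1, h2, h3⟩ := Cfsg.Agent.Lib.Helper1.sylow_map_subtype_props P
  obtain ⟨h4, h5, h6⟩ := Cfsg.Agent.Lib.Helper1.sylow_map_subtype_props Q
  rw [syl_eq hA h1 h2 h3, syl_eq hB h4 h5 h6, syl_eq_bot hrA, syl_eq_bot hrB] at hR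
  have hKR : K ≤ R := hKp.le_sylow_of_normal R
  apply hKne
  rw [eq_bot_iff]
  intro k hk
  have h7 : k ∈ ((R : Subgroup G) : Set G) := hKR hk
  rw [hR] at h7
  obtain ⟨x, hx, y, hy, e⟩ := h7
  have hx1 : x = 1 := Subgroup.mem_bot.1 hx
  have hy1 : y = 1 := Subgroup.mem_bot.1 hy
  rw [Subgroup.mem_bot, ← e]
  change x * y = 1
  rw [hx1, hy1, one_mul]

/-- Let the finite group G be the product AB of nilpotent subgroups A and B, not both equal to G. Then there is a proper normal subgroup of G containing A or containing B. -/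
theorem result {G : Type*} [Group G] [Finite G] (A B : Subgroup G) (hA : Group.IsNilpotent A) (hB : Group.IsNilpotent B) (hAB : ∀ g : G, ∃ a ∈ A, ∃ b ∈ B, g = a * b) (hproper : A ≠ ⊤ ∨ B ≠ ⊤) : ∃ N : Subgroup G, N.Normal ∧ N ≠ ⊤ ∧ (A ≤ N ∨ B ≤ N) := by
  exact aux _ G rfl A B hA hB hAB hproper

end Cfsg.Agent.S0565
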