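import Cfsg.Statements.S0567
import Mathlib

set_option autoImplicit false
open Cfsg

namespace Cfsg.Agent.S0567

open scoped commutatorElement

theorem iter_mono {G : Type*} [Group G] {H K : Subgroup G} (h : H ≤ K) (m : ℕ) :
    (fun L : Subgroup G => ⁅L, H⁆)^[m] ⊤ ≤ (fun L : Subgroup G => ⁅L, K⁆)^[m] ⊤ := by
  induction m with
  | zero => simp
  | succ m ih =>
    rw [Function.iterate_succ_apply', Function.iterate_succ_apply']
    exact Subgroup.commutator_mono ih h

theorem step_normal {G : Type*} [Group G] (H L : Subgroup G) :
    H ⊔ L ≤ Subgroup.normalizer ((H ⊔ ⁅L, H⁆ : Subgroup G) : Set G) := by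
  apply sup_le
  · exact le_trans le_sup_left Subgroup.le_normalizer
  · rw [Subgroup.le_normalizer_iff]
    intro x hx k hk
    have h1 : (H ⊔ ⁅L, H⁆).map (MulAut.conj x).toMonoidHom ≤ H ⊔ ⁅L, H⁆ := by
      rw [Subgroup.map_sup]
      apply sup_le
      · rintro _ ⟨h, hh, rfl⟩
        have : (MulAut.conj x).toMonoidHom h = ⁅x, h⁆ * h := by
          simp [commutatorElement_def, MulAut.conj_apply]
        rw [this]
        exact mul_mem (Subgroup.mem_sup_right (Subgroup.commutator_mem_commutator hx hh)) (Subgroup.mem_sup_left hh)
      · have := Subgroup.normalizer_commutator_ge_left L H hx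
        rw [Subgroup.mem_normalizer_iff_map_conj_eq] at this
        exact le_trans this.le le_sup_right
    have := h1 ⟨k, hk, rfl⟩
    simpa [MulAut.conj_apply] using this

/-- A subgroup H of a group G is subnormal exactly when, for some m, the subgroup obtained from G by taking the commutator with H m times in succession is contained in H. -/
theorem result {G : Type*} [Group G] (H : Subgroup G) : H.IsSubnormal ↔ ∃ m : ℕ, (fun K : Subgroup G => ⁅K, H⁆)^[m] ⊤ ≤ H := by
  constructor
  · intro h
    induction h with
    | top => exact ⟨0, le_top⟩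
    | step H K h_le hSubn hN ih =>
      obtain ⟨m, hm⟩ := ih
      refine ⟨m + 1, ?_⟩
      rw [Function.iterate_succ_apply']
      have h1 : (fun L : Subgroup G => ⁅L, H⁆)^[m] ⊤ ≤ K := (iter_mono h_le m).trans hm
      have h2 : K ≤ Subgroup.normalizer (H : Set G) := (Subgroup.normal_subgroupOf_iff_le_normalizer h_le).mp hN
      rw [Subgroup.le_normalizer_iff_commutator_le_right] at h2
      exact (Subgroup.commutator_mono h1 le_rfl).trans h2
  · rintro ⟨m, hm⟩
    have key : ∀ i, (H ⊔ (fun K : Subgroup G => ⁅K, H⁆)^[i] ⊤).IsSubnormal := by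
      intro i
      induction i with
      | zero => simp
      | succ i ih =>
        rw [Function.iterate_succ_apply']
        set L := (fun K : Subgroup G => ⁅K, H⁆)^[i] ⊤
        have hle : H ⊔ ⁅L, H⁆ ≤ H ⊔ L := by
          apply sup_le le_sup_left
          rw [sup_comm]; exact Subgroup.commutator_le_sup L H
        exact Subgroup.IsSubnormal.step _ _ hle ih
          ((Subgroup.normal_subgroupOf_iff_le_normalizer hle).mpr (step_normal H L))
    have := key m
    rwa [sup_eq_left.mpr hm] at this

end Cfsg.Agent.S0567
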