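import Cfsg.Statements.S0568
import Mathlib
import Cfsg.Agent.Lib.Helper91.SysNorm

set_option autoImplicit false
open Cfsg

namespace Cfsg.Agent.S0568

/-- Let D be the system normalizer of a Hall complement system of a finite solvable group G, and let A < B be normal subgroups with no normal subgroup of G strictly between them (a chief factor). If G centralizes B modulo A then B ≤ A ⊔ D (D covers the factor); otherwise B ∩ D ≤ A (D avoids it). -/
theorem result {G : Type*} [Group G] [Finite G] [Group.IsSolvable G] (K : Nat.Primes → Subgroup G) (hK : Cfsg.IsComplementSystem K) (A B : Subgroup G) [A.Normal] [B.Normal] (hAB : A < B) (hchief : ∀ N : Subgroup G, N.Normal → A ≤ N → N ≤ B → N = A ∨ N = B) : (⁅B, (⊤ : Subgroup G)⁆ ≤ A → B ≤ A ⊔ Cfsg.systemNormalizer K) ∧ (¬ ⁅B, (⊤ : Subgroup G)⁆ ≤ A → B ⊓ Cfsg.systemNormalizer K ≤ A) := by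
  classical
  let π := QuotientGroup.mk' A
  have hπ : Function.Surjective π := QuotientGroup.mk'_surjective A
  have hker : π.ker = A := QuotientGroup.ker_mk' A
  let B' : Subgroup (G ⧸ A) := B.map π
  have hB'n : B'.Normal := Subgroup.Normal.map inferInstance π hπ
  have hcomap : B'.comap π = B := by
    rw [Subgroup.comap_map_eq, hker, sup_eq_left.2 hAB.le]
  have hmin : ∀ N : Subgroup (G ⧸ A), N.Normal → N ≤ B' → N = ⊥ ∨ N = B' := by
    intro N hN hNB
    have h1 : A ≤ N.comap π := hker.ge.trans (Subgroup.ker_le_comap π N)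
    have h2 : N.comap π ≤ B := by
      rw [← hcomap]; exact Subgroup.comap_mono hNB
    rcases hchief (N.comap π) (hN.comap π) h1 h2 with h | h
    · left
      rw [← Subgroup.map_comap_eq_self_of_surjective hπ N, h]
      exact (Subgroup.map_eq_bot_iff _).2 hker.ge
    · right
      rw [← Subgroup.map_comap_eq_self_of_surjective hπ N, h]
  have hK' := Cfsg.Agent.Lib.Helper9.complementSystem_map hK A
  have hD' := Cfsg.Agent.Lib.Helper9.systemNormalizer_map hK A
  have hcen : B' ≤ Subgroup.center (G ⧸ A) ↔ ⁅B, (⊤ : Subgroup G)⁆ ≤ A := by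
    have h0 : ⁅B, (⊤ : Subgroup G)⁆ ≤ A ↔ ⁅B, (⊤ : Subgroup G)⁆ ≤ π.ker := by rw [hker]
    rw [h0, ← Subgroup.map_eq_bot_iff, Subgroup.map_commutator,
      ← MonoidHom.range_eq_map, MonoidHom.range_eq_top.2 hπ, Subgroup.commutator_eq_bot_iff_le_centralizer,
      Subgroup.coe_top, Subgroup.centralizer_univ]
  constructor
  · intro h
    have h1 : B' ≤ (Cfsg.systemNormalizer K).map π := by
      rw [← hD']
      exact (hcen.2 h).trans (Cfsg.Agent.Lib.Helper91.center_le_systemNormalizer _)
    have h2 := Subgroup.comap_mono (f := π) h1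
    rw [hcomap, Subgroup.comap_map_eq, hker, sup_comm] at h2
    exact h2
  · intro h
    have h1 := Cfsg.Agent.Lib.Helper91.inf_systemNormalizer_eq_bot hK' (B := B') inferInstance hmin
      (fun h' => h (hcen.1 h'))
    intro x hx
    obtain ⟨hxB, hxD⟩ := Subgroup.mem_inf.1 hx
    have h2 : π x ∈ B' ⊓ Cfsg.systemNormalizer (fun p => (K p).map (QuotientGroup.mk' A)) := by
      refine Subgroup.mem_inf.2 ⟨Subgroup.mem_map_of_mem π hxB, ?_⟩
      rw [hD']
      exact Subgroup.mem_map_of_mem π hxD
    rw [h1, Subgroup.mem_bot] at h2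
    exact hker.le h2

end Cfsg.Agent.S0568
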