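import Cfsg.Statements.S0569
import Mathlib
import Cfsg.Agent.Lib.Helper91.SysNorm2

set_option autoImplicit false
open Cfsg
open scoped Pointwise

namespace Cfsg.Agent.S0569

/-- In a finite solvable group: each nilpotent self-normalizing subgroup contains the system normalizer of some Hall complement system, and the system normalizer of any Hall complement system lies in some nilpotent self-normalizing subgroup. -/
theorem result {G : Type*} [Group G] [Finite G] [Group.IsSolvable G] : (∀ C : Subgroup G, Cfsg.IsCarterSubgroup C → ∃ K : Nat.Primes → Subgroup G, Cfsg.IsComplementSystem K ∧ Cfsg.systemNormalizer K ≤ C) ∧ ∀ K : Nat.Primes → Subgroup G, Cfsg.IsComplementSystem K → ∃ C : Subgroup G, Cfsg.IsCarterSubgroup C ∧ Cfsg.systemNormalizer K ≤ C := by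
  have h1 : ∀ C : Subgroup G, Cfsg.IsCarterSubgroup C → ∃ K : Nat.Primes → Subgroup G,
      Cfsg.IsComplementSystem K ∧ Cfsg.systemNormalizer K ≤ C := by
    intro C hC
    obtain ⟨K, hK, hred⟩ := Cfsg.Agent.Lib.Helper91.exists_reduces C
    exact ⟨K, hK, Cfsg.Agent.Lib.Helper91.systemNormalizer_le_carter hK hC hred⟩
  refine ⟨h1, ?_⟩
  intro K hK
  obtain ⟨C₀, hC₀⟩ := Cfsg.Agent.Lib.Helper1.Carter.carter_exists G
  obtain ⟨K₀, hK₀, hle⟩ := h1 C₀ hC₀
  obtain ⟨n, -, hn⟩ := Cfsg.Agent.Lib.Helper9.exists_conj_complementSystem (⊤ : Subgroup G) K₀ K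
    hK₀ hK (by intro p; simp)
  refine ⟨MulAut.conj n • C₀, Cfsg.Agent.Lib.Helper1.Carter.isCarter_conj hC₀ n, ?_⟩
  have h2 : K = fun p => MulAut.conj n • K₀ p := by
    funext p
    exact (hn p).symm
  rw [h2]
  exact (Cfsg.Agent.Lib.Helper91.systemNormalizer_conj_le n).trans
    (Subgroup.pointwise_smul_le_pointwise_smul_iff.2 hle)

end Cfsg.Agent.S0569
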