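import Cfsg.Statements.S0572
import Mathlib

set_option autoImplicit false
open Cfsg

namespace Cfsg.Agent.S0572

open scoped commutatorElement

section
variable {G : Type*} [Group G]

theorem comm_left (a3 b3 b : G) (h : b3 * b = b * b3) : ⁅a3 * b3, b⁆ = ⁅a3, b⁆ := by
  simp only [commutatorElement_def, mul_inv_rev]
  have : a3 * b3 * b * (b3⁻¹ * a3⁻¹) * b⁻¹ = a3 * (b3 * b) * b3⁻¹ * a3⁻¹ * b⁻¹ := by group
  rw [this, h]; group

theorem comm_right (a3 b2 a2 : G) (h : a2 * a3⁻¹ = a3⁻¹ * a2) : ⁅a3, b2 * a2⁆ = ⁅a3, b2⁆ := by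
  simp only [commutatorElement_def, mul_inv_rev]
  have : a3 * (b2 * a2) * a3⁻¹ * (a2⁻¹ * b2⁻¹) = a3 * b2 * (a2 * a3⁻¹) * a2⁻¹ * b2⁻¹ := by group
  rw [this, h]; group

theorem key (A B : Subgroup G) (hA : ∀ x ∈ A, ∀ y ∈ A, x * y = y * x)
    (hB : ∀ x ∈ B, ∀ y ∈ B, x * y = y * x)
    (hAB : ∀ g : G, ∃ a ∈ A, ∃ b ∈ B, g = a * b)
    (a b a1 b1 : G) (ha : a ∈ A) (hb : b ∈ B) (ha1 : a1 ∈ A) (hb1 : b1 ∈ B) :
    (a1 * b1) * ⁅a, b⁆ * (a1 * b1)⁻¹ = (b1 * a1) * ⁅a, b⁆ * (b1 * a1)⁻¹ := by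
  obtain ⟨a3, ha3, b3, hb3, e1⟩ := hAB (b1 * a * b1⁻¹)
  obtain ⟨a2', ha2', b2', hb2', e2'⟩ := hAB (a1 * b * a1⁻¹)⁻¹
  have e2 : a1 * b * a1⁻¹ = b2'⁻¹ * a2'⁻¹ := by
    rw [← mul_inv_rev, ← e2', inv_inv]
  set b2 := b2'⁻¹
  set a2 := a2'⁻¹
  have hb2 : b2 ∈ B := inv_mem hb2'
  have ha2 : a2 ∈ A := inv_mem ha2'
  have L : (a1 * b1) * ⁅a, b⁆ * (a1 * b1)⁻¹ = ⁅a3, b2⁆ := by
    have s1 : (a1 * b1) * ⁅a, b⁆ * (a1 * b1)⁻¹ = a1 * (b1 * ⁅a, b⁆ * b1⁻¹) * a1⁻¹ := by group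
    rw [s1, conjugate_commutatorElement, e1]
    have s2 : b1 * b * b1⁻¹ = b := by rw [hB b1 hb1 b hb]; group
    rw [s2, comm_left a3 b3 b (hB _ hb3 _ hb), conjugate_commutatorElement, e2]
    have s3 : a1 * a3 * a1⁻¹ = a3 := by rw [hA a1 ha1 a3 ha3]; group
    rw [s3, comm_right a3 b2 a2 (hA _ ha2 _ (inv_mem ha3))]
  have R : (b1 * a1) * ⁅a, b⁆ * (b1 * a1)⁻¹ = ⁅a3, b2⁆ := by
    have s1 : (b1 * a1) * ⁅a, b⁆ * (b1 * a1)⁻¹ = b1 * (a1 * ⁅a, b⁆ * a1⁻¹) * b1⁻¹ := by group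
    rw [s1, conjugate_commutatorElement, e2]
    have s2 : a1 * a * a1⁻¹ = a := by rw [hA a1 ha1 a ha]; group
    rw [s2, comm_right a b2 a2 (hA _ ha2 _ (inv_mem ha)), conjugate_commutatorElement, e1]
    have s3 : b1 * b2 * b1⁻¹ = b2 := by rw [hB b1 hb1 b2 hb2]; group
    rw [s3, comm_left a3 b3 b2 (hB _ hb3 _ hb2)]
  rw [L, R]

theorem key2 (A B : Subgroup G) (hA : ∀ x ∈ A, ∀ y ∈ A, x * y = y * x)
    (hB : ∀ x ∈ B, ∀ y ∈ B, x * y = y * x)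
    (hAB : ∀ g : G, ∃ a ∈ A, ∃ b ∈ B, g = a * b)
    (a b a1 b1 : G) (ha : a ∈ A) (hb : b ∈ B) (ha1 : a1 ∈ A) (hb1 : b1 ∈ B) :
    ⁅a1, b1⁆ * ⁅a, b⁆ = ⁅a, b⁆ * ⁅a1, b1⁆ := by
  have := key A B hA hB hAB a b a1⁻¹ b1⁻¹ ha hb (inv_mem ha1) (inv_mem hb1)
  set c := ⁅a, b⁆
  have e : ⁅a1, b1⁆ = (b1⁻¹ * a1⁻¹)⁻¹ * (a1⁻¹ * b1⁻¹) := by
    simp only [commutatorElement_def]; group
  rw [e]
  calc (b1⁻¹ * a1⁻¹)⁻¹ * (a1⁻¹ * b1⁻¹) * c
      = (b1⁻¹ * a1⁻¹)⁻¹ * ((a1⁻¹ * b1⁻¹) * c * (a1⁻¹ * b1⁻¹)⁻¹) * (a1⁻¹ * b1⁻¹) := by group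
    _ = (b1⁻¹ * a1⁻¹)⁻¹ * ((b1⁻¹ * a1⁻¹) * c * (b1⁻¹ * a1⁻¹)⁻¹) * (a1⁻¹ * b1⁻¹) := by rw [this]
    _ = c * ((b1⁻¹ * a1⁻¹)⁻¹ * (a1⁻¹ * b1⁻¹)) := by group

end

/-- Itô's Theorem: if a group G is the product AB of two abelian subgroups, then the commutator subgroup of G is abelian, i.e. the second term of the derived series is trivial. -/
theorem result {G : Type*} [Group G] (A B : Subgroup G) [IsMulCommutative A] [IsMulCommutative B] (hAB : ∀ g : G, ∃ a ∈ A, ∃ b ∈ B, g = a * b) : derivedSeries G 2 = ⊥ := by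
  have hA : ∀ x ∈ A, ∀ y ∈ A, x * y = y * x := fun x hx y hy =>
    congrArg Subtype.val (mul_comm' (⟨x, hx⟩ : A) ⟨y, hy⟩)
  have hB : ∀ x ∈ B, ∀ y ∈ B, x * y = y * x := fun x hx y hy =>
    congrArg Subtype.val (mul_comm' (⟨x, hx⟩ : B) ⟨y, hy⟩)
  have htop : A ⊔ B = ⊤ := by
    rw [eq_top_iff]; intro g _
    obtain ⟨a, ha, b, hb, rfl⟩ := hAB g
    exact mul_mem (Subgroup.mem_sup_left ha) (Subgroup.mem_sup_right hb)
  have hN : (⁅A, B⁆ : Subgroup G).Normal := by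
    rw [← Subgroup.normalizer_eq_top_iff, eq_top_iff, ← htop]
    exact sup_le (Subgroup.normalizer_commutator_ge_left A B) (Subgroup.normalizer_commutator_ge_right A B)
  -- commutativity of ⁅A,B⁆
  have hcomm : ⁅(⁅A, B⁆ : Subgroup G), ⁅A, B⁆⁆ = ⊥ := by
    rw [Subgroup.commutator_eq_bot_iff_le_centralizer]
    have h1 : ∀ a ∈ A, ∀ b ∈ B, ⁅a, b⁆ ∈ Subgroup.centralizer ((⁅A, B⁆ : Subgroup G) : Set G) := by
      intro a ha b hb
      have h2 : (⁅A, B⁆ : Subgroup G) ≤ Subgroup.centralizer ({⁅a, b⁆} : Set G) := by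
        rw [Subgroup.commutator_le]
        intro a1 ha1 b1 hb1
        rw [Subgroup.mem_centralizer_singleton_iff]
        exact key2 A B hA hB hAB a b a1 b1 ha hb ha1 hb1
      rw [Subgroup.mem_centralizer_iff]
      intro x hx
      have := h2 hx
      rw [Subgroup.mem_centralizer_singleton_iff] at this
      exact this
    rw [Subgroup.commutator_le]
    exact h1
  have hle : commutator G ≤ ⁅A, B⁆ := by
    rw [← Subgroup.Normal.quotient_commutative_iff_commutator_le]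
    have hab : ∀ a ∈ A, ∀ b ∈ B, (QuotientGroup.mk a : G ⧸ (⁅A, B⁆ : Subgroup G)) * QuotientGroup.mk b = QuotientGroup.mk b * QuotientGroup.mk a := by
      intro a ha b hb
      rw [← QuotientGroup.mk_mul, ← QuotientGroup.mk_mul, QuotientGroup.eq]
      have : (a * b)⁻¹ * (b * a) = ⁅b⁻¹, a⁻¹⁆ := by simp only [commutatorElement_def]; group
      rw [this, Subgroup.commutator_comm]
      exact Subgroup.commutator_mem_commutator (inv_mem hb) (inv_mem ha)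
    constructor
    constructor
    intro x y
    obtain ⟨x, rfl⟩ := QuotientGroup.mk_surjective x
    obtain ⟨y, rfl⟩ := QuotientGroup.mk_surjective y
    obtain ⟨a, ha, b, hb, rfl⟩ := hAB x
    obtain ⟨a', ha', b', hb', rfl⟩ := hAB y
    simp only [QuotientGroup.mk_mul]
    have e1 := hab a ha b hb
    have e2 := hab a' ha' b' hb'
    have e3 := hab a ha b' hb'
    have e4 := hab a' ha' b hb
    have e5 : (QuotientGroup.mk a : G ⧸ (⁅A, B⁆ : Subgroup G)) * QuotientGroup.mk a' = QuotientGroup.mk a' * QuotientGroup.mk a := by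
      rw [← QuotientGroup.mk_mul, ← QuotientGroup.mk_mul, hA a ha a' ha']
    have e6 : (QuotientGroup.mk b : G ⧸ (⁅A, B⁆ : Subgroup G)) * QuotientGroup.mk b' = QuotientGroup.mk b' * QuotientGroup.mk b := by
      rw [← QuotientGroup.mk_mul, ← QuotientGroup.mk_mul, hB b hb b' hb']
    generalize (QuotientGroup.mk a : G ⧸ (⁅A, B⁆ : Subgroup G)) = α at *
    generalize (QuotientGroup.mk b : G ⧸ (⁅A, B⁆ : Subgroup G)) = β at *
    generalize (QuotientGroup.mk a' : G ⧸ (⁅A, B⁆ : Subgroup G)) = α' at *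
    generalize (QuotientGroup.mk b' : G ⧸ (⁅A, B⁆ : Subgroup G)) = β' at *
    calc α * β * (α' * β') = α * (β * α') * β' := by group
      _ = α * (α' * β) * β' := by rw [e4]
      _ = (α * α') * (β * β') := by group
      _ = (α' * α) * (β' * β) := by rw [e5, e6]
      _ = α' * (α * β') * β := by group
      _ = α' * (β' * α) * β := by rw [e3]
      _ = α' * β' * (α * β) := by group
  have : derivedSeries G 2 = ⁅commutator G, commutator G⁆ := by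
    rw [derivedSeries_succ, derivedSeries_one]
  rw [this, eq_bot_iff, ← hcomm]
  exact Subgroup.commutator_mono hle hle

end Cfsg.Agent.S0572
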