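import Cfsg.Statements.S0573
import Cfsg.Agent.S0572
import Cfsg.Agent.S0560
import Cfsg.Agent.Lib.Helper10.PCore
import Cfsg.Agent.Lib.Helper10.MinNormal

set_option autoImplicit false
open Cfsg

namespace Cfsg.Agent.S0573

open Cfsg.Agent.Lib.Helper10

theorem conj_comm {G : Type*} [Group G] (g x e : G) (h1 : e * x = x * e)
    (h2 : e * (x⁻¹ * g⁻¹ * x * g) = (x⁻¹ * g⁻¹ * x * g) * e) :
    (g * e * g⁻¹) * x = x * (g * e * g⁻¹) := by
  calc g * e * g⁻¹ * x = g * (e * x * (x⁻¹ * g⁻¹ * x * g)) * g⁻¹ := by group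
    _ = g * (x * (e * (x⁻¹ * g⁻¹ * x * g))) * g⁻¹ := by rw [h1, mul_assoc x e]
    _ = g * (x * ((x⁻¹ * g⁻¹ * x * g) * e)) * g⁻¹ := by rw [h2]
    _ = x * (g * e * g⁻¹) := by group

theorem comm_mem {G : Type*} [Group G] (x y : G) : x * y * x⁻¹ * y⁻¹ ∈ commutator G :=
  Subgroup.commutator_mem_commutator (Subgroup.mem_top x) (Subgroup.mem_top y)

/-- If a nontrivial finite group G is the product AB of abelian subgroups A and B, then some nontrivial normal subgroup of G is contained in A or in B. -/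
theorem result {G : Type*} [Group G] [Finite G] [Nontrivial G] (A B : Subgroup G) [IsMulCommutative A] [IsMulCommutative B] (hAB : ∀ g : G, ∃ a ∈ A, ∃ b ∈ B, g = a * b) : ∃ N : Subgroup G, N.Normal ∧ N ≠ ⊥ ∧ (N ≤ A ∨ N ≤ B) := by
  by_contra hcon
  have hA0 : ∀ N : Subgroup G, N.Normal → N ≤ A → N = ⊥ := by
    intro N hN hNA
    by_contra hne
    exact hcon ⟨N, hN, hne, Or.inl hNA⟩
  have hB0 : ∀ N : Subgroup G, N.Normal → N ≤ B → N = ⊥ := by
    intro N hN hNB
    by_contra hne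
    exact hcon ⟨N, hN, hne, Or.inr hNB⟩
  have hAc : ∀ x ∈ A, ∀ y ∈ A, x * y = y * x := fun x hx y hy =>
    congrArg Subtype.val (mul_comm' (⟨x, hx⟩ : A) ⟨y, hy⟩)
  have hBc : ∀ x ∈ B, ∀ y ∈ B, x * y = y * x := fun x hx y hy =>
    congrArg Subtype.val (mul_comm' (⟨x, hx⟩ : B) ⟨y, hy⟩)
  -- subgroups of the centre
  have hcn : ∀ K : Subgroup G, K ≤ Subgroup.center G → K.Normal := by
    intro K hK
    constructor
    intro x hx g
    have := Subgroup.mem_center_iff.mp (hK hx) g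
    have h2 : g * x * g⁻¹ = x := by rw [this]; group
    rw [h2]; exact hx
  have hZA : A ⊓ Subgroup.center G = ⊥ := hA0 _ (hcn _ inf_le_right) inf_le_left
  have hZB : B ⊓ Subgroup.center G = ⊥ := hB0 _ (hcn _ inf_le_right) inf_le_left
  have hcent : ∀ z : G, (∀ a ∈ A, z * a = a * z) → (∀ b ∈ B, z * b = b * z) →
      z ∈ Subgroup.center G := by
    intro z h1 h2
    rw [Subgroup.mem_center_iff]
    intro g
    obtain ⟨a, ha, b, hb, rfl⟩ := hAB g
    rw [mul_assoc, ← h2 b hb, ← mul_assoc, ← h1 a ha, mul_assoc]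
  have cA : ∀ c : G, (∀ a ∈ A, c * a = a * c) → c ∈ A := by
    intro c hc
    obtain ⟨a, ha, b, hb, rfl⟩ := hAB c
    have hbz : b ∈ B ⊓ Subgroup.center G := by
      refine Subgroup.mem_inf.mpr ⟨hb, hcent b ?_ (fun b' hb' => hBc b hb b' hb')⟩
      intro a' ha'
      have h1 := hc a' ha'
      have h2 : a * (b * a') = a * (a' * b) := by
        rw [← mul_assoc, h1, ← mul_assoc, ← mul_assoc, hAc a' ha' a ha]
      exact mul_left_cancel h2
    rw [hZB, Subgroup.mem_bot] at hbz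
    rw [hbz, mul_one]; exact ha
  have hZ : Subgroup.center G = ⊥ := by
    rw [eq_bot_iff]
    intro z hz
    have h1 : z ∈ A := cA z (fun a _ => (Subgroup.mem_center_iff.mp hz a).symm)
    rw [← hZA]
    exact Subgroup.mem_inf.mpr ⟨h1, hz⟩
  -- solvability
  have hder := Cfsg.Agent.S0572.result A B hAB
  have hsol : Group.IsSolvable G := ⟨⟨2, hder⟩⟩
  have hG'c : ∀ x ∈ commutator G, ∀ y ∈ commutator G, x * y = y * x := by
    have h1 : derivedSeries G 2 = ⁅commutator G, commutator G⁆ := by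
      show ⁅derivedSeries G 1, derivedSeries G 1⁆ = _
      rw [derivedSeries_one]
    rw [h1, Subgroup.commutator_eq_bot_iff_le_centralizer] at hder
    intro x hx y hy
    exact ((Subgroup.mem_centralizer_iff.mp (hder hx)) y hy).symm
  obtain ⟨N, hN⟩ := exists_minNormal (G := G)
  obtain ⟨p, hp, hEA⟩ := hN.exists_isEA_of_solvable
  have : Fact p.Prime := ⟨hp⟩
  have hNn : N.Normal := hN.1
  obtain ⟨hNc, hNp⟩ := isEA_iff.mp hEA
  have hNG' : N ≤ commutator G := by
    have hn : (N ⊓ commutator G).Normal := inferInstance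
    rcases hN.2.2 (N ⊓ commutator G) hn inf_le_left with h | h
    · exfalso
      apply hN.2.1
      rw [eq_bot_iff, ← hZ]
      intro n hn'
      rw [Subgroup.mem_center_iff]
      intro g
      have h1 : g * n * g⁻¹ * n⁻¹ ∈ N ⊓ commutator G :=
        Subgroup.mem_inf.mpr ⟨N.mul_mem (hNn.conj_mem n hn' g) (N.inv_mem hn'), comm_mem g n⟩
      rw [h, Subgroup.mem_bot] at h1
      have h2 : g * n = (g * n * g⁻¹ * n⁻¹) * (n * g) := by group
      rw [h2, h1, one_mul]
    · rw [← h]; exact inf_le_right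
  have hG'N : ∀ c ∈ commutator G, ∀ n ∈ N, n * c = c * n :=
    fun c hc n hn => hG'c n (hNG' hn) c hc
  have hcm : ∀ x g : G, x⁻¹ * g⁻¹ * x * g ∈ commutator G := by
    intro x g
    have := comm_mem x⁻¹ g⁻¹
    simpa using this
  have hdich : ∀ x : G, (∀ n ∈ N, n * x = x * n → n = 1) ∨ (∀ n ∈ N, n * x = x * n) := by
    intro x
    have hK : (N ⊓ Subgroup.centralizer {x}).Normal := by
      constructor
      intro n hn g
      obtain ⟨hn1, hn2⟩ := Subgroup.mem_inf.mp hn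
      rw [Subgroup.mem_centralizer_singleton_iff] at hn2
      refine Subgroup.mem_inf.mpr ⟨hNn.conj_mem n hn1 g, ?_⟩
      rw [Subgroup.mem_centralizer_singleton_iff]
      exact conj_comm g x n hn2 (hG'N _ (hcm x g) n hn1)
    rcases hN.2.2 _ hK inf_le_left with h | h
    · left
      intro n hn hnx
      have : n ∈ N ⊓ Subgroup.centralizer {x} :=
        Subgroup.mem_inf.mpr ⟨hn, Subgroup.mem_centralizer_singleton_iff.mpr hnx⟩
      rwa [h, Subgroup.mem_bot] at this
    · right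
      intro n hn
      have : n ∈ N ⊓ Subgroup.centralizer {x} := by rw [h]; exact hn
      exact Subgroup.mem_centralizer_singleton_iff.mp (Subgroup.mem_inf.mp this).2
  have hAN : A ⊓ N = ⊥ := by
    rw [eq_bot_iff]
    intro n hn
    obtain ⟨hnA, hnN⟩ := Subgroup.mem_inf.mp hn
    rw [Subgroup.mem_bot]
    by_contra hn1
    apply hN.2.1
    apply hA0 N hNn
    intro m hm
    apply cA
    intro a ha
    rcases hdich a with h | h
    · exact absurd (h n hnN (hAc n hnA a ha)) hn1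
    · exact h m hm
  have cB : ∀ c : G, (∀ b ∈ B, c * b = b * c) → c ∈ B := by
    intro c hc
    obtain ⟨a, ha, b, hb, rfl⟩ := hAB c
    have haz : a ∈ A ⊓ Subgroup.center G := by
      refine Subgroup.mem_inf.mpr ⟨ha, hcent a (fun a' ha' => hAc a ha a' ha') ?_⟩
      intro b' hb'
      have h1 := hc b' hb'
      have h2 : a * b' * b = b' * a * b := by
        rw [mul_assoc, hBc b' hb' b hb, ← mul_assoc, h1, mul_assoc]
      exact mul_right_cancel h2
    rw [hZA, Subgroup.mem_bot] at haz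
    rw [haz, one_mul]; exact hb
  have hBN : B ⊓ N = ⊥ := by
    rw [eq_bot_iff]
    intro n hn
    obtain ⟨hnB, hnN⟩ := Subgroup.mem_inf.mp hn
    rw [Subgroup.mem_bot]
    by_contra hn1
    apply hN.2.1
    apply hB0 N hNn
    intro m hm
    apply cB
    intro b hb
    rcases hdich b with h | h
    · exact absurd (h n hnN (hBc n hnB b hb)) hn1
    · exact h m hm
  -- the factorizer
  set E : Subgroup G := (A ⊔ N) ⊓ (B ⊔ N) with hE
  have hNE : N ≤ E := le_inf le_sup_right le_sup_right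
  have hEA' : ∀ e ∈ E, ∃ x ∈ A, ∃ n ∈ N, e = x * n := by
    intro e he
    obtain ⟨x, hx, n, hn, h⟩ := Subgroup.mem_sup_of_normal_right.mp (Subgroup.mem_inf.mp he).1
    exact ⟨x, hx, n, hn, h.symm⟩
  have hEB' : ∀ e ∈ E, ∃ y ∈ B, ∃ n ∈ N, e = y * n := by
    intro e he
    obtain ⟨x, hx, n, hn, h⟩ := Subgroup.mem_sup_of_normal_right.mp (Subgroup.mem_inf.mp he).2
    exact ⟨x, hx, n, hn, h.symm⟩
  have hTA : ∀ a ∈ A, ∀ e ∈ E, a * e * a⁻¹ * e⁻¹ ∈ N := by
    intro a ha e he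
    obtain ⟨x, hx, n, hn, rfl⟩ := hEA' e he
    have h1 : a * (x * n) * a⁻¹ * (x * n)⁻¹ = x * (a * n * a⁻¹ * n⁻¹) * x⁻¹ := by
      calc a * (x * n) * a⁻¹ * (x * n)⁻¹ = (a * x) * (n * a⁻¹ * n⁻¹) * x⁻¹ := by group
        _ = (x * a) * (n * a⁻¹ * n⁻¹) * x⁻¹ := by rw [hAc a ha x hx]
        _ = x * (a * n * a⁻¹ * n⁻¹) * x⁻¹ := by group
    rw [h1]
    exact hNn.conj_mem _ (N.mul_mem (hNn.conj_mem n hn a) (N.inv_mem hn)) x
  have hTB : ∀ b ∈ B, ∀ e ∈ E, b * e * b⁻¹ * e⁻¹ ∈ N := by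
    intro a ha e he
    obtain ⟨x, hx, n, hn, rfl⟩ := hEB' e he
    have h1 : a * (x * n) * a⁻¹ * (x * n)⁻¹ = x * (a * n * a⁻¹ * n⁻¹) * x⁻¹ := by
      calc a * (x * n) * a⁻¹ * (x * n)⁻¹ = (a * x) * (n * a⁻¹ * n⁻¹) * x⁻¹ := by group
        _ = (x * a) * (n * a⁻¹ * n⁻¹) * x⁻¹ := by rw [hBc a ha x hx]
        _ = x * (a * n * a⁻¹ * n⁻¹) * x⁻¹ := by group
    rw [h1]
    exact hNn.conj_mem _ (N.mul_mem (hNn.conj_mem n hn a) (N.inv_mem hn)) x
  have hconjE : ∀ g e : G, e ∈ E → g * e * g⁻¹ * e⁻¹ ∈ N → g * e * g⁻¹ ∈ E := by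
    intro g e he h
    have := E.mul_mem (hNE h) he
    simpa using this
  have hT : ∀ g : G, ∀ e ∈ E, g * e * g⁻¹ * e⁻¹ ∈ N := by
    intro g e he
    obtain ⟨a, ha, b, hb, rfl⟩ := hAB g
    have h1 := hTB b hb e he
    have h2 := hconjE b e he h1
    have h3 := hTA a ha _ h2
    have h4 := N.mul_mem h3 h1
    have h5 : a * (b * e * b⁻¹) * a⁻¹ * (b * e * b⁻¹)⁻¹ * (b * e * b⁻¹ * e⁻¹) =
        a * b * e * (a * b)⁻¹ * e⁻¹ := by group
    rwa [h5] at h4
  have hEn : E.Normal := ⟨fun e he g => hconjE g e he (hT g e he)⟩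
  set C : Subgroup G := Subgroup.centralizer (E : Set G) with hC
  have hCn : C.Normal := inferInstance
  obtain ⟨P, Q, R, hR⟩ := Cfsg.Agent.S0560.result A B hAB p
  have hpN : p ∣ Nat.card N := dvd_card_of_isPGroup_ne_bot (IsEA.isPGroup hEA) hN.2.1
  have hpcent : ∀ T : Subgroup G, IsPGroup p T → ∀ x ∈ T, ∀ n ∈ N, n * x = x * n := by
    intro T hT x hx
    have h1 := card_modEq_card_centralizer T N hT
      (by rw [Subgroup.normalizer_eq_top_iff.mpr hNn]; exact le_top)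
    have h2 : p ∣ Nat.card (N ⊓ Subgroup.centralizer (T : Set G) : Subgroup G) :=
      (Nat.modEq_zero_iff_dvd.mp (h1.symm.trans (Nat.modEq_zero_iff_dvd.mpr hpN)))
    have h3 : (N ⊓ Subgroup.centralizer (T : Set G) : Subgroup G) ≠ ⊥ := by
      intro h
      rw [h, Subgroup.card_bot] at h2
      exact hp.one_lt.ne' (Nat.dvd_one.mp h2)
    obtain ⟨⟨n, hn⟩, hn1⟩ := Subgroup.ne_bot_iff_exists_ne_one.mp h3
    obtain ⟨hnN, hnT⟩ := Subgroup.mem_inf.mp hn
    rcases hdich x with h | h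
    · exfalso
      apply hn1
      apply Subtype.ext
      exact h n hnN ((Subgroup.mem_centralizer_iff.mp hnT x hx).symm)
    · exact h
  have hRC : (R : Subgroup G) ≤ C := by
    intro r hr
    have hr' : r ∈ ((R : Subgroup G) : Set G) := hr
    rw [hR] at hr'
    obtain ⟨x, hx, y, hy, rfl⟩ := hr'
    apply C.mul_mem
    · rw [hC, Subgroup.mem_centralizer_iff]
      intro e he
      obtain ⟨x', hx', n, hn, rfl⟩ := hEA' e he
      have hxA : x ∈ A := Subgroup.map_subtype_le _ hx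
      have h1 := hpcent _ (P.2.map A.subtype) x hx n hn
      rw [mul_assoc, h1, ← mul_assoc, hAc x' hx' x hxA, mul_assoc]
    · rw [hC, Subgroup.mem_centralizer_iff]
      intro e he
      obtain ⟨x', hx', n, hn, rfl⟩ := hEB' e he
      have hxA : y ∈ B := Subgroup.map_subtype_le _ hy
      have h1 := hpcent _ (Q.2.map B.subtype) y hy n hn
      rw [mul_assoc, h1, ← mul_assoc, hBc x' hx' y hxA, mul_assoc]
  have hCi : ¬ p ∣ C.index := fun h => R.not_dvd_index (h.trans (Subgroup.index_dvd_of_le hRC))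
  have hCN : ∀ u : G, (∀ n ∈ N, n * u = u * n) → u ∈ C := by
    intro u hu
    have h1 : u ^ p ∈ C := by
      rw [hC, Subgroup.mem_centralizer_iff]
      intro e he
      have hν := hT u e he
      set ν := u * e * u⁻¹ * e⁻¹ with hνdef
      have h2 : ∀ j : ℕ, u ^ j * e * (u ^ j)⁻¹ = ν ^ j * e := by
        intro j
        induction j with
        | zero => simp
        | succ j ih =>
          have h3 : ν ^ j * u = u * ν ^ j := hu _ (N.pow_mem hν j)
          calc u ^ (j + 1) * e * (u ^ (j + 1))⁻¹ = u * (u ^ j * e * (u ^ j)⁻¹) * u⁻¹ := by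
                rw [pow_succ']; group
            _ = u * (ν ^ j * e) * u⁻¹ := by rw [ih]
            _ = (u * ν ^ j) * e * u⁻¹ := by group
            _ = (ν ^ j * u) * e * u⁻¹ := by rw [h3]
            _ = ν ^ j * (u * e * u⁻¹ * e⁻¹) * e := by group
            _ = ν ^ (j + 1) * e := by rw [← hνdef, pow_succ]
      have h4 := h2 p
      rw [hNp ν hν, one_mul] at h4
      have h5 : u ^ p * e = (u ^ p * e * (u ^ p)⁻¹) * u ^ p := by group
      rw [h5, h4]
    rw [← QuotientGroup.eq_one_iff]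
    have h2 : (u : G ⧸ C) ^ p = 1 := by
      rw [← QuotientGroup.mk_pow]
      exact (QuotientGroup.eq_one_iff _).mpr h1
    have h3 : orderOf (u : G ⧸ C) ∣ p := orderOf_dvd_of_pow_eq_one h2
    rcases (Nat.dvd_prime hp).mp h3 with h4 | h4
    · exact orderOf_eq_one_iff.mp h4
    · exfalso
      apply hCi
      rw [Subgroup.index_eq_card, ← h4]
      exact orderOf_dvd_natCard _
  have hG'C : commutator G ≤ C := fun c hc => hCN c (hG'N c hc)
  -- an element of `A` acting freely on `N`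
  have hexa : ∃ a₀ ∈ A, ∀ n ∈ N, n * a₀ = a₀ * n → n = 1 := by
    by_contra hno
    push Not at hno
    apply hN.2.1
    apply hA0 N hNn
    intro m hm
    apply cA
    intro a ha
    rcases hdich a with h | h
    · obtain ⟨n, hn, hna, hn1⟩ := hno a ha
      exact absurd (h n hn hna) hn1
    · exact h m hm
  obtain ⟨a₀, ha₀, hfree⟩ := hexa
  set D : Subgroup G := E ⊓ Subgroup.centralizer {a₀} with hD
  have hDn : D.Normal := by
    constructor
    intro e he g
    obtain ⟨he1, he2⟩ := Subgroup.mem_inf.mp he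
    rw [Subgroup.mem_centralizer_singleton_iff] at he2
    refine Subgroup.mem_inf.mpr ⟨hEn.conj_mem e he1 g, ?_⟩
    rw [Subgroup.mem_centralizer_singleton_iff]
    apply conj_comm g a₀ e he2
    exact (Subgroup.mem_centralizer_iff.mp (hG'C (hcm a₀ g))) e he1
  have hDA : D ≤ A := by
    intro e he
    obtain ⟨he1, he2⟩ := Subgroup.mem_inf.mp he
    rw [Subgroup.mem_centralizer_singleton_iff] at he2
    obtain ⟨x, hx, n, hn, rfl⟩ := hEA' e he1
    have h1 : n * a₀ = a₀ * n := by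
      have h2 : x * (n * a₀) = x * (a₀ * n) := by
        rw [← mul_assoc, he2, ← mul_assoc, ← mul_assoc, hAc a₀ ha₀ x hx]
      exact mul_left_cancel h2
    rw [hfree n hn h1, mul_one]; exact hx
  have hDbot := hA0 D hDn hDA
  -- a nontrivial element of `A ⊓ E`
  obtain ⟨⟨n, hn⟩, hn1⟩ := Subgroup.ne_bot_iff_exists_ne_one.mp hN.2.1
  obtain ⟨a, ha, b, hb, hab⟩ := hAB n
  have haE : a ∈ E := by
    refine Subgroup.mem_inf.mpr ⟨Subgroup.mem_sup_left ha, ?_⟩
    have : a = n * b⁻¹ := by rw [hab]; group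
    rw [this]
    exact Subgroup.mul_mem _ (Subgroup.mem_sup_right hn) (Subgroup.mem_sup_left (B.inv_mem hb))
  have haD : a ∈ D :=
    Subgroup.mem_inf.mpr ⟨haE, Subgroup.mem_centralizer_singleton_iff.mpr (hAc a ha a₀ ha₀)⟩
  rw [hDbot, Subgroup.mem_bot] at haD
  have hnB : n ∈ B ⊓ N := by
    refine Subgroup.mem_inf.mpr ⟨?_, hn⟩
    rw [hab, haD, one_mul]; exact hb
  rw [hBN, Subgroup.mem_bot] at hnB
  exact hn1 (Subtype.ext hnB)

end Cfsg.Agent.S0573
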