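import Cfsg.Statements.S0571
import Cfsg.Agent.S0573
import Cfsg.Agent.Lib.Helper9.Supersolvable7

set_option autoImplicit false
open Cfsg

namespace Cfsg.Agent.S0571

open Cfsg.Agent.Lib.Helper9

theorem aux (n : ℕ) : ∀ (G : Type*) [Group G] [Finite G] (A B : Subgroup G), IsCyclic A → IsCyclic B →
    (∀ g : G, ∃ a ∈ A, ∃ b ∈ B, g = a * b) → Nat.card G = n → Cfsg.IsSupersolvable G := by
  induction n using Nat.strong_induction_on with
  | _ n ih =>
    intro G _ _ A B hA hB hAB hn
    rcases subsingleton_or_nontrivial G with hs | hnt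
    · exact isSupersolvable_of_subsingleton
    have hAc : IsMulCommutative A := ⟨⟨fun x y => IsCyclic.commGroup.mul_comm x y⟩⟩
    have hBc : IsMulCommutative B := ⟨⟨fun x y => IsCyclic.commGroup.mul_comm x y⟩⟩
    obtain ⟨N, hN, hne, hle⟩ := Cfsg.Agent.S0573.result A B hAB
    have hcyc : IsCyclic N := by
      rcases hle with h | h
      · have : IsCyclic (N.subgroupOf A) := inferInstance
        exact isCyclic_of_surjective (Subgroup.subgroupOfEquivOfLe h).toMonoidHom
          (Subgroup.subgroupOfEquivOfLe h).surjective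
      · have : IsCyclic (N.subgroupOf B) := inferInstance
        exact isCyclic_of_surjective (Subgroup.subgroupOfEquivOfLe h).toMonoidHom
          (Subgroup.subgroupOfEquivOfLe h).surjective
    apply isSupersolvable_of_cyclic_normal N
    apply ih (Nat.card (G ⧸ N)) (hn ▸ card_quotient_lt N hne) (G ⧸ N)
      (A.map (QuotientGroup.mk' N)) (B.map (QuotientGroup.mk' N)) _ _ _ rfl
    · exact isCyclic_of_surjective ((QuotientGroup.mk' N).subgroupMap A)
        ((QuotientGroup.mk' N).subgroupMap_surjective A)
    · exact isCyclic_of_surjective ((QuotientGroup.mk' N).subgroupMap B)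
        ((QuotientGroup.mk' N).subgroupMap_surjective B)
    · intro g
      obtain ⟨g, rfl⟩ := QuotientGroup.mk'_surjective N g
      obtain ⟨a, ha, b, hb, rfl⟩ := hAB g
      exact ⟨_, ⟨a, ha, rfl⟩, _, ⟨b, hb, rfl⟩, map_mul _ _ _⟩

/-- If a finite group G is the product AB of two cyclic subgroups (every element is a product ab), then G is supersolvable. -/
theorem result {G : Type*} [Group G] [Finite G] (A B : Subgroup G) [IsCyclic A] [IsCyclic B] (hAB : ∀ g : G, ∃ a ∈ A, ∃ b ∈ B, g = a * b) : Cfsg.IsSupersolvable G :=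
  aux _ G A B inferInstance inferInstance hAB rfl

end Cfsg.Agent.S0571
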