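import Cfsg.Statements.S0574
import Cfsg.Agent.S0564
import Cfsg.Agent.S0572

set_option autoImplicit false
open Cfsg

namespace Cfsg.Agent.S0574

open scoped commutatorElement

section
variable {G : Type*} [Group G]

/-- iterated derived subgroups of a subgroup -/
def ds (H : Subgroup G) : ℕ → Subgroup G
  | 0 => H
  | n + 1 => ⁅ds H n, ds H n⁆

theorem ds_mono {H K : Subgroup G} (h : H ≤ K) (n : ℕ) : ds H n ≤ ds K n := by
  induction n with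
  | zero => exact h
  | succ n ih => exact Subgroup.commutator_mono ih ih

theorem ds_add (H : Subgroup G) (m n : ℕ) : ds H (m + n) = ds (ds H m) n := by
  induction n with
  | zero => rfl
  | succ n ih =>
    show ⁅ds H (m + n), ds H (m + n)⁆ = ⁅ds (ds H m) n, ds (ds H m) n⁆
    rw [ih]

theorem ds_top (n : ℕ) : ds (⊤ : Subgroup G) n = derivedSeries G n := by
  induction n with
  | zero => rfl
  | succ n ih =>
    show ⁅ds (⊤ : Subgroup G) n, ds (⊤ : Subgroup G) n⁆ = _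
    rw [ih]; rfl

theorem ds_bot (n : ℕ) : ds (⊥ : Subgroup G) n = ⊥ := by
  induction n with
  | zero => rfl
  | succ n ih =>
    show ⁅ds (⊥ : Subgroup G) n, ds (⊥ : Subgroup G) n⁆ = _
    rw [ih]; exact Subgroup.commutator_bot_left _

theorem comm_mul_left (x y z : G) : ⁅x * y, z⁆ = x * ⁅y, z⁆ * x⁻¹ * ⁅x, z⁆ := by
  simp only [commutatorElement_def]; group

theorem comm_mul_right (x y z : G) : ⁅x, y * z⁆ = ⁅x, y⁆ * (y * ⁅x, z⁆ * y⁻¹) := by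
  simp only [commutatorElement_def]; group

theorem conj_comm (g x y : G) : g * ⁅x, y⁆ * g⁻¹ = ⁅g * x * g⁻¹, g * y * g⁻¹⁆ := by
  simp only [commutatorElement_def]; group

theorem comm_eq_one {x y : G} (h : x * y = y * x) : ⁅x, y⁆ = 1 := by
  rw [commutatorElement_eq_one_iff_mul_comm]; exact h

theorem conj_eq_self {x y : G} (h : x * y = y * x) : x * y * x⁻¹ = y := by
  rw [h]; group

theorem conj_mem_of_gens {H₁ H₂ K : Subgroup G} (g : G)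
    (h : ∀ x ∈ H₁, ∀ y ∈ H₂, g * ⁅x, y⁆ * g⁻¹ ∈ K) : ∀ m ∈ ⁅H₁, H₂⁆, g * m * g⁻¹ ∈ K := by
  have h1 : ⁅H₁, H₂⁆ ≤ K.comap (MulAut.conj g).toMonoidHom :=
    Subgroup.commutator_le.2 (fun x hx y hy => by
      rw [Subgroup.mem_comap]
      exact h x hx y hy)
  intro m hm
  exact h1 hm

/-- the context -/
structure Ctx (A B Bd : Subgroup G) : Prop where
  hA : ∀ x ∈ A, ∀ y ∈ A, x * y = y * x
  hAB : ∀ g : G, ∃ a ∈ A, ∃ b ∈ B, g = a * b
  hBd : ∀ b₁ ∈ B, ∀ b₂ ∈ B, ⁅b₁, b₂⁆ ∈ Bd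
  hcen : ∀ z ∈ Bd, ∀ b ∈ B, b * z = z * b
  hle : Bd ≤ B
  hsol : ∀ H : Subgroup G, H ≤ ⁅H, H⁆ → H = ⊥

variable {A B Bd : Subgroup G}

theorem Ctx.hBA (c : Ctx A B Bd) (g : G) : ∃ b ∈ B, ∃ a ∈ A, g = b * a := by
  obtain ⟨a, ha, b, hb, e⟩ := c.hAB g⁻¹
  refine ⟨b⁻¹, B.inv_mem hb, a⁻¹, A.inv_mem ha, ?_⟩
  rw [← mul_inv_rev, ← e, inv_inv]

theorem Ctx.comm_AB (c : Ctx A B Bd) {Y : Subgroup G} (hY : Y ≤ Bd) {a b z : G}
    (hb : b ∈ B) (hz : z ∈ Y) : ⁅a * b, z⁆ = ⁅a, z⁆ := by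
  rw [comm_mul_left, comm_eq_one (c.hcen z (hY hz) b hb)]
  group

theorem Ctx.comm_BA (c : Ctx A B Bd) {a b a₂ : G} (ha : a ∈ A) (ha₂ : a₂ ∈ A) :
    ⁅a, b * a₂⁆ = ⁅a, b⁆ := by
  rw [comm_mul_right, comm_eq_one (c.hA a ha a₂ ha₂)]
  group

theorem Ctx.normal_M (c : Ctx A B Bd) {Y : Subgroup G} (hY : Y ≤ Bd) : (⁅A, Y⁆).Normal := by
  have hB : ∀ b ∈ B, ∀ m ∈ ⁅A, Y⁆, b * m * b⁻¹ ∈ ⁅A, Y⁆ := by
    intro b hb
    apply conj_mem_of_gens
    intro a ha z hz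
    rw [conj_comm, conj_eq_self (c.hcen z (hY hz) b hb)]
    obtain ⟨a₃, ha₃, b₃, hb₃, e⟩ := c.hAB (b * a * b⁻¹)
    rw [e, c.comm_AB hY hb₃ hz]
    exact Subgroup.commutator_mem_commutator ha₃ hz
  have hA : ∀ a' ∈ A, ∀ m ∈ ⁅A, Y⁆, a' * m * a'⁻¹ ∈ ⁅A, Y⁆ := by
    intro a' ha'
    apply conj_mem_of_gens
    intro a ha z hz
    have e : a' * ⁅a, z⁆ * a'⁻¹ = ⁅a' * a, z⁆ * ⁅a', z⁆⁻¹ := by
      rw [comm_mul_left]; group
    rw [e]
    exact Subgroup.mul_mem _ (Subgroup.commutator_mem_commutator (A.mul_mem ha' ha) hz)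
      (Subgroup.inv_mem _ (Subgroup.commutator_mem_commutator ha' hz))
  constructor
  intro m hm g
  obtain ⟨a, ha, b, hb, rfl⟩ := c.hAB g
  have e : a * b * m * (a * b)⁻¹ = a * (b * m * b⁻¹) * a⁻¹ := by group
  rw [e]
  exact hA a ha _ (hB b hb m hm)

theorem Ctx.key (c : Ctx A B Bd) {Y : Subgroup G} (hY : Y ≤ Bd) {a a₁ z z₁ : G}
    (ha : a ∈ A) (ha₁ : a₁ ∈ A) (hz : z ∈ Y) (hz₁ : z₁ ∈ Y) :
    ∃ a₃ ∈ A, ∃ b₃ ∈ B, ∃ b₂ ∈ B, (z₁ * a₁) * ⁅a, z⁆ * (z₁ * a₁)⁻¹ =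
      (a₃ * ⁅b₃, b₂⁆ * a₃⁻¹) * ((a₁ * z₁) * ⁅a, z⁆ * (a₁ * z₁)⁻¹) := by
  obtain ⟨b₂, hb₂, a₂, ha₂, e₂⟩ := c.hBA (a₁ * z * a₁⁻¹)
  obtain ⟨a₃, ha₃, b₃, hb₃, e₃⟩ := c.hAB (z₁ * a * z₁⁻¹)
  refine ⟨a₃, ha₃, b₃, hb₃, b₂, hb₂, ?_⟩
  have hz₁B : z₁ ∈ B := c.hle (hY hz₁)
  have l1 : (z₁ * a₁) * ⁅a, z⁆ * (z₁ * a₁)⁻¹ = a₃ * ⁅b₃, b₂⁆ * a₃⁻¹ * ⁅a₃, b₂⁆ := by
    have s1 : (z₁ * a₁) * ⁅a, z⁆ * (z₁ * a₁)⁻¹ = z₁ * (a₁ * ⁅a, z⁆ * a₁⁻¹) * z₁⁻¹ := by group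
    rw [s1, conj_comm a₁, conj_eq_self (c.hA a₁ ha₁ a ha), e₂, c.comm_BA ha ha₂, conj_comm z₁, e₃,
      conj_eq_self ((c.hcen z₁ (hY hz₁) b₂ hb₂).symm), comm_mul_left]
  have l2 : (a₁ * z₁) * ⁅a, z⁆ * (a₁ * z₁)⁻¹ = ⁅a₃, b₂⁆ := by
    have s1 : (a₁ * z₁) * ⁅a, z⁆ * (a₁ * z₁)⁻¹ = a₁ * (z₁ * ⁅a, z⁆ * z₁⁻¹) * a₁⁻¹ := by group
    rw [s1, conj_comm z₁, e₃, conj_eq_self (c.hcen z (hY hz) z₁ hz₁B), c.comm_AB hY hb₃ hz,
      conj_comm a₁, conj_eq_self (c.hA a₁ ha₁ a₃ ha₃), e₂, c.comm_BA ha₃ ha₂]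
  rw [l1, l2]

theorem Ctx.step (c : Ctx A B Bd) (N : Subgroup G) (hN : N.Normal)
    (hNc : N = Subgroup.normalClosure ((N ⊓ Bd : Subgroup G) : Set G)) :
    ∃ N₂ : Subgroup G, N₂.Normal ∧ N₂ = Subgroup.normalClosure ((N₂ ⊓ Bd : Subgroup G) : Set G) ∧
      ds N 2 ≤ N₂ ∧ N₂ ⊓ Bd ≤ N ⊓ Bd ∧ (N₂ ⊓ Bd = N ⊓ Bd → N = ⊥) := by
  set Y : Subgroup G := N ⊓ Bd with hYdef
  have hY : Y ≤ Bd := inf_le_right
  have hYN : Y ≤ N := inf_le_left
  set M : Subgroup G := ⁅A, Y⁆ with hMdef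
  have hMn : M.Normal := c.normal_M hY
  have hMN : M ≤ N := by
    rw [hMdef, Subgroup.commutator_le]
    intro a ha z hz
    have e : ⁅a, z⁆ = (a * z * a⁻¹) * z⁻¹ := by rw [commutatorElement_def]
    rw [e]
    exact N.mul_mem (hN.conj_mem z (hYN hz) a) (N.inv_mem (hYN hz))
  -- `N` is central modulo `M`
  have hcenM : ∀ z ∈ Y, ∀ g : G, ⁅g, z⁆ ∈ M := by
    intro z hz g
    obtain ⟨a, ha, b, hb, rfl⟩ := c.hAB g
    rw [c.comm_AB hY hb hz]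
    exact Subgroup.commutator_mem_commutator ha hz
  have hNC : N ≤ (Subgroup.center (G ⧸ M)).comap (QuotientGroup.mk' M) := by
    rw [hNc]
    apply Subgroup.normalClosure_le_normal
    intro z hz
    rw [SetLike.mem_coe, Subgroup.mem_comap, Subgroup.mem_center_iff]
    intro q
    obtain ⟨g, rfl⟩ := QuotientGroup.mk'_surjective M q
    have h1 := hcenM z hz g
    have h2 : (QuotientGroup.mk' M) ⁅g, z⁆ = 1 := by
      rw [QuotientGroup.mk'_apply, QuotientGroup.eq_one_iff]; exact h1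
    rw [map_commutatorElement, commutatorElement_eq_one_iff_mul_comm] at h2
    exact h2
  have hNM : ⁅N, N⁆ ≤ M := by
    rw [Subgroup.commutator_le]
    intro x hx y hy
    have h1 := hNC hy
    rw [Subgroup.mem_comap, Subgroup.mem_center_iff] at h1
    have h2 : (QuotientGroup.mk' M) ⁅x, y⁆ = 1 := by
      rw [map_commutatorElement, commutatorElement_eq_one_iff_mul_comm]
      exact h1 _
    rw [QuotientGroup.mk'_apply, QuotientGroup.eq_one_iff] at h2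
    exact h2
  have hMMn : (⁅M, M⁆).Normal := inferInstance
  set R : Subgroup G := Subgroup.normalClosure ((⁅M, M⁆ ⊓ Bd : Subgroup G) : Set G) with hRdef
  have hRn : R.Normal := Subgroup.normalClosure_normal
  have hRle : R ≤ ⁅M, M⁆ := Subgroup.normalClosure_le_normal (fun x hx => (Subgroup.mem_inf.1 hx).1)
  -- the two conjugations agree modulo `R`
  have hagree : ∀ a₁ ∈ A, ∀ z₁ ∈ Y, ∀ x ∈ M,
      (QuotientGroup.mk' R) ((z₁ * a₁) * x * (z₁ * a₁)⁻¹) =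
        (QuotientGroup.mk' R) ((a₁ * z₁) * x * (a₁ * z₁)⁻¹) := by
    intro a₁ ha₁ z₁ hz₁
    have hgen : Set.EqOn ((QuotientGroup.mk' R).comp (MulAut.conj (z₁ * a₁)).toMonoidHom)
        ((QuotientGroup.mk' R).comp (MulAut.conj (a₁ * z₁)).toMonoidHom)
        {g | ∃ g₁ ∈ A, ∃ g₂ ∈ Y, ⁅g₁, g₂⁆ = g} := by
      rintro _ ⟨a, ha, z, hz, rfl⟩
      show (QuotientGroup.mk' R) ((z₁ * a₁) * ⁅a, z⁆ * (z₁ * a₁)⁻¹) =
        (QuotientGroup.mk' R) ((a₁ * z₁) * ⁅a, z⁆ * (a₁ * z₁)⁻¹)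
      obtain ⟨a₃, ha₃, b₃, hb₃, b₂, hb₂, e⟩ := c.key hY ha ha₁ hz hz₁
      have hx : ⁅a, z⁆ ∈ M := Subgroup.commutator_mem_commutator ha hz
      have hu : (a₁ * z₁) * ⁅a, z⁆ * (a₁ * z₁)⁻¹ ∈ M := hMn.conj_mem _ hx _
      have hw : ⁅z₁, a₁⁆ ∈ M := by
        rw [← commutatorElement_inv]
        exact M.inv_mem (Subgroup.commutator_mem_commutator ha₁ hz₁)
      have e1 : a₃ * ⁅b₃, b₂⁆ * a₃⁻¹ = ⁅⁅z₁, a₁⁆, (a₁ * z₁) * ⁅a, z⁆ * (a₁ * z₁)⁻¹⁆ := by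
        have e2 : a₃ * ⁅b₃, b₂⁆ * a₃⁻¹ =
            ((z₁ * a₁) * ⁅a, z⁆ * (z₁ * a₁)⁻¹) * ((a₁ * z₁) * ⁅a, z⁆ * (a₁ * z₁)⁻¹)⁻¹ := by
          rw [e]; group
        rw [e2]
        generalize ⁅a, z⁆ = x
        simp only [commutatorElement_def]
        group
      have h1 : a₃ * ⁅b₃, b₂⁆ * a₃⁻¹ ∈ ⁅M, M⁆ := by
        rw [e1]; exact Subgroup.commutator_mem_commutator hw hu
      have h2 : ⁅b₃, b₂⁆ ∈ ⁅M, M⁆ := by
        have := hMMn.conj_mem _ h1 a₃⁻¹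
        have e3 : a₃⁻¹ * (a₃ * ⁅b₃, b₂⁆ * a₃⁻¹) * a₃⁻¹⁻¹ = ⁅b₃, b₂⁆ := by group
        rwa [e3] at this
      have h3 : ⁅b₃, b₂⁆ ∈ R :=
        Subgroup.subset_normalClosure (Subgroup.mem_inf.2 ⟨h2, c.hBd b₃ hb₃ b₂ hb₂⟩)
      have h4 : a₃ * ⁅b₃, b₂⁆ * a₃⁻¹ ∈ R := hRn.conj_mem _ h3 a₃
      rw [e, map_mul]
      have h5 : (QuotientGroup.mk' R) (a₃ * ⁅b₃, b₂⁆ * a₃⁻¹) = 1 := by
        rw [QuotientGroup.mk'_apply, QuotientGroup.eq_one_iff]; exact h4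
      rw [h5, one_mul]
    have hcl := MonoidHom.eqOn_closure hgen
    intro x hx
    have hx' : x ∈ Subgroup.closure {g | ∃ g₁ ∈ A, ∃ g₂ ∈ Y, ⁅g₁, g₂⁆ = g} := by
      rw [← Subgroup.commutator_def]; exact hx
    exact hcl hx'
  have hcomm1 : ∀ a₁ ∈ A, ∀ z₁ ∈ Y, ∀ u ∈ M,
      (QuotientGroup.mk' R) ⁅a₁, z₁⁆ * (QuotientGroup.mk' R) u =
        (QuotientGroup.mk' R) u * (QuotientGroup.mk' R) ⁅a₁, z₁⁆ := by
    intro a₁ ha₁ z₁ hz₁ u hu
    have hx : (a₁ * z₁)⁻¹ * u * (a₁ * z₁)⁻¹⁻¹ ∈ M := hMn.conj_mem _ hu _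
    have h1 := hagree a₁ ha₁ z₁ hz₁ _ hx
    have e1 : (a₁ * z₁) * ((a₁ * z₁)⁻¹ * u * (a₁ * z₁)⁻¹⁻¹) * (a₁ * z₁)⁻¹ = u := by group
    have e2 : (z₁ * a₁) * ((a₁ * z₁)⁻¹ * u * (a₁ * z₁)⁻¹⁻¹) * (z₁ * a₁)⁻¹ =
        ⁅a₁, z₁⁆⁻¹ * u * ⁅a₁, z₁⁆ := by
      simp only [commutatorElement_def]; group
    rw [e1, e2, map_mul, map_mul, map_inv] at h1
    generalize (QuotientGroup.mk' R) ⁅a₁, z₁⁆ = w at h1 ⊢
    generalize (QuotientGroup.mk' R) u = U at h1 ⊢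
    calc w * U = w * (w⁻¹ * U * w) := by rw [h1]
      _ = U * w := by group
  have hMR : ⁅M, M⁆ ≤ R := by
    have h1 : M ≤ (Subgroup.centralizer ((M.map (QuotientGroup.mk' R) : Subgroup (G ⧸ R)) :
        Set (G ⧸ R))).comap (QuotientGroup.mk' R) := by
      rw [hMdef, Subgroup.commutator_le]
      intro a₁ ha₁ z₁ hz₁
      rw [Subgroup.mem_comap, Subgroup.mem_centralizer_iff]
      rintro _ ⟨u, hu, rfl⟩
      exact (hcomm1 a₁ ha₁ z₁ hz₁ u hu).symm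
    rw [Subgroup.commutator_le]
    intro x hx y hy
    have h2 := h1 hx
    rw [Subgroup.mem_comap, Subgroup.mem_centralizer_iff] at h2
    have h3 := h2 _ (Subgroup.mem_map_of_mem _ hy)
    have h4 : (QuotientGroup.mk' R) ⁅x, y⁆ = 1 := by
      rw [map_commutatorElement, commutatorElement_eq_one_iff_mul_comm]
      exact h3.symm
    rw [QuotientGroup.mk'_apply, QuotientGroup.eq_one_iff] at h4
    exact h4
  have hReq : ⁅M, M⁆ = R := le_antisymm hMR hRle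
  have hMM_le : ⁅M, M⁆ ≤ N := le_trans (Subgroup.commutator_le_left M M) hMN
  refine ⟨⁅M, M⁆, hMMn, hReq, ?_, inf_le_inf_right _ hMM_le, ?_⟩
  · show ⁅⁅N, N⁆, ⁅N, N⁆⁆ ≤ ⁅M, M⁆
    exact Subgroup.commutator_mono hNM hNM
  · intro heq
    apply c.hsol
    have h1 : N = ⁅M, M⁆ := by
      rw [hReq, hRdef, heq]
      exact hNc
    calc N = ⁅M, M⁆ := h1
      _ ≤ ⁅N, N⁆ := Subgroup.commutator_mono hMN hMN

end

theorem omega_lt {m n : ℕ} (hn : n ≠ 0) (hd : m ∣ n) (hne : m ≠ n) :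
    m.primeFactorsList.length < n.primeFactorsList.length := by
  obtain ⟨d, rfl⟩ := hd
  have hm : m ≠ 0 := fun e => hn (by rw [e, zero_mul])
  have hd0 : d ≠ 0 := fun e => hn (by rw [e, mul_zero])
  have hd1 : d ≠ 1 := fun e => hne (by rw [e, mul_one])
  rw [(Nat.perm_primeFactorsList_mul hm hd0).length_eq, List.length_append]
  have : d.primeFactorsList ≠ [] := by
    intro e
    rcases (Nat.primeFactorsList_eq_nil d).1 e with h | h
    · exact hd0 h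
    · exact hd1 h
  have := List.length_pos_iff.2 this
  omega

theorem main_ind {G : Type*} [Group G] [Finite G] {A B Bd : Subgroup G} (c : Ctx A B Bd) (k : ℕ) :
    ∀ N : Subgroup G, N.Normal →
      N = Subgroup.normalClosure ((N ⊓ Bd : Subgroup G) : Set G) →
      (Nat.card ↥(N ⊓ Bd)).primeFactorsList.length ≤ k → ds N (2 * k) = ⊥ := by
  induction k with
  | zero =>
    intro N hN hNc hk
    obtain ⟨N₂, hN₂, hN₂c, hds, hle, hbot⟩ := c.step N hN hNc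
    by_cases heq : N₂ ⊓ Bd = N ⊓ Bd
    · rw [hbot heq]; exact ds_bot _
    · exfalso
      have h1 : Nat.card ↥(N₂ ⊓ Bd) ≠ Nat.card ↥(N ⊓ Bd) := by
        intro e
        exact heq (Subgroup.eq_of_le_of_card_ge hle e.ge)
      have := omega_lt Nat.card_pos.ne' (Subgroup.card_dvd_of_le hle) h1
      omega
  | succ k ih =>
    intro N hN hNc hk
    obtain ⟨N₂, hN₂, hN₂c, hds, hle, hbot⟩ := c.step N hN hNc
    by_cases heq : N₂ ⊓ Bd = N ⊓ Bd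
    · rw [hbot heq]; exact ds_bot _
    · have h1 : Nat.card ↥(N₂ ⊓ Bd) ≠ Nat.card ↥(N ⊓ Bd) := by
        intro e
        exact heq (Subgroup.eq_of_le_of_card_ge hle e.ge)
      have h2 := omega_lt Nat.card_pos.ne' (Subgroup.card_dvd_of_le hle) h1
      have h3 := ih N₂ hN₂ hN₂c (by omega)
      have e : 2 * (k + 1) = 2 + 2 * k := by ring
      rw [e, ds_add, eq_bot_iff, ← h3]
      exact ds_mono hds _

/-- Let the finite group G be the product AB of an abelian subgroup A and a subgroup B of nilpotency class at most two, and let Ω be the number of prime factors, with multiplicity, of the order of the commutator subgroup of B. Then the term of index 2(1 + Ω) of the derived series of G is trivial. -/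
theorem result {G : Type*} [Group G] [Finite G] (A B : Subgroup G) [IsMulCommutative A] (hB : commutator ↥B ≤ Subgroup.center ↥B) (hAB : ∀ g : G, ∃ a ∈ A, ∃ b ∈ B, g = a * b) : derivedSeries G (2 * (1 + (Nat.card ↥(commutator ↥B)).primeFactorsList.length)) = ⊥ := by
  have hA : ∀ x ∈ A, ∀ y ∈ A, x * y = y * x := fun x hx y hy =>
    congrArg Subtype.val (mul_comm' (⟨x, hx⟩ : A) ⟨y, hy⟩)
  have hAnil : Group.IsNilpotent A := by
    let _ : CommGroup A := { (inferInstance : Group A) with mul_comm := mul_comm' }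
    exact CommGroup.isNilpotent
  have hBnil : Group.IsNilpotent B := by
    apply Subgroup.isNilpotent_of_ker_le_center (Abelianization.of (G := ↥B))
    rw [Abelianization.ker_of]
    exact hB
  have hsolv : Group.IsSolvable G := Cfsg.Agent.S0564.result A B hAnil hBnil hAB
  set Bd : Subgroup G := (commutator ↥B).map B.subtype with hBd
  have hcard : Nat.card ↥Bd = Nat.card ↥(commutator ↥B) :=
    Subgroup.card_map_of_injective B.subtype_injective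
  have c : Ctx A B Bd := by
    refine ⟨hA, hAB, ?_, ?_, ?_, ?_⟩
    · intro b₁ hb₁ b₂ hb₂
      refine ⟨⁅(⟨b₁, hb₁⟩ : B), ⟨b₂, hb₂⟩⁆, ?_, ?_⟩
      · exact Subgroup.commutator_mem_commutator (Subgroup.mem_top _) (Subgroup.mem_top _)
      · rw [map_commutatorElement]; rfl
    · rintro _ ⟨z, hz, rfl⟩ b hb
      have h1 := Subgroup.mem_center_iff.1 (hB hz) ⟨b, hb⟩
      exact congrArg Subtype.val h1
    · rintro _ ⟨z, hz, rfl⟩
      exact z.2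
    · intro H hH
      obtain ⟨n, hn⟩ := hsolv.solvable
      have h1 : ∀ n, H ≤ derivedSeries G n := by
        intro n
        induction n with
        | zero => exact le_top
        | succ n ih => exact le_trans hH (Subgroup.commutator_mono ih ih)
      rw [eq_bot_iff, ← hn]
      exact h1 n
  set N₀ : Subgroup G := Subgroup.normalClosure (Bd : Set G) with hN₀
  have hN₀n : N₀.Normal := Subgroup.normalClosure_normal
  have hBdN : Bd ≤ N₀ := Subgroup.le_normalClosure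
  have hinf : N₀ ⊓ Bd = Bd := inf_eq_right.2 hBdN
  have hito : derivedSeries G 2 ≤ N₀ := by
    have hAq : IsMulCommutative (A.map (QuotientGroup.mk' N₀)) := by
      refine ⟨⟨?_⟩⟩
      rintro ⟨_, x, hx, rfl⟩ ⟨_, y, hy, rfl⟩
      apply Subtype.ext
      show (QuotientGroup.mk' N₀) x * (QuotientGroup.mk' N₀) y =
        (QuotientGroup.mk' N₀) y * (QuotientGroup.mk' N₀) x
      rw [← map_mul, ← map_mul, hA x hx y hy]
    have hBq : IsMulCommutative (B.map (QuotientGroup.mk' N₀)) := by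
      refine ⟨⟨?_⟩⟩
      rintro ⟨_, x, hx, rfl⟩ ⟨_, y, hy, rfl⟩
      apply Subtype.ext
      show (QuotientGroup.mk' N₀) x * (QuotientGroup.mk' N₀) y =
        (QuotientGroup.mk' N₀) y * (QuotientGroup.mk' N₀) x
      rw [← commutatorElement_eq_one_iff_mul_comm, ← map_commutatorElement,
        QuotientGroup.mk'_apply, QuotientGroup.eq_one_iff]
      exact hBdN (c.hBd x hx y hy)
    have h1 := Cfsg.Agent.S0572.result (A.map (QuotientGroup.mk' N₀)) (B.map (QuotientGroup.mk' N₀))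
      (by
        intro q
        obtain ⟨g, rfl⟩ := QuotientGroup.mk'_surjective N₀ q
        obtain ⟨a, ha, b, hb, rfl⟩ := hAB g
        exact ⟨_, Subgroup.mem_map_of_mem _ ha, _, Subgroup.mem_map_of_mem _ hb, map_mul _ _ _⟩)
    have h2 := map_derivedSeries_eq (QuotientGroup.mk'_surjective N₀) 2
    rw [h1, Subgroup.map_eq_bot_iff, QuotientGroup.ker_mk'] at h2
    exact h2
  have hmain := main_ind c (Nat.card ↥(commutator ↥B)).primeFactorsList.length N₀ hN₀n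
    (by rw [hinf]) (by rw [hinf, hcard])
  have e : 2 * (1 + (Nat.card ↥(commutator ↥B)).primeFactorsList.length) =
      2 + 2 * (Nat.card ↥(commutator ↥B)).primeFactorsList.length := by ring
  rw [e, ← ds_top, ds_add, eq_bot_iff, ← hmain]
  apply ds_mono
  rw [ds_top]
  exact hito

end Cfsg.Agent.S0574
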