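import Cfsg.Statements.S0576
import Mathlib

set_option autoImplicit false
open Cfsg

namespace Cfsg.Agent.S0576

theorem inn_normal {H : Type*} [Group H] : ((MulAut.conj : H →* MulAut H).range).Normal := by
  constructor
  rintro _ ⟨h, rfl⟩ f
  refine ⟨f h, ?_⟩
  ext x
  simp [MulAut.conj_apply]

/-- Let H be a normal subgroup of a finite group G with H contained in the Frattini subgroup of G. Then the group of inner automorphisms of H is contained in the Frattini subgroup of the automorphism group of H. -/
theorem result {G : Type*} [Group G] [Finite G] (H : Subgroup G) [H.Normal] (hH : H ≤ frattini G) : (MulAut.conj : ↥H →* MulAut ↥H).range ≤ frattini (MulAut ↥H) := by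
  unfold frattini Order.radical
  rw [le_iInf₂_iff]
  intro M hM
  by_contra hnot
  haveI := inn_normal (H := H)
  have htop : (MulAut.conj : ↥H →* MulAut ↥H).range ⊔ M = ⊤ := by
    apply hM.2
    exact lt_of_le_of_ne le_sup_right (fun h => hnot (h ▸ le_sup_left))
  let φ : G →* MulAut H := MulAut.conjNormal
  have hX : M.comap φ ⊔ frattini G = ⊤ := by
    rw [eq_top_iff]
    intro g _
    have hg : φ g ∈ (MulAut.conj : ↥H →* MulAut ↥H).range ⊔ M := by rw [htop]; trivial
    rw [← SetLike.mem_coe, Subgroup.normal_mul] at hg
    obtain ⟨_, ⟨h, rfl⟩, m, hm, hmul⟩ := hg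
    have h1 : (h : G)⁻¹ * g ∈ M.comap φ := by
      rw [Subgroup.mem_comap, map_mul, map_inv, ← hmul]
      have : φ (h : G) = MulAut.conj h := MulAut.conjNormal_val
      rw [this]
      simpa using hm
    have h2 : (h : G) ∈ frattini G := hH h.2
    have : g = (h : G) * ((h : G)⁻¹ * g) := by group
    rw [this]
    exact mul_mem (Subgroup.mem_sup_right h2) (Subgroup.mem_sup_left h1)
  have hX' := frattini_nongenerating hX
  apply hnot
  rintro _ ⟨h, rfl⟩
  have : (h : G) ∈ M.comap φ := by rw [hX']; trivial
  rw [Subgroup.mem_comap] at this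
  have h3 : φ (h : G) = MulAut.conj h := MulAut.conjNormal_val
  rwa [h3] at this

end Cfsg.Agent.S0576
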