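import Mathlib
import Cfsg.Statements.S0577
import Cfsg.Agent.S0536
import Cfsg.Agent.Lib.Helper9.Schmidt
import Cfsg.Agent.Lib.Helper31.SylowConj
import Cfsg.Agent.Lib.Helper91.FrattiniMore
import Cfsg.Agent.S3743
-- import your own Cfsg.Agent.* helpers here

set_option autoImplicit false
open Cfsg
open Cfsg.Agent.Lib.Helper91
open scoped commutatorElement

namespace Cfsg.Agent.S0577


/-- In `G = P Q` (`P` an abelian Sylow `p`-subgroup, `Q` a normal Sylow `q`-subgroup) every nilpotent subgroup `K`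
satisfies `[K,K] ≤ [Q,Q]`. -/
theorem commutator_le_of_isNilpotent {G : Type*} [Group G] [Finite G] {p q : ℕ} [Fact p.Prime]
    [Fact q.Prime] (hpq : p ≠ q) (P : Sylow p G) (Q : Sylow q G)
    (hPc : ∀ a ∈ P, ∀ b ∈ P, a * b = b * a) (hQ : (Q : Subgroup G).Normal)
    (htop : (P : Subgroup G) ⊔ Q = ⊤) (K : Subgroup G) (hK : Group.IsNilpotent K) :
    ⁅K, K⁆ ≤ ⁅(Q : Subgroup G), (Q : Subgroup G)⁆ := by
  have hp : p.Prime := Fact.out
  have hq : q.Prime := Fact.out
  let R' : Sylow p K := Classical.arbitrary _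
  set R : Subgroup G := (R' : Subgroup K).map K.subtype with hR
  have hRK : R ≤ K := Subgroup.map_subtype_le _
  have hRp : IsPGroup p R := R'.2.map K.subtype
  set Kq : Subgroup G := K ⊓ Q with hKq
  have hKqq : IsPGroup q Kq := Q.2.to_le inf_le_right
  set L := Kq ⊔ R with hL
  -- `K ≤ L`
  have hKL : K ≤ L := by
    rw [← Subgroup.relIndex_eq_one]
    by_contra hne
    obtain ⟨s, hs, hsd⟩ := Nat.exists_prime_and_dvd hne
    have h1 : s ∣ Nat.card G := (hsd.trans (Subgroup.relIndex_dvd_card L K)).trans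
      (Subgroup.card_subgroup_dvd_card K)
    have h2 : Nat.card G ∣ Nat.card (P : Subgroup G) * Nat.card (Q : Subgroup G) := by
      have := Cfsg.Agent.S3743.card_sup_dvd (P : Subgroup G) (Q : Subgroup G)
        (by rw [Subgroup.normalizer_eq_top_iff.2 hQ]; exact le_top)
      rwa [htop, Subgroup.card_top] at this
    obtain ⟨a, ha⟩ := IsPGroup.iff_card.1 P.2
    obtain ⟨b, hb⟩ := IsPGroup.iff_card.1 Q.2
    rw [ha, hb] at h2
    rcases (hs.dvd_mul).1 (h1.trans h2) with h3 | h3
    · have hsp : s = p := (Nat.prime_dvd_prime_iff_eq hs hp).1 (hs.dvd_of_dvd_pow h3)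
      subst hsp
      have h4 : L.relIndex K ∣ R.relIndex K := Subgroup.relIndex_dvd_of_le_left K le_sup_right
      have h5 : R.relIndex K = (R' : Subgroup K).index := by
        rw [Subgroup.relIndex, hR, Subgroup.subgroupOf,
          Subgroup.comap_map_eq_self_of_injective K.subtype_injective]
      rw [h5] at h4
      exact R'.not_dvd_index (hsd.trans h4)
    · have hsq : s = q := (Nat.prime_dvd_prime_iff_eq hs hq).1 (hs.dvd_of_dvd_pow h3)
      subst hsq
      have h4 : L.relIndex K ∣ Kq.relIndex K := Subgroup.relIndex_dvd_of_le_left K le_sup_left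
      have h5 : Kq.relIndex K = (Q : Subgroup G).relIndex K := Subgroup.inf_relIndex_left K Q
      have h6 : (Q : Subgroup G).relIndex K ∣ (Q : Subgroup G).index :=
        Subgroup.relIndex_dvd_index_of_normal _ _
      rw [h5] at h4
      exact Q.not_dvd_index ((hsd.trans h4).trans h6)
  have hDn : (⁅(Q : Subgroup G), (Q : Subgroup G)⁆).Normal := inferInstance
  have c1 : ⁅Kq, Kq⁆ ≤ ⁅(Q : Subgroup G), (Q : Subgroup G)⁆ :=
    Subgroup.commutator_mono inf_le_right inf_le_right
  have c2 : ⁅R, Kq⁆ ≤ ⁅(Q : Subgroup G), (Q : Subgroup G)⁆ := by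
    rw [Subgroup.commutator_le]
    intro r hr k hk
    have := Cfsg.Agent.Lib.Helper9.commute_of_nilpotent_of_pgroups hpq hK hRK inf_le_left hRp hKqq
      r hr k hk
    rw [commutatorElement_eq_one_iff_mul_comm.2 this]
    exact Subgroup.one_mem _
  have c3 : ⁅Kq, R⁆ ≤ ⁅(Q : Subgroup G), (Q : Subgroup G)⁆ := by
    rw [Subgroup.commutator_comm]; exact c2
  have c4 : ⁅R, R⁆ ≤ ⁅(Q : Subgroup G), (Q : Subgroup G)⁆ := by
    rw [Subgroup.commutator_le]
    intro r hr k hk
    obtain ⟨c, hc⟩ := Cfsg.Agent.Lib.Helper31.exists_conj_mem_sylow R hRp P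
    have h1 := hPc _ (hc r hr) _ (hc k hk)
    have h2 : r * k = k * r := by
      have e1 : c * r * c⁻¹ * (c * k * c⁻¹) = c * (r * k) * c⁻¹ := by group
      have e2 : c * k * c⁻¹ * (c * r * c⁻¹) = c * (k * r) * c⁻¹ := by group
      rw [e1, e2] at h1
      exact mul_left_cancel (mul_right_cancel h1)
    rw [commutatorElement_eq_one_iff_mul_comm.2 h2]
    exact Subgroup.one_mem _
  calc ⁅K, K⁆ ≤ ⁅L, L⁆ := Subgroup.commutator_mono hKL hKL
    _ ≤ _ := sup_commutator_le (commutator_sup_le c1 c3) (commutator_sup_le c2 c4)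

/-- Let G be a finite minimal non-nilpotent group and Q a normal Sylow q-subgroup of G, and let D be the commutator subgroup of Q regarded in G (a normal subgroup). Then G modulo D is non-abelian and all its proper subgroups are abelian. -/
theorem result {G : Type*} [Group G] [Finite G] (hG : Cfsg.IsMinimalNonNilpotent G) (q : ℕ) [Fact q.Prime] (hq : q ∣ Nat.card G) (Q : Sylow q G) (hQ : (Q : Subgroup G).Normal) (D : Subgroup G) [D.Normal] (hD : D = (commutator ↥(Q : Subgroup G)).map (Q : Subgroup G).subtype) : ¬ IsMulCommutative (G ⧸ D) ∧ ∀ K : Subgroup (G ⧸ D), K ≠ ⊤ → IsMulCommutative K := by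
  classical
  have hqp : q.Prime := Fact.out
  obtain ⟨hnn, hprop⟩ := hG
  obtain ⟨p, q', hp, hq', hpq, P, Q', hPcyc, hQ'n, htop⟩ := Cfsg.Agent.S0536.result ⟨hnn, hprop⟩
  have := Fact.mk hp
  have := Fact.mk hq'
  have hD' : D = ⁅(Q : Subgroup G), (Q : Subgroup G)⁆ := by
    rw [hD, Subgroup.map_subtype_commutator]
  -- `q = q'`
  have hcard : Nat.card G ∣ Nat.card (P : Subgroup G) * Nat.card (Q' : Subgroup G) := by
    have := Cfsg.Agent.S3743.card_sup_dvd (P : Subgroup G) (Q' : Subgroup G)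
      (by rw [Subgroup.normalizer_eq_top_iff.2 hQ'n]; exact le_top)
    rwa [htop, Subgroup.card_top] at this
  obtain ⟨a, ha⟩ := IsPGroup.iff_card.1 P.2
  obtain ⟨b, hb⟩ := IsPGroup.iff_card.1 Q'.2
  rw [ha, hb] at hcard
  have hqq : q = q' := by
    rcases (hqp.dvd_mul).1 (hq.trans hcard) with h3 | h3
    · exfalso
      have hsp : q = p := (Nat.prime_dvd_prime_iff_eq hqp hp).1 (hqp.dvd_of_dvd_pow h3)
      subst hsp
      have := Sylow.unique_of_normal Q hQ
      have hPQ : P = Q := Subsingleton.elim _ _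
      rw [hPQ] at htop
      have h1 : Group.IsNilpotent ((Q : Subgroup G) ⊔ (Q' : Subgroup G) : Subgroup G) :=
        isNilpotent_sup _ _ Q.2.isNilpotent Q'.2.isNilpotent
      rw [htop] at h1
      exact hnn (Group.nilpotent_of_mulEquiv Subgroup.topEquiv)
    · exact (Nat.prime_dvd_prime_iff_eq hqp hq').1 (hqp.dvd_of_dvd_pow h3)
  subst hqq
  have := Sylow.unique_of_normal Q hQ
  have hQQ : Q' = Q := Subsingleton.elim _ _
  rw [hQQ] at htop
  have hPc : ∀ a ∈ P, ∀ b ∈ P, a * b = b * a := by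
    intro a ha b hb
    have h1 := (IsCyclic.isMulCommutative (α := (P : Subgroup G))).is_comm.comm ⟨a, ha⟩ ⟨b, hb⟩
    exact congrArg Subtype.val h1
  have key : ∀ K : Subgroup G, K ≠ ⊤ → ⁅K, K⁆ ≤ D := by
    intro K hK
    rw [hD']
    exact commutator_le_of_isNilpotent hpq P Q hPc hQ htop K (hprop K hK)
  have hπ : ∀ x y : G, ⁅x, y⁆ ∈ D ↔ (x : G ⧸ D) * (y : G ⧸ D) = (y : G ⧸ D) * (x : G ⧸ D) := by
    intro x y
    rw [← commutatorElement_eq_one_iff_mul_comm, ← QuotientGroup.eq_one_iff]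
    rfl
  refine ⟨?_, ?_⟩
  · intro hcomm
    apply hnn
    have hDΦ : D ≤ frattini G := by
      rw [hD']
      exact commutator_le_frattini (Q : Subgroup G) Q.2.isNilpotent
    have h1 : Group.IsNilpotent ((⊤ : Subgroup G).map (QuotientGroup.mk' (frattini G))) := by
      have hc : ∀ a b : ((⊤ : Subgroup G).map (QuotientGroup.mk' (frattini G))), a * b = b * a := by
        rintro ⟨_, x, -, rfl⟩ ⟨_, y, -, rfl⟩
        apply Subtype.ext
        change QuotientGroup.mk' (frattini G) x * QuotientGroup.mk' (frattini G) y =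
          QuotientGroup.mk' (frattini G) y * QuotientGroup.mk' (frattini G) x
        rw [← commutatorElement_eq_one_iff_mul_comm, ← map_commutatorElement,
          QuotientGroup.mk'_apply, QuotientGroup.eq_one_iff]
        apply hDΦ
        rw [hπ]
        exact hcomm.is_comm.comm _ _
      let _ : CommGroup ((⊤ : Subgroup G).map (QuotientGroup.mk' (frattini G))) :=
        { (inferInstance : Group _) with mul_comm := hc }
      exact CommGroup.isNilpotent
    have h2 : Group.IsNilpotent (⊤ : Subgroup G) := isNilpotent_of_map_mk_frattini ⊤ h1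
    exact Group.nilpotent_of_mulEquiv Subgroup.topEquiv
  · intro K hK
    set K₀ := K.comap (QuotientGroup.mk' D) with hK₀
    have hK₀t : K₀ ≠ ⊤ := by
      intro h
      apply hK
      rw [← Subgroup.map_comap_eq_self_of_surjective (QuotientGroup.mk'_surjective D) K, ← hK₀, h,
        ← MonoidHom.range_eq_map, MonoidHom.range_eq_top.2 (QuotientGroup.mk'_surjective D)]
    refine ⟨⟨?_⟩⟩
    rintro ⟨a, ha⟩ ⟨b, hb⟩
    apply Subtype.ext
    obtain ⟨x, rfl⟩ := QuotientGroup.mk'_surjective D a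
    obtain ⟨y, rfl⟩ := QuotientGroup.mk'_surjective D b
    exact (hπ x y).1 (key K₀ hK₀t (Subgroup.commutator_mem_commutator ha hb))

end Cfsg.Agent.S0577
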