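import Cfsg.Statements.S0578
import Mathlib

set_option autoImplicit false
open Cfsg

namespace Cfsg.Agent.S0578

open scoped commutatorElement

theorem comm_sup_zpowers {G : Type*} [Group G] (A : Subgroup G) (hA : ∀ x ∈ A, ∀ y ∈ A, x * y = y * x)
    (x : G) (hx : x ∈ Subgroup.centralizer (A : Set G)) :
    ∀ u ∈ A ⊔ Subgroup.zpowers x, ∀ v ∈ A ⊔ Subgroup.zpowers x, u * v = v * u := by
  have h1 : A ⊔ Subgroup.zpowers x = Subgroup.closure ((A : Set G) ∪ {x}) := by
    rw [Subgroup.closure_union, Subgroup.closure_eq, Subgroup.zpowers_eq_closure]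
  have h2 : IsMulCommutative (Subgroup.closure ((A : Set G) ∪ {x})) := by
    apply Subgroup.isMulCommutative_closure
    rintro u (hu | hu) v (hv | hv)
    · exact hA u hu v hv
    · rw [Set.mem_singleton_iff.mp hv]
      exact (Subgroup.mem_centralizer_iff.mp hx) u hu
    · rw [Set.mem_singleton_iff.mp hu]
      exact ((Subgroup.mem_centralizer_iff.mp hx) v hv).symm
    · rw [Set.mem_singleton_iff.mp hu, Set.mem_singleton_iff.mp hv]
  rw [h1]
  intro u hu v hv
  exact congrArg Subtype.val (mul_comm' (⟨u, hu⟩ : Subgroup.closure ((A : Set G) ∪ {x})) ⟨v, hv⟩)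

/-- If in a finite group the normalizer of each abelian subgroup coincides with its centralizer, then the group is abelian. -/
theorem result {G : Type*} [Group G] [Finite G] (h : ∀ A : Subgroup G, IsMulCommutative A → Subgroup.normalizer (A : Set G) = Subgroup.centralizer (A : Set G)) : IsMulCommutative G := by
  -- Sylow subgroups are abelian
  have hsyl : ∀ (p : ℕ) [Fact p.Prime] (P : Sylow p G), IsMulCommutative (P : Subgroup G) := by
    intro p _ P
    have hnon : Nonempty {A : Subgroup G // A ≤ (P : Subgroup G) ∧ ∀ x ∈ A, ∀ y ∈ A, x * y = y * x} :=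
      ⟨⟨⊥, bot_le, by
        intro x hx y hy
        rw [Subgroup.mem_bot] at hx hy
        rw [hx, hy]⟩⟩
    obtain ⟨⟨A, hAP, hAc⟩, hmax⟩ := Finite.exists_max
      (fun A : {A : Subgroup G // A ≤ (P : Subgroup G) ∧ ∀ x ∈ A, ∀ y ∈ A, x * y = y * x} => Nat.card A.1)
    have hAcomm : IsMulCommutative A := ⟨⟨fun x y => Subtype.ext (hAc x x.2 y y.2)⟩⟩
    have hself : (P : Subgroup G) ⊓ Subgroup.centralizer (A : Set G) ≤ A := by
      intro x hx
      have h1 := comm_sup_zpowers A hAc x hx.2
      have h2 : A ⊔ Subgroup.zpowers x ≤ (P : Subgroup G) :=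
        sup_le hAP (by rw [Subgroup.zpowers_le]; exact hx.1)
      have h3 := hmax ⟨A ⊔ Subgroup.zpowers x, h2, h1⟩
      have h4 : A = A ⊔ Subgroup.zpowers x := Subgroup.eq_of_le_of_card_ge le_sup_left h3
      rw [h4]; exact Subgroup.mem_sup_right (Subgroup.mem_zpowers x)
    have hnil : Group.IsNilpotent (P : Subgroup G) := P.2.isNilpotent
    have hnc : NormalizerCondition (P : Subgroup G) := Group.normalizerCondition_of_isNilpotent
    rw [normalizerCondition_iff_only_full_group_self_normalizing] at hnc
    have h5 : A.subgroupOf (P : Subgroup G) = ⊤ := by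
      apply hnc
      rw [← Subgroup.subgroupOf_normalizer_eq hAP, h A hAcomm]
      apply le_antisymm
      · intro x hx
        rw [Subgroup.mem_subgroupOf] at *
        exact hself (Subgroup.mem_inf.mpr ⟨x.2, hx⟩)
      · intro x hx
        rw [Subgroup.mem_subgroupOf] at *
        rw [Subgroup.mem_centralizer_iff]
        intro y hy
        exact hAc y hy x hx
    rw [Subgroup.subgroupOf_eq_top] at h5
    have : A = (P : Subgroup G) := le_antisymm hAP h5
    rw [← this]; exact hAcomm
  rw [← commutator_eq_bot_iff, ← Subgroup.card_eq_one]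
  by_contra hne
  obtain ⟨p, hp, hpd⟩ := Nat.exists_prime_and_dvd hne
  have : Fact p.Prime := ⟨hp⟩
  obtain ⟨P⟩ : Nonempty (Sylow p G) := inferInstance
  have hPc := hsyl p P
  have hP : Subgroup.normalizer ((P : Subgroup G) : Set G) ≤ Subgroup.centralizer ((P : Subgroup G) : Set G) :=
    (h _ hPc).le
  have hker : commutator G ≤ (MonoidHom.transferSylow P hP).ker := by
    rw [commutator_eq_closure, Subgroup.closure_le]
    rintro _ ⟨x, y, rfl⟩
    rw [SetLike.mem_coe, MonoidHom.mem_ker, map_commutatorElement,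
      commutatorElement_eq_one_iff_mul_comm]
    exact mul_comm' _ _
  exact MonoidHom.not_dvd_card_ker_transferSylow P hP (hpd.trans (Subgroup.card_dvd_of_le hker))

end Cfsg.Agent.S0578
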