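import Cfsg.Statements.S0580
import Mathlib

set_option autoImplicit false
open Cfsg

namespace Cfsg.Agent.S0580

theorem index_modEq_one {G : Type*} [Group G] [Finite G] {p : ℕ} [Fact p.Prime] (P : Sylow p G)
    (M : Subgroup G) (hM : Subgroup.normalizer ((P : Subgroup G) : Set G) ≤ M) :
    M.index ≡ 1 [MOD p] := by
  have hPM : (P : Subgroup G) ≤ M := le_trans Subgroup.le_normalizer hM
  have h1 : (Subgroup.normalizer ((P : Subgroup G) : Set G)).index ≡ 1 [MOD p] := by
    have e : (Subgroup.normalizer ((P : Subgroup G) : Set G)).index = Nat.card (Sylow p G) :=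
      (Sylow.card_eq_index_normalizer P).symm
    rw [e]; exact card_sylow_modEq_one p G
  have h2 : (Subgroup.normalizer ((P : Subgroup G) : Set G)).relIndex M ≡ 1 [MOD p] := by
    have e : Nat.card (Sylow p M) = (Subgroup.normalizer (((P : Subgroup G).subgroupOf M : Subgroup M) : Set M)).index :=
      Sylow.card_eq_index_normalizer (P.subtype hPM)
    rw [← Subgroup.subgroupOf_normalizer_eq hPM] at e
    rw [Subgroup.relIndex, ← e]; exact card_sylow_modEq_one p M
  have h3 := Subgroup.relIndex_mul_index hM
  rw [← h3] at h1
  have h4 : (Subgroup.normalizer ((P : Subgroup G) : Set G)).relIndex M * M.index ≡ 1 * M.index [MOD p] :=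
    Nat.ModEq.mul_right _ h2
  rw [one_mul] at h4
  exact h4.symm.trans h1

theorem aux (n : ℕ) : ∀ (G : Type*) [Group G] [Finite G], Nat.card G = n →
    (∀ M : Subgroup G, IsCoatom M → M.index.Prime) → Group.IsSolvable G := by
  induction n using Nat.strong_induction_on with
  | _ n ih =>
    intro G _ _ hn h
    rcases subsingleton_or_nontrivial G with hs | hnt
    · infer_instance
    have hcard : 1 < Nat.card G := Finite.one_lt_card
    have hne : (Nat.card G).primeFactors.Nonempty := by
      rw [Nat.nonempty_primeFactors]; exact hcard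
    set p := (Nat.card G).primeFactors.max' hne with hp
    have hpmem : p ∈ (Nat.card G).primeFactors := Finset.max'_mem _ _
    have hpp : p.Prime := Nat.prime_of_mem_primeFactors hpmem
    have hpd : p ∣ Nat.card G := Nat.dvd_of_mem_primeFactors hpmem
    have : Fact p.Prime := ⟨hpp⟩
    obtain ⟨P⟩ : Nonempty (Sylow p G) := inferInstance
    have hPn : (P : Subgroup G).Normal := by
      rw [← Subgroup.normalizer_eq_top_iff]
      by_contra hne
      obtain ⟨M, hM, hle⟩ := (eq_top_or_exists_le_coatom _).resolve_left hne
      have hq := h M hM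
      have hmod := index_modEq_one P M hle
      have hqd : M.index ∣ Nat.card G := Subgroup.index_dvd_card M
      have hqmem : M.index ∈ (Nat.card G).primeFactors :=
        Nat.mem_primeFactors.mpr ⟨hq, hqd, by positivity⟩
      have hqle : M.index ≤ p := Finset.le_max' _ _ hqmem
      have h2 : 2 ≤ M.index := hq.two_le
      have hdvd : p ∣ M.index - 1 := (Nat.modEq_iff_dvd' (by omega)).mp hmod.symm
      have := Nat.le_of_dvd (by omega) hdvd
      omega
    have hPne : (P : Subgroup G) ≠ ⊥ := P.ne_bot_of_dvd_card hpd
    have hlt : Nat.card (G ⧸ (P : Subgroup G)) < n := by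
      rw [← hn, ← Subgroup.index_eq_card, ← Subgroup.card_mul_index (P : Subgroup G)]
      have h1 : 1 < Nat.card (P : Subgroup G) := by
        rw [Subgroup.one_lt_card_iff_ne_bot]; exact hPne
      have h2 : 0 < (P : Subgroup G).index := Nat.pos_of_ne_zero Subgroup.index_ne_zero_of_finite
      nlinarith
    have hq : Group.IsSolvable (G ⧸ (P : Subgroup G)) := by
      apply ih _ hlt _ rfl
      intro M hM
      have := h (M.comap (QuotientGroup.mk' _)) (Subgroup.isCoatom_comap_of_surjective (QuotientGroup.mk'_surjective _) hM)
      rwa [Subgroup.index_comap_of_surjective _ (QuotientGroup.mk'_surjective _)] at this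
    have hPs : Group.IsSolvable (P : Subgroup G) := by
      have := P.2.isNilpotent
      infer_instance
    exact (Group.isSolvable_iff_subgroup_quotient (P : Subgroup G)).mpr ⟨hPs, hq⟩

/-- If every maximal subgroup of a finite group has prime index, then the group is solvable. -/
theorem result {G : Type*} [Group G] [Finite G] (h : ∀ M : Subgroup G, IsCoatom M → M.index.Prime) : Group.IsSolvable G := by
  exact aux _ G rfl h

end Cfsg.Agent.S0580
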