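import Cfsg.Statements.S0579
import Cfsg.Agent.Lib.Helper9.Supersolvable7
import Cfsg.Agent.Lib.Helper91.FrattiniMore
import Cfsg.Agent.Lib.Helper10.Eigen
import Cfsg.Agent.Lib.Helper10.PCore
import Cfsg.Agent.Lib.Helper10.MinNormal
import Cfsg.Agent.S0580

set_option autoImplicit false
open Cfsg

namespace Cfsg.Agent.S0579

open Cfsg.Agent.Lib.Helper9 Cfsg.Agent.Lib.Helper10
open scoped commutatorElement

/-- `(p-1)`-th powers centralize normal subgroups of order `p`. -/
theorem pow_centralizes {H : Type*} [Group H] [Finite H] {p : ℕ} [Fact p.Prime] (Z : Subgroup H)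
    [Z.Normal] (hZ : Nat.card Z = p) (k : H) (z : H) (hz : z ∈ Z) :
    k ^ (p - 1) * z * (k ^ (p - 1))⁻¹ = z := by
  have hc : IsCyclic Z := isCyclic_of_prime_card hZ
  have h1 : Nat.card (MulAut Z) = p - 1 := by
    rw [IsCyclic.card_mulAut, hZ, Nat.totient_prime Fact.out]
  have h2 : (MulAut.conjNormal k : MulAut Z) ^ (p - 1) = 1 := by
    rw [← h1]; exact pow_card_eq_one'
  rw [← map_pow] at h2
  have h3 := congrArg (fun φ : MulAut Z => ((φ ⟨z, hz⟩ : Z) : H)) h2
  exact h3

theorem star (n : ℕ) : ∀ (H : Type*) [Group H] [Finite H], Nat.card H = n → IsSupersolvable H →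
    ∀ (p : ℕ) [Fact p.Prime] (T : Subgroup H) [T.Normal], IsPGroup p T → ∀ k : H,
    (orderOf (k ^ (p - 1))).Coprime p → ∀ t ∈ T, k ^ (p - 1) * t * (k ^ (p - 1))⁻¹ = t := by
  induction n using Nat.strong_induction_on with
  | _ n ih =>
    intro H _ _ hn hH p _ T _ hT k hk t ht
    rcases subsingleton_or_nontrivial H with hs | hnt
    · exact Subsingleton.elim _ _
    obtain ⟨Z, hZn, hZp⟩ := exists_normal_prime_card hH
    have hZne : Z ≠ ⊥ := by
      intro h
      rw [h, Subgroup.card_bot] at hZp
      exact Nat.not_prime_one hZp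
    have hlt : Nat.card (H ⧸ Z) < n := hn ▸ card_quotient_lt Z hZne
    have hTn : (T.map (QuotientGroup.mk' Z)).Normal :=
      Subgroup.Normal.map inferInstance _ (QuotientGroup.mk'_surjective Z)
    set h := k ^ (p - 1) with hh
    have hq := ih _ hlt (H ⧸ Z) rfl (isSupersolvable_quotient hH Z) p (T.map (QuotientGroup.mk' Z))
      (hT.map _) (QuotientGroup.mk' Z k) (by
        rw [← map_pow]
        exact Nat.Coprime.coprime_dvd_left (orderOf_map_dvd _ _) hk) (QuotientGroup.mk' Z t)
      (Subgroup.mem_map_of_mem _ ht)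
    rw [← map_pow, ← hh, ← map_inv, ← map_mul, ← map_mul] at hq
    have hz : (h * t * h⁻¹) * t⁻¹ ∈ Z := by
      rw [← QuotientGroup.eq_one_iff, ← QuotientGroup.mk'_apply, map_mul, hq, ← map_mul,
        mul_inv_cancel, map_one]
    have hzT : (h * t * h⁻¹) * t⁻¹ ∈ T :=
      mul_mem (Subgroup.Normal.conj_mem inferInstance t ht h) (inv_mem ht)
    set z := (h * t * h⁻¹) * t⁻¹ with hzdef
    have hconj : h * t * h⁻¹ = z * t := by rw [hzdef]; group
    suffices hz1 : z = 1 by rw [hconj, hz1, one_mul]
    by_cases hr : Nat.card Z = p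
    · have hcomm : h * z * h⁻¹ = z := pow_centralizes Z hr k z hz
      have hpow : ∀ j : ℕ, h ^ j * t * (h ^ j)⁻¹ = z ^ j * t := by
        intro j
        induction j with
        | zero => simp
        | succ j ihj =>
          have hzj : h * z ^ j * h⁻¹ = z ^ j := by rw [← conj_pow, hcomm]
          calc h ^ (j + 1) * t * (h ^ (j + 1))⁻¹ = h * (h ^ j * t * (h ^ j)⁻¹) * h⁻¹ := by
                rw [pow_succ']; group
            _ = (h * z ^ j * h⁻¹) * (h * t * h⁻¹) := by rw [ihj]; group
            _ = z ^ j * (z * t) := by rw [hzj, hconj]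
            _ = z ^ (j + 1) * t := by rw [pow_succ]; exact (mul_assoc _ _ _).symm
      have h1 := hpow (orderOf h)
      rw [pow_orderOf_eq_one] at h1
      have h2 : z ^ orderOf h = 1 := by
        have : z ^ orderOf h * t = 1 * t := by rw [← h1]; simp
        exact mul_right_cancel this
      have h3 : z ^ p = 1 := by
        have := pow_card_eq_one' (G := Z) (x := ⟨z, hz⟩)
        rw [hr] at this
        exact congrArg Subtype.val this
      have h4 : orderOf z ∣ 1 := by
        rw [← Nat.Coprime.gcd_eq_one hk]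
        exact Nat.dvd_gcd (orderOf_dvd_of_pow_eq_one h2) (orderOf_dvd_of_pow_eq_one h3)
      exact orderOf_eq_one_iff.mp (Nat.dvd_one.mp h4)
    · have : Fact (Nat.card Z).Prime := ⟨hZp⟩
      have hZr : IsPGroup (Nat.card Z) Z := IsPGroup.of_card (n := 1) (by simp)
      have hd := IsPGroup.disjoint_of_ne _ _ hr Z T hZr hT
      exact Subgroup.disjoint_def.mp hd hz hzT

theorem lemS {H : Type*} [Group H] [Finite H] (hH : IsSupersolvable H) (p : ℕ) [Fact p.Prime]
    (NP : ∀ r : ℕ, r.Prime → r ≠ p → ∀ K : Subgroup H, K.Normal → IsPGroup r K → K = ⊥) :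
    IsPGroup p (commutator H) ∧ ∀ g : H, ∃ a : ℕ, (g ^ (p - 1)) ^ (p ^ a) = 1 := by
  have hpp : p.Prime := Fact.out
  have hnil := isNilpotent_commutator hH
  have hcard : ∀ {r : ℕ}, r.Prime → r ∣ Nat.card (commutator H) → r = p := by
    intro r hr hd
    by_contra hne
    have : Fact r.Prime := ⟨hr⟩
    obtain ⟨R⟩ : Nonempty (Sylow r (commutator H)) := inferInstance
    have hRn : (R : Subgroup (commutator H)).Normal := by
      have h03 := (Group.isNilpotent_of_finite_tfae (G := commutator H)).out 0 3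
      exact h03.mp hnil r inferInstance R
    have hRc : (R : Subgroup (commutator H)).Characteristic := R.characteristic_of_normal hRn
    have hmap : ((R : Subgroup (commutator H)).map (commutator H).subtype).Normal :=
      ConjAct.normal_of_characteristic_of_normal
    have h1 := NP r hr hne _ hmap (R.2.map _)
    have hRb : (R : Subgroup (commutator H)) = ⊥ :=
      (Subgroup.map_eq_bot_iff_of_injective _ (Subgroup.subtype_injective _)).mp h1
    exact R.ne_bot_of_dvd_card hd hRb
  have hP : IsPGroup p (commutator H) :=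
    IsPGroup.of_card (Nat.eq_prime_pow_of_unique_prime_dvd Nat.card_pos.ne' hcard)
  refine ⟨hP, ?_⟩
  intro g
  obtain ⟨a, m, hm, hum⟩ := Nat.exists_eq_pow_mul_and_not_dvd (orderOf_pos (g ^ (p - 1))).ne' p
    hpp.ne_one
  refine ⟨a, ?_⟩
  have hk : (g ^ (p - 1)) ^ (p ^ a) = (g ^ (p ^ a)) ^ (p - 1) := by
    rw [← pow_mul, ← pow_mul, mul_comm]
  obtain ⟨h, hh⟩ : ∃ h, h = (g ^ (p - 1)) ^ (p ^ a) := ⟨_, rfl⟩
  rw [← hh]
  have hhm : h ^ m = 1 := by
    rw [hh, ← pow_mul, ← hum, pow_orderOf_eq_one]
  have hcop : (orderOf h).Coprime p :=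
    Nat.Coprime.coprime_dvd_left (orderOf_dvd_of_pow_eq_one hhm)
      ((Nat.Prime.coprime_iff_not_dvd hpp).mpr hm).symm
  have hcent : ∀ t ∈ commutator H, h * t * h⁻¹ = t := by
    have := star _ H rfl hH p (commutator H) hP (g ^ (p ^ a)) (by rw [← hk, ← hh]; exact hcop)
    rw [← hk, ← hh] at this
    exact this
  have hcentral : ∀ x : H, x * h * x⁻¹ = h := by
    intro x
    obtain ⟨t, ht⟩ : ∃ t, t = x * h * x⁻¹ * h⁻¹ := ⟨_, rfl⟩
    have htm : t ∈ commutator H := by
      rw [ht, ← commutatorElement_def]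
      exact Subgroup.commutator_mem_commutator (Subgroup.mem_top x) (Subgroup.mem_top h)
    have hth : x * h * x⁻¹ = t * h := by rw [ht]; group
    have hcm : Commute t h := by
      have := hcent t htm
      show t * h = h * t
      calc t * h = (h * t * h⁻¹) * h := by rw [this]
        _ = h * t := by group
    have h1 : t ^ orderOf h = 1 := by
      have h2 : (t * h) ^ orderOf h = 1 := by
        rw [← hth, conj_pow, pow_orderOf_eq_one]; group
      rwa [hcm.mul_pow, pow_orderOf_eq_one, mul_one] at h2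
    obtain ⟨k, hk'⟩ := hP ⟨t, htm⟩
    have h3 : t ^ (p ^ k) = 1 := congrArg Subtype.val hk'
    have h4 : orderOf t ∣ 1 := by
      rw [← Nat.Coprime.gcd_eq_one (Nat.Coprime.pow_right k hcop)]
      exact Nat.dvd_gcd (orderOf_dvd_of_pow_eq_one h1) (orderOf_dvd_of_pow_eq_one h3)
    have h5 : t = 1 := orderOf_eq_one_iff.mp (Nat.dvd_one.mp h4)
    rw [hth, h5, one_mul]
  by_contra hne
  have ho : orderOf h ≠ 1 := fun h1 => hne (orderOf_eq_one_iff.mp h1)
  obtain ⟨r, hr, hrd⟩ := Nat.exists_prime_and_dvd ho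
  have hrp : r ≠ p := by
    rintro rfl
    have := Nat.Coprime.eq_one_of_dvd hcop.symm hrd
    exact hr.ne_one this
  have ho' : orderOf (h ^ (orderOf h / r)) = r :=
    orderOf_pow_orderOf_div (orderOf_pos h).ne' hrd
  have hn : (Subgroup.zpowers (h ^ (orderOf h / r))).Normal := by
    apply zpowers_normal_of_conj_mem
    intro x
    rw [← conj_pow, hcentral x]
    exact Subgroup.mem_zpowers _
  have hpg : IsPGroup r (Subgroup.zpowers (h ^ (orderOf h / r))) :=
    IsPGroup.of_card (n := 1) (by rw [Nat.card_zpowers, ho', pow_one])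
  have hb := NP r hr hrp _ hn hpg
  rw [Subgroup.zpowers_eq_bot] at hb
  rw [hb, orderOf_one] at ho'
  exact hr.ne_one ho'.symm

theorem aux (n : ℕ) : ∀ (G : Type*) [Group G] [Finite G], Nat.card G = n →
    (∀ M : Subgroup G, IsCoatom M → M.index.Prime) → IsSupersolvable G := by
  induction n using Nat.strong_induction_on with
  | _ n ih =>
    intro G _ _ hn h
    rcases subsingleton_or_nontrivial G with hs | hnt
    · exact isSupersolvable_of_subsingleton
    have hsol : Group.IsSolvable G := S0580.result h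
    have hquot : ∀ (K : Subgroup G) [K.Normal], K ≠ ⊥ → IsSupersolvable (G ⧸ K) := by
      intro K _ hK
      apply ih _ (hn ▸ card_quotient_lt K hK) _ rfl
      intro M hM
      have := h (M.comap (QuotientGroup.mk' _))
        (Subgroup.isCoatom_comap_of_surjective (QuotientGroup.mk'_surjective _) hM)
      rwa [Subgroup.index_comap_of_surjective _ (QuotientGroup.mk'_surjective _)] at this
    obtain ⟨N, hN⟩ := exists_minNormal (G := G)
    have hNn := hN.1
    obtain ⟨p, hp, hEA⟩ := hN.exists_isEA_of_solvable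
    have : Fact p.Prime := ⟨hp⟩
    obtain ⟨hNc, hNp⟩ := isEA_iff.mp hEA
    have hNpg : IsPGroup p N := IsEA.isPGroup hEA
    have hGN := hquot N hN.2.1
    by_cases huniq : ∀ K : Subgroup G, K.Normal → K ≠ ⊥ → N ≤ K
    swap
    · push Not at huniq
      obtain ⟨K, hKn, hKne, hNK⟩ := huniq
      have hGK := hquot K hKne
      have hinf : N ⊓ K = ⊥ := by
        rcases hN.2.2 (N ⊓ K) inferInstance inf_le_left with hb | he
        · exact hb
        · exact absurd (he ▸ inf_le_right) hNK
      apply isSupersolvable_of_injective ((QuotientGroup.mk' N).prod (QuotientGroup.mk' K)) _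
        (isSupersolvable_prod hGN hGK)
      rw [injective_iff_map_eq_one]
      intro x hx
      rw [MonoidHom.prod_apply, Prod.mk_eq_one] at hx
      have h1 : x ∈ N := (QuotientGroup.eq_one_iff x).mp hx.1
      have h2 : x ∈ K := (QuotientGroup.eq_one_iff x).mp hx.2
      have h3 : x ∈ N ⊓ K := ⟨h1, h2⟩
      rw [hinf] at h3
      exact h3
    suffices hcyc : IsCyclic N from isSupersolvable_of_cyclic_normal N hGN
    by_cases hNF : N ≤ frattini G
    swap
    · rw [Cfsg.Agent.Lib.Helper91.le_frattini_iff] at hNF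
      push Not at hNF
      obtain ⟨M, hM, hNM⟩ := hNF
      have hsup : N ⊔ M = ⊤ := by
        apply hM.2
        apply lt_of_le_of_ne le_sup_right
        intro he
        exact hNM (he ▸ le_sup_left)
      have hnorm : (N ⊓ M).Normal := by
        constructor
        intro x hx g
        have hg : g ∈ N ⊔ M := hsup ▸ Subgroup.mem_top g
        rw [Subgroup.mem_sup_of_normal_left] at hg
        obtain ⟨a, ha, m, hm, rfl⟩ := hg
        have h1 : m * x * m⁻¹ ∈ N := hNn.conj_mem x hx.1 m
        have h2 : m * x * m⁻¹ ∈ M := mul_mem (mul_mem hm hx.2) (inv_mem hm)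
        have h3 : a * m * x * (a * m)⁻¹ = m * x * m⁻¹ := by
          calc a * m * x * (a * m)⁻¹ = (a * (m * x * m⁻¹)) * a⁻¹ := by group
            _ = ((m * x * m⁻¹) * a) * a⁻¹ := by rw [hNc a ha _ h1]
            _ = m * x * m⁻¹ := by group
        rw [h3]
        exact ⟨h1, h2⟩
      have hinf : N ⊓ M = ⊥ := by
        rcases hN.2.2 (N ⊓ M) hnorm inf_le_left with hb | he
        · exact hb
        · exact absurd (he ▸ inf_le_right) hNM
      have hcompl := isComplement'_of_normal hNn hinf hsup
      have hidx := hcompl.index_eq_card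
      have hpr := h M hM
      rw [hidx] at hpr
      have : Fact (Nat.card N).Prime := ⟨hpr⟩
      exact isCyclic_of_prime_card rfl
    have NP : ∀ r : ℕ, r.Prime → r ≠ p → ∀ K : Subgroup (G ⧸ N), K.Normal → IsPGroup r K →
        K = ⊥ := by
      intro r hr hrp Kb hKn hKr
      have : Fact r.Prime := ⟨hr⟩
      obtain ⟨K, hK⟩ : ∃ K, K = Kb.comap (QuotientGroup.mk' N) := ⟨_, rfl⟩
      have hKnorm : K.Normal := hK ▸ hKn.comap _
      obtain ⟨R⟩ : Nonempty (Sylow r K) := inferInstance
      have hfr := Sylow.normalizer_sup_eq_top R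
      obtain ⟨R', hR'⟩ : ∃ R', R' = (R : Subgroup K).map K.subtype := ⟨_, rfl⟩
      rw [← hR'] at hfr
      have hKle : K ≤ N ⊔ R' := by
        rw [← Subgroup.relIndex_eq_one]
        have d1 : (N ⊔ R').relIndex K ∣ N.relIndex K :=
          Subgroup.relIndex_dvd_of_le_left K le_sup_left
        have d2 : (N ⊔ R').relIndex K ∣ R'.relIndex K :=
          Subgroup.relIndex_dvd_of_le_left K le_sup_right
        have e1 : N.relIndex K = Nat.card Kb := by
          have hNb : N = (⊥ : Subgroup (G ⧸ N)).comap (QuotientGroup.mk' N) := by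
            rw [MonoidHom.comap_bot, QuotientGroup.ker_mk']
          conv_lhs => rw [hNb]
          rw [Subgroup.relIndex_comap, hK,
            Subgroup.map_comap_eq_self_of_surjective (QuotientGroup.mk'_surjective N),
            Subgroup.relIndex_bot_left]
        have e2 : R'.relIndex K = (R : Subgroup K).index := by
          rw [hR', Subgroup.relIndex, Subgroup.subgroupOf,
            Subgroup.comap_map_eq_self_of_injective (Subgroup.subtype_injective K)]
        obtain ⟨b, hb⟩ := IsPGroup.iff_card.mp hKr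
        have hnd : ¬ r ∣ (R : Subgroup K).index := R.not_dvd_index
        have hcop : (r ^ b).Coprime (R : Subgroup K).index :=
          Nat.Coprime.pow_left b ((Nat.Prime.coprime_iff_not_dvd hr).mpr hnd)
        rw [e1, hb] at d1
        rw [e2] at d2
        exact Nat.dvd_one.mp (hcop.gcd_eq_one ▸ Nat.dvd_gcd d1 d2)
      have htop : Subgroup.normalizer (R' : Set G) ⊔ frattini G = ⊤ := by
        rw [eq_top_iff, ← hfr]
        apply sup_le le_sup_left
        apply hKle.trans
        exact sup_le (hNF.trans le_sup_right) (Subgroup.le_normalizer.trans le_sup_left)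
      have hRn : Subgroup.normalizer (R' : Set G) = ⊤ := frattini_nongenerating htop
      have hR'n : R'.Normal := Subgroup.normalizer_eq_top_iff.mp hRn
      have hR'r : IsPGroup r R' := hR' ▸ R.2.map _
      have hR'b : R' = ⊥ := by
        by_contra hne
        have hle := huniq R' hR'n hne
        have hd := IsPGroup.disjoint_of_ne p r hrp.symm N R' hNpg hR'r
        exact hN.2.1 (disjoint_self.mp (hd.mono_right hle))
      have hKN : K ≤ N := by
        rw [hR'b, sup_bot_eq] at hKle; exact hKle
      rw [eq_bot_iff]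
      intro x hx
      obtain ⟨g, rfl⟩ := QuotientGroup.mk'_surjective N x
      have hg : g ∈ K := by rw [hK]; exact hx
      exact (QuotientGroup.eq_one_iff g).mpr (hKN hg)
    obtain ⟨hcomm, hpow⟩ := lemS hGN p NP
    have hcentr : ∀ P : Subgroup G, P.Normal → IsPGroup p P →
        P ≤ Subgroup.centralizer (N : Set G) := by
      intro P hPn hPp
      have hmod := card_modEq_card_centralizer P N hPp (by
        rw [Subgroup.normalizer_eq_top_iff.mpr hNn]; exact le_top)
      have hnorm : (N ⊓ Subgroup.centralizer (P : Set G)).Normal := inferInstance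
      rcases hN.2.2 _ hnorm inf_le_left with hb | he
      · exfalso
        rw [hb, Subgroup.card_bot] at hmod
        have hd : p ∣ Nat.card N := dvd_card_of_isPGroup_ne_bot hNpg hN.2.1
        have h0 : Nat.card N ≡ 0 [MOD p] := (Nat.modEq_zero_iff_dvd).mpr hd
        have h1 : 1 ≡ 0 [MOD p] := hmod.symm.trans h0
        have h2 : p ∣ 1 := (Nat.modEq_zero_iff_dvd).mp h1
        exact hp.one_lt.ne' (Nat.dvd_one.mp h2)
      · have hle : N ≤ Subgroup.centralizer (P : Set G) := he ▸ inf_le_right
        exact Subgroup.le_centralizer_iff.mp hle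
    have hkey : ∀ g : G, g ^ (p - 1) ∈ Subgroup.centralizer (N : Set G) ∧
        ∀ x y : G, ⁅x, y⁆ ∈ Subgroup.centralizer (N : Set G) := by
      intro g
      obtain ⟨a, ha⟩ := hpow (QuotientGroup.mk' N g)
      obtain ⟨u, hu⟩ : ∃ u, u = (QuotientGroup.mk' N g) ^ (p - 1) := ⟨_, rfl⟩
      rw [← hu] at ha
      have hzp : IsPGroup p (Subgroup.zpowers u) := by
        obtain ⟨k, _, hk⟩ := (Nat.dvd_prime_pow hp).mp (orderOf_dvd_of_pow_eq_one ha)
        exact IsPGroup.of_card (n := k) (by rw [Nat.card_zpowers, hk])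
      have hTp : IsPGroup p (commutator (G ⧸ N) ⊔ Subgroup.zpowers u : Subgroup (G ⧸ N)) :=
        hcomm.to_sup_of_normal_left hzp
      have hTn : (commutator (G ⧸ N) ⊔ Subgroup.zpowers u : Subgroup (G ⧸ N)).Normal := by
        constructor
        intro y hy x
        have e : x * y * x⁻¹ = ⁅x, y⁆ * y := by rw [commutatorElement_def]; group
        rw [e]
        exact mul_mem (le_sup_left (a := commutator (G ⧸ N))
          (Subgroup.commutator_mem_commutator (Subgroup.mem_top x) (Subgroup.mem_top y))) hy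
      have hPle := hcentr _ (hTn.comap (QuotientGroup.mk' N))
        (hTp.comap_of_ker_isPGroup (QuotientGroup.mk' N) (by rw [QuotientGroup.ker_mk']; exact hNpg))
      refine ⟨hPle ?_, fun x y => hPle ?_⟩
      · rw [Subgroup.mem_comap, map_pow, ← hu]
        exact le_sup_right (a := commutator (G ⧸ N)) (Subgroup.mem_zpowers u)
      · rw [Subgroup.mem_comap, map_commutatorElement]
        exact le_sup_left (a := commutator (G ⧸ N))
          (Subgroup.commutator_mem_commutator (Subgroup.mem_top _) (Subgroup.mem_top _))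
    have hscalar : ∀ g : G, ∃ m : ℕ, ∀ a ∈ N, g * a * g⁻¹ = a ^ m := by
      intro g
      obtain ⟨m, a, haN, ha1, ham⟩ := exists_eigen_conj (p := p) N hNc hNp hN.2.1 g
        (fun a ha => hNn.conj_mem a ha g) (fun a ha => by
          have := Subgroup.mem_centralizer_iff.mp (hkey g).1 a ha
          rw [← this]; group)
      refine ⟨m, ?_⟩
      let E : Subgroup G :=
        { carrier := {a | a ∈ N ∧ g * a * g⁻¹ = a ^ m}
          one_mem' := ⟨one_mem _, by simp⟩
          mul_mem' := by
            rintro a b ⟨ha, ha'⟩ ⟨hb, hb'⟩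
            refine ⟨mul_mem ha hb, ?_⟩
            rw [(show Commute a b from hNc a ha b hb).mul_pow, ← ha', ← hb']; group
          inv_mem' := by
            rintro a ⟨ha, ha'⟩
            refine ⟨inv_mem ha, ?_⟩
            rw [inv_pow, ← ha']; group }
      have hEn : E.Normal := by
        constructor
        rintro b ⟨hb, hb'⟩ x
        refine ⟨hNn.conj_mem b hb x, ?_⟩
        have hc := Subgroup.mem_centralizer_iff.mp ((hkey g).2 x⁻¹ g) (b ^ m) (pow_mem hb m)
        rw [commutatorElement_def] at hc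
        calc g * (x * b * x⁻¹) * g⁻¹
            = x * ((x⁻¹ * g * x⁻¹⁻¹ * g⁻¹) * (g * b * g⁻¹)) * (x⁻¹ * g * x⁻¹⁻¹ * g⁻¹)⁻¹ * x⁻¹ := by
              group
          _ = x * ((x⁻¹ * g * x⁻¹⁻¹ * g⁻¹) * b ^ m) * (x⁻¹ * g * x⁻¹⁻¹ * g⁻¹)⁻¹ * x⁻¹ := by rw [hb']
          _ = x * (b ^ m * (x⁻¹ * g * x⁻¹⁻¹ * g⁻¹)) * (x⁻¹ * g * x⁻¹⁻¹ * g⁻¹)⁻¹ * x⁻¹ := by rw [hc]
          _ = x * b ^ m * x⁻¹ := by group
          _ = (x * b * x⁻¹) ^ m := by rw [conj_pow]
      have hEle : E ≤ N := fun b hb => hb.1
      rcases hN.2.2 E hEn hEle with hb | he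
      · exfalso
        have : a ∈ E := ⟨haN, ham⟩
        rw [hb] at this
        exact ha1 this
      · intro b hb
        have : b ∈ E := he ▸ hb
        exact this.2
    obtain ⟨⟨a, haN⟩, ha1⟩ := (Subgroup.ne_bot_iff_exists_ne_one).mp hN.2.1
    have ha1' : a ≠ 1 := fun h1 => ha1 (Subtype.ext h1)
    have hzn : (Subgroup.zpowers a).Normal := by
      apply zpowers_normal_of_conj_mem
      intro g
      obtain ⟨m, hm⟩ := hscalar g
      rw [hm a haN]
      exact pow_mem (Subgroup.mem_zpowers a) m
    rcases hN.2.2 _ hzn (Subgroup.zpowers_le.mpr haN) with hb | he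
    · exact absurd (Subgroup.zpowers_eq_bot.mp hb) ha1'
    · rw [← he]
      infer_instance

/-- Huppert's supersolvability criterion: if every maximal subgroup of a finite group has prime index, then the group is supersolvable. -/
theorem result {G : Type*} [Group G] [Finite G] (h : ∀ M : Subgroup G, IsCoatom M → M.index.Prime) : Cfsg.IsSupersolvable G := by
  exact aux _ G rfl h

end Cfsg.Agent.S0579
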