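import Cfsg.Statements.S0582
import Cfsg.Agent.Lib.Helper9.Supersolvable5
import Cfsg.Agent.Lib.Helper72.SylowCount

set_option autoImplicit false
open Cfsg
open scoped Pointwise

namespace Cfsg.Agent.S0582

open Cfsg.Agent.Lib.Helper72

universe u

theorem index_conj_smul {G : Type*} [Group G] (g : G) (B : Subgroup G) :
    (MulAut.conj g • B).index = B.index :=
  Subgroup.index_map_equiv (H := B) (MulAut.conj g)

theorem map_conj {A B : Type*} [Group A] [Group B] (f : A →* B) (x : A) (H : Subgroup A) :
    (MulAut.conj x • H).map f = MulAut.conj (f x) • (H.map f) := by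
  change (H.map (MulAut.conj x).toMonoidHom).map f = (H.map f).map (MulAut.conj (f x)).toMonoidHom
  rw [Subgroup.map_map, Subgroup.map_map]
  congr 1
  ext z
  simp

theorem aux (n : ℕ) : ∀ {G : Type u} [Group G] [Finite G] (H K : Subgroup G), Nat.card H = n →
    IsSupersolvable H → IsSupersolvable K → Nat.card H = Nat.card K →
    (Nat.card H).Coprime H.index → ∃ x : G, MulAut.conj x • H = K := by
  induction n using Nat.strong_induction_on with
  | _ n ih =>
  intro G _ _ H K hn hH hK hcard hHall
  have hnK : Nat.card K = n := hcard.symm.trans hn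
  by_cases h1 : n = 1
  · have hHb : H = ⊥ := Subgroup.card_eq_one.1 (hn.trans h1)
    have hKb : K = ⊥ := Subgroup.card_eq_one.1 (hnK.trans h1)
    exact ⟨1, by rw [hHb, hKb]; simp⟩
  · obtain ⟨p, hp, hpn, hmax⟩ := Cfsg.Agent.Lib.Helper9.exists_largest_prime_dvd (n := n)
      (by rw [← hn]; exact Nat.card_pos.ne') h1
    have : Fact p.Prime := ⟨hp⟩
    obtain ⟨PH⟩ : Nonempty (Sylow p H) := inferInstance
    obtain ⟨PK⟩ : Nonempty (Sylow p K) := inferInstance
    have hPHn : (PH : Subgroup H).Normal :=
      (Cfsg.Agent.Lib.Helper9.zProp_of_isSupersolvable hH).sylow_normal p (hn ▸ hpn)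
        (by rw [hn]; exact hmax) PH
    have hPKn : (PK : Subgroup K).Normal :=
      (Cfsg.Agent.Lib.Helper9.zProp_of_isSupersolvable hK).sylow_normal p (hnK ▸ hpn)
        (by rw [hnK]; exact hmax) PK
    set P := (PH : Subgroup H).map H.subtype with hP
    set Q := (PK : Subgroup K).map K.subtype with hQ
    have hidxK : K.index = H.index := by
      have h1 := H.card_mul_index
      have h2 := K.card_mul_index
      rw [← hcard] at h2
      exact Nat.eq_of_mul_eq_mul_left Nat.card_pos (h2.trans h1.symm)
    have hpH : ¬ p ∣ H.index := by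
      intro hd
      have h2 : p ∣ Nat.gcd (Nat.card H) H.index := Nat.dvd_gcd (hn ▸ hpn) hd
      rw [hHall.gcd_eq_one] at h2
      exact hp.one_lt.ne' (Nat.dvd_one.1 h2)
    have hPs : IsSylowIn p P H := isSylowIn_of_sylow PH
    have hQs : IsSylowIn p Q K := isSylowIn_of_sylow PK
    have hPidx : ¬ p ∣ P.index := by
      rw [← Subgroup.relIndex_mul_index hPs.1]
      intro hd
      rcases (Nat.Prime.dvd_mul hp).1 hd with h | h
      · exact hPs.2.2 h
      · exact hpH h
    have hQidx : ¬ p ∣ Q.index := by
      rw [← Subgroup.relIndex_mul_index hQs.1]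
      intro hd
      rcases (Nat.Prime.dvd_mul hp).1 hd with h | h
      · exact hQs.2.2 h
      · exact hpH (hidxK ▸ h)
    obtain ⟨g, hg⟩ := MulAction.exists_smul_eq G (hPs.2.1.toSylow hPidx) (hQs.2.1.toSylow hQidx)
    have hgPQ : MulAut.conj g • P = Q := by
      have := congrArg (fun S : Sylow p G => (S : Subgroup G)) hg
      exact this
    set H' := MulAut.conj g • H with hH'
    have hH's : IsSupersolvable H' :=
      Cfsg.Agent.Lib.Helper9.isSupersolvable_of_mulEquiv (Subgroup.equivSMul (MulAut.conj g) H) hH
    have hH'card : Nat.card H' = n := (card_conj_smul g H).trans hn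
    set N := Subgroup.normalizer (Q : Set G) with hN
    have hKN : K ≤ N := (Subgroup.normal_subgroupOf_iff_le_normalizer hQs.1).1 (by
      have : Q.subgroupOf K = PK := Subgroup.comap_map_eq_self_of_injective K.subtype_injective _
      rw [this]; exact hPKn)
    have hHNP : H ≤ Subgroup.normalizer (P : Set G) :=
      (Subgroup.normal_subgroupOf_iff_le_normalizer hPs.1).1 (by
        have : P.subgroupOf H = PH := Subgroup.comap_map_eq_self_of_injective H.subtype_injective _
        rw [this]; exact hPHn)
    have hH'N : H' ≤ N := by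
      intro y hy
      rw [hH', mem_conj_smul_iff] at hy
      have h2 := hHNP hy
      rw [mem_normalizer_iff_conj_smul_eq] at h2
      rw [hN, mem_normalizer_iff_conj_smul_eq, ← hgPQ, smul_smul, ← map_mul]
      have : y * g = g * (g⁻¹ * y * g) := by group
      rw [this, map_mul, mul_smul, h2]
    have hQn : (Q.subgroupOf N).Normal := Subgroup.normal_in_normalizer
    set f := QuotientGroup.mk' (Q.subgroupOf N) with hf
    have hfs : Function.Surjective f := QuotientGroup.mk'_surjective _
    have hker : f.ker = Q.subgroupOf N := QuotientGroup.ker_mk' _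
    set H1 := H'.subgroupOf N with hH1
    set K1 := K.subgroupOf N with hK1
    have hQH' : Q ≤ H' := by
      rw [← hgPQ]; exact Subgroup.pointwise_smul_le_pointwise_smul_iff.2 hPs.1
    have hkH : f.ker ≤ H1 := by rw [hker]; exact Subgroup.comap_mono hQH'
    have hkK : f.ker ≤ K1 := by rw [hker]; exact Subgroup.comap_mono hQs.1
    have cH1 : Nat.card H1 = n :=
      (Nat.card_congr (Subgroup.subgroupOfEquivOfLe hH'N).toEquiv).trans hH'card
    have cK1 : Nat.card K1 = n :=
      (Nat.card_congr (Subgroup.subgroupOfEquivOfLe hKN).toEquiv).trans hnK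
    have e1 : Nat.card H1 = Nat.card (Q.subgroupOf N) * Nat.card (H1.map f) := by
      have := Cfsg.Agent.Lib.Helper9.card_comap_mk' (Q.subgroupOf N) (H1.map f)
      rwa [Subgroup.comap_map_eq_self hkH] at this
    have e2 : Nat.card K1 = Nat.card (Q.subgroupOf N) * Nat.card (K1.map f) := by
      have := Cfsg.Agent.Lib.Helper9.card_comap_mk' (Q.subgroupOf N) (K1.map f)
      rwa [Subgroup.comap_map_eq_self hkK] at this
    have hQ1 : 1 < Nat.card (Q.subgroupOf N) := by
      have h2 : Nat.card (Q.subgroupOf N) = Nat.card Q :=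
        Nat.card_congr (Subgroup.subgroupOfEquivOfLe Subgroup.le_normalizer).toEquiv
      have h3 : Nat.card Q = Nat.card PK := Subgroup.card_subtype _ _
      have h4 : p ∣ Nat.card PK := PK.dvd_card_of_dvd_card (hnK ▸ hpn)
      rw [h2, h3]
      exact lt_of_lt_of_le hp.one_lt (Nat.le_of_dvd Nat.card_pos h4)
    have hlt : Nat.card (H1.map f) < n := by
      rw [← cH1, e1]
      exact lt_mul_of_one_lt_left Nat.card_pos hQ1
    have heq : Nat.card (H1.map f) = Nat.card (K1.map f) :=
      Nat.eq_of_mul_eq_mul_left (Nat.card_pos (α := Q.subgroupOf N))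
        (e1.symm.trans (cH1.trans (cK1.symm.trans e2)))
    have hcop : (Nat.card (H1.map f)).Coprime (H1.map f).index := by
      rw [Subgroup.index_map_eq H1 hfs hkH]
      have d1 : Nat.card (H1.map f) ∣ Nat.card H := by
        rw [hn, ← cH1]; exact Subgroup.card_map_dvd _ _
      have d2 : H1.index ∣ H.index := by
        have : H1.index = H'.relIndex N := rfl
        rw [this, ← index_conj_smul g H]; exact Subgroup.relIndex_dvd_index_of_le hH'N
      exact Nat.Coprime.coprime_dvd_left d1 (Nat.Coprime.coprime_dvd_right d2 hHall)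
    obtain ⟨xb, hxb⟩ := ih _ hlt (H1.map f) (K1.map f) rfl
      (Cfsg.Agent.Lib.Helper9.isSupersolvable_of_surjective (f.subgroupMap H1)
        (f.subgroupMap_surjective H1)
        (Cfsg.Agent.Lib.Helper9.isSupersolvable_of_mulEquiv
          (Subgroup.subgroupOfEquivOfLe hH'N).symm hH's))
      (Cfsg.Agent.Lib.Helper9.isSupersolvable_of_surjective (f.subgroupMap K1)
        (f.subgroupMap_surjective K1)
        (Cfsg.Agent.Lib.Helper9.isSupersolvable_of_mulEquiv
          (Subgroup.subgroupOfEquivOfLe hKN).symm hK)) heq hcop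
    obtain ⟨x, rfl⟩ := hfs xb
    have h3 : MulAut.conj x • H1 = K1 := by
      have h4 : (MulAut.conj x • H1).map f = K1.map f := by rw [map_conj, hxb]
      rw [Subgroup.map_eq_map_iff] at h4
      have h5 : f.ker ≤ MulAut.conj x • H1 := by
        intro y hy
        rw [mem_conj_smul_iff]
        apply hkH
        have := (inferInstance : f.ker.Normal).conj_mem y hy x⁻¹
        simpa using this
      rwa [sup_eq_left.2 h5, sup_eq_left.2 hkK] at h4
    refine ⟨(x : G) * g, ?_⟩
    rw [map_mul, mul_smul]
    have h6 := congrArg (Subgroup.map N.subtype) h3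
    rw [map_conj, Subgroup.map_subgroupOf_eq_of_le hH'N, Subgroup.map_subgroupOf_eq_of_le hKN] at h6
    exact h6

/-- Let H and K be supersolvable subgroups of a finite group G of the same order, that order being coprime to their index. Then H and K are conjugate in G. -/
theorem result {G : Type*} [Group G] [Finite G] (H K : Subgroup G) (hH : Cfsg.IsSupersolvable H) (hK : Cfsg.IsSupersolvable K) (hcard : Nat.card H = Nat.card K) (hHall : (Nat.card H).Coprime H.index) : ∃ x : G, MulAut.conj x • H = K := by
  exact aux _ H K rfl hH hK hcard hHall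

end Cfsg.Agent.S0582
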