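import Mathlib
import Cfsg.Statements.S0586
import Cfsg.Agent.Lib.Helper91.FrattiniMore
-- import your own Cfsg.Agent.* helpers here

set_option autoImplicit false
open Cfsg
open Cfsg.Agent.Lib.Helper91
open scoped commutatorElement

namespace Cfsg.Agent.S0586

/-- If the Frattini subgroup of a finite group G is trivial, then the Fitting subgroup of G equals the join of all abelian minimal normal subgroups of G. -/
theorem result {G : Type*} [Group G] [Finite G] (hΦ : frattini G = ⊥) : Cfsg.fittingSubgroup G = sSup {N : Subgroup G | N.Normal ∧ N ≠ ⊥ ∧ IsMulCommutative N ∧ ∀ K : Subgroup G, K.Normal → K ≤ N → K = ⊥ ∨ K = N} := by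
  classical
  set 𝒮 : Set (Subgroup G) := {N : Subgroup G | N.Normal ∧ N ≠ ⊥ ∧ IsMulCommutative N ∧
    ∀ K : Subgroup G, K.Normal → K ≤ N → K = ⊥ ∨ K = N} with h𝒮
  set F := Cfsg.fittingSubgroup G with hF
  have hFn : F.Normal := fittingSubgroup_normal
  have hFnil : Group.IsNilpotent F := fittingSubgroup_isNilpotent
  have hFab : ⁅F, F⁆ = ⊥ := le_bot_iff.1 (hΦ ▸ commutator_le_frattini F hFnil)
  have hFc : ∀ x ∈ F, ∀ y ∈ F, x * y = y * x := by
    intro x hx y hy
    have h1 : ⁅x, y⁆ ∈ ⁅F, F⁆ := Subgroup.commutator_mem_commutator hx hy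
    rw [hFab, Subgroup.mem_bot, commutatorElement_eq_one_iff_mul_comm] at h1
    exact h1
  set S := sSup 𝒮 with hS
  have hSF : S ≤ F := by
    apply sSup_le
    rintro N ⟨hN, -, hNc, -⟩
    have : Group.IsNilpotent N := by
      let _ : CommGroup N := { (inferInstance : Group N) with mul_comm := hNc.is_comm.comm }
      exact CommGroup.isNilpotent
    exact le_fittingSubgroup N this
  have hSn : S.Normal := Subgroup.sSup_normal 𝒮 (fun N hN => hN.1)
  have hSc : IsMulCommutative S :=
    ⟨⟨fun a b => Subtype.ext (hFc a (hSF a.2) b (hSF b.2))⟩⟩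
  obtain ⟨H, hH⟩ := exists_isComplement'_of_disjoint_frattini S (by rw [hΦ, inf_bot_eq])
  have hSH : S ⊔ H = ⊤ := hH.sup_eq_top
  have hdisj : S ⊓ H = ⊥ := hH.disjoint.eq_bot
  have h1 : F ≤ S ⊔ (F ⊓ H) := le_sup_inf_of_normal hSF (by rw [hSH]; exact le_top)
  set D := F ⊓ H with hD
  have hDn : D.Normal := by
    rw [← Subgroup.normalizer_eq_top_iff, eq_top_iff, ← hSH]
    apply sup_le
    · rw [Subgroup.le_normalizer_iff]
      intro a ha d hd
      have : a * d * a⁻¹ = d := by
        rw [hFc a (hSF ha) d hd.1]; group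
      rw [this]; exact hd
    · rw [Subgroup.le_normalizer_iff]
      intro h hh d hd
      exact ⟨hFn.conj_mem d hd.1 h, H.mul_mem (H.mul_mem hh hd.2) (H.inv_mem hh)⟩
  have hDbot : D = ⊥ := by
    by_contra hne
    obtain ⟨N, hN1, hN2, hN3, hN4⟩ := exists_minimal_normal_le D hne
    have hNc : IsMulCommutative N :=
      ⟨⟨fun a b => Subtype.ext (hFc a (hN3 a.2).1 b (hN3 b.2).1)⟩⟩
    have hNS : N ≤ S := le_sSup ⟨hN1, hN2, hNc, hN4⟩
    apply hN2
    exact le_bot_iff.1 (hdisj ▸ le_inf hNS (hN3.trans inf_le_right))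
  rw [hDbot, sup_bot_eq] at h1
  exact le_antisymm h1 hSF

end Cfsg.Agent.S0586
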