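import Cfsg.Statements.S0587
import Cfsg.Agent.Lib.Helper10.PCore
import Cfsg.Agent.S0549
import Cfsg.Agent.S0583

set_option autoImplicit false
open Cfsg

namespace Cfsg.Agent.S0587

open Cfsg.Agent.Lib.Helper10 Cfsg.Agent.S0549

/-- Let G be a finite group whose largest normal p-subgroup L is nontrivial, and M a maximal subgroup of G with trivial normal core. Then L is elementary abelian, M is a complement to L, L is a minimal normal subgroup of G, the centralizer of L is L, and for every prime q such that the largest normal q-subgroup of M is nontrivial, the order of L is congruent to 1 modulo q and q ≠ p. -/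
theorem result {G : Type*} [Group G] [Finite G] (p : ℕ) [Fact p.Prime] (hL : Cfsg.pCore p G ≠ ⊥) (M : Subgroup G) (hM : IsCoatom M) (hcore : M.normalCore = ⊥) : Cfsg.IsElementaryAbelian p (Cfsg.pCore p G) ∧ Subgroup.IsComplement' (Cfsg.pCore p G) M ∧ (∀ K : Subgroup G, K.Normal → K ≤ Cfsg.pCore p G → K = ⊥ ∨ K = Cfsg.pCore p G) ∧ Subgroup.centralizer ((Cfsg.pCore p G : Subgroup G) : Set G) = Cfsg.pCore p G ∧ ∀ (q : ℕ) [Fact q.Prime], Cfsg.pCore q ↥M ≠ ⊥ → Nat.card (Cfsg.pCore p G) % q = 1 % q ∧ q ≠ p := by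
  have hLn : (Cfsg.pCore p G).Normal := Cfsg.Agent.Lib.Helper10.pCore_normal p
  have hLp : IsPGroup p (Cfsg.pCore p G) := pCore_isPGroup p
  have hLmax : ∀ N : Subgroup G, N.Normal → IsPGroup p N → N ≤ Cfsg.pCore p G := fun N h1 h2 => le_pCore h1 h2
  have hLF : Cfsg.pCore p G ≤ Cfsg.fittingSubgroup G := pCore_le_fitting p
  generalize Cfsg.pCore p G = L at *
  obtain ⟨N, hN, hNL⟩ := exists_minNormal_le L hLn hL
  have hNn := hN.1
  have hLC : L ≤ Subgroup.centralizer (N : Set G) := hLF.trans (Cfsg.Agent.S0583.result N hN.2.1 hN.2.2)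
  obtain ⟨h1, h2⟩ := Cfsg.Agent.S0549.result M hM hcore N hN.2.1
  have hCmin : ∀ K : Subgroup G, K.Normal → K ≤ Subgroup.centralizer (N : Set G) → K = ⊥ ∨ K = Subgroup.centralizer (N : Set G) := by
    rcases h2 with h | ⟨_, h⟩
    · exfalso; apply hL; rw [eq_bot_iff, ← h]; exact hLC
    · exact h
  have hLeq : L = Subgroup.centralizer (N : Set G) := (hCmin L hLn hLC).resolve_left hL
  have hNeq : N = L := by
    rw [hLeq]; exact (hCmin N hNn (hNL.trans hLC)).resolve_left hN.2.1
  subst hNeq
  have hcomm : ∀ x ∈ N, ∀ y ∈ N, x * y = y * x := by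
    intro x hx y hy
    exact (Subgroup.mem_centralizer_iff.mp (hLC hy)) x hx
  have hinf : N ⊓ M = ⊥ := by
    rw [eq_bot_iff, ← h1]; exact inf_le_inf_right _ hLC
  have hsup : N ⊔ M = ⊤ := sup_eq_top_of_corefree hM hcore hNn hL
  refine ⟨hN.isEA_of_dvd hcomm Fact.out (dvd_card_of_isPGroup_ne_bot hLp hL),
    isComplement'_of_normal hNn hinf hsup, hN.2.2, hLeq.symm, ?_⟩
  intro q _ hQ
  set Q : Subgroup G := (Cfsg.pCore q ↥M).map M.subtype with hQdef
  have hQne : Q ≠ ⊥ := by
    intro h
    apply hQ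
    rw [hQdef] at h
    exact (Subgroup.map_eq_bot_iff_of_injective _ M.subtype_injective).mp h
  have hQq : IsPGroup q Q := (pCore_isPGroup q).map _
  have hQM : Q ≤ M := Subgroup.map_subtype_le _
  have hMQ : M ≤ Subgroup.normalizer (Q : Set G) := by
    have hn : (Cfsg.pCore q ↥M).Normal := Cfsg.Agent.Lib.Helper10.pCore_normal q
    rw [Subgroup.le_normalizer_iff]
    rintro m hm _ ⟨x, hx, rfl⟩
    exact ⟨⟨m, hm⟩ * x * ⟨m, hm⟩⁻¹, hn.conj_mem x hx ⟨m, hm⟩, by simp⟩
  have hQN : ¬ Q ≤ N := by
    intro h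
    apply hQne
    rw [eq_bot_iff, ← hinf]
    exact le_inf h hQM
  constructor
  · have hmod := card_modEq_card_centralizer Q N hQq (Subgroup.le_normalizer_of_normal)
    have hCn : (N ⊓ Subgroup.centralizer (Q : Set G)).Normal := by
      rw [← Subgroup.normalizer_eq_top_iff, eq_top_iff, ← hsup]
      apply sup_le
      · refine le_trans ?_ (Subgroup.centralizer_le_normalizer _)
        intro x hx
        rw [Subgroup.mem_centralizer_iff]
        intro y hy
        exact hcomm y hy.1 x hx
      · refine le_trans ?_ Subgroup.inf_normalizer_le_normalizer_inf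
        exact le_inf Subgroup.le_normalizer_of_normal (hMQ.trans (normalizer_le_normalizer_centralizer Q))
    rcases hN.2.2 _ hCn inf_le_left with h | h
    · rw [h, Subgroup.card_bot] at hmod
      exact hmod
    · exfalso
      apply hQN
      have h3 : N ≤ Subgroup.centralizer (Q : Set G) := inf_eq_left.mp h
      rw [Subgroup.le_centralizer_iff] at h3
      rw [hLeq]; exact h3
  · rintro rfl
    apply hQN
    have h3 : IsPGroup q (N ⊔ Q : Subgroup G) := hLp.to_sup_of_normal_left hQq
    have h4 : (N ⊔ Q).Normal := by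
      rw [← Subgroup.normalizer_eq_top_iff, eq_top_iff, ← hsup]
      apply sup_le
      · exact le_sup_left.trans Subgroup.le_normalizer
      · refine le_trans ?_ (Subgroup.normalizer_inf_normalizer_le_normalizer_sup N Q)
        exact le_inf Subgroup.le_normalizer_of_normal hMQ
    exact le_sup_right.trans (hLmax _ h4 h3)

end Cfsg.Agent.S0587
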