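import Cfsg.Statements.S0589
import Cfsg.Agent.Lib.Helper10.Card
import Cfsg.Agent.S0034

set_option autoImplicit false
open Pointwise
open Cfsg

namespace Cfsg.Agent.S0589

open Cfsg.Agent.Lib.Helper10

theorem fix_iff {G : Type*} [Group G] (H : Subgroup G) (g x : G) :
    g • (x : G ⧸ H) = (x : G ⧸ H) ↔ x⁻¹ * g * x ∈ H := by
  rw [MulAction.Quotient.smul_coe, smul_eq_mul, eq_comm, QuotientGroup.eq, mul_assoc]

/-- a non-identity element fixes at most one coset of a Frobenius complement -/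
theorem fix_unique {G : Type*} [Group G] (H : Subgroup G) (hH : Cfsg.IsFrobeniusComplement H)
    (g : G) (ω ω' : G ⧸ H) (h1 : g • ω = ω) (h2 : g • ω' = ω') (hne : g ≠ 1) : ω = ω' := by
  obtain ⟨x, rfl⟩ := QuotientGroup.mk_surjective ω
  obtain ⟨y, rfl⟩ := QuotientGroup.mk_surjective ω'
  by_contra hxy
  apply hne
  rw [fix_iff] at h1 h2
  have ht : x⁻¹ * y ∉ H := fun h => hxy (QuotientGroup.eq.mpr h)
  have h3 := hH.2.2 _ ht
  have h4 : x⁻¹ * g * x ∈ H ⊓ (MulAut.conj (x⁻¹ * y) • H) := by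
    refine Subgroup.mem_inf.mpr ⟨h1, ?_⟩
    rw [mem_conj_smul_iff]
    have : (x⁻¹ * y)⁻¹ * (x⁻¹ * g * x) * (x⁻¹ * y) = y⁻¹ * g * y := by group
    rw [this]; exact h2
  rw [h3, Subgroup.mem_bot] at h4
  calc g = x * (x⁻¹ * g * x) * x⁻¹ := by group
    _ = 1 := by rw [h4]; group

/-- Let H be a Frobenius complement in a finite group G and L a subgroup of G whose order divides the order of H. Then L is contained in some conjugate of H. -/
theorem result {G : Type*} [Group G] [Finite G] (H : Subgroup G) (hH : Cfsg.IsFrobeniusComplement H) (L : Subgroup G) (hL : Nat.card L ∣ Nat.card H) : ∃ x : G, L ≤ MulAut.conj x • H := by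
  classical
  by_cases hLb : L = ⊥
  · exact ⟨1, by rw [hLb]; exact bot_le⟩
  have hL2 : 2 ≤ Nat.card L := by
    have := (Subgroup.one_lt_card_iff_ne_bot L).mpr hLb
    omega
  set Φ : Set (G ⧸ H) := {ω | ∃ l : L, l ≠ 1 ∧ l • ω = ω} with hΦ
  -- the free part
  let Y : SubMulAction L (G ⧸ H) :=
    { carrier := Φᶜ
      smul_mem' := by
        intro c ω hω hc
        apply hω
        obtain ⟨l, hl, hfix⟩ := hc
        refine ⟨c⁻¹ * l * c, ?_, ?_⟩
        · intro h1
          apply hl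
          calc l = c * (c⁻¹ * l * c) * c⁻¹ := by group
            _ = 1 := by rw [h1]; group
        · rw [mul_smul, mul_smul, hfix, inv_smul_smul] }
  have hfree : ∀ b : Y, MulAction.stabilizer L b = ⊥ := by
    intro b
    rw [eq_bot_iff]
    intro l hl
    rw [Subgroup.mem_bot]
    by_contra hne
    apply b.2
    refine ⟨l, hne, ?_⟩
    have : l • b = b := hl
    exact congrArg Subtype.val this
  have cY : Nat.card L ∣ Nat.card Y := by
    rw [Nat.card_congr (MulAction.selfEquivOrbitsQuotientProd hfree), Nat.card_prod]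
    exact dvd_mul_left _ _
  have cY' : Nat.card Y = Φᶜ.ncard := Nat.card_coe_set_eq _
  have csum : Φ.ncard + Φᶜ.ncard = H.index := Set.ncard_add_ncard_compl Φ
  have cΦ : Φ.ncard ≤ Nat.card L - 1 := by
    have hex : ∀ ω : Φ, ∃ l : L, l ≠ 1 ∧ l • (ω : G ⧸ H) = ω := fun ω => ω.2
    choose f hf1 hf2 using hex
    let F : Φ → {l : L // l ≠ 1} := fun ω => ⟨f ω, hf1 ω⟩
    have hF : Function.Injective F := by
      intro ω ω' h
      have h1 : f ω = f ω' := congrArg Subtype.val h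
      apply Subtype.ext
      apply fix_unique H hH (f ω : G) _ _ (hf2 ω) (by rw [h1]; exact hf2 ω')
      intro h2
      exact hf1 ω (Subtype.ext h2)
    have h1 := Nat.card_le_card_of_injective F hF
    have h2 : Nat.card {l : L // l ≠ 1} = Nat.card L - 1 := by
      have := Fintype.ofFinite L
      rw [Nat.card_eq_fintype_card, Nat.card_eq_fintype_card, Fintype.card_subtype_compl, Fintype.card_subtype_eq]
    rw [← h2, ← Nat.card_coe_set_eq]; exact h1
  have hmod : H.index ≡ 1 [MOD Nat.card L] :=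
    Nat.ModEq.of_dvd hL (Cfsg.Agent.S0034.result H hH).2
  have hΦ1 : Φ.ncard = 1 := by
    obtain ⟨k, hk⟩ := cY
    rw [cY'] at hk
    rw [← csum, hk] at hmod
    have h1 : Φ.ncard ≡ 1 [MOD Nat.card L] := by
      have : Φ.ncard + Nat.card L * k ≡ Φ.ncard [MOD Nat.card L] := by
        unfold Nat.ModEq; simp
      exact this.symm.trans hmod
    unfold Nat.ModEq at h1
    rw [Nat.mod_eq_of_lt (by omega), Nat.mod_eq_of_lt (by omega)] at h1
    exact h1
  obtain ⟨ω₀, hω₀⟩ := Set.ncard_eq_one.mp hΦ1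
  obtain ⟨x, rfl⟩ := QuotientGroup.mk_surjective ω₀
  refine ⟨x, ?_⟩
  have hmem : (x : G ⧸ H) ∈ Φ := by rw [hω₀]; rfl
  obtain ⟨l, hl, hfix⟩ := hmem
  intro c hc
  rw [mem_conj_smul_iff, ← fix_iff]
  have h1 : (⟨c, hc⟩ : L) • (x : G ⧸ H) ∈ Φ := by
    refine ⟨⟨c, hc⟩ * l * ⟨c, hc⟩⁻¹, ?_, ?_⟩
    · intro h1
      apply hl
      calc l = (⟨c, hc⟩ : L)⁻¹ * (⟨c, hc⟩ * l * ⟨c, hc⟩⁻¹) * ⟨c, hc⟩ := by group
        _ = 1 := by rw [h1]; group
    · rw [mul_smul, mul_smul, inv_smul_smul, hfix]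
  rw [hω₀] at h1
  exact h1

end Cfsg.Agent.S0589
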