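import Cfsg.Statements.S0591
import Mathlib

set_option autoImplicit false
open Cfsg

namespace Cfsg.Agent.S0591

open scoped commutatorElement

theorem mem_centralizer_zpowers {G : Type*} [Group G] (a v : G) :
    v ∈ Subgroup.centralizer (Subgroup.zpowers a : Set G) ↔ a * v = v * a := by
  rw [Subgroup.mem_centralizer_iff]
  constructor
  · intro h; exact h a (Subgroup.mem_zpowers a)
  · rintro h _ ⟨n, rfl⟩
    exact ((show Commute a v from h).zpow_left n)

/-- For a quadratically acting element a on an elementary abelian p-group V, the fixed points C_V(a) have order at least the square root of the order of V. -/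
theorem result {G : Type*} [Group G] [Finite G] {p : ℕ} [Fact p.Prime] (V : Subgroup G) (hV : Cfsg.IsElementaryAbelian p V) (a : G) (ha : a ∈ Subgroup.normalizer (V : Set G)) (hq : ⁅⁅V, Subgroup.zpowers a⁆, Subgroup.zpowers a⁆ = ⊥) : Nat.card V ≤ Nat.card ↥(V ⊓ Subgroup.centralizer (Subgroup.zpowers a : Set G)) ^ 2 := by
  have hcomm : ∀ x ∈ V, ∀ y ∈ V, x * y = y * x := fun x hx y hy =>
    haveI := hV.1
    congrArg Subtype.val (mul_comm' (⟨x, hx⟩ : V) ⟨y, hy⟩)
  have hconj : ∀ v ∈ V, a * v * a⁻¹ ∈ V := fun v hv => (Subgroup.mem_normalizer_iff.mp ha v).mp hv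
  set C := V ⊓ Subgroup.centralizer (Subgroup.zpowers a : Set G) with hC
  let φ : V →* V := MonoidHom.mk' (fun v => ⟨a * v * a⁻¹ * (v : G)⁻¹, mul_mem (hconj v v.2) (inv_mem v.2)⟩) (by
    intro v w
    ext
    simp only [Subgroup.coe_mul, mul_inv_rev]
    have h1 := hcomm (a * w * a⁻¹) (hconj w w.2) ((v : G)⁻¹) (inv_mem v.2)
    have h2 := hcomm ((w : G)⁻¹) (inv_mem w.2) ((v : G)⁻¹) (inv_mem v.2)
    calc a * (↑v * ↑w) * a⁻¹ * ((w : G)⁻¹ * (v : G)⁻¹) = a * v * a⁻¹ * (a * w * a⁻¹) * ((w : G)⁻¹ * (v : G)⁻¹) := by group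
      _ = a * v * a⁻¹ * (a * w * a⁻¹) * ((v : G)⁻¹ * (w : G)⁻¹) := by rw [h2]
      _ = a * v * a⁻¹ * ((a * w * a⁻¹) * (v : G)⁻¹) * (w : G)⁻¹ := by group
      _ = a * v * a⁻¹ * ((v : G)⁻¹ * (a * w * a⁻¹)) * (w : G)⁻¹ := by rw [h1]
      _ = a * ↑v * a⁻¹ * (↑v)⁻¹ * (a * ↑w * a⁻¹ * (↑w)⁻¹) := by group)
  have hφ : ∀ v : V, ((φ v : V) : G) = a * v * a⁻¹ * (v : G)⁻¹ := fun v => rfl
  have hker : φ.ker = C.subgroupOf V := by
    ext v
    rw [MonoidHom.mem_ker, Subgroup.mem_subgroupOf, hC, Subgroup.mem_inf, mem_centralizer_zpowers]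
    constructor
    · intro h
      have h1 : a * v * a⁻¹ * (v : G)⁻¹ = 1 := by rw [← hφ, h]; rfl
      refine ⟨v.2, ?_⟩
      calc a * (v : G) = (a * v * a⁻¹ * (v : G)⁻¹) * (v * a) := by group
        _ = v * a := by rw [h1, one_mul]
    · rintro ⟨_, h⟩
      ext
      rw [hφ, h]; simp
  have hrange : φ.range ≤ C.subgroupOf V := by
    rintro _ ⟨v, rfl⟩
    rw [Subgroup.mem_subgroupOf, hC, Subgroup.mem_inf, mem_centralizer_zpowers]
    refine ⟨(φ v).2, ?_⟩
    have h1 : ⁅a, (v : G)⁆ ∈ ⁅V, Subgroup.zpowers a⁆ := by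
      rw [Subgroup.commutator_comm]
      exact Subgroup.commutator_mem_commutator (Subgroup.mem_zpowers a) v.2
    have h2 : ⁅⁅a, (v : G)⁆, a⁆ ∈ ⁅⁅V, Subgroup.zpowers a⁆, Subgroup.zpowers a⁆ :=
      Subgroup.commutator_mem_commutator h1 (Subgroup.mem_zpowers a)
    rw [hq, Subgroup.mem_bot, commutatorElement_eq_one_iff_mul_comm] at h2
    rw [hφ]
    exact h2.symm
  have hcardC : Nat.card (C.subgroupOf V) = Nat.card C :=
    Nat.card_congr (Subgroup.subgroupOfEquivOfLe (inf_le_left)).toEquiv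
  have h1 : Nat.card φ.ker * Nat.card φ.range = Nat.card V := by
    rw [← Subgroup.index_ker]; exact Subgroup.card_mul_index _
  rw [← h1, hker, hcardC, sq]
  apply Nat.mul_le_mul_left
  rw [← hcardC]
  exact Subgroup.card_le_of_le hrange

end Cfsg.Agent.S0591
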