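import Cfsg.Statements.S0592
import Cfsg.Agent.Lib.Helper62.QuadGen2

set_option autoImplicit false
open Cfsg

namespace Cfsg.Agent.S0592

open Cfsg.Agent.Lib.Helper62

/-- Two quadratically acting generators of a linear group that is not a p-group, with the p'-part of the order of their product dividing q - 1, give a homomorphism onto a subgroup of SL(2, q) that is not a p-group. -/
theorem result {K : Type*} [Field K] [Fintype K] {p : ℕ} [Fact p.Prime] [CharP K p] {W : Type*} [AddCommGroup W] [Module K W] [FiniteDimensional K W] [Finite W] [Nontrivial W] (H : Subgroup (W ≃ₗ[K] W)) (a b : W ≃ₗ[K] W) (hH : H = Subgroup.closure {a, b}) (ha : ∀ w : W, a (a w - w) = a w - w) (hb : ∀ w : W, b (b w - w) = b w - w) (hnp : ¬ IsPGroup p H) (hk : ∃ e k : ℕ, orderOf (a * b) = p ^ e * k ∧ k ∣ Fintype.card K - 1) : ∃ φ : H →* Matrix.SpecialLinearGroup (Fin 2) K, ¬ IsPGroup p φ.range := by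
  subst hH
  obtain ⟨e, k, hord, hkq⟩ := hk
  have hc : (a * b) ^ (p ^ e * (Fintype.card K - 1)) = 1 := by
    apply orderOf_dvd_iff_pow_eq_one.1
    rw [hord]
    exact Nat.mul_dvd_mul_left _ hkq
  have hnil : ∀ n, subOne (a * b) ^ n ≠ 0 := by
    intro n hn
    exact hnp (isPGroup_closure_of_nilpotent p ha hb (anticomm_nilpotent_of_subOne_mul ha hb hn))
  obtain ⟨l, hl, v, hv, hev⟩ := exists_eigenvector_of_not_unipotent p hc hnil
  exact exists_hom_SL2 p ha hb hl hv hev

end Cfsg.Agent.S0592
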