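import Cfsg.Statements.S0595
import Cfsg.Agent.Lib.Helper34.PStable2
import Cfsg.Agent.Lib.Helper84.ChainStab

set_option autoImplicit false
open Cfsg

namespace Cfsg.Agent.S0595

open Cfsg.Agent.Lib.Helper34

theorem abSylTwo_of_normal_pGroup {X : Type*} [Group X] [Finite X] {p : ℕ} [hp : Fact p.Prime] (hp2 : p ≠ 2)
    (N : Subgroup X) [N.Normal] (hN : IsPGroup p N) (h : AbSylTwo (X ⧸ N)) : AbSylTwo X := by
  intro T a ha b hb
  have h1 : IsPGroup 2 ((T : Subgroup X).map (QuotientGroup.mk' N)) := T.isPGroup'.map _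
  obtain ⟨T', hT'⟩ := h1.exists_le_sylow
  have h2 := h T' _ (hT' ⟨a, ha, rfl⟩) _ (hT' ⟨b, hb, rfl⟩)
  have h3 : a * b * a⁻¹ * b⁻¹ ∈ N := by
    rw [← QuotientGroup.eq_one_iff]
    have e : ((a * b * a⁻¹ * b⁻¹ : X) : X ⧸ N) = QuotientGroup.mk' N a * QuotientGroup.mk' N b *
        (QuotientGroup.mk' N a)⁻¹ * (QuotientGroup.mk' N b)⁻¹ := rfl
    rw [e, h2]
    group
  have h4 : a * b * a⁻¹ * b⁻¹ ∈ (T : Subgroup X) :=
    Subgroup.mul_mem _ (Subgroup.mul_mem _ (Subgroup.mul_mem _ ha hb) (Subgroup.inv_mem _ ha))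
      (Subgroup.inv_mem _ hb)
  obtain ⟨i, hi⟩ := hN ⟨_, h3⟩
  obtain ⟨j, hj⟩ := T.isPGroup' ⟨_, h4⟩
  have h5 : a * b * a⁻¹ * b⁻¹ = 1 :=
    eq_one_of_pow_eq_one_of_coprime (m := p ^ i) (n := 2 ^ j)
      (Nat.Coprime.pow _ _ ((Nat.coprime_primes hp.out Nat.prime_two).mpr hp2))
      (congrArg Subtype.val hi) (congrArg Subtype.val hj)
  rw [mul_inv_eq_one, mul_inv_eq_iff_eq_mul] at h5
  exact h5

theorem abSylTwo_of_one {X : Type*} [Group X] [Finite X] (T : Sylow 2 X) (hT : IsMulCommutative T) :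
    AbSylTwo X := by
  intro T' a ha b hb
  obtain ⟨g, rfl⟩ := MulAction.exists_smul_eq X T T'
  rw [Sylow.coe_subgroup_smul, Subgroup.mem_pointwise_smul_iff_inv_smul_mem] at ha hb
  have h1 := hT.is_comm.comm ⟨_, ha⟩ ⟨_, hb⟩
  have h2 : ((MulAut.conj g)⁻¹ • a) * ((MulAut.conj g)⁻¹ • b)
      = ((MulAut.conj g)⁻¹ • b) * ((MulAut.conj g)⁻¹ • a) := congrArg Subtype.val h1
  rw [← smul_mul', ← smul_mul'] at h2
  exact smul_left_cancel _ h2

/-- Let p be odd and H act faithfully on an elementary abelian p-group V. If some element of H outside O_p(H) acts quadratically on V (the action is not p-stable), then the Sylow 2-subgroups of H are non-abelian. -/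
theorem result {G : Type*} [Group G] [Finite G] {p : ℕ} [Fact p.Prime] (hp : p ≠ 2) (V H : Subgroup G) (hV : Cfsg.IsElementaryAbelian p V) (hHV : H ≤ Subgroup.normalizer (V : Set G)) (hf : H ⊓ Subgroup.centralizer (V : Set G) = ⊥) (a : G) (haH : a ∈ H) (hq : ⁅⁅V, Subgroup.zpowers a⁆, Subgroup.zpowers a⁆ = ⊥) (hna : a ∉ (Cfsg.pCore p H).map H.subtype) (T : Sylow 2 H) : ¬ IsMulCommutative T := by
  intro hT
  have hH : AbSylTwo ↥H := abSylTwo_of_one T hT
  set X := H ⊔ V with hX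
  have hVX : V ≤ X := le_sup_right
  have hHX : H ≤ X := le_sup_left
  have hVp : IsPGroup p V := fun v => ⟨1, Subtype.ext (by rw [pow_one]; exact hV.2 v v.2)⟩
  have hVn : (V.subgroupOf X).Normal :=
    (Subgroup.normal_subgroupOf_iff_le_normalizer hVX).mpr (sup_le hHV Subgroup.le_normalizer)
  have hVXp : IsPGroup p (V.subgroupOf X) := hVp.comap_of_injective _ X.subtype_injective
  have hXq : AbSylTwo (↥X ⧸ V.subgroupOf X) := by
    refine hH.of_surjective ((QuotientGroup.mk' (V.subgroupOf X)).comp (Subgroup.inclusion hHX)) ?_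
    intro q
    obtain ⟨⟨x, hx⟩, rfl⟩ := QuotientGroup.mk'_surjective _ q
    obtain ⟨h, hh, v, hv, rfl⟩ := Cfsg.Agent.Lib.Helper84.mem_sup_of_le_normalizer hHV hx
    refine ⟨⟨h, hh⟩, ?_⟩
    rw [MonoidHom.comp_apply, QuotientGroup.mk'_eq_mk']
    exact ⟨⟨v, hVX hv⟩, Subgroup.mem_subgroupOf.mpr hv, rfl⟩
  have hXab : AbSylTwo ↥X := abSylTwo_of_normal_pGroup hp _ hVXp hXq
  obtain ⟨M, hMn, haM, hM⟩ := hXab.qStable hp (V.subgroupOf X) ⟨a, hHX haH⟩ hVn hVXp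
    (fun x hx => Subtype.ext (quadOn_of_commutator hq x (Subgroup.mem_subgroupOf.mp hx)))
  apply hna
  have hD : M.comap (Subgroup.inclusion hHX) ≤ pCore p ↥H := by
    apply Cfsg.Agent.Lib.Helper1.le_pCore (hMn.comap _)
    rintro ⟨d, hd⟩
    obtain ⟨k, hk⟩ := hM _ hd
    refine ⟨k, Subtype.ext (Subtype.ext ?_)⟩
    have h1 : ((d : G)) ^ (p ^ k) ∈ H ⊓ Subgroup.centralizer (V : Set G) := by
      refine Subgroup.mem_inf.mpr ⟨Subgroup.pow_mem _ d.2 _, ?_⟩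
      rw [Subgroup.mem_centralizer_iff]
      intro v hv
      have h2 := Subgroup.mem_centralizer_iff.mp hk ⟨v, hVX hv⟩ (Subgroup.mem_subgroupOf.mpr hv)
      exact congrArg Subtype.val h2
    rw [hf, Subgroup.mem_bot] at h1
    simpa using h1
  exact ⟨⟨a, haH⟩, hD haM, rfl⟩

end Cfsg.Agent.S0595
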