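import Cfsg.Statements.S0593
import Cfsg.Agent.S0595
import Cfsg.Agent.Lib.Lead.Cores

set_option autoImplicit false
open Cfsg

namespace Cfsg.Agent.S0593

/-- For odd p, a faithful group on an elementary abelian p-group generated by two quadratically acting elements is a p-group or has non-abelian Sylow 2-subgroups. -/
theorem result {G : Type*} [Group G] [Finite G] {p : ℕ} [Fact p.Prime] (hp : p ≠ 2) (V H : Subgroup G) (hV : Cfsg.IsElementaryAbelian p V) (hHV : H ≤ Subgroup.normalizer (V : Set G)) (hf : H ⊓ Subgroup.centralizer (V : Set G) = ⊥) (a b : G) (hab : H = Subgroup.closure {a, b}) (ha : ⁅⁅V, Subgroup.zpowers a⁆, Subgroup.zpowers a⁆ = ⊥) (hb : ⁅⁅V, Subgroup.zpowers b⁆, Subgroup.zpowers b⁆ = ⊥) (hnp : ¬ IsPGroup p H) (T : Sylow 2 H) : ¬ IsMulCommutative T := by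
  have haH : a ∈ H := by rw [hab]; exact Subgroup.subset_closure (by simp)
  have hbH : b ∈ H := by rw [hab]; exact Subgroup.subset_closure (by simp)
  by_cases h1 : a ∈ (Cfsg.pCore p H).map H.subtype
  · by_cases h2 : b ∈ (Cfsg.pCore p H).map H.subtype
    · exfalso
      apply hnp
      have h3 : H ≤ (Cfsg.pCore p H).map H.subtype := by
        conv_lhs => rw [hab]
        rw [Subgroup.closure_le]
        intro x hx
        rcases hx with rfl | hx
        · exact h1
        · rw [Set.mem_singleton_iff] at hx
          rw [hx]; exact h2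
      have h4 : IsPGroup p ((Cfsg.pCore p H).map H.subtype) :=
        (Cfsg.Agent.Lib.Lead.pCore_isPGroup (p := p) (G := H)).map _
      exact h4.to_le h3
    · exact Cfsg.Agent.S0595.result hp V H hV hHV hf b hbH hb h2 T
  · exact Cfsg.Agent.S0595.result hp V H hV hHV hf a haH ha h1 T

end Cfsg.Agent.S0593
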