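import Cfsg.Statements.S0594
import Cfsg.Agent.S0596

set_option autoImplicit false
open Cfsg

namespace Cfsg.Agent.S0594

open Cfsg.Agent.Lib.Helper11 Cfsg.Agent.Lib.Helper34
open scoped commutatorElement

theorem isPSolvable_of_subsingleton {G : Type*} [Group G] [Subsingleton G] (p : ℕ) : IsPSolvable p G := by
  refine ⟨0, fun _ => ⊥, rfl, ?_, fun _ _ _ => le_rfl, fun _ => inferInstance, fun i => i.elim0⟩
  exact Subsingleton.elim _ _

theorem isPSolvable_of_isPGroup {G : Type*} [Group G] [Finite G] {p : ℕ} [Fact p.Prime] (h : IsPGroup p G) :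
    IsPSolvable p G := by
  apply isPSolvable_of_extension (⊤ : Subgroup G)
  · left
    obtain ⟨m, hm⟩ := IsPGroup.iff_card.1 h
    exact ⟨m, by rw [Subgroup.card_top, hm]⟩
  · haveI : Subsingleton (G ⧸ (⊤ : Subgroup G)) := QuotientGroup.subsingleton_quotient_top
    exact isPSolvable_of_subsingleton p

theorem pow_conj_of_quad {G : Type*} [Group G] (a v : G)
    (h : a * (a * v * a⁻¹ * v⁻¹) * a⁻¹ = a * v * a⁻¹ * v⁻¹) (k : ℕ) :
    a ^ k * v * (a ^ k)⁻¹ = (a * v * a⁻¹ * v⁻¹) ^ k * v := by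
  induction k with
  | zero => simp
  | succ k ih =>
    have h1 : a ^ (k + 1) * v * (a ^ (k + 1))⁻¹ = a * (a ^ k * v * (a ^ k)⁻¹) * a⁻¹ := by
      rw [pow_succ']; group
    have h2 : a * ((a * v * a⁻¹ * v⁻¹) ^ k * v) * a⁻¹ =
        (a * (a * v * a⁻¹ * v⁻¹) * a⁻¹) ^ k * (a * v * a⁻¹) := by
      rw [conj_pow]; group
    rw [h1, ih, h2, h, pow_succ]
    group

/-- For odd p, two quadratic generators of a faithful group that is not a p-group, one of which acts nontrivially on a normal subgroup of order prime to p, force p = 3 and a section isomorphic to SL(2,3). -/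
theorem result {G : Type*} [Group G] [Finite G] {p : ℕ} [Fact p.Prime] (hp : p ≠ 2) (V H : Subgroup G) (hV : Cfsg.IsElementaryAbelian p V) (hHV : H ≤ Subgroup.normalizer (V : Set G)) (hf : H ⊓ Subgroup.centralizer (V : Set G) = ⊥) (a b : G) (hab : H = Subgroup.closure {a, b}) (ha : ⁅⁅V, Subgroup.zpowers a⁆, Subgroup.zpowers a⁆ = ⊥) (hb : ⁅⁅V, Subgroup.zpowers b⁆, Subgroup.zpowers b⁆ = ⊥) (hnp : ¬ IsPGroup p H) (Q : Subgroup G) (hQH : Q ≤ H) (hQn : H ≤ Subgroup.normalizer (Q : Set G)) (hQ : (Nat.card Q).Coprime p) (hQa : ⁅Q, Subgroup.zpowers a⁆ ≠ ⊥) : p = 3 ∧ ∃ (K L : Subgroup G) (hL : (L.subgroupOf K).Normal), K ≤ H ∧ Nonempty ((K ⧸ L.subgroupOf K) ≃* Matrix.SpecialLinearGroup (Fin 2) (ZMod 3)) := by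
  have haH : a ∈ H := by rw [hab]; exact Subgroup.subset_closure (by simp)
  have hzH : Subgroup.zpowers a ≤ H := Subgroup.zpowers_le.2 haH
  set H₀ := Q ⊔ Subgroup.zpowers a with hH₀
  have hH₀H : H₀ ≤ H := sup_le hQH hzH
  have haH₀ : a ∈ H₀ := (le_sup_right : Subgroup.zpowers a ≤ H₀) (Subgroup.mem_zpowers a)
  have hQH₀ : Q ≤ H₀ := le_sup_left
  have hf₀ : H₀ ⊓ Subgroup.centralizer (V : Set G) = ⊥ := by
    rw [eq_bot_iff, ← hf]; exact inf_le_inf_right _ hH₀H
  -- `a ^ p = 1`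
  have hap : a ^ p = 1 := by
    have h1 : a ^ p ∈ H ⊓ Subgroup.centralizer (V : Set G) := by
      refine Subgroup.mem_inf.2 ⟨Subgroup.pow_mem _ haH _, ?_⟩
      rw [Subgroup.mem_centralizer_iff]
      intro v hv
      have hq := quadOn_of_commutator ha v hv
      have h2 := pow_conj_of_quad a v hq p
      have hc : a * v * a⁻¹ * v⁻¹ ∈ V := by
        apply V.mul_mem _ (V.inv_mem hv)
        exact (Subgroup.mem_normalizer_iff.1 (hHV haH) v).1 hv
      rw [hV.2 _ hc, one_mul] at h2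
      rw [mul_inv_eq_iff_eq_mul] at h2
      exact h2.symm
    rw [hf, Subgroup.mem_bot] at h1
    exact h1
  haveI hQn₀ : (Q.subgroupOf H₀).Normal :=
    (Subgroup.normal_subgroupOf_iff_le_normalizer hQH₀).mpr (hH₀H.trans hQn)
  have hsep : IsPSolvable p ↥H₀ := by
    apply isPSolvable_of_extension (Q.subgroupOf H₀)
    · right
      rw [Nat.card_congr (Subgroup.subgroupOfEquivOfLe hQH₀).toEquiv]
      exact hQ
    · apply isPSolvable_of_isPGroup
      intro x
      obtain ⟨⟨y, hy⟩, rfl⟩ := QuotientGroup.mk'_surjective _ x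
      refine ⟨1, ?_⟩
      rw [pow_one, ← map_pow, QuotientGroup.mk'_apply, QuotientGroup.eq_one_iff, Subgroup.mem_subgroupOf]
      -- `y = z * q`
      have hzn : Subgroup.zpowers a ≤ Subgroup.normalizer (Q : Set G) := hzH.trans hQn
      rw [hH₀, sup_comm] at hy
      obtain ⟨z, hz, q, hq, rfl⟩ := Cfsg.Agent.Lib.Helper84.mem_sup_of_le_normalizer hzn hy
      obtain ⟨k, rfl⟩ := Subgroup.mem_zpowers_iff.1 hz
      -- work in the quotient of the normalizer
      have key : ∀ n : ℕ, ∃ q' ∈ Q, (a ^ k * q) ^ n = (a ^ k) ^ n * q' := by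
        intro n
        induction n with
        | zero => exact ⟨1, Q.one_mem, by simp⟩
        | succ n ih =>
          obtain ⟨q', hq', h⟩ := ih
          refine ⟨(a ^ k)⁻¹ * q' * (a ^ k) * q, ?_, ?_⟩
          · apply Q.mul_mem _ hq
            have := (Subgroup.mem_normalizer_iff.1 (Subgroup.inv_mem _ (hzn hz)) q').1 hq'
            simpa using this
          · rw [pow_succ, h, pow_succ]; group
      obtain ⟨q', hq', h⟩ := key p
      show (a ^ k * q) ^ p ∈ Q
      rw [h, ← zpow_natCast, ← zpow_mul, mul_comm, zpow_mul, zpow_natCast, hap, one_zpow, one_mul]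
      exact hq'
  have hna : a ∉ (Cfsg.pCore p H₀).map H₀.subtype := by
    intro hmem
    apply hQa
    rw [eq_bot_iff, Subgroup.commutator_le]
    intro q hq z hz
    rw [Subgroup.mem_bot]
    have hzn : z ∈ Subgroup.normalizer (Q : Set G) := hQn (hzH hz)
    have h1 : ⁅q, z⁆ ∈ Q := by
      rw [commutatorElement_def]
      have : q * z * q⁻¹ * z⁻¹ = q * (z * q⁻¹ * z⁻¹) := by group
      rw [this]
      exact Q.mul_mem hq ((Subgroup.mem_normalizer_iff.1 hzn _).1 (Q.inv_mem hq))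
    have hzP : z ∈ (Cfsg.pCore p H₀).map H₀.subtype := by
      obtain ⟨k, rfl⟩ := Subgroup.mem_zpowers_iff.1 hz
      exact Subgroup.zpow_mem _ hmem _
    have h2 : ⁅q, z⁆ ∈ (Cfsg.pCore p H₀).map H₀.subtype := by
      obtain ⟨z', hz', rfl⟩ := hzP
      refine ⟨⁅(⟨q, hQH₀ hq⟩ : ↥H₀), z'⁆, ?_, rfl⟩
      rw [commutatorElement_def]
      have hn : (Cfsg.pCore p ↥H₀).Normal := inferInstance
      exact Subgroup.mul_mem _ (hn.conj_mem _ hz' _) (Subgroup.inv_mem _ hz')
    have hPp : IsPGroup p ((Cfsg.pCore p H₀).map H₀.subtype) :=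
      (Cfsg.Agent.Lib.Lead.pCore_isPGroup p ↥H₀).map _
    obtain ⟨j, hj⟩ := hPp ⟨_, h2⟩
    have hj' : ⁅q, z⁆ ^ (p ^ j) = 1 := congrArg Subtype.val hj
    have h3 : ⁅q, z⁆ ^ (Nat.card Q) = 1 := by
      have := Subgroup.orderOf_dvd_natCard Q h1
      exact orderOf_dvd_iff_pow_eq_one.1 this
    exact eq_one_of_pow_eq_one_of_coprime (m := p ^ j) (n := Nat.card Q)
      (Nat.Coprime.pow_left _ hQ.symm) hj' h3
  obtain ⟨h3, K, L, hL, hK, e⟩ := Cfsg.Agent.S0596.result hp V H₀ hV (hH₀H.trans hHV) hf₀ hsep a haH₀ ha hna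
  exact ⟨h3, K, L, hL, hK.trans hH₀H, e⟩

end Cfsg.Agent.S0594
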