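import Cfsg.Statements.S0599
import Cfsg.Agent.Lib.Helper10.Replacement
import Cfsg.Agent.Lib.Helper10.Thompson
import Cfsg.Agent.Lib.Helper10.PAction

set_option autoImplicit false
open Cfsg

namespace Cfsg.Agent.S0599

open Cfsg.Agent.Lib.Helper10
open scoped commutatorElement

/-- The Timmesfeld replacement Theorem: replacing a best offender A by C_A([U, A]) gives a best offender with fixed points [U, A]C_V(A), still nontrivial on V if A was. -/
theorem result {G : Type*} [Group G] [Finite G] {p : ℕ} [Fact p.Prime] (V A : Subgroup G) (hV : Cfsg.IsElementaryAbelian p V) (hAV : A ≤ Subgroup.normalizer (V : Set G)) (hA : Cfsg.IsBestOffenderOn p V A) (U : Subgroup G) (hU : U ≤ V) : Cfsg.IsBestOffenderOn p V (A ⊓ Subgroup.centralizer ((⁅U, A⁆ : Subgroup G) : Set G)) ∧ V ⊓ Subgroup.centralizer ((A ⊓ Subgroup.centralizer ((⁅U, A⁆ : Subgroup G) : Set G) : Subgroup G) : Set G) = ⁅U, A⁆ ⊔ (V ⊓ Subgroup.centralizer (A : Set G)) ∧ (⁅V,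 A⁆ ≠ ⊥ → ⁅V, A ⊓ Subgroup.centralizer ((⁅U, A⁆ : Subgroup G) : Set G)⁆ ≠ ⊥) := by
  obtain ⟨hmax, hab, hpow⟩ := hA
  obtain ⟨h1, h2⟩ := replacement (isEA_iff.mp hV).1 hAV hab hmax U hU
  set B := A ⊓ Subgroup.centralizer ((⁅U, A⁆ : Subgroup G) : Set G) with hB
  refine ⟨⟨?_, ?_, ?_⟩, h2, ?_⟩
  · intro X hX
    have : mm V X ≤ mm V B := by rw [h1]; exact hmax X (hX.trans inf_le_left)
    exact this
  · exact (Subgroup.commutator_mono inf_le_left inf_le_left).trans hab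
  · intro a ha; exact hpow a ha.1
  · intro hne hbot
    apply hne
    rw [Subgroup.commutator_eq_bot_iff_le_centralizer] at hbot
    have hVeq : V = ⁅U, A⁆ ⊔ (V ⊓ Subgroup.centralizer (A : Set G)) := by
      rw [← h2]; exact (inf_eq_left.mpr hbot).symm
    have hVA : ⁅V, A⁆ ≤ V := (Subgroup.le_normalizer_iff_commutator_le_left).mp hAV
    apply eq_bot_of_le_commutator_pAction (IsEA.isPGroup hV) hAV
      (fun a ha => ⟨1, by simpa using hpow a ha⟩) hVA
    -- ⁅V, A⁆ ≤ ⁅⁅V, A⁆, A⁆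
    have hVc := (isEA_iff.mp hV).1
    have hn : ⁅U, A⁆ ≤ Subgroup.normalizer ((V ⊓ Subgroup.centralizer (A : Set G) : Subgroup G) : Set G) := by
      refine le_trans ?_ (Subgroup.centralizer_le_normalizer _)
      intro x hx
      rw [Subgroup.mem_centralizer_iff]
      intro y hy
      exact hVc y hy.1 x (hVA (Subgroup.commutator_mono hU le_rfl hx))
    rw [Subgroup.commutator_le]
    intro v hv a ha
    rw [hVeq, ← SetLike.mem_coe, Subgroup.coe_mul_of_left_le_normalizer_right _ _ hn] at hv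
    obtain ⟨w, hw, c, hc, rfl⟩ := hv
    have hw' : w ∈ ⁅V, A⁆ := Subgroup.commutator_mono hU le_rfl hw
    have hca : a * c⁻¹ = c⁻¹ * a := by
      have h3 : c⁻¹ ∈ Subgroup.centralizer (A : Set G) := inv_mem hc.2
      exact (Subgroup.mem_centralizer_iff.mp h3) a ha
    have hwV : w ∈ V := hVA hw'
    have hcw : c * w⁻¹ = w⁻¹ * c := hVc _ hc.1 _ (inv_mem hwV)
    have hcy : c * (a * w⁻¹ * a⁻¹) = (a * w⁻¹ * a⁻¹) * c :=
      hVc _ hc.1 _ ((Subgroup.le_normalizer_iff.mp hAV) a ha _ (inv_mem hwV))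
    have e : ⁅w * c, a⁆ = ⁅w, a⁆ := by
      simp only [commutatorElement_def, mul_inv_rev]
      calc w * c * a * (c⁻¹ * w⁻¹) * a⁻¹ = w * c * (a * c⁻¹) * w⁻¹ * a⁻¹ := by group
        _ = w * c * (c⁻¹ * a) * w⁻¹ * a⁻¹ := by rw [hca]
        _ = w * a * w⁻¹ * a⁻¹ := by group
    rw [e]
    exact Subgroup.commutator_mem_commutator hw' ha

end Cfsg.Agent.S0599
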