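import Cfsg.Statements.S0607
import Cfsg.Agent.Lib.Helper10.Replacement
import Cfsg.Agent.Lib.Helper10.Thompson
import Cfsg.Agent.S0599
import Cfsg.Agent.S0606

set_option autoImplicit false
open Cfsg

namespace Cfsg.Agent.S0607

open Cfsg.Agent.Lib.Helper10
open scoped commutatorElement

/-- The replacement Theorem for the Thompson subgroup: from A of maximal order among elementary abelian p-subgroups one obtains A₀ = [V, A] C_A([V, A]) of the same kind, quadratic on V and nontrivial on V when A is. -/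
theorem result {G : Type*} [Group G] [Finite G] {p : ℕ} [Fact p.Prime] (V : Subgroup G) [V.Normal] (hV : Cfsg.IsElementaryAbelian p V) (A : Subgroup G) (hA : A ∈ Cfsg.maxElementaryAbelianSubgroups p G) : (⁅V, A⁆ ⊔ (A ⊓ Subgroup.centralizer ((⁅V, A⁆ : Subgroup G) : Set G))) ∈ Cfsg.maxElementaryAbelianSubgroups p G ∧ ⁅⁅V, ⁅V, A⁆ ⊔ (A ⊓ Subgroup.centralizer ((⁅V, A⁆ : Subgroup G) : Set G))⁆, ⁅V, A⁆ ⊔ (A ⊓ Subgroup.centralizer ((⁅V, A⁆ : Subgroup G) : Set G))⁆ = ⊥ ∧ (⁅V, A⁆ ≠ ⊥ → ⁅V, ⁅V, A⁆ ⊔ (A ⊓ Subgroup.centralizer ((⁅V, A⁆ : Subgroup G) : Set G))⁆ ≠ ⊥) := by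
  have hBO := Cfsg.Agent.S0606.result V hV A hA
  have hAV : A ≤ Subgroup.normalizer (V : Set G) := Subgroup.le_normalizer_of_normal
  have hT := Cfsg.Agent.S0599.result V A hV hAV hBO V le_rfl
  have hVc := (isEA_iff.mp hV).1
  have hAc := (isEA_iff.mp hA.1).1
  obtain ⟨h1, h2⟩ := replacement hVc hAV hBO.2.1 hBO.1 V le_rfl
  set W := ⁅V, A⁆ with hW
  set B := A ⊓ Subgroup.centralizer (W : Set G) with hB
  set C := V ⊓ Subgroup.centralizer (A : Set G) with hC
  have hWV : W ≤ V := Subgroup.commutator_le_left V A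
  have hcomm : ∀ w ∈ W, ∀ b ∈ B, w * b = b * w := fun w hw b hb =>
    (Subgroup.mem_centralizer_iff.mp hb.2) w hw
  have hEA : IsElementaryAbelian p (W ⊔ B) :=
    IsEA.sup (IsEA.mono hV hWV) (IsEA.mono hA.1 inf_le_left) hcomm
  have hCA : C ≤ A := by
    have hEA' : IsElementaryAbelian p (A ⊔ C) := by
      apply IsEA.sup hA.1 (IsEA.mono hV inf_le_left)
      intro a ha c hc
      exact (Subgroup.mem_centralizer_iff.mp hc.2) a ha
    have := Subgroup.eq_of_le_of_card_ge (le_sup_left : A ≤ A ⊔ C) (hA.2 _ hEA')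
    rw [this]; exact le_sup_right
  have hCB : C ≤ B := by
    apply le_inf hCA
    intro c hc
    rw [Subgroup.mem_centralizer_iff]
    intro w hw
    exact hVc w (hWV hw) c hc.1
  have hA0 : W ⊔ B = B ⊔ (V ⊓ Subgroup.centralizer (B : Set G)) := by
    rw [h2]
    apply le_antisymm
    · exact sup_le (le_sup_left.trans le_sup_right) le_sup_left
    · exact sup_le le_sup_right (sup_le le_sup_left (hCB.trans le_sup_right))
  have hn : B ≤ Subgroup.normalizer ((V ⊓ Subgroup.centralizer (B : Set G) : Subgroup G) : Set G) := by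
    refine le_trans ?_ (Subgroup.centralizer_le_normalizer _)
    rw [Subgroup.le_centralizer_iff]
    exact inf_le_right
  have e1 := card_sup_mul_card_inf B (V ⊓ Subgroup.centralizer (B : Set G)) hn
  have i1 : B ⊓ (V ⊓ Subgroup.centralizer (B : Set G)) ≤ C := by
    intro x hx
    refine Subgroup.mem_inf.mpr ⟨hx.2.1, ?_⟩
    rw [Subgroup.mem_centralizer_iff]
    intro a ha
    exact hAc a ha x hx.1.1
  have c1 := Subgroup.card_le_of_le i1
  have hcard : Nat.card A ≤ Nat.card (W ⊔ B : Subgroup G) := by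
    rw [hA0]
    have e2 : Nat.card B * Nat.card (V ⊓ Subgroup.centralizer (B : Set G) : Subgroup G) = Nat.card A * Nat.card C := h1
    rw [e2] at e1
    have hpos : 0 < Nat.card C := Nat.card_pos
    have : Nat.card A * Nat.card C ≤ Nat.card (B ⊔ (V ⊓ Subgroup.centralizer (B : Set G)) : Subgroup G) * Nat.card C := by
      rw [← e1]; exact Nat.mul_le_mul_left _ c1
    exact Nat.le_of_mul_le_mul_right this hpos
  have hVA0 : ⁅V, W ⊔ B⁆ ≤ W := by
    have hnW : W ≤ Subgroup.normalizer (B : Set G) := by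
      refine le_trans ?_ (Subgroup.centralizer_le_normalizer _)
      rw [Subgroup.le_centralizer_iff]
      exact inf_le_right
    rw [Subgroup.commutator_le]
    intro v hv x hx
    rw [← SetLike.mem_coe, Subgroup.coe_mul_of_left_le_normalizer_right _ _ hnW] at hx
    obtain ⟨w, hw, b, hb, rfl⟩ := hx
    have e : ⁅v, w * b⁆ = w * ⁅v, b⁆ * w⁻¹ := by
      have hvw : v * w = w * v := hVc v hv w (hWV hw)
      have hvw' : v⁻¹ * w⁻¹ = w⁻¹ * v⁻¹ := hVc _ (inv_mem hv) _ (inv_mem (hWV hw))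
      simp only [commutatorElement_def, mul_inv_rev]
      have hbw : b⁻¹ * w⁻¹ = w⁻¹ * b⁻¹ := (hcomm _ (inv_mem hw) _ (inv_mem hb)).symm
      calc v * (w * b) * v⁻¹ * (b⁻¹ * w⁻¹) = (v * w) * b * v⁻¹ * (b⁻¹ * w⁻¹) := by group
        _ = (w * v) * b * v⁻¹ * (b⁻¹ * w⁻¹) := by rw [hvw]
        _ = w * (v * b * v⁻¹ * b⁻¹) * w⁻¹ := by group
    rw [e]
    exact mul_mem (mul_mem hw (Subgroup.commutator_mem_commutator hv hb.1)) (inv_mem hw)
  refine ⟨⟨hEA, fun X hX => (hA.2 X hX).trans hcard⟩, ?_, ?_⟩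
  · rw [eq_bot_iff]
    have h3 : ⁅(W ⊔ B : Subgroup G), W ⊔ B⁆ = ⊥ := by
      rw [Subgroup.commutator_self_eq_bot_iff]; exact hEA.1
    rw [← h3]
    exact Subgroup.commutator_mono (hVA0.trans le_sup_left) le_rfl
  · intro hne hbot
    apply hT.2.2 hne
    rw [eq_bot_iff, ← hbot]
    exact Subgroup.commutator_mono le_rfl le_sup_right

end Cfsg.Agent.S0607
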