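import Cfsg.Statements.S0609
import Cfsg.Agent.Lib.Helper48.ThompsonMap
import Cfsg.Agent.Lib.Helper22.NormalizerQuot
import Cfsg.Agent.Lib.Lead.Cores

set_option autoImplicit false
open Cfsg

namespace Cfsg.Agent.S0609

open Cfsg.Agent.Lib.Helper48

/-- Thompson factorizability passes to and from the quotient by the largest normal subgroup of order prime to p. -/
theorem result {G : Type*} [Group G] [Finite G] {p : ℕ} [Fact p.Prime] : Cfsg.IsThompsonFactorizable p G ↔ Cfsg.IsThompsonFactorizable p (G ⧸ Cfsg.pPrimeCore p G) := by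
  have hp : p.Prime := Fact.out
  have hN : ¬ p ∣ Nat.card (Cfsg.pPrimeCore p G) := by
    have := Cfsg.Agent.Lib.Lead.card_pPrimeCore_coprime (G := G) p
    rw [Nat.coprime_comm, Nat.Prime.coprime_iff_not_dvd hp] at this
    exact this
  have hker : (QuotientGroup.mk' (Cfsg.pPrimeCore p G)).ker = Cfsg.pPrimeCore p G :=
    QuotientGroup.ker_mk' _
  have hdisj : ∀ S : Sylow p G,
      (S : Subgroup G) ⊓ (QuotientGroup.mk' (Cfsg.pPrimeCore p G)).ker = ⊥ := by
    intro S
    rw [hker]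
    apply Cfsg.Agent.Lib.Helper22.eq_bot_of_isPGroup_of_not_dvd (S.2.to_le inf_le_left)
    exact fun hd => hN (hd.trans (Subgroup.card_dvd_of_le inf_le_right))
  have hJp : ∀ S : Sylow p G, IsPGroup p (Cfsg.thompsonSubgroupOf p (S : Subgroup G)) :=
    fun S => S.2.to_le (Subgroup.map_subtype_le _)
  have hΩp : ∀ S : Sylow p G, IsPGroup p (Cfsg.omegaOne p ((S : Subgroup G) ⊓
      Subgroup.centralizer ((S : Subgroup G) : Set G))) := by
    intro S
    apply S.2.to_le
    unfold Cfsg.omegaOne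
    rw [Subgroup.closure_le]
    rintro x ⟨hx, -⟩
    exact (Subgroup.mem_inf.mp hx).1
  have hC : ∀ S : Sylow p G, Subgroup.centralizer (Cfsg.omegaOne p
      (((S.mapSurjective (QuotientGroup.mk'_surjective (Cfsg.pPrimeCore p G)) :
        Sylow p (G ⧸ Cfsg.pPrimeCore p G)) : Subgroup (G ⧸ Cfsg.pPrimeCore p G)) ⊓
      Subgroup.centralizer (((S.mapSurjective (QuotientGroup.mk'_surjective (Cfsg.pPrimeCore p G)) :
        Sylow p (G ⧸ Cfsg.pPrimeCore p G)) : Subgroup (G ⧸ Cfsg.pPrimeCore p G)) :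
          Set (G ⧸ Cfsg.pPrimeCore p G))) : Set (G ⧸ Cfsg.pPrimeCore p G)) =
      (Subgroup.centralizer (Cfsg.omegaOne p ((S : Subgroup G) ⊓
        Subgroup.centralizer ((S : Subgroup G) : Set G)) : Set G)).map
          (QuotientGroup.mk' (Cfsg.pPrimeCore p G)) := by
    intro S
    rw [Sylow.coe_mapSurjective, omegaOne_center_map _ _ (hdisj S),
      Cfsg.Agent.Lib.Helper22.centralizer_map_mk'_eq _ _ (hΩp S) hN]
  have hNn : ∀ S : Sylow p G, Subgroup.normalizer (Cfsg.thompsonSubgroupOf p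
      ((S.mapSurjective (QuotientGroup.mk'_surjective (Cfsg.pPrimeCore p G)) :
        Sylow p (G ⧸ Cfsg.pPrimeCore p G)) : Subgroup (G ⧸ Cfsg.pPrimeCore p G)) :
          Set (G ⧸ Cfsg.pPrimeCore p G)) =
      (Subgroup.normalizer (Cfsg.thompsonSubgroupOf p (S : Subgroup G) : Set G)).map
          (QuotientGroup.mk' (Cfsg.pPrimeCore p G)) := by
    intro S
    rw [Sylow.coe_mapSurjective, thompsonSubgroupOf_map _ _ (hdisj S),
      Cfsg.Agent.Lib.Helper22.normalizer_map_mk'_eq _ _ (hJp S) hN]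
  constructor
  · intro hf Sb gb
    obtain ⟨S, rfl⟩ := Sylow.mapSurjective_surjective
      (QuotientGroup.mk'_surjective (Cfsg.pPrimeCore p G)) p Sb
    obtain ⟨g, rfl⟩ := QuotientGroup.mk'_surjective _ gb
    obtain ⟨x, hx, c, hc, n, hn, rfl⟩ := hf S g
    refine ⟨1, one_mem _, QuotientGroup.mk' _ c, ?_, QuotientGroup.mk' _ n, ?_, ?_⟩
    · rw [hC]
      exact ⟨c, hc, rfl⟩
    · rw [hNn]
      exact ⟨n, hn, rfl⟩
    · rw [map_mul, map_mul, one_mul]
      have : QuotientGroup.mk' (Cfsg.pPrimeCore p G) x = 1 := by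
        rw [← MonoidHom.mem_ker, hker]
        exact hx
      rw [this, one_mul]
  · intro hf S g
    obtain ⟨x, hx, c, hc, n, hn, hg⟩ := hf
      (S.mapSurjective (QuotientGroup.mk'_surjective (Cfsg.pPrimeCore p G)))
      (QuotientGroup.mk' _ g)
    rw [Cfsg.Agent.Lib.Lead.pPrimeCore_quotient_pPrimeCore, Subgroup.mem_bot] at hx
    subst hx
    rw [hC] at hc
    rw [hNn] at hn
    obtain ⟨c, hc, rfl⟩ := hc
    obtain ⟨n, hn, rfl⟩ := hn
    refine ⟨g * (c * n)⁻¹, ?_, c, hc, n, hn, by group⟩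
    rw [← hker, MonoidHom.mem_ker, map_mul, hg, one_mul, map_inv, map_mul, mul_inv_cancel]

end Cfsg.Agent.S0609
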