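import Cfsg.Statements.S0622
import Cfsg.Agent.Lib.Helper11.StableClosure

set_option autoImplicit false
universe u
open Cfsg

namespace Cfsg.Agent.S0622

open Cfsg.Agent.Lib.Helper11 Subgroup

/-- Basic properties of the stable normal closure W(S) of Ω₁(Z(S)) in a finite p-group: characteristic, squeezed between Ω₁(Z(S)) and Ω₁(Z(J(S))), nontrivial for S ≠ 1, and transported by group isomorphisms. -/
theorem result {S : Type u} [Group S] [Finite S] {p : ℕ} [Fact p.Prime] (hS : IsPGroup p S) : (Cfsg.stableNormalClosure p S).Characteristic ∧ Cfsg.omegaOne p (Subgroup.center S) ≤ Cfsg.stableNormalClosure p S ∧ Cfsg.stableNormalClosure p S ≤ Cfsg.omegaCenterThompson p S ∧ (Nontrivial S → Cfsg.stableNormalClosure p S ≠ ⊥) ∧ ∀ (S' : Type u) [Group S'] (η : S ≃* S'), (Cfsg.stableNormalClosure p S).map η.toMonoidHom = Cfsg.stableNormalClosure p S' := by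
  refine ⟨stableNormalClosure_characteristic p S, omegaOne_center_le_stableNormalClosure p S,
    stableNormalClosure_le_omegaCenterThompson p S, ?_, fun S' _ η => stableNormalClosure_map p η⟩
  intro hnt hbot
  have hc : Nontrivial (center S) := hS.center_nontrivial
  have hcp : IsPGroup p (center S) := hS.to_subgroup _
  obtain ⟨n, hn⟩ := hcp.exists_card_eq
  have hn0 : n ≠ 0 := by
    rintro rfl
    rw [pow_zero] at hn
    have := (Nat.card_eq_one_iff_unique.1 hn).1
    exact not_subsingleton (center S) this
  have hdvd : p ∣ Nat.card (center S) := by rw [hn]; exact dvd_pow_self p hn0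
  obtain ⟨x, hx⟩ := exists_prime_orderOf_dvd_card' p hdvd
  have hx1 : (x : S) ∈ omegaOne p (center S) := by
    apply mem_omegaOne x.2
    have := pow_orderOf_eq_one x
    rw [hx] at this
    exact congrArg Subtype.val this
  have hx2 := omegaOne_center_le_stableNormalClosure p S hx1
  rw [hbot, mem_bot] at hx2
  have hx3 : x = 1 := Subtype.ext hx2
  rw [hx3, orderOf_one] at hx
  exact (Fact.out : p.Prime).one_lt.ne hx

end Cfsg.Agent.S0622
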