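import Cfsg.Statements.S0625
import Cfsg.Agent.Lib.Helper34.PStable3

set_option autoImplicit false
open Cfsg

namespace Cfsg.Agent.S0625

open Cfsg.Agent.Lib.Helper34

/-- A p-separable group with p at least 5 is p-stable in the action sense. -/
theorem result {G : Type*} [Group G] [Finite G] {p : ℕ} [Fact p.Prime] (hp : 5 ≤ p) (hsep : Cfsg.IsPSolvable p G) : Cfsg.IsActionPStable p G := by
  refine ⟨?_, ?_, ?_⟩
  · intro V _ hV
    refine (qStable_of_isPSolvable hp hsep).isPStableOn V ?_
    intro v
    refine ⟨1, Subtype.ext ?_⟩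
    rw [pow_one]
    exact hV.2 v v.2
  · exact QStable.isPStableOnSection _ _
      (qStable_of_isPSolvable hp
        (Cfsg.Agent.Lib.Helper69.isPSolvable_of_surj _ (QuotientGroup.mk'_surjective _) hsep))
      (Cfsg.Agent.Lib.Helper1.pCore_isPGroup p)
  · intro S V _ hV
    refine (qStable_of_isPSolvable hp (Cfsg.Agent.Lib.Helper69.isPSolvable_subgroup _ hsep)).isPStableOn V ?_
    have h1 : IsPGroup p (V.map (Subgroup.normalizer (thompsonSubgroupOf p (S : Subgroup G) : Set G)).subtype) :=
      S.isPGroup'.to_le (hV.trans (Subgroup.map_subtype_le _))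
    intro v
    obtain ⟨k, hk⟩ := h1 ⟨v, v, v.2, rfl⟩
    refine ⟨k, Subtype.ext (Subtype.ext ?_)⟩
    have h2 := congrArg Subtype.val hk
    simpa using h2

end Cfsg.Agent.S0625
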