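import Cfsg.Statements.S0632
import Cfsg.Agent.Lib.Helper11.PStable

set_option autoImplicit false
open Cfsg

namespace Cfsg.Agent.S0632

open Subgroup Cfsg.Agent.Lib.Helper11 Cfsg.Agent.Lib.Lead

/-- For a group with a nontrivial normal p-subgroup, p-stability passes to and from the quotient by the largest normal subgroup of order prime to p. -/
theorem result {G : Type*} [Group G] [Finite G] {p : ℕ} [Fact p.Prime] (hO : Cfsg.pCore p G ≠ ⊥) : Cfsg.IsPStable p G ↔ Cfsg.IsPStable p (G ⧸ Cfsg.pPrimeCore p G) := by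
  rw [isPStable_iff, isPStable_iff]
  have hO' : pCore p (G ⧸ pPrimeCore p G) ≠ ⊥ := by
    intro h
    apply hO
    have h1 : (pCore p G).map (QuotientGroup.mk' (pPrimeCore p G)) ≤ pCore p (G ⧸ pPrimeCore p G) :=
      le_pCore (Normal.map inferInstance _ (QuotientGroup.mk'_surjective _)) ((pCore_isPGroup p G).map _)
    rw [h, le_bot_iff, Subgroup.map_eq_bot_iff, QuotientGroup.ker_mk'] at h1
    rw [eq_bot_iff, ← pCore_inf_pPrimeCore (p := p) (G := G)]
    exact le_inf le_rfl h1
  constructor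
  · rintro ⟨h1, -, h3⟩
    exact ⟨h1, hO', h3.quotient⟩
  · rintro ⟨h1, -, h3⟩
    exact ⟨h1, hO, h3.of_quotient⟩

end Cfsg.Agent.S0632
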