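import Cfsg.Statements.S0634
import Cfsg.Agent.Lib.Helper76.PSolvable

set_option autoImplicit false
open Cfsg

namespace Cfsg.Agent.S0634

open Cfsg.Agent.Lib.Helper76 Cfsg.Agent.Lib.Lead

theorem pPrimeCore_quotient_comap {G : Type*} [Group G] [Finite G] (p : ℕ) (N : Subgroup G) [N.Normal]
    (U : Subgroup G) [U.Normal] (hU : U = (pPrimeCore p (G ⧸ N)).comap (QuotientGroup.mk' N)) :
    pPrimeCore p (G ⧸ U) = ⊥ := by
  set L := pPrimeCore p (G ⧸ U) with hL
  let L' := L.comap (QuotientGroup.mk' U)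
  let L'' := L'.map (QuotientGroup.mk' N)
  have hNU : N ≤ U := by
    rw [hU]
    intro x hx
    rw [Subgroup.mem_comap]
    have : QuotientGroup.mk' N x = 1 := (QuotientGroup.eq_one_iff x).mpr hx
    rw [this]
    exact Subgroup.one_mem _
  have hUL : U ≤ L' := by
    intro x hx
    rw [Subgroup.mem_comap]
    have : QuotientGroup.mk' U x = 1 := (QuotientGroup.eq_one_iff x).mpr hx
    rw [this]
    exact Subgroup.one_mem _
  have hL'n : L'.Normal := Subgroup.Normal.comap inferInstance _
  have hL''n : L''.Normal := hL'n.map _ (QuotientGroup.mk'_surjective N)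
  have hcomap : L''.comap (QuotientGroup.mk' N) = L' := by
    apply Subgroup.comap_map_eq_self
    rw [QuotientGroup.ker_mk']
    exact hNU.trans hUL
  have c1 : Nat.card L' = Nat.card U * Nat.card L := card_comap_mk' U L
  have c2 : Nat.card L' = Nat.card N * Nat.card L'' := by
    rw [← hcomap]
    exact card_comap_mk' N L''
  have c3 : Nat.card U = Nat.card N * Nat.card (pPrimeCore p (G ⧸ N)) := by
    rw [hU]
    exact card_comap_mk' N _
  have c4 : Nat.card L'' = Nat.card (pPrimeCore p (G ⧸ N)) * Nat.card L := by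
    have : Nat.card N * Nat.card L'' = Nat.card N * (Nat.card (pPrimeCore p (G ⧸ N)) * Nat.card L) := by
      rw [← c2, c1, c3, mul_assoc]
    exact Nat.eq_of_mul_eq_mul_left Nat.card_pos this
  have hcop : (Nat.card L'').Coprime p := by
    rw [c4]
    exact Nat.Coprime.mul_left (card_pPrimeCore_coprime p) (card_pPrimeCore_coprime p)
  have h1 : L'' ≤ pPrimeCore p (G ⧸ N) := le_pPrimeCore hL''n hcop
  have h2 : L' ≤ U := by
    rw [hU, ← hcomap]
    exact Subgroup.comap_mono h1
  rw [eq_bot_iff]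
  intro y hy
  obtain ⟨x, rfl⟩ := QuotientGroup.mk'_surjective U y
  have : x ∈ L' := hy
  exact (QuotientGroup.eq_one_iff x).mpr (h2 this)

theorem upper_odd {G : Type*} [Group G] (p : ℕ) (k : ℕ) :
    (Cfsg.upperPSeries p G (2 * k + 1)).1 =
      (pPrimeCore p (G ⧸ (Cfsg.upperPSeries p G (2 * k)).1)).comap (QuotientGroup.mk' _) := by
  rw [Cfsg.upperPSeries]
  simp

theorem upper_even {G : Type*} [Group G] (p : ℕ) (k : ℕ) :
    (Cfsg.upperPSeries p G (2 * k + 2)).1 =
      (pCore p (G ⧸ (Cfsg.upperPSeries p G (2 * k + 1)).1)).comap (QuotientGroup.mk' _) := by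
  rw [Cfsg.upperPSeries]
  have : ¬ Even (2 * k + 1) := by simp
  simp [this]

theorem result {G : Type*} [Group G] [Finite G] {p : ℕ} [Fact p.Prime] (hsol : Cfsg.IsPSolvable p G) (k : ℕ) : Subgroup.centralizer ((((Cfsg.upperPSeries p G (2 * k + 2)).1.map (QuotientGroup.mk' (Cfsg.upperPSeries p G (2 * k + 1)).1)) : Subgroup (G ⧸ (Cfsg.upperPSeries p G (2 * k + 1)).1)) : Set (G ⧸ (Cfsg.upperPSeries p G (2 * k + 1)).1)) ≤ (Cfsg.upperPSeries p G (2 * k + 2)).1.map (QuotientGroup.mk' (Cfsg.upperPSeries p G (2 * k + 1)).1) := by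
  rw [upper_even, Subgroup.map_comap_eq_self_of_surjective (QuotientGroup.mk'_surjective _)]
  exact centralizer_pCore_le (isPSolvable_quotient _ hsol)
    (pPrimeCore_quotient_comap p _ _ (upper_odd p k))

end Cfsg.Agent.S0634
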