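import Cfsg.Statements.S0635
import Cfsg.Agent.Lib.Helper63.PLength2

set_option autoImplicit false
open Cfsg
open Cfsg.Agent.Lib.Helper63

namespace Cfsg.Agent.S0635

universe u

theorem aux (p : ℕ) [hp : Fact p.Prime] (c : ℕ) :
    ∀ (G : Type u) [Group G] [Finite G], IsPSolvable p G → ∀ S : Sylow p G,
      (S : Subgroup G).lowerCentralSeries c = ⊥ → PLengthLE p c G := by
  induction c with
  | zero =>
    intro G _ _ _ S hS
    rw [Subgroup.lowerCentralSeries_zero] at hS
    apply pLengthLE_zero_of_coprime
    have h1 := S.not_dvd_index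
    rw [hS, Subgroup.index_bot] at h1
    exact ((Nat.Prime.coprime_iff_not_dvd hp.out).mpr h1).symm
  | succ c ih =>
    intro G _ _ hsol S hS
    have hsurj := QuotientGroup.mk'_surjective (ups p G 2)
    apply PLengthLE.of_quotient_ups_two hp.out
    apply ih _ (Cfsg.Agent.Lib.Helper76.isPSolvable_quotient _ hsol) (S.mapSurjective hsurj)
    rw [Sylow.coe_mapSurjective, ← Subgroup.map_lowerCentralSeries, Subgroup.map_eq_bot_iff,
      QuotientGroup.ker_mk']
    refine le_trans ?_ (center_sylow_le_ups_two hsol S)
    apply le_inf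
    · exact Subgroup.lowerCentralSeries_antitone _ (Nat.zero_le c)
    · rw [Subgroup.lowerCentralSeries_succ, Subgroup.commutator_eq_bot_iff_le_centralizer] at hS
      exact hS

/-- The p-length of a p-soluble group is at most the nilpotency class of its Sylow p-subgroups. -/
theorem result {G : Type*} [Group G] [Finite G] {p : ℕ} [Fact p.Prime] (hsol : Cfsg.IsPSolvable p G) (S : Sylow p G) : Cfsg.PLengthLE p (Group.nilpotencyClass ↥(S : Subgroup G)) G := by
  apply aux p _ G hsol S
  have : Group.IsNilpotent ↥(S : Subgroup G) := S.2.isNilpotent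
  rw [← Subgroup.top_subtype_lowerCentralSeries, Subgroup.lowerCentralSeries_nilpotencyClass, Subgroup.map_bot]

end Cfsg.Agent.S0635
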