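import Cfsg.Statements.S0640
import Cfsg.Agent.Lib.Helper24.Rank2Main

set_option autoImplicit false
set_option linter.style.haveILetI false
open Cfsg
open Cfsg.Agent.Lib.Helper24

namespace Cfsg.Agent.S0640

theorem arith {p q : ℕ} (hp : p.Prime) (hq : q.Prime) (hp2 : p ≠ 2) (hqp : q ≠ p)
    (h : q ∣ (p ^ 2 - 1) * (p ^ 2 - p)) : q ∣ p ^ 2 - 1 ∧ q < p := by
  have hpo : Odd p := hp.odd_of_ne_two hp2
  have h2 : p ^ 2 - 1 = (p + 1) * (p - 1) := by
    have := Nat.sq_sub_sq p 1
    rwa [one_pow] at this
  have h3 : p ^ 2 - p = p * (p - 1) := by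
    rw [Nat.mul_sub, mul_one, sq]
  have hp1 : 0 < p - 1 := by have := hp.two_le; omega
  have hd : q ∣ (p + 1) * (p - 1) := by
    rw [h2, h3] at h
    rcases (Nat.Prime.dvd_mul hq).1 h with h | h
    · exact h
    · rcases (Nat.Prime.dvd_mul hq).1 h with h | h
      · exact absurd ((Nat.prime_dvd_prime_iff_eq hq hp).1 h) hqp
      · exact Dvd.dvd.mul_left h _
  refine ⟨h2 ▸ hd, ?_⟩
  rcases (Nat.Prime.dvd_mul hq).1 hd with h | h
  · obtain ⟨c, hc⟩ := h
    have hc0 : c ≠ 0 := by rintro rfl; simp at hc
    by_cases hc1 : c = 1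
    · subst hc1
      rw [mul_one] at hc
      have hev : Even q := hc ▸ hpo.add_one
      have : q = 2 := (Nat.Prime.even_iff hq).1 hev
      have := hp.two_le
      omega
    · have : q * 2 ≤ q * c := Nat.mul_le_mul_left q (by omega)
      have := hp.two_le
      omega
  · have := Nat.le_of_dvd hp1 h
    omega

/-- For odd p, a prime q ≠ p dividing the order of the automorphism group of a p-group of rank at most 2 divides p² - 1 and is less than p. -/
theorem result {R : Type*} [Group R] [Finite R] {p : ℕ} [Fact p.Prime] (hp : p ≠ 2) (hR : IsPGroup p R) (hrk : Cfsg.PRankLE p 2 R) (q : ℕ) (hq : q.Prime) (hqp : q ≠ p) (hdvd : q ∣ Nat.card (MulAut R)) : q ∣ p ^ 2 - 1 ∧ q < p := by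
  have hpp : p.Prime := Fact.out
  haveI : Finite (MulAut R) := Finite.of_injective (fun e : MulAut R => (e : R → R)) DFunLike.coe_injective
  haveI : Fact q.Prime := ⟨hq⟩
  obtain ⟨α, hα⟩ := exists_prime_orderOf_dvd_card' q hdvd
  let G := R ⋊[MonoidHom.id (MulAut R)] MulAut R
  haveI : Finite G := Finite.of_equiv _ SemidirectProduct.equivProd.symm
  let i : R →* G := SemidirectProduct.inl
  have hi : Function.Injective i := SemidirectProduct.inl_injective
  haveI hn : (i.range).Normal := by
    rw [SemidirectProduct.range_inl_eq_ker_rightHom]; infer_instance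
  have hconj : ∀ n : R, (SemidirectProduct.inr α : G) * i n * (SemidirectProduct.inr α : G)⁻¹ = i (α n) := by
    intro n
    have := SemidirectProduct.inl_aut (φ := MonoidHom.id (MulAut R)) α n
    rw [map_inv] at this
    exact this.symm
  apply arith hpp hq hp hqp
  apply rank2_prime p hp i.range (hR.of_surjective i.rangeRestrict i.rangeRestrict_surjective) _
    (SemidirectProduct.inr α : G) (by rw [Subgroup.normalizer_eq_top]; trivial) q hq hqp
  · rw [← map_pow, ← hα, pow_orderOf_eq_one, map_one]
  · intro hc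
    have h1 : α = 1 := by
      apply MulEquiv.ext
      intro n
      have h2 := (Subgroup.mem_centralizer_iff.1 hc) (i n) ⟨n, rfl⟩
      apply hi
      rw [← hconj n, ← h2]
      simp
    rw [h1, orderOf_one] at hα
    exact hq.one_lt.ne hα
  · intro F hF hFc hFp
    have h1 := hrk (F.comap i)
      ⟨⟨by
        rintro ⟨a, ha⟩ ⟨b, hb⟩
        apply Subtype.ext
        apply hi
        show i (a * b) = i (b * a)
        rw [map_mul, map_mul]
        exact congrArg Subtype.val (hFc.is_comm.comm ⟨i a, ha⟩ ⟨i b, hb⟩)⟩⟩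
      (by
        intro a ha
        apply hi
        rw [map_pow, map_one]
        exact hFp _ ha)
    rwa [← Subgroup.card_map_of_injective hi, Subgroup.map_comap_eq_self hF] at h1

end Cfsg.Agent.S0640
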