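import Cfsg.Statements.S0642
import Cfsg.Agent.Lib.Helper11.Regular

set_option autoImplicit false
open Cfsg

namespace Cfsg.Agent.S0642

open Subgroup Cfsg.Agent.Lib.Helper11
open scoped commutatorElement

/-- Among finite 2-groups the regular ones are exactly the abelian ones. -/
theorem result {G : Type*} [Group G] [Finite G] (hG : IsPGroup 2 G) : Cfsg.IsRegularPGroup 2 G ↔ ∀ a b : G, a * b = b * a := by
  have : Fact (Nat.Prime 2) := ⟨Nat.prime_two⟩
  rw [isRegularPGroup_iff]
  constructor
  · rintro ⟨-, hreg⟩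
    have hle : ⁅(⊤ : Subgroup G), (⊤ : Subgroup G)⁆ ≤ powerClosure 2 1 ⁅(⊤ : Subgroup G), (⊤ : Subgroup G)⁆ := by
      have hn : (powerClosure 2 1 ⁅(⊤ : Subgroup G), (⊤ : Subgroup G)⁆).Normal := by
        apply normalizer_eq_top_iff.1
        rw [eq_top_iff]
        refine le_trans ?_ (normalizer_le_normalizer_powerClosure 2 1 _)
        rw [normalizer_eq_top_iff.2 inferInstance]
      rw [commutator_le]
      intro a _ b _
      obtain ⟨c, hc, e⟩ := hreg 1 b a
      have hc' : c ∈ powerClosure 2 1 ⁅(⊤ : Subgroup G), (⊤ : Subgroup G)⁆ :=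
        powerClosure_mono 2 1 (commutator_mono le_top le_top) hc
      have e2 : ⁅a, b⁆ = (b * a * a) * c * (b * a * a)⁻¹ := by
        have e3 : c = (b * b * (a * a))⁻¹ * (b * a * (b * a)) := by
          rw [pow_one, pow_two, pow_two, pow_two] at e
          rw [e]; group
        rw [e3, commutatorElement_def]
        group
      rw [e2]
      exact hn.conj_mem c hc' _
    have hbot : ⁅(⊤ : Subgroup G), (⊤ : Subgroup G)⁆ = ⊥ := by
      by_contra hne
      exact absurd hle (not_le_of_gt (powerClosure_one_lt (hG.to_subgroup _) hne))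
    intro a b
    have h1 : ⁅a, b⁆ ∈ ⁅(⊤ : Subgroup G), (⊤ : Subgroup G)⁆ := commutator_mem_commutator (mem_top a) (mem_top b)
    rw [hbot, mem_bot, commutatorElement_eq_one_iff_mul_comm] at h1
    exact h1
  · intro h
    refine ⟨hG, fun n a b => ⟨1, one_mem _, ?_⟩⟩
    rw [mul_one, (show Commute a b from h a b).mul_pow]

end Cfsg.Agent.S0642
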