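import Cfsg.Statements.S0646
import Cfsg.Agent.Lib.Helper73.Cyc2

set_option autoImplicit false
open Cfsg

namespace Cfsg.Agent.S0646

open Cfsg.Agent.Lib.Helper73

theorem result {G : Type*} [Group G] [Finite G] (n : ℕ) (hn : 3 ≤ n) (hG : Nat.card G = 2 ^ n) (C : Subgroup G) (hC : IsCyclic C) (hCi : C.index = 2) (hna : ∃ x y : G, x * y ≠ y * x) : ∃ a b : G, orderOf a = 2 ^ (n - 1) ∧ b ∉ Subgroup.zpowers a ∧ ((b ^ 2 = 1 ∧ b * a * b⁻¹ = a⁻¹) ∨ (b ^ 2 = a ^ (2 ^ (n - 2)) ∧ b * a * b⁻¹ = a⁻¹) ∨ (4 ≤ n ∧ b ^ 2 = 1 ∧ b * a * b⁻¹ = a ^ (1 + 2 ^ (n - 2))) ∨ (4 ≤ n ∧ b ^ 2 = 1 ∧ b * a * b⁻¹ = a ^ (2 ^ (n - 2) - 1))) := by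
  obtain ⟨m, rfl⟩ : ∃ m, n = m + 3 := ⟨n - 3, by omega⟩
  obtain ⟨c, hc⟩ := hC.exists_generator
  have hCz : Subgroup.zpowers (c : G) = C := by
    ext x
    constructor
    · intro hx
      exact (Subgroup.zpowers_le.mpr c.2) hx
    · intro hx
      obtain ⟨j, hj⟩ := Subgroup.mem_zpowers_iff.mp (hc ⟨x, hx⟩)
      exact Subgroup.mem_zpowers_iff.mpr ⟨j, by simpa using congrArg Subtype.val hj⟩
  have hcard : Nat.card C = 4 * 2 ^ m := by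
    have := C.card_mul_index
    rw [hCi, hG] at this
    have e : 2 ^ (m + 3) = 4 * 2 ^ m * 2 := by ring
    omega
  have ha : orderOf (c : G) = 4 * 2 ^ m := by
    rw [← Nat.card_zpowers, hCz, hcard]
  obtain ⟨b, hb, h⟩ := cyc2_classify (c : G) m (2 ^ m) rfl ha (by rw [hCz]; exact hCi) hna
  have e1 : 2 ^ (m + 3 - 1) = 4 * 2 ^ m := by
    have : m + 3 - 1 = m + 2 := by omega
    rw [this]; ring
  have e2 : 2 ^ (m + 3 - 2) = 2 * 2 ^ m := by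
    have : m + 3 - 2 = m + 1 := by omega
    rw [this]; ring
  have e3 : 2 ≤ 2 ^ m → 4 ≤ m + 3 := by
    intro h2
    rcases m with _ | m
    · simp at h2
    · omega
  refine ⟨c, b, by rw [ha, e1], hb, ?_⟩
  rw [e2]
  rcases h with h | h | ⟨h0, h⟩ | ⟨h0, h⟩
  · exact Or.inl h
  · exact Or.inr (Or.inl h)
  · exact Or.inr (Or.inr (Or.inl ⟨e3 h0, h⟩))
  · exact Or.inr (Or.inr (Or.inr ⟨e3 h0, h⟩))

end Cfsg.Agent.S0646
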