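import Cfsg.Statements.S0656
import Mathlib
import Cfsg.Agent.Lib.Helper1.SL2Free
import Cfsg.Agent.S0274

set_option autoImplicit false
open Cfsg

namespace Cfsg.Agent.S0656


/-- For odd p, a faithful group on an elementary abelian p-group with no nontrivial normal p-subgroup in which some nontrivial p-element acts quadratically has a section isomorphic to SL(2, p). -/
theorem result {G : Type*} [Group G] [Finite G] {p : ℕ} [Fact p.Prime] (hp : p ≠ 2) (V H : Subgroup G) (hV : Cfsg.IsElementaryAbelian p V) (hHV : H ≤ Subgroup.normalizer (V : Set G)) (hf : H ⊓ Subgroup.centralizer (V : Set G) = ⊥) (hO : Cfsg.pCore p ↥H = ⊥) (x : G) (hxH : x ∈ H) (hx1 : x ≠ 1) (hxp : ∃ k : ℕ, orderOf x = p ^ k) (hq : ⁅⁅V, Subgroup.zpowers x⁆, Subgroup.zpowers x⁆ = ⊥) : ∃ (K L : Subgroup G) (hL : (L.subgroupOf K).Normal), K ≤ H ∧ Nonempty ((K ⧸ L.subgroupOf K) ≃* Matrix.SpecialLinearGroup (Fin 2) (ZMod p)) := by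
  have hD : Cfsg.Agent.Lib.Helper1.QuadSL2.DicksonHyp p := fun F _ _ _ H h => Cfsg.Agent.S0274.result p hp H h
  by_contra hcon
  have hfree : ¬ Cfsg.Involves (Matrix.SpecialLinearGroup (Fin 2) (ZMod p)) ↥H := fun hc =>
    hcon (Cfsg.Agent.Lib.Helper1.SL2Free.exists_section_le_of_involves H hc)
  have h1 := Cfsg.Agent.Lib.Helper1.SL2Free.mem_pCore_of_quadratic hD V H hV hHV hf hfree x hxH hq
  rw [hO, Subgroup.map_bot, Subgroup.mem_bot] at h1
  exact hx1 h1

end Cfsg.Agent.S0656
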