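import Cfsg.Statements.S0657
import Mathlib
import Cfsg.Agent.Lib.Helper1.SL2Free
import Cfsg.Agent.S0274

set_option autoImplicit false
open Cfsg

namespace Cfsg.Agent.S0657


/-- For odd p, a group that fails to be p-stable modulo its largest normal subgroup of order prime to p, and whose upper p-series does not stop there, has a section isomorphic to SL(2, p). -/
theorem result {G : Type*} [Group G] [Finite G] {p : ℕ} [Fact p.Prime] (hp : p ≠ 2) (hO : Cfsg.pPrimeCore p G < Cfsg.pPrimePCore p G) (hns : ¬ Cfsg.IsPStable p (G ⧸ Cfsg.pPrimeCore p G)) : ∃ (K L : Subgroup G) (hL : (L.subgroupOf K).Normal), K ≤ ⊤ ∧ Nonempty ((K ⧸ L.subgroupOf K) ≃* Matrix.SpecialLinearGroup (Fin 2) (ZMod p)) := by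
  have hD : Cfsg.Agent.Lib.Helper1.QuadSL2.DicksonHyp p := fun F _ _ _ H h => Cfsg.Agent.S0274.result p hp H h
  by_contra hcon
  have hfree : ¬ Cfsg.Involves (Matrix.SpecialLinearGroup (Fin 2) (ZMod p)) G := by
    rintro ⟨K, L, hL, hN⟩
    exact hcon ⟨K, L, hL, le_top, hN⟩
  apply hns
  refine ⟨(Fact.out : p.Prime).odd_of_ne_two hp, ?_, ?_⟩
  · intro hbot
    apply hO.ne
    unfold Cfsg.pPrimePCore
    rw [hbot, MonoidHom.comap_bot, QuotientGroup.ker_mk']
  · intro A P hA hP hAP hPle hn hquad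
    rintro _ ⟨⟨a, haN⟩, haA, rfl⟩
    refine Cfsg.Agent.Lib.Helper34.QStable.mk_mem_pCore_normalizer P ?_ hP a haN
      (Cfsg.Agent.Lib.Helper34.quadOn_of_commutator_le hquad haA)
    apply Cfsg.Agent.Lib.Helper1.QuadSL2.qStable_of_sl2_free hD
    intro hc
    exact hfree (Cfsg.Agent.Lib.Helper33.involves_quotient _ (Cfsg.Agent.Lib.Helper33.involves_subgroup _ hc))

end Cfsg.Agent.S0657
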