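import Cfsg.Statements.S0662
import Cfsg.Agent.S0012
import Cfsg.Agent.Lib.Helper63.AbIndexP

set_option autoImplicit false
open Cfsg

namespace Cfsg.Agent.S0662

open Subgroup Cfsg.Agent.Lib.Helper63
open scoped commutatorElement

section
variable {G : Type*} [Group G]

/-- lower central series of the whole group. -/
abbrev γ (G : Type*) [Group G] (k : ℕ) : Subgroup G := (⊤ : Subgroup G).lowerCentralSeries k

lemma γ_class [Group.IsNilpotent G] : γ G (Group.nilpotencyClass G) = ⊥ :=
  Subgroup.lowerCentralSeries_nilpotencyClass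

lemma γ_eq_bot_iff [Group.IsNilpotent G] {n : ℕ} : γ G n = ⊥ ↔ Group.nilpotencyClass G ≤ n :=
  Subgroup.lowerCentralSeries_eq_bot_iff_nilpotencyClass_le

lemma γ_one : γ G 1 = commutator G := Subgroup.top_lowerCentralSeries_one

lemma stable {k : ℕ} (h : γ G (k + 1) = γ G k) : ∀ j, γ G (k + j) = γ G k
  | 0 => rfl
  | j + 1 => by
    have : γ G (k + (j + 1)) = ⁅γ G (k + j), (⊤ : Subgroup G)⁆ := rfl
    rw [this, stable h j]
    exact h

lemma lt_of_lt_class [Group.IsNilpotent G] {i : ℕ} (hi : i < Group.nilpotencyClass G) :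
    γ G (i + 1) < γ G i := by
  refine lt_of_le_of_ne (Subgroup.lowerCentralSeries_antitone ⊤ (Nat.le_succ i)) ?_
  intro h
  have h1 := stable h (Group.nilpotencyClass G)
  have h2 : γ G (i + Group.nilpotencyClass G) ≤ γ G (Group.nilpotencyClass G) :=
    Subgroup.lowerCentralSeries_antitone ⊤ (Nat.le_add_left _ _)
  rw [h1, γ_class, le_bot_iff, γ_eq_bot_iff] at h2
  omega

variable [Finite G] {p : ℕ} [hp : Fact p.Prime]

lemma step (hP : IsPGroup p G) [Group.IsNilpotent G] {i : ℕ} (hi : i < Group.nilpotencyClass G) :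
    p * (γ G i).index ∣ (γ G (i + 1)).index := by
  have hlt := lt_of_lt_class hi
  rw [← Subgroup.relIndex_mul_index hlt.le]
  apply Nat.mul_dvd_mul_right
  obtain ⟨n, hn⟩ := IsPGroup.iff_card.mp hP
  have h1 : (γ G (i + 1)).relIndex (γ G i) ∣ p ^ n := by
    rw [← hn]
    exact (Dvd.intro _ (Subgroup.relIndex_mul_index hlt.le)).trans (Subgroup.index_dvd_card _)
  obtain ⟨j, -, hj⟩ := (Nat.dvd_prime_pow hp.out).mp h1
  have hj0 : j ≠ 0 := by
    rintro rfl
    rw [pow_zero, Subgroup.relIndex_eq_one] at hj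
    exact absurd hj (not_le_of_gt hlt)
  rw [hj]
  exact dvd_pow_self p hj0

lemma steps (hP : IsPGroup p G) [Group.IsNilpotent G] (k : ℕ) :
    ∀ j, k + j ≤ Group.nilpotencyClass G → p ^ j * (γ G k).index ∣ (γ G (k + j)).index
  | 0, _ => by simp
  | j + 1, h => by
    have h1 := steps hP k j (by omega)
    have h2 := step hP (i := k + j) (by omega)
    calc p ^ (j + 1) * (γ G k).index = p * (p ^ j * (γ G k).index) := by ring
      _ ∣ p * (γ G (k + j)).index := Nat.mul_dvd_mul_left p h1
      _ ∣ _ := h2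

lemma comm_eq_bot_of_sup (hP : IsPGroup p G) {x : G} (h : γ G 1 ⊔ zpowers x = ⊤) :
    γ G 1 = ⊥ := by
  have h1 : γ G 1 ≤ frattini G := by
    rw [γ_one]
    exact (Cfsg.Agent.S0012.result p hP).1
  have h2 : zpowers x ⊔ frattini G = ⊤ := by
    apply top_le_iff.mp
    calc (⊤ : Subgroup G) = γ G 1 ⊔ zpowers x := h.symm
      _ ≤ frattini G ⊔ zpowers x := sup_le_sup_right h1 _
      _ = zpowers x ⊔ frattini G := sup_comm _ _
  have h3 : zpowers x = ⊤ := frattini_nongenerating h2
  rw [γ_one, commutator_eq_closure, closure_eq_bot_iff]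
  rintro _ ⟨a, b, rfl⟩
  have ha : a ∈ zpowers x := h3 ▸ mem_top a
  have hb : b ∈ zpowers x := h3 ▸ mem_top b
  obtain ⟨i, rfl⟩ := ha
  obtain ⟨j, rfl⟩ := hb
  rw [Set.mem_singleton_iff, commutatorElement_eq_one_iff_mul_comm, ← zpow_add, ← zpow_add,
    add_comm]

lemma sq_dvd (hP : IsPGroup p G) [Group.IsNilpotent G] (hc : 2 ≤ Group.nilpotencyClass G) :
    p ^ 2 ∣ (γ G 1).index := by
  obtain ⟨n, hn⟩ := IsPGroup.iff_card.mp hP
  have h1 : (γ G 1).index ∣ p ^ n := hn ▸ Subgroup.index_dvd_card _
  obtain ⟨j, -, hj⟩ := (Nat.dvd_prime_pow hp.out).mp h1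
  have hlt : γ G 1 < γ G 0 := lt_of_lt_class (by omega)
  have hne : γ G 1 ≠ ⊥ := by
    intro h
    rw [γ_eq_bot_iff] at h
    omega
  have hj0 : j ≠ 0 := by
    rintro rfl
    rw [pow_zero, Subgroup.index_eq_one] at hj
    rw [hj] at hlt
    exact absurd le_top (not_le_of_gt hlt)
  have hj1 : j ≠ 1 := by
    rintro rfl
    rw [pow_one] at hj
    obtain ⟨x, -, hx⟩ := SetLike.exists_of_lt hlt
    exact hne (comm_eq_bot_of_sup hP (sup_zpowers_eq_top hp.out hj hx))
  rw [hj]
  exact pow_dvd_pow p (by omega)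

/-- the class of a group of order `p ^ r`, `r ≥ 2`, is at most `r - 1`. -/
lemma lcs_eq_bot (hP : IsPGroup p G) {r : ℕ} (hr : 2 ≤ r) (hcard : Nat.card G = p ^ r) :
    γ G (r - 1) = ⊥ := by
  have : Group.IsNilpotent G := hP.isNilpotent
  rw [γ_eq_bot_iff]
  by_contra hcon
  have hc : 2 ≤ Group.nilpotencyClass G := by omega
  obtain ⟨c, hc'⟩ : ∃ c, Group.nilpotencyClass G = 1 + c := ⟨Group.nilpotencyClass G - 1, by omega⟩
  have h1 := steps hP 1 c (by omega)
  rw [← hc', γ_class, Subgroup.index_bot, hcard] at h1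
  have h2 : p ^ (c + 2) ∣ p ^ r := by
    rw [pow_add]
    exact (Nat.mul_dvd_mul_left _ (sq_dvd hP hc)).trans h1
  have := (Nat.pow_dvd_pow_iff_le_right hp.out.one_lt).mp h2
  omega

/-- indices of the lower central series in a group of maximal class. -/
lemma index_lcs (n : ℕ) (hG : Nat.card G = p ^ n) (hcl : Group.nilpotencyClass G = n - 1)
    (hn : 3 ≤ n) (k : ℕ) (hk1 : 1 ≤ k) (hk : k ≤ n - 1) : (γ G k).index = p ^ (k + 1) := by
  have hP : IsPGroup p G := IsPGroup.of_card hG
  have : Group.IsNilpotent G := hP.isNilpotent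
  apply Nat.dvd_antisymm
  · have h1 := steps hP k (n - 1 - k) (by omega)
    have e : k + (n - 1 - k) = Group.nilpotencyClass G := by omega
    rw [e, γ_class, Subgroup.index_bot, hG] at h1
    have e2 : p ^ n = p ^ (n - 1 - k) * p ^ (k + 1) := by
      rw [← pow_add]; congr 1; omega
    rw [e2] at h1
    exact Nat.dvd_of_mul_dvd_mul_left (pow_pos hp.out.pos _) h1
  · have h1 := steps hP 1 (k - 1) (by omega)
    have e : 1 + (k - 1) = k := by omega
    rw [e] at h1
    have e2 : p ^ (k + 1) = p ^ (k - 1) * p ^ 2 := by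
      rw [← pow_add]; congr 1; omega
    rw [e2]
    exact (Nat.mul_dvd_mul_left _ (sq_dvd hP (by omega))).trans h1

end

/-- In a p-group of maximal class of order at least p³ the normal subgroups of index at least p² are exactly the terms of the lower central series, and there are exactly p + 1 normal subgroups of index p. -/
theorem result {G : Type*} [Group G] [Finite G] {p : ℕ} [Fact p.Prime] (n : ℕ) (hG : Nat.card G = p ^ n) (hcl : Group.nilpotencyClass G = n - 1) (hn : 3 ≤ n) : (∀ (N : Subgroup G) [N.Normal] (r : ℕ), 2 ≤ r → N.index = p ^ r → N = (⊤ : Subgroup G).lowerCentralSeries (r - 1)) ∧ Nat.card {N : Subgroup G // N.Normal ∧ N.index = p} = p + 1 := by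
  have hp : p.Prime := Fact.out
  have hP : IsPGroup p G := IsPGroup.of_card hG
  have hnil : Group.IsNilpotent G := hP.isNilpotent
  constructor
  · intro N hN r hr hNr
    have hQ : Nat.card (G ⧸ N) = p ^ r := by rw [← Subgroup.index_eq_card, hNr]
    have h1 := lcs_eq_bot (hP.to_quotient N) hr hQ
    have h2 : (γ G (r - 1)).map (QuotientGroup.mk' N) = γ (G ⧸ N) (r - 1) := by
      show ((⊤ : Subgroup G).lowerCentralSeries (r - 1)).map (QuotientGroup.mk' N) = _
      rw [Subgroup.map_lowerCentralSeries,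
        Subgroup.map_top_of_surjective _ (QuotientGroup.mk'_surjective N)]
    rw [h1, Subgroup.map_eq_bot_iff, QuotientGroup.ker_mk'] at h2
    have hrn : r ≤ n := by
      have : p ^ r ∣ p ^ n := by rw [← hNr, ← hG]; exact Subgroup.index_dvd_card N
      exact (Nat.pow_dvd_pow_iff_le_right hp.one_lt).mp this
    have h3 := index_lcs n hG hcl hn (r - 1) (by omega) (by omega)
    have e : r - 1 + 1 = r := by omega
    rw [e] at h3
    exact (eq_of_le_of_index_eq h2 (h3.trans hNr.symm)).symm
  · classical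
    set D : Subgroup G := γ G 1 with hD
    have hDi : D.index = p ^ 2 := index_lcs n hG hcl hn 1 le_rfl (by omega)
    have hDne : D ≠ ⊥ := by
      intro h
      rw [hD, γ_eq_bot_iff] at h
      omega
    have hDc : D = commutator G := γ_one
    let 𝓑 := {N : Subgroup G // N.Normal ∧ N.index = p}
    have hle : ∀ B : 𝓑, D ≤ B.1 := by
      intro B
      have := B.2.1
      rw [hDc, ← Subgroup.Normal.quotient_commutative_iff_commutator_le]
      have hc : IsCyclic (G ⧸ B.1) :=
        isCyclic_of_prime_card (p := p) (by rw [← Subgroup.index_eq_card, B.2.2])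
      exact ⟨⟨fun a b => IsCyclic.commGroup.mul_comm a b⟩⟩
    have hnormal : ∀ C : Subgroup G, D ≤ C → C.Normal := by
      intro C hC
      constructor
      intro c hc g
      have : g * c * g⁻¹ = ⁅g, c⁆ * c := by rw [commutatorElement_def]; group
      rw [this]
      refine mul_mem (hC ?_) hc
      rw [hDc]
      exact Subgroup.commutator_mem_commutator (mem_top _) (mem_top _)
    have hidx : ∀ x : G, x ∉ D → (D ⊔ zpowers x).index = p := by
      intro x hx
      apply index_eq_of_between hp hDi le_sup_left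
      · intro h
        exact hx (h (mem_sup_right (mem_zpowers x)))
      · intro h
        exact hDne (comm_eq_bot_of_sup hP h)
    let f : {x : G // x ∉ D} → 𝓑 := fun x =>
      ⟨D ⊔ zpowers x.1, hnormal _ le_sup_left, hidx x.1 x.2⟩
    have : Fintype 𝓑 := Fintype.ofFinite _
    have hz := D.card_mul_index
    rw [hDi] at hz
    have hfib : ∀ B : 𝓑, Nat.card {x // f x = B} + Nat.card D = p * Nat.card D := by
      intro B
      have hZB : D ≤ B.1 := hle B
      have hB := B.1.card_mul_index
      rw [B.2.2, ← hz] at hB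
      have hBcard : Nat.card B.1 = p * Nat.card D := by
        apply Nat.eq_of_mul_eq_mul_right hp.pos
        rw [hB]; ring
      have e : {x // f x = B} ≃ ((B.1 : Set G) \ (D : Set G) : Set G) :=
        { toFun := fun x => ⟨x.1.1, by
            have h1 : D ⊔ zpowers x.1.1 = B.1 := congrArg Subtype.val x.2
            refine ⟨?_, x.1.2⟩
            show x.1.1 ∈ B.1
            rw [← h1]
            exact mem_sup_right (mem_zpowers _)⟩
          invFun := fun x => ⟨⟨x.1, x.2.2⟩, Subtype.ext (by
            show D ⊔ zpowers x.1 = B.1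
            apply eq_of_le_of_index_eq
            · exact sup_le hZB ((zpowers_le).mpr x.2.1)
            · rw [hidx x.1 x.2.2, B.2.2])⟩
          left_inv := fun x => rfl
          right_inv := fun x => rfl }
      rw [Nat.card_congr e, Nat.card_coe_set_eq,
        Set.ncard_sdiff (by exact_mod_cast hZB) (Set.toFinite _), ← hBcard]
      have h5 : (D : Set G).ncard = Nat.card D := (Nat.card_coe_set_eq _).symm
      have h6 : (B.1 : Set G).ncard = Nat.card B.1 := (Nat.card_coe_set_eq _).symm
      rw [h5, h6]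
      have : Nat.card D ≤ Nat.card B.1 := Subgroup.card_le_of_le hZB
      omega
    have htot : Nat.card {x : G // x ∉ D} + Nat.card D = Nat.card G := by
      have e : {x : G // x ∉ D} ≃ ((D : Set G)ᶜ : Set G) := Equiv.refl _
      rw [Nat.card_congr e, Nat.card_coe_set_eq, Set.ncard_compl]
      have h5 : (D : Set G).ncard = Nat.card D := (Nat.card_coe_set_eq _).symm
      rw [h5]
      have : Nat.card D ≤ Nat.card G := Subgroup.card_le_card_group D
      omega
    have hsum : Nat.card {x : G // x ∉ D} = ∑ B : 𝓑, Nat.card {x // f x = B} := by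
      rw [← Nat.card_sigma]
      exact Nat.card_congr (Equiv.sigmaFiberEquiv f).symm
    have hzpos : 0 < Nat.card D := Nat.card_pos
    obtain ⟨q, hq⟩ : ∃ q, p = q + 1 := ⟨p - 1, by have := hp.pos; omega⟩
    have hfib' : ∀ B : 𝓑, Nat.card {x // f x = B} = q * Nat.card D := by
      intro B
      have := hfib B
      rw [hq] at this
      have e : (q + 1) * Nat.card D = q * Nat.card D + Nat.card D := by ring
      omega
    simp only [hfib', Finset.sum_const, Finset.card_univ, smul_eq_mul] at hsum
    rw [hsum, ← hz, hq] at htot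
    have hqpos : 0 < q := by have := hp.one_lt; omega
    show Nat.card 𝓑 = p + 1
    rw [Nat.card_eq_fintype_card, hq]
    have h7 : (Fintype.card 𝓑) * (q * Nat.card D) = (q + 1 + 1) * (q * Nat.card D) := by
      have e : Nat.card D * (q + 1) ^ 2 = (q + 1 + 1) * (q * Nat.card D) + Nat.card D := by ring
      omega
    exact Nat.eq_of_mul_eq_mul_right (Nat.mul_pos hqpos hzpos) h7

end Cfsg.Agent.S0662
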