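import Cfsg.Statements.S0663
import Cfsg.Agent.Lib.Helper11.Basic2

set_option autoImplicit false
set_option linter.unusedSectionVars false
open Cfsg

namespace Cfsg.Agent.S0663

open Subgroup Cfsg.Agent.Lib.Helper11
open scoped commutatorElement

variable {L : Type*} [Group L]

theorem commutator_le_of_le_normalizer {H Y : Subgroup L} (h : Y ≤ normalizer (H : Set L)) :
    ⁅H, Y⁆ ≤ H := by
  rw [commutator_le]
  intro a ha y hy
  rw [commutatorElement_def, mul_assoc, mul_assoc]
  apply mul_mem ha
  rw [← mul_assoc]
  exact conj_mem_of_mem_normalizer (h hy) (inv_mem ha)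

/-- nilpotent action of a `p`-group on a `p`-group. -/
theorem commutator_lt [Finite L] {p : ℕ} [Fact p.Prime] {H Y : Subgroup L} (hH : IsPGroup p H)
    (hY : IsPGroup p Y) (h : Y ≤ normalizer (H : Set L)) (hne : H ≠ ⊥) : ⁅H, Y⁆ < H := by
  refine lt_of_le_of_ne (commutator_le_of_le_normalizer h) ?_
  intro heq
  have hX : IsPGroup p (H ⊔ Y : Subgroup L) := hH.to_sup_of_normal_left' hY h
  have hnil : Group.IsNilpotent ↥(H ⊔ Y : Subgroup L) := hX.isNilpotent
  obtain ⟨k, hk⟩ := (isNilpotent_iff_lowerCentralSeries (H ⊔ Y)).1 hnil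
  have hall : ∀ i, H ≤ (H ⊔ Y).lowerCentralSeries i := by
    intro i
    induction i with
    | zero => exact le_sup_left
    | succ i ih =>
      rw [Subgroup.lowerCentralSeries_succ]
      calc H = ⁅H, Y⁆ := heq.symm
        _ ≤ _ := commutator_mono ih le_sup_right
  apply hne
  rw [eq_bot_iff, ← hk]
  exact hall k

theorem normalizer_inf_le_normalizer_commutator (A B : Subgroup L) :
    normalizer (A : Set L) ⊓ normalizer (B : Set L) ≤ normalizer ((⁅A, B⁆ : Subgroup L) : Set L) := by
  intro g hg
  obtain ⟨h1, h2⟩ := mem_inf.1 hg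
  rw [mem_normalizer_iff_map_conj_eq] at h1 h2 ⊢
  have h1' : A.map (MulAut.conj g).toMonoidHom = A := h1
  have h2' : B.map (MulAut.conj g).toMonoidHom = B := h2
  change (⁅A, B⁆).map (MulAut.conj g).toMonoidHom = ⁅A, B⁆
  rw [map_commutator, h1', h2']

theorem mem_sup_of_le_normalizer {H K : Subgroup L} (h : H ≤ normalizer (K : Set L)) {y : L} :
    y ∈ H ⊔ K ↔ ∃ a ∈ H, ∃ b ∈ K, y = a * b := by
  constructor
  · intro hy
    rw [sup_eq_closure] at hy
    induction hy using closure_induction with
    | mem x hx =>
      rcases hx with hx | hx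
      · exact ⟨x, hx, 1, one_mem _, by simp⟩
      · exact ⟨1, one_mem _, x, hx, by simp⟩
    | one => exact ⟨1, one_mem _, 1, one_mem _, by simp⟩
    | mul x y _ _ ihx ihy =>
      obtain ⟨a, ha, b, hb, rfl⟩ := ihx
      obtain ⟨a', ha', b', hb', rfl⟩ := ihy
      exact ⟨a * a', mul_mem ha ha', (a'⁻¹ * b * a') * b',
        mul_mem (conj_inv_mem_of_mem_normalizer (h ha') hb) hb', by group⟩
    | inv x _ ih =>
      obtain ⟨a, ha, b, hb, rfl⟩ := ih
      exact ⟨a⁻¹, inv_mem ha, a * b⁻¹ * a⁻¹, conj_mem_of_mem_normalizer (h ha) (inv_mem hb), by group⟩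
  · rintro ⟨a, ha, b, hb, rfl⟩
    exact mul_mem (le_sup_left (a := H) (b := K) ha) (le_sup_right (a := H) (b := K) hb)

section
variable (N G : Subgroup L)

theorem iter_facts (hGN : G ≤ normalizer (N : Set L)) :
    ∀ i, G ≤ normalizer (iterCommutator N G i : Set L) ∧ iterCommutator N G i ≤ N := by
  intro i
  induction i with
  | zero => exact ⟨hGN, le_rfl⟩
  | succ i ih =>
    refine ⟨?_, (commutator_le_of_le_normalizer ih.1).trans ih.2⟩
    exact (le_inf ih.1 le_normalizer).trans (normalizer_inf_le_normalizer_commutator _ _)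

theorem iter_succ_le (hGN : G ≤ normalizer (N : Set L)) (i : ℕ) :
    iterCommutator N G (i + 1) ≤ iterCommutator N G i :=
  commutator_le_of_le_normalizer (iter_facts N G hGN i).1

theorem iter_antitone (hGN : G ≤ normalizer (N : Set L)) : Antitone (iterCommutator N G) :=
  antitone_nat_of_succ_le (iter_succ_le N G hGN)

end

theorem eq_or_eq_of_card [Finite L] {p : ℕ} (hp : p.Prime) {A M B : Subgroup L} (hAM : A ≤ M)
    (hMB : M ≤ B) (h : Nat.card B = p * Nat.card A) : M = A ∨ M = B := by
  obtain ⟨k, hk⟩ := card_dvd_of_le hAM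
  have h1 := card_dvd_of_le hMB
  rw [h, hk, mul_comm p] at h1
  have h2 : k ∣ p := Nat.dvd_of_mul_dvd_mul_left Nat.card_pos h1
  rcases (Nat.dvd_prime hp).1 h2 with rfl | rfl
  · left
    exact (eq_of_le_of_card_ge hAM (by rw [hk, mul_one])).symm
  · right
    exact eq_of_le_of_card_ge hMB (by rw [h, hk, mul_comm])

/-- the chain has all its steps of index `p`. -/
def Ch (p n : ℕ) (N G : Subgroup L) : Prop :=
  ∀ i ≤ n, Nat.card (iterCommutator N G i) = p ^ (n - i)

section
variable [Finite L] {p : ℕ} [Fact p.Prime] {N G : Subgroup L} (hN : IsPGroup p N) (hG : IsPGroup p G)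
  (hGN : G ≤ normalizer (N : Set L)) {n : ℕ}
include hN hG hGN

theorem Ch.step (h : Ch p n N G) {i : ℕ} (hi : i < n) :
    Nat.card (iterCommutator N G i) = p * Nat.card (iterCommutator N G (i + 1)) := by
  rw [h i hi.le, h (i + 1) hi, ← pow_succ']
  congr 1; omega

theorem Ch.eq_bot (h : Ch p n N G) {i : ℕ} (hi : n ≤ i) : iterCommutator N G i = ⊥ := by
  have h1 : iterCommutator N G n = ⊥ := by
    rw [← card_eq_one, h n le_rfl]; simp
  rw [eq_bot_iff, ← h1]
  exact iter_antitone N G hGN hi

theorem Ch.ne_bot (h : Ch p n N G) {i : ℕ} (hi : i < n) : iterCommutator N G i ≠ ⊥ := by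
  intro h1
  have h2 := h i hi.le
  rw [h1, card_bot] at h2
  have : 1 < p ^ (n - i) := Nat.one_lt_pow (by omega) (Fact.out : p.Prime).one_lt
  omega

theorem Ch.normal (h : Ch p n N G) : ∀ i, N ⊔ G ≤ normalizer (iterCommutator N G i : Set L) := by
  have hX : IsPGroup p (N ⊔ G : Subgroup L) := hN.to_sup_of_normal_left' hG hGN
  intro i
  induction i with
  | zero => exact sup_le le_normalizer hGN
  | succ i ih =>
    by_cases hi : i < n
    · have hNi : IsPGroup p (iterCommutator N G i) := hN.to_le (iter_facts N G hGN i).2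
      have hlt := commutator_lt hNi hX ih (h.ne_bot hN hG hGN hi)
      have hle : iterCommutator N G (i + 1) ≤ ⁅iterCommutator N G i, N ⊔ G⁆ :=
        commutator_mono le_rfl le_sup_right
      rcases eq_or_eq_of_card (Fact.out : p.Prime) hle hlt.le (h.step hN hG hGN hi) with h1 | h1
      · rw [← h1]
        exact (le_inf ih le_normalizer).trans (normalizer_inf_le_normalizer_commutator _ _)
      · exact absurd h1 hlt.ne
    · rw [h.eq_bot hN hG hGN (by omega : n ≤ i + 1)]
      intro x _
      rw [mem_normalizer_iff]
      intro y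
      simp

theorem Ch.eq_iter (h : Ch p n N G) (H : Subgroup L) (hHG : G ≤ normalizer (H : Set L)) :
    ∀ d j : ℕ, j + d = n → H ≤ iterCommutator N G j → ∃ i ≤ n, H = iterCommutator N G i := by
  intro d
  induction d with
  | zero =>
    intro j hj hH
    refine ⟨j, by omega, ?_⟩
    rw [h.eq_bot hN hG hGN (by omega : n ≤ j)] at hH ⊢
    exact eq_bot_iff.2 hH
  | succ d ih =>
    intro j hj hH
    by_cases hle : H ≤ iterCommutator N G (j + 1)
    · exact ih (j + 1) (by omega) hle
    · refine ⟨j, by omega, ?_⟩
      have hjn : j < n := by omega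
      have hHN : H ≤ N := hH.trans (iter_facts N G hGN j).2
      have hHnorm : ∀ k, H ≤ normalizer (iterCommutator N G k : Set L) := fun k =>
        (hHN.trans le_sup_left).trans (h.normal hN hG hGN k)
      have hbase : iterCommutator N G j = H ⊔ iterCommutator N G (j + 1) := by
        rcases eq_or_eq_of_card (Fact.out : p.Prime) (le_sup_right : _ ≤ H ⊔ iterCommutator N G (j + 1))
          (sup_le hH (iter_succ_le N G hGN j)) (h.step hN hG hGN hjn) with h1 | h1
        · exfalso
          apply hle
          rw [← h1]; exact le_sup_left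
        · exact h1.symm
      have key : ∀ k, iterCommutator N G j = H ⊔ iterCommutator N G (j + 1 + k) := by
        intro k
        induction k with
        | zero => exact hbase
        | succ k ihk =>
          apply le_antisymm
          · have h2 : iterCommutator N G (j + 1) ≤ H ⊔ iterCommutator N G (j + 1 + (k + 1)) := by
              change ⁅iterCommutator N G j, G⁆ ≤ _
              rw [commutator_le]
              intro y hy g hg
              rw [ihk, mem_sup_of_le_normalizer (hHnorm _)] at hy
              obtain ⟨a, ha, b, hb, rfl⟩ := hy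
              have e : ⁅a * b, g⁆ = (a * ⁅b, g⁆ * a⁻¹) * ⁅a, g⁆ := by
                simp only [commutatorElement_def]; group
              rw [e]
              apply mul_mem
              · apply le_sup_right (a := H)
                apply conj_mem_of_mem_normalizer (hHnorm _ ha)
                exact commutator_mem_commutator hb hg
              · apply le_sup_left (a := H)
                exact commutator_le_of_le_normalizer hHG (commutator_mem_commutator ha hg)
            rw [hbase]
            exact sup_le le_sup_left h2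
          · exact sup_le hH (iter_antitone N G hGN (by omega))
      have h4 := key n
      rw [h.eq_bot hN hG hGN (by omega : n ≤ j + 1 + n), sup_bot_eq] at h4
      exact h4.symm

end

/-- A p-group acts uniserially on a p-group N of order p^n exactly when the iterated commutator chain from N has length n; in that case the chain terms are all the invariant subgroups of N and they are normal in N. -/
theorem result {L : Type*} [Group L] [Finite L] {p : ℕ} [Fact p.Prime] (N G : Subgroup L) (hN : IsPGroup p N) (hG : IsPGroup p G) (hGN : G ≤ Subgroup.normalizer (N : Set L)) (n : ℕ) (hn : Nat.card N = p ^ n) : ((∀ H : Subgroup L, H ≤ N → G ≤ Subgroup.normalizer (H : Set L) → H ≠ ⊥ → (⁅H, G⁆).relIndex H = p) ↔ Cfsg.iterCommutator N G (n - 1) ≠ ⊥ ∨ n = 0) ∧ ((∀ H : Subgroup L, H ≤ N → G ≤ Subgroup.normalizer (H : Set L) → H ≠ ⊥ → (⁅H, G⁆).relIndex H = p) → ∀ H : Subgroup L, H ≤ N → G ≤ Subgroup.normalizer (H : Set L) → (∃ i ≤ n, H = Cfsg.iterCommutator N G i) ∧ N ≤ Subgroup.normalizer (H : Set L)) := by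
  have hpp : p.Prime := Fact.out
  have hcardrel : ∀ i, Nat.card (iterCommutator N G (i + 1)) *
      (iterCommutator N G (i + 1)).relIndex (iterCommutator N G i) = Nat.card (iterCommutator N G i) := by
    intro i
    have := relIndex_mul_relIndex ⊥ _ _ bot_le (iter_succ_le N G hGN i)
    rwa [relIndex_bot_left, relIndex_bot_left] at this
  have hUCh : (∀ H : Subgroup L, H ≤ N → G ≤ Subgroup.normalizer (H : Set L) → H ≠ ⊥ →
      (⁅H, G⁆).relIndex H = p) → Ch p n N G := by
    intro hU i
    induction i with
    | zero => intro _; exact hn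
    | succ i ih =>
      intro hi
      have h1 := ih (by omega)
      have hne : iterCommutator N G i ≠ ⊥ := by
        intro h2
        rw [h2, card_bot] at h1
        have : 1 < p ^ (n - i) := Nat.one_lt_pow (by omega) hpp.one_lt
        omega
      have h2 : (iterCommutator N G (i + 1)).relIndex (iterCommutator N G i) = p :=
        hU _ (iter_facts N G hGN i).2 (iter_facts N G hGN i).1 hne
      have h3 := hcardrel i
      rw [h2, h1, show n - i = (n - (i + 1)) + 1 by omega, pow_succ] at h3
      exact Nat.eq_of_mul_eq_mul_right hpp.pos h3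
  have hChU : Ch p n N G → (∀ H : Subgroup L, H ≤ N → G ≤ Subgroup.normalizer (H : Set L) → H ≠ ⊥ →
      (⁅H, G⁆).relIndex H = p) := by
    intro hch H hHN hHG hne
    obtain ⟨i, hi, rfl⟩ := hch.eq_iter hN hG hGN H hHG n 0 (by omega) hHN
    have hi' : i < n := by
      by_contra hcon
      exact hne (hch.eq_bot hN hG hGN (by omega))
    have h3 := hcardrel i
    rw [hch.step hN hG hGN hi', mul_comm] at h3
    exact Nat.eq_of_mul_eq_mul_right Nat.card_pos h3
  have hCh1 : Ch p n N G → (iterCommutator N G (n - 1) ≠ ⊥ ∨ n = 0) := by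
    intro hch
    by_cases h0 : n = 0
    · exact Or.inr h0
    · exact Or.inl (hch.ne_bot hN hG hGN (by omega))
  have hCh2 : (iterCommutator N G (n - 1) ≠ ⊥ ∨ n = 0) → Ch p n N G := by
    intro h
    by_cases h0 : n = 0
    · subst h0
      intro i hi
      have : i = 0 := by omega
      subst this
      exact hn
    have h1 : iterCommutator N G (n - 1) ≠ ⊥ := h.resolve_right h0
    have hne : ∀ i < n, iterCommutator N G i ≠ ⊥ := by
      intro i hi h2
      apply h1
      rw [eq_bot_iff, ← h2]
      exact iter_antitone N G hGN (by omega)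
    have hpow : ∀ i, ∃ e, Nat.card (iterCommutator N G i) = p ^ e := fun i =>
      (hN.to_le (iter_facts N G hGN i).2).exists_card_eq
    choose e he using hpow
    have e0 : e 0 = n := by
      have : p ^ e 0 = p ^ n := by rw [← he 0]; exact hn
      exact Nat.pow_right_injective hpp.two_le this
    have hdec : ∀ i < n, e (i + 1) < e i := by
      intro i hi
      have hlt := commutator_lt (hN.to_le (iter_facts N G hGN i).2) hG (iter_facts N G hGN i).1 (hne i hi)
      have h2 : Nat.card (iterCommutator N G (i + 1)) < Nat.card (iterCommutator N G i) := by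
        refine lt_of_le_of_ne (card_le_of_le hlt.le) ?_
        intro h3
        exact hlt.ne (eq_of_le_of_card_ge hlt.le h3.ge)
      rw [he, he] at h2
      exact (Nat.pow_lt_pow_iff_right hpp.one_lt).1 h2
    have up : ∀ i ≤ n, e i + i ≤ n := by
      intro i
      induction i with
      | zero => intro _; omega
      | succ i ih =>
        intro hi
        have := ih (by omega)
        have := hdec i (by omega)
        omega
    have lo : ∀ d ≤ n, d ≤ e (n - d) := by
      intro d
      induction d with
      | zero => intro _; omega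
      | succ d ih =>
        intro hd
        have h2 := ih (by omega)
        have h3 := hdec (n - (d + 1)) (by omega)
        rw [show n - (d + 1) + 1 = n - d by omega] at h3
        omega
    intro i hi
    rw [he i]
    congr 1
    have h2 := up i hi
    have h3 := lo (n - i) (by omega)
    rw [show n - (n - i) = i by omega] at h3
    omega
  refine ⟨⟨fun h => hCh1 (hUCh h), fun h => hChU (hCh2 h)⟩, fun h H hHN hHG => ?_⟩
  have hch := hUCh h
  obtain ⟨i, hi, rfl⟩ := hch.eq_iter hN hG hGN H hHG n 0 (by omega) hHN
  exact ⟨⟨i, hi, rfl⟩, le_sup_left.trans (hch.normal hN hG hGN i)⟩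

end Cfsg.Agent.S0663
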