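import Mathlib
import Cfsg.Statements.S0668

set_option autoImplicit false
open Cfsg

namespace Cfsg.Agent.S0668

/-- The equivariant linear maps between the permutation modules of two finite `G`-sets form a space whose dimension is the number of `G`-orbits on the product of the two sets. -/
theorem result {G : Type*} [Group G] {K : Type*} [Field K] {Ω₁ Ω₂ : Type*} [Fintype Ω₁] [Fintype Ω₂] [MulAction G Ω₁] [MulAction G Ω₂] : Module.finrank K ((Cfsg.permRep K G Ω₁).linHom (Cfsg.permRep K G Ω₂)).invariants = Nat.card (MulAction.orbitRel.Quotient G (Ω₁ × Ω₂)) := by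
  classical
  let Q := MulAction.orbitRel.Quotient G (Ω₁ × Ω₂)
  haveI : Finite Q := Quotient.finite _
  haveI : Fintype Q := Fintype.ofFinite Q
  let mk : Ω₁ × Ω₂ → Q := fun z => Quotient.mk'' z
  have hmk : ∀ (g : G) x y, mk (g • x, g • y) = mk (x, y) := by
    intro g x y
    apply Quotient.sound'
    exact ⟨g, rfl⟩
  let T : (Q → K) →ₗ[K] ((Ω₁ → K) →ₗ[K] (Ω₂ → K)) :=
    { toFun := fun c =>
        { toFun := fun f y => ∑ x, c (mk (x, y)) * f x
          map_add' := by
            intro f f'; funext y
            simp [mul_add, Finset.sum_add_distrib]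
          map_smul' := by
            intro r f; funext y
            simp [Finset.mul_sum, mul_left_comm] }
      map_add' := by
        intro c c'
        refine LinearMap.ext fun f => funext fun y => ?_
        simp [add_mul, Finset.sum_add_distrib]
      map_smul' := by
        intro r c
        refine LinearMap.ext fun f => funext fun y => ?_
        simp [Finset.mul_sum, mul_assoc] }
  have hT : ∀ c f y, T c f y = ∑ x, c (mk (x, y)) * f x := fun c f y => rfl
  have hTinv : ∀ c, T c ∈ ((Cfsg.permRep K G Ω₁).linHom (Cfsg.permRep K G Ω₂)).invariants := by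
    intro c g
    refine LinearMap.ext fun f => funext fun y => ?_
    change ∑ x, c (mk (x, g⁻¹ • y)) * f ((g⁻¹)⁻¹ • x) = ∑ x, c (mk (x, y)) * f x
    apply Fintype.sum_equiv (MulAction.toPerm g)
    intro x
    rw [MulAction.toPerm_apply, inv_inv, ← hmk g x (g⁻¹ • y), smul_inv_smul]
  let T' : (Q → K) →ₗ[K] ((Cfsg.permRep K G Ω₁).linHom (Cfsg.permRep K G Ω₂)).invariants :=
    T.codRestrict _ hTinv
  have hinj : Function.Injective T' := by
    rw [injective_iff_map_eq_zero]
    intro c hc
    funext q
    induction q using Quotient.inductionOn' with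
    | h z =>
      obtain ⟨x, y⟩ := z
      have h1 : T c = 0 := congrArg Subtype.val hc
      have h2 := hT c (Pi.single x 1) y
      rw [h1] at h2
      simp only [Pi.single_apply, mul_ite, mul_one, mul_zero, Finset.sum_ite_eq',
        Finset.mem_univ, if_true] at h2
      exact h2.symm
  have hsurj : Function.Surjective T' := by
    rintro ⟨S, hS⟩
    have hSinv : ∀ (g : G) x y, S (Pi.single (g • x) 1) (g • y) = S (Pi.single x 1) y := by
      intro g x y
      have h1 := congrArg (fun R : (Ω₁ → K) →ₗ[K] (Ω₂ → K) => R (Pi.single (g • x) 1) (g • y)) (hS g)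
      have h1 : ((Cfsg.permRep K G Ω₁).linHom (Cfsg.permRep K G Ω₂) g S) (Pi.single (g • x) 1) (g • y)
          = S (Pi.single (g • x) 1) (g • y) := h1
      rw [← h1]
      change S (Cfsg.permRep K G Ω₁ g⁻¹ (Pi.single (g • x) 1)) (g⁻¹ • g • y) = _
      rw [inv_smul_smul]
      have h2 : Cfsg.permRep K G Ω₁ g⁻¹ (Pi.single (g • x) 1) = Pi.single x 1 := by
        funext z
        change (Pi.single (g • x) 1 : Ω₁ → K) ((g⁻¹)⁻¹ • z) = _
        rw [inv_inv]
        simp only [Pi.single_apply]
        by_cases hz : z = x
        · rw [if_pos hz, if_pos (by rw [hz])]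
        · rw [if_neg hz, if_neg (fun h => hz (MulAction.injective g h))]
      rw [h2]
    let c : Q → K := fun q => S (Pi.single q.out.1 1) q.out.2
    have hc : ∀ x y, c (mk (x, y)) = S (Pi.single x 1) y := by
      intro x y
      have h1 : (mk (x, y)).out ∈ MulAction.orbit G (x, y) := by
        have : mk (mk (x, y)).out = mk (x, y) := Quotient.out_eq' _
        exact Quotient.exact' this
      obtain ⟨g, hg⟩ := h1
      change S (Pi.single (mk (x, y)).out.1 1) (mk (x, y)).out.2 = _
      rw [← hg]
      exact hSinv g x y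
    refine ⟨c, Subtype.ext (LinearMap.ext fun f => funext fun y => ?_)⟩
    change ∑ x, c (mk (x, y)) * f x = S f y
    rw [LinearMap.pi_apply_eq_sum_univ S f]
    simp only [Finset.sum_apply, Pi.smul_apply, smul_eq_mul, hc]
    apply Finset.sum_congr rfl
    intro x _
    have hsingle : (fun j => if x = j then (1 : K) else 0) = Pi.single x 1 := by
      funext z
      simp [Pi.single_apply, eq_comm]
    rw [hsingle, mul_comm]
  rw [← (LinearEquiv.ofBijective T' ⟨hinj, hsurj⟩).finrank_eq, Module.finrank_fintype_fun_eq_card,
    Nat.card_eq_fintype_card]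

end Cfsg.Agent.S0668
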