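import Mathlib
import Cfsg.Statements.S0669

set_option autoImplicit false
open Cfsg

namespace Cfsg.Agent.S0669

/-- The rank of a transitive action: orbits on ordered pairs correspond to orbits of a point stabiliser. -/
theorem result {G : Type*} [Group G] {Ω : Type*} [Finite Ω] [MulAction G Ω] [MulAction.IsPretransitive G Ω] (a : Ω) : Nat.card (MulAction.orbitRel.Quotient G (Ω × Ω)) = Nat.card (MulAction.orbitRel.Quotient (MulAction.stabilizer G a) Ω) := by
  symm
  let f : MulAction.orbitRel.Quotient (MulAction.stabilizer G a) Ω →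
      MulAction.orbitRel.Quotient G (Ω × Ω) :=
    Quotient.map' (s₁ := MulAction.orbitRel (MulAction.stabilizer G a) Ω)
      (s₂ := MulAction.orbitRel G (Ω × Ω)) (fun b => (a, b)) (by
        intro b b' hbb'
        rw [MulAction.orbitRel_apply] at hbb' ⊢
        obtain ⟨h, rfl⟩ := hbb'
        refine ⟨h.1, ?_⟩
        have : (h : G) • a = a := h.2
        simp only [Prod.smul_mk, this]
        rfl)
  apply Nat.card_congr
  apply Equiv.ofBijective f
  constructor
  · intro x y
    induction x using Quotient.inductionOn' with | _ b => ?_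
    induction y using Quotient.inductionOn' with | _ b' => ?_
    intro h
    simp only [f, Quotient.map'_mk''] at h
    rw [Quotient.eq''] at h ⊢
    rw [MulAction.orbitRel_apply] at h ⊢
    obtain ⟨g, hg⟩ := h
    simp only [Prod.smul_mk, Prod.mk.injEq] at hg
    exact ⟨⟨g, hg.1⟩, hg.2⟩
  · intro z
    induction z using Quotient.inductionOn' with | _ z => ?_
    obtain ⟨x, y⟩ := z
    obtain ⟨g, rfl⟩ := MulAction.exists_smul_eq G a x
    refine ⟨Quotient.mk'' (g⁻¹ • y), ?_⟩
    simp only [f, Quotient.map'_mk'']
    rw [Quotient.eq'', MulAction.orbitRel_apply]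
    exact ⟨g⁻¹, by simp⟩

end Cfsg.Agent.S0669
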