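import Mathlib
import Cfsg.Statements.S0677
import Cfsg.Agent.S0001
import Cfsg.Agent.Lib.Helper12.IndexP

set_option autoImplicit false
open Cfsg

namespace Cfsg.Agent.S0677

open Cfsg.Agent.Lib.Helper12 MulAction in
/-- In a transitive permutation group of prime degree `p` whose Sylow `p`-normaliser has even order, the point stabilisers are the only subgroups of index `p`. -/
theorem result {α : Type*} [Fintype α] [DecidableEq α] {p : ℕ} [Fact p.Prime] (hα : Fintype.card α = p) (G : Subgroup (Equiv.Perm α)) [MulAction.IsPretransitive G α] (P : Sylow p G) (heven : Even (Nat.card (Subgroup.normalizer ((P : Subgroup G) : Set G)))) (H : Subgroup G) (hH : H.index = p) : ∃ a : α, H = MulAction.stabilizer G a := by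
  classical
  have hpp : p.Prime := Fact.out
  have hP := PrimeDegree.card_sylow hα G P
  have hα' : Nat.card α = p := by rw [Nat.card_eq_fintype_card, hα]
  have hne : Nonempty α := by
    rw [← Fintype.card_pos_iff, hα]; exact hpp.pos
  obtain ⟨a₁⟩ := hne
  have hHcard : Nat.card H * p = Nat.card G := by rw [← hH]; exact H.card_mul_index
  have hstab : ∀ a : α, Nat.card (stabilizer G a) * p = Nat.card G := by
    intro a
    rw [← (stabilizer G a).card_mul_index, index_stabilizer_of_transitive, hα']
  have hstabH : ∀ a : α, Nat.card (stabilizer G a) = Nat.card H := fun a =>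
    Nat.eq_of_mul_eq_mul_right hpp.pos ((hstab a).trans hHcard.symm)
  have hPidx : (P : Subgroup G).index = Nat.card H := by
    have := (P : Subgroup G).card_mul_index
    rw [hP, ← hHcard, mul_comm] at this
    exact Nat.eq_of_mul_eq_mul_right hpp.pos this
  have hpH : ¬ p ∣ Nat.card H := by rw [← hPidx]; exact P.not_dvd_index
  have hcopH : Nat.Coprime p (Nat.card H) := (Nat.Prime.coprime_iff_not_dvd hpp).mpr hpH
  have hle : ∀ a : α, H ≤ stabilizer G a → H = stabilizer G a := by
    intro a h
    exact Subgroup.eq_of_le_of_card_ge h (hstabH a).le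
  by_cases hPn : (P : Subgroup G).Normal
  · haveI := hPn
    have hcop : (Nat.card (P : Subgroup G)).Coprime (P : Subgroup G).index := by
      rw [hP, hPidx]; exact hcopH
    have hsolv : Group.IsSolvable (P : Subgroup G) := by
      have hcyc : IsCyclic (P : Subgroup G) := isCyclic_of_prime_card hP
      letI := IsCyclic.commGroup (α := (P : Subgroup G))
      infer_instance
    have c1 : Subgroup.IsComplement' (P : Subgroup G) (stabilizer G a₁) :=
      Subgroup.isComplement'_of_coprime (by rw [hP, mul_comm, hstab]) (by rw [hP, hstabH]; exact hcopH)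
    have c2 : Subgroup.IsComplement' (P : Subgroup G) H :=
      Subgroup.isComplement'_of_coprime (by rw [hP, mul_comm, hHcard]) (by rw [hP]; exact hcopH)
    obtain ⟨g, hg⟩ := S0001.result (P : Subgroup G) hcop (Or.inl hsolv) _ _ c1 c2
    refine ⟨g • a₁, ?_⟩
    rw [← hg, stabilizer_smul_eq_stabilizer_map_conj]
    rfl
  · have hp5 := PrimeDegree.five_le_of_not_normal hα G P hPn
    have h2 := PrimeDegree.two_transitive_of_not_normal hα G P hPn
    obtain ⟨t, s, e, htP, hPt, hto, he, hs, hs2⟩ :=
      PrimeCoord.exists_coord_involution hα (by omega) G (P : Subgroup G) hP heven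
    have hfixq : ∃ q : G ⧸ H, s • q = q := by
      have hmod := IndexP.card_modEq_of_involutive (fun q : G ⧸ H => s • q)
        (fun q => by change s • s • q = q; rw [← mul_smul, hs2, one_smul])
      by_contra hcon
      push Not at hcon
      haveI : IsEmpty {b : G ⧸ H // s • b = b} := ⟨fun b => hcon b.1 b.2⟩
      have hq : Nat.card (G ⧸ H) = p := hH
      have h0 : Nat.card {b : G ⧸ H // s • b = b} = 0 := Nat.card_of_isEmpty
      rw [hq] at hmod
      have hmod : p ≡ 0 [MOD 2] := hmod.trans (by rw [← h0])
      have h2p : 2 ∣ p := (Nat.modEq_zero_iff_dvd).mp hmod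
      have := (Nat.prime_dvd_prime_iff_eq Nat.prime_two hpp).mp h2p
      omega
    obtain ⟨q, hq⟩ := hfixq
    obtain ⟨g, rfl⟩ := QuotientGroup.mk_surjective q
    have hsg : g⁻¹ * s * g ∈ H := by
      have h1 : ((s * g : G) : G ⧸ H) = (g : G ⧸ H) := hq
      have := QuotientGroup.eq.mp h1.symm
      simpa [mul_assoc] using this
    let H' := H.map (MulAut.conj g).toMonoidHom
    have hsH' : s ∈ H' := ⟨g⁻¹ * s * g, hsg, by
      change g * (g⁻¹ * s * g) * g⁻¹ = s
      group⟩
    have hH'card : Nat.card H' = Nat.card H :=
      Subgroup.card_map_of_injective (MulAut.conj g).injective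
    have hH'idx : H'.index = p := by
      rw [← hH]
      exact Subgroup.index_map_equiv (H := H) (MulAut.conj g)
    have hfix := IndexP.fixes_origin (by omega) G h2 t s e hto he hs H' hH'idx
      (by rw [hH'card]; exact hpH) hsH'
    refine ⟨g⁻¹ • e 0, hle _ ?_⟩
    intro h hh
    rw [mem_stabilizer_iff]
    have := hfix (g * h * g⁻¹) ⟨h, hh, rfl⟩
    rw [mul_smul, mul_smul] at this
    rw [← eq_inv_smul_iff] at this
    exact this

end Cfsg.Agent.S0677
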