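import Mathlib
import Cfsg.Statements.S0680
import Cfsg.Agent.Lib.Helper12.Sharp2

set_option autoImplicit false
open Cfsg

namespace Cfsg.Agent.S0680

/-- A finite sharply doubly transitive permutation group has degree a prime power `p ^ j`; a Sylow `p`-subgroup is normal, elementary abelian and regular, and consists of the identity together with the elements without fixed points. (Frobenius' Theorem is not needed.) -/
theorem result {α : Type*} [Fintype α] [DecidableEq α] (G : Subgroup (Equiv.Perm α)) [MulAction.IsMultiplyPretransitive G α 2] (hsharp : ∀ x : Fin 2 ↪ α, MulAction.stabilizer G x = ⊥) (h2 : 2 ≤ Fintype.card α) : ∃ p j : ℕ, p.Prime ∧ 1 ≤ j ∧ Fintype.card α = p ^ j ∧ ∀ (hp : Fact p.Prime) (P : Sylow p G), (P : Subgroup G).Normal ∧ IsMulCommutative (P : Subgroup G) ∧ (∀ x ∈ (P : Subgroup G), x ^ p = 1) ∧ MulAction.IsPretransitive (P : Subgroup G) α ∧ (∀ a : α, MulAction.stabilizer (P : Subgroup G) a = ⊥) ∧ ∀ g : G, g ∈ (P : Subgroup G) ↔ g = 1 ∨ ∀ a :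 α, g • a ≠ a := by
  have h2t : MulAction.IsMultiplyPretransitive G α 2 := inferInstance
  have h2' : 2 ≤ Nat.card α := by rw [Nat.card_eq_fintype_card]; exact h2
  obtain ⟨p, j, N, hp, hj, hcard, hNn, hNc, hNe, hNcard, hNmem, hNt⟩ :=
    Lib.Helper12.Sharp2.exists_kernel h2t hsharp h2'
  refine ⟨p, j, hp, hj, by rw [← Nat.card_eq_fintype_card]; exact hcard, ?_⟩
  intro hpf P
  -- every Sylow `p`-subgroup lies in `N`
  have hle : ∀ Q : Sylow p G, (Q : Subgroup G) ≤ N := by
    intro Q g hg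
    rw [hNmem]
    by_contra hcon
    push Not at hcon
    obtain ⟨hg1, a, ha⟩ := hcon
    apply hg1
    have ha' : g ∈ MulAction.stabilizer G a := ha
    have h1 : orderOf (⟨g, ha'⟩ : MulAction.stabilizer G a) ∣ Nat.card (MulAction.stabilizer G a) :=
      orderOf_dvd_natCard _
    rw [Subgroup.orderOf_mk, Lib.Helper12.Sharp2.card_stabilizer h2t hsharp h2'] at h1
    obtain ⟨k, hk⟩ := (IsPGroup.iff_orderOf.mp Q.isPGroup') ⟨g, hg⟩
    rw [Subgroup.orderOf_mk] at hk
    rcases Nat.eq_zero_or_pos k with rfl | hkpos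
    · rw [pow_zero, orderOf_eq_one_iff] at hk; exact hk
    · exfalso
      have hpd : p ∣ Nat.card α - 1 := by
        refine dvd_trans ?_ h1
        rw [hk]; exact dvd_pow_self p hkpos.ne'
      have hpn : p ∣ Nat.card α := by rw [hcard]; exact dvd_pow_self p (by omega)
      have h3 : p ∣ 1 := by
        have := Nat.dvd_sub hpn hpd
        rwa [show Nat.card α - (Nat.card α - 1) = 1 by omega] at this
      exact hp.one_lt.ne' (Nat.dvd_one.mp h3)
  have hpg : IsPGroup p N := by
    intro z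
    refine ⟨1, ?_⟩
    rw [pow_one]
    exact Subtype.ext (hNe z.1 z.2)
  obtain ⟨Q, hQ⟩ := hpg.exists_le_sylow
  have hQN : (Q : Subgroup G) = N := le_antisymm (hle Q) hQ
  have hPN : (P : Subgroup G) = N := by
    apply Subgroup.eq_of_le_of_card_ge (hle P)
    rw [← hQN, Sylow.card_eq_multiplicity, Sylow.card_eq_multiplicity]
  rw [hPN]
  refine ⟨hNn, ?_, hNe, ?_, ?_, hNmem⟩
  · exact ⟨⟨fun x y => Subtype.ext (hNc x.1 y.1 x.2 y.2)⟩⟩
  · refine ⟨fun a b => ?_⟩
    obtain ⟨n, hn, hnab⟩ := hNt a b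
    exact ⟨⟨n, hn⟩, hnab⟩
  · intro a
    rw [Subgroup.eq_bot_iff_forall]
    intro n hn
    rcases (hNmem n.1).mp n.2 with h | h
    · exact Subtype.ext h
    · exact absurd hn (h a)

end Cfsg.Agent.S0680
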