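import Mathlib
import Cfsg.Statements.S0681
import Cfsg.Agent.Lib.Helper12.NearField

set_option autoImplicit false
open Cfsg

namespace Cfsg.Agent.S0681

/-- The affine maps `x ↦ x * a + b`, `a ≠ 0`, of a near-field form a sharply doubly transitive permutation group. -/
theorem result {F : Type*} [Cfsg.NearField F] : ∃ H : Subgroup (Equiv.Perm F), (∀ σ : Equiv.Perm F, σ ∈ H ↔ ∃ a b : F, a ≠ 0 ∧ ∀ x : F, σ x = x * a + b) ∧ MulAction.IsMultiplyPretransitive H F 2 ∧ ∀ x : Fin 2 ↪ F, MulAction.stabilizer H x = ⊥ := by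
  refine ⟨Lib.Helper12.NF.affineSubgroup F, fun σ => Lib.Helper12.NF.mem_affineSubgroup σ, ?_, ?_⟩
  · rw [MulAction.is_two_pretransitive_iff]
    intro a b c d hab hcd
    have hab' : a - b ≠ 0 := sub_ne_zero.mpr hab
    have hcd' : c - d ≠ 0 := sub_ne_zero.mpr hcd
    obtain ⟨i, hi, h1, h2⟩ := Lib.Helper12.NF.exists_inv' hab'
    have hm : i * (c - d) ≠ 0 := Lib.Helper12.NF.mul_ne_zero' hi hcd'
    refine ⟨⟨Lib.Helper12.NF.affine (i * (c - d)) (-(b * (i * (c - d))) + d) hm,
      ⟨_, _, hm, fun x => rfl⟩⟩, ?_, ?_⟩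
    · change a * (i * (c - d)) + (-(b * (i * (c - d))) + d) = c
      rw [← add_assoc, ← sub_eq_add_neg, ← Lib.Helper12.NF.sub_mul', ← mul_assoc, h1, one_mul,
        sub_add_cancel]
    · change b * (i * (c - d)) + (-(b * (i * (c - d))) + d) = d
      rw [← add_assoc, add_neg_cancel, zero_add]
  · intro x
    rw [Subgroup.eq_bot_iff_forall]
    rintro ⟨σ, m, n, hm, hσ⟩ hstab
    rw [MulAction.mem_stabilizer_iff] at hstab
    have h0 : σ (x 0) = x 0 := congrArg (fun e : Fin 2 ↪ F => e 0) hstab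
    have h1 : σ (x 1) = x 1 := congrArg (fun e : Fin 2 ↪ F => e 1) hstab
    rw [hσ] at h0 h1
    have hne : x 0 - x 1 ≠ 0 := by
      rw [sub_ne_zero]
      intro h
      have := x.injective h
      exact absurd this (by decide)
    have h2 : (x 0 - x 1) * m = (x 0 - x 1) * 1 := by
      rw [Lib.Helper12.NF.sub_mul', mul_one]
      conv_rhs => rw [← h0, ← h1]
      rw [add_sub_add_right_eq_sub]
    have hm1 : m = 1 := Lib.Helper12.NF.mul_left_cancel' hne h2
    rw [hm1, mul_one] at h0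
    have hn : n = 0 := by simpa using h0
    apply Subtype.ext
    ext y
    change σ y = y
    rw [hσ, hm1, hn, mul_one, add_zero]

end Cfsg.Agent.S0681
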