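import Mathlib
import Cfsg.Statements.S0682
import Cfsg.Agent.Lib.Helper12.NearField

set_option autoImplicit false
open Cfsg

namespace Cfsg.Agent.S0682

/-- A finite near-field has prime-power order; its additive group is commutative of prime exponent. -/
theorem result {F : Type*} [Cfsg.NearField F] [Finite F] : ∃ p j : ℕ, p.Prime ∧ 1 ≤ j ∧ Nat.card F = p ^ j ∧ (∀ x y : F, x + y = y + x) ∧ ∀ x : F, p • x = 0 := by
  classical
  have hnt : Nontrivial F := ⟨0, 1, Lib.Helper12.NF.zero_ne_one'⟩
  have hcard1 : Nat.card F ≠ 1 := by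
    intro h
    have := (Nat.card_eq_one_iff_unique.mp h).1
    exact not_subsingleton F this
  obtain ⟨p, hp, hpd⟩ := Nat.exists_prime_and_dvd hcard1
  have : Fact p.Prime := ⟨hp⟩
  obtain ⟨x, hx⟩ := exists_prime_addOrderOf_dvd_card' (G := F) p hpd
  have hx0 : x ≠ 0 := by
    rintro rfl
    rw [addOrderOf_zero] at hx
    exact hp.one_lt.ne hx
  have hpx : p • x = 0 := by rw [← hx]; exact addOrderOf_nsmul_eq_zero x
  -- transitivity of the multiplicative group
  have htr : ∀ u y : F, u ≠ 0 → ∃ c : F, y = u * c := by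
    intro u y hu
    obtain ⟨u', _, h1, _⟩ := Lib.Helper12.NF.exists_inv' hu
    exact ⟨u' * y, by rw [← mul_assoc, h1, one_mul]⟩
  have hexp : ∀ y : F, p • y = 0 := by
    intro y
    obtain ⟨c, rfl⟩ := htr x y hx0
    rw [← Lib.Helper12.NF.nsmul_mul', hpx, Lib.Helper12.NF.zero_mul']
  have hpg : IsPGroup p (Multiplicative F) := by
    intro y
    refine ⟨1, ?_⟩
    rw [pow_one]
    exact hexp (Multiplicative.toAdd y)
  obtain ⟨j, hj⟩ := IsPGroup.iff_card.mp hpg
  have hj' : Nat.card F = p ^ j := by
    rw [← hj]; rfl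
  refine ⟨p, j, hp, ?_, hj', ?_, hexp⟩
  · rcases Nat.eq_zero_or_pos j with rfl | h
    · rw [pow_zero] at hj'; exact absurd hj' hcard1
    · exact h
  · have hcn : Nontrivial (Subgroup.center (Multiplicative F)) := hpg.center_nontrivial
    obtain ⟨z, hz⟩ := exists_ne (1 : Subgroup.center (Multiplicative F))
    have hzc : ∀ w : F, w + Multiplicative.toAdd z.1 = Multiplicative.toAdd z.1 + w := by
      intro w
      have := Subgroup.mem_center_iff.mp z.2 (Multiplicative.ofAdd w)
      exact this
    have hz0 : Multiplicative.toAdd z.1 ≠ 0 := by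
      intro h
      apply hz
      apply Subtype.ext
      exact h
    set z' : F := Multiplicative.toAdd z.1 with hz'
    intro u y
    by_cases hu : u = 0
    · rw [hu, zero_add, add_zero]
    · obtain ⟨c, hc⟩ := htr z' u hz0
      have hc0 : c ≠ 0 := by
        rintro rfl
        rw [Lib.Helper12.NF.mul_zero'] at hc
        exact hu hc
      obtain ⟨c', _, h1, h2⟩ := Lib.Helper12.NF.exists_inv' hc0
      have hy : y = (y * c') * c := by rw [mul_assoc, h2, mul_one]
      rw [hc, hy, ← Lib.Helper12.NF.add_mul', ← Lib.Helper12.NF.add_mul', hzc]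

end Cfsg.Agent.S0682
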