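import Mathlib
import Cfsg.Statements.S0683
import Cfsg.Agent.Lib.Helper12.Sharp2

set_option autoImplicit false
open Cfsg

namespace Cfsg.Agent.S0683

section Construction

variable {α : Type*} [DecidableEq α]

/-- The additive group built from a sharply transitive family of "translations". -/
@[reducible] def addGroupOf (o : α) (t : α → Equiv.Perm α) (T1 : ∀ x, t x o = x)
    (T2 : ∀ y z, t z * t y = t (t z y)) : AddGroup α :=
  letI : Add α := ⟨fun x y => t y x⟩
  letI : Zero α := ⟨o⟩
  letI : Neg α := ⟨fun x => (t x)⁻¹ o⟩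
  AddGroup.ofLeftAxioms
    (fun a b c => by
      change t c (t b a) = t (t c b) a
      rw [← T2]; rfl)
    (fun a => T1 a)
    (fun a => by
      change t a ((t a)⁻¹ o) = o
      simp)

/-- The multiplicative monoid built from a family of "dilations". -/
@[reducible] def monoidOf (o e : α) (m : α → Equiv.Perm α) (hoe : o ≠ e)
    (M1 : ∀ a, a ≠ o → m a o = o) (M1' : ∀ a, a ≠ o → m a e = a)
    (M2 : ∀ a b, a ≠ o → b ≠ o → m b * m a = m (m b a)) (M0 : m e = 1) : Monoid α where
  mul x a := if a = o then o else m a x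
  one := e
  mul_assoc x a b := by
    change (if b = o then o else m b (if a = o then o else m a x)) =
      (if (if b = o then o else m b a) = o then o else m (if b = o then o else m b a) x)
    by_cases hb : b = o
    · simp [hb]
    · by_cases ha : a = o
      · simp [hb, ha, M1 b hb]
      · have hne : m b a ≠ o := by
          intro h
          apply ha
          apply (m b).injective
          rw [h, M1 b hb]
        simp only [hb, ha, hne, if_false]
        rw [← M2 a b ha hb]; rfl
  one_mul a := by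
    change (if a = o then o else m a e) = a
    by_cases ha : a = o
    · simp [ha]
    · simp [ha, M1' a ha]
  mul_one x := by
    change (if e = o then o else m e x) = x
    simp [hoe.symm, M0]

/-- The near-field built from translations and dilations. -/
@[reducible] def nearFieldOf (o e : α) (t m : α → Equiv.Perm α) (hoe : o ≠ e) (T1 : ∀ x, t x o = x)
    (T2 : ∀ y z, t z * t y = t (t z y))
    (M1 : ∀ a, a ≠ o → m a o = o) (M1' : ∀ a, a ≠ o → m a e = a)
    (M2 : ∀ a b, a ≠ o → b ≠ o → m b * m a = m (m b a)) (M0 : m e = 1)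
    (M3 : ∀ a, a ≠ o → (m a)⁻¹ = m ((m a)⁻¹ e))
    (D : ∀ c y, c ≠ o → m c * t y = t (m c y) * m c) : Cfsg.NearField α :=
  { addGroupOf o t T1 T2, monoidOf o e m hoe M1 M1' M2 M0 with
    right_distrib := fun x y c => by
      change (if c = o then o else m c (t y x)) =
        t (if c = o then o else m c y) (if c = o then o else m c x)
      by_cases hc : c = o
      · simp [hc, T1]
      · simp only [hc, if_false]
        have := congrArg (fun f : Equiv.Perm α => f x) (D c y hc)
        exact this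
    mul_zero := fun a => by
      change (if o = o then o else m o a) = o
      simp
    zero_ne_one := hoe
    exists_inv := fun a ha => by
      have ha' : a ≠ o := ha
      have hb : (m a)⁻¹ e ≠ o := by
        intro h
        apply hoe
        rw [Equiv.Perm.inv_eq_iff_eq] at h
        rw [h, M1 a ha']
      refine ⟨(m a)⁻¹ e, ?_, ?_⟩
      · change (if (m a)⁻¹ e = o then o else m ((m a)⁻¹ e) a) = e
        rw [if_neg hb, ← M3 a ha', Equiv.Perm.inv_eq_iff_eq, M1' a ha']
      · change (if a = o then o else m a ((m a)⁻¹ e)) = e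
        rw [if_neg ha']
        simp }

end Construction

/-- A finite sharply doubly transitive permutation group is the affine group of a near-field: the permuted set carries a near-field structure for which the group consists exactly of the maps `x ↦ x * a + b` with `a ≠ 0`. -/
theorem result {α : Type*} [Fintype α] [DecidableEq α] (H : Subgroup (Equiv.Perm α)) [MulAction.IsMultiplyPretransitive H α 2] (hsharp : ∀ x : Fin 2 ↪ α, MulAction.stabilizer H x = ⊥) (h2 : 2 ≤ Fintype.card α) : ∃ _ : Cfsg.NearField α, ∀ σ : Equiv.Perm α, σ ∈ H ↔ ∃ a b : α, a ≠ 0 ∧ ∀ x : α, σ x = x * a + b := by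
  have h2t : MulAction.IsMultiplyPretransitive H α 2 := inferInstance
  have h2' : 2 ≤ Nat.card α := by rw [Nat.card_eq_fintype_card]; exact h2
  obtain ⟨p, j, N, hp, hj, hcard, hNn, hNc, hNe, hNcard, hNmem, hNt⟩ :=
    Lib.Helper12.Sharp2.exists_kernel h2t hsharp h2'
  have hnt : Nontrivial α := Finite.one_lt_card_iff_nontrivial.mp h2'
  obtain ⟨o, e, hoe⟩ := exists_pair_ne α
  choose t' ht'N ht' using fun x => hNt o x
  have hU1 : ∀ n n' : H, n ∈ N → n' ∈ N → n • o = n' • o → n = n' := by
    intro n n' hn hn' h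
    have h1 : (n'⁻¹ * n) • o = o := by rw [mul_smul, h, inv_smul_smul]
    rcases (hNmem _).mp (N.mul_mem (N.inv_mem hn') hn) with h3 | h3
    · rw [inv_mul_eq_one] at h3; exact h3.symm
    · exact absurd h1 (h3 o)
  have hU2 : ∀ h h' : H, h • o = h' • o → h • e = h' • e → h = h' := by
    intro h h' h1 h2
    have h3 : (h'⁻¹ * h) • o = o := by rw [mul_smul, h1, inv_smul_smul]
    have h4 : (h'⁻¹ * h) • e = e := by rw [mul_smul, h2, inv_smul_smul]
    have := Lib.Helper12.Sharp2.eq_one_of_fix_two hsharp hoe h3 h4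
    rw [inv_mul_eq_one] at this; exact this.symm
  have h2iff : ∀ a b c d : α, a ≠ b → c ≠ d → ∃ g : H, g • a = c ∧ g • b = d :=
    fun a b c d h h' => MulAction.is_two_pretransitive_iff.mp h2t h h'
  have hm_ex : ∀ a : α, ∃ g : H, a ≠ o → g • o = o ∧ g • e = a := by
    intro a
    by_cases ha : a = o
    · exact ⟨1, fun h => absurd ha h⟩
    · obtain ⟨g, h1, h2⟩ := h2iff o e o a hoe (Ne.symm ha)
      exact ⟨g, fun _ => ⟨h1, h2⟩⟩
  choose m' hm' using hm_ex
  have hne_of : ∀ (g : H) (a : α), g • o = o → a ≠ o → g • a ≠ o := by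
    intro g a hg ha h
    apply ha
    rw [← hg] at h
    exact smul_left_cancel g h
  have T1 : ∀ x, (t' x : Equiv.Perm α) o = x := ht'
  have T2 : ∀ y z, (t' z : Equiv.Perm α) * (t' y : Equiv.Perm α) = (t' ((t' z : Equiv.Perm α) y) : Equiv.Perm α) := by
    intro y z
    have : t' z * t' y = t' ((t' z : Equiv.Perm α) y) :=
      hU1 _ _ (N.mul_mem (ht'N z) (ht'N y)) (ht'N _) (by rw [mul_smul, ht', ht']; rfl)
    exact congrArg Subtype.val this
  have M1 : ∀ a, a ≠ o → (m' a : Equiv.Perm α) o = o := fun a ha => (hm' a ha).1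
  have M1' : ∀ a, a ≠ o → (m' a : Equiv.Perm α) e = a := fun a ha => (hm' a ha).2
  have M2 : ∀ a b, a ≠ o → b ≠ o → (m' b : Equiv.Perm α) * (m' a : Equiv.Perm α) = (m' ((m' b : Equiv.Perm α) a) : Equiv.Perm α) := by
    intro a b ha hb
    have hne : (m' b : Equiv.Perm α) a ≠ o := hne_of (m' b) a (hm' b hb).1 ha
    have : m' b * m' a = m' ((m' b : Equiv.Perm α) a) := by
      apply hU2
      · rw [mul_smul, (hm' a ha).1, (hm' b hb).1, (hm' _ hne).1]
      · rw [mul_smul, (hm' a ha).2, (hm' _ hne).2]; rfl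
    exact congrArg Subtype.val this
  have M0 : (m' e : Equiv.Perm α) = 1 := by
    have : m' e = 1 := by
      apply hU2
      · rw [(hm' e hoe.symm).1, one_smul]
      · rw [(hm' e hoe.symm).2, one_smul]
    exact congrArg Subtype.val this
  have M3 : ∀ a, a ≠ o → (m' a : Equiv.Perm α)⁻¹ = (m' ((m' a : Equiv.Perm α)⁻¹ e) : Equiv.Perm α) := by
    intro a ha
    have hfix : (m' a)⁻¹ • o = o := by rw [inv_smul_eq_iff, (hm' a ha).1]
    have hne : (m' a : Equiv.Perm α)⁻¹ e ≠ o := hne_of (m' a)⁻¹ e hfix hoe.symm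
    have : (m' a)⁻¹ = m' ((m' a : Equiv.Perm α)⁻¹ e) := by
      apply hU2
      · rw [hfix, (hm' _ hne).1]
      · rw [(hm' _ hne).2]; rfl
    exact congrArg Subtype.val this
  have D : ∀ c y, c ≠ o → (m' c : Equiv.Perm α) * (t' y : Equiv.Perm α) = (t' ((m' c : Equiv.Perm α) y) : Equiv.Perm α) * (m' c : Equiv.Perm α) := by
    intro c y hc
    have hfix : (m' c)⁻¹ • o = o := by rw [inv_smul_eq_iff, (hm' c hc).1]
    have : m' c * t' y * (m' c)⁻¹ = t' ((m' c : Equiv.Perm α) y) := by
      apply hU1 _ _ (hNn.conj_mem _ (ht'N y) _) (ht'N _)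
      rw [mul_smul, mul_smul, hfix, ht', ht']; rfl
    rw [mul_inv_eq_iff_eq_mul] at this
    exact congrArg Subtype.val this
  refine ⟨nearFieldOf o e (fun x => (t' x : Equiv.Perm α)) (fun x => (m' x : Equiv.Perm α)) hoe T1 T2 M1 M1' M2 M0 M3 D, ?_⟩
  intro σ
  constructor
  · intro hσ
    set τ : H := (t' (σ o))⁻¹ * ⟨σ, hσ⟩ with hτ
    have hτo : τ • o = o := by
      rw [hτ, mul_smul, inv_smul_eq_iff, ht']; rfl
    have ha : τ • e ≠ o := hne_of τ e hτo hoe.symm
    have hτm : τ = m' (τ • e) := by
      apply hU2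
      · rw [hτo, (hm' _ ha).1]
      · rw [(hm' _ ha).2]
    refine ⟨τ • e, σ o, ha, fun x => ?_⟩
    change σ x = (t' (σ o) : Equiv.Perm α) (if τ • e = o then o else (m' (τ • e) : Equiv.Perm α) x)
    rw [if_neg ha, ← hτm, hτ]
    simp
  · rintro ⟨a, b, ha, hx⟩
    have ha' : a ≠ o := ha
    have : σ = (t' b : Equiv.Perm α) * (m' a : Equiv.Perm α) := by
      ext x
      rw [hx]
      change (t' b : Equiv.Perm α) (if a = o then o else (m' a : Equiv.Perm α) x) = _
      rw [if_neg ha']; rfl
    rw [this]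
    exact H.mul_mem (t' b).2 (m' a).2

end Cfsg.Agent.S0683
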