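import Mathlib
import Cfsg.Statements.S0684
import Cfsg.Agent.Lib.Helper12.LinReg

set_option autoImplicit false
open Cfsg

namespace Cfsg.Agent.S0684

/-- Point stabiliser of a sharply doubly transitive group not of semilinear type: a maximal normal abelian subgroup `A` of a linear group `H` that is regular on non-zero vectors and has no irreducible cyclic normal subgroup is cyclic and reducible, and the order of `A` divides `p ^ k - 1` for `k` the dimension of a minimal `A`-invariant subspace. -/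
theorem result {p : ℕ} [Fact p.Prime] {V : Type*} [AddCommGroup V] [Module (ZMod p) V] [Finite V] (H : Subgroup (V ≃ₗ[ZMod p] V)) (hreg : ∀ v w : V, v ≠ 0 → w ≠ 0 → ∃! h : H, (h : V ≃ₗ[ZMod p] V) v = w) (hI : ∀ A : Subgroup H, A.Normal → IsCyclic A → ∃ W : Submodule (ZMod p) V, W ≠ ⊥ ∧ W ≠ ⊤ ∧ ∀ a ∈ A, ∀ v ∈ W, ((a : H) : V ≃ₗ[ZMod p] V) v ∈ W) (A : Subgroup H) (hAn : A.Normal) (hAc : IsMulCommutative A) (hAmax : ∀ B : Subgroup H, B.Normal → IsMulCommutative B → A ≤ B → B = A) : IsCyclic A ∧ ∃ W : Submodule (ZMod p) V, W ≠ ⊥ ∧ W ≠ ⊤ ∧ (∀ a ∈ A, ∀ v ∈ W, ((a : H) : V ≃ₗ[ZMod p] V) v ∈ W) ∧ (∀ W' : Submodule (ZMod p) V, W' ≤ W → (∀ a ∈ A, ∀ v ∈ W', ((a : H) : V ≃ₗ[ZMod p] V) v ∈ W') → W' = ⊥ ∨ W' = W) ∧ Nat.card A ∣ p ^ Module.finrank (ZMod p) W - 1 := by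
  classical
  have hfreeH : ∀ h : H, ∀ v : V, v ≠ 0 → (h : V ≃ₗ[ZMod p] V) v = v → h = 1 := by
    intro h v hv hh
    obtain ⟨h₀, _, huniq⟩ := hreg v v hv hv
    rw [huniq h hh, huniq 1 (by simp)]
  haveI : Finite (V ≃ₗ[ZMod p] V) :=
    Finite.of_injective (fun e : V ≃ₗ[ZMod p] V => (e : V → V)) DFunLike.coe_injective
  let ρ : A →* (V ≃ₗ[ZMod p] V) := H.subtype.comp A.subtype
  have hρ : ∀ (a : A) (v : V), ρ a v = ((a : H) : V ≃ₗ[ZMod p] V) v := fun _ _ => rfl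
  have hfree : ∀ g : A, ∀ v : V, v ≠ 0 → ρ g v = v → g = 1 := by
    intro g v hv hg
    exact Subtype.ext (hfreeH g.1 v hv hg)
  have hcomm : ∀ a b : A, a * b = b * a := fun a b => hAc.is_comm.comm a b
  have htop : (⊤ : Submodule (ZMod p) V) ≠ ⊥ := by
    obtain ⟨W, h1, h2, _⟩ := hI ⊥ inferInstance inferInstance
    intro h
    apply h1
    rw [eq_bot_iff, ← h]
    exact le_top
  obtain ⟨W₁, _, hW₁ne, hW₁inv, hW₁min⟩ := Cfsg.Agent.Lib.Helper12.LinReg.exists_minimal ρ ⊤ htop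
    (fun _ _ _ => Submodule.mem_top)
  have hcyc : IsCyclic A :=
    Cfsg.Agent.Lib.Helper12.LinReg.isCyclic_of_minimal hcomm ρ hfree W₁ hW₁ne hW₁inv hW₁min
  refine ⟨hcyc, ?_⟩
  obtain ⟨W₀, hW₀ne, hW₀top, hW₀inv⟩ := hI A hAn hcyc
  obtain ⟨W, hWle, hWne, hWinv, hWmin⟩ := Cfsg.Agent.Lib.Helper12.LinReg.exists_minimal ρ W₀ hW₀ne
    (fun g v hv => hW₀inv g.1 g.2 v hv)
  refine ⟨W, hWne, ?_, fun a ha v hv => hWinv ⟨a, ha⟩ v hv, ?_,
    Cfsg.Agent.Lib.Helper12.LinReg.card_dvd ρ hfree W hWinv⟩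
  · intro h
    apply hW₀top
    rw [eq_top_iff, ← h]
    exact hWle
  · intro W' hW' hinv
    exact hWmin W' hW' (fun g v hv => hinv g.1 g.2 v hv)

end Cfsg.Agent.S0684
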