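import Mathlib
import Cfsg.Statements.S0685
import Cfsg.Agent.S0684

set_option autoImplicit false
open Cfsg

namespace Cfsg.Agent.S0685

/-- In a linear group over the prime field that is regular on non-zero vectors and has no irreducible cyclic normal subgroup, a maximal normal abelian subgroup is properly contained in its centraliser, which is non-abelian. -/
theorem result {p : ℕ} [Fact p.Prime] {V : Type*} [AddCommGroup V] [Module (ZMod p) V] [Finite V] (H : Subgroup (V ≃ₗ[ZMod p] V)) (hreg : ∀ v w : V, v ≠ 0 → w ≠ 0 → ∃! h : H, (h : V ≃ₗ[ZMod p] V) v = w) (hI : ∀ A : Subgroup H, A.Normal → IsCyclic A → ∃ W : Submodule (ZMod p) V, W ≠ ⊥ ∧ W ≠ ⊤ ∧ ∀ a ∈ A, ∀ v ∈ W, ((a : H) : V ≃ₗ[ZMod p] V) v ∈ W) (A : Subgroup H) (hAn : A.Normal) (hAc : IsMulCommutative A) (hAmax : ∀ B : Subgroup H, B.Normal → IsMulCommutative B → A ≤ B → B = A) : A < Subgroup.centralizer (A : Set H) ∧ ¬ IsMulCommutative (Subgroup.centralizer (A : Set H)) := by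
  classical
  obtain ⟨hcyc, W, hWne, hWtop, hWinv, hWmin, hdvd⟩ := S0684.result H hreg hI A hAn hAc hAmax
  haveI : Finite (V ≃ₗ[ZMod p] V) :=
    Finite.of_injective (fun e : V ≃ₗ[ZMod p] V => (e : V → V)) DFunLike.coe_injective
  have hp : 1 < p := (Fact.out : p.Prime).one_lt
  set k := Module.finrank (ZMod p) W with hk
  set n := Module.finrank (ZMod p) V with hn
  have hAle : A ≤ Subgroup.centralizer (A : Set H) := by
    intro a ha
    rw [Subgroup.mem_centralizer_iff]
    intro b hb
    have := hAc.is_comm.comm (⟨b, hb⟩ : A) ⟨a, ha⟩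
    exact congrArg Subtype.val this
  have hCn : (Subgroup.centralizer (A : Set H)).Normal := inferInstance
  -- the order of `H`
  obtain ⟨w, hwW, hw0⟩ := (Submodule.ne_bot_iff W).mp hWne
  have hcardH : Nat.card H = p ^ n - 1 := by
    have e : H ≃ {v : V // v ≠ 0} := Equiv.ofBijective
      (fun h => ⟨(h : V ≃ₗ[ZMod p] V) w, by simpa using hw0⟩) (by
        constructor
        · intro a b hab
          have hab' : (a : V ≃ₗ[ZMod p] V) w = (b : V ≃ₗ[ZMod p] V) w := congrArg Subtype.val hab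
          obtain ⟨h₀, _, huniq⟩ := hreg w ((b : V ≃ₗ[ZMod p] V) w) hw0 (by simpa using hw0)
          rw [huniq a hab', huniq b rfl]
        · rintro ⟨v, hv⟩
          obtain ⟨h₀, hh₀, _⟩ := hreg w v hw0 hv
          exact ⟨h₀, Subtype.ext hh₀⟩)
    have h1 : Nat.card V = p ^ n := by
      rw [Module.natCard_eq_pow_finrank (K := ZMod p), Nat.card_zmod]
    rw [Nat.card_congr e, ← h1]
    haveI : Fintype V := Fintype.ofFinite _
    rw [Nat.card_eq_fintype_card, Nat.card_eq_fintype_card, Fintype.card_subtype_compl]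
    simp
  -- `2 k ≤ n`
  have h2k : 2 * k ≤ n := by
    obtain ⟨v, hv⟩ : ∃ v : V, v ∉ W := by
      by_contra hcon
      push Not at hcon
      exact hWtop (eq_top_iff.mpr fun v _ => hcon v)
    have hv0 : v ≠ 0 := fun h => hv (h ▸ W.zero_mem)
    obtain ⟨h, hh, _⟩ := hreg w v hw0 hv0
    let W2 : Submodule (ZMod p) V := W.map ((h : V ≃ₗ[ZMod p] V) : V →ₗ[ZMod p] V)
    have hW2inv : ∀ a ∈ A, ∀ u ∈ W2, ((a : H) : V ≃ₗ[ZMod p] V) u ∈ W2 := by
      rintro a ha _ ⟨u, hu, rfl⟩
      refine ⟨((h⁻¹ * a * h : H) : V ≃ₗ[ZMod p] V) u, hWinv _ ?_ u hu, ?_⟩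
      · have := hAn.conj_mem a ha h⁻¹
        simpa using this
      · have : (h : V ≃ₗ[ZMod p] V) (((h⁻¹ * a * h : H) : V ≃ₗ[ZMod p] V) u)
            = ((h * (h⁻¹ * a * h) : H) : V ≃ₗ[ZMod p] V) u := rfl
        change (h : V ≃ₗ[ZMod p] V) (((h⁻¹ * a * h : H) : V ≃ₗ[ZMod p] V) u) = _
        rw [this]
        have h3 : h * (h⁻¹ * a * h) = a * h := by group
        rw [h3]
        rfl
    have hfr2 : Module.finrank (ZMod p) W2 = k :=
      LinearEquiv.finrank_map_eq (h : V ≃ₗ[ZMod p] V) W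
    have hinf : W ⊓ W2 = ⊥ := by
      rcases hWmin (W ⊓ W2) inf_le_left (fun a ha u hu =>
        Submodule.mem_inf.mpr ⟨hWinv a ha u (Submodule.mem_inf.mp hu).1,
          hW2inv a ha u (Submodule.mem_inf.mp hu).2⟩) with h1 | h1
      · exact h1
      · exfalso
        have hle : W ≤ W2 := inf_eq_left.mp h1
        have heq : W = W2 := Submodule.eq_of_le_of_finrank_eq hle hfr2.symm
        apply hv
        rw [heq, ← hh]
        exact ⟨w, hwW, rfl⟩
    have := Submodule.finrank_sup_add_finrank_inf_eq W W2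
    rw [hinf, finrank_bot, hfr2] at this
    have h4 := Submodule.finrank_le (W ⊔ W2)
    omega
  have hk1 : 1 ≤ k := by
    rw [Nat.one_le_iff_ne_zero]
    intro h0
    exact hWne (Submodule.finrank_eq_zero.mp h0)
  -- main inequality
  have hne : Subgroup.centralizer (A : Set H) ≠ A := by
    intro hCA
    let f : H →* MulAut A := MulAut.conjNormal
    have hker : f.ker = A := by
      refine Eq.trans ?_ hCA
      ext g
      rw [MonoidHom.mem_ker, Subgroup.mem_centralizer_iff]
      constructor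
      · intro hg a ha
        have := congrArg (fun φ : MulAut A => ((φ ⟨a, ha⟩ : A) : H)) hg
        simp only [f, MulAut.conjNormal_apply, MulAut.one_apply] at this
        exact (mul_inv_eq_iff_eq_mul.mp this).symm
      · intro hg
        ext a
        simp only [f, MulAut.conjNormal_apply, MulAut.one_apply]
        rw [← hg a.1 a.2]
        group
    have h1 : Nat.card A * Nat.card f.range = Nat.card H := by
      rw [← Subgroup.index_ker, hker, Subgroup.card_mul_index]
    have h2 : Nat.card f.range ≤ Nat.card A := by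
      calc Nat.card f.range ≤ Nat.card (MulAut A) := Nat.card_le_card_of_injective _ Subtype.val_injective
        _ = Nat.totient (Nat.card A) := IsCyclic.card_mulAut A
        _ ≤ Nat.card A := Nat.totient_le _
    have hpk : 2 ≤ p ^ k := by
      calc 2 ≤ p := hp
        _ = p ^ 1 := (pow_one p).symm
        _ ≤ p ^ k := Nat.pow_le_pow_right (by omega) hk1
    have h3 : Nat.card A ≤ p ^ k - 1 := Nat.le_of_dvd (by omega) hdvd
    have h4 : p ^ (2 * k) ≤ p ^ n := Nat.pow_le_pow_right (by omega) h2k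
    have h5 : p ^ (2 * k) = p ^ k * p ^ k := by rw [two_mul, pow_add]
    obtain ⟨q, hq⟩ : ∃ q, p ^ k = q + 2 := ⟨p ^ k - 2, by omega⟩
    have h6 : Nat.card H ≤ (p ^ k - 1) * (p ^ k - 1) := by
      rw [← h1]
      exact Nat.mul_le_mul h3 (h2.trans h3)
    rw [hcardH, hq] at h6
    rw [h5, hq] at h4
    have h7 : q + 2 - 1 = q + 1 := by omega
    rw [h7] at h6
    have h8 : (q + 2) * (q + 2) - 1 ≤ p ^ n - 1 := Nat.sub_le_sub_right h4 1
    have h9 : (q + 2) * (q + 2) - 1 = (q + 1) * (q + 1) + 2 * q + 2 := by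
      have : (q + 2) * (q + 2) = (q + 1) * (q + 1) + 2 * q + 3 := by ring
      omega
    omega
  refine ⟨lt_of_le_of_ne hAle (Ne.symm hne), fun hC => hne (hAmax _ hCn hC hAle)⟩

end Cfsg.Agent.S0685
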