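import Mathlib
import Cfsg.Statements.S0691
import Cfsg.Agent.Lib.Helper12.GL2Enum

set_option autoImplicit false
open Cfsg

namespace Cfsg.Agent.S0691

open Lib.Helper12.GL2 in
def gens : List Q := [(2, 0, 0, 3), (0, 4, 1, 0), (1, 2, 1, 3)]

open Lib.Helper12.GL2 in
def elts : List Q := [(4, 1, 2, 2), (4, 4, 3, 2), (2, 3, 4, 4), (2, 2, 1, 4), (3, 2, 1, 1), (1, 3, 4, 3), (1, 4, 3, 3), (3, 1, 2, 1), (1, 1, 2, 3), (3, 4, 3, 1), (4, 3, 4, 2), (0, 1, 4, 0), (3, 0, 0, 2), (3, 3, 4, 1), (2, 1, 2, 4), (4, 2, 1, 2), (0, 2, 2, 0), (2, 4, 3, 4), (0, 3, 3, 0), (4, 0, 0, 4), (1, 2, 1, 3), (0, 4, 1, 0), (2, 0, 0, 3), (1, 0, 0, 1)]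

set_option maxRecDepth 100000 in
open Lib.Helper12.GL2 in
theorem check : good 5 gens elts = true ∧ elts.contains one = true ∧ closed 5 gens elts = true ∧
    reduced 5 elts = true ∧ semireg 5 elts = true ∧ elts.Nodup ∧ elts.length = 24 := by
  decide +kernel

/-- An exceptional sharply doubly transitive group of degree 5^2: the listed matrices generate a subgroup of GL(2,5) of order 24 acting regularly on the non-zero vectors. -/
theorem result (A : Matrix.GeneralLinearGroup (Fin 2) (ZMod 5)) (B : Matrix.GeneralLinearGroup (Fin 2) (ZMod 5)) (C : Matrix.GeneralLinearGroup (Fin 2) (ZMod 5)) (hA : (A : Matrix (Fin 2) (Fin 2) (ZMod 5)) = !![2, 0; 0, -2]) (hB : (B : Matrix (Fin 2) (Fin 2) (ZMod 5)) = !![0, -1; 1, 0]) (hC : (C : Matrix (Fin 2) (Fin 2) (ZMod 5)) = !![1, 2; 1, -2]) : Nat.card (Subgroup.closure ({A, B, C} : Set (Matrix.GeneralLinearGroup (Fin 2) (ZMod 5)))) = 24 ∧ ∀ v w : Fin 2 → ZMod 5, v ≠ 0 → w ≠ 0 →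 ∃! h : Subgroup.closure ({A, B, C} : Set (Matrix.GeneralLinearGroup (Fin 2) (ZMod 5))), Matrix.mulVec ((h : Matrix.GeneralLinearGroup (Fin 2) (ZMod 5)) : Matrix (Fin 2) (Fin 2) (ZMod 5)) v = w := by
  have : Fact (Nat.Prime 5) := ⟨by norm_num⟩
  obtain ⟨hgood, hone, hclosed, hred, hsemi, hnd, hlen⟩ := check
  have hS : ∀ g ∈ ({A, B, C} : Set (Matrix.GeneralLinearGroup (Fin 2) (ZMod 5))), ∃ q ∈ gens,
      (g : Matrix (Fin 2) (Fin 2) (ZMod 5)) = Lib.Helper12.GL2.toMat 5 q := by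
    intro g hg
    simp only [Set.mem_insert_iff, Set.mem_singleton_iff] at hg
    rcases hg with rfl | rfl | rfl
    · refine ⟨(2, 0, 0, 3), by simp [gens], ?_⟩
      rw [hA]; decide
    · refine ⟨(0, 4, 1, 0), by simp [gens], ?_⟩
      rw [hB]; decide
    · refine ⟨(1, 2, 1, 3), by simp [gens], ?_⟩
      rw [hC]; decide
  have hS' : ∀ q ∈ gens, ∃ g ∈ ({A, B, C} : Set (Matrix.GeneralLinearGroup (Fin 2) (ZMod 5))),
      (g : Matrix (Fin 2) (Fin 2) (ZMod 5)) = Lib.Helper12.GL2.toMat 5 q := by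
    intro q hq
    simp only [gens, List.mem_cons, List.not_mem_nil, or_false] at hq
    rcases hq with rfl | rfl | rfl
    · refine ⟨A, by simp, ?_⟩
      rw [hA]; decide
    · refine ⟨B, by simp, ?_⟩
      rw [hB]; decide
    · refine ⟨C, by simp, ?_⟩
      rw [hC]; decide
  have hcard := Lib.Helper12.GL2.card_closure _ gens elts hS hS' hgood hone hclosed hred hnd
  rw [hlen] at hcard
  refine ⟨hcard, ?_⟩
  apply Lib.Helper12.GL2.regular_of_semiregular_card _ _ (by rw [hcard]; norm_num)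
  intro h hh v hv hfix
  obtain ⟨x, hx, hhx⟩ := (Lib.Helper12.GL2.mem_closure_iff _ gens elts hS hS' hgood hone hclosed h).mp hh
  rw [hhx] at hfix
  have := Lib.Helper12.GL2.eq_one_of_semireg elts hsemi hx hv hfix
  rw [this, Lib.Helper12.GL2.toMat_one] at hhx
  exact Units.ext hhx

end Cfsg.Agent.S0691
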