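import Mathlib
import Cfsg.Statements.S0692
import Cfsg.Agent.Lib.Helper12.GL2Enum

set_option autoImplicit false
open Cfsg

namespace Cfsg.Agent.S0692

open Lib.Helper12.GL2 in
def gens : List Q := [(0, 10, 1, 0), (2, 4, 1, 8)]

open Lib.Helper12.GL2 in
def elts : List Q := [(4, 4, 4, 7), (7, 4, 4, 4), (4, 6, 10, 7), (8, 2, 6, 3), (4, 7, 7, 7), (10, 7, 7, 5), (9, 8, 8, 6), (2, 2, 2, 8), (7, 8, 8, 3), (6, 3, 3, 9), (7, 7, 7, 4), (5, 4, 4, 10), (7, 5, 1, 4), (3, 9, 5, 8), (4, 10, 6, 7), (8, 6, 2, 3), (2, 8, 9, 9), (8, 3, 4, 3), (9, 2, 3, 2), (3, 7, 8, 8), (1, 4, 4, 6), (5, 8, 8, 2), (3, 10, 0, 4), (6, 7, 7, 1), (2, 3, 3, 5), (9, 9, 9, 3), (4, 3, 3, 8), (0, 4, 8, 1), (3, 2, 2, 9), (8, 8, 8, 4), (1, 3, 7, 0), (2, 6, 5, 10), (4, 1, 0, 3), (6, 2, 1, 6), (7, 1, 5, 4), (3, 5, 9, 8), (9, 3, 2, 2), (3, 8, 7, 8), (8, 1, 0, 7), (2, 9, 8, 9), (8, 4, 3, 3), (7, 0,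 10, 8), (5, 10, 9, 5), (0, 3, 7, 10), (1, 6, 5, 9), (5, 2, 1, 5), (10, 4, 8, 0), (9, 6, 5, 1), (0, 7, 3, 10), (8, 9, 9, 2), (3, 3, 3, 7), (10, 8, 4, 0), (9, 5, 6, 1), (7, 10, 0, 8), (5, 9, 10, 5), (1, 5, 6, 9), (8, 0, 1, 7), (5, 1, 2, 5), (4, 5, 2, 0), (5, 6, 3, 6), (10, 1, 9, 1), (0, 9, 6, 4), (4, 0, 1, 3), (6, 1, 2, 6), (0, 8, 4, 1), (10, 5, 6, 2), (6, 9, 10, 6), (1, 7, 3, 0), (2, 5, 6, 10), (2, 0, 7, 6), (3, 6, 6, 5), (9, 1, 1, 10), (6, 4, 0, 2), (5, 5, 5, 3), (10, 10, 10, 9), (2, 7, 0, 6), (10, 6, 5, 2), (3, 0, 10, 4), (6, 10, 9, 6), (7, 6, 9, 0), (6, 5, 8, 5), (1, 10, 2, 10), (0, 2, 5, 7), (5, 3, 6, 6), (10, 9, 1, 1), (0, 6, 9, 4), (2, 1, 4, 8), (4, 2, 5, 0), (9, 0, 4, 5), (8, 5, 5, 6), (2, 10, 10, 1), (5, 7, 0, 9), (6, 6, 6, 8), (1, 1, 1, 2), (9, 4, 0, 5), (4, 8, 9, 10), (5, 0, 7, 9), (10, 2, 3, 4), (8, 10, 7, 2), (6, 8, 5, 5), (1, 2, 10, 10),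 (0, 5, 2, 7), (9, 10, 7, 3), (7, 9, 6, 0), (3, 4, 1, 9), (7, 2, 3, 1), (1, 8, 9, 7), (7, 3, 2, 1), (6, 0, 4, 2), (1, 9, 8, 7), (3, 1, 4, 9), (9, 7, 10, 3), (0, 1, 10, 0), (8, 7, 10, 2), (4, 9, 8, 10), (10, 3, 2, 4), (10, 0, 0, 10), (2, 4, 1, 8), (0, 10, 1, 0), (1, 0, 0, 1)]

set_option maxRecDepth 100000 in
open Lib.Helper12.GL2 in
theorem check : good 11 gens elts = true ∧ elts.contains one = true ∧ closed 11 gens elts = true ∧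
    reduced 11 elts = true ∧ semireg 11 elts = true ∧ elts.Nodup ∧ elts.length = 120 := by
  decide +kernel

/-- An exceptional sharply doubly transitive group of degree 11^2: the listed matrices generate a subgroup of GL(2,11) of order 120 acting regularly on the non-zero vectors. -/
theorem result (A : Matrix.GeneralLinearGroup (Fin 2) (ZMod 11)) (B : Matrix.GeneralLinearGroup (Fin 2) (ZMod 11)) (hA : (A : Matrix (Fin 2) (Fin 2) (ZMod 11)) = !![0, -1; 1, 0]) (hB : (B : Matrix (Fin 2) (Fin 2) (ZMod 11)) = !![2, 4; 1, -3]) : Nat.card (Subgroup.closure ({A, B} : Set (Matrix.GeneralLinearGroup (Fin 2) (ZMod 11)))) = 120 ∧ ∀ v w : Fin 2 → ZMod 11, v ≠ 0 → w ≠ 0 → ∃! h : Subgroup.closure ({A, B} : Set (Matrix.GeneralLinearGroup (Fin 2) (ZMod 11))), Matrix.mulVec ((h : Matrix.GeneralLinearGroup (Fin 2) (ZMod 11)) : Matrix (Fin 2) (Fin 2) (ZMod 11)) v = w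 := by
  have : Fact (Nat.Prime 11) := ⟨by norm_num⟩
  obtain ⟨hgood, hone, hclosed, hred, hsemi, hnd, hlen⟩ := check
  have hS : ∀ g ∈ ({A, B} : Set (Matrix.GeneralLinearGroup (Fin 2) (ZMod 11))), ∃ q ∈ gens,
      (g : Matrix (Fin 2) (Fin 2) (ZMod 11)) = Lib.Helper12.GL2.toMat 11 q := by
    intro g hg
    simp only [Set.mem_insert_iff, Set.mem_singleton_iff] at hg
    rcases hg with rfl | rfl
    · refine ⟨(0, 10, 1, 0), by simp [gens], ?_⟩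
      rw [hA]; decide
    · refine ⟨(2, 4, 1, 8), by simp [gens], ?_⟩
      rw [hB]; decide
  have hS' : ∀ q ∈ gens, ∃ g ∈ ({A, B} : Set (Matrix.GeneralLinearGroup (Fin 2) (ZMod 11))),
      (g : Matrix (Fin 2) (Fin 2) (ZMod 11)) = Lib.Helper12.GL2.toMat 11 q := by
    intro q hq
    simp only [gens, List.mem_cons, List.not_mem_nil, or_false] at hq
    rcases hq with rfl | rfl
    · refine ⟨A, by simp, ?_⟩
      rw [hA]; decide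
    · refine ⟨B, by simp, ?_⟩
      rw [hB]; decide
  have hcard := Lib.Helper12.GL2.card_closure _ gens elts hS hS' hgood hone hclosed hred hnd
  rw [hlen] at hcard
  refine ⟨hcard, ?_⟩
  apply Lib.Helper12.GL2.regular_of_semiregular_card _ _ (by rw [hcard]; norm_num)
  intro h hh v hv hfix
  obtain ⟨x, hx, hhx⟩ := (Lib.Helper12.GL2.mem_closure_iff _ gens elts hS hS' hgood hone hclosed h).mp hh
  rw [hhx] at hfix
  have := Lib.Helper12.GL2.eq_one_of_semireg elts hsemi hx hv hfix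
  rw [this, Lib.Helper12.GL2.toMat_one] at hhx
  exact Units.ext hhx

end Cfsg.Agent.S0692
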