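import Mathlib
import Cfsg.Statements.S0693
import Cfsg.Agent.Lib.Helper12.GL2Enum2

set_option autoImplicit false
open Cfsg

namespace Cfsg.Agent.S0693

open Lib.Helper12.GL2 in
def gens : List Q := [(0, 58, 1, 0), (9, 15, 49, 49)]

open Lib.Helper12.GL2 in
def elts : List Q := [(3, 7, 7, 56), (52, 3, 3, 7), (34, 17, 43, 25), (41, 14, 40, 18), (7, 56, 56, 52), (43, 25, 25, 42), (45, 41, 41, 40), (48, 40, 40, 10), (53, 21, 21, 5), (40, 18, 18, 45), (56, 52, 52, 3), (42, 34, 34, 43), (25, 42, 16, 34), (18, 45, 19, 41), (34, 43, 17, 25), (41, 40, 14, 18), (40, 10, 11, 19), (21, 5, 6, 38), (19, 48, 49, 40), (38, 53, 54, 21), (16, 34, 34, 17), (19, 41, 41, 14), (38, 30, 31, 54), (17, 25, 25, 16), (14, 18, 18, 19), (11, 19, 19, 49), (6, 38, 38, 54), (31, 54, 21, 29), (49, 40, 40, 11), (54, 21, 21, 6), (29, 38, 5, 31), (25, 28, 27, 35), (54, 29, 28, 38), (32, 25, 24, 28), (25, 16, 42, 34), (18, 19, 45, 41), (19, 49, 48, 40), (38, 54, 53, 21), (21, 29, 28, 5),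 (40, 11, 10, 19), (21, 6, 5, 38), (5, 31, 30, 21), (27, 35, 34, 31), (28, 38, 5, 30), (24, 28, 27, 34), (31, 25, 24, 27), (30, 54, 21, 28), (34, 32, 31, 24), (28, 5, 38, 30), (10, 19, 19, 48), (5, 38, 38, 53), (30, 21, 54, 28), (34, 31, 32, 24), (5, 30, 31, 21), (27, 34, 35, 31), (24, 27, 28, 34), (21, 28, 29, 5), (31, 24, 25, 27), (46, 11, 45, 39), (58, 55, 30, 1), (4, 36, 11, 55), (39, 14, 48, 46), (54, 28, 29, 38), (32, 24, 25, 28), (31, 21, 54, 29), (35, 31, 32, 25), (28, 34, 35, 32), (29, 5, 38, 31), (25, 27, 28, 35), (45, 39, 13, 48), (30, 1, 1, 4), (11, 55, 55, 23), (48, 46, 20, 45), (4, 58, 58, 30), (23, 4, 4, 11), (45, 13, 39, 48), (35, 32, 31, 25), (38, 31, 30, 54), (28, 35, 34, 32), (13, 48, 14, 20), (1, 4, 29, 58), (55, 23, 48, 4), (20, 45, 11, 13), (58, 30, 55, 1), (4, 11, 36, 55), (39, 48, 14, 46), (9, 49, 15, 49), (46, 45, 11, 39), (14, 20, 46, 11), (29, 58, 58, 55), (48, 4, 4, 36), (11, 13, 39, 14), (55, 1, 1, 29), (36, 55, 55, 48), (14,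 46, 20, 11), (15, 49, 50, 10), (11, 39, 13, 14), (10, 9, 10, 15), (49, 10, 44, 9), (1, 29, 4, 58), (55, 48, 23, 4), (20, 11, 45, 13), (50, 10, 44, 10), (13, 14, 48, 20), (10, 15, 49, 50), (44, 9, 10, 49), (49, 49, 50, 44), (44, 10, 9, 49), (48, 20, 46, 45), (49, 50, 49, 44), (10, 49, 15, 50), (50, 44, 10, 10), (0, 1, 58, 0), (49, 44, 10, 9), (15, 50, 49, 10), (10, 10, 9, 15), (58, 0, 0, 58), (9, 15, 49, 49), (0, 58, 1, 0), (1, 0, 0, 1)]

set_option maxRecDepth 100000 in
open Lib.Helper12.GL2 in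
theorem check : good 59 gens elts = true ∧ elts.contains one = true ∧ closed 59 gens elts = true ∧
    reduced 59 elts = true ∧ semireg 59 elts = true ∧ elts.Nodup ∧ elts.length = 120 := by
  decide +kernel

theorem four_smul : (!![4, 0; 0, 4] : Matrix (Fin 2) (Fin 2) (ZMod 59)) =
    (4 : ZMod 59) • (1 : Matrix (Fin 2) (Fin 2) (ZMod 59)) := by decide

theorem four_pow : (4 : ZMod 59) ^ 29 = 1 := by decide

theorem four_ne : (!![4, 0; 0, 4] : Matrix (Fin 2) (Fin 2) (ZMod 59)) 0 0 ≠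
    (1 : Matrix (Fin 2) (Fin 2) (ZMod 59)) 0 0 := by decide

/-- An exceptional sharply doubly transitive group of degree 59^2: the listed matrices generate a subgroup of GL(2,59) of order 3480 acting regularly on the non-zero vectors. -/
theorem result (A : Matrix.GeneralLinearGroup (Fin 2) (ZMod 59)) (B : Matrix.GeneralLinearGroup (Fin 2) (ZMod 59)) (C : Matrix.GeneralLinearGroup (Fin 2) (ZMod 59)) (hA : (A : Matrix (Fin 2) (Fin 2) (ZMod 59)) = !![0, -1; 1, 0]) (hB : (B : Matrix (Fin 2) (Fin 2) (ZMod 59)) = !![9, 15; -10, -10]) (hC : (C : Matrix (Fin 2) (Fin 2) (ZMod 59)) = !![4, 0; 0, 4]) : Nat.card (Subgroup.closure ({A, B, C} : Set (Matrix.GeneralLinearGroup (Fin 2) (ZMod 59)))) = 3480 ∧ ∀ v w : Fin 2 → ZMod 59, v ≠ 0 → w ≠ 0 → ∃! h : Subgroup.closure ({A, B, C} : Set (Matrix.GeneralLinearGroup (Fin 2) (ZMod 59))), Matrix.mulVec ((h : Matrix.GeneralLinearGroup (Fin 2) (ZMod 59)) : Matrix (Fin 2) (Fin 2) (ZMod 59)) v = w := by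
  have : Fact (Nat.Prime 59) := ⟨by norm_num⟩
  obtain ⟨hgood, hone, hclosed, hred, hsemi, hnd, hlen⟩ := check
  have hS : ∀ g ∈ ({A, B} : Set (Matrix.GeneralLinearGroup (Fin 2) (ZMod 59))), ∃ q ∈ gens,
      (g : Matrix (Fin 2) (Fin 2) (ZMod 59)) = Lib.Helper12.GL2.toMat 59 q := by
    intro g hg
    simp only [Set.mem_insert_iff, Set.mem_singleton_iff] at hg
    rcases hg with rfl | rfl
    · refine ⟨(0, 58, 1, 0), by simp [gens], ?_⟩
      rw [hA]; decide
    · refine ⟨(9, 15, 49, 49), by simp [gens], ?_⟩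
      rw [hB]; decide
  have hS' : ∀ q ∈ gens, ∃ g ∈ ({A, B} : Set (Matrix.GeneralLinearGroup (Fin 2) (ZMod 59))),
      (g : Matrix (Fin 2) (Fin 2) (ZMod 59)) = Lib.Helper12.GL2.toMat 59 q := by
    intro q hq
    simp only [gens, List.mem_cons, List.not_mem_nil, or_false] at hq
    rcases hq with rfl | rfl
    · refine ⟨A, by simp, ?_⟩
      rw [hA]; decide
    · refine ⟨B, by simp, ?_⟩
      rw [hB]; decide
  have hcard1 := Lib.Helper12.GL2.card_closure _ gens elts hS hS' hgood hone hclosed hred hnd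
  rw [hlen] at hcard1
  set H1 := Subgroup.closure ({A, B} : Set (Matrix.GeneralLinearGroup (Fin 2) (ZMod 59))) with hH1
  set H := Subgroup.closure ({A, B, C} : Set (Matrix.GeneralLinearGroup (Fin 2) (ZMod 59))) with hH
  -- `C` is a scalar matrix
  have hCs : (C : Matrix (Fin 2) (Fin 2) (ZMod 59)) = (4 : ZMod 59) • (1 : Matrix (Fin 2) (Fin 2) (ZMod 59)) := by
    rw [hC]; exact four_smul
  have hCpow : ∀ n : ℕ, ((C ^ n : Matrix.GeneralLinearGroup (Fin 2) (ZMod 59)) : Matrix (Fin 2) (Fin 2) (ZMod 59))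
      = ((4 : ZMod 59) ^ n) • (1 : Matrix (Fin 2) (Fin 2) (ZMod 59)) := by
    intro n
    rw [Units.val_pow_eq_pow_val, hCs, smul_pow, one_pow]
  have hCcomm : ∀ g : Matrix.GeneralLinearGroup (Fin 2) (ZMod 59), g * C = C * g := by
    intro g
    apply Units.ext
    rw [Units.val_mul, Units.val_mul, hCs]
    simp
  have hC29 : C ^ 29 = 1 := by
    apply Units.ext
    rw [hCpow, Units.val_one]
    rw [four_pow, one_smul]
  have hC1 : C ≠ 1 := by
    intro h
    have h1 := congrArg (fun g : Matrix.GeneralLinearGroup (Fin 2) (ZMod 59) => (g : Matrix (Fin 2) (Fin 2) (ZMod 59)) 0 0) h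
    simp only [hC, Units.val_one] at h1
    exact four_ne h1
  have : Fact (Nat.Prime 29) := ⟨by norm_num⟩
  have hCord : orderOf C = 29 := orderOf_eq_prime hC29 hC1
  have hH1H : H1 ≤ H := by
    apply Subgroup.closure_mono
    intro x hx
    simp only [Set.mem_insert_iff, Set.mem_singleton_iff] at hx
    rcases hx with rfl | rfl <;> simp
  have hCH : C ∈ H := Subgroup.subset_closure (by simp)
  -- decomposition
  have hdec : ∀ h ∈ H, ∃ k : ℕ, ∃ s ∈ H1, h = C ^ k * s := by
    intro h hh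
    have hh' : h ∈ H.toSubmonoid := hh
    rw [hH, Subgroup.closure_toSubmonoid_of_finite] at hh'
    clear hh
    induction hh' using Submonoid.closure_induction_right with
    | one => exact ⟨0, 1, H1.one_mem, by simp⟩
    | mul_right a _ g hg ih =>
      obtain ⟨k, s, hs, rfl⟩ := ih
      simp only [Set.mem_insert_iff, Set.mem_singleton_iff] at hg
      rcases hg with rfl | rfl | rfl
      · exact ⟨k, s * g, H1.mul_mem hs (Subgroup.subset_closure (by simp)), by rw [mul_assoc]⟩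
      · exact ⟨k, s * g, H1.mul_mem hs (Subgroup.subset_closure (by simp)), by rw [mul_assoc]⟩
      · exact ⟨k + 1, s, hs, by rw [mul_assoc, hCcomm s, ← mul_assoc, pow_succ]⟩
  -- semiregularity
  have hsemiH : ∀ h ∈ H, ∀ v : Fin 2 → ZMod 59, v ≠ 0 →
      (h : Matrix (Fin 2) (Fin 2) (ZMod 59)).mulVec v = v → h = 1 := by
    intro h hh v hv hfix
    obtain ⟨k, s, hs, rfl⟩ := hdec h hh
    have hs120 : s ^ 120 = 1 := by
      have := pow_card_eq_one' (G := H1) (x := ⟨s, hs⟩)
      rw [hcard1] at this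
      exact congrArg Subtype.val this
    have hcomm : Commute (C ^ k) s := by
      apply Commute.pow_left
      exact (hCcomm s).symm
    have hpow : (C ^ k * s) ^ 120 = C ^ (k * 120) := by
      rw [hcomm.mul_pow, hs120, mul_one, pow_mul]
    have hfixn : ∀ n : ℕ, (((C ^ k * s) ^ n : Matrix.GeneralLinearGroup (Fin 2) (ZMod 59)) :
        Matrix (Fin 2) (Fin 2) (ZMod 59)).mulVec v = v := by
      intro n
      induction n with
      | zero => simp
      | succ n ih => rw [pow_succ, Units.val_mul, ← Matrix.mulVec_mulVec, hfix, ih]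
    have h1 := hfixn 120
    rw [hpow, hCpow, Matrix.smul_mulVec, Matrix.one_mulVec] at h1
    have h2 : (4 : ZMod 59) ^ (k * 120) = 1 := by
      by_contra hne
      apply hv
      have h3 : ((4 : ZMod 59) ^ (k * 120) - 1) • v = 0 := by rw [sub_smul, h1, one_smul, sub_self]
      rcases smul_eq_zero.mp h3 with h4 | h4
      · exact absurd (sub_eq_zero.mp h4) hne
      · exact h4
    have hD120 : (C ^ k) ^ 120 = 1 := by
      apply Units.ext
      rw [← pow_mul, hCpow, h2, one_smul, Units.val_one]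
    have hD29 : (C ^ k) ^ 29 = 1 := by
      rw [← pow_mul, mul_comm, pow_mul, hC29, one_pow]
    have hD : C ^ k = 1 := by
      have h841 : (C ^ k) ^ 841 = 1 := by
        rw [show 841 = 29 * 29 by norm_num, pow_mul, hD29, one_pow]
      have h840 : (C ^ k) ^ 840 = 1 := by
        rw [show 840 = 120 * 7 by norm_num, pow_mul, hD120, one_pow]
      rw [show 841 = 840 + 1 by norm_num, pow_succ, h840, one_mul] at h841
      exact h841
    rw [hD, one_mul] at hfix ⊢
    obtain ⟨x, hx, hhx⟩ := (Lib.Helper12.GL2.mem_closure_iff _ gens elts hS hS' hgood hone hclosed s).mp hs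
    rw [hhx] at hfix
    have := Lib.Helper12.GL2.eq_one_of_semireg elts hsemi hx hv hfix
    rw [this, Lib.Helper12.GL2.toMat_one] at hhx
    exact Units.ext hhx
  have hle : Nat.card H ≤ 59 ^ 2 - 1 := Lib.Helper12.GL2.card_le_of_semiregular H hsemiH
  have hdvd : 3480 ∣ Nat.card H := by
    have h120 : 120 ∣ Nat.card H := by
      rw [← hcard1]; exact Subgroup.card_dvd_of_le hH1H
    have h29 : 29 ∣ Nat.card H := by
      have := orderOf_dvd_natCard (⟨C, hCH⟩ : H)
      rwa [Subgroup.orderOf_mk, hCord] at this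
    have := Nat.Coprime.mul_dvd_of_dvd_of_dvd (by norm_num : Nat.Coprime 120 29) h120 h29
    simpa using this
  have hcard : Nat.card H = 3480 := by
    have hpos : 0 < Nat.card H := Nat.card_pos
    have := Nat.le_of_dvd hpos hdvd
    norm_num at hle
    omega
  refine ⟨hcard, ?_⟩
  exact Lib.Helper12.GL2.regular_of_semiregular_card _ hsemiH (by rw [hcard]; norm_num)

end Cfsg.Agent.S0693
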