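import Mathlib
import Cfsg.Statements.S0694

set_option autoImplicit false
open Cfsg

namespace Cfsg.Agent.S0694

/-- geometric sum -/
def gs (q i : ℕ) : ℕ := ∑ j ∈ Finset.range i, q ^ j

theorem gs_mul (q i : ℕ) (hq : 1 ≤ q) : gs q i * (q - 1) + 1 = q ^ i := by
  obtain ⟨c, rfl⟩ : ∃ c, q = c + 1 := ⟨q - 1, by omega⟩
  simpa [gs] using geom_sum_mul_add c i

theorem gs_add (q i j : ℕ) : gs q (i + j) = gs q i + q ^ i * gs q j := by
  unfold gs
  rw [Finset.sum_range_add, Finset.mul_sum]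
  simp only [pow_add]

theorem gs_pos (q i : ℕ) (_hq : 1 ≤ q) (hi : 0 < i) : 0 < gs q i := by
  obtain ⟨k, rfl⟩ : ∃ k, i = 1 + k := ⟨i - 1, by omega⟩
  rw [gs_add]
  simp [gs]

theorem modEq_iff (q n i : ℕ) (hq : 2 ≤ q) :
    q ^ i ≡ 1 [MOD n * (q - 1)] ↔ n ∣ gs q i := by
  rw [Nat.ModEq.comm, Nat.modEq_iff_dvd' (Nat.one_le_pow _ _ (by omega))]
  have h := gs_mul q i (by omega)
  have h2 : q ^ i - 1 = gs q i * (q - 1) := by omega
  rw [h2]
  exact Nat.mul_dvd_mul_iff_right (by omega)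

theorem gs_dvd_mul (q i j : ℕ) (hq : 2 ≤ q) : gs q i ∣ gs q (i * j) := by
  have h := Nat.pow_sub_one_dvd_pow_sub_one q (Dvd.intro j rfl : i ∣ i * j)
  have h1 := gs_mul q i (by omega)
  have h2 := gs_mul q (i * j) (by omega)
  have h1' : q ^ i - 1 = gs q i * (q - 1) := by omega
  have h2' : q ^ (i * j) - 1 = gs q (i * j) * (q - 1) := by omega
  rw [h1', h2'] at h
  exact (Nat.mul_dvd_mul_iff_right (by omega)).mp h

theorem gs_modEq (q r i : ℕ) (hq : 1 ≤ q) (hr : r ∣ q - 1) : gs q i ≡ i [MOD r] := by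
  have hq1 : q ≡ 1 [MOD r] := ((Nat.modEq_iff_dvd' hq).mpr hr).symm
  induction i with
  | zero => simp [gs]; rfl
  | succ i ih =>
    rw [gs_add]
    have h1 : gs q 1 = 1 := by simp [gs]
    rw [h1, mul_one]
    have := (hq1.pow i)
    rw [one_pow] at this
    exact ih.add this

theorem exists_le (q m : ℕ) (hm : 0 < m) (hc : Nat.Coprime m q) :
    ∃ i, 0 < i ∧ i ≤ m ∧ m ∣ gs q i := by
  obtain ⟨i, hi, j, hj, hij, h⟩ := Finset.exists_ne_map_eq_of_card_lt_of_maps_to
    (s := Finset.range (m + 1)) (t := Finset.range m) (f := fun j => gs q j % m)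
    (by simp) (by
      intro j _
      simp only [Finset.coe_range, Set.mem_Iio]
      exact Nat.mod_lt _ hm)
  simp only [Finset.mem_range] at hi hj
  have key : ∀ i j : ℕ, i < j → j < m + 1 → gs q i % m = gs q j % m →
      ∃ i, 0 < i ∧ i ≤ m ∧ m ∣ gs q i := by
    intro i j hij hj h
    obtain ⟨k, rfl⟩ : ∃ k, j = i + k := ⟨j - i, by omega⟩
    refine ⟨k, by omega, by omega, ?_⟩
    rw [gs_add] at h
    have h2 : m ∣ q ^ i * gs q k := by
      have : gs q i ≡ gs q i + q ^ i * gs q k [MOD m] := h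
      have := (Nat.modEq_iff_dvd' (Nat.le_add_right _ _)).mp this
      rwa [Nat.add_sub_cancel_left] at this
    exact (Nat.Coprime.pow_right i hc).dvd_of_dvd_mul_left h2
  rcases lt_or_gt_of_ne hij with h' | h'
  · exact key i j h' hj h
  · exact key j i h' hi h.symm

theorem two_pow_dvd (q : ℕ) (h4 : 4 ∣ q + 1) (a : ℕ) : 2 ^ (a + 2) ∣ gs q (2 ^ (a + 1)) := by
  induction a with
  | zero =>
    have : gs q (2 ^ (0 + 1)) = q + 1 := by simp [gs, Finset.sum_range_succ, add_comm]
    rw [this]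
    exact h4
  | succ a ih =>
    have e : 2 ^ (a + 1 + 1) = 2 ^ (a + 1) + 2 ^ (a + 1) := by ring
    rw [e, gs_add]
    have e2 : gs q (2 ^ (a + 1)) + q ^ 2 ^ (a + 1) * gs q (2 ^ (a + 1)) =
        gs q (2 ^ (a + 1)) * (q ^ 2 ^ (a + 1) + 1) := by ring
    rw [e2, pow_succ 2 (a + 2)]
    apply Nat.mul_dvd_mul ih
    have hq : Odd q := by
      rcases Nat.even_or_odd q with h | h
      · exfalso
        obtain ⟨c, hc⟩ := h
        omega
      · exact h
    exact even_iff_two_dvd.mp ((hq.pow).add_odd odd_one)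

theorem forward (q n i : ℕ) (hq : 2 ≤ q) (hn : 0 < n) (hi : 0 < i)
    (h1 : ∀ r : ℕ, r.Prime → r ∣ n → r ∣ q - 1) (h2 : 4 ∣ n → 4 ∣ q - 1) :
    n ∣ gs q i ↔ n ∣ i := by
  have hS0 : gs q i ≠ 0 := (gs_pos q i (by omega) hi).ne'
  rw [← Nat.factorization_prime_le_iff_dvd hn.ne' hS0,
    ← Nat.factorization_prime_le_iff_dvd hn.ne' hi.ne']
  apply forall_congr'
  intro r
  apply forall_congr'
  intro hr
  have : Fact r.Prime := ⟨hr⟩
  rw [Nat.factorization_def _ hr, Nat.factorization_def _ hr, Nat.factorization_def _ hr]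
  by_cases hrn : r ∣ n
  swap
  · rw [padicValNat.eq_zero_of_not_dvd hrn]
    simp
  have hrq := h1 r hr hrn
  have hrq' : ¬ r ∣ q := by
    intro h
    have : r ∣ 1 := by
      have := (Nat.dvd_sub h hrq)
      rwa [show q - (q - 1) = 1 by omega] at this
    exact hr.one_lt.ne' (Nat.dvd_one.mp this)
  have hmul : padicValNat r (q ^ i - 1) = padicValNat r (gs q i) + padicValNat r (q - 1) := by
    have h := gs_mul q i (by omega)
    have h2 : q ^ i - 1 = gs q i * (q - 1) := by omega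
    rw [h2, padicValNat.mul hS0 (by omega)]
  rcases hr.eq_two_or_odd' with rfl | hodd
  · rcases Nat.even_or_odd i with hie | hio
    · have h3 := padicValNat.pow_two_sub_one (x := q) (n := i) (by omega) hrq' hi.ne' hie
      have hq1 : 1 ≤ padicValNat 2 (q + 1) := by
        rw [← padicValNat_dvd_iff_le (by omega), pow_one]
        omega
      have hi1 : 1 ≤ padicValNat 2 i := by
        rw [← padicValNat_dvd_iff_le hi.ne', pow_one]
        exact even_iff_two_dvd.mp hie
      by_cases h4 : 4 ∣ q - 1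
      · have hq2 : ¬ 2 ≤ padicValNat 2 (q + 1) := by
          rw [← padicValNat_dvd_iff_le (by omega)]
          norm_num
          omega
        have : padicValNat 2 (gs q i) = padicValNat 2 i := by omega
        rw [this]
      · have hn2 : ¬ 2 ≤ padicValNat 2 n := by
          rw [← padicValNat_dvd_iff_le hn.ne']
          norm_num
          exact fun h => h4 (h2 h)
        constructor
        · intro _; omega
        · intro _; omega
    · have h3 : ¬ 2 ∣ gs q i := by
        have := gs_modEq q 2 i (by omega) hrq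
        intro h
        have h5 : gs q i % 2 = i % 2 := this
        obtain ⟨c, hc⟩ := hio
        omega
      have h4 : ¬ 2 ∣ i := by
        obtain ⟨c, hc⟩ := hio
        omega
      rw [padicValNat.eq_zero_of_not_dvd h3, padicValNat.eq_zero_of_not_dvd h4]
  · have h3 := padicValNat.pow_sub_pow (p := r) hodd (x := q) (y := 1) (by omega) hrq hrq' hi.ne'
    rw [one_pow] at h3
    have : padicValNat r (gs q i) = padicValNat r i := by omega
    rw [this]

/-- The Dickson pair condition: for a prime power `q` and `n > 1`, (every prime factor of `n` divides `q - 1`, and `4 ∣ n → 4 ∣ q - 1`) holds exactly when `q ^ n ≡ 1` modulo `n * (q - 1)` but `q ^ i` is not, for `0 < i < n`. -/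
theorem result (q n : ℕ) (hq : IsPrimePow q) (hn : 1 < n) : ((∀ r : ℕ, r.Prime → r ∣ n → r ∣ q - 1) ∧ (4 ∣ n → 4 ∣ q - 1)) ↔ (q ^ n ≡ 1 [MOD n * (q - 1)] ∧ ∀ i : ℕ, 0 < i → i < n → ¬ q ^ i ≡ 1 [MOD n * (q - 1)]) := by
  have hq2 : 2 ≤ q := hq.two_le
  simp only [modEq_iff q n _ hq2]
  constructor
  · rintro ⟨h1, h2⟩
    refine ⟨(forward q n n hq2 (by omega) (by omega) h1 h2).mpr dvd_rfl, fun i hi hin => ?_⟩
    rw [forward q n i hq2 (by omega) hi h1 h2]
    exact Nat.not_dvd_of_pos_of_lt hi hin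
  · rintro ⟨hB1, hB2⟩
    have hcop : Nat.Coprime n q := by
      have h := gs_mul q n (by omega)
      have h3 : Nat.Coprime (gs q n) (q ^ n) := by
        rw [← h]
        simp
      exact Nat.Coprime.coprime_dvd_left hB1 ((Nat.coprime_pow_right_iff (by omega) _ _).mp h3)
    have hcomb : ∀ a m i j : ℕ, Nat.Coprime a m → n = a * m → a ∣ gs q i → m ∣ gs q j →
        0 < i → 0 < j → i * j < n → False := by
      intro a m i j ham hn' hi hj hi0 hj0 hlt
      apply hB2 (i * j) (Nat.mul_pos hi0 hj0) hlt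
      rw [hn']
      apply ham.mul_dvd_of_dvd_of_dvd
      · exact hi.trans (gs_dvd_mul q i j hq2)
      · rw [mul_comm i j]
        exact hj.trans (gs_dvd_mul q j i hq2)
    have h1 : ∀ r : ℕ, r.Prime → r ∣ n → r ∣ q - 1 := by
      intro r hr hrn
      by_contra hrq
      obtain ⟨a, m, hrm, hnm⟩ := Nat.exists_eq_pow_mul_and_not_dvd (by omega : n ≠ 0) r hr.ne_one
      have ha : a ≠ 0 := by
        rintro rfl
        rw [pow_zero, one_mul] at hnm
        exact hrm (hnm ▸ hrn)
      have hm0 : 0 < m := by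
        rcases Nat.eq_zero_or_pos m with rfl | h
        · omega
        · exact h
      have hmq : Nat.Coprime m q := Nat.Coprime.coprime_dvd_left ⟨r ^ a, by rw [hnm, mul_comm]⟩ hcop
      have hraq : Nat.Coprime (r ^ a) q := Nat.Coprime.coprime_dvd_left ⟨m, hnm⟩ hcop
      obtain ⟨j, hj0, hjm, hj⟩ := exists_le q m hm0 hmq
      have hra1 : 1 < r ^ a := Nat.one_lt_pow ha hr.one_lt
      have hφ : r ^ a ∣ gs q (Nat.totient (r ^ a)) := by
        have h3 := Nat.ModEq.pow_totient hraq.symm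
        have h4 := (Nat.modEq_iff_dvd' (Nat.one_le_pow _ _ (by omega))).mp h3.symm
        have h5 := gs_mul q (Nat.totient (r ^ a)) (by omega)
        have h6 : q ^ (Nat.totient (r ^ a)) - 1 = gs q (Nat.totient (r ^ a)) * (q - 1) := by omega
        rw [h6] at h4
        exact (Nat.Coprime.pow_left a ((Nat.Prime.coprime_iff_not_dvd hr).mpr hrq)).dvd_of_dvd_mul_right h4
      refine hcomb (r ^ a) m _ j (Nat.Coprime.pow_left a ((Nat.Prime.coprime_iff_not_dvd hr).mpr hrm))
        hnm hφ hj (Nat.totient_pos.mpr (by omega)) hj0 ?_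
      rw [hnm]
      calc Nat.totient (r ^ a) * j < r ^ a * j :=
            Nat.mul_lt_mul_of_pos_right (Nat.totient_lt _ hra1) hj0
        _ ≤ r ^ a * m := Nat.mul_le_mul_left _ hjm
    refine ⟨h1, fun h4n => ?_⟩
    by_contra h4q
    have h2q : 2 ∣ q - 1 := h1 2 Nat.prime_two (Dvd.dvd.trans (by norm_num) h4n)
    have h4q' : 4 ∣ q + 1 := by omega
    obtain ⟨a, m, hrm, hnm⟩ := Nat.exists_eq_pow_mul_and_not_dvd (by omega : n ≠ 0) 2 (by norm_num)
    have hm0 : 0 < m := by
      rcases Nat.eq_zero_or_pos m with rfl | h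
      · omega
      · exact h
    have ha : 2 ≤ a := by
      by_contra hlt
      have : a = 0 ∨ a = 1 := by omega
      rcases this with rfl | rfl
      · rw [pow_zero, one_mul] at hnm
        omega
      · rw [pow_one] at hnm
        omega
    obtain ⟨b, rfl⟩ : ∃ b, a = b + 2 := ⟨a - 2, by omega⟩
    have hmq : Nat.Coprime m q := Nat.Coprime.coprime_dvd_left ⟨2 ^ (b + 2), by rw [hnm, mul_comm]⟩ hcop
    obtain ⟨j, hj0, hjm, hj⟩ := exists_le q m hm0 hmq
    refine hcomb (2 ^ (b + 2)) m _ j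
      (Nat.Coprime.pow_left _ ((Nat.Prime.coprime_iff_not_dvd Nat.prime_two).mpr hrm))
      hnm (two_pow_dvd q h4q' b) hj (by positivity) hj0 ?_
    rw [hnm]
    calc 2 ^ (b + 1) * j < 2 ^ (b + 2) * j :=
          Nat.mul_lt_mul_of_pos_right (Nat.pow_lt_pow_right (by norm_num) (by omega)) hj0
      _ ≤ 2 ^ (b + 2) * m := Nat.mul_le_mul_left _ hjm

end Cfsg.Agent.S0694
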