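import Cfsg.Statements.S0699
import Cfsg.Agent.Lib.Helper95.Wagner

set_option autoImplicit false
open Cfsg

namespace Cfsg.Agent.S0699

/-- Wagner's Theorem: a non-trivial normal subgroup of a triply transitive permutation group of odd degree at least 5 is triply transitive. -/
theorem result {α : Type*} [Fintype α] [DecidableEq α] (G : Subgroup (Equiv.Perm α)) (hodd : Odd (Fintype.card α)) (h5 : 5 ≤ Fintype.card α) (hG : MulAction.IsMultiplyPretransitive G α 3) (N : Subgroup G) [N.Normal] (hN : N ≠ ⊥) : MulAction.IsMultiplyPretransitive N α 3 := by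
  apply Cfsg.Agent.Lib.Helper95.wagner (by rwa [Nat.card_eq_fintype_card])
    (by rw [Nat.card_eq_fintype_card]; omega) hG N inferInstance hN

end Cfsg.Agent.S0699
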