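import Mathlib
import Cfsg.Statements.S0701
import Cfsg.Agent.Lib.Helper12.PermCentralizer

set_option autoImplicit false
open Cfsg

namespace Cfsg.Agent.S0701

/-- The centraliser in the full symmetric group of a transitive permutation group `G` is semiregular, and it is transitive if and only if `G` is regular. -/
theorem result {α : Type*} (G : Subgroup (Equiv.Perm α)) [MulAction.IsPretransitive G α] : (∀ c ∈ Subgroup.centralizer (G : Set (Equiv.Perm α)), ∀ a : α, c a = a → c = 1) ∧ (MulAction.IsPretransitive (Subgroup.centralizer (G : Set (Equiv.Perm α))) α ↔ ∀ a : α, MulAction.stabilizer G a = ⊥) := by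
  refine ⟨fun c hc a ha => Lib.Helper12.centralizer_semiregular G hc ha, ?_, ?_⟩
  · intro htr a
    rw [Subgroup.eq_bot_iff_forall]
    intro g hg
    have hle : (g : Equiv.Perm α) ∈ Subgroup.centralizer
        ((Subgroup.centralizer (G : Set (Equiv.Perm α)) : Subgroup (Equiv.Perm α)) : Set (Equiv.Perm α)) :=
      Subgroup.le_centralizer_iff.mp le_rfl g.2
    have hga : (g : Equiv.Perm α) a = a := hg
    have := Lib.Helper12.centralizer_semiregular _ hle hga
    exact Subtype.ext this
  · intro hreg
    refine ⟨fun a b => ?_⟩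
    obtain ⟨c, hc, hcab⟩ := Lib.Helper12.exists_mem_centralizer_of_stabilizer_eq G
      (a := a) (b := b) (by rw [hreg a, hreg b])
    exact ⟨⟨c, hc⟩, hcab⟩

end Cfsg.Agent.S0701
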