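import Mathlib
import Cfsg.Statements.S0702
import Cfsg.Agent.Lib.Helper12.PermCentralizer

set_option autoImplicit false
open Cfsg

namespace Cfsg.Agent.S0702

/-- For a transitive permutation group `G` on a finite set, the centraliser of `G` in the symmetric group is isomorphic to `N_G(G_ω)/G_ω`, and its orbit of `ω` is the set of fixed points of `G_ω`. -/
theorem result {α : Type*} [Finite α] (G : Subgroup (Equiv.Perm α)) [MulAction.IsPretransitive G α] (a : α) : Nonempty (Subgroup.centralizer (G : Set (Equiv.Perm α)) ≃* Subgroup.normalizer ((MulAction.stabilizer G a : Subgroup G) : Set G) ⧸ (MulAction.stabilizer G a).subgroupOf (Subgroup.normalizer ((MulAction.stabilizer G a : Subgroup G) : Set G))) ∧ MulAction.orbit (Subgroup.centralizer (G : Set (Equiv.Perm α))) a = MulAction.fixedPoints (MulAction.stabilizer G a) α := by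
  classical
  set C := Subgroup.centralizer (G : Set (Equiv.Perm α)) with hC
  set S := MulAction.stabilizer G a with hS
  set Nm := Subgroup.normalizer ((S : Subgroup G) : Set G) with hNm
  -- elements of `C` commute with elements of `G`
  have hcomm : ∀ c ∈ C, ∀ g : G, ∀ x : α, c (g • x) = g • c x := by
    intro c hc g x
    rw [hC, Subgroup.mem_centralizer_iff] at hc
    have h := congrArg (fun f : Equiv.Perm α => f x) (hc g.1 g.2)
    simp only [Equiv.Perm.coe_mul, Function.comp_apply] at h
    exact h.symm
  have huniq : ∀ c ∈ C, ∀ c' ∈ C, c a = c' a → c = c' := by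
    intro c hc c' hc' h
    have h1 : c'⁻¹ * c ∈ C := C.mul_mem (C.inv_mem hc') hc
    have h2 : (c'⁻¹ * c) a = a := by
      rw [Equiv.Perm.coe_mul, Function.comp_apply, h, Equiv.Perm.inv_def, Equiv.symm_apply_apply]
    have h3 := Lib.Helper12.centralizer_semiregular G h1 h2
    rw [inv_mul_eq_one] at h3
    exact h3.symm
  have hstabC : ∀ c ∈ C, MulAction.stabilizer G (c a) = S := by
    intro c hc
    ext g
    rw [MulAction.mem_stabilizer_iff, hS, MulAction.mem_stabilizer_iff, ← hcomm c hc]
    exact c.injective.eq_iff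
  have hfix : ∀ n : Nm, MulAction.stabilizer G ((n : G)⁻¹ • a) = S := by
    intro n
    ext g
    have hn := (Subgroup.mem_normalizer_iff.mp n.2) g
    rw [MulAction.mem_stabilizer_iff]
    have h1 : (n : G) * g * (n : G)⁻¹ ∈ S ↔ g • (n : G)⁻¹ • a = (n : G)⁻¹ • a := by
      rw [hS, MulAction.mem_stabilizer_iff, mul_smul, mul_smul, ← eq_inv_smul_iff]
    rw [← h1]
    exact hn.symm
  refine ⟨?_, ?_⟩
  · choose c hc hca using fun n : Nm =>
      Lib.Helper12.exists_mem_centralizer_of_stabilizer_eq G (a := a) (b := (n : G)⁻¹ • a) (hfix n).symm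
    have hmul : ∀ n m : Nm, (⟨c (n * m), hc _⟩ : C) = ⟨c n, hc n⟩ * ⟨c m, hc m⟩ := by
      intro n m
      apply Subtype.ext
      apply huniq _ (hc _) _ (C.mul_mem (hc n) (hc m))
      rw [hca, Equiv.Perm.coe_mul, Function.comp_apply, hca, hcomm _ (hc n), hca]
      simp [mul_smul]
    let φ : Nm →* C := MonoidHom.mk' (fun n => ⟨c n, hc n⟩) hmul
    have hsurj : Function.Surjective φ := by
      rintro ⟨d, hd⟩
      obtain ⟨g, hg⟩ := MulAction.exists_smul_eq G a (d a)
      have hgN : g⁻¹ ∈ Nm := by
        apply Subgroup.inv_mem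
        rw [hNm, Subgroup.mem_normalizer_iff]
        intro h
        have h1 : g * h * g⁻¹ ∈ MulAction.stabilizer G (g • a) ↔ h ∈ S := by
          rw [MulAction.mem_stabilizer_iff, hS, MulAction.mem_stabilizer_iff,
            mul_smul, mul_smul, inv_smul_smul, smul_left_cancel_iff]
        rw [hg, hstabC d hd] at h1
        exact h1.symm
      refine ⟨⟨g⁻¹, hgN⟩, ?_⟩
      apply Subtype.ext
      apply huniq _ (hc _) _ hd
      change c ⟨g⁻¹, hgN⟩ a = d a
      rw [hca]
      simp [hg]
    have hker : φ.ker = S.subgroupOf Nm := by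
      ext n
      rw [MonoidHom.mem_ker, Subgroup.mem_subgroupOf]
      constructor
      · intro h
        have h1 : c n = 1 := congrArg Subtype.val h
        have h2 := hca n
        rw [h1, Equiv.Perm.one_apply, eq_inv_smul_iff] at h2
        exact h2
      · intro h
        apply Subtype.ext
        apply huniq _ (hc _) _ C.one_mem
        change c n a = (1 : Equiv.Perm α) a
        rw [hca, Equiv.Perm.one_apply, inv_smul_eq_iff]
        exact h.symm
    exact ⟨((QuotientGroup.quotientMulEquivOfEq hker).symm.trans
      (QuotientGroup.quotientKerEquivOfSurjective φ hsurj)).symm⟩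
  · ext b
    constructor
    · rintro ⟨c, rfl⟩
      intro s
      change (s : G) • (c : Equiv.Perm α) a = (c : Equiv.Perm α) a
      rw [← hcomm c.1 c.2]
      congr 1
      exact s.2
    · intro hb
      have hle : S ≤ MulAction.stabilizer G b := by
        intro s hs
        exact hb ⟨s, hs⟩
      have heq : S = MulAction.stabilizer G b := by
        apply Subgroup.eq_of_le_of_card_ge hle
        obtain ⟨g, rfl⟩ := MulAction.exists_smul_eq G a b
        rw [MulAction.stabilizer_smul_eq_stabilizer_map_conj]
        exact le_of_eq (Subgroup.card_map_of_injective (MulEquiv.injective _))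
      obtain ⟨c, hc, hcab⟩ := Lib.Helper12.exists_mem_centralizer_of_stabilizer_eq G heq
      exact ⟨⟨c, hc⟩, hcab⟩

end Cfsg.Agent.S0702
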