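import Mathlib
import Cfsg.Statements.S0703
import Cfsg.Agent.Lib.Helper12.MinNormal

set_option autoImplicit false
open Cfsg

namespace Cfsg.Agent.S0703

/-- An abelian transitive minimal normal subgroup `M` of a permutation group on a finite set is self-centralising in the symmetric group, regular, elementary abelian, and is the unique minimal normal subgroup. -/
theorem result {α : Type*} [Finite α] (G : Subgroup (Equiv.Perm α)) (M : Subgroup G) [M.Normal] (hM : M ≠ ⊥) (hmin : ∀ L : Subgroup G, L.Normal → L ≤ M → L = ⊥ ∨ L = M) (hab : IsMulCommutative M) (htrans : MulAction.IsPretransitive M α) : Subgroup.centralizer ((M.map G.subtype : Subgroup (Equiv.Perm α)) : Set (Equiv.Perm α)) = M.map G.subtype ∧ (∀ a : α, MulAction.stabilizer M a = ⊥) ∧ (∃ p : ℕ, p.Prime ∧ ∀ m ∈ M, m ^ p = 1) ∧ ∀ L : Subgroup G, L.Normal → L ≠ ⊥ → (∀ L' : Subgroup G, L'.Normal → L' ≤ L → L' = ⊥ ∨ L' = L) → L = M := by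
  classical
  have htr' : MulAction.IsPretransitive (M.map G.subtype) α :=
    Lib.Helper12.isPretransitive_map_subtype G M htrans
  have hcomm : ∀ x y : G, x ∈ M → y ∈ M → x * y = y * x := by
    intro x y hx hy
    have := hab.is_comm.comm (⟨x, hx⟩ : M) ⟨y, hy⟩
    exact congrArg Subtype.val this
  have hle : M.map G.subtype ≤
      Subgroup.centralizer ((M.map G.subtype : Subgroup (Equiv.Perm α)) : Set (Equiv.Perm α)) := by
    rintro _ ⟨n, hn, rfl⟩
    rw [Subgroup.mem_centralizer_iff]
    rintro _ ⟨m, hm, rfl⟩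
    have h2 := congrArg G.subtype (hcomm m n hm hn)
    simpa using h2
  have hC := Lib.Helper12.centralizer_eq_of_le_of_isPretransitive (M.map G.subtype) (M.map G.subtype) hle
  refine ⟨hC, ?_, ?_, ?_⟩
  · intro a
    rw [Subgroup.eq_bot_iff_forall]
    intro m hm
    have h1 : ((m : G) : Equiv.Perm α) ∈
        Subgroup.centralizer ((M.map G.subtype : Subgroup (Equiv.Perm α)) : Set (Equiv.Perm α)) :=
      hle ⟨m.1, m.2, rfl⟩
    have h2 : ((m : G) : Equiv.Perm α) a = a := hm
    have h3 := Lib.Helper12.centralizer_semiregular _ h1 h2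
    apply Subtype.ext
    apply Subtype.ext
    exact h3
  · have hfin : Finite M := inferInstance
    have hnt : Nontrivial M := (Subgroup.nontrivial_iff_ne_bot M).mpr hM
    have hcard : Nat.card M ≠ 1 := by
      intro h
      have := (Nat.card_eq_one_iff_unique.mp h).1
      exact not_subsingleton M this
    obtain ⟨p, hp, hpd⟩ := Nat.exists_prime_and_dvd hcard
    refine ⟨p, hp, ?_⟩
    haveI : Fact p.Prime := ⟨hp⟩
    obtain ⟨x, hx⟩ := exists_prime_orderOf_dvd_card' p hpd
    let L : Subgroup G :=
      { carrier := {g | g ∈ M ∧ g ^ p = 1}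
        one_mem' := ⟨M.one_mem, one_pow p⟩
        mul_mem' := by
          rintro a b ⟨ha, ha'⟩ ⟨hb, hb'⟩
          refine ⟨M.mul_mem ha hb, ?_⟩
          rw [(show Commute a b from hcomm a b ha hb).mul_pow, ha', hb', one_mul]
        inv_mem' := by
          rintro a ⟨ha, ha'⟩
          exact ⟨M.inv_mem ha, by rw [inv_pow, ha', inv_one]⟩ }
    have hLn : L.Normal := by
      refine ⟨fun g hg k => ?_⟩
      refine ⟨(inferInstance : M.Normal).conj_mem g hg.1 k, ?_⟩
      rw [conj_pow, hg.2, mul_one, mul_inv_cancel]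
    have hLM : L ≤ M := fun g hg => hg.1
    rcases hmin L hLn hLM with h | h
    · exfalso
      have hxL : (x : G) ∈ L := by
        refine ⟨x.2, ?_⟩
        have := pow_orderOf_eq_one x
        rw [hx] at this
        exact congrArg Subtype.val this
      rw [h, Subgroup.mem_bot] at hxL
      have hx1 : x = 1 := Subtype.ext hxL
      rw [hx1, orderOf_one] at hx
      exact hp.one_lt.ne hx
    · intro m hm
      rw [← h] at hm
      exact hm.2
  · intro L hLn hLne hLmin
    by_contra hne
    have hinf : M ⊓ L = ⊥ :=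
      Lib.Helper12.inf_eq_bot_of_minimal_normal M L hM hmin hLmin (fun h => hne h.symm)
    have h1 := Lib.Helper12.map_le_centralizer_map_of_inf_eq_bot G M L hinf
    rw [hC] at h1
    have h2 : L ≤ M := by
      intro l hl
      obtain ⟨m, hm, hml⟩ := h1 ⟨l, hl, rfl⟩
      have : m = l := Subtype.ext hml
      rwa [← this]
    apply hLne
    rw [← hinf]
    exact (inf_eq_right.mpr h2).symm

end Cfsg.Agent.S0703
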