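import Mathlib
import Cfsg.Statements.S0704
import Cfsg.Agent.Lib.Helper12.MinNormal

set_option autoImplicit false
open Cfsg

namespace Cfsg.Agent.S0704

/-- Two distinct transitive minimal normal subgroups `M`, `N` of a permutation group are regular, non-abelian, isomorphic, each other's centraliser in the symmetric group, and the only minimal normal subgroups. -/
theorem result {α : Type*} (G : Subgroup (Equiv.Perm α)) (M N : Subgroup G) [M.Normal] [N.Normal] (hM : M ≠ ⊥) (hN : N ≠ ⊥) (hMmin : ∀ L : Subgroup G, L.Normal → L ≤ M → L = ⊥ ∨ L = M) (hNmin : ∀ L : Subgroup G, L.Normal → L ≤ N → L = ⊥ ∨ L = N) (hMN : M ≠ N) (hMt : MulAction.IsPretransitive M α) (hNt : MulAction.IsPretransitive N α) : (∀ a : α, MulAction.stabilizer M a = ⊥) ∧ (∀ a : α, MulAction.stabilizer N a = ⊥) ∧ ¬ IsMulCommutative M ∧ Nonempty (M ≃* N) ∧ Subgroup.centralizer ((M.map G.subtype : Subgroup (Equiv.Perm α)) : Set (Equiv.Perm α)) = N.map G.subtype ∧ Subgroup.centralizer ((N.map G.subtype : Subgroup (Equiv.Perm α)) : Set (Equiv.Perm α))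 = M.map G.subtype ∧ ∀ L : Subgroup G, L.Normal → L ≠ ⊥ → (∀ L' : Subgroup G, L'.Normal → L' ≤ L → L' = ⊥ ∨ L' = L) → L = M ∨ L = N := by
  classical
  have hMt' : MulAction.IsPretransitive (M.map G.subtype) α :=
    Lib.Helper12.isPretransitive_map_subtype G M hMt
  have hNt' : MulAction.IsPretransitive (N.map G.subtype) α :=
    Lib.Helper12.isPretransitive_map_subtype G N hNt
  have hinf : M ⊓ N = ⊥ := Lib.Helper12.inf_eq_bot_of_minimal_normal M N hM hMmin hNmin hMN
  have hinf' : N ⊓ M = ⊥ := by rw [inf_comm]; exact hinf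
  have hNC := Lib.Helper12.map_le_centralizer_map_of_inf_eq_bot G M N hinf
  have hMC := Lib.Helper12.map_le_centralizer_map_of_inf_eq_bot G N M hinf'
  have hCM := Lib.Helper12.centralizer_eq_of_le_of_isPretransitive (M.map G.subtype) (N.map G.subtype) hNC
  have hCN := Lib.Helper12.centralizer_eq_of_le_of_isPretransitive (N.map G.subtype) (M.map G.subtype) hMC
  have hMreg : ∀ a : α, MulAction.stabilizer M a = ⊥ := by
    intro a
    rw [Subgroup.eq_bot_iff_forall]
    intro m hm
    have h1 : ((m : G) : Equiv.Perm α) ∈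
        Subgroup.centralizer ((N.map G.subtype : Subgroup (Equiv.Perm α)) : Set (Equiv.Perm α)) :=
      hMC ⟨m.1, m.2, rfl⟩
    have h2 : ((m : G) : Equiv.Perm α) a = a := hm
    have h3 := Lib.Helper12.centralizer_semiregular _ h1 h2
    apply Subtype.ext
    apply Subtype.ext
    exact h3
  have hNreg : ∀ a : α, MulAction.stabilizer N a = ⊥ := by
    intro a
    rw [Subgroup.eq_bot_iff_forall]
    intro m hm
    have h1 : ((m : G) : Equiv.Perm α) ∈
        Subgroup.centralizer ((M.map G.subtype : Subgroup (Equiv.Perm α)) : Set (Equiv.Perm α)) :=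
      hNC ⟨m.1, m.2, rfl⟩
    have h2 : ((m : G) : Equiv.Perm α) a = a := hm
    have h3 := Lib.Helper12.centralizer_semiregular _ h1 h2
    apply Subtype.ext
    apply Subtype.ext
    exact h3
  have hle_of_map : ∀ A B : Subgroup G, A.map G.subtype ≤ B.map G.subtype → A ≤ B := by
    intro A B h l hl
    obtain ⟨m, hm, hml⟩ := h ⟨l, hl, rfl⟩
    have : m = l := Subtype.ext hml
    rwa [← this]
  refine ⟨hMreg, hNreg, ?_, ?_, hCM, hCN, ?_⟩
  · intro hab
    have hcomm : ∀ x y : G, x ∈ M → y ∈ M → x * y = y * x := by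
      intro x y hx hy
      have := hab.is_comm.comm (⟨x, hx⟩ : M) ⟨y, hy⟩
      exact congrArg Subtype.val this
    have hle : M.map G.subtype ≤
        Subgroup.centralizer ((M.map G.subtype : Subgroup (Equiv.Perm α)) : Set (Equiv.Perm α)) := by
      rintro _ ⟨n, hn, rfl⟩
      rw [Subgroup.mem_centralizer_iff]
      rintro _ ⟨m, hm, rfl⟩
      have h2 := congrArg G.subtype (hcomm m n hm hn)
      simpa using h2
    rw [hCM] at hle
    have h2 : M ≤ N := hle_of_map M N hle
    apply hM
    rw [← hinf]
    exact (inf_eq_left.mpr h2).symm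
  · -- the isomorphism
    have hne : Nonempty α := by
      by_contra hne
      rw [not_nonempty_iff] at hne
      apply hM
      rw [Subgroup.eq_bot_iff_forall]
      intro x _
      apply Subtype.ext
      ext y
      exact hne.elim y
    obtain ⟨a⟩ := hne
    -- elements of `M` and `N` commute
    have hcommMN : ∀ (m : M) (n : N) (x : α), m • n • x = n • m • x := by
      intro m n x
      have hd : Disjoint M N := disjoint_iff.mpr hinf
      have := Subgroup.commute_of_normal_of_disjoint M N inferInstance inferInstance hd m.1 n.1 m.2 n.2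
      have h2 := congrArg (fun g : G => g • x) this.eq
      simp only [mul_smul] at h2
      exact h2
    have huniqN : ∀ n n' : N, n • a = n' • a → n = n' := by
      intro n n' h
      have : n'⁻¹ * n ∈ MulAction.stabilizer N a := by
        rw [MulAction.mem_stabilizer_iff, mul_smul, h, inv_smul_smul]
      rw [hNreg a, Subgroup.mem_bot, inv_mul_eq_one] at this
      exact this.symm
    have huniqM : ∀ n n' : M, n • a = n' • a → n = n' := by
      intro n n' h
      have : n'⁻¹ * n ∈ MulAction.stabilizer M a := by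
        rw [MulAction.mem_stabilizer_iff, mul_smul, h, inv_smul_smul]
      rw [hMreg a, Subgroup.mem_bot, inv_mul_eq_one] at this
      exact this.symm
    choose φ hφ using fun m : M => hNt.exists_smul_eq a (m⁻¹ • a)
    have hmul : ∀ m₁ m₂ : M, φ (m₁ * m₂) = φ m₁ * φ m₂ := by
      intro m₁ m₂
      apply huniqN
      rw [hφ, mul_smul, hφ, ← hcommMN, hφ, mul_inv_rev, mul_smul]
    refine ⟨MulEquiv.ofBijective (MonoidHom.mk' φ hmul) ⟨?_, ?_⟩⟩
    · intro m₁ m₂ h
      have h' : φ m₁ = φ m₂ := h
      have h1 : m₁⁻¹ • a = m₂⁻¹ • a := by rw [← hφ, ← hφ, h']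
      exact inv_injective (huniqM _ _ h1)
    · intro n
      obtain ⟨m, hm⟩ := hMt.exists_smul_eq a (n • a)
      refine ⟨m⁻¹, ?_⟩
      apply huniqN
      change φ m⁻¹ • a = n • a
      rw [hφ, inv_inv, hm]
  · intro L hLn hLne hLmin
    by_cases hne : L = M
    · exact Or.inl hne
    · right
      have hinfL : M ⊓ L = ⊥ :=
        Lib.Helper12.inf_eq_bot_of_minimal_normal M L hM hMmin hLmin (fun h => hne h.symm)
      have h1 := Lib.Helper12.map_le_centralizer_map_of_inf_eq_bot G M L hinfL
      rw [hCM] at h1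
      have h2 : L ≤ N := hle_of_map L N h1
      rcases hNmin L hLn h2 with h | h
      · exact absurd h hLne
      · exact h

end Cfsg.Agent.S0704
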