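import Mathlib
import Cfsg.Statements.S0705

set_option autoImplicit false
open scoped Pointwise
open Cfsg

namespace Cfsg.Agent.S0705

section Aux

variable {α : Type*} [Fintype α] [DecidableEq α] (G : Subgroup (Equiv.Perm α)) {k : ℕ}

theorem aux_move (hk : k < Fintype.card α)
    (hgen : ∀ s : Finset α, s.card = k + 1 → ∀ σ : Equiv.Perm ↥s, ∃ g ∈ G, ∀ x : ↥s, g (x : α) = σ x)
    (t₀ : Finset α) (ht₀ : t₀.card ≤ k + 1) {ι : Type*} [Finite ι] (x y : ι ↪ α)
    (hx : ∀ i, x i ∈ t₀) (hy : ∀ i, y i ∈ t₀) : ∃ g ∈ G, ∀ i, g (x i) = y i := by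
  obtain ⟨t, ht₀t, _, ht⟩ := Finset.exists_subsuperset_card_eq (Finset.subset_univ t₀) ht₀
    (by rw [Finset.card_univ]; omega)
  let x' : ι ↪ ↥t := ⟨fun i => ⟨x i, ht₀t (hx i)⟩, fun i j h => x.injective (congrArg Subtype.val h)⟩
  let y' : ι ↪ ↥t := ⟨fun i => ⟨y i, ht₀t (hy i)⟩, fun i j h => y.injective (congrArg Subtype.val h)⟩
  obtain ⟨σ, hσ⟩ := Equiv.Perm.exists_smul_eq_embedding x' y'
  obtain ⟨g, hg, hgσ⟩ := hgen t ht σ
  refine ⟨g, hg, fun i => ?_⟩
  have h1 := hgσ (x' i)
  have h2 : σ (x' i) = y' i := congrArg (fun e : ι ↪ ↥t => e i) hσ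
  rw [h2] at h1
  exact h1

theorem aux_trans (hk : k < Fintype.card α)
    (hgen : ∀ s : Finset α, s.card = k + 1 → ∀ σ : Equiv.Perm ↥s, ∃ g ∈ G, ∀ x : ↥s, g (x : α) = σ x)
    (n : ℕ) : ∀ x y : Fin k ↪ α, (Finset.univ.filter (fun i => x i ≠ y i)).card ≤ n →
      ∃ g ∈ G, ∀ i, g (x i) = y i := by
  induction n with
  | zero =>
    intro x y h
    refine ⟨1, G.one_mem, fun i => ?_⟩
    rw [Nat.le_zero, Finset.card_eq_zero, Finset.filter_eq_empty_iff] at h
    have := h (Finset.mem_univ i)
    simpa using this
  | succ n ih =>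
    intro x y h
    by_cases hxy : ∀ i, x i = y i
    · exact ⟨1, G.one_mem, fun i => by simpa using hxy i⟩
    push Not at hxy
    obtain ⟨j, hj⟩ := hxy
    set x' := x.setValue j (y j) with hx'
    have hx'val : ∀ i, x' i = if i = j then y j else if x i = y j then x j else x i := fun i => rfl
    -- `x` and `x'` are equivalent
    obtain ⟨g₁, hg₁, hg₁x⟩ := aux_move G hk hgen (insert (y j) (Finset.univ.image x))
      (by
        refine (Finset.card_insert_le _ _).trans ?_
        rw [Finset.card_image_of_injective _ x.injective, Finset.card_univ, Fintype.card_fin])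
      x x'
      (fun i => Finset.mem_insert_of_mem (Finset.mem_image_of_mem _ (Finset.mem_univ i)))
      (fun i => by
        rw [hx'val]
        split_ifs
        · exact Finset.mem_insert_self _ _
        · exact Finset.mem_insert_of_mem (Finset.mem_image_of_mem _ (Finset.mem_univ j))
        · exact Finset.mem_insert_of_mem (Finset.mem_image_of_mem _ (Finset.mem_univ i)))
    have hlt : (Finset.univ.filter (fun i => x' i ≠ y i)).card ≤ n := by
      have hsub : Finset.univ.filter (fun i => x' i ≠ y i) ⊆
          (Finset.univ.filter (fun i => x i ≠ y i)).erase j := by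
        intro i hi
        rw [Finset.mem_filter] at hi
        rw [Finset.mem_erase, Finset.mem_filter]
        have hij : i ≠ j := by
          rintro rfl
          apply hi.2
          rw [hx'val, if_pos rfl]
        refine ⟨hij, Finset.mem_univ _, ?_⟩
        intro hxi
        apply hi.2
        rw [hx'val, if_neg hij, if_neg, hxi]
        rw [hxi]
        intro e
        exact hij (y.injective e)
      have h1 := Finset.card_le_card hsub
      rw [Finset.card_erase_of_mem (by simp [hj])] at h1
      omega
    obtain ⟨g₂, hg₂, hg₂x⟩ := ih x' y hlt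
    exact ⟨g₂ * g₁, G.mul_mem hg₂ hg₁, fun i => by
      rw [Equiv.Perm.coe_mul, Function.comp_apply, hg₁x, hg₂x]⟩

end Aux

/-- A generously `k`-transitive permutation group (every `(k+1)`-subset has its full symmetric group induced by the setwise stabiliser) of degree greater than `k` is `k`-transitive, and for a `k`-subset the setwise and pointwise stabilisers have the same orbits outside it. -/
theorem result {α : Type*} [Fintype α] [DecidableEq α] (G : Subgroup (Equiv.Perm α)) {k : ℕ} (hk : k < Fintype.card α) (hgen : ∀ s : Finset α, s.card = k + 1 → ∀ σ : Equiv.Perm ↥s, ∃ g ∈ G, ∀ x : ↥s, g (x : α) = σ x) : MulAction.IsMultiplyPretransitive G α k ∧ ∀ s : Finset α, s.card = k → ∀ a b : α, a ∉ s → b ∉ s → (∃ g ∈ G, g • s = s ∧ g a = b) → ∃ g ∈ G, (∀ x ∈ s, g x = x) ∧ g a = b := by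
  refine ⟨?_, ?_⟩
  · refine ⟨fun x y => ?_⟩
    obtain ⟨g, hg, hgx⟩ := aux_trans G hk hgen _ x y le_rfl
    exact ⟨⟨g, hg⟩, Function.Embedding.ext hgx⟩
  · intro s hs a b ha hb hex
    obtain ⟨g, hg, hgs, hgab⟩ := hex
    have hgmem : ∀ z ∈ s, g z ∈ s := by
      intro z hz
      have : g • z ∈ g • s := Finset.smul_mem_smul_finset hz
      rw [hgs] at this
      exact this
    let x : ↥(insert b s) ↪ α :=
      ⟨fun z => if z.1 = b then b else g z.1, by
        intro z w h
        have hz := z.2
        have hw := w.2
        rw [Finset.mem_insert] at hz hw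
        simp only at h
        apply Subtype.ext
        by_cases hzb : z.1 = b
        · by_cases hwb : w.1 = b
          · rw [hzb, hwb]
          · exfalso
            rw [if_pos hzb, if_neg hwb] at h
            apply hb
            rw [h]
            exact hgmem _ (hw.resolve_left hwb)
        · by_cases hwb : w.1 = b
          · exfalso
            rw [if_neg hzb, if_pos hwb] at h
            apply hb
            rw [← h]
            exact hgmem _ (hz.resolve_left hzb)
          · rw [if_neg hzb, if_neg hwb] at h
            exact g.injective h⟩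
    let y : ↥(insert b s) ↪ α := Function.Embedding.subtype _
    obtain ⟨h', hh', hh'x⟩ := aux_move G hk hgen (insert b s)
      (by rw [Finset.card_insert_of_notMem hb, hs]) x y
      (fun z => by
        change (if z.1 = b then b else g z.1) ∈ insert b s
        split_ifs with hzb
        · exact Finset.mem_insert_self _ _
        · exact Finset.mem_insert_of_mem (hgmem _ ((Finset.mem_insert.mp z.2).resolve_left hzb)))
      (fun z => z.2)
    refine ⟨h' * g, G.mul_mem hh' hg, ?_, ?_⟩
    · intro z hz
      have hzb : z ≠ b := by rintro rfl; exact hb hz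
      have := hh'x ⟨z, Finset.mem_insert_of_mem hz⟩
      change h' (if z = b then b else g z) = z at this
      rw [if_neg hzb] at this
      exact this
    · have := hh'x ⟨b, Finset.mem_insert_self _ _⟩
      change h' (if b = b then b else g b) = b at this
      rw [if_pos rfl] at this
      rw [Equiv.Perm.coe_mul, Function.comp_apply, hgab, this]

end Cfsg.Agent.S0705
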