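import Mathlib
import Cfsg.Statements.S0706
import Cfsg.Agent.S0705

set_option autoImplicit false
open Cfsg

namespace Cfsg.Agent.S0706

open MulAction in
open scoped Pointwise in
/-- In a generously `k`-transitive permutation group, for a prime `p ≤ k` and a `k`-set `Γ`, there are no `p` points outside `Γ` lying in distinct orbits of the pointwise stabiliser of `Γ` all of length prime to `p` (at most `p - 1` such orbits). -/
theorem result {α : Type*} [Fintype α] [DecidableEq α] (G : Subgroup (Equiv.Perm α)) {k : ℕ} (hk : k < Fintype.card α) (hgen : ∀ s : Finset α, s.card = k + 1 → ∀ σ : Equiv.Perm ↥s, ∃ g ∈ G, ∀ x : ↥s, g (x : α) = σ x) {p : ℕ} (hp : p.Prime) (hpk : p ≤ k) (Γ : Finset α) (hΓ : Γ.card = k) (f : Fin p → α) (hf : ∀ i, f i ∉ Γ) (hdist : ∀ i j, i ≠ j → f j ∉ MulAction.orbit (fixingSubgroup G (Γ : Set α)) (f i)) : ∃ i, p ∣ Nat.card (MulAction.orbit (fixingSubgroup G (Γ : Set α)) (f i)) := by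
  classical
  by_contra hcon
  push Not at hcon
  haveI : Fact p.Prime := ⟨hp⟩
  obtain ⟨hktrans, hsame⟩ := S0705.result G hk hgen
  obtain ⟨Γ₁, hΓ₁sub, hΓ₁card⟩ := Finset.exists_subset_card_eq (s := Γ) (n := p) (by rw [hΓ]; exact hpk)
  set Γ₀ := Γ \ Γ₁ with hΓ₀
  set F := fixingSubgroup G (Γ : Set α) with hF
  let L : Subgroup G := fixingSubgroup G (Γ₀ : Set α) ⊓ stabilizer G (Γ₁ : Set α)
  have hL0 : ∀ g ∈ L, ∀ x ∈ Γ₀, g • x = x := by
    intro g hg x hx
    exact (mem_fixingSubgroup_iff G).mp (Subgroup.mem_inf.mp hg).1 x (by exact_mod_cast hx)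
  have hL1 : ∀ g ∈ L, ∀ x, g • x ∈ Γ₁ ↔ x ∈ Γ₁ := by
    intro g hg x
    have := (mem_stabilizer_set.mp (Subgroup.mem_inf.mp hg).2) x
    exact_mod_cast this
  have hΓsplit : ∀ x, x ∈ Γ ↔ x ∈ Γ₀ ∨ x ∈ Γ₁ := by
    intro x
    rw [hΓ₀, Finset.mem_sdiff]
    constructor
    · intro hx
      by_cases h1 : x ∈ Γ₁
      · exact Or.inr h1
      · exact Or.inl ⟨hx, h1⟩
    · rintro (h | h)
      · exact h.1
      · exact hΓ₁sub h
  have hLΓ : ∀ g ∈ L, ∀ x, x ∈ Γ → g • x ∈ Γ := by
    intro g hg x hx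
    rcases (hΓsplit x).mp hx with h | h
    · rw [hL0 g hg x h]; exact hx
    · exact hΓ₁sub ((hL1 g hg x).mpr h)
  have hLΓ' : ∀ g ∈ L, ((g : G) : Equiv.Perm α) • Γ = Γ := by
    intro g hg
    apply Finset.eq_of_subset_of_card_le
    · intro y hy
      obtain ⟨x, hx, rfl⟩ := Finset.mem_smul_finset.mp hy
      exact hLΓ g hg x hx
    · rw [Finset.card_smul_finset]
  have hFL : F ≤ L := by
    intro g hg
    have hg' := (mem_fixingSubgroup_iff G).mp hg
    refine Subgroup.mem_inf.mpr ⟨?_, ?_⟩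
    · rw [mem_fixingSubgroup_iff]
      intro y hy
      exact hg' y (by
        have : y ∈ Γ₀ := by exact_mod_cast hy
        exact_mod_cast (hΓsplit y).mpr (Or.inl this))
    · rw [mem_stabilizer_set]
      intro y
      constructor
      · intro hy
        have h1 : g • y ∈ Γ := hΓ₁sub (by exact_mod_cast hy)
        have h3 := hg' (g • y) (by exact_mod_cast h1)
        have : g • y = y := MulAction.injective g h3
        rwa [this] at hy
      · intro hy
        have h1 : y ∈ Γ := hΓ₁sub (by exact_mod_cast hy)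
        rw [hg' y (by exact_mod_cast h1)]
        exact hy
  -- orbits of `F` avoid `Γ` and are `L`-invariant
  have hout : ∀ i, ∀ x ∈ orbit F (f i), x ∉ Γ := by
    rintro i _ ⟨u, rfl⟩ hx
    apply hf i
    have h1 := (mem_fixingSubgroup_iff G).mp u.2 _ (by exact_mod_cast hx)
    have h3 : (u : G) • f i = f i := MulAction.injective (u : G) h1
    have h4 : (u : G) • f i ∈ Γ := hx
    rwa [h3] at h4
  have hinv : ∀ i, ∀ g ∈ L, ∀ x ∈ orbit F (f i), g • x ∈ orbit F (f i) := by
    intro i g hg x hx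
    have hx' := hout i x hx
    have hgx : g • x ∉ Γ := by
      intro h
      apply hx'
      have := hLΓ g⁻¹ (L.inv_mem hg) _ h
      rwa [inv_smul_smul] at this
    obtain ⟨h, hhG, hhΓ, hhx⟩ := hsame Γ hΓ x (g • x) hx' hgx ⟨g, g.2, hLΓ' g hg, rfl⟩
    have hhF : (⟨h, hhG⟩ : G) ∈ F := by
      rw [hF, mem_fixingSubgroup_iff]
      intro y hy
      exact hhΓ y (by exact_mod_cast hy)
    have : g • x = (⟨⟨h, hhG⟩, hhF⟩ : F) • x := hhx.symm
    rw [this]
    exact mem_orbit_of_mem_orbit _ hx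
  -- the order of `L`
  have hΓ₁ne : Γ₁.Nonempty := by rw [← Finset.card_pos, hΓ₁card]; exact hp.pos
  obtain ⟨γ, hγ⟩ := hΓ₁ne
  have htr : ∀ γ' ∈ Γ₁, ∃ g ∈ L, g • γ = γ' := by
    intro γ' hγ'
    let i₀ : Fin p := ⟨0, hp.pos⟩
    have hSig : (insert (f i₀) Γ).card = k + 1 := by
      rw [Finset.card_insert_of_notMem (hf i₀), hΓ]
    have hmem : ∀ x ∈ Γ, x ∈ insert (f i₀) Γ := fun x hx => Finset.mem_insert_of_mem hx
    obtain ⟨g, hgG, hg⟩ := hgen _ hSig
      (Equiv.swap ⟨γ, hmem γ (hΓ₁sub hγ)⟩ ⟨γ', hmem γ' (hΓ₁sub hγ')⟩)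
    have hgγ : g γ = γ' := by
      have := hg ⟨γ, hmem γ (hΓ₁sub hγ)⟩
      rw [Equiv.swap_apply_left] at this
      exact this
    have hgγ' : g γ' = γ := by
      have := hg ⟨γ', hmem γ' (hΓ₁sub hγ')⟩
      rw [Equiv.swap_apply_right] at this
      exact this
    have hgo : ∀ x ∈ Γ, x ≠ γ → x ≠ γ' → g x = x := by
      intro x hx h1 h3
      have := hg ⟨x, hmem x hx⟩
      rw [Equiv.swap_apply_of_ne_of_ne (fun h => h1 (congrArg Subtype.val h))
        (fun h => h3 (congrArg Subtype.val h))] at this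
      exact this
    refine ⟨⟨g, hgG⟩, Subgroup.mem_inf.mpr ⟨?_, ?_⟩, hgγ⟩
    · rw [mem_fixingSubgroup_iff]
      intro y hy
      have hy' : y ∈ Γ₀ := by exact_mod_cast hy
      rw [hΓ₀, Finset.mem_sdiff] at hy'
      exact hgo y hy'.1 (fun h => hy'.2 (h ▸ hγ)) (fun h => hy'.2 (h ▸ hγ'))
    · rw [mem_stabilizer_set' (Finset.finite_toSet Γ₁)]
      intro y hy
      have hy' : y ∈ Γ₁ := by exact_mod_cast hy
      change g y ∈ (Γ₁ : Set α)
      by_cases h1 : y = γ
      · rw [h1, hgγ]; exact_mod_cast hγ'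
      · by_cases h3 : y = γ'
        · rw [h3, hgγ']; exact_mod_cast hγ
        · rw [hgo y (hΓ₁sub hy') h1 h3]; exact hy
  have horb : orbit L γ = (Γ₁ : Set α) := by
    ext x
    constructor
    · rintro ⟨g, rfl⟩
      exact_mod_cast (hL1 g.1 g.2 γ).mpr hγ
    · intro hx
      obtain ⟨g, hg, hgx⟩ := htr x (by exact_mod_cast hx)
      exact ⟨⟨g, hg⟩, hgx⟩
  have hLcard : Nat.card (stabilizer L γ) * p = Nat.card L := by
    rw [← (stabilizer L γ).card_mul_index, index_stabilizer, horb, Set.ncard_coe_finset, hΓ₁card]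
  have hFdvd : Nat.card F ∣ Nat.card (stabilizer L γ) := by
    rw [← Nat.card_congr (Subgroup.subgroupOfEquivOfLe hFL).toEquiv]
    apply Subgroup.card_dvd_of_le
    intro g hg
    rw [mem_stabilizer_iff]
    have hg' : (g : G) ∈ F := hg
    exact (mem_fixingSubgroup_iff G).mp hg' γ (by exact_mod_cast hΓ₁sub hγ)
  have hdiv : Nat.card F * p ∣ Nat.card L := by
    rw [← hLcard]
    exact Nat.mul_dvd_mul_right hFdvd p
  let Q : Sylow p L := default
  have hQfix : ∀ i, ∃ z ∈ orbit F (f i), ∀ q ∈ (Q : Subgroup L), ((q : L) : G) • z = z := by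
    intro i
    letI : MulAction (Q : Subgroup L) (orbit F (f i)) :=
      { smul := fun q x => ⟨((q : L) : G) • x.1, hinv i (q : L) (q : L).2 x.1 x.2⟩
        one_smul := fun x => Subtype.ext (one_smul _ _)
        mul_smul := fun a b x => Subtype.ext (mul_smul _ _ _) }
    obtain ⟨z, hz⟩ := Q.isPGroup'.nonempty_fixed_point_of_prime_not_dvd_card (orbit F (f i))
      (hcon i)
    refine ⟨z.1, z.2, fun q hq => ?_⟩
    have := hz ⟨q, hq⟩
    exact congrArg Subtype.val this
  choose z hzorb hzfix using hQfix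
  have hzinj : Function.Injective z := by
    intro i j hij
    by_contra hne
    apply hdist i j hne
    have h1 := hzorb i
    have h2 := hzorb j
    rw [← hij] at h2
    have e1 := orbit_eq_iff.mpr h1
    have e2 := orbit_eq_iff.mpr h2
    rw [← e1, e2]
    exact mem_orbit_self _
  let Γ' : Finset α := Γ₀ ∪ Finset.univ.image z
  have hΓ'card : Γ'.card = k := by
    have hdisj : Disjoint Γ₀ (Finset.univ.image z) := by
      rw [Finset.disjoint_left]
      intro x hx hx'
      obtain ⟨i, _, rfl⟩ := Finset.mem_image.mp hx'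
      exact hout i _ (hzorb i) ((hΓsplit _).mpr (Or.inl hx))
    rw [Finset.card_union_of_disjoint hdisj, Finset.card_image_of_injective _ hzinj,
      Finset.card_univ, Fintype.card_fin, hΓ₀, Finset.card_sdiff_of_subset hΓ₁sub, hΓ, hΓ₁card]
    omega
  have hQle : (Q : Subgroup L).map L.subtype ≤ fixingSubgroup G (Γ' : Set α) := by
    rintro _ ⟨q, hq, rfl⟩
    rw [mem_fixingSubgroup_iff]
    intro y hy
    have hy' : y ∈ Γ' := by exact_mod_cast hy
    rcases Finset.mem_union.mp hy' with h | h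
    · exact hL0 q q.2 y h
    · obtain ⟨i, _, rfl⟩ := Finset.mem_image.mp h
      exact hzfix i q hq
  have hcardF' : Nat.card (fixingSubgroup G (Γ' : Set α)) = Nat.card F := by
    have htrk := Set.powersetCard.isPretransitive_of_isMultiplyPretransitive G hktrans
    obtain ⟨g, hg⟩ := htrk.exists_smul_eq (⟨Γ, hΓ⟩ : Set.powersetCard α k) ⟨Γ', hΓ'card⟩
    have hg1 : g • Γ = Γ' := congrArg Subtype.val hg
    have hg' : g • (Γ : Set α) = (Γ' : Set α) := by
      rw [← hg1, Finset.coe_smul_finset]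
    rw [← SubMulAction.fixingSubgroup_map_conj_eq hg']
    exact Subgroup.card_map_of_injective (MulAut.conj g).injective
  have hQcard := Q.card_eq_multiplicity
  have h1 : Nat.card (Q : Subgroup L) ∣ Nat.card F := by
    rw [← hcardF', ← Subgroup.card_map_of_injective L.subtype_injective]
    exact Subgroup.card_dvd_of_le hQle
  rw [hQcard] at h1
  have h2 : p ^ ((Nat.card L).factorization p + 1) ∣ Nat.card L := by
    rw [pow_succ]
    exact (Nat.mul_dvd_mul_right h1 p).trans hdiv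
  exact Nat.pow_succ_factorization_not_dvd Nat.card_pos.ne' hp h2

end Cfsg.Agent.S0706
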