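import Mathlib
import Cfsg.Statements.S0707

set_option autoImplicit false
open Cfsg

namespace Cfsg.Agent.S0707

/-- In a primitive permutation group, distinct points have distinct stabilisers unless the group is regular of prime degree. -/
theorem result {α : Type*} (G : Subgroup (Equiv.Perm α)) [MulAction.IsPreprimitive G α] (h : ¬ (Nat.card α).Prime ∨ ∃ a : α, MulAction.stabilizer G a ≠ ⊥) {a b : α} (hab : a ≠ b) : MulAction.stabilizer G a ≠ MulAction.stabilizer G b := by
  intro hstab
  have hnt : Nontrivial α := ⟨a, b, hab⟩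
  have hco : IsCoatom (MulAction.stabilizer G a) :=
    MulAction.IsPreprimitive.isCoatom_stabilizer_of_isPreprimitive _ a
  obtain ⟨g, hg⟩ := MulAction.exists_smul_eq G a b
  -- `g` normalises the stabiliser of `a`
  have hgN : g ∈ Subgroup.normalizer ((MulAction.stabilizer G a : Subgroup G) : Set G) := by
    rw [Subgroup.mem_normalizer_iff]
    intro h
    have h1 : g * h * g⁻¹ ∈ MulAction.stabilizer G b ↔ h ∈ MulAction.stabilizer G a := by
      rw [← hg, MulAction.mem_stabilizer_iff, MulAction.mem_stabilizer_iff]
      rw [mul_smul, mul_smul, inv_smul_smul, smul_left_cancel_iff]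
    conv_rhs => rw [hstab]
    exact h1.symm
  have hgS : g ∉ MulAction.stabilizer G a := by
    intro h
    rw [MulAction.mem_stabilizer_iff] at h
    exact hab (h.symm.trans hg)
  have hNtop : Subgroup.normalizer ((MulAction.stabilizer G a : Subgroup G) : Set G) = ⊤ := by
    apply hco.2
    refine lt_of_le_of_ne Subgroup.le_normalizer ?_
    intro h
    apply hgS
    rw [h]; exact hgN
  have hnormal : (MulAction.stabilizer G a).Normal := Subgroup.normalizer_eq_top_iff.mp hNtop
  -- hence the stabiliser is trivial
  have hbot : MulAction.stabilizer G a = ⊥ := by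
    rw [Subgroup.eq_bot_iff_forall]
    intro x hx
    apply Subtype.ext
    ext y
    obtain ⟨k, rfl⟩ := MulAction.exists_smul_eq G a y
    have h1 := hnormal.conj_mem x hx k⁻¹
    rw [MulAction.mem_stabilizer_iff, inv_inv, mul_smul, mul_smul, inv_smul_eq_iff] at h1
    exact h1
  have hallbot : ∀ c : α, MulAction.stabilizer G c = ⊥ := by
    intro c
    obtain ⟨k, rfl⟩ := MulAction.exists_smul_eq G a c
    rw [MulAction.stabilizer_smul_eq_stabilizer_map_conj, hbot, Subgroup.map_bot]
  rw [hbot] at hco
  have hsimple : IsSimpleGroup G := by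
    have : Nontrivial G := by
      by_contra hh
      rw [not_nontrivial_iff_subsingleton] at hh
      exact hco.1 (Subsingleton.elim _ _)
    refine ⟨fun H _ => ?_⟩
    by_cases hH : H = ⊥
    · exact Or.inl hH
    · exact Or.inr (hco.2 H (bot_lt_iff_ne_bot.mpr hH))
  have hg1 : g ≠ 1 := by
    rintro rfl
    exact hgS (Subgroup.one_mem _)
  have hz : Subgroup.zpowers g = ⊤ := hco.2 _ (bot_lt_iff_ne_bot.mpr (Subgroup.zpowers_ne_bot.2 hg1))
  have hcyc : IsCyclic G := ⟨⟨g, (Subgroup.eq_top_iff' _).1 hz⟩⟩
  have hcomm : IsMulCommutative G := inferInstance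
  have hprime : (Nat.card G).Prime := Group.is_simple_iff_prime_card.mp hsimple
  have hcard : Nat.card α = Nat.card G := by
    rw [← MulAction.index_stabilizer_of_transitive G a, hbot, Subgroup.index_bot]
  rcases h with h | ⟨c, hc⟩
  · exact h (hcard ▸ hprime)
  · exact hc (hallbot c)

end Cfsg.Agent.S0707
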