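import Mathlib
import Cfsg.Statements.S0709
import Cfsg.Agent.Lib.Helper12.Witt

set_option autoImplicit false
open Cfsg

namespace Cfsg.Agent.S0709

theorem conj_closure {Γ : Type*} [Group Γ] (S : Set Γ) (h : Γ)
    (hS : ∀ x ∈ S, h * x * h⁻¹ ∈ Subgroup.closure S) :
    ∀ f ∈ Subgroup.closure S, h * f * h⁻¹ ∈ Subgroup.closure S := by
  have : Subgroup.closure S ≤ (Subgroup.closure S).comap (MulAut.conj h).toMonoidHom := by
    rw [Subgroup.closure_le]
    intro x hx
    exact hS x hx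
  intro f hf
  exact this hf

/-- Witt's Lemma for constructing transitive extensions. Points `q 1, …, q t` (`t ≥ 2`) of a finite set are given; `G` fixes `q i` for `i ≥ 3` and is doubly transitive on the remaining points; `s 1 ∈ G` swaps `q 1, q 2`; for `2 ≤ i ≤ t-1`, `s i` swaps `q i, q (i+1)` and fixes the other `q j`; with `H` the stabiliser of `q 1, q 2` in `G`: `s i ^ 2 ∈ H`, `(s i * s (i+1)) ^ 3 ∈ H`, `(s i * s j) ^ 2 ∈ H` for `j ≥ i + 2`, and `s i` (`i ≥ 2`) normalises the stabiliser of `q 2` in `G`. Then `G` and the `s i` generate a `t`-transitive group whose pointwise stabiliser of the `q`'s is `H`. -/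
theorem result {α : Type*} [Fintype α] [DecidableEq α] (t : ℕ) (ht : 2 ≤ t) (q : ℕ → α) (hq : ∀ i j : ℕ, 1 ≤ i → i ≤ t → 1 ≤ j → j ≤ t → q i = q j → i = j) (G : Subgroup (Equiv.Perm α)) (hfix : ∀ g ∈ G, ∀ i : ℕ, 3 ≤ i → i ≤ t → g (q i) = q i) (h2 : ∀ a b c d : α, (∀ i, 3 ≤ i → i ≤ t → a ≠ q i ∧ b ≠ q i ∧ c ≠ q i ∧ d ≠ q i) → a ≠ b → c ≠ d → ∃ g ∈ G, g a = c ∧ g b = d) (s : ℕ → Equiv.Perm α) (hs1 : s 1 ∈ G) (hs1q : s 1 (q 1) = q 2 ∧ s 1 (q 2) = q 1) (hsq : ∀ i : ℕ, 2 ≤ i → i + 1 ≤ t → s i (q i) = q (i + 1) ∧ s i (q (i + 1)) = q i ∧ ∀ j : ℕ, 1 ≤ j → j ≤ t → j ≠ i → j ≠ i + 1 → s i (q j) = q j) (H : Subgroup (Equiv.Perm α)) (hH : H = G ⊓ MulAction.stabilizer (Equiv.Perm α) (q 1) ⊓ MulAction.stabilizer (Equiv.Perm α) (q 2)) (hsq2 : ∀ i : ℕ, 1 ≤ i → i + 1 ≤ t → s i ^ 2 ∈ H) (hbraid : ∀ i : ℕ, 1 ≤ i → i + 2 ≤ t → (s i * s (i + 1)) ^ 3 ∈ H) (hcomm : ∀ i j : ℕ, 1 ≤ i → i + 2 ≤ j → j + 1 ≤ t → (s i * s j) ^ 2 ∈ H ∧ (s j * s i) ^ 2 ∈ H) (hnorm : ∀ i : ℕ, 2 ≤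 i → i + 1 ≤ t → ∀ g ∈ G ⊓ MulAction.stabilizer (Equiv.Perm α) (q 2), s i * g * (s i)⁻¹ ∈ G ⊓ MulAction.stabilizer (Equiv.Perm α) (q 2)) : MulAction.IsMultiplyPretransitive ↥(Subgroup.closure ((G : Set (Equiv.Perm α)) ∪ {x | ∃ i : ℕ, 2 ≤ i ∧ i + 1 ≤ t ∧ x = s i})) α t ∧ Subgroup.closure ((G : Set (Equiv.Perm α)) ∪ {x | ∃ i : ℕ, 2 ≤ i ∧ i + 1 ≤ t ∧ x = s i}) ⊓ fixingSubgroup (Equiv.Perm α) {x | ∃ i : ℕ, 1 ≤ i ∧ i ≤ t ∧ x = q i} = H := by
  classical
  set M₁ : Subgroup (Equiv.Perm α) := G ⊓ MulAction.stabilizer (Equiv.Perm α) (q 2) with hM₁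
  let K : ℕ → Subgroup (Equiv.Perm α) := fun j =>
    if j ≤ 1 then M₁ else
      Subgroup.closure ((G : Set (Equiv.Perm α)) ∪ {x | ∃ i : ℕ, 2 ≤ i ∧ i + 1 ≤ j ∧ x = s i})
  have hK1 : K 1 = M₁ := if_pos le_rfl
  have hKj : ∀ j, 2 ≤ j → K j =
      Subgroup.closure ((G : Set (Equiv.Perm α)) ∪ {x | ∃ i : ℕ, 2 ≤ i ∧ i + 1 ≤ j ∧ x = s i}) :=
    fun j hj => if_neg (by omega)
  have hK2 : K 2 = G := by
    rw [hKj 2 le_rfl]
    have : {x | ∃ i : ℕ, 2 ≤ i ∧ i + 1 ≤ 2 ∧ x = s i} = (∅ : Set (Equiv.Perm α)) := by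
      ext x
      simp only [Set.mem_ofPred_eq, Set.mem_empty_iff_false, iff_false]
      rintro ⟨i, h1, h2, -⟩
      omega
    rw [this, Set.union_empty, Subgroup.closure_eq]
  have hGK : ∀ j, 2 ≤ j → G ≤ K j := by
    intro j hj
    rw [hKj j hj]
    exact fun x hx => Subgroup.subset_closure (Or.inl hx)
  have hmono : ∀ j, 1 ≤ j → K j ≤ K (j + 1) := by
    intro j hj
    rcases Nat.lt_or_ge j 2 with h | h
    · obtain rfl : j = 1 := by omega
      rw [hK1, hK2]
      exact inf_le_left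
    · rw [hKj j h, hKj (j + 1) (by omega)]
      apply Subgroup.closure_mono
      apply Set.union_subset_union_right
      rintro x ⟨i, h1, h2, rfl⟩
      exact ⟨i, h1, by omega, rfl⟩
  have hHM : H ≤ M₁ := by
    rw [hH, hM₁]
    intro x hx
    exact ⟨hx.1.1, hx.2⟩
  have hHK : ∀ j, 1 ≤ j → H ≤ K j := by
    intro j hj
    induction j, hj using Nat.le_induction with
    | base => rw [hK1]; exact hHM
    | succ j hj ih => exact ih.trans (hmono j hj)
  have hsK : ∀ j, 1 ≤ j → s j ∈ K (j + 1) := by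
    intro j hj
    rcases Nat.lt_or_ge j 2 with h | h
    · obtain rfl : j = 1 := by omega
      rw [hK2]
      exact hs1
    · rw [hKj (j + 1) (by omega)]
      exact Subgroup.subset_closure (Or.inr ⟨j, h, le_rfl, rfl⟩)
  have hKsucc : ∀ j, 2 ≤ j → K (j + 1) ≤ Subgroup.closure ((K j : Set (Equiv.Perm α)) ∪ {s j}) := by
    intro j hj
    rw [hKj (j + 1) (by omega), Subgroup.closure_le]
    rintro x (hx | ⟨i, h1, h2, rfl⟩)
    · exact Subgroup.subset_closure (Or.inl (hGK j hj hx))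
    · rcases Nat.lt_or_ge i j with h | h
      · apply Subgroup.subset_closure
        left
        have := hsK i (by omega)
        have hle : ∀ d, K (i + 1) ≤ K (i + 1 + d) := by
          intro d
          induction d with
          | zero => exact le_rfl
          | succ d ih => exact ih.trans (hmono _ (by omega))
        have := hle (j - (i + 1)) this
        rwa [show i + 1 + (j - (i + 1)) = j by omega] at this
      · obtain rfl : i = j := by omega
        exact Subgroup.subset_closure (Or.inr rfl)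
  -- points
  have hq12 : q 1 ≠ q 2 := fun h => by
    have := hq 1 2 le_rfl (by omega) (by omega) ht h
    omega
  have hGpres : ∀ g ∈ G, ∀ z, (∀ i, 3 ≤ i → i ≤ t → z ≠ q i) → ∀ i, 3 ≤ i → i ≤ t → g z ≠ q i := by
    intro g hg z hz i h3 hi h
    apply hz i h3 hi
    apply g.injective
    rw [h, hfix g hg i h3 hi]
  have hq1F : ∀ i, 3 ≤ i → i ≤ t → q 1 ≠ q i := fun i h3 hi h => by
    have := hq 1 i le_rfl (by omega) (by omega) hi h
    omega
  have hq2F : ∀ i, 3 ≤ i → i ≤ t → q 2 ≠ q i := fun i h3 hi h => by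
    have := hq 2 i (by omega) (by omega) (by omega) hi h
    omega
  -- base decomposition
  have hD1 : ∀ f ∈ K 2, f ∈ K 1 ∨ ∃ a ∈ K 1, ∃ b ∈ K 1, f = a * s 1 * b := by
    intro f hf
    rw [hK2] at hf
    rw [hK1]
    by_cases hf2 : f (q 2) = q 2
    · exact Or.inl ⟨hf, hf2⟩
    · right
      obtain ⟨a, ha, ha2, ha1⟩ := h2 (q 2) (q 1) (q 2) (f (q 2))
        (fun i h3 hi => ⟨hq2F i h3 hi, hq1F i h3 hi, hq2F i h3 hi, hGpres f hf _ hq2F i h3 hi⟩)
        hq12.symm (Ne.symm hf2)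
      refine ⟨a, ⟨ha, ha2⟩, (a * s 1)⁻¹ * f, ⟨G.mul_mem (G.inv_mem (G.mul_mem ha hs1)) hf, ?_⟩,
        by group⟩
      change ((a * s 1)⁻¹ * f) (q 2) = q 2
      rw [Equiv.Perm.mul_apply, Equiv.Perm.inv_eq_iff_eq, Equiv.Perm.mul_apply, hs1q.2, ha1]
  -- conjugation identity
  have hconj : ∀ (u v : Equiv.Perm α), v * u * v⁻¹ = u⁻¹ * (u * v) ^ 2 * (v ^ 2)⁻¹ := by
    intro u v
    simp only [pow_succ, pow_zero, one_mul, mul_inv_rev, mul_assoc, inv_mul_cancel_left,
      mul_inv_cancel_left, mul_inv_cancel, mul_one, inv_mul_cancel]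
  -- normalisation
  have hN : ∀ j i, 1 ≤ j → j + 1 ≤ i → i + 1 ≤ t → ∀ f ∈ K j, s i * f * (s i)⁻¹ ∈ K j := by
    intro j i hj hji hit
    have hN1 : ∀ f ∈ K 1, s i * f * (s i)⁻¹ ∈ K 1 := by
      rw [hK1]
      exact hnorm i (by omega) hit
    rcases Nat.lt_or_ge j 2 with h | h
    · obtain rfl : j = 1 := by omega
      exact hN1
    · rw [hKj j h]
      apply conj_closure
      rw [← hKj j h]
      rintro x (hx | ⟨i', h1, h2', rfl⟩)
      · apply hGK j h
        have hs1c : s i * s 1 * (s i)⁻¹ ∈ G := by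
          rw [hconj]
          have h5 := (hcomm 1 i le_rfl (by omega) hit).1
          have h6 := hsq2 i (by omega) hit
          have hHG : H ≤ G := hHM.trans inf_le_left
          exact G.mul_mem (G.mul_mem (G.inv_mem hs1) (hHG h5)) (G.inv_mem (hHG h6))
        have hK1G : K 1 ≤ G := by rw [hK1]; exact inf_le_left
        rcases hD1 x (by rw [hK2]; exact hx) with hx1 | ⟨a, ha, b, hb, rfl⟩
        · exact hK1G (hN1 x hx1)
        · have : s i * (a * s 1 * b) * (s i)⁻¹ =
              (s i * a * (s i)⁻¹) * (s i * s 1 * (s i)⁻¹) * (s i * b * (s i)⁻¹) := by group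
          rw [this]
          exact G.mul_mem (G.mul_mem (hK1G (hN1 a ha)) hs1c) (hK1G (hN1 b hb))
      · rw [hconj]
        have h5 := (hcomm i' i (by omega) (by omega) hit).1
        have h6 := hsq2 i (by omega) hit
        have h7 : s i' ∈ K j := by
          rw [hKj j h]
          exact Subgroup.subset_closure (Or.inr ⟨i', h1, h2', rfl⟩)
        exact (K j).mul_mem ((K j).mul_mem ((K j).inv_mem h7) (hHK j hj h5))
          ((K j).inv_mem (hHK j hj h6))
  -- decomposition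
  have hD : ∀ j, 1 ≤ j → j + 1 ≤ t →
      ∀ f ∈ K (j + 1), f ∈ K j ∨ ∃ a ∈ K j, ∃ b ∈ K j, f = a * s j * b := by
    intro j hj
    induction j, hj using Nat.le_induction with
    | base => exact fun _ => hD1
    | succ j hj ih =>
      intro hjt f hf
      exact Cfsg.Agent.Lib.Helper12.Witt.ope (K (j + 1)) (K j) (s j) (s (j + 1)) (hmono j hj)
        (hsK j hj) (ih (by omega)) (hHK j hj (hsq2 (j + 1) (by omega) hjt))
        (hHK (j + 1) (by omega) (hbraid j hj (by omega))) (hN j (j + 1) hj le_rfl hjt) f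
        (hKsucc (j + 1) (by omega) hf)
  -- fixed points
  have hKfix : ∀ j, 2 ≤ j → ∀ f ∈ K j, ∀ i, j < i → i ≤ t → f (q i) = q i := by
    intro j hj f hf i hji hit
    have : K j ≤ MulAction.stabilizer (Equiv.Perm α) (q i) := by
      rw [hKj j hj, Subgroup.closure_le]
      rintro x (hx | ⟨i', h1, h2', rfl⟩)
      · exact hfix x hx i (by omega) hit
      · exact (hsq i' h1 (by omega)).2.2 i (by omega) hit (by omega) (by omega)
    exact this hf
  have hstab : ∀ j, 2 ≤ j → j + 1 ≤ t → ∀ f ∈ K (j + 1), f (q (j + 1)) = q (j + 1) → f ∈ K j := by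
    intro j hj hjt f hf hfq
    rcases hD j (by omega) hjt f hf with h | ⟨a, ha, b, hb, rfl⟩
    · exact h
    · exfalso
      rw [Equiv.Perm.mul_apply, Equiv.Perm.mul_apply, hKfix j hj b hb (j + 1) (by omega) hjt,
        (hsq j hj hjt).2.1] at hfq
      have h3 : a (q j) = a (q (j + 1)) := by rw [hfq, hKfix j hj a ha (j + 1) (by omega) hjt]
      have := hq j (j + 1) (by omega) (by omega) (by omega) hjt (a.injective h3)
      omega
  rw [← hKj t ht]
  constructor
  · -- transitivity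
    let F : ℕ → Set α := fun j => {x | ∃ i, j < i ∧ i ≤ t ∧ x = q i}
    have hFins : ∀ j, j + 1 ≤ t → F j = insert (q (j + 1)) (F (j + 1)) := by
      intro j hjt
      ext x
      constructor
      · rintro ⟨i, h1, h2', rfl⟩
        rcases Nat.lt_or_ge (j + 1) i with h | h
        · exact Or.inr ⟨i, h, h2', rfl⟩
        · obtain rfl : i = j + 1 := by omega
          exact Or.inl rfl
      · rintro (rfl | ⟨i, h1, h2', rfl⟩)
        · exact ⟨j + 1, by omega, hjt, rfl⟩
        · exact ⟨i, by omega, h2', rfl⟩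
    have hTR : ∀ j, 2 ≤ j → j ≤ t → ∀ b ∉ F j, ∃ g ∈ K j, g b = q j := by
      intro j hj
      induction j, hj using Nat.le_induction with
      | base =>
        intro _ b hb
        by_cases hb2 : b = q 2
        · exact ⟨1, (K 2).one_mem, by rw [hb2]; rfl⟩
        · have hbF : ∀ i, 3 ≤ i → i ≤ t → b ≠ q i := fun i h3 hi h => hb ⟨i, by omega, hi, h⟩
          obtain ⟨g, hg, hg1, -⟩ := h2 b (q 2) (q 2) (q 1)
            (fun i h3 hi => ⟨hbF i h3 hi, hq2F i h3 hi, hq2F i h3 hi, hq1F i h3 hi⟩) hb2 hq12.symm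
          exact ⟨g, by rw [hK2]; exact hg, hg1⟩
      | succ j hj ih =>
        intro hjt b hb
        by_cases hbq : b = q (j + 1)
        · exact ⟨1, (K (j + 1)).one_mem, by rw [hbq]; rfl⟩
        · have hb' : b ∉ F j := by
            rw [hFins j hjt]
            rintro (h | h)
            · exact hbq h
            · exact hb h
          obtain ⟨g, hg, hgb⟩ := ih (by omega) b hb'
          refine ⟨s j * g, (K (j + 1)).mul_mem (hsK j (by omega)) (hmono j (by omega) hg), ?_⟩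
          rw [Equiv.Perm.mul_apply, hgb, (hsq j hj hjt).1]
    have hMT : ∀ j, 2 ≤ j → j ≤ t → Cfsg.Agent.Lib.Helper12.Witt.MT (K j) (F j) j := by
      intro j hj
      induction j, hj using Nat.le_induction with
      | base =>
        intro _ x y hx hy hxF hyF
        have hF' : ∀ z, z ∉ F 2 → ∀ i, 3 ≤ i → i ≤ t → z ≠ q i :=
          fun z hz i h3 hi h => hz ⟨i, by omega, hi, h⟩
        obtain ⟨g, hg, hg0, hg1⟩ := h2 (x 0) (x 1) (y 0) (y 1)
          (fun i h3 hi => ⟨hF' _ (hxF 0) i h3 hi, hF' _ (hxF 1) i h3 hi, hF' _ (hyF 0) i h3 hi,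
            hF' _ (hyF 1) i h3 hi⟩)
          (fun h => by simpa using hx h) (fun h => by simpa using hy h)
        refine ⟨g, by rw [hK2]; exact hg, ?_⟩
        intro i
        fin_cases i
        · exact hg0
        · exact hg1
      | succ j hj ih =>
        intro hjt
        have ih' := ih (by omega)
        rw [hFins j hjt] at ih'
        apply ih'.step (hmono j (by omega))
        · intro g hg
          exact hKfix j hj g hg (j + 1) (by omega) hjt
        · rintro g hg z ⟨i, h1, h2', rfl⟩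
          exact hKfix (j + 1) (by omega) g hg i h1 h2'
        · exact hTR (j + 1) (by omega) hjt
    have hFt : F t = ∅ := by
      ext x
      simp only [F, Set.mem_ofPred_eq, Set.mem_empty_iff_false, iff_false]
      rintro ⟨i, h1, h2', -⟩
      omega
    have := hMT t ht le_rfl
    rw [hFt] at this
    exact this.isMultiplyPretransitive
  · apply le_antisymm
    · rintro f ⟨hf, hfix'⟩
      have hfq : ∀ i, 1 ≤ i → i ≤ t → f (q i) = q i := by
        intro i h1 hi
        exact (mem_fixingSubgroup_iff _).mp hfix' (q i) ⟨i, h1, hi, rfl⟩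
      have hdown : ∀ d, d ≤ t - 2 → f ∈ K (t - d) := by
        intro d
        induction d with
        | zero => exact fun _ => hf
        | succ d ih =>
          intro hd
          have h1 := ih (by omega)
          have e : t - d = (t - (d + 1)) + 1 := by omega
          rw [e] at h1
          exact hstab _ (by omega) (by omega) f h1 (hfq _ (by omega) (by omega))
      have h3 := hdown (t - 2) le_rfl
      rw [show t - (t - 2) = 2 by omega, hK2] at h3
      rw [hH]
      exact ⟨⟨h3, hfq 1 le_rfl (by omega)⟩, hfq 2 (by omega) ht⟩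
    · intro f hf
      refine ⟨hHK t (by omega) hf, ?_⟩
      apply (mem_fixingSubgroup_iff _).mpr
      rintro y ⟨i, h1, hi, rfl⟩
      rw [hH] at hf
      rcases Nat.lt_or_ge i 3 with h | h
      · have : i = 1 ∨ i = 2 := by omega
        rcases this with rfl | rfl
        · exact hf.1.2
        · exact hf.2
      · exact hfix f hf.1.1 i h hi

end Cfsg.Agent.S0709
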