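import Mathlib
import Cfsg.Statements.S0714
import Cfsg.Agent.Lib.Helper12.PermMod

set_option autoImplicit false
open Cfsg

namespace Cfsg.Agent.S0714

/-- Over any field, the permutation module of the alternating group of degree at least 5 has exactly four invariant subspaces: zero, the constant functions, the functions with coordinate sum zero, and everything. -/
theorem result {α : Type*} [Fintype α] [DecidableEq α] (hα : 5 ≤ Fintype.card α) {K : Type*} [Field K] (W : Subrepresentation (Cfsg.permRep K (alternatingGroup α) α)) : W.toSubmodule = ⊥ ∨ W = Cfsg.permConstants K (alternatingGroup α) α ∨ W = Cfsg.permSumZero K (alternatingGroup α) α ∨ W.toSubmodule = ⊤ := by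
  by_cases hconst : ∀ f ∈ W.toSubmodule, ∀ a b : α, f a = f b
  · -- all functions in `W` are constant
    have hne : Nonempty α := by
      rw [← Fintype.card_pos_iff]; omega
    obtain ⟨x₀⟩ := hne
    have hle : W.toSubmodule ≤ (Cfsg.permConstants K (alternatingGroup α) α).toSubmodule := by
      intro f hf
      rw [Lib.Helper12.PermMod.mem_permConstants_iff]
      exact ⟨f x₀, funext fun x => hconst f hf x x₀⟩
    rcases Lib.Helper12.PermMod.eq_bot_or_eq_of_le_constants _ hle with h | h
    · exact Or.inl h
    · exact Or.inr (Or.inl (Subrepresentation.toSubmodule_injective h))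
  · right; right
    push Not at hconst
    obtain ⟨f, hf, a, b, hfab⟩ := hconst
    have hab : a ≠ b := by
      rintro rfl; exact hfab rfl
    have hex : ∀ s : Finset α, s.card < 5 → ∃ x, x ∉ s := by
      intro s hs
      obtain ⟨x, _, hx⟩ := Finset.exists_mem_notMem_of_card_lt_card
        (s := s) (t := Finset.univ) (by rw [Finset.card_univ]; omega)
      exact ⟨x, hx⟩
    obtain ⟨c, hc⟩ := hex {a, b} (lt_of_le_of_lt (Finset.card_le_two) (by norm_num))
    obtain ⟨d, hd⟩ := hex {a, b, c} (lt_of_le_of_lt (Finset.card_le_three) (by norm_num))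
    obtain ⟨e, he⟩ := hex {a, b, c, d} (lt_of_le_of_lt (Finset.card_le_four) (by norm_num))
    simp only [Finset.mem_insert, Finset.mem_singleton, not_or] at hc hd he
    obtain ⟨hca, hcb⟩ := hc
    obtain ⟨hda, hdb, hdc⟩ := hd
    obtain ⟨hea, heb, hec, hed⟩ := he
    -- the two three-cycles
    have hσ : Equiv.swap a b * Equiv.swap b c ∈ alternatingGroup α := by
      rw [Equiv.Perm.mem_alternatingGroup, Equiv.Perm.sign_mul, Equiv.Perm.sign_swap hab,
        Equiv.Perm.sign_swap (Ne.symm hcb)]
      rfl
    have hτ : Equiv.swap a d * Equiv.swap d e ∈ alternatingGroup α := by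
      rw [Equiv.Perm.mem_alternatingGroup, Equiv.Perm.sign_mul, Equiv.Perm.sign_swap (Ne.symm hda),
        Equiv.Perm.sign_swap (Ne.symm hed)]
      rfl
    set h : α → K := f - fun x => f ((Equiv.swap a b * Equiv.swap b c) x) with hh
    have hhW : h ∈ W.toSubmodule :=
      W.toSubmodule.sub_mem hf (Lib.Helper12.PermMod.comp_mem W hf ⟨_, hσ⟩)
    have hha : h a = f a - f b := by
      simp only [hh, Pi.sub_apply, Equiv.Perm.coe_mul, Function.comp_apply]
      rw [Equiv.swap_apply_of_ne_of_ne hab (Ne.symm hca), Equiv.swap_apply_left]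
    have hhd : h d = 0 := by
      simp only [hh, Pi.sub_apply, Equiv.Perm.coe_mul, Function.comp_apply]
      rw [Equiv.swap_apply_of_ne_of_ne hdb hdc, Equiv.swap_apply_of_ne_of_ne hda hdb, sub_self]
    have hhe : h e = 0 := by
      simp only [hh, Pi.sub_apply, Equiv.Perm.coe_mul, Function.comp_apply]
      rw [Equiv.swap_apply_of_ne_of_ne heb hec, Equiv.swap_apply_of_ne_of_ne hea heb, sub_self]
    have hha0 : h a ≠ 0 := by rw [hha]; exact sub_ne_zero.mpr hfab
    set k : α → K := h - fun x => h ((Equiv.swap a d * Equiv.swap d e) x) with hk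
    have hkW : k ∈ W.toSubmodule :=
      W.toSubmodule.sub_mem hhW (Lib.Helper12.PermMod.comp_mem W hhW ⟨_, hτ⟩)
    have hkeq : k = h a • (Pi.single a (1 : K) - Pi.single e (1 : K) : α → K) := by
      funext x
      simp only [hk, Pi.sub_apply, Equiv.Perm.coe_mul, Function.comp_apply, Pi.smul_apply,
        smul_eq_mul]
      by_cases hxa : x = a
      · subst hxa
        rw [Equiv.swap_apply_of_ne_of_ne (Ne.symm hda) (Ne.symm hea), Equiv.swap_apply_left, hhd]
        simp [Ne.symm hea]
      · by_cases hxd : x = d
        · subst hxd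
          rw [Equiv.swap_apply_left, Equiv.swap_apply_of_ne_of_ne hea hed, hhd, hhe]
          simp [hxa, Ne.symm hed]
        · by_cases hxe : x = e
          · subst hxe
            rw [Equiv.swap_apply_right, Equiv.swap_apply_right, hhe]
            simp [hxa]
          · rw [Equiv.swap_apply_of_ne_of_ne hxd hxe, Equiv.swap_apply_of_ne_of_ne hxa hxd]
            simp [hxa, hxe]
    have hbase : (Pi.single a (1 : K) - Pi.single e (1 : K) : α → K) ∈ W.toSubmodule := by
      have := W.toSubmodule.smul_mem (h a)⁻¹ hkW
      rwa [hkeq, smul_smul, inv_mul_cancel₀ hha0, one_smul] at this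
    -- 2-transitivity
    have h2t : MulAction.IsMultiplyPretransitive (alternatingGroup α) α 2 := by
      have := alternatingGroup.isMultiplyPretransitive α
      apply MulAction.isMultiplyPretransitive_of_le (n := Nat.card α - 2) _ (Nat.sub_le _ _)
      rw [Nat.card_eq_fintype_card]; omega
    have hall : ∀ x y : α, x ≠ y → (Pi.single x (1 : K) - Pi.single y (1 : K) : α → K) ∈ W.toSubmodule := by
      intro x y hxy
      obtain ⟨g, hgx, hgy⟩ := MulAction.is_two_pretransitive_iff.mp h2t hxy (Ne.symm hea)
      have := Lib.Helper12.PermMod.comp_mem W hbase g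
      convert this using 1
      funext z
      simp only [Pi.sub_apply, Pi.single_apply]
      have h1 : (g • z = a) ↔ z = x := by
        rw [← hgx]; exact smul_left_cancel_iff g
      have h2 : (g • z = e) ↔ z = y := by
        rw [← hgy]; exact smul_left_cancel_iff g
      simp only [h1, h2]
    have hle := Lib.Helper12.PermMod.sumZero_le_of_single_sub (G := alternatingGroup α) W.toSubmodule hall
    rcases Lib.Helper12.PermMod.eq_or_eq_top_of_sumZero_le _ hle with h | h
    · exact Or.inl (Subrepresentation.toSubmodule_injective h)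
    · exact Or.inr h

end Cfsg.Agent.S0714
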