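import Cfsg.Statements.S0715
import Cfsg.Agent.Lib.Helper58.OrbitalOp
import Cfsg.Agent.Lib.Helper3.Integral

set_option autoImplicit false
open Cfsg

namespace Cfsg.Agent.S0715

open Cfsg.Agent.Lib.Helper3 Cfsg.Agent.Lib.Helper58

/-- degree of a character modulo a common divisor of the degrees of its non-principal
constituents -/
theorem degree_mod {G : Type*} [Group G] [Fintype G] (f : ℕ) {θ : G → ℂ} (hθ : IsCharacter G θ)
    (h : ∀ ψ : G → ℂ, IsIrrCharacter G ψ → ψ ≠ (fun _ => 1) → classInner θ ψ ≠ 0 →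
      ∃ m : ℕ, ψ 1 = (f : ℂ) * m) :
    ∃ K : ℕ, θ 1 = classInner θ (fun _ => (1 : ℂ)) + (f : ℂ) * K := by
  classical
  have := Fintype.ofFinite (IrrCharacter G)
  have hexp := classFunction_expansion (IsCharacter.isClassFunction hθ)
  have hterm : ∀ ψ : IrrCharacter G, ψ ≠ oneIrr G →
      ∃ k : ℕ, classInner θ ψ * (ψ : G → ℂ) 1 = (f : ℂ) * k := by
    intro ψ hψ
    obtain ⟨n, hn⟩ := IsCharacter.classInner_eq_natCast hθ (IsIrrCharacter.isCharacter ψ.2)
    by_cases h0 : classInner θ (ψ : G → ℂ) = 0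
    · exact ⟨0, by rw [h0]; simp⟩
    · obtain ⟨m, hm⟩ := h ψ ψ.2 (fun hh => hψ (Subtype.ext hh)) h0
      exact ⟨n * m, by rw [hn, hm]; push_cast; ring⟩
  choose! k hk using hterm
  refine ⟨∑ ψ ∈ Finset.univ.erase (oneIrr G), k ψ, ?_⟩
  have h1 : θ 1 = ∑ ψ : IrrCharacter G, classInner θ ψ * (ψ : G → ℂ) 1 := by
    conv_lhs => rw [hexp]
    simp [Finset.sum_apply]
  rw [h1, ← Finset.add_sum_erase _ _ (Finset.mem_univ (oneIrr G))]
  congr 1
  · simp [oneIrr]
  · push_cast
    rw [Finset.mul_sum]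
    refine Finset.sum_congr rfl fun ψ hψ => hk ψ (Finset.ne_of_mem_erase hψ)

/-- If a natural number `f` divides the degree of every non-principal irreducible constituent of the permutation character of a transitive group, then `f` divides every non-trivial subdegree. -/
theorem result {G : Type*} [Group G] [Fintype G] {Ω : Type*} [Fintype Ω] [MulAction G Ω] [MulAction.IsPretransitive G Ω] (f : ℕ) (hf : ∀ χ : G → ℂ, Cfsg.IsIrrCharacter G χ → χ ≠ (fun _ => 1) → Cfsg.classInner (fun g : G => (Nat.card (MulAction.fixedBy Ω g) : ℂ)) χ ≠ 0 → ∃ m : ℕ, χ 1 = (f : ℂ) * m) (a b : Ω) (hab : b ≠ a) : f ∣ Nat.card (MulAction.orbit (MulAction.stabilizer G a) b) := by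
  classical
  rw [← char_permRep] at hf
  set ρ := permRep ℂ G Ω with hρ
  set A := Matrix.toLin' (orbMat G ℂ a b) with hA
  set nb := Nat.card (MulAction.orbit (MulAction.stabilizer G a) b) with hnb
  have hAc : ∀ g, A ∘ₗ ρ g = ρ g ∘ₗ A := toLin'_comm _ (orbMat_smul_smul G ℂ a b)
  obtain ⟨S, φ, hS, hφ, hsum, htr, hfix⟩ := genEig_decomp ρ A hAc
  have h1ne : (fun _ : Ω => (1 : ℂ)) ≠ 0 := fun h => one_ne_zero (congrFun h a)
  obtain ⟨hcS, hc1⟩ := hfix (nb : ℂ) (fun _ => 1) h1ne (fun g => rfl) (toLin'_orbMat_one G a b)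
  rw [hA, trace_toLin'_orbMat G hab] at htr
  -- natural multiplicities
  have hnat : ∀ (μ : ℂ) (ψ : G → ℂ), IsIrrCharacter G ψ → ∃ n : ℕ, classInner (φ μ) ψ = n :=
    fun μ ψ hψ => IsCharacter.classInner_eq_natCast (hφ μ) (IsIrrCharacter.isCharacter hψ)
  have hle : ∀ μ ∈ S, ∀ ψ : G → ℂ, IsIrrCharacter G ψ → classInner (φ μ) ψ ≠ 0 →
      classInner ρ.character ψ ≠ 0 := by
    intro μ hμ ψ hψ h0 hcon
    rw [hsum, classInner_sum_left] at hcon
    choose n hn using fun ν => hnat ν ψ hψ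
    simp only [hn] at hcon h0
    have h2 : ∑ ν ∈ S, n ν = 0 := by exact_mod_cast hcon
    have h3 := (Finset.sum_eq_zero_iff.mp h2) μ hμ
    rw [h3] at h0
    exact h0 (by simp)
  have hkey : ∀ μ ∈ S, ∃ K : ℕ, φ μ 1 = classInner (φ μ) (fun _ => (1 : ℂ)) + (f : ℂ) * K :=
    fun μ hμ => degree_mod f (hφ μ) fun ψ hψ hψ1 h0 => hf ψ hψ hψ1 (hle μ hμ ψ hψ h0)
  choose! K hK using hkey
  choose e he using fun ν => hnat ν (fun _ => 1) isIrrCharacter_one
  -- the principal character occurs once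
  have hone : ∑ ν ∈ S, e ν = 1 := by
    have h2 : classInner ρ.character (fun _ => (1 : ℂ)) = 1 := by
      rw [hρ, char_permRep, classInner_card_fixedBy_one]
      have : Nonempty Ω := ⟨a⟩
      rw [(card_orbitRel_quotient_eq_one_iff Ω).mpr inferInstance]
      simp
    rw [hsum, classInner_sum_left] at h2
    simp only [he] at h2
    exact_mod_cast h2
  have henb : e (nb : ℂ) ≠ 0 := by
    intro h0
    apply hc1
    rw [he, h0]
    simp
  have hothers : ∀ ν ∈ S, ν ≠ (nb : ℂ) → e ν = 0 := by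
    intro ν hν hne
    by_contra h0
    have h3 : e (nb : ℂ) + e ν ≤ ∑ ν ∈ S, e ν := by
      rw [← Finset.sum_pair (f := e) (Ne.symm hne)]
      apply Finset.sum_le_sum_of_subset
      intro x hx
      simp only [Finset.mem_insert, Finset.mem_singleton] at hx
      rcases hx with rfl | rfl
      · exact hcS
      · exact hν
    omega
  have henb1 : e (nb : ℂ) = 1 := by
    rw [Finset.sum_eq_single (nb : ℂ) (fun ν hν hne => hothers ν hν hne)
      (fun h => absurd hcS h)] at hone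
    exact hone
  have hmain : (0 : ℂ) = (nb : ℂ) + (f : ℂ) * ∑ μ ∈ S, μ * (K μ : ℂ) := by
    rw [htr, Finset.mul_sum]
    have h4 : ∑ μ ∈ S, μ * (e μ : ℂ) = (nb : ℂ) := by
      rw [Finset.sum_eq_single (nb : ℂ)]
      · rw [henb1]; simp
      · intro ν hν hne
        rw [hothers ν hν hne]; simp
      · intro h; exact absurd hcS h
    rw [← h4, ← Finset.sum_add_distrib]
    refine Finset.sum_congr rfl fun μ hμ => ?_
    rw [hK μ hμ, he]
    ring
  have hint : IsIntegral ℤ (∑ μ ∈ S, μ * (K μ : ℂ)) := by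
    apply IsIntegral.sum
    intro μ hμ
    exact (isIntegral_of_hasEigenvalue (isIntegral_toLin'_orbMat G a b) (hS μ hμ)).mul
      (isIntegral_natCast _)
  rcases Nat.eq_zero_or_pos f with hf0 | hf0
  · rw [hf0] at hmain
    simp only [Nat.cast_zero, zero_mul, add_zero] at hmain
    have : nb = 0 := by exact_mod_cast hmain.symm
    rw [hf0, this]
  · apply nat_dvd_of_isIntegral_div hf0.ne'
    have hfc : (f : ℂ) ≠ 0 := by exact_mod_cast hf0.ne'
    have h5 : (nb : ℂ) / (f : ℂ) = -∑ μ ∈ S, μ * (K μ : ℂ) := by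
      field_simp
      linear_combination -hmain
    rw [h5]
    exact hint.neg

end Cfsg.Agent.S0715
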