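import Cfsg.Statements.S0716
import Cfsg.Agent.Lib.Helper58.PermRank
import Cfsg.Agent.S0715

set_option autoImplicit false
open Cfsg

namespace Cfsg.Agent.S0716

open Cfsg.Agent.Lib.Helper3 Cfsg.Agent.Lib.Helper58

theorem partA {G : Type*} [Group G] [Fintype G] {Ω : Type*} [Fintype Ω] [MulAction G Ω]
    [MulAction.IsPretransitive G Ω] (a : Ω) (f : ℕ)
    (hf : ∀ χ : G → ℂ, Cfsg.IsIrrCharacter G χ → χ ≠ (fun _ => 1) →
      Cfsg.classInner (fun g : G => (Nat.card (MulAction.fixedBy Ω g) : ℂ)) χ ≠ 0 → χ 1 = f) :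
    (∀ χ : G → ℂ, Cfsg.IsIrrCharacter G χ →
      Cfsg.classInner (fun g : G => (Nat.card (MulAction.fixedBy Ω g) : ℂ)) χ = 0 ∨
      Cfsg.classInner (fun g : G => (Nat.card (MulAction.fixedBy Ω g) : ℂ)) χ = 1) ∧
    ∀ b : Ω, b ≠ a → Nat.card (MulAction.orbit (MulAction.stabilizer G a) b) = f := by
  classical
  have := Fintype.ofFinite (IrrCharacter G)
  have := Fintype.ofFinite (MulAction.orbitRel.Quotient (MulAction.stabilizer G a) Ω)
  set π := fun g : G => (Nat.card (MulAction.fixedBy Ω g) : ℂ) with hπdef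
  have hπ : IsCharacter G π := isCharacter_card_fixedBy Ω
  choose m hm using fun χ : IrrCharacter G =>
    IsCharacter.classInner_eq_natCast hπ (IsIrrCharacter.isCharacter χ.2)
  have hm1 : m (oneIrr G) = 1 := by
    have h2 : classInner π (fun _ => (1 : ℂ)) = 1 := by
      rw [hπdef, classInner_card_fixedBy_one]
      have : Nonempty Ω := ⟨a⟩
      rw [(card_orbitRel_quotient_eq_one_iff Ω).mpr inferInstance]
      simp
    have h3 := hm (oneIrr G)
    rw [show ((oneIrr G : IrrCharacter G) : G → ℂ) = fun _ => 1 from rfl, h2] at h3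
    exact_mod_cast h3.symm
  set q₀ : MulAction.orbitRel.Quotient (MulAction.stabilizer G a) Ω := Quotient.mk'' a with hq₀
  set s : MulAction.orbitRel.Quotient (MulAction.stabilizer G a) Ω → ℕ :=
    fun ω => Nat.card (MulAction.orbit (MulAction.stabilizer G a) ω.out) with hs
  have hr : Fintype.card (MulAction.orbitRel.Quotient (MulAction.stabilizer G a) Ω) =
      ∑ χ, m χ ^ 2 := by
    have h1 := classInner_perm_self_eq_rank (G := G) a
    rw [classInner_self_eq_sum_sq hπ m hm, Nat.card_eq_fintype_card] at h1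
    exact_mod_cast h1.symm
  have hn1 : Fintype.card Ω = ∑ ω, s ω := card_eq_sum_suborbits a
  have hn2 : Fintype.card Ω = 1 + f * ∑ χ ∈ Finset.univ.erase (oneIrr G), m χ := by
    have h1 := apply_one_eq_sum hπ
    have h2 : π 1 = (Fintype.card Ω : ℂ) := by
      simp only [hπdef, MulAction.fixedBy_one_eq_univ, Nat.card_eq_fintype_card]
      simp
    rw [h2, ← Finset.add_sum_erase _ _ (Finset.mem_univ (oneIrr G)), hm, hm1] at h1
    have h3 : ∑ χ ∈ Finset.univ.erase (oneIrr G), classInner π (χ : G → ℂ) * (χ : G → ℂ) 1 =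
        ((f * ∑ χ ∈ Finset.univ.erase (oneIrr G), m χ : ℕ) : ℂ) := by
      push_cast
      rw [Finset.mul_sum]
      refine Finset.sum_congr rfl fun χ hχ => ?_
      by_cases h0 : classInner π (χ : G → ℂ) = 0
      · have : m χ = 0 := by
          have := hm χ
          rw [h0] at this
          exact_mod_cast this.symm
        rw [h0, this]; simp
      · rw [hf χ χ.2 (fun hh => Finset.ne_of_mem_erase hχ (Subtype.ext hh)) h0, hm]
        ring
    rw [h3] at h1
    have h4 : ((oneIrr G : IrrCharacter G) : G → ℂ) 1 = 1 := rfl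
    rw [h4] at h1
    exact_mod_cast h1
  have hs0 : s q₀ = 1 := by
    simp only [hs]
    rw [(out_eq_self_iff a q₀).mpr rfl, orbit_stabilizer_self]
    simp
  have hspos : ∀ ω, 0 < s ω := by
    intro ω
    simp only [hs]
    have : Nonempty (MulAction.orbit (MulAction.stabilizer G a) ω.out) :=
      ⟨⟨_, MulAction.mem_orbit_self _⟩⟩
    exact Nat.card_pos
  have hsf : ∀ ω ∈ Finset.univ.erase q₀, f ≤ s ω := by
    intro ω hω
    apply Nat.le_of_dvd (hspos ω)
    apply Cfsg.Agent.S0715.result f _ a ω.out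
    · intro h
      exact Finset.ne_of_mem_erase hω ((out_eq_self_iff a ω).mp h)
    · intro χ hχ h1 h0
      exact ⟨1, by rw [hf χ hχ h1 h0]; simp⟩
  rw [← Finset.add_sum_erase _ _ (Finset.mem_univ q₀), hs0] at hn1
  rw [← Finset.add_sum_erase _ _ (Finset.mem_univ (oneIrr G)), hm1] at hr
  have hcard : (Finset.univ.erase q₀).card = ∑ χ ∈ Finset.univ.erase (oneIrr G), m χ ^ 2 := by
    rw [Finset.card_erase_of_mem (Finset.mem_univ q₀), Finset.card_univ, hr]
    simp
  have hsum1 : ∑ ω ∈ Finset.univ.erase q₀, s ω =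
      f * ∑ χ ∈ Finset.univ.erase (oneIrr G), m χ := by omega
  have hle1 : ∑ χ ∈ Finset.univ.erase (oneIrr G), m χ ≤
      ∑ χ ∈ Finset.univ.erase (oneIrr G), m χ ^ 2 :=
    Finset.sum_le_sum fun χ _ => Nat.le_self_pow (by norm_num) _
  have hle2 : ∑ ω ∈ Finset.univ.erase q₀, f ≤ ∑ ω ∈ Finset.univ.erase q₀, s ω :=
    Finset.sum_le_sum hsf
  have hconst : ∑ ω ∈ Finset.univ.erase q₀, f =
      f * ∑ χ ∈ Finset.univ.erase (oneIrr G), m χ ^ 2 := by
    rw [Finset.sum_const, hcard, smul_eq_mul, mul_comm]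
  have hle3 : f * ∑ χ ∈ Finset.univ.erase (oneIrr G), m χ ≤
      f * ∑ χ ∈ Finset.univ.erase (oneIrr G), m χ ^ 2 := Nat.mul_le_mul_left f hle1
  have heq1 : ∑ ω ∈ Finset.univ.erase q₀, f = ∑ ω ∈ Finset.univ.erase q₀, s ω := by omega
  have hall : ∀ ω ∈ Finset.univ.erase q₀, f = s ω := (Finset.sum_eq_sum_iff_of_le hsf).mp heq1
  have hm01 : ∀ χ ∈ Finset.univ.erase (oneIrr G), m χ = m χ ^ 2 := by
    rcases Nat.eq_zero_or_pos f with hf0 | hf0
    · have hempty : Finset.univ.erase q₀ = ∅ := by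
        rw [Finset.eq_empty_iff_forall_notMem]
        intro ω hω
        have h1 := hall ω hω
        have h2 := hspos ω
        omega
      rw [hempty, Finset.card_empty] at hcard
      intro χ hχ
      have h1 := (Finset.sum_eq_zero_iff.mp hcard.symm) χ hχ
      have h2 : m χ = 0 := by
        by_contra h3
        exact (pow_ne_zero 2 h3) h1
      rw [h2]; rfl
    · apply (Finset.sum_eq_sum_iff_of_le fun χ _ => Nat.le_self_pow (by norm_num) _).mp
      have : f * ∑ χ ∈ Finset.univ.erase (oneIrr G), m χ =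
          f * ∑ χ ∈ Finset.univ.erase (oneIrr G), m χ ^ 2 := by omega
      exact Nat.eq_of_mul_eq_mul_left hf0 this
  refine ⟨fun χ hχ => ?_, fun b hb => ?_⟩
  · have h1 := hm ⟨χ, hχ⟩
    simp only at h1
    rw [h1]
    by_cases hχ1 : (⟨χ, hχ⟩ : IrrCharacter G) = oneIrr G
    · right
      rw [hχ1, hm1]; simp
    · have h2 := hm01 ⟨χ, hχ⟩ (Finset.mem_erase.mpr ⟨hχ1, Finset.mem_univ _⟩)
      have h3 : m ⟨χ, hχ⟩ = 0 ∨ m ⟨χ, hχ⟩ = 1 := by
        rcases Nat.lt_or_ge (m ⟨χ, hχ⟩) 2 with h | h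
        · omega
        · nlinarith
      rcases h3 with h3 | h3
      · left; rw [h3]; simp
      · right; rw [h3]; simp
  · have h1 : (Quotient.mk'' b : MulAction.orbitRel.Quotient (MulAction.stabilizer G a) Ω) ∈
        Finset.univ.erase q₀ := by
      rw [Finset.mem_erase]
      refine ⟨fun h => ?_, Finset.mem_univ _⟩
      rw [hq₀, Quotient.eq''] at h
      have h2 : b ∈ MulAction.orbit (MulAction.stabilizer G a) a := h
      rw [orbit_stabilizer_self] at h2
      exact hb h2
    have h2 := hall _ h1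
    simp only [hs] at h2
    rw [orbit_out_mk] at h2
    exact h2.symm

/-- (a) If all non-principal irreducible constituents of the permutation character of a transitive group have the same degree `f`, the character is multiplicity-free and all non-trivial subdegrees equal `f`. (b) A transitive group of rank at most 5 has multiplicity-free permutation character. -/
theorem result {G : Type*} [Group G] [Fintype G] {Ω : Type*} [Fintype Ω] [MulAction G Ω] [MulAction.IsPretransitive G Ω] (a : Ω) : ((f : ℕ) → (∀ χ : G → ℂ, Cfsg.IsIrrCharacter G χ → χ ≠ (fun _ => 1) → Cfsg.classInner (fun g : G => (Nat.card (MulAction.fixedBy Ω g) : ℂ)) χ ≠ 0 → χ 1 = f) → (∀ χ : G → ℂ, Cfsg.IsIrrCharacter G χ → Cfsg.classInner (fun g : G => (Nat.card (MulAction.fixedBy Ω g) : ℂ)) χ = 0 ∨ Cfsg.classInner (fun g : G => (Nat.card (MulAction.fixedBy Ω g) : ℂ)) χ = 1) ∧ ∀ b : Ω, b ≠ a → Nat.card (MulAction.orbit (MulAction.stabilizer G a) b) = f) ∧ (Nat.card (MulAction.orbitRel.Quotient (MulAction.stabilizer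 G a) Ω) ≤ 5 → ∀ χ : G → ℂ, Cfsg.IsIrrCharacter G χ → Cfsg.classInner (fun g : G => (Nat.card (MulAction.fixedBy Ω g) : ℂ)) χ = 0 ∨ Cfsg.classInner (fun g : G => (Nat.card (MulAction.fixedBy Ω g) : ℂ)) χ = 1) := by
  classical
  refine ⟨fun f hf => partA a f hf, fun hrank => ?_⟩
  have := Fintype.ofFinite (IrrCharacter G)
  set π := fun g : G => (Nat.card (MulAction.fixedBy Ω g) : ℂ) with hπdef
  have hπ : IsCharacter G π := isCharacter_card_fixedBy Ω
  choose m hm using fun χ : IrrCharacter G =>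
    IsCharacter.classInner_eq_natCast hπ (IsIrrCharacter.isCharacter χ.2)
  have hm1 : m (oneIrr G) = 1 := by
    have h2 : classInner π (fun _ => (1 : ℂ)) = 1 := by
      rw [hπdef, classInner_card_fixedBy_one]
      have : Nonempty Ω := ⟨a⟩
      rw [(card_orbitRel_quotient_eq_one_iff Ω).mpr inferInstance]
      simp
    have h3 := hm (oneIrr G)
    rw [show ((oneIrr G : IrrCharacter G) : G → ℂ) = fun _ => 1 from rfl, h2] at h3
    exact_mod_cast h3.symm
  have hr : Nat.card (MulAction.orbitRel.Quotient (MulAction.stabilizer G a) Ω) =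
      ∑ χ, m χ ^ 2 := by
    have h1 := classInner_perm_self_eq_rank (G := G) a
    rw [classInner_self_eq_sum_sq hπ m hm] at h1
    exact_mod_cast h1.symm
  rw [hr] at hrank
  by_cases hbig : ∃ ψ : IrrCharacter G, 2 ≤ m ψ
  · exfalso
    obtain ⟨ψ, hψ⟩ := hbig
    have hψ1 : ψ ≠ oneIrr G := by
      intro h
      rw [h, hm1] at hψ
      omega
    have hothers : ∀ χ : IrrCharacter G, χ ≠ oneIrr G → χ ≠ ψ → m χ = 0 := by
      intro χ h1 h2
      by_contra h0
      have h3 : ∑ x ∈ ({oneIrr G, ψ, χ} : Finset (IrrCharacter G)), m x ^ 2 ≤ ∑ χ, m χ ^ 2 :=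
        Finset.sum_le_sum_of_subset (Finset.subset_univ _)
      rw [Finset.sum_insert (by simp [Ne.symm hψ1, Ne.symm h1]),
        Finset.sum_pair (Ne.symm h2), hm1] at h3
      have h4 : 4 ≤ m ψ ^ 2 := by nlinarith
      have h5 : 1 ≤ m χ ^ 2 := Nat.one_le_pow _ _ (Nat.pos_of_ne_zero h0)
      omega
    obtain ⟨d, hd⟩ := IsCharacter.apply_one_eq_natCast (IsIrrCharacter.isCharacter ψ.2)
    have hA := (partA a d (fun χ hχ h1 h0 => by
      have h2 : (⟨χ, hχ⟩ : IrrCharacter G) = ψ := by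
        by_contra h3
        apply h0
        have h4 := hm ⟨χ, hχ⟩
        rw [hothers ⟨χ, hχ⟩ (fun h => h1 (congrArg Subtype.val h)) h3, Nat.cast_zero] at h4
        exact h4
      rw [← hd, ← h2])).1 ψ ψ.2
    rw [hm ψ] at hA
    rcases hA with hA | hA
    · have : m ψ = 0 := by exact_mod_cast hA
      omega
    · have : m ψ = 1 := by exact_mod_cast hA
      omega
  · push Not at hbig
    intro χ hχ
    have h1 := hm ⟨χ, hχ⟩
    have h2 := hbig ⟨χ, hχ⟩
    simp only at h1
    rw [h1]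
    have h3 : m ⟨χ, hχ⟩ = 0 ∨ m ⟨χ, hχ⟩ = 1 := by omega
    rcases h3 with h3 | h3
    · left; rw [h3]; simp
    · right; rw [h3]; simp

end Cfsg.Agent.S0716
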