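import Cfsg.Statements.S0720
import Cfsg.Agent.Lib.Helper58.TwoPChar2
import Cfsg.Agent.S0713

set_option autoImplicit false
open Cfsg

namespace Cfsg.Agent.S0720

open MulAction Cfsg.Agent.Lib.Helper58 Cfsg.Agent.Lib.Helper58.TwoP

theorem two_trans {G Ω : Type*} [Group G] [MulAction G Ω] [IsPretransitive G Ω] (a₀ : Ω)
    (h : ∀ b d, b ≠ a₀ → d ≠ a₀ → d ∈ orbit (stabilizer G a₀) b) :
    IsMultiplyPretransitive G Ω 2 := by
  rw [MulAction.is_two_pretransitive_iff]
  intro a b c d hab hcd
  obtain ⟨g₁, hg₁⟩ := exists_smul_eq G a a₀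
  obtain ⟨g₂, hg₂⟩ := exists_smul_eq G c a₀
  have h1 : g₁ • b ≠ a₀ := fun h => hab (smul_left_cancel g₁ (hg₁.trans h.symm))
  have h2 : g₂ • d ≠ a₀ := fun h => hcd (smul_left_cancel g₂ (hg₂.trans h.symm))
  obtain ⟨⟨k, hk⟩, hk'⟩ := h _ _ h1 h2
  change k • g₁ • b = g₂ • d at hk'
  rw [mem_stabilizer_iff] at hk
  refine ⟨g₂⁻¹ * k * g₁, ?_, ?_⟩
  · rw [mul_smul, mul_smul, hg₁, hk, ← hg₂, inv_smul_smul]
  · rw [mul_smul, mul_smul, hk', inv_smul_smul]

theorem card_dvd {α : Type*} [Fintype α] [DecidableEq α] (G : Subgroup (Equiv.Perm α))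
    [IsPretransitive G α] (a₀ : α) : Fintype.card α ∣ Nat.card G := by
  rw [← Nat.card_eq_fintype_card, ← MulAction.index_stabilizer_of_transitive G a₀]
  exact Subgroup.index_dvd_card _

theorem suborbit_two_le {α : Type*} [Fintype α] [DecidableEq α] {p : ℕ} (hp : p.Prime)
    (hα : Fintype.card α = 2 * p) (G : Subgroup (Equiv.Perm α))
    (hprim : MulAction.IsPreprimitive G α) (a₀ b : α) (hb : b ≠ a₀) :
    2 ≤ Nat.card (orbit (stabilizer G a₀) b) := by
  have hpF : Fact p.Prime := ⟨hp⟩
  have htr := hprim.toIsPretransitive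
  by_contra hcon
  have hpos : 0 < Nat.card (orbit (stabilizer G a₀) b) := by
    have : Nonempty (orbit (stabilizer G a₀) b) := ⟨⟨_, mem_orbit_self _⟩⟩
    exact Nat.card_pos
  have h1 : Nat.card (orbit (stabilizer G a₀) b) = 1 := by omega
  have : Nontrivial α := ⟨b, a₀, hb⟩
  set H := MulAction.stabilizer G a₀ with hH
  have hco : IsCoatom H := MulAction.IsPreprimitive.isCoatom_stabilizer_of_isPreprimitive G a₀
  have hcob : IsCoatom (MulAction.stabilizer G b) :=
    MulAction.IsPreprimitive.isCoatom_stabilizer_of_isPreprimitive G b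
  have hle : H ≤ MulAction.stabilizer G b := by
    intro h hh
    rw [Nat.card_eq_one_iff_unique] at h1
    obtain ⟨hsub, _⟩ := h1
    have := hsub.elim ⟨(⟨h, hh⟩ : H) • b, MulAction.mem_orbit _ _⟩ ⟨b, MulAction.mem_orbit_self b⟩
    exact congrArg Subtype.val this
  have heq : MulAction.stabilizer G b = H := (hco.le_iff.mp hle).resolve_left hcob.1
  obtain ⟨g, hg⟩ := MulAction.exists_smul_eq G a₀ b
  have hgN : g ∈ Subgroup.normalizer (H : Set G) := by
    rw [Subgroup.mem_normalizer_iff]
    intro x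
    nth_rw 2 [← heq]
    rw [hH, MulAction.mem_stabilizer_iff, MulAction.mem_stabilizer_iff, ← hg, mul_smul, mul_smul,
      inv_smul_smul, smul_left_cancel_iff]
  have hgH : g ∉ H := by
    intro h
    rw [hH, MulAction.mem_stabilizer_iff] at h
    exact hb (hg.symm.trans h)
  have hN : Subgroup.normalizer (H : Set G) = ⊤ := by
    rcases hco.le_iff.mp (Subgroup.le_normalizer (H := H)) with h | h
    · exact h
    · exact absurd (h ▸ hgN) hgH
  have hfix : ∀ x : α, ∀ h ∈ H, h • x = x := by
    intro x h hh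
    obtain ⟨g', rfl⟩ := MulAction.exists_smul_eq G a₀ x
    have h2 : g' ∈ Subgroup.normalizer (H : Set G) := by rw [hN]; trivial
    rw [Subgroup.mem_normalizer_iff''] at h2
    have h3 := (h2 h).mp hh
    rw [hH, MulAction.mem_stabilizer_iff, mul_smul, mul_smul, inv_smul_eq_iff] at h3
    exact h3
  have hbot : H = ⊥ := by
    rw [Subgroup.eq_bot_iff_forall]
    intro h hh
    exact Subtype.ext (Equiv.ext fun x => hfix x h hh)
  rw [hbot] at hco
  have hdvd := card_dvd G a₀
  rw [hα] at hdvd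
  obtain ⟨x, hx⟩ := exists_prime_orderOf_dvd_card' p (Dvd.dvd.trans ⟨2, mul_comm 2 p⟩ hdvd)
  have hxne : Subgroup.zpowers x ≠ ⊥ := by
    intro h
    rw [Subgroup.zpowers_eq_bot] at h
    rw [h, orderOf_one] at hx
    exact hp.one_lt.ne hx
  have htop := hco.2 _ (bot_lt_iff_ne_bot.mpr hxne)
  have hc : Nat.card G = p := by
    rw [← Subgroup.card_top, ← htop, Nat.card_zpowers, hx]
  rw [hc] at hdvd
  have := Nat.le_of_dvd hp.pos hdvd
  have := hp.pos
  omega

theorem count {G Ω : Type*} [Group G] [Fintype Ω] [DecidableEq Ω] [MulAction G Ω] (a : Ω) {n : ℕ}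
    (b : Fin n → Ω) (hb : ∀ i, b i ≠ a)
    (hbb : ∀ i j, b j ∈ orbit (stabilizer G a) (b i) → i = j)
    (hge : ∀ i, 2 ≤ Nat.card (orbit (stabilizer G a) (b i))) : 1 + 2 * n ≤ Fintype.card Ω := by
  classical
  set S : Fin n → Finset Ω := fun i => Finset.univ.filter (· ∈ orbit (stabilizer G a) (b i))
    with hS
  have hcard : ∀ i, (S i).card = Nat.card (orbit (stabilizer G a) (b i)) := by
    intro i
    rw [Nat.card_eq_fintype_card, hS]
    exact (Fintype.card_subtype _).symm
  have hdisj : ((Finset.univ : Finset (Fin n)) : Set (Fin n)).PairwiseDisjoint S := by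
    intro i _ j _ hij
    rw [Function.onFun, Finset.disjoint_left]
    intro y hyi hyj
    simp only [hS, Finset.mem_filter, Finset.mem_univ, true_and] at hyi hyj
    apply hij
    apply hbb
    rw [← orbit_eq_iff.mpr hyi, orbit_eq_iff.mpr hyj]
    exact mem_orbit_self _
  have hsub : Finset.univ.biUnion S ⊆ Finset.univ.erase a := by
    intro y hy
    rw [Finset.mem_biUnion] at hy
    obtain ⟨i, -, hy⟩ := hy
    simp only [hS, Finset.mem_filter, Finset.mem_univ, true_and] at hy
    rw [Finset.mem_erase]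
    refine ⟨?_, Finset.mem_univ _⟩
    rintro rfl
    apply hb i
    have h1 : b i ∈ orbit (stabilizer G y) y := by
      rw [orbit_eq_iff.mpr hy]; exact mem_orbit_self _
    rw [orbit_stabilizer_self] at h1
    exact h1
  have h1 := Finset.card_le_card hsub
  rw [Finset.card_biUnion hdisj, Finset.card_erase_of_mem (Finset.mem_univ _),
    Finset.card_univ] at h1
  have h2 : ∑ i : Fin n, 2 ≤ ∑ i : Fin n, (S i).card :=
    Finset.sum_le_sum fun i _ => by rw [hcard]; exact hge i
  simp only [Finset.sum_const, Finset.card_univ, Fintype.card_fin, smul_eq_mul] at h2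
  have h3 : 0 < Fintype.card Ω := Fintype.card_pos_iff.mpr ⟨a⟩
  omega

theorem triple {G Ω : Type*} [Group G] [MulAction G Ω] {a b d e : Ω}
    (hb : b ≠ a) (hd : d ≠ a) (he : e ≠ a) (hdb : d ∉ orbit (stabilizer G a) b)
    (heb : e ∉ orbit (stabilizer G a) b) (hed : e ∉ orbit (stabilizer G a) d) :
    (∀ i, ![b, d, e] i ≠ a) ∧
      ∀ i j, ![b, d, e] j ∈ orbit (stabilizer G a) (![b, d, e] i) → i = j := by
  have hsymm : ∀ {u v : Ω}, u ∉ orbit (stabilizer G a) v → v ∉ orbit (stabilizer G a) u :=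
    fun h h' => h (by rw [orbit_eq_iff.mpr h']; exact mem_orbit_self _)
  constructor
  · intro i
    fin_cases i
    · exact hb
    · exact hd
    · exact he
  · intro i j hij
    fin_cases i <;> fin_cases j
    · rfl
    · exact absurd hij hdb
    · exact absurd hij heb
    · exact absurd hij (hsymm hdb)
    · rfl
    · exact absurd hij hed
    · exact absurd hij (hsymm heb)
    · exact absurd hij (hsymm hed)
    · rfl

theorem pair {G Ω : Type*} [Group G] [MulAction G Ω] {a b d : Ω}
    (hb : b ≠ a) (hd : d ≠ a) (hdb : d ∉ orbit (stabilizer G a) b) :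
    (∀ i, ![b, d] i ≠ a) ∧
      ∀ i j, ![b, d] j ∈ orbit (stabilizer G a) (![b, d] i) → i = j := by
  have hsymm : ∀ {u v : Ω}, u ∉ orbit (stabilizer G a) v → v ∉ orbit (stabilizer G a) u :=
    fun h h' => h (by rw [orbit_eq_iff.mpr h']; exact mem_orbit_self _)
  constructor
  · intro i
    fin_cases i
    · exact hb
    · exact hd
  · intro i j hij
    fin_cases i <;> fin_cases j
    · rfl
    · exact absurd hij hdb
    · exact absurd hij (hsymm hdb)
    · rfl

theorem rank_eq_three {G Ω : Type*} [Group G] [Fintype Ω] [MulAction G Ω] {a b d : Ω}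
    (hb : b ≠ a) (hd : d ≠ a) (hdb : d ∉ orbit (stabilizer G a) b)
    (hno : ∀ b' : Fin 3 → Ω, (∀ i, b' i ≠ a) →
      (∀ i j, b' j ∈ orbit (stabilizer G a) (b' i) → i = j) → False) :
    Nat.card (orbitRel.Quotient (stabilizer G a) Ω) = 3 := by
  classical
  have := Fintype.ofFinite (orbitRel.Quotient (stabilizer G a) Ω)
  set q₀ : orbitRel.Quotient (stabilizer G a) Ω := Quotient.mk'' a with hq₀
  set q₁ : orbitRel.Quotient (stabilizer G a) Ω := Quotient.mk'' b with hq₁
  set q₂ : orbitRel.Quotient (stabilizer G a) Ω := Quotient.mk'' d with hq₂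
  have h01 : q₀ ≠ q₁ := by
    intro h
    have h1 := h.symm
    rw [hq₀, hq₁, Quotient.eq''] at h1
    have h2 : b ∈ orbit (stabilizer G a) a := h1
    rw [orbit_stabilizer_self] at h2
    exact hb h2
  have h02 : q₀ ≠ q₂ := by
    intro h
    have h1 := h.symm
    rw [hq₀, hq₂, Quotient.eq''] at h1
    have h2 : d ∈ orbit (stabilizer G a) a := h1
    rw [orbit_stabilizer_self] at h2
    exact hd h2
  have h12 : q₁ ≠ q₂ := by
    intro h
    have h1 := h.symm
    rw [hq₁, hq₂, Quotient.eq''] at h1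
    exact hdb h1
  have hall : (Finset.univ : Finset (orbitRel.Quotient (stabilizer G a) Ω)) = {q₀, q₁, q₂} := by
    symm
    rw [Finset.eq_univ_iff_forall]
    intro q
    induction q using Quotient.inductionOn' with
    | h e =>
      simp only [Finset.mem_insert, Finset.mem_singleton]
      by_cases he : e = a
      · left; rw [he]
      by_cases heb : e ∈ orbit (stabilizer G a) b
      · right; left
        rw [hq₁, Quotient.eq'']
        exact heb
      by_cases hed : e ∈ orbit (stabilizer G a) d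
      · right; right
        rw [hq₂, Quotient.eq'']
        exact hed
      exfalso
      obtain ⟨t1, t2⟩ := triple hb hd he hdb heb hed
      exact hno _ t1 t2
  rw [Nat.card_eq_fintype_card, ← Finset.card_univ, hall,
    Finset.card_insert_of_notMem (by simp [h01, h02]), Finset.card_pair h12]

/-- Wielandt's Theorem on primitive groups of degree `2p`: such a group is doubly transitive, or it has rank 3, `p = 2a² + 2a + 1`, and subdegrees `a(2a+1)` and `(a+1)(2a+1)`. -/
theorem result {α : Type*} [Fintype α] [DecidableEq α] {p : ℕ} (hp : p.Prime) (hα : Fintype.card α = 2 * p) (G : Subgroup (Equiv.Perm α)) (hG : MulAction.IsPreprimitive G α) (a₀ : α) : MulAction.IsMultiplyPretransitive G α 2 ∨ (Nat.card (MulAction.orbitRel.Quotient (MulAction.stabilizer G a₀) α) = 3 ∧ ∃ a : ℕ, 0 < a ∧ p = 2 * a ^ 2 + 2 * a + 1 ∧ ∀ b : α, b ≠ a₀ → Nat.card (MulAction.orbit (MulAction.stabilizer G a₀) b) = a * (2 * a + 1) ∨ Nat.card (MulAction.orbit (MulAction.stabilizer G a₀) b) = (a + 1) * (2 * a +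 1)) := by
  classical
  have hpF : Fact p.Prime := ⟨hp⟩
  have htr : IsPretransitive G α := hG.toIsPretransitive
  by_cases h2t : ∀ b d, b ≠ a₀ → d ≠ a₀ → d ∈ orbit (stabilizer G a₀) b
  · exact Or.inl (two_trans a₀ h2t)
  right
  push Not at h2t
  obtain ⟨b, d, hb, hd, hdb⟩ := h2t
  have hge := fun b hb => suborbit_two_le hp hα G hG a₀ b hb
  have hp2 : p ≠ 2 := by
    rintro rfl
    obtain ⟨t1, t2⟩ := pair hb hd hdb
    have := count a₀ ![b, d] t1 t2 (fun i => hge _ (t1 i))
    omega
  have hp3 : 3 ≤ p := by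
    have := hp.two_le
    omega
  have hdvd := card_dvd G a₀
  rw [hα] at hdvd
  obtain ⟨x, hx⟩ := exists_prime_orderOf_dvd_card' p (Dvd.dvd.trans ⟨2, mul_comm 2 p⟩ hdvd)
  have hfree : ∀ ω : α, x • ω ≠ ω := by
    intro ω hω
    have hord : orderOf (x : Equiv.Perm α) = p := by rw [Subgroup.orderOf_coe]; exact hx
    have hsupp : (x : Equiv.Perm α).support.card < 2 * orderOf (x : Equiv.Perm α) := by
      rw [hord, ← hα]
      exact Finset.card_lt_univ_of_notMem (x := ω)
        (by rw [Equiv.Perm.mem_support]; exact not_not.mpr hω)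
    have hcyc := Equiv.Perm.isCycle_of_prime_order (by rw [hord]; exact hp) hsupp
    have hcard : (x : Equiv.Perm α).support.card = p := by rw [← hcyc.orderOf, hord]
    have halt := Cfsg.Agent.S0713.result G hG hp (by omega) (by omega) hcyc hcard x.2
    have h1 := alternatingGroup.isMultiplyPretransitive α
    have h2 : IsMultiplyPretransitive (alternatingGroup α) α 2 :=
      MulAction.isMultiplyPretransitive_of_le (n := Nat.card α - 2)
        (by rw [Nat.card_eq_fintype_card]; omega) (Nat.sub_le _ _)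
    rw [MulAction.is_two_pretransitive_iff] at h2
    obtain ⟨g, hg1, hg2⟩ := h2 (Ne.symm hb) (Ne.symm hd)
    exact hdb ⟨⟨⟨g.1, halt g.2⟩, hg1⟩, hg2⟩
  have hF : FreeElt p x α := ⟨by rw [← hx]; exact pow_orderOf_eq_one x, hfree⟩
  obtain ⟨b₂, hdisj, hunion⟩ := exists_second_orbit hp hF hα a₀
  let c : Cfg G α p := ⟨x, a₀, b₂, hG, hF, hdisj, hunion⟩
  have hno : ∀ b' : Fin 3 → α, (∀ i, b' i ≠ a₀) →
      (∀ i j, b' j ∈ orbit (stabilizer G a₀) (b' i) → i = j) → False := by
    intro b' t1 t2
    rcases Nat.lt_or_ge p 5 with h5 | h5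
    · have h3 : p = 3 := by
        have h4 : p ≠ 4 := by
          rintro rfl
          exact absurd hp (by norm_num)
        omega
      have := count a₀ b' t1 t2 (fun i => hge _ (t1 i))
      omega
    · exact c.rank_le_three h5 b' t1 t2
  have hrank := rank_eq_three hb hd hdb hno
  have := Fintype.ofFinite G
  exact ⟨hrank, c.conclusion hp2 hrank⟩

end Cfsg.Agent.S0720
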