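import Cfsg.Statements.S0723
import Cfsg.Agent.S0721
import Cfsg.Agent.S0722
import Cfsg.Agent.Lib.Helper3.OS.Defs
import Cfsg.Agent.Lib.Helper31.OSQ1
import Cfsg.Agent.Lib.Helper31.OSQ3a
import Cfsg.Agent.Lib.Helper31.OSQ3b
import Cfsg.Agent.Lib.Helper31.OSQ3c
import Cfsg.Agent.Lib.Helper95.OSQ2
import Cfsg.Agent.Lib.Helper95.OSQ3d
import Cfsg.Agent.Lib.Helper95.OSTR

set_option autoImplicit false
open Cfsg

namespace Cfsg.Agent.S0723

open Cfsg.Agent.Lib.Helper3.OS Cfsg.Agent.Lib.Helper31.OS Cfsg.Agent.Lib.Helper95.OS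

theorem diagonal_case {T : Type*} [Group T] {m : ℕ} [IsSimpleGroup T] (hT : ∃ a b : T, a * b ≠ b * a)
    (X : Subgroup (Fin m → T))
    (𝒮 : Set (Equiv.Perm (Fin m) × (Fin m → (T ≃* T))))
    (hinv : ∀ s ∈ 𝒮, ∀ x, act s x ∈ X ↔ x ∈ X)
    (htr : ∀ i j, ∃ s ∈ 𝒮, s.1 i = j) (hne : X ≠ ⊤) (hsub : ∀ i t, ∃ x ∈ X, x i = t) :
    ∃ (ψ : Fin m → (T ≃* T)) (k : ℕ) (c : Fin m → Fin m), 2 ≤ k ∧
      (∀ j : Fin m, Nat.card {i : Fin m // c i = j} = k ∨ Nat.card {i : Fin m // c i = j} = 0) ∧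
      ∀ x, x ∈ X ↔ ∀ i j : Fin m, c i = c j → ψ i (x i) = ψ j (x j) :=
  diagonal_core X hne (fun h => exists_twist X hsub h) (exists_of_indep hT X hsub)
    (card_class_eq X 𝒮 hinv htr)

theorem trans_coord {T : Type*} [Group T] {m : ℕ} {H : Type*} [Group H] (N : Subgroup H) [N.Normal]
    (hmin : ∀ M : Subgroup H, M.Normal → M ≤ N → M = ⊥ ∨ M = N)
    [IsSimpleGroup T] (hT : ∃ a b : T, a * b ≠ b * a) (e : N ≃* (Fin m → T)) (K : Subgroup H)
    (hKN : ∀ h : H, ∃ n ∈ N, ∃ k ∈ K, h = n * k) (i j : Fin m) :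
    ∃ k ∈ K, ∃ s : Equiv.Perm (Fin m) × (Fin m → (T ≃* T)), (∀ x, tr e k x = act s x) ∧ s.1 i = j :=
  trans_core N hmin hT e K (exists_monomial hT) hKN i j

/-- The core of the O'Nan–Scott Theorem. -/
theorem result {α : Type*} [Finite α] (H : Subgroup (Equiv.Perm α)) [MulAction.IsPreprimitive H α] (N : Subgroup H) [N.Normal] (hN : N ≠ ⊥) (hmin : ∀ M : Subgroup H, M.Normal → M ≤ N → M = ⊥ ∨ M = N) (huniq : ∀ L : Subgroup H, L.Normal → L ≠ ⊥ → (∀ M : Subgroup H, M.Normal → M ≤ L → M = ⊥ ∨ M = L) → L = N) (hnab : ¬ IsMulCommutative N) (a : α) : ∃ (T : Type) (_ : Group T) (m : ℕ) (e : N ≃* (Fin m → T)), IsSimpleGroup T ∧ ¬ IsMulCommutative T ∧ 0 < m ∧ ((∃ K : Fin m → Subgroup T, (∀ i, K i ≠ ⊤) ∧ ∀ n : N, (n : H) ∈ MulAction.stabilizer H a ↔ ∀ i, e n i ∈ K i) ∨ (∃ (k : ℕ) (c : Fin m → Fin m), 2 ≤ k ∧ (∀ j : Fin m, Nat.card {i : Fin m // c i = j} = k ∨ Nat.card {i : Fin m // c i = j} = 0) ∧ ∀ n : N, (n : H) ∈ MulAction.stabilizer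 H a ↔ ∀ i j : Fin m, c i = c j → e n i = e n j)) := by
  classical
  obtain ⟨T, _, m, hTs, hm, ⟨e⟩⟩ := Cfsg.Agent.S0721.result N hN hmin
  have hT : ∃ a b : T, a * b ≠ b * a := by
    by_contra hcon
    push Not at hcon
    apply hnab
    refine ⟨⟨fun x y => ?_⟩⟩
    apply e.injective
    rw [map_mul, map_mul]
    funext i
    exact hcon _ _
  have hTnc : ¬ IsMulCommutative T := by
    intro h
    obtain ⟨x, y, hxy⟩ := hT
    exact hxy (mul_comm' x y)
  set K : Subgroup H := MulAction.stabilizer H a with hK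
  -- `N` is transitive
  have hNtr : MulAction.IsPretransitive N α := by
    apply MulAction.IsQuasiPreprimitive.isPretransitive_of_normal (G := H)
    intro hfix
    apply hN
    rw [Subgroup.eq_bot_iff_forall]
    intro x hx
    apply Subtype.ext
    apply Equiv.ext
    intro b
    have hb : b ∈ MulAction.fixedPoints N α := by rw [hfix]; trivial
    exact hb ⟨x, hx⟩
  have hKN : ∀ h : H, ∃ n ∈ N, ∃ k ∈ K, h = n * k := by
    intro h
    obtain ⟨n, hn⟩ := MulAction.exists_smul_eq N a (h • a)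
    refine ⟨n.1, n.2, n.1⁻¹ * h, ?_, by group⟩
    rw [hK, MulAction.mem_stabilizer_iff, mul_smul, ← hn]
    exact inv_smul_smul _ _
  set X : Subgroup (Fin m → T) := (K.subgroupOf N).map e.toMonoidHom with hX
  have hmemX : ∀ x : Fin m → T, x ∈ X ↔ ((e.symm x : N) : H) ∈ K := by
    intro x
    rw [hX, Subgroup.mem_map]
    constructor
    · rintro ⟨n, hn, rfl⟩
      rw [Subgroup.mem_subgroupOf] at hn
      simpa using hn
    · intro h
      exact ⟨e.symm x, Subgroup.mem_subgroupOf.2 h, by simp⟩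
  have hmemX' : ∀ n : N, (n : H) ∈ K ↔ e n ∈ X := by
    intro n
    rw [hmemX, e.symm_apply_apply]
  set 𝒮 : Set (Equiv.Perm (Fin m) × (Fin m → (T ≃* T))) :=
    {s | ∃ k ∈ K, ∀ x, tr e k x = act s x} with h𝒮
  have hinv : ∀ s ∈ 𝒮, ∀ x, act s x ∈ X ↔ x ∈ X := by
    rintro s ⟨k, hk, hs⟩ x
    rw [← hs, hmemX, hmemX, coe_symm_tr]
    constructor
    · intro h
      have := K.mul_mem (K.mul_mem (K.inv_mem hk) h) hk
      simpa [mul_assoc] using this
    · intro h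
      exact K.mul_mem (K.mul_mem hk h) (K.inv_mem hk)
  have htr : ∀ i j, ∃ s ∈ 𝒮, s.1 i = j := by
    intro i j
    obtain ⟨k, hk, s, hs, hsi⟩ := trans_coord N hmin hT e K hKN i j
    exact ⟨s, ⟨k, hk, hs⟩, hsi⟩
  have hne : X ≠ ⊤ := by
    intro htop
    apply hN
    rw [Subgroup.eq_bot_iff_forall]
    intro x hx
    have hall : ∀ n : N, (n : H) ∈ K := by
      intro n
      rw [hmemX', htop]; trivial
    apply Subtype.ext
    apply Equiv.ext
    intro b
    obtain ⟨h, rfl⟩ := MulAction.exists_smul_eq H a b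
    have h1 : h⁻¹ * x * h ∈ N := by
      have := (inferInstance : N.Normal).conj_mem x hx h⁻¹
      simpa using this
    have h2 := hall ⟨_, h1⟩
    rw [hK, MulAction.mem_stabilizer_iff] at h2
    have h3 : (h⁻¹ * x * h) • a = a := h2
    rw [mul_smul, mul_smul, inv_smul_eq_iff] at h3
    exact h3
  have hmax : ∀ Y : Subgroup (Fin m → T), X ≤ Y → (∀ s ∈ 𝒮, ∀ y ∈ Y, act s y ∈ Y) →
      Y = X ∨ Y = ⊤ := by
    intro Y hXY hYinv
    set Y' : Subgroup H := (Y.comap e.toMonoidHom).map N.subtype with hY'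
    have hmemY' : ∀ h : H, h ∈ Y' ↔ ∃ hn : h ∈ N, e ⟨h, hn⟩ ∈ Y := by
      intro h
      rw [hY', Subgroup.mem_map]
      constructor
      · rintro ⟨n, hn, rfl⟩
        exact ⟨n.2, hn⟩
      · rintro ⟨hn, hy⟩
        exact ⟨⟨h, hn⟩, hy, rfl⟩
    have hconj : ∀ k ∈ K, ∀ h ∈ Y', k * h * k⁻¹ ∈ Y' := by
      intro k hk h hh
      obtain ⟨hn, hy⟩ := (hmemY' h).1 hh
      obtain ⟨s, hs⟩ := exists_monomial hT (tr e k)
      have h1 := hYinv s ⟨k, hk, hs⟩ _ hy
      rw [← hs, tr_apply, e.symm_apply_apply] at h1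
      rw [hmemY']
      exact ⟨(inferInstance : N.Normal).conj_mem h hn k, h1⟩
    have h1 := Cfsg.Agent.S0722.result H N hN hmin a Y'
      (by
        intro h hh
        exact ((hmemY' h).1 hh).1)
      (by
        intro h hh
        rw [hmemY']
        refine ⟨hh.2, hXY ?_⟩
        rw [← hmemX']
        exact hh.1)
      (by
        intro k hk
        rw [Subgroup.mem_normalizer_iff]
        intro h
        constructor
        · exact hconj k hk h
        · intro hh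
          have := hconj k⁻¹ (K.inv_mem hk) _ hh
          simpa [mul_assoc] using this)
    rcases h1 with h1 | h1
    · left
      apply le_antisymm _ hXY
      intro y hy
      have h2 : ((e.symm y : N) : H) ∈ Y' := by
        rw [hmemY']
        exact ⟨(e.symm y).2, by simpa using hy⟩
      rw [h1] at h2
      rw [hmemX]
      exact h2.1
    · right
      rw [eq_top_iff]
      intro y _
      have h2 : ((e.symm y : N) : H) ∈ Y' := by
        rw [h1]; exact (e.symm y).2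
      obtain ⟨hn, hy⟩ := (hmemY' _).1 h2
      simpa using hy
  by_cases hsub : ∀ i t, ∃ x ∈ X, x i = t
  · obtain ⟨ψ, k, c, hk, hfib, hchar⟩ := diagonal_case hT X 𝒮 hinv htr hne hsub
    refine ⟨T, inferInstance, m, e.trans (MulEquiv.piCongrRight ψ), hTs, hTnc, hm, Or.inr
      ⟨k, c, hk, hfib, ?_⟩⟩
    intro n
    rw [hmemX', hchar]
    rfl
  · push Not at hsub
    obtain ⟨i₀, t₀, h₀⟩ := hsub
    obtain ⟨Ks, hKs, hchar⟩ := product_case X 𝒮 hinv hmax htr i₀ t₀ h₀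
    refine ⟨T, inferInstance, m, e, hTs, hTnc, hm, Or.inl ⟨Ks, hKs, ?_⟩⟩
    intro n
    rw [hmemX', hchar]

end Cfsg.Agent.S0723
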