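import Mathlib
import Cfsg.Statements.S0724

set_option autoImplicit false
open Cfsg

namespace Cfsg.Agent.S0724

/-- Burnside's lemma on powers: the order of `G` divides the sum of the `k`-th powers of the
fixed-point numbers. -/
theorem dvd_sum_pow {G X : Type*} [Group G] [Fintype G] [MulAction G X] [Finite X] (k : ℕ) :
    (Nat.card G : ℤ) ∣ ∑ g : G, (Nat.card (MulAction.fixedBy X g) : ℤ) ^ k := by
  classical
  have := Fintype.ofFinite X
  have hB := MulAction.sum_card_fixedBy_eq_card_orbits_mul_card_group G (Fin k → X)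
  have hfix : ∀ g : G, Fintype.card (MulAction.fixedBy (Fin k → X) g) =
      Nat.card (MulAction.fixedBy X g) ^ k := by
    intro g
    have e : MulAction.fixedBy (Fin k → X) g ≃ (Fin k → MulAction.fixedBy X g) :=
      { toFun := fun x i => ⟨x.1 i, congrFun x.2 i⟩
        invFun := fun y => ⟨fun i => (y i).1, funext fun i => (y i).2⟩
        left_inv := fun x => rfl
        right_inv := fun y => rfl }
    rw [Fintype.card_congr e, Fintype.card_fun, Fintype.card_fin, Nat.card_eq_fintype_card]
  simp only [hfix] at hB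
  refine ⟨(Fintype.card (MulAction.orbitRel.Quotient G (Fin k → X)) : ℤ), ?_⟩
  have := congrArg (fun n : ℕ => (n : ℤ)) hB
  simp only [Nat.cast_sum, Nat.cast_pow, Nat.cast_mul] at this
  rw [this, Nat.card_eq_fintype_card, mul_comm]

theorem dvd_sum_eval {G X : Type*} [Group G] [Fintype G] [MulAction G X] [Finite X]
    (f : Polynomial ℤ) :
    (Nat.card G : ℤ) ∣ ∑ g : G, f.eval (Nat.card (MulAction.fixedBy X g) : ℤ) := by
  simp only [Polynomial.eval_eq_sum_range]
  rw [Finset.sum_comm]
  apply Finset.dvd_sum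
  intro k _
  rw [← Finset.mul_sum]
  exact Dvd.dvd.mul_left (dvd_sum_pow k) _

/-- Blichfeldt's Theorem: if a finite set `L` of natural numbers contains the number of fixed points of every non-identity element of a permutation group `G` of degree `n`, then the order of `G` divides `∏ (n - l)` over `l ∈ L`. -/
theorem result {α : Type*} [Fintype α] [DecidableEq α] (G : Subgroup (Equiv.Perm α)) (L : Finset ℕ) (hL : ∀ g ∈ G, g ≠ 1 → Nat.card (MulAction.fixedBy α g) ∈ L) : Nat.card G ∣ ∏ l ∈ L, (Fintype.card α - l) := by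
  classical
  by_cases hbig : ∃ l ∈ L, Fintype.card α ≤ l
  · obtain ⟨l, hl, hle⟩ := hbig
    rw [Finset.prod_eq_zero hl (Nat.sub_eq_zero_of_le hle)]
    exact dvd_zero _
  push Not at hbig
  have := Fintype.ofFinite G
  have h := dvd_sum_eval (G := G) (X := α) (∏ l ∈ L, (Polynomial.X - Polynomial.C (l : ℤ)))
  have hsum : ∑ g : G, (∏ l ∈ L, (Polynomial.X - Polynomial.C (l : ℤ))).eval
      (Nat.card (MulAction.fixedBy α g) : ℤ) = ∏ l ∈ L, ((Fintype.card α : ℤ) - l) := by
    rw [Finset.sum_eq_single (1 : G)]
    · rw [Polynomial.eval_prod]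
      apply Finset.prod_congr rfl
      intro l _
      simp [Nat.card_eq_fintype_card]
    · intro g _ hg
      have hg' : (g : Equiv.Perm α) ≠ 1 := fun e => hg (Subtype.ext e)
      have hmem := hL g.1 g.2 hg'
      rw [Polynomial.eval_prod]
      apply Finset.prod_eq_zero hmem
      simp only [Polynomial.eval_sub, Polynomial.eval_X, Polynomial.eval_C]
      exact sub_eq_zero.mpr rfl
    · intro h; exact absurd (Finset.mem_univ _) h
  rw [hsum] at h
  have hcast : ∏ l ∈ L, ((Fintype.card α : ℤ) - l) = ((∏ l ∈ L, (Fintype.card α - l) : ℕ) : ℤ) := by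
    rw [Nat.cast_prod]
    apply Finset.prod_congr rfl
    intro l hl
    rw [Nat.cast_sub (hbig l hl).le]
  rw [hcast] at h
  exact_mod_cast h

end Cfsg.Agent.S0724
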