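import Cfsg.Statements.S0728
import Cfsg.Agent.Lib.Helper19.Sharp3b

set_option autoImplicit false
open Cfsg

namespace Cfsg.Agent.S0728

/-- In a sharply triply transitive group of even degree at least 6 (degree `q + 1`, `q` odd), a two-point stabiliser has at most one subgroup of order 3. -/
theorem result {α : Type*} [Fintype α] [DecidableEq α] (heven : Even (Fintype.card α)) (h6 : 6 ≤ Fintype.card α) (G : Subgroup (Equiv.Perm α)) (h3 : MulAction.IsMultiplyPretransitive G α 3) (hsharp : ∀ x : Fin 3 ↪ α, MulAction.stabilizer G x = ⊥) {a b : α} (hab : a ≠ b) (A B : Subgroup G) (hA : A ≤ MulAction.stabilizer G a ⊓ MulAction.stabilizer G b) (hB : B ≤ MulAction.stabilizer G a ⊓ MulAction.stabilizer G b) (hA3 : Nat.card A = 3) (hB3 : Nat.card B = 3) : A = B := by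
  open Cfsg.Agent.Lib.Helper19 in
  classical
  -- a third point
  obtain ⟨c, hac, hbc⟩ : ∃ c : α, a ≠ c ∧ b ≠ c := by
    by_contra hcon
    push Not at hcon
    have hsub : (Finset.univ : Finset α) ⊆ {a, b} := by
      intro c _
      by_cases h : a = c
      · simp [h]
      · simp [hcon c h]
    have := Finset.card_le_card hsub
    rw [Finset.card_univ] at this
    have h2 : ({a, b} : Finset α).card ≤ 2 := Finset.card_le_two
    omega
  have hmem : ∀ (C : Subgroup G), C ≤ MulAction.stabilizer G a ⊓ MulAction.stabilizer G b →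
      Nat.card C = 3 → ∀ y ∈ C, y • a = a ∧ y • b = b ∧ y ^ 3 = 1 := by
    intro C hC hC3 y hy
    have h1 := hC hy
    rw [Subgroup.mem_inf, MulAction.mem_stabilizer_iff, MulAction.mem_stabilizer_iff] at h1
    refine ⟨h1.1, h1.2, ?_⟩
    have h2 : (⟨y, hy⟩ : C) ^ Nat.card C = 1 := pow_card_eq_one'
    rw [hC3] at h2
    exact congrArg Subtype.val h2
  have hle : ∀ (C E : Subgroup G), C ≤ MulAction.stabilizer G a ⊓ MulAction.stabilizer G b →
      E ≤ MulAction.stabilizer G a ⊓ MulAction.stabilizer G b →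
      Nat.card C = 3 → Nat.card E = 3 → E ≤ C := by
    intro C E hC hE hC3 hE3
    have hnt : Nontrivial C := by
      have : Finite C := Nat.finite_of_card_ne_zero (by omega)
      exact Finite.one_lt_card_iff_nontrivial.mp (by omega)
    obtain ⟨x, hx1⟩ := exists_ne (1 : C)
    have hx1' : (x : G) ≠ 1 := fun h => hx1 (Subtype.ext h)
    obtain ⟨hxa, hxb, hx3⟩ := hmem C hC hC3 x x.2
    intro y hy
    by_cases hy1 : y = 1
    · rw [hy1]; exact C.one_mem
    obtain ⟨hya, hyb, hy3⟩ := hmem E hE hE3 y hy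
    rcases sharp3_order3_eq h3 hsharp hab hac hbc hxa hxb hx1' hx3 hya hyb hy1 hy3 with h | h
    · rw [h]; exact x.2
    · rw [h]; exact C.inv_mem x.2
  exact le_antisymm (hle B A hB hA hB3 hA3) (hle A B hA hB hA3 hB3)

end Cfsg.Agent.S0728
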