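import Cfsg.Statements.S0729
import Cfsg.Agent.Lib.Helper19.S3Build
import Cfsg.Agent.Lib.Helper19.Sharp3

set_option autoImplicit false
open Cfsg

namespace Cfsg.Agent.S0729

/-- In a sharply triply transitive group of even degree at least 6, the two-point stabiliser `H = G_{a,b}` has a normal subgroup of index 2 that is normalised by the element `s` interchanging `a, b` and fixing a third point `c`. -/
theorem result {α : Type*} [Fintype α] [DecidableEq α] (heven : Even (Fintype.card α)) (h6 : 6 ≤ Fintype.card α) (G : Subgroup (Equiv.Perm α)) (h3 : MulAction.IsMultiplyPretransitive G α 3) (hsharp : ∀ x : Fin 3 ↪ α, MulAction.stabilizer G x = ⊥) {a b c : α} (hab : a ≠ b) (hac : a ≠ c) (hbc : b ≠ c) (s : G) (hsa : s • a = b) (hsb : s • b = a) (hsc : s • c = c) : ∃ N : Subgroup G, N ≤ MulAction.stabilizer G a ⊓ MulAction.stabilizer G b ∧ (N.subgroupOf (MulAction.stabilizer G a ⊓ MulAction.stabilizer G b)).Normal ∧ N.relIndex (MulAction.stabilizer G a ⊓ MulAction.stabilizer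 G b) = 2 ∧ ∀ n ∈ N, s * n * s⁻¹ ∈ N := by
  open Cfsg.Agent.Lib.Helper19 Cfsg.Agent.Lib.Helper6.Zas MulAction in
  classical
  have hc3 : 3 ≤ Nat.card α := by rw [Nat.card_eq_fintype_card]; omega
  have h2' : IsMultiplyPretransitive G α 2 :=
    isMultiplyPretransitive_of_le (n := 3) (by norm_num) hc3
  have hb : Base G α :=
    { faithful := fun g hg => Subtype.ext (Equiv.ext hg)
      two := MulAction.is_two_pretransitive_iff.1 h2'
      three := fun g x y z hxy hyz hxz h1 h2 h3' => sharp3_fix hsharp hxy hxz hyz h1 h2 h3' }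
  obtain ⟨K, -, Kfix, Ktr, Kfree, Knorm, -⟩ := sharp3_kernel h3 hsharp hc3 a
  have z : ZData G α a b K :=
    ⟨hb, hab, Kfix, Knorm, fun d hd => Ktr b d hab.symm hd, Kfree⟩
  have Htrans : ∀ d : α, d ≠ a → d ≠ b → ∃ h : G, h • a = a ∧ h • b = b ∧ h • c = d := by
    intro d hda hdb
    exact sharp3_trans h3 a b c a b d hab hac hbc hab hda.symm hdb.symm
  have hcard := card_H_of_trans hb hab hac.symm hbc.symm Htrans
  have hevenH : Even (Nat.card ↥(stabilizer G a ⊓ stabilizer G b)) := by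
    rw [hcard] at heven
    obtain ⟨r, hr⟩ := heven
    exact ⟨r - 1, by omega⟩
  obtain ⟨t, htH, ht1, ht2⟩ := exists_invol_of_even _ hevenH
  have sd : S3Data G α a b c K t s :=
    ⟨z, hac.symm, hbc.symm, Htrans, htH.1, htH.2, ht1, ht2, hsa, hsb, hsc⟩
  obtain ⟨lam, h₁, hh₁, hne⟩ := sd.exists_linear (by rw [Nat.card_eq_fintype_card]; exact heven)
  refine ⟨(stabilizer G a ⊓ stabilizer G b) ⊓ lam.ker, inf_le_left, ?_, sd.relIndex_ker lam hh₁ hne, ?_⟩
  · constructor
    intro n hn g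
    rw [Subgroup.mem_subgroupOf] at hn ⊢
    refine ⟨(g * n * g⁻¹).2, ?_⟩
    have h1 : lam (n : G) = 1 := MonoidHom.mem_ker.1 hn.2
    show ((g * n * g⁻¹ : ↥(stabilizer G a ⊓ stabilizer G b)) : G) ∈ lam.ker
    rw [MonoidHom.mem_ker]
    simp [h1]
  · intro n hn
    have ha : n • a = a := hn.1.1
    have hb' : n • b = b := hn.1.2
    have h1 : lam n = 1 := MonoidHom.mem_ker.1 hn.2
    refine ⟨⟨?_, ?_⟩, ?_⟩
    · show (s * n * s⁻¹) • a = a
      rw [sd.u_inv, mul_smul, mul_smul, hsa, hb', hsb]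
    · show (s * n * s⁻¹) • b = b
      rw [sd.u_inv, mul_smul, mul_smul, hsb, ha, hsa]
    · show s * n * s⁻¹ ∈ lam.ker
      rw [MonoidHom.mem_ker]
      simp [h1]

end Cfsg.Agent.S0729
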