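import Cfsg.Statements.S0730
import Cfsg.Agent.Lib.Helper19.S3PGL
import Cfsg.Agent.Lib.Helper19.Sharp3

set_option autoImplicit false
open Cfsg

namespace Cfsg.Agent.S0730

/-- A sharply triply transitive group of degree `p^f + 1`, `p` an odd prime and `f` odd, is isomorphic to the projective general linear group of degree 2 over the field with `p^f` elements (for even `f` there is a second, twisted, group). -/
theorem result {α : Type*} [Fintype α] [DecidableEq α] {p f : ℕ} (hp : p.Prime) (hp2 : p ≠ 2) (hfo : Odd f) (hα : Fintype.card α = p ^ f + 1) (G : Subgroup (Equiv.Perm α)) (h3 : MulAction.IsMultiplyPretransitive G α 3) (hsharp : ∀ x : Fin 3 ↪ α, MulAction.stabilizer G x = ⊥) : ∃ (F : Type) (_ : Field F) (_ : Fintype F), Fintype.card F = p ^ f ∧ Nonempty (G ≃* Matrix.ProjGenLinGroup (Fin 2) F) := by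
  open Cfsg.Agent.Lib.Helper19 Cfsg.Agent.Lib.Helper6.Zas MulAction in
  classical
  have hf0 : f ≠ 0 := by
    rintro rfl
    simp at hfo
  have hp3 : 3 ≤ p := by
    have := hp.two_le
    omega
  have hpf : 3 ≤ p ^ f := by
    calc 3 ≤ p := hp3
      _ = p ^ 1 := (pow_one p).symm
      _ ≤ p ^ f := Nat.pow_le_pow_right (by omega) (by omega)
  have hc3 : 3 ≤ Nat.card α := by rw [Nat.card_eq_fintype_card]; omega
  have heven : Even (Fintype.card α) := by
    rw [hα]
    exact Odd.add_one ((hp.odd_of_ne_two hp2).pow)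
  obtain ⟨a, b, c, hab, hac, hbc⟩ : ∃ a b c : α, a ≠ b ∧ a ≠ c ∧ b ≠ c :=
    Fintype.two_lt_card_iff.mp (by omega)
  have h2' : IsMultiplyPretransitive G α 2 :=
    isMultiplyPretransitive_of_le (n := 3) (by norm_num) hc3
  have hb : Base G α :=
    { faithful := fun g hg => Subtype.ext (Equiv.ext hg)
      two := MulAction.is_two_pretransitive_iff.1 h2'
      three := fun g x y z hxy hyz hxz h1 h2 h3' => sharp3_fix hsharp hxy hxz hyz h1 h2 h3' }
  obtain ⟨K, -, Kfix, Ktr, Kfree, Knorm, -⟩ := sharp3_kernel h3 hsharp hc3 a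
  have z : ZData G α a b K :=
    ⟨hb, hab, Kfix, Knorm, fun d hd => Ktr b d hab.symm hd, Kfree⟩
  have Htrans : ∀ d : α, d ≠ a → d ≠ b → ∃ h : G, h • a = a ∧ h • b = b ∧ h • c = d := by
    intro d hda hdb
    exact sharp3_trans h3 a b c a b d hab hac hbc hab hda.symm hdb.symm
  have hcard := card_H_of_trans hb hab hac.symm hbc.symm Htrans
  have hevenH : Even (Nat.card ↥(stabilizer G a ⊓ stabilizer G b)) := by
    rw [hcard] at heven
    obtain ⟨r, hr⟩ := heven
    exact ⟨r - 1, by omega⟩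
  obtain ⟨t, htH, ht1, ht2⟩ := exists_invol_of_even _ hevenH
  obtain ⟨u, hua, hub, huc⟩ := sharp3_trans h3 a b c b a c hab hac hbc hab.symm hbc hac
  have sd : S3Data G α a b c K t u :=
    ⟨z, hac.symm, hbc.symm, Htrans, htH.1, htH.2, ht1, ht2, hua, hub, huc⟩
  have hud := sd.inverts_H hp hfo hα heven
  obtain ⟨F, i1, i2, hc, hiso⟩ := sd.pgl_of_inverts hud (sharp3_trans h3)
  refine ⟨F, i1, i2, ?_, hiso⟩
  have := z.card_K
  rw [Nat.card_eq_fintype_card] at this
  omega

end Cfsg.Agent.S0730
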