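import Mathlib
import Cfsg.Statements.S0733

set_option autoImplicit false
open Cfsg

namespace Cfsg.Agent.S0733

open scoped Pointwise in
/-- A permutation group of affine type — generated by the translations of a finite vector space `V` over `ZMod p` together with a group `G₀` of linear automorphisms — is primitive on `V` if and only if `G₀` is irreducible on `V`. -/
theorem result {p : ℕ} [Fact p.Prime] {V : Type*} [AddCommGroup V] [Module (ZMod p) V] [Finite V] [Nontrivial V] (G₀ : Subgroup (V ≃ₗ[ZMod p] V)) (G : Subgroup (Equiv.Perm V)) (hG : ∀ σ : Equiv.Perm V, σ ∈ G ↔ ∃ g ∈ G₀, ∃ b : V, ∀ x : V, σ x = (g : V ≃ₗ[ZMod p] V) x + b) : MulAction.IsPreprimitive G V ↔ ∀ W : Submodule (ZMod p) V, (∀ g ∈ G₀, ∀ v ∈ W, (g : V ≃ₗ[ZMod p] V) v ∈ W) → W = ⊥ ∨ W = ⊤ := by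
  classical
  -- translations and linear maps as elements of `G`
  have htrans : ∀ b : V, ∃ σ : G, ∀ x : V, σ • x = x + b := by
    intro b
    refine ⟨⟨Equiv.addRight b, (hG _).mpr ⟨1, G₀.one_mem, b, fun x => rfl⟩⟩, fun x => rfl⟩
  have hlin : ∀ g ∈ G₀, ∃ σ : G, ∀ x : V, σ • x = (g : V ≃ₗ[ZMod p] V) x := by
    intro g hg
    refine ⟨⟨g.toEquiv, (hG _).mpr ⟨g, hg, 0, fun x => (add_zero _).symm⟩⟩, fun x => rfl⟩
  have hform : ∀ σ : G, ∃ g ∈ G₀, ∃ b : V, ∀ x : V, σ • x = (g : V ≃ₗ[ZMod p] V) x + b :=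
    fun σ => (hG σ.1).mp σ.2
  constructor
  · intro hprim W hW
    have hWinv : ∀ g ∈ G₀, ∀ v, (g : V ≃ₗ[ZMod p] V) v ∈ W → v ∈ W := by
      intro g hg v hv
      have := hW g⁻¹ (G₀.inv_mem hg) _ hv
      have h2 : (g⁻¹ : V ≃ₗ[ZMod p] V) (g v) = v := g.symm_apply_apply v
      rwa [h2] at this
    have hB : MulAction.IsBlock G (W : Set V) := by
      rw [MulAction.isBlock_iff_smul_eq_of_nonempty]
      intro σ hne
      obtain ⟨g, hg, b, hσ⟩ := hform σ
      obtain ⟨x, ⟨y, hy, rfl⟩, hx2⟩ := hne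
      have hb : b ∈ W := by
        have h1 : σ • y ∈ W := hx2
        rw [hσ] at h1
        have h2 := hW g hg y hy
        have := W.sub_mem h1 h2
        rwa [add_sub_cancel_left] at this
      ext z
      constructor
      · rintro ⟨w, hw, rfl⟩
        change σ • w ∈ W
        rw [hσ]
        exact W.add_mem (hW g hg w hw) hb
      · intro hz
        refine ⟨σ⁻¹ • z, ?_, smul_inv_smul σ z⟩
        apply hWinv g hg
        have h1 : σ • σ⁻¹ • z = z := smul_inv_smul σ z
        rw [hσ] at h1
        have : (g : V ≃ₗ[ZMod p] V) (σ⁻¹ • z) = z - b := eq_sub_of_add_eq h1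
        rw [this]
        exact W.sub_mem hz hb
    rcases hprim.isTrivialBlock_of_isBlock hB with h | h
    · left
      rw [eq_bot_iff]
      intro x hx
      rw [Submodule.mem_bot]
      exact h hx W.zero_mem
    · right
      rw [eq_top_iff]
      intro x _
      have : x ∈ (W : Set V) := h ▸ Set.mem_univ x
      exact this
  · intro hirr
    have : MulAction.IsPretransitive G V := by
      refine ⟨fun x y => ?_⟩
      obtain ⟨σ, hσ⟩ := htrans (y - x)
      exact ⟨σ, by rw [hσ]; abel⟩
    apply MulAction.IsPreprimitive.of_isTrivialBlock_base (0 : V)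
    intro B h0 hB
    have hadd : ∀ b ∈ B, ∀ x ∈ B, x + b ∈ B := by
      intro b hb x hx
      obtain ⟨σ, hσ⟩ := htrans b
      have : σ • B = B := hB.smul_eq_of_mem h0 (by rw [hσ, zero_add]; exact hb)
      rw [← this, ← hσ]
      exact Set.smul_mem_smul_set hx
    have hneg : ∀ b ∈ B, -b ∈ B := by
      intro b hb
      obtain ⟨σ, hσ⟩ := htrans (-b)
      have : σ • B = B := hB.smul_eq_of_mem hb (by rw [hσ, add_neg_cancel]; exact h0)
      rw [← this, ← zero_add (-b), ← hσ]
      exact Set.smul_mem_smul_set h0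
    let A : AddSubgroup V :=
      { carrier := B
        add_mem' := fun {x y} hx hy => hadd y hy x hx
        zero_mem' := h0
        neg_mem' := fun {x} hx => hneg x hx }
    rcases hirr (AddSubgroup.toZModSubmodule p A) (by
      intro g hg v hv
      obtain ⟨σ, hσ⟩ := hlin g hg
      have : σ • B = B := hB.smul_eq_of_mem h0 (by rw [hσ, map_zero]; exact h0)
      change (g : V ≃ₗ[ZMod p] V) v ∈ B
      rw [← this, ← hσ]
      exact Set.smul_mem_smul_set hv) with h | h
    · left
      intro x hx y hy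
      have hx' : x ∈ AddSubgroup.toZModSubmodule p A := hx
      have hy' : y ∈ AddSubgroup.toZModSubmodule p A := hy
      rw [h, Submodule.mem_bot] at hx' hy'
      rw [hx', hy']
    · right
      rw [Set.eq_univ_iff_forall]
      intro x
      have hx' : x ∈ AddSubgroup.toZModSubmodule p A := by rw [h]; trivial
      exact hx'

end Cfsg.Agent.S0733
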