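import Mathlib
import Cfsg.Statements.S0735

set_option autoImplicit false
open Cfsg

namespace Cfsg.Agent.S0735

open scoped Pointwise in
/-- A 2-homogeneous permutation group (transitive on 2-subsets) of even order is doubly transitive; a non-trivial 2-homogeneous group is primitive. -/
theorem result {α : Type*} [Fintype α] [DecidableEq α] (G : Subgroup (Equiv.Perm α)) (h2 : MulAction.IsPretransitive G (Set.powersetCard α 2)) (hα : 3 ≤ Fintype.card α) : (Even (Nat.card G) → MulAction.IsMultiplyPretransitive G α 2) ∧ (G ≠ ⊥ → MulAction.IsPreprimitive G α) := by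
  classical
  have key : ∀ a b c d : α, a ≠ b → c ≠ d →
      ∃ g : G, (g • a = c ∧ g • b = d) ∨ (g • a = d ∧ g • b = c) := by
    intro a b c d hab hcd
    obtain ⟨g, hg⟩ := h2.exists_smul_eq ⟨{a, b}, Finset.card_pair hab⟩ ⟨{c, d}, Finset.card_pair hcd⟩
    have hg' : g • ({a, b} : Finset α) = {c, d} := congrArg Subtype.val hg
    refine ⟨g, ?_⟩
    have ha : g • a ∈ ({c, d} : Finset α) := by
      rw [← hg']; exact Finset.smul_mem_smul_finset (by simp)
    have hb : g • b ∈ ({c, d} : Finset α) := by
      rw [← hg']; exact Finset.smul_mem_smul_finset (by simp)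
    have hne : g • a ≠ g • b := fun h => hab (MulAction.injective g h)
    simp only [Finset.mem_insert, Finset.mem_singleton] at ha hb
    rcases ha with ha | ha <;> rcases hb with hb | hb
    · exact absurd (ha.trans hb.symm) hne
    · exact Or.inl ⟨ha, hb⟩
    · exact Or.inr ⟨ha, hb⟩
    · exact absurd (ha.trans hb.symm) hne
  constructor
  · intro heven
    obtain ⟨t, ht⟩ := exists_prime_orderOf_dvd_card' (G := G) 2 (even_iff_two_dvd.mp heven)
    have ht2 : t * t = 1 := by
      have := pow_orderOf_eq_one t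
      rwa [ht, pow_two] at this
    have ht1 : t ≠ 1 := by
      rintro rfl
      simp at ht
    obtain ⟨a₀, ha₀⟩ : ∃ a₀ : α, t • a₀ ≠ a₀ := by
      by_contra hcon
      push Not at hcon
      exact ht1 (Subtype.ext (Equiv.ext hcon))
    have hswap : ∀ c d : α, c ≠ d → ∃ g : G, g • c = d ∧ g • d = c := by
      intro c d hcd
      have htt : t • t • a₀ = a₀ := by rw [← mul_smul, ht2, one_smul]
      obtain ⟨g, hg | hg⟩ := key a₀ (t • a₀) c d (Ne.symm ha₀) hcd
      · refine ⟨g * t * g⁻¹, ?_, ?_⟩
        · rw [mul_smul, mul_smul, ← hg.1, inv_smul_smul, hg.2]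
        · rw [mul_smul, mul_smul, ← hg.2, inv_smul_smul, htt, hg.1]
      · refine ⟨g * t * g⁻¹, ?_, ?_⟩
        · rw [mul_smul, mul_smul, ← hg.2, inv_smul_smul, htt, hg.1]
        · rw [mul_smul, mul_smul, ← hg.1, inv_smul_smul, hg.2]
    rw [MulAction.is_two_pretransitive_iff]
    intro a b c d hab hcd
    obtain ⟨g, hg | hg⟩ := key a b c d hab hcd
    · exact ⟨g, hg⟩
    · obtain ⟨u, hu1, hu2⟩ := hswap c d hcd
      exact ⟨u * g, by rw [mul_smul, hg.1, hu2], by rw [mul_smul, hg.2, hu1]⟩
  · intro _
    have htr : MulAction.IsPretransitive G α := by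
      refine ⟨fun x y => ?_⟩
      by_cases hxy : x = y
      · exact ⟨1, by rw [one_smul, hxy]⟩
      obtain ⟨z, hz⟩ : ∃ z, z ∉ ({x, y} : Finset α) := by
        by_contra hc
        push Not at hc
        have : ({x, y} : Finset α) = Finset.univ := Finset.eq_univ_iff_forall.mpr hc
        have h3 := Finset.card_pair hxy
        rw [this, Finset.card_univ] at h3
        omega
      simp only [Finset.mem_insert, Finset.mem_singleton, not_or] at hz
      obtain ⟨g, hg | hg⟩ := key x z x y (Ne.symm hz.1) hxy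
      · obtain ⟨u, hu | hu⟩ := key y z x y (Ne.symm hz.2) hxy
        · exact ⟨u⁻¹, by rw [← hu.1, inv_smul_smul]⟩
        · exact ⟨g * u⁻¹, by rw [mul_smul, ← hu.2, inv_smul_smul, hg.2]⟩
      · exact ⟨g, hg.1⟩
    refine { toIsPretransitive := htr, isTrivialBlock_of_isBlock := ?_ }
    intro B hB
    by_contra hcon
    unfold MulAction.IsTrivialBlock at hcon
    push Not at hcon
    obtain ⟨h1, h2'⟩ := hcon
    obtain ⟨a, ha, b, hb, hab⟩ := h1
    obtain ⟨c, hc⟩ := (Set.ne_univ_iff_exists_notMem B).mp h2'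
    have hac : a ≠ c := fun h => hc (h ▸ ha)
    obtain ⟨g, hg | hg⟩ := key a b a c hab hac
    · have : g • B = B := hB.smul_eq_of_mem ha (by rw [hg.1]; exact ha)
      apply hc
      rw [← this, ← hg.2]
      exact Set.smul_mem_smul_set hb
    · have : g • B = B := hB.smul_eq_of_mem hb (by rw [hg.2]; exact ha)
      apply hc
      rw [← this, ← hg.1]
      exact Set.smul_mem_smul_set ha

end Cfsg.Agent.S0735
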