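import Cfsg.Statements.S0736
import Mathlib

set_option autoImplicit false
open Cfsg

namespace Cfsg.Agent.S0736

open MulAction Finset
open scoped Pointwise

/-- Kummer: no carries when adding `k` (divisible by `q = p ^ a`) and `q - 1`. -/
theorem not_dvd_choose {p a k : ℕ} (hp : p.Prime) (hk : p ^ a ∣ k) :
    ¬ p ∣ Nat.choose (k + (p ^ a - 1)) (p ^ a - 1) := by
  have hpos : ∀ i, 0 < p ^ i := fun i => pow_pos hp.pos i
  have h0 : (Nat.choose (k + (p ^ a - 1)) (p ^ a - 1)).factorization p = 0 := by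
    rw [Nat.factorization_choose' hp (Nat.lt_succ_self _), Finset.card_eq_zero,
      Finset.filter_eq_empty_iff]
    intro i _
    rw [not_le]
    rcases le_or_gt i a with hia | hia
    · have h1 : p ^ i ∣ k := (pow_dvd_pow p hia).trans hk
      rw [Nat.mod_eq_zero_of_dvd h1, add_zero]
      exact Nat.mod_lt _ (hpos i)
    · have h1 : p ^ a ∣ p ^ i := pow_dvd_pow p hia.le
      have h2 : p ^ a ≤ p ^ i := Nat.le_of_dvd (hpos i) h1
      have h3 : (p ^ a - 1) % p ^ i = p ^ a - 1 := Nat.mod_eq_of_lt (by have := hpos a; omega)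
      have h4 : p ^ a ∣ k % p ^ i := (Nat.dvd_mod_iff h1).2 hk
      have h5 : k % p ^ i < p ^ i := Nat.mod_lt _ (hpos i)
      obtain ⟨r, hr⟩ := h4
      obtain ⟨m, hm⟩ := h1
      rw [h3, hr]
      rw [hr, hm] at h5
      have h6 : r < m := lt_of_mul_lt_mul_left h5 (Nat.zero_le _)
      rw [hm]
      have h7 : p ^ a * (r + 1) ≤ p ^ a * m := Nat.mul_le_mul_left _ h6
      have := hpos a
      rw [mul_add, mul_one] at h7
      omega
  intro hd
  have hne : Nat.choose (k + (p ^ a - 1)) (p ^ a - 1) ≠ 0 :=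
    (Nat.choose_pos (Nat.le_add_left _ _)).ne'
  have := (hp.dvd_iff_one_le_factorization hne).1 hd
  omega

theorem card_filter_superset {α : Type*} [DecidableEq α] {S Γ : Finset α} {k : ℕ} (hk : 1 ≤ k)
    (hΓS : Γ ⊆ S) (hΓ : Γ.card = k - 1) :
    ((S.powersetCard k).filter (fun Δ => Γ ⊆ Δ)).card = S.card - (k - 1) := by
  have h1 : (S.powersetCard k).filter (fun Δ => Γ ⊆ Δ) = (S \ Γ).image (fun x => insert x Γ) := by
    ext Δ
    simp only [mem_filter, mem_powersetCard, mem_image, mem_sdiff]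
    constructor
    · rintro ⟨⟨hΔS, hΔ⟩, hΓΔ⟩
      have h2 : (Δ \ Γ).card = 1 := by
        rw [card_sdiff_of_subset hΓΔ, hΔ, hΓ]; omega
      obtain ⟨x, hx⟩ := card_eq_one.1 h2
      have hx' : x ∈ Δ \ Γ := by rw [hx]; exact mem_singleton_self x
      rw [mem_sdiff] at hx'
      refine ⟨x, ⟨hΔS hx'.1, hx'.2⟩, ?_⟩
      rw [insert_eq, ← hx, sdiff_union_of_subset hΓΔ]
    · rintro ⟨x, ⟨hxS, hxΓ⟩, rfl⟩
      refine ⟨⟨insert_subset hxS hΓS, ?_⟩, subset_insert _ _⟩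
      rw [card_insert_of_notMem hxΓ, hΓ]; omega
  rw [h1, card_image_of_injOn, card_sdiff_of_subset hΓS, hΓ]
  intro x hx y hy hxy
  simp only [coe_sdiff, Set.mem_sdiff, mem_coe] at hx hy
  simp only at hxy
  have : x ∈ insert y Γ := hxy ▸ mem_insert_self x Γ
  rw [mem_insert] at this
  exact this.resolve_right hx.2

theorem choose_pred {k : ℕ} (hk : 1 ≤ k) : k.choose (k - 1) = k := by
  obtain ⟨m, rfl⟩ : ∃ m, k = m + 1 := ⟨k - 1, by omega⟩
  rw [Nat.add_sub_cancel, Nat.choose_succ_self_right]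

theorem main {G α : Type*} [Group G] [MulAction G α] [Fintype α] [DecidableEq α] {k : ℕ}
    (hk : 2 ≤ k) (hG : ∀ Δ Δ' : Finset α, Δ.card = k → Δ'.card = k → ∃ g : G, g • Δ = Δ')
    (hq : ∀ q : ℕ, IsPrimePow q → q ∣ k → k + q - 1 ≤ Fintype.card α)
    (Γ₀ Γ₁ : Finset α) (h0 : Γ₀.card = k - 1) (h1 : Γ₁.card = k - 1) : ∃ g : G, g • Γ₀ = Γ₁ := by
  classical
  set lam : Finset α → ℕ := fun Δ =>
    ((Δ.powersetCard (k - 1)).filter (fun Γ => ∃ g : G, g • Γ₀ = Γ)).card with hlam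
  -- `k < n`
  have hkn : k < Fintype.card α := by
    have hp := Nat.minFac_prime (show k ≠ 1 by omega)
    have := hq k.minFac hp.isPrimePow (Nat.minFac_dvd k)
    have := hp.two_le
    omega
  have hle : ∀ (g : G) (Δ : Finset α), lam Δ ≤ lam (g • Δ) := by
    intro g Δ
    apply card_le_card_of_injOn (fun Γ => g • Γ)
    · intro Γ hΓ
      simp only [coe_filter, mem_powersetCard, Set.mem_ofPred_eq] at hΓ ⊢
      obtain ⟨⟨h2, h3⟩, x, hx⟩ := hΓ
      refine ⟨⟨smul_finset_subset_smul_finset h2, by rw [card_smul_finset, h3]⟩, g * x, ?_⟩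
      rw [mul_smul, hx]
    · intro Γ _ Γ' _ h
      exact smul_left_cancel g h
  have hconst : ∀ Δ Δ' : Finset α, Δ.card = k → Δ'.card = k → lam Δ = lam Δ' := by
    intro Δ Δ' hΔ hΔ'
    obtain ⟨g, rfl⟩ := hG Δ Δ' hΔ hΔ'
    apply le_antisymm (hle g Δ)
    have := hle g⁻¹ (g • Δ)
    rwa [inv_smul_smul] at this
  -- a `k`-set containing a given `(k-1)`-set
  have hext : ∀ Γ : Finset α, Γ.card = k - 1 → ∃ Δ : Finset α, Γ ⊆ Δ ∧ Δ.card = k := by
    intro Γ hΓ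
    obtain ⟨Δ, h2, -, h3⟩ := exists_subsuperset_card_eq (subset_univ Γ) (n := k)
      (by omega) (by rw [card_univ]; omega)
    exact ⟨Δ, h2, h3⟩
  obtain ⟨Δ₀, hΓΔ₀, hΔ₀⟩ := hext Γ₀ h0
  have hpos : 1 ≤ lam Δ₀ := by
    apply card_pos.2
    exact ⟨Γ₀, by simp only [mem_filter, mem_powersetCard]; exact ⟨⟨hΓΔ₀, h0⟩, 1, one_smul _ _⟩⟩
  have hlek : lam Δ₀ ≤ k := by
    calc lam Δ₀ ≤ (Δ₀.powersetCard (k - 1)).card := card_filter_le _ _
      _ = k := by
        rw [card_powersetCard, hΔ₀, choose_pred (by omega)]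
  have hdvd : k ∣ lam Δ₀ := by
    rw [Nat.dvd_iff_prime_pow_dvd_dvd]
    intro p a hp hpa
    rcases Nat.eq_zero_or_pos a with rfl | ha
    · simp
    have hn := hq (p ^ a) (hp.isPrimePow.pow ha.ne') hpa
    have hqpos : 0 < p ^ a := pow_pos hp.pos a
    obtain ⟨S, -, hS⟩ := exists_subset_card_eq (s := (univ : Finset α)) (n := k + p ^ a - 1)
      (by rw [card_univ]; exact hn)
    have hdc := sum_card_bipartiteAbove_eq_sum_card_bipartiteBelow
      (s := (S.powersetCard (k - 1)).filter (fun Γ => ∃ g : G, g • Γ₀ = Γ))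
      (t := S.powersetCard k) (fun Γ Δ => Γ ⊆ Δ)
    have hA : ∀ Γ ∈ (S.powersetCard (k - 1)).filter (fun Γ => ∃ g : G, g • Γ₀ = Γ),
        ((S.powersetCard k).bipartiteAbove (fun Γ Δ => Γ ⊆ Δ) Γ).card = p ^ a := by
      intro Γ hΓ
      rw [mem_filter, mem_powersetCard] at hΓ
      unfold bipartiteAbove
      rw [card_filter_superset (by omega) hΓ.1.1 hΓ.1.2, hS]
      omega
    have hB : ∀ Δ ∈ S.powersetCard k,
        (((S.powersetCard (k - 1)).filter (fun Γ => ∃ g : G, g • Γ₀ = Γ)).bipartiteBelow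
          (fun Γ Δ => Γ ⊆ Δ) Δ).card = lam Δ₀ := by
      intro Δ hΔ
      rw [mem_powersetCard] at hΔ
      rw [hconst Δ₀ Δ hΔ₀ hΔ.2]
      unfold bipartiteBelow
      rw [hlam]
      congr 1
      ext Γ
      simp only [mem_filter, mem_powersetCard]
      constructor
      · rintro ⟨⟨⟨-, h3⟩, h4⟩, h5⟩
        exact ⟨⟨h5, h3⟩, h4⟩
      · rintro ⟨⟨h5, h3⟩, h4⟩
        exact ⟨⟨⟨h5.trans hΔ.1, h3⟩, h4⟩, h5⟩
    rw [sum_congr rfl hA, sum_congr rfl hB, sum_const, sum_const, smul_eq_mul, smul_eq_mul,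
      card_powersetCard, hS] at hdc
    have hcop : Nat.Coprime (p ^ a) ((k + p ^ a - 1).choose k) := by
      apply Nat.Coprime.pow_left
      rw [hp.coprime_iff_not_dvd]
      have e : k + p ^ a - 1 = k + (p ^ a - 1) := by omega
      rw [e, Nat.choose_symm_add]
      exact not_dvd_choose hp hpa
    exact hcop.dvd_of_dvd_mul_left (Dvd.intro_left _ hdc)
  have hlamk : lam Δ₀ = k := le_antisymm hlek (Nat.le_of_dvd (by omega) hdvd)
  obtain ⟨Δ₁, hΓΔ₁, hΔ₁⟩ := hext Γ₁ h1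
  have h5 : lam Δ₁ = (Δ₁.powersetCard (k - 1)).card := by
    rw [← hconst Δ₀ Δ₁ hΔ₀ hΔ₁, hlamk, card_powersetCard, hΔ₁, choose_pred (by omega)]
  have h6 := (card_filter_eq_iff).1 h5 Γ₁ (mem_powersetCard.2 ⟨hΓΔ₁, h1⟩)
  exact h6

/-- A `k`-homogeneous permutation group of degree `n`, `k ≥ 2`, with `k + q - 1 ≤ n` for every prime power `q` dividing `k`, is `(k-1)`-homogeneous. -/
theorem result {α : Type*} [Fintype α] [DecidableEq α] (G : Subgroup (Equiv.Perm α)) {k : ℕ} (hk : 2 ≤ k) (hG : MulAction.IsPretransitive G (Set.powersetCard α k)) (hq : ∀ q : ℕ, IsPrimePow q → q ∣ k → k + q - 1 ≤ Fintype.card α) : MulAction.IsPretransitive G (Set.powersetCard α (k - 1)) := by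
  constructor
  intro x y
  obtain ⟨g, hg⟩ := main (G := G) hk (by
    intro Δ Δ' hΔ hΔ'
    obtain ⟨g, hg⟩ := hG.exists_smul_eq ⟨Δ, hΔ⟩ ⟨Δ', hΔ'⟩
    refine ⟨g, ?_⟩
    have := congrArg Subtype.val hg
    exact this) hq x.1 y.1 x.2 y.2
  refine ⟨g, ?_⟩
  apply Subtype.ext
  exact hg

end Cfsg.Agent.S0736
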