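import Cfsg.Statements.S0738
import Cfsg.Agent.Lib.Helper6.Zas2
import Cfsg.Agent.Lib.Helper6.SemiregAut

set_option autoImplicit false
open Cfsg

namespace Cfsg.Agent.S0738

/-- Let a finite Zassenhaus group of degree `n + 1` have two-point stabilisers of order `d` with `2d ≥ n - 1`. Then a normal subgroup of a point stabiliser acting regularly on the remaining points is elementary abelian, and the degree is a prime power plus one. -/
theorem result {G Ω : Type*} [Group G] [Finite G] [MulAction G Ω] [Fintype Ω] (hZ : Cfsg.IsZassenhausGroup G Ω) {a b : Ω} (hab : a ≠ b) (hd : Fintype.card Ω - 2 ≤ 2 * Nat.card ↥(MulAction.stabilizer G a ⊓ MulAction.stabilizer G b)) (F : Subgroup G) (hFle : F ≤ MulAction.stabilizer G a) (hFn : (F.subgroupOf (MulAction.stabilizer G a)).Normal) (hreg : ∀ y z : Ω, y ≠ a → z ≠ a → ∃! u : F, (u : G) • y = z) : IsMulCommutative F ∧ ∃ p f : ℕ, p.Prime ∧ (∀ u ∈ F, u ^ p = 1) ∧ Fintype.card Ω = p ^ f + 1 := by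
  classical
  have hb := Cfsg.Agent.Lib.Helper6.Zas.base_of_zassenhaus hZ
  set H : Subgroup G := MulAction.stabilizer G a ⊓ MulAction.stabilizer G b with hH
  have hnorm : ∀ g : G, g • a = a → ∀ x ∈ F, g * x * g⁻¹ ∈ F := by
    intro g hg x hx
    have := hFn.conj_mem ⟨x, hFle hx⟩ (Subgroup.mem_subgroupOf.2 hx) ⟨g, hg⟩
    exact Subgroup.mem_subgroupOf.1 this
  have hHa : ∀ h : H, (h : G) • a = a := fun h => h.2.1
  have hHb : ∀ h : H, (h : G) • b = b := fun h => h.2.2
  have hHa' : ∀ h : H, (h : G)⁻¹ • a = a := fun h => by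
    rw [inv_smul_eq_iff, hHa h]
  let cj : H → MulAut F := fun h =>
    { toFun := fun x => ⟨h * x * (h : G)⁻¹, hnorm h (hHa h) x x.2⟩
      invFun := fun x => ⟨(h : G)⁻¹ * x * h, by
        have := hnorm (h : G)⁻¹ (hHa' h) x x.2
        rwa [inv_inv] at this⟩
      left_inv := fun x => by
        apply Subtype.ext
        show (h : G)⁻¹ * (h * x * (h : G)⁻¹) * h = x
        group
      right_inv := fun x => by
        apply Subtype.ext
        show (h : G) * ((h : G)⁻¹ * x * h) * (h : G)⁻¹ = x
        group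
      map_mul' := fun x y => by
        apply Subtype.ext
        show (h : G) * (x * y) * (h : G)⁻¹ = (h * x * (h : G)⁻¹) * (h * y * (h : G)⁻¹)
        group }
  have hcj : ∀ (h : H) (x : F), ((cj h x : F) : G) = h * x * (h : G)⁻¹ := fun h x => rfl
  have hFa : ∀ x : F, (x : G) • a = a := fun x => hFle x.2
  have hsemi : ∀ x : F, x ≠ 1 → Function.Injective (fun h => cj h x) := by
    intro x hx h h' hhh
    have h1 : (h : G) * x * (h : G)⁻¹ = h' * x * (h' : G)⁻¹ := congrArg Subtype.val hhh
    have hxb : (x : G) • b ≠ b := by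
      intro hxb
      obtain ⟨u, -, hu⟩ := hreg b b hab.symm hab.symm
      exact hx ((hu x hxb).trans (hu 1 (one_smul _ _)).symm)
    have hxa : (x : G) • b ≠ a := by
      intro hxa
      have : (x : G) • b = (x : G) • a := hxa.trans (hFa x).symm
      exact hab (MulAction.injective (x : G) this).symm
    have h2 : (h' : G)⁻¹ * h = 1 := by
      apply hb.three ((h' : G)⁻¹ * h) a b ((x : G) • b) hab (Ne.symm hxb) (Ne.symm hxa)
      · rw [mul_smul, hHa h, hHa' h']
      · rw [mul_smul, hHb h, inv_smul_eq_iff, hHb h']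
      · have h3 : (h' : G)⁻¹ * h * x = x * ((h' : G)⁻¹ * h) := by
          have : (h' : G)⁻¹ * h * x = (h' : G)⁻¹ * (h * x * (h : G)⁻¹) * h := by group
          rw [this, h1]; group
        rw [← mul_smul, h3, mul_smul, mul_smul, hHb h, inv_smul_eq_iff.2 (hHb h').symm]
    apply Subtype.ext
    have : (h : G) = h' * ((h' : G)⁻¹ * h) := by group
    rw [this, h2, mul_one]
  -- the order of `F`
  have hcardF : Nat.card F = Fintype.card Ω - 1 := by
    have hbij : Function.Bijective (fun u : F => (⟨(u : G) • b, by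
        intro hxa
        have : (u : G) • b = (u : G) • a := hxa.trans (hFa u).symm
        exact hab (MulAction.injective (u : G) this).symm⟩ : {z : Ω // z ≠ a})) := by
      constructor
      · intro u v huv
        have h1 : (u : G) • b = (v : G) • b := congrArg Subtype.val huv
        obtain ⟨w, -, hw⟩ := hreg b ((v : G) • b) hab.symm (by
          intro hxa
          have : (v : G) • b = (v : G) • a := hxa.trans (hFa v).symm
          exact hab (MulAction.injective (v : G) this).symm)
        exact (hw u h1).trans (hw v rfl).symm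
      · rintro ⟨z, hz⟩
        obtain ⟨w, hw, -⟩ := hreg b z hab.symm hz
        exact ⟨w, Subtype.ext hw⟩
    rw [Nat.card_congr (Equiv.ofBijective _ hbij), Nat.card_eq_fintype_card,
      Fintype.card_subtype_compl, Fintype.card_subtype_eq]
  obtain ⟨c, hca, hcb⟩ := Cfsg.Agent.Lib.Helper6.Zas.exists_third hZ a b
  have hnt : Nontrivial F := by
    obtain ⟨w, hw, -⟩ := hreg b c hab.symm hca
    refine ⟨⟨w, 1, ?_⟩⟩
    rintro rfl
    apply hcb
    rw [← hw]
    exact one_smul _ _
  have hcard : Nat.card F ≤ 2 * Nat.card H + 1 := by omega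
  obtain ⟨hcomm, p, f, hp, hexp, hpf⟩ := Cfsg.Agent.Lib.Helper6.SemiregAut.main cj hsemi hcard
  refine ⟨⟨⟨hcomm⟩⟩, p, f, hp, ?_, ?_⟩
  · intro u hu
    have := congrArg Subtype.val (hexp ⟨u, hu⟩)
    simpa using this
  · have hpos : 0 < Fintype.card Ω := Fintype.card_pos_iff.2 ⟨a⟩
    omega

end Cfsg.Agent.S0738
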