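import Cfsg.Statements.S0740
import Cfsg.Agent.Lib.Helper6.Zas2

set_option autoImplicit false
open Cfsg

namespace Cfsg.Agent.S0740

/-- In a finite Zassenhaus group any two points `a ≠ b` are swapped by an involution; every such involution has exactly one fixed point when the degree is odd and 0 or 2 fixed points when the degree is even; and if the two-point stabiliser has even order, some such involution has exactly 2 fixed points. -/
theorem result {G Ω : Type*} [Group G] [Finite G] [MulAction G Ω] [Fintype Ω] (hZ : Cfsg.IsZassenhausGroup G Ω) {a b : Ω} (hab : a ≠ b) : (∃ s : G, orderOf s = 2 ∧ s • a = b ∧ s • b = a) ∧ (∀ s : G, orderOf s = 2 → s • a = b → s • b = a → (Odd (Fintype.card Ω) → Nat.card (MulAction.fixedBy Ω s) = 1) ∧ (Even (Fintype.card Ω) → Nat.card (MulAction.fixedBy Ω s) = 0 ∨ Nat.card (MulAction.fixedBy Ω s) = 2)) ∧ (Even (Fintype.card Ω) → Even (Nat.card ↥(MulAction.stabilizer G a ⊓ MulAction.stabilizer G b)) → ∃ s : G, orderOf s = 2 ∧ s • a = b ∧ s • b = a ∧ Nat.card (MulAction.fixedBy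 Ω s) = 2) := by
  classical
  have hb := Cfsg.Agent.Lib.Helper6.Zas.base_of_zassenhaus hZ
  have hord : ∀ t : G, t * t = 1 → t • a = b → orderOf t = 2 := by
    intro t ht hta
    apply orderOf_eq_prime
    · rw [pow_two, ht]
    · rintro rfl
      rw [one_smul] at hta
      exact hab hta
  have hcnt : ∀ s : G, orderOf s = 2 → Nat.card (MulAction.fixedBy Ω s) ≤ 2 ∧
      Nat.card (MulAction.fixedBy Ω s) % 2 = Fintype.card Ω % 2 := by
    intro s hs
    apply hb.card_fixedBy_invol s
    · rintro rfl
      rw [orderOf_one] at hs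
      omega
    · rw [← pow_two, ← hs]; exact pow_orderOf_eq_one s
  refine ⟨?_, ?_, ?_⟩
  · obtain ⟨t, ht, hta, htb⟩ := Cfsg.Agent.Lib.Helper6.Zas.exists_invol_swap hZ hab
    exact ⟨t, hord t ht hta, hta, htb⟩
  · intro s hs _ _
    obtain ⟨h1, h2⟩ := hcnt s hs
    constructor
    · intro hodd
      have := Nat.odd_iff.1 hodd
      omega
    · intro hev
      have := Nat.even_iff.1 hev
      omega
  · intro hev heven
    obtain ⟨c, hca, hcb⟩ := Cfsg.Agent.Lib.Helper6.Zas.exists_third hZ a b
    obtain ⟨t, ht, htc, hta, htb⟩ := hb.exists_invol_fix_swap hab heven c hca hcb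
    refine ⟨t, hord t ht hta, hta, htb, ?_⟩
    obtain ⟨h1, h2⟩ := hcnt t (hord t ht hta)
    have h3 := Nat.even_iff.1 hev
    have h4 : 0 < Nat.card (MulAction.fixedBy Ω t) := by
      have : Nonempty (MulAction.fixedBy Ω t) := ⟨⟨c, htc⟩⟩
      exact Nat.card_pos
    omega

end Cfsg.Agent.S0740
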