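import Mathlib
import Cfsg.Statements.S0744
import Cfsg.Agent.Lib.Helper12.Gleason

set_option autoImplicit false
open Cfsg

namespace Cfsg.Agent.S0744

/-- If for some `k > 1` the pointwise stabilisers of all `(k-1)`-subsets have the same order `> 1` and those of all `k`-subsets have the same order, then the group is `(k-1)`-transitive. -/
theorem result {α : Type*} [Fintype α] [DecidableEq α] (G : Subgroup (Equiv.Perm α)) {k : ℕ} (hk : 1 < k) (hkn : k ≤ Fintype.card α) (l m : ℕ) (hl : 1 < l) (hkm1 : ∀ s : Finset α, s.card = k - 1 → Nat.card (fixingSubgroup G (s : Set α)) = l) (hkm : ∀ s : Finset α, s.card = k → Nat.card (fixingSubgroup G (s : Set α)) = m) : MulAction.IsMultiplyPretransitive G α (k - 1) := by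
  classical
  -- a base set
  have hmain : ∀ s : Finset α, s.card = k - 1 → ∀ x ∉ s,
      Nat.card (fixingSubgroup G ((insert x s : Finset α) : Set α)) = m := by
    intro s hs x hx
    apply hkm
    rw [Finset.card_insert_of_notMem hx, hs]; omega
  have hle : ∀ s : Finset α, ∀ x,
      fixingSubgroup G ((insert x s : Finset α) : Set α) ≤ fixingSubgroup G (s : Set α) := by
    intro s x
    apply fixingSubgroup_antitone
    intro y hy
    simp only [Finset.coe_insert]
    exact Set.mem_insert_of_mem _ hy
  obtain ⟨s₀, -, hs₀⟩ := Finset.exists_subset_card_eq (s := (Finset.univ : Finset α)) (n := k - 1)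
    (by rw [Finset.card_univ]; omega)
  have hm_dvd : m ∣ l := by
    obtain ⟨x, hx⟩ : ∃ x, x ∉ s₀ := by
      by_contra hc
      push Not at hc
      have : s₀ = Finset.univ := Finset.eq_univ_iff_forall.mpr hc
      rw [this, Finset.card_univ] at hs₀
      omega
    rw [← hmain s₀ hs₀ x hx, ← hkm1 s₀ hs₀]
    exact Subgroup.card_dvd_of_le (hle s₀ x)
  have hml : m ≠ l := by
    intro hml
    -- the fixing subgroup of s₀ fixes everything
    have h1 : fixingSubgroup G (s₀ : Set α) = ⊥ := by
      rw [eq_bot_iff]
      intro g hg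
      rw [Subgroup.mem_bot]
      apply Subtype.ext
      apply Equiv.ext
      intro x
      by_cases hx : x ∈ s₀
      · exact (mem_fixingSubgroup_iff G).mp hg x hx
      · have h2 : fixingSubgroup G ((insert x s₀ : Finset α) : Set α) = fixingSubgroup G (s₀ : Set α) := by
          apply Subgroup.eq_of_le_of_card_ge (hle s₀ x)
          rw [hmain s₀ hs₀ x hx, hkm1 s₀ hs₀, hml]
        rw [← h2] at hg
        exact (mem_fixingSubgroup_iff G).mp hg x (by simp)
    have := hkm1 s₀ hs₀
    rw [h1, Subgroup.card_bot] at this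
    omega
  have hl0 : l ≠ 0 := by omega
  have hm0 : m ≠ 0 := by
    rintro rfl
    exact hl0 (Nat.eq_zero_of_zero_dvd hm_dvd)
  obtain ⟨r, hr⟩ := hm_dvd
  have hr1 : r ≠ 1 := by
    rintro rfl
    exact hml (by omega)
  obtain ⟨p, hp, hpr⟩ := Nat.exists_prime_and_dvd hr1
  have : Fact p.Prime := ⟨hp⟩
  apply Cfsg.Agent.Lib.Helper12.Gleason.isMultiplyPretransitive (p := p) (by omega)
  · rw [Nat.card_eq_fintype_card]; omega
  intro s hs
  have hs' : s.toFinset.card = k - 1 := by rw [← hs, Set.ncard_eq_toFinset_card']
  obtain ⟨P⟩ : Nonempty (Sylow p (fixingSubgroup G (s : Set α))) := inferInstance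
  refine ⟨(P : Subgroup (fixingSubgroup G (s : Set α))).map (Subgroup.subtype _), P.2.map _, ?_⟩
  have hsc : ((s.toFinset : Finset α) : Set α) = s := Set.coe_toFinset s
  ext x
  constructor
  · intro hx
    by_contra hxs
    have hxs' : x ∉ s.toFinset := by simpa using hxs
    have h1 : (P : Subgroup (fixingSubgroup G (s : Set α))).map (Subgroup.subtype _) ≤
        fixingSubgroup G ((insert x s.toFinset : Finset α) : Set α) := by
      intro g hg
      rw [mem_fixingSubgroup_iff]
      intro y hy
      simp only [Finset.coe_insert, Set.mem_insert_iff, hsc] at hy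
      rcases hy with rfl | hy
      · exact hx ⟨g, hg⟩
      · obtain ⟨g', -, rfl⟩ := hg
        exact (mem_fixingSubgroup_iff G).mp g'.2 y hy
    have h2 := Subgroup.card_dvd_of_le h1
    rw [hmain _ hs' x hxs', Subgroup.card_map_of_injective (Subgroup.subtype_injective _),
      P.card_eq_multiplicity] at h2
    have h3 : Nat.card (fixingSubgroup G (s : Set α)) = l := by
      rw [← hkm1 _ hs', hsc]
    rw [h3] at h2
    have h4 : p ^ (m.factorization p + 1) ∣ l := by
      rw [hr, pow_succ]
      exact Nat.mul_dvd_mul (Nat.ordProj_dvd m p) hpr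
    have h5 := (hp.pow_dvd_iff_le_factorization hl0).mp h4
    have h6 := (hp.pow_dvd_iff_le_factorization hm0).mp h2
    omega
  · intro hx g
    obtain ⟨g', -, hg'⟩ := g.2
    have := (mem_fixingSubgroup_iff G).mp g'.2 x hx
    change (g : G) • x = x
    rw [← hg']
    exact this

end Cfsg.Agent.S0744
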