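import Cfsg.Statements.S0757
-- import your own Cfsg.Agent.* helpers here

set_option autoImplicit false
open Cfsg

namespace Cfsg.Agent.S0757

theorem toMatrix'_wss {F : Type*} [Field F] [Invertible (2 : F)] {ι : Type*} [Fintype ι]
    [DecidableEq ι] (w : ι → F) :
    QuadraticForm.toMatrix' (QuadraticMap.weightedSumSquares F w) = Matrix.diagonal w := by
  ext i j
  rw [QuadraticForm.toMatrix', LinearMap.toMatrix₂'_apply]
  have h20 : (2 : F) ≠ 0 := Invertible.ne_zero 2
  have key : ∀ x y : ι → F, (2 : F) * QuadraticMap.associated (QuadraticMap.weightedSumSquares F w) x y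
      = QuadraticMap.polar (QuadraticMap.weightedSumSquares F w) x y := by
    intro x y
    have h := QuadraticMap.two_nsmul_associated F (QuadraticMap.weightedSumSquares F w)
    have h' := LinearMap.congr_fun₂ h x y
    simpa [two_mul, two_smul] using h'
  apply mul_left_cancel₀ h20
  rw [key, QuadraticMap.polar]
  simp only [QuadraticMap.weightedSumSquares_apply, Pi.add_apply, smul_eq_mul]
  rw [← Finset.sum_sub_distrib, ← Finset.sum_sub_distrib]
  have : ∀ k, w k * (((Pi.single i 1 : ι → F) k + (Pi.single j 1 : ι → F) k) *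
      ((Pi.single i 1 : ι → F) k + (Pi.single j 1 : ι → F) k)) -
      w k * ((Pi.single i 1 : ι → F) k * (Pi.single i 1 : ι → F) k) -
      w k * ((Pi.single j 1 : ι → F) k * (Pi.single j 1 : ι → F) k) =
      2 * (w k * ((Pi.single i 1 : ι → F) k * (Pi.single j 1 : ι → F) k)) := by
    intro k; ring
  simp only [this]
  rw [← Finset.mul_sum]
  congr 1
  simp only [Pi.single_apply, Matrix.diagonal_apply, mul_ite, mul_one, mul_zero, ite_mul, one_mul,
    zero_mul, Finset.sum_ite_eq', Finset.sum_ite_eq, Finset.mem_univ, if_true]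
  by_cases hij : i = j
  · subst hij; simp
  · simp [hij, Ne.symm hij]

/-- The two diagonal forms Σ x_i^2 and Σ_(i<n) x_i^2 + α x_n^2 on F^(n+1), with α a non-square and 2 ≠ 0 in F, are inequivalent quadratic forms (so over a finite field of odd order there are exactly two classes of non-singular symmetric bilinear forms in each dimension). -/
theorem result {F : Type*} [Field F] (h2 : (2 : F) ≠ 0) (n : ℕ) (α : F) (hα : ¬ IsSquare α) : ¬ (QuadraticMap.weightedSumSquares F (fun _ : Fin (n + 1) => (1 : F))).Equivalent (QuadraticMap.weightedSumSquares F (fun i : Fin (n + 1) => if i = Fin.last n then α else (1 : F))) := by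
  rintro ⟨e⟩
  have : Invertible (2 : F) := invertibleOfNonzero h2
  obtain ⟨d, hd⟩ : ∃ d, d = (LinearMap.toMatrix'
      (e.toLinearEquiv : (Fin (n + 1) → F) →ₗ[F] (Fin (n + 1) → F))).det := ⟨_, rfl⟩
  have hcomp : QuadraticMap.weightedSumSquares F (fun _ : Fin (n + 1) => (1 : F)) =
      (QuadraticMap.weightedSumSquares F
        (fun i : Fin (n + 1) => if i = Fin.last n then α else (1 : F))).comp
        (e.toLinearEquiv : (Fin (n + 1) → F) →ₗ[F] (Fin (n + 1) → F)) := by
    ext x
    simp [QuadraticMap.comp_apply]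
  have h1 := QuadraticForm.discr'_comp (Q := QuadraticMap.weightedSumSquares F
        (fun i : Fin (n + 1) => if i = Fin.last n then α else (1 : F)))
    (e.toLinearEquiv : (Fin (n + 1) → F) →ₗ[F] (Fin (n + 1) → F))
  rw [← hcomp, ← hd] at h1
  rw [QuadraticForm.discr', QuadraticForm.discr', toMatrix'_wss, toMatrix'_wss,
    Matrix.det_diagonal, Matrix.det_diagonal] at h1
  simp only [Finset.prod_const_one, Finset.prod_ite_eq', Finset.mem_univ, if_true,
    Finset.prod_ite, Finset.prod_const, one_pow, mul_one] at h1
  have hd0 : d ≠ 0 := by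
    rintro rfl
    simp at h1
  apply hα
  refine ⟨d⁻¹, ?_⟩
  field_simp
  linear_combination -h1

end Cfsg.Agent.S0757
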