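import Cfsg.Statements.S0758
-- import your own Cfsg.Agent.* helpers here

set_option autoImplicit false
open Cfsg

namespace Cfsg.Agent.S0758

/-- For a finite field F of odd order q and a non-square α: the form x² + y² is isotropic iff q ≡ 1 mod 4, and the form x² + α y² is isotropic iff q ≡ 3 mod 4. -/
theorem result {F : Type*} [Field F] [Fintype F] (h2 : (2 : F) ≠ 0) (α : F) (hα : ¬ IsSquare α) : ((∃ x y : F, (x ≠ 0 ∨ y ≠ 0) ∧ x ^ 2 + y ^ 2 = 0) ↔ Fintype.card F % 4 = 1) ∧ ((∃ x y : F, (x ≠ 0 ∨ y ≠ 0) ∧ x ^ 2 + α * y ^ 2 = 0) ↔ Fintype.card F % 4 = 3) := by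
  classical
  have hchar : ringChar F ≠ 2 := by
    intro h
    apply h2
    have := ringChar.Nat.cast_ringChar (R := F)
    rw [h] at this
    exact_mod_cast this
  have hodd : Fintype.card F % 2 = 1 := FiniteField.odd_card_of_char_ne_two hchar
  have hm1 := FiniteField.isSquare_neg_one_iff (F := F)
  constructor
  · constructor
    · rintro ⟨x, y, hne, hxy⟩
      have hy : y ≠ 0 := by
        intro hy
        rw [hy] at hxy hne
        simp at hxy hne
        exact hne hxy
      have : IsSquare (-1 : F) := ⟨x / y, by
        field_simp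
        linear_combination -hxy⟩
      have := hm1.mp this
      omega
    · intro h
      have : IsSquare (-1 : F) := hm1.mpr (by omega)
      obtain ⟨i, hi⟩ := this
      exact ⟨i, 1, Or.inr one_ne_zero, by linear_combination -hi⟩
  · constructor
    · rintro ⟨x, y, hne, hxy⟩
      have hy : y ≠ 0 := by
        intro hy
        rw [hy] at hxy hne
        simp at hxy hne
        exact hne hxy
      by_contra h3
      obtain ⟨i, hi⟩ := hm1.mpr h3
      apply hα
      refine ⟨i * (x / y), ?_⟩
      have : α = (-1) * (x / y) ^ 2 := by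
        field_simp
        linear_combination hxy
      rw [this, hi]; ring
    · intro h
      have hn1 : ¬ IsSquare (-1 : F) := fun hs => hm1.mp hs h
      have h1 : quadraticChar F (-1) = -1 := (quadraticChar_neg_one_iff_not_isSquare).mpr hn1
      have h2' : quadraticChar F α = -1 := (quadraticChar_neg_one_iff_not_isSquare).mpr hα
      have hα0 : α ≠ 0 := by
        rintro rfl
        exact hα ⟨0, by simp⟩
      have h3 : quadraticChar F (-α) = 1 := by
        have : -α = (-1) * α := by ring
        rw [this, map_mul, h1, h2']; norm_num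
      obtain ⟨r, hr⟩ := (quadraticChar_one_iff_isSquare (neg_ne_zero.mpr hα0)).mp h3
      exact ⟨r, 1, Or.inr one_ne_zero, by linear_combination -hr⟩

end Cfsg.Agent.S0758
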