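import Mathlib
import Cfsg.Statements.S0759
import Cfsg.Agent.Lib.Helper14.DiscWitt

set_option autoImplicit false
open Cfsg

namespace Cfsg.Agent.S0759

/-- Type of the orthonormal form: over a finite field of odd order q and for m ≥ 1, the quadratic form Σ_(i<2m) x_i² on F^(2m) admits an m-dimensional subspace on which it vanishes identically if and only if it is not the case that q ≡ 3 (mod 4) and m is odd. -/
theorem result {F : Type*} [Field F] [Fintype F] (h2 : (2 : F) ≠ 0) (m : ℕ) (hm : 1 ≤ m) : (∃ W : Submodule F (Fin (2 * m) → F), Module.finrank F W = m ∧ ∀ w ∈ W, ∑ i, w i ^ 2 = 0) ↔ ¬ (Fintype.card F % 4 = 3 ∧ Odd m) := by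
  classical
  let B : LinearMap.BilinForm F (Fin (2 * m) → F) := Matrix.toBilin' (1 : Matrix (Fin (2 * m)) (Fin (2 * m)) F)
  have hBapp : ∀ x y, B x y = ∑ i, x i * y i := by
    intro x y
    simp [B, Matrix.toBilin'_apply', dotProduct]
  have hS : B.IsSymm := ⟨fun x y => by rw [hBapp, hBapp]; simp [mul_comm]⟩
  have hD : Cfsg.Agent.Lib.Helper14.HasDisc B 1 := by
    have := Cfsg.Agent.Lib.Helper14.hasDisc_of_basis B (Pi.basisFun F (Fin (2 * m)))
    convert this using 1
    rw [LinearMap.BilinForm.toMatrix_basisFun]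
    simp [B]
  have hB : B.Nondegenerate := hD.nondegenerate one_ne_zero
  have key := Cfsg.Agent.Lib.Helper14.isotropic_iff_isSquare h2 m B hS hB (by simp) 1 hD
  have h1 : (∃ W : Submodule F (Fin (2 * m) → F), Module.finrank F W = m ∧ ∀ w ∈ W, ∑ i, w i ^ 2 = 0)
      ↔ (∃ X : Submodule F (Fin (2 * m) → F), Module.finrank F X = m ∧ ∀ x ∈ X, ∀ y ∈ X, B x y = 0) := by
    constructor
    · rintro ⟨W, hWd, hW⟩
      refine ⟨W, hWd, fun x hx y hy => ?_⟩
      have hq : ∀ w ∈ W, B w w = 0 := by
        intro w hw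
        rw [hBapp, ← hW w hw]
        simp [sq]
      have hxy := hq (x + y) (W.add_mem hx hy)
      simp only [map_add, LinearMap.add_apply, hq x hx, hq y hy, hS.eq y x] at hxy
      have : (2 : F) * B x y = 0 := by linear_combination hxy
      rcases mul_eq_zero.mp this with h | h
      · exact absurd h h2
      · exact h
    · rintro ⟨X, hXd, hX⟩
      refine ⟨X, hXd, fun w hw => ?_⟩
      have := hX w hw w hw
      rw [hBapp] at this
      rw [← this]
      simp [sq]
  rw [h1, key, mul_one]
  rcases Nat.even_or_odd m with hm' | hm'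
  · rw [hm'.neg_one_pow]
    constructor
    · intro _ h
      exact (Nat.not_odd_iff_even.mpr hm') h.2
    · intro _
      exact ⟨1, by simp⟩
  · rw [hm'.neg_one_pow, FiniteField.isSquare_neg_one_iff]
    constructor
    · intro h h'
      exact h h'.1
    · intro h h'
      exact h ⟨h', hm'⟩

end Cfsg.Agent.S0759
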