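import Cfsg.Statements.S0761
-- import your own Cfsg.Agent.* helpers here

set_option autoImplicit false
open Cfsg

namespace Cfsg.Agent.S0761

/-- Hyperbolic partners: let B be a non-degenerate bilinear form on a finite-dimensional space, either alternating, or symmetric with 2 ≠ 0. If Z is a subspace on which B vanishes, x ∉ Z is isotropic and orthogonal to Z, then there is an isotropic y with B x y = 1 which is orthogonal to Z. -/
theorem result {F V : Type*} [Field F] [AddCommGroup V] [Module F V] [FiniteDimensional F V] (B : LinearMap.BilinForm F V) (hB : B.Nondegenerate) (hform : B.IsAlt ∨ (B.IsSymm ∧ (2 : F) ≠ 0)) (x : V) (Z : Submodule F V) (hxZ : x ∉ Z) (hx : B x x = 0) (hxz : ∀ z ∈ Z, B x z = 0) (hZ : ∀ z ∈ Z, ∀ z' ∈ Z, B z z' = 0) : ∃ y : V, B y y = 0 ∧ B x y = 1 ∧ ∀ z ∈ Z, B z y = 0 := by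
  obtain ⟨l0, hl0, hZ0⟩ := Submodule.exists_le_ker_of_notMem hxZ
  set l : V →ₗ[F] F := (l0 x)⁻¹ • l0 with hl
  have hlx : l x = 1 := by simp [hl, hl0]
  have hlZ : ∀ z ∈ Z, l z = 0 := by
    intro z hz
    have : l0 z = 0 := hZ0 hz
    simp [hl, this]
  set y0 := (LinearMap.BilinForm.toDual B.flip hB.flip).symm l with hy0
  have hy0' : ∀ u, B u y0 = l u := by
    intro u
    have : B.flip y0 u = l u := by
      rw [← LinearMap.BilinForm.toDual_def hB.flip, hy0, LinearEquiv.apply_symm_apply]
    simpa using this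
  rcases hform with hA | ⟨hS, h2⟩
  · exact ⟨y0, hA y0, by rw [hy0', hlx], fun z hz => by rw [hy0', hlZ z hz]⟩
  · have hsym : ∀ a b, B a b = B b a := fun a b => hS.eq a b
    refine ⟨y0 + (-(B y0 y0) / 2) • x, ?_, ?_, ?_⟩
    · simp only [map_add, LinearMap.add_apply, map_smul, LinearMap.smul_apply, smul_eq_mul, hx,
        hsym y0 x, hy0' x, hlx]
      field_simp
      ring
    · simp only [map_add, map_smul, smul_eq_mul, hx, hy0' x, hlx]
      ring
    · intro z hz
      simp only [map_add, map_smul, smul_eq_mul, hy0' z, hlZ z hz, hsym z x, hxz z hz]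
      ring

end Cfsg.Agent.S0761
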