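import Cfsg.Statements.S0762
-- import your own Cfsg.Agent.* helpers here

set_option autoImplicit false
open Cfsg

namespace Cfsg.Agent.S0762

/-- In characteristic two over a finite field, a quadratic form on a space of dimension at least 3 vanishes on some non-zero vector. -/
theorem result {F V : Type*} [Field F] [Finite F] [CharP F 2] [AddCommGroup V] [Module F V] [FiniteDimensional F V] (Q : QuadraticForm F V) (h3 : 3 ≤ Module.finrank F V) : ∃ v : V, v ≠ 0 ∧ Q v = 0 := by
  classical
  obtain ⟨f, hf⟩ := exists_linearIndependent_of_le_finrank h3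
  rw [Fintype.linearIndependent_iff] at hf
  have h20 : (2 : F) = 0 := CharTwo.two_eq_zero
  have hchar : ringChar F = 2 := ringChar.eq F 2
  set u := f 0 with hu
  set v := f 1 with hv
  set w := f 2 with hw
  have hu0 : u ≠ 0 := by
    intro h
    have := hf ![1, 0, 0] (by simp [Fin.sum_univ_three, ← hu, h]) 0
    simp at this
  by_cases hQu : Q u = 0
  · exact ⟨u, hu0, hQu⟩
  -- find s independent of u with polar u s = 0
  obtain ⟨s, hs, hus⟩ : ∃ s : V, (∀ x : F, x • u + s ≠ 0) ∧ QuadraticMap.polar Q u s = 0 := by
    by_cases h1 : QuadraticMap.polar Q u v = 0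
    · refine ⟨v, ?_, h1⟩
      intro x hx
      have := hf ![x, 1, 0] (by simpa [Fin.sum_univ_three, ← hu, ← hv] using hx) 1
      simp at this
    · refine ⟨w - (QuadraticMap.polar Q u w / QuadraticMap.polar Q u v) • v, ?_, ?_⟩
      · intro x hx
        have := hf ![x, -(QuadraticMap.polar Q u w / QuadraticMap.polar Q u v), 1] (by
          simp only [Fin.sum_univ_three, Matrix.cons_val_zero, Matrix.cons_val_one,
            Matrix.cons_val_two, Matrix.head_cons, Matrix.tail_cons, ← hu, ← hv, ← hw]
          rw [← hx]
          simp only [neg_smul, one_smul]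
          abel) 2
        simp at this
      · rw [QuadraticMap.polar_sub_right, QuadraticMap.polar_smul_right, smul_eq_mul,
          div_mul_cancel₀ _ h1, sub_self]
  obtain ⟨x, hx⟩ := FiniteField.isSquare_of_char_two hchar (Q s / Q u)
  refine ⟨x • u + s, hs x, ?_⟩
  have : Q (x • u + s) = Q (x • u) + Q s + QuadraticMap.polar Q (x • u) s := by
    simp only [QuadraticMap.polar]; ring
  rw [this, QuadraticMap.map_smul, QuadraticMap.polar_smul_left, hus, smul_eq_mul, ← hx,
    div_mul_cancel₀ _ hQu]
  simp only [smul_eq_mul, mul_zero, add_zero]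
  linear_combination (Q s) * h20

end Cfsg.Agent.S0762
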