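import Cfsg.Statements.S0763
-- import your own Cfsg.Agent.* helpers here

set_option autoImplicit false
open Cfsg

namespace Cfsg.Agent.S0763

/-- Binary quadratic forms in characteristic two over a finite field: if Q is a quadratic form on a 2-dimensional space whose polar form is non-degenerate, then either there are vectors v, w with Q v = Q w = 0 and polar value 1 (Q is xy in these coordinates), or there are v, w and μ with Q v = 1, Q w = μ, polar value 1 and x² + x + μ without roots in F (Q is x² + xy + μy²). -/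
theorem result {F V : Type*} [Field F] [Finite F] [CharP F 2] [AddCommGroup V] [Module F V] (Q : QuadraticForm F V) (h2 : Module.finrank F V = 2) (hQ : (QuadraticMap.polarBilin Q).Nondegenerate) : (∃ v w : V, LinearIndependent F ![v, w] ∧ Q v = 0 ∧ Q w = 0 ∧ QuadraticMap.polar Q v w = 1) ∨ (∃ (v w : V) (μ : F), LinearIndependent F ![v, w] ∧ (∀ x : F, x ^ 2 + x + μ ≠ 0) ∧ Q v = 1 ∧ Q w = μ ∧ QuadraticMap.polar Q v w = 1) := by
  classical
  have h20 : (2 : F) = 0 := CharTwo.two_eq_zero
  have hchar : ringChar F = 2 := ringChar.eq F 2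
  have hself : ∀ x : V, QuadraticMap.polar Q x x = 0 := by
    intro x
    rw [QuadraticMap.polar_self]
    simp [h20]
  have hcomm : ∀ x y : V, QuadraticMap.polar Q x y = QuadraticMap.polar Q y x :=
    fun x y => QuadraticMap.polar_comm _ _ _
  have hli : ∀ v w : V, QuadraticMap.polar Q v w = 1 → LinearIndependent F ![v, w] := by
    intro v w hvw
    rw [LinearIndependent.pair_iff]
    intro s t hst
    have h1 : QuadraticMap.polar Q v (s • v + t • w) = 0 := by
      rw [hst]; simp [QuadraticMap.polar]
    have h2' : QuadraticMap.polar Q w (s • v + t • w) = 0 := by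
      rw [hst]; simp [QuadraticMap.polar]
    rw [QuadraticMap.polar_add_right, QuadraticMap.polar_smul_right, QuadraticMap.polar_smul_right,
      hself, hvw] at h1
    rw [QuadraticMap.polar_add_right, QuadraticMap.polar_smul_right, QuadraticMap.polar_smul_right,
      hself, hcomm w v, hvw] at h2'
    constructor
    · simpa using h2'
    · simpa using h1
  have hpartner : ∀ v : V, v ≠ 0 → ∃ w, QuadraticMap.polar Q v w = 1 := by
    intro v hv
    obtain ⟨w0, hw0⟩ : ∃ w0, QuadraticMap.polar Q v w0 ≠ 0 := by
      by_contra hcon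
      push Not at hcon
      exact hv (hQ.1 v (fun y => by simpa using hcon y))
    refine ⟨(QuadraticMap.polar Q v w0)⁻¹ • w0, ?_⟩
    rw [QuadraticMap.polar_smul_right, smul_eq_mul, inv_mul_cancel₀ hw0]
  have hadd : ∀ x y : V, Q (x + y) = Q x + Q y + QuadraticMap.polar Q x y := by
    intro x y
    simp only [QuadraticMap.polar]; ring
  by_cases hsing : ∃ v : V, v ≠ 0 ∧ Q v = 0
  · left
    obtain ⟨v, hv0, hQv⟩ := hsing
    obtain ⟨w1, hw1⟩ := hpartner v hv0
    have hvw : QuadraticMap.polar Q v (w1 + (Q w1) • v) = 1 := by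
      rw [QuadraticMap.polar_add_right, QuadraticMap.polar_smul_right, hself, hw1]
      simp
    refine ⟨v, w1 + (Q w1) • v, hli _ _ hvw, hQv, ?_, hvw⟩
    rw [hadd, QuadraticMap.map_smul, hQv, QuadraticMap.polar_smul_right, hcomm w1 v, hw1]
    simp only [smul_eq_mul, mul_zero, mul_one, add_zero]
    linear_combination (Q w1) * h20
  · right
    push Not at hsing
    have : Nontrivial V := Module.nontrivial_of_finrank_pos (R := F) (by omega)
    obtain ⟨v0, hv0⟩ := exists_ne (0 : V)
    have ha : Q v0 ≠ 0 := hsing v0 hv0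
    obtain ⟨r, hr⟩ := FiniteField.isSquare_of_char_two hchar (Q v0)
    have hr0 : r ≠ 0 := by
      rintro rfl
      simp at hr
      exact ha hr
    have hv : r⁻¹ • v0 ≠ 0 := smul_ne_zero (inv_ne_zero hr0) hv0
    have hQv : Q (r⁻¹ • v0) = 1 := by
      rw [QuadraticMap.map_smul, hr, smul_eq_mul]
      field_simp
    obtain ⟨w, hw⟩ := hpartner _ hv
    refine ⟨r⁻¹ • v0, w, Q w, hli _ _ hw, ?_, hQv, rfl, hw⟩
    intro x hx
    have hne : x • (r⁻¹ • v0) + w ≠ 0 := by
      intro h0
      have := (LinearIndependent.pair_iff.mp (hli _ _ hw)) x 1 (by simpa using h0)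
      exact one_ne_zero this.2
    apply hsing _ hne
    rw [hadd, QuadraticMap.map_smul, hQv, QuadraticMap.polar_smul_left, hw]
    simp only [smul_eq_mul, mul_one]
    linear_combination hx

end Cfsg.Agent.S0763
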