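import Cfsg.Statements.S0769
-- import your own Cfsg.Agent.* helpers here

set_option autoImplicit false
open Cfsg

namespace Cfsg.Agent.S0769

open Matrix

variable {F : Type*} [Field F] {n : ℕ}

theorem lower_det (M : Matrix (Fin n) (Fin n) F) (h : ∀ i j : Fin n, i < j → M i j = 0) :
    M.det = ∏ i, M i i :=
  Matrix.det_of_isLowerTriangular M (fun i j hij => h i j hij)

/-- the matrix built from diagonal and strictly lower entries -/
def mkM (d : Fin n → Fˣ) (l : {p : Fin n × Fin n // p.2 < p.1} → F) : Matrix (Fin n) (Fin n) F :=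
  Matrix.of fun i j => if h : j < i then l ⟨(i, j), h⟩ else if i = j then (d i : F) else 0

theorem mkM_lower (d : Fin n → Fˣ) (l : {p : Fin n × Fin n // p.2 < p.1} → F) :
    ∀ i j : Fin n, i < j → mkM d l i j = 0 := by
  intro i j hij
  simp [mkM, not_lt_of_gt hij, ne_of_lt hij]

theorem mkM_diag (d : Fin n → Fˣ) (l : {p : Fin n × Fin n // p.2 < p.1} → F) (i : Fin n) :
    mkM d l i i = d i := by
  simp [mkM]

theorem mkM_det_ne (d : Fin n → Fˣ) (l : {p : Fin n × Fin n // p.2 < p.1} → F) :
    (mkM d l).det ≠ 0 := by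
  rw [lower_det _ (mkM_lower d l)]
  apply Finset.prod_ne_zero_iff.mpr
  intro i _
  rw [mkM_diag]
  exact (d i).ne_zero

theorem diag_ne (g : Matrix.GeneralLinearGroup (Fin n) F)
    (h : ∀ i j : Fin n, i < j → (g : Matrix (Fin n) (Fin n) F) i j = 0) (i : Fin n) :
    (g : Matrix (Fin n) (Fin n) F) i i ≠ 0 := by
  have hdet : (g : Matrix (Fin n) (Fin n) F).det ≠ 0 := by
    have := (Matrix.isUnit_iff_isUnit_det _).mp g.isUnit
    exact this.ne_zero
  rw [lower_det _ h] at hdet
  exact Finset.prod_ne_zero_iff.mp hdet i (Finset.mem_univ i)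

noncomputable def equivB : {g : Matrix.GeneralLinearGroup (Fin n) F //
      ∀ i j : Fin n, i < j → (g : Matrix (Fin n) (Fin n) F) i j = 0} ≃
    (Fin n → Fˣ) × ({p : Fin n × Fin n // p.2 < p.1} → F) where
  toFun g := (fun i => Units.mk0 _ (diag_ne g.1 g.2 i),
    fun p => (g.1 : Matrix (Fin n) (Fin n) F) p.1.1 p.1.2)
  invFun x := ⟨Matrix.GeneralLinearGroup.mkOfDetNeZero (mkM x.1 x.2) (mkM_det_ne x.1 x.2),
    mkM_lower x.1 x.2⟩
  left_inv g := by
    apply Subtype.ext
    apply Units.ext
    ext i j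
    change mkM _ _ i j = _
    simp only [mkM, Matrix.of_apply]
    split_ifs with h1 h2
    · rfl
    · subst h2; rfl
    · have : i < j := lt_of_le_of_ne (not_lt.mp h1) h2
      exact (g.2 i j this).symm
  right_inv x := by
    apply Prod.ext
    · funext i
      apply Units.ext
      change mkM x.1 x.2 i i = _
      rw [mkM_diag]
    · funext p
      change mkM x.1 x.2 p.1.1 p.1.2 = _
      simp [mkM, p.2]

theorem card_lt_pairs (n : ℕ) : Fintype.card {p : Fin n × Fin n // p.2 < p.1} = n * (n - 1) / 2 := by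
  have e : {p : Fin n × Fin n // p.2 < p.1} ≃ Σ i : Fin n, Fin (i : ℕ) :=
    { toFun := fun p => ⟨p.1.1, ⟨p.1.2, p.2⟩⟩
      invFun := fun s => ⟨(s.1, ⟨s.2, lt_trans s.2.2 s.1.2⟩), s.2.2⟩
      left_inv := by intro p; rfl
      right_inv := by intro s; rfl }
  rw [Fintype.card_congr e, Fintype.card_sigma]
  simp only [Fintype.card_fin]
  rw [Fin.sum_univ_eq_sum_range (fun i => i) n, Finset.sum_range_id]

/-- Order of the Borel subgroup of GL_n(q): the invertible lower-triangular n × n matrices over a field with q elements number q^(n(n-1)/2) (q-1)^n (unitriangular part times the diagonal torus). -/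
theorem result {F : Type*} [Field F] [Fintype F] {q : ℕ} (hF : Fintype.card F = q) (n : ℕ) : Nat.card {g : Matrix.GeneralLinearGroup (Fin n) F // ∀ i j : Fin n, i < j → (g : Matrix (Fin n) (Fin n) F) i j = 0} = q ^ (n * (n - 1) / 2) * (q - 1) ^ n := by
  classical
  rw [Nat.card_congr equivB, Nat.card_eq_fintype_card, Fintype.card_prod, Fintype.card_fun,
    Fintype.card_fun, Fintype.card_units, hF, card_lt_pairs, Fintype.card_fin, mul_comm]

end Cfsg.Agent.S0769
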