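import Cfsg.Statements.S0770
-- import your own Cfsg.Agent.* helpers here

set_option autoImplicit false
open Cfsg

namespace Cfsg.Agent.S0770

open Matrix

variable {F : Type*} [Field F] {n : ℕ}

theorem mem_T_iff (h : Matrix.GeneralLinearGroup (Fin n) F) :
    h ∈ ((Units.map (Matrix.diagonalRingHom (Fin n) F).toMonoidHom).range :
      Subgroup (Matrix.GeneralLinearGroup (Fin n) F)) ↔
    ∀ i j : Fin n, i ≠ j → (h : Matrix (Fin n) (Fin n) F) i j = 0 := by
  constructor
  · rintro ⟨d, rfl⟩ i j hij
    simp [Matrix.diagonal_apply, hij]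
  · intro hd
    have hmul : ∀ i, (h : Matrix (Fin n) (Fin n) F) i i *
        ((h⁻¹ : Matrix.GeneralLinearGroup (Fin n) F) : Matrix (Fin n) (Fin n) F) i i = 1 := by
      intro i
      have h1 : (h : Matrix (Fin n) (Fin n) F) *
          ((h⁻¹ : Matrix.GeneralLinearGroup (Fin n) F) : Matrix (Fin n) (Fin n) F) = 1 := by
        rw [← Units.val_mul, mul_inv_cancel]; rfl
      have h2 := congrFun (congrFun h1 i) i
      rw [Matrix.mul_apply, Finset.sum_eq_single i, Matrix.one_apply_eq] at h2
      · exact h2
      · intro k _ hk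
        rw [hd i k (Ne.symm hk), zero_mul]
      · intro hi
        exact absurd (Finset.mem_univ i) hi
    refine ⟨⟨fun i => (h : Matrix (Fin n) (Fin n) F) i i,
      fun i => ((h⁻¹ : Matrix.GeneralLinearGroup (Fin n) F) : Matrix (Fin n) (Fin n) F) i i,
      funext hmul, funext fun i => by rw [Pi.mul_apply, mul_comm]; exact hmul i⟩, ?_⟩
    apply Units.ext
    ext i j
    by_cases hij : i = j
    · subst hij
      simp
    · simp [Matrix.diagonal_apply, hij, hd i j hij]

theorem gl_mul_inv (g : Matrix.GeneralLinearGroup (Fin n) F) :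
    (g : Matrix (Fin n) (Fin n) F) *
      ((g⁻¹ : Matrix.GeneralLinearGroup (Fin n) F) : Matrix (Fin n) (Fin n) F) = 1 := by
  rw [← Units.val_mul, mul_inv_cancel]; rfl

theorem gl_inv_mul (g : Matrix.GeneralLinearGroup (Fin n) F) :
    ((g⁻¹ : Matrix.GeneralLinearGroup (Fin n) F) : Matrix (Fin n) (Fin n) F) *
      (g : Matrix (Fin n) (Fin n) F) = 1 := by
  rw [← Units.val_mul, inv_mul_cancel]; rfl

theorem forward (hF : ∃ a : F, a ≠ 0 ∧ a ≠ 1) (g : Matrix.GeneralLinearGroup (Fin n) F)
    (hg : g ∈ Subgroup.normalizer ((Units.map (Matrix.diagonalRingHom (Fin n) F).toMonoidHom).range :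
      Subgroup (Matrix.GeneralLinearGroup (Fin n) F))) :
    ∀ i : Fin n, ∃! j : Fin n, (g : Matrix (Fin n) (Fin n) F) i j ≠ 0 := by
  obtain ⟨a, ha0, ha1⟩ := hF
  intro i
  -- existence
  obtain ⟨j, hj⟩ : ∃ j, (g : Matrix (Fin n) (Fin n) F) i j ≠ 0 := by
    by_contra hcon
    push Not at hcon
    have h2 := congrFun (congrFun (gl_mul_inv g) i) i
    rw [Matrix.mul_apply, Matrix.one_apply_eq] at h2
    simp [hcon] at h2
  refine ⟨j, hj, ?_⟩
  intro k hk
  by_contra hkj
  -- the diagonal matrix with `a` at position `j`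
  let t : Matrix.GeneralLinearGroup (Fin n) F :=
    Units.map (Matrix.diagonalRingHom (Fin n) F).toMonoidHom
      ⟨fun l => if l = j then a else 1, fun l => if l = j then a⁻¹ else 1,
        by funext l; by_cases h : l = j <;> simp [h, ha0],
        by funext l; by_cases h : l = j <;> simp [h, ha0]⟩
  have ht : (t : Matrix (Fin n) (Fin n) F) = Matrix.diagonal (fun l => if l = j then a else 1) := rfl
  have htT : t ∈ ((Units.map (Matrix.diagonalRingHom (Fin n) F).toMonoidHom).range :
      Subgroup (Matrix.GeneralLinearGroup (Fin n) F)) := ⟨_, rfl⟩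
  have h1 := (Subgroup.mem_normalizer_iff.mp hg t).mp htT
  rw [mem_T_iff] at h1
  set M : Matrix (Fin n) (Fin n) F := ((g * t * g⁻¹ : Matrix.GeneralLinearGroup (Fin n) F) :
    Matrix (Fin n) (Fin n) F) with hM
  have hMg : M * (g : Matrix (Fin n) (Fin n) F) = (g : Matrix (Fin n) (Fin n) F) * t := by
    rw [hM, Units.val_mul, Units.val_mul, Matrix.mul_assoc, gl_inv_mul, Matrix.mul_one]
  have entry : ∀ l, M i i * (g : Matrix (Fin n) (Fin n) F) i l =
      (g : Matrix (Fin n) (Fin n) F) i l * (if l = j then a else 1) := by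
    intro l
    have h2 := congrFun (congrFun hMg i) l
    rw [Matrix.mul_apply, Finset.sum_eq_single i, ht, Matrix.mul_diagonal] at h2
    · exact h2
    · intro b _ hb
      rw [h1 i b (Ne.symm hb), zero_mul]
    · intro hi
      exact absurd (Finset.mem_univ i) hi
  have e1 := entry j
  have e2 := entry k
  rw [if_pos rfl] at e1
  rw [if_neg hkj, mul_one] at e2
  have e3 : M i i = a := by
    apply mul_right_cancel₀ hj
    rw [e1, mul_comm]
  have e4 : M i i = 1 := by
    apply mul_right_cancel₀ hk
    rw [e2, one_mul]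
  exact ha1 (e3.symm.trans e4)

theorem backward (g : Matrix.GeneralLinearGroup (Fin n) F)
    (hmono : ∀ i : Fin n, ∃! j : Fin n, (g : Matrix (Fin n) (Fin n) F) i j ≠ 0) :
    g ∈ Subgroup.normalizer ((Units.map (Matrix.diagonalRingHom (Fin n) F).toMonoidHom).range :
      Subgroup (Matrix.GeneralLinearGroup (Fin n) F)) := by
  choose π hπ hπu using hmono
  have hzero : ∀ i l, l ≠ π i → (g : Matrix (Fin n) (Fin n) F) i l = 0 := by
    intro i l hl
    by_contra hne
    exact hl (hπu i l hne)
  have hinj : Function.Injective π := by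
    intro i i' hii'
    by_contra hne
    have h2 := congrFun (congrFun (gl_mul_inv g) i) i
    have h3 := congrFun (congrFun (gl_mul_inv g) i') i
    rw [Matrix.mul_apply, Finset.sum_eq_single (π i), Matrix.one_apply_eq] at h2
    · rw [Matrix.mul_apply, Finset.sum_eq_single (π i'), Matrix.one_apply_ne (Ne.symm hne)] at h3
      · rw [← hii'] at h3
        rcases mul_eq_zero.mp h3 with h | h
        · rw [hii'] at h
          exact hπ i' h
        · rw [h, mul_zero] at h2
          exact zero_ne_one h2
      · intro b _ hb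
        rw [hzero i' b hb, zero_mul]
      · intro hi
        exact absurd (Finset.mem_univ _) hi
    · intro b _ hb
      rw [hzero i b hb, zero_mul]
    · intro hi
      exact absurd (Finset.mem_univ _) hi
  have hsurj : Function.Surjective π := Finite.injective_iff_surjective.mp hinj
  rw [Subgroup.mem_normalizer_iff]
  intro h
  rw [mem_T_iff, mem_T_iff]
  set M : Matrix (Fin n) (Fin n) F := ((g * h * g⁻¹ : Matrix.GeneralLinearGroup (Fin n) F) :
    Matrix (Fin n) (Fin n) F) with hM
  have hMg : M * (g : Matrix (Fin n) (Fin n) F) = (g : Matrix (Fin n) (Fin n) F) * h := by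
    rw [hM, Units.val_mul, Units.val_mul, Matrix.mul_assoc, gl_inv_mul, Matrix.mul_one]
  have hR : ∀ i j, ((g : Matrix (Fin n) (Fin n) F) * h) i j =
      (g : Matrix (Fin n) (Fin n) F) i (π i) * (h : Matrix (Fin n) (Fin n) F) (π i) j := by
    intro i j
    rw [Matrix.mul_apply, Finset.sum_eq_single (π i)]
    · intro b _ hb
      rw [hzero i b hb, zero_mul]
    · intro hi
      exact absurd (Finset.mem_univ _) hi
  have hL : ∀ i k, (M * (g : Matrix (Fin n) (Fin n) F)) i (π k) =
      M i k * (g : Matrix (Fin n) (Fin n) F) k (π k) := by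
    intro i k
    rw [Matrix.mul_apply, Finset.sum_eq_single k]
    · intro b _ hb
      rw [hzero b (π k) (fun hh => hb (hinj hh).symm), mul_zero]
    · intro hi
      exact absurd (Finset.mem_univ _) hi
  constructor
  · intro hd i k hik
    have h1 := congrFun (congrFun hMg i) (π k)
    rw [hL, hR, hd (π i) (π k) (fun hh => hik (hinj hh)), mul_zero] at h1
    rcases mul_eq_zero.mp h1 with h' | h'
    · exact h'
    · exact absurd h' (hπ k)
  · intro hd l j hlj
    obtain ⟨i, rfl⟩ := hsurj l
    obtain ⟨k, rfl⟩ := hsurj j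
    have hik : i ≠ k := fun hh => hlj (by rw [hh])
    have h1 := congrFun (congrFun hMg i) (π k)
    rw [hL, hR, hd i k hik, zero_mul] at h1
    rcases mul_eq_zero.mp h1.symm with h' | h'
    · exact absurd h' (hπ i)
    · exact h'

/-- For a field with at least 3 elements, an invertible matrix normalises the subgroup of invertible diagonal matrices of GL_n if and only if it is monomial (exactly one non-zero entry in each row). -/
theorem result {F : Type*} [Field F] (hF : ∃ a : F, a ≠ 0 ∧ a ≠ 1) (n : ℕ) (g : Matrix.GeneralLinearGroup (Fin n) F) : g ∈ Subgroup.normalizer ((Units.map (Matrix.diagonalRingHom (Fin n) F).toMonoidHom).range : Subgroup (Matrix.GeneralLinearGroup (Fin n) F)) ↔ ∀ i : Fin n, ∃! j : Fin n, (g : Matrix (Fin n) (Fin n) F) i j ≠ 0 := by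
  exact ⟨forward hF g, backward g⟩

end Cfsg.Agent.S0770
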