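import Cfsg.Statements.S0772
import Cfsg.Agent.Lib.Helper13.Parabolic
import Cfsg.Agent.Lib.Helper94.SLMax

set_option autoImplicit false
open Cfsg

namespace Cfsg.Agent.S0772

open Matrix Cfsg.Agent.Lib.Helper13 Cfsg.Agent.Lib.Helper94

variable {F : Type*} [Field F]

/-- the coordinate subspace as a submodule -/
def coordSub (F : Type*) [Field F] (n k : ℕ) : Submodule F (Fin n → F) where
  carrier := coordSet F n k
  add_mem' := by
    intro a b ha hb i hi
    simp [ha i hi, hb i hi]
  zero_mem' := by
    intro i _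
    rfl
  smul_mem' := by
    intro c x hx i hi
    simp [hx i hi]

theorem mem_stab_iff (n k : ℕ) (hk : k ≤ n) (g : Matrix.GeneralLinearGroup (Fin n) F) :
    g ∈ Cfsg.stabilizing (Cfsg.glToMat (Fin n) F) (coordSet F n k) ↔
      ∀ w ∈ coordSub F n k, glEquiv (Fin n) F g w ∈ coordSub F n k := by
  constructor
  · intro h w hw
    rw [glEquiv_apply]
    exact (h w).mp hw
  · intro h
    rw [mem_stabilizing_coord_iff' n k hk]
    intro i j hi hj
    have h1 : (Pi.single j 1 : Fin n → F) ∈ coordSub F n k := by
      intro i' hi'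
      have : i' ≠ j := by
        intro hh
        rw [hh] at hi'
        omega
      simp [this]
    have h2 := h _ h1 i hi
    rw [glEquiv_apply] at h2
    simpa using h2

/-- Maximal parabolics are maximal: over a finite field, for 0 < k < n the stabiliser in GL_n of the span of the first k coordinate vectors is a maximal proper subgroup. -/
theorem result {F : Type*} [Field F] [Finite F] (n k : ℕ) (hk0 : 0 < k) (hkn : k < n) : IsCoatom (Cfsg.stabilizing (Cfsg.glToMat (Fin n) F) {v : Fin n → F | ∀ i : Fin n, k ≤ (i : ℕ) → v i = 0}) := by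
  classical
  change IsCoatom (Cfsg.stabilizing (Cfsg.glToMat (Fin n) F) (coordSet F n k))
  have hk : k ≤ n := hkn.le
  have : Nontrivial (Fin n) := Fin.nontrivial_iff_two_le.2 (by omega)
  have hW0 : coordSub F n k ≠ ⊥ := by
    intro h
    have h1 : (Pi.single ⟨0, by omega⟩ 1 : Fin n → F) ∈ coordSub F n k := by
      intro i' hi'
      have : i' ≠ ⟨0, by omega⟩ := by
        intro hh
        rw [hh] at hi'
        simp at hi'
        omega
      simp [this]
    rw [h, Submodule.mem_bot] at h1
    have := congrFun h1 ⟨0, by omega⟩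
    simp at this
  have hW1 : coordSub F n k ≠ ⊤ := by
    intro h
    have h1 : (Pi.single ⟨k, hkn⟩ 1 : Fin n → F) ∈ coordSub F n k := by rw [h]; trivial
    have := h1 ⟨k, hkn⟩ le_rfl
    simp at this
  constructor
  · intro htop
    obtain ⟨φ, a, h, -, u, hu, hu'⟩ := exists_tr_not_stab ⊥ (coordSub F n k)
      (bot_lt_iff_ne_bot.2 hW0) hW1
    have h1 : (glEquiv (Fin n) F).symm (tr φ a h) ∈
        Cfsg.stabilizing (Cfsg.glToMat (Fin n) F) (coordSet F n k) := by rw [htop]; trivial
    rw [mem_stab_iff n k hk, MulEquiv.apply_symm_apply] at h1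
    exact hu' (h1 u hu)
  · intro H hlt
    obtain ⟨g0, hg0H, hg0P⟩ := SetLike.exists_of_lt hlt
    rw [mem_stab_iff n k hk] at hg0P
    have key := core_SL_subspace (coordSub F n k) (H.map (glEquiv (Fin n) F).toMonoidHom)
      (by
        intro g _ hg
        refine ⟨(glEquiv (Fin n) F).symm g, hlt.le ?_, MulEquiv.apply_symm_apply _ _⟩
        rw [mem_stab_iff n k hk, MulEquiv.apply_symm_apply]
        exact hg)
      (glEquiv (Fin n) F g0) ⟨g0, hg0H, rfl⟩ hg0P
    have hdet1 : ∀ g : Matrix.GeneralLinearGroup (Fin n) F,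
        (g : Matrix (Fin n) (Fin n) F).det = 1 → g ∈ H := by
      intro g hg
      obtain ⟨g', hg', hgg⟩ := mem_of_det_eq_one (H.map (glEquiv (Fin n) F).toMonoidHom) key g hg
      have : g' = g := (glEquiv (Fin n) F).injective hgg
      exact this ▸ hg'
    rw [eq_top_iff]
    intro g _
    -- a diagonal matrix with the same determinant
    set δ := (g : Matrix (Fin n) (Fin n) F).det with hδ
    have hδ0 : δ ≠ 0 := gl_det_ne_zero g
    let i0 : Fin n := ⟨0, by omega⟩
    have hDdet : (Matrix.diagonal (fun i : Fin n => if i = i0 then δ else 1)).det = δ := by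
      rw [Matrix.det_diagonal, Finset.prod_ite_eq' Finset.univ i0 (fun _ => δ)]
      simp
    let d : Matrix.GeneralLinearGroup (Fin n) F := Matrix.GeneralLinearGroup.mkOfDetNeZero
      (Matrix.diagonal (fun i : Fin n => if i = i0 then δ else 1)) (by rw [hDdet]; exact hδ0)
    have hd : (d : Matrix (Fin n) (Fin n) F) =
      Matrix.diagonal (fun i : Fin n => if i = i0 then δ else 1) := rfl
    have hdH : d ∈ H := by
      apply hlt.le
      rw [mem_stabilizing_coord_iff' n k hk]
      intro i j hi hj
      rw [hd, Matrix.diagonal_apply_ne]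
      intro hij
      rw [hij] at hi
      omega
    have h2 : d⁻¹ * g ∈ H := by
      apply hdet1
      have h3 : (d : Matrix (Fin n) (Fin n) F).det *
          ((d⁻¹ * g : Matrix.GeneralLinearGroup (Fin n) F) : Matrix (Fin n) (Fin n) F).det = δ := by
        rw [← Matrix.det_mul, ← Units.val_mul, mul_inv_cancel_left]
      rw [hd, hDdet] at h3
      exact mul_left_cancel₀ hδ0 (by rw [h3, mul_one])
    have := H.mul_mem hdH h2
    rwa [mul_inv_cancel_left] at this

end Cfsg.Agent.S0772
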