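import Cfsg.Statements.S0773
import Cfsg.Agent.S0772

set_option autoImplicit false
open Cfsg

namespace Cfsg.Agent.S0773

open Matrix Cfsg.Agent.Lib.Helper13 Cfsg.Agent.Lib.Helper94 Cfsg.Agent.S0772

variable {F : Type*} [Field F]

theorem gl_mul_inv' {n : ℕ} (g : Matrix.GeneralLinearGroup (Fin n) F) :
    (g : Matrix (Fin n) (Fin n) F) *
      ((g⁻¹ : Matrix.GeneralLinearGroup (Fin n) F) : Matrix (Fin n) (Fin n) F) = 1 := by
  rw [← Units.val_mul, mul_inv_cancel]; rfl

theorem gl_inv_mul' {n : ℕ} (g : Matrix.GeneralLinearGroup (Fin n) F) :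
    ((g⁻¹ : Matrix.GeneralLinearGroup (Fin n) F) : Matrix (Fin n) (Fin n) F) *
      (g : Matrix (Fin n) (Fin n) F) = 1 := by
  rw [← Units.val_mul, inv_mul_cancel]; rfl

/-- inverse transpose followed by reversal of the coordinates -/
def Phi (F : Type*) [Field F] (n : ℕ) :
    Matrix.GeneralLinearGroup (Fin n) F →* Matrix.GeneralLinearGroup (Fin n) F where
  toFun g := ⟨(((g⁻¹ : Matrix.GeneralLinearGroup (Fin n) F) : Matrix (Fin n) (Fin n) F)ᵀ).submatrix
      Fin.revPerm Fin.revPerm,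
    ((g : Matrix (Fin n) (Fin n) F)ᵀ).submatrix Fin.revPerm Fin.revPerm, by
      rw [Matrix.submatrix_mul_equiv, ← Matrix.transpose_mul, gl_mul_inv']; simp, by
      rw [Matrix.submatrix_mul_equiv, ← Matrix.transpose_mul, gl_inv_mul']; simp⟩
  map_one' := by
    apply Units.ext
    simp
  map_mul' g h := by
    apply Units.ext
    simp only [_root_.mul_inv_rev, Units.val_mul, Matrix.transpose_mul]
    rw [Matrix.submatrix_mul_equiv]

theorem Phi_coe {n : ℕ} (g : Matrix.GeneralLinearGroup (Fin n) F) (i j : Fin n) :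
    (Phi F n g : Matrix (Fin n) (Fin n) F) i j =
      ((g⁻¹ : Matrix.GeneralLinearGroup (Fin n) F) : Matrix (Fin n) (Fin n) F) (Fin.rev j) (Fin.rev i) :=
  rfl

theorem Phi_Phi {n : ℕ} (g : Matrix.GeneralLinearGroup (Fin n) F) : Phi F n (Phi F n g) = g := by
  apply Units.ext
  ext i j
  rw [Phi_coe, ← map_inv, Phi_coe, inv_inv, Fin.rev_rev, Fin.rev_rev]

def PhiEquiv (F : Type*) [Field F] (n : ℕ) :
    Matrix.GeneralLinearGroup (Fin n) F ≃* Matrix.GeneralLinearGroup (Fin n) F :=
  { Phi F n with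
    invFun := Phi F n
    left_inv := Phi_Phi
    right_inv := Phi_Phi }

theorem Phi_mem_iff (n k : ℕ) (hk : k ≤ n) (g : Matrix.GeneralLinearGroup (Fin n) F) :
    g ∈ Cfsg.stabilizing (Cfsg.glToMat (Fin n) F) (coordSet F n k) ↔
    Phi F n g ∈ Cfsg.stabilizing (Cfsg.glToMat (Fin n) F) (coordSet F n (n - k)) := by
  rw [← inv_mem_iff, mem_stabilizing_coord_iff' n k hk,
    mem_stabilizing_coord_iff' n (n - k) (Nat.sub_le n k)]
  constructor
  · intro h i j hi hj
    rw [Phi_coe]
    apply h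
    · rw [Fin.val_rev]; omega
    · rw [Fin.val_rev]; have := i.2; omega
  · intro h i j hi hj
    have := h (Fin.rev j) (Fin.rev i) (by rw [Fin.val_rev]; have := j.2; omega)
      (by rw [Fin.val_rev]; have := i.2; omega)
    rwa [Phi_coe, Fin.rev_rev, Fin.rev_rev] at this

theorem map_Phi (n k : ℕ) (hk : k ≤ n) :
    (Cfsg.stabilizing (Cfsg.glToMat (Fin n) F) (coordSet F n k)).map (PhiEquiv F n).toMonoidHom =
    Cfsg.stabilizing (Cfsg.glToMat (Fin n) F) (coordSet F n (n - k)) := by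
  ext x
  constructor
  · rintro ⟨g, hg, rfl⟩
    exact (Phi_mem_iff n k hk g).mp hg
  · intro hx
    refine ⟨Phi F n x, ?_, Phi_Phi x⟩
    rw [SetLike.mem_coe, Phi_mem_iff n k hk, Phi_Phi]
    exact hx

section abstract

variable {V : Type*} [AddCommGroup V] [Module F V]

theorem exists_stab_not_stab (W W' : Submodule F V) (hW' : W' ≠ ⊤) (hle : ¬ W' ≤ W) :
    ∃ t : V ≃ₗ[F] V, (∀ w ∈ W, t w ∈ W) ∧ ¬ (∀ w ∈ W', t w ∈ W') := by
  obtain ⟨u, huW', huW⟩ := SetLike.not_le_iff_exists.mp hle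
  obtain ⟨φ, hφu, hφW⟩ := Submodule.exists_le_ker_of_notMem huW
  obtain ⟨a, hφa, haW'⟩ : ∃ a, φ a = 0 ∧ a ∉ W' := by
    by_contra hcon
    push Not at hcon
    apply hW'
    rw [eq_top_iff]
    intro x _
    have h1 : x - (φ x / φ u) • u ∈ W' := by
      apply hcon
      rw [map_sub, map_smul, smul_eq_mul, div_mul_cancel₀ _ hφu, sub_self]
    have h2 : x = (x - (φ x / φ u) • u) + (φ x / φ u) • u := by abel
    rw [h2]
    exact W'.add_mem h1 (W'.smul_mem _ huW')
  refine ⟨tr φ a hφa, ?_, ?_⟩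
  · intro w hw
    rw [tr_apply, LinearMap.mem_ker.mp (hφW hw), zero_smul, add_zero]
    exact hw
  · intro hcon
    have h1 := hcon u huW'
    rw [tr_apply] at h1
    have h2 := W'.sub_mem h1 huW'
    rw [add_sub_cancel_left] at h2
    exact haW' ((W'.smul_mem_iff hφu).mp h2)

end abstract

theorem finrank_coordSub (n k : ℕ) (hk : k ≤ n) : Module.finrank F (coordSub F n k) = k := by
  have e : coordSub F n k ≃ₗ[F] (Fin k → F) :=
    { toFun := fun v a => v.1 (Fin.castLE hk a)
      map_add' := by intro x y; rfl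
      map_smul' := by intro c x; rfl
      invFun := fun u => ⟨fun i => if h : (i : ℕ) < k then u ⟨i, h⟩ else 0, by
        intro i hi
        simp [not_lt.mpr hi]⟩
      left_inv := by
        intro v
        apply Subtype.ext
        funext i
        by_cases h : (i : ℕ) < k
        · simp [h]
        · simp only [h, dif_neg, not_false_eq_true]
          exact (v.2 i (not_lt.mp h)).symm
      right_inv := by
        intro u
        funext a
        simp }
  rw [LinearEquiv.finrank_eq e, Module.finrank_fin_fun]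

/-- The stabilisers in GL_n(F), F finite, of the coordinate subspaces of dimensions k and n − k are isomorphic groups, but when 2k ≠ n (and 0 < k < n) no element of GL_n conjugates one onto the other. -/
theorem result {F : Type*} [Field F] [Finite F] (n k : ℕ) (hk0 : 0 < k) (hkn : k < n) (h2 : 2 * k ≠ n) : Nonempty (↥(Cfsg.stabilizing (Cfsg.glToMat (Fin n) F) {v : Fin n → F | ∀ i : Fin n, k ≤ (i : ℕ) → v i = 0}) ≃* ↥(Cfsg.stabilizing (Cfsg.glToMat (Fin n) F) {v : Fin n → F | ∀ i : Fin n, n - k ≤ (i : ℕ) → v i = 0})) ∧ ∀ g : Matrix.GeneralLinearGroup (Fin n) F, (Cfsg.stabilizing (Cfsg.glToMat (Fin n) F) {v : Fin n → F | ∀ i : Fin n, k ≤ (i : ℕ) → v i = 0}).map (MulAut.conj g).toMonoidHom ≠ Cfsg.stabilizing (Cfsg.glToMat (Fin n) F) {v : Fin n → F | ∀ i : Fin n, n - k ≤ (i : ℕ) → v i = 0} := by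
  classical
  change Nonempty (↥(Cfsg.stabilizing (Cfsg.glToMat (Fin n) F) (coordSet F n k)) ≃*
      ↥(Cfsg.stabilizing (Cfsg.glToMat (Fin n) F) (coordSet F n (n - k)))) ∧
    ∀ g : Matrix.GeneralLinearGroup (Fin n) F,
      (Cfsg.stabilizing (Cfsg.glToMat (Fin n) F) (coordSet F n k)).map (MulAut.conj g).toMonoidHom ≠
      Cfsg.stabilizing (Cfsg.glToMat (Fin n) F) (coordSet F n (n - k))
  have hk : k ≤ n := hkn.le
  have hk' : n - k ≤ n := Nat.sub_le n k
  refine ⟨⟨((PhiEquiv F n).subgroupMap _).trans (MulEquiv.subgroupCongr (map_Phi n k hk))⟩, ?_⟩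
  intro g hconj
  set γ := glEquiv (Fin n) F g with hγ
  set W := coordSub F n (n - k) with hW
  set W' := (coordSub F n k).map (γ : (Fin n → F) →ₗ[F] (Fin n → F)) with hW'
  have hrW : Module.finrank F W = n - k := finrank_coordSub n (n - k) hk'
  have hrW' : Module.finrank F W' = k := by
    rw [hW', LinearEquiv.finrank_map_eq, finrank_coordSub n k hk]
  have hVr : Module.finrank F (Fin n → F) = n := Module.finrank_fin_fun F
  have hWtop : W ≠ ⊤ := by
    intro h
    rw [h, finrank_top, hVr] at hrW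
    omega
  have hW'top : W' ≠ ⊤ := by
    intro h
    rw [h, finrank_top, hVr] at hrW'
    omega
  -- the two stabilisers coincide
  have hiff : ∀ t : (Fin n → F) ≃ₗ[F] (Fin n → F), (∀ w ∈ W, t w ∈ W) ↔ (∀ w ∈ W', t w ∈ W') := by
    intro t
    set p := (glEquiv (Fin n) F).symm t with hp
    have hpt : glEquiv (Fin n) F p = t := MulEquiv.apply_symm_apply _ _
    have h1 : (∀ w ∈ W, t w ∈ W) ↔
        p ∈ Cfsg.stabilizing (Cfsg.glToMat (Fin n) F) (coordSet F n (n - k)) := by
      rw [mem_stab_iff n (n - k) hk', hpt]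
    rw [h1, ← hconj]
    have h2 : p ∈ (Cfsg.stabilizing (Cfsg.glToMat (Fin n) F) (coordSet F n k)).map
        (MulAut.conj g).toMonoidHom ↔
        g⁻¹ * p * g ∈ Cfsg.stabilizing (Cfsg.glToMat (Fin n) F) (coordSet F n k) := by
      constructor
      · rintro ⟨x, hx, hxp⟩
        have : g⁻¹ * p * g = x := by
          rw [← hxp]
          simp [MulAut.conj_apply, mul_assoc]
        rw [this]
        exact hx
      · intro hx
        refine ⟨_, hx, ?_⟩
        simp [MulAut.conj_apply, mul_assoc]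
    rw [h2, mem_stab_iff n k hk, map_mul, map_mul, hpt, map_inv, ← hγ]
    constructor
    · intro h w hw
      obtain ⟨x, hx, rfl⟩ := hw
      have h3 := h x hx
      refine ⟨_, h3, ?_⟩
      simp [LinearEquiv.mul_apply]
    · intro h x hx
      have h3 := h (γ x) ⟨x, hx, rfl⟩
      obtain ⟨y, hy, hyx⟩ := h3
      have : (γ⁻¹ * t * γ) x = y := by
        simp only [LinearEquiv.mul_apply]
        rw [← hyx]
        simp
      rw [this]
      exact hy
  have hle1 : W' ≤ W := by
    by_contra hcon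
    obtain ⟨t, ht1, ht2⟩ := exists_stab_not_stab W W' hW'top hcon
    exact ht2 ((hiff t).mp ht1)
  have hle2 : W ≤ W' := by
    by_contra hcon
    obtain ⟨t, ht1, ht2⟩ := exists_stab_not_stab W' W hWtop hcon
    exact ht2 ((hiff t).mpr ht1)
  have heq : W = W' := le_antisymm hle2 hle1
  rw [heq, hrW'] at hrW
  omega

end Cfsg.Agent.S0773
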