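import Cfsg.Statements.S0778
-- import your own Cfsg.Agent.* helpers here

set_option autoImplicit false
open Cfsg

namespace Cfsg.Agent.S0778

open Matrix

variable {F : Type*} [Field F] {m : ℕ}

/-- the block-diagonal embedding of `GL_m` in `Sp_2m` -/
def emb (F : Type*) [Field F] (m : ℕ) :
    Matrix.GeneralLinearGroup (Fin m) F →* Matrix.symplecticGroup (Fin m) F where
  toFun X := ⟨fromBlocks (X : Matrix (Fin m) (Fin m) F) 0 0
      ((X⁻¹ : Matrix.GeneralLinearGroup (Fin m) F) : Matrix (Fin m) (Fin m) F)ᵀ, by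
    rw [SymplecticGroup.mem_iff, Matrix.J, fromBlocks_multiply, fromBlocks_transpose,
      fromBlocks_multiply]
    have h1 : (X : Matrix (Fin m) (Fin m) F) *
        ((X⁻¹ : Matrix.GeneralLinearGroup (Fin m) F) : Matrix (Fin m) (Fin m) F) = 1 := by
      rw [← Units.val_mul, mul_inv_cancel]; rfl
    have h2 : ((X⁻¹ : Matrix.GeneralLinearGroup (Fin m) F) : Matrix (Fin m) (Fin m) F)ᵀ *
        (X : Matrix (Fin m) (Fin m) F)ᵀ = 1 := by
      rw [← transpose_mul, h1, transpose_one]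
    simp only [Matrix.mul_zero, Matrix.zero_mul, zero_add, add_zero, Matrix.mul_one,
      Matrix.mul_neg, Matrix.neg_mul, transpose_transpose, transpose_zero, h1, h2, neg_zero]⟩
  map_one' := by
    apply Subtype.ext
    simp
  map_mul' X Y := by
    apply Subtype.ext
    simp [fromBlocks_multiply, _root_.mul_inv_rev, transpose_mul]

theorem emb_coe (X : Matrix.GeneralLinearGroup (Fin m) F) :
    ((emb F m X : Matrix.symplecticGroup (Fin m) F) : Matrix (Fin m ⊕ Fin m) (Fin m ⊕ Fin m) F) =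
      fromBlocks (X : Matrix (Fin m) (Fin m) F) 0 0
      ((X⁻¹ : Matrix.GeneralLinearGroup (Fin m) F) : Matrix (Fin m) (Fin m) F)ᵀ := rfl

theorem emb_injective : Function.Injective (emb F m) := by
  intro X Y h
  have h1 := congrArg Subtype.val h
  rw [emb_coe, emb_coe, fromBlocks_inj] at h1
  exact Units.ext h1.1

theorem mulVec_eq_zero_iff_of_mul_eq_one {A B : Matrix (Fin m) (Fin m) F} (h : B * A = 1)
    (v : Fin m → F) : A *ᵥ v = 0 ↔ v = 0 := by
  constructor
  · intro hv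
    have := congrArg (fun w => B *ᵥ w) hv
    simpa [mulVec_mulVec, h] using this
  · rintro rfl
    simp

theorem range_emb : (emb F m).range =
    Cfsg.stabilizing (Cfsg.spToMat m F) {v : Fin m ⊕ Fin m → F | ∀ i : Fin m, v (Sum.inr i) = 0} ⊓
    Cfsg.stabilizing (Cfsg.spToMat m F) {v : Fin m ⊕ Fin m → F | ∀ i : Fin m, v (Sum.inl i) = 0} := by
  apply le_antisymm
  · rintro _ ⟨X, rfl⟩
    have h1 : ((X⁻¹ : Matrix.GeneralLinearGroup (Fin m) F) : Matrix (Fin m) (Fin m) F) *
        (X : Matrix (Fin m) (Fin m) F) = 1 := by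
      rw [← Units.val_mul, inv_mul_cancel]; rfl
    have h2 : (X : Matrix (Fin m) (Fin m) F)ᵀ *
        ((X⁻¹ : Matrix.GeneralLinearGroup (Fin m) F) : Matrix (Fin m) (Fin m) F)ᵀ = 1 := by
      rw [← transpose_mul, h1, transpose_one]
    constructor
    · intro v
      change (∀ i, v (Sum.inr i) = 0) ↔ ∀ i, ((emb F m X : Matrix.symplecticGroup (Fin m) F) :
        Matrix (Fin m ⊕ Fin m) (Fin m ⊕ Fin m) F).mulVec v (Sum.inr i) = 0
      rw [emb_coe]
      have e1 : (∀ i, v (Sum.inr i) = 0) ↔ v ∘ Sum.inr = 0 := by rw [funext_iff]; rfl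
      rw [e1, ← mulVec_eq_zero_iff_of_mul_eq_one h2, funext_iff, fromBlocks_mulVec]
      simp
    · intro v
      change (∀ i, v (Sum.inl i) = 0) ↔ ∀ i, ((emb F m X : Matrix.symplecticGroup (Fin m) F) :
        Matrix (Fin m ⊕ Fin m) (Fin m ⊕ Fin m) F).mulVec v (Sum.inl i) = 0
      rw [emb_coe]
      have e1 : (∀ i, v (Sum.inl i) = 0) ↔ v ∘ Sum.inl = 0 := by rw [funext_iff]; rfl
      rw [e1, ← mulVec_eq_zero_iff_of_mul_eq_one h1, funext_iff, fromBlocks_mulVec]
      simp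
  · rintro A ⟨hA1, hA2⟩
    set M : Matrix (Fin m ⊕ Fin m) (Fin m ⊕ Fin m) F := A.1 with hM
    have hC : M.toBlocks₂₁ = 0 := by
      ext i j
      have := (hA1 (Pi.single (Sum.inl j) 1)).mp (by intro i; simp) i
      simpa [toBlocks₂₁, hM] using this
    have hB : M.toBlocks₁₂ = 0 := by
      ext i j
      have := (hA2 (Pi.single (Sum.inr j) 1)).mp (by intro i; simp) i
      simpa [toBlocks₁₂, hM] using this
    have hMb : M = fromBlocks M.toBlocks₁₁ 0 0 M.toBlocks₂₂ := by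
      conv_lhs => rw [← fromBlocks_toBlocks M, hC, hB]
    have hsp := SymplecticGroup.mem_iff.mp A.2
    rw [← hM, hMb, Matrix.J, fromBlocks_multiply, fromBlocks_transpose, fromBlocks_multiply,
      fromBlocks_inj] at hsp
    have hXY : M.toBlocks₁₁ * M.toBlocks₂₂ᵀ = 1 := by
      have := hsp.2.1
      simp at this
      exact this
    have hYX : M.toBlocks₂₂ᵀ * M.toBlocks₁₁ = 1 := mul_eq_one_comm.mp hXY
    refine ⟨⟨M.toBlocks₁₁, M.toBlocks₂₂ᵀ, hXY, hYX⟩, ?_⟩
    apply Subtype.ext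
    rw [emb_coe, ← hM]
    conv_rhs => rw [hMb]
    simp

/-- The elements of Sp_2m(F) stabilising both W = ⟨e_1..e_m⟩ and U = ⟨f_1..f_m⟩ form a subgroup isomorphic to GL_m(F) (block-diagonal matrices diag(X, X^(−ᵀ)) up to the sign convention of J), for m ≥ 1 or m = 0 alike. -/
theorem result {F : Type*} [Field F] (m : ℕ) : Nonempty (↥(Cfsg.stabilizing (Cfsg.spToMat m F) {v : Fin m ⊕ Fin m → F | ∀ i : Fin m, v (Sum.inr i) = 0} ⊓ Cfsg.stabilizing (Cfsg.spToMat m F) {v : Fin m ⊕ Fin m → F | ∀ i : Fin m, v (Sum.inl i) = 0}) ≃* Matrix.GeneralLinearGroup (Fin m) F) := by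
  exact ⟨((MonoidHom.ofInjective emb_injective).trans (MulEquiv.subgroupCongr range_emb)).symm⟩

end Cfsg.Agent.S0778
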