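import Cfsg.Statements.S0783
import Mathlib
import Cfsg.Agent.Lib.Helper5.GUCenter

set_option autoImplicit false
open Cfsg

open Cfsg.Agent.Lib.Helper5 Cfsg.Agent.Lib.Helper13 Matrix

namespace Cfsg.Agent.S0783

/-- PGU_n(q)/PSU_n(q) is cyclic of order (n, q+1): for n ≥ 2 and |F| = q² there is a surjective homomorphism from GU_n(q) onto the cyclic group of order gcd(n, q + 1) whose kernel is generated by the determinant-one elements together with the centre. -/
theorem result {F : Type*} [Field F] [Fintype F] {q : ℕ} (hF : Fintype.card F = q ^ 2) (n : ℕ) (hn : 2 ≤ n) : ∃ φ : ↥(Cfsg.GU n F q) →* Multiplicative (ZMod (Nat.gcd n (q + 1))), Function.Surjective φ ∧ φ.ker = (Matrix.GeneralLinearGroup.det : Matrix.GeneralLinearGroup (Fin n) F →* Fˣ).ker.subgroupOf (Cfsg.GU n F q) ⊔ Subgroup.center ↥(Cfsg.GU n F q) := by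
  classical
  have hq := two_le_of_card_sq hF
  set d := Nat.gcd n (q + 1) with hd
  have hd0 : 0 < d := Nat.gcd_pos_of_pos_left _ (by omega)
  have hdn : d ∣ n := Nat.gcd_dvd_left _ _
  have hdq : d ∣ q + 1 := Nat.gcd_dvd_right _ _
  have hmemC : ∀ x : Fˣ, x ∈ (detGU n F q).range ↔ x ^ (q + 1) = 1 := by
    intro x
    have := range_detGU (n := n) hF (by omega)
    exact Set.ext_iff.1 this x
  have hcardC : Nat.card (detGU n F q).range = q + 1 := by
    rw [← card_norm_one_units hF]
    exact Nat.card_congr (Equiv.setCongr (range_detGU hF (by omega)))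
  have hidx : ((powMonoidHom d : (detGU n F q).range →* (detGU n F q).range).range).index = d := by
    rw [IsCyclic.index_powMonoidHom_range, hcardC]
    exact Nat.gcd_eq_right hdq
  have : NeZero d := ⟨hd0.ne'⟩
  let e : (detGU n F q).range ⧸ (powMonoidHom d : (detGU n F q).range →* (detGU n F q).range).range
      ≃* Multiplicative (ZMod d) :=
    mulEquivOfCyclicCardEq (by
      rw [← Subgroup.index_eq_card, hidx, Nat.card_eq_fintype_card, Fintype.card_multiplicative,
        ZMod.card])
  refine ⟨e.toMonoidHom.comp ((QuotientGroup.mk' _).comp (detGU n F q).rangeRestrict), ?_, ?_⟩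
  · exact e.surjective.comp ((QuotientGroup.mk'_surjective _).comp
      (detGU n F q).rangeRestrict_surjective)
  · have hker : ∀ g : ↥(Cfsg.GU n F q),
        g ∈ (e.toMonoidHom.comp ((QuotientGroup.mk' _).comp (detGU n F q).rangeRestrict)).ker ↔
          ∃ y : Fˣ, y ^ (q + 1) = 1 ∧ y ^ d = detGU n F q g := by
      intro g
      rw [MonoidHom.mem_ker]
      change e (QuotientGroup.mk ((detGU n F q).rangeRestrict g)) = 1 ↔ _
      rw [EmbeddingLike.map_eq_one_iff, QuotientGroup.eq_one_iff]
      constructor
      · rintro ⟨y, hy⟩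
        refine ⟨y.1, (hmemC _).1 y.2, ?_⟩
        exact congrArg Subtype.val hy
      · rintro ⟨y, hy1, hy⟩
        exact ⟨⟨y, (hmemC _).2 hy1⟩, Subtype.ext hy⟩
    apply le_antisymm
    · intro g hg
      obtain ⟨y, hy1, hy⟩ := (hker g).1 hg
      have hbez := Nat.gcd_eq_gcd_ab n (q + 1)
      set l : Fˣ := y ^ (Nat.gcdA n (q + 1)) with hl
      have hl1 : l ^ (q + 1) = 1 := by
        rw [hl, ← zpow_natCast, ← _root_.zpow_mul, mul_comm, _root_.zpow_mul, zpow_natCast, hy1, _root_.one_zpow]
      have hln : l ^ n = y ^ d := by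
        have h1 : (y ^ d : Fˣ) = y ^ ((d : ℕ) : ℤ) := (zpow_natCast y d).symm
        rw [h1, hd, hbez, _root_.zpow_add, _root_.zpow_mul, _root_.zpow_mul, zpow_natCast, zpow_natCast, hy1, _root_.one_zpow,
          mul_one, hl, ← zpow_natCast, ← _root_.zpow_mul, ← zpow_natCast, ← _root_.zpow_mul, mul_comm]
      have hg' : g = (g * (scalarGU n l hl1)⁻¹) * scalarGU n l hl1 := by group
      rw [hg']
      apply Subgroup.mul_mem_sup
      · rw [Subgroup.mem_subgroupOf, MonoidHom.mem_ker]
        change detGU n F q (g * (scalarGU n l hl1)⁻¹) = 1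
        rw [map_mul, map_inv, detGU_scalarGU, hln, hy, mul_inv_cancel]
      · exact scalarGU_mem_center l hl1
    · apply sup_le
      · intro g hg
        rw [Subgroup.mem_subgroupOf, MonoidHom.mem_ker] at hg
        rw [hker]
        exact ⟨1, one_pow _, by rw [one_pow]; exact hg.symm⟩
      · intro z hz
        rw [hker]
        obtain ⟨a, ha⟩ := GU_center_scalar hF z hz
        have hsm : ∀ v : Fin n → F, z.1.1 *ᵥ v = a • v := by
          intro v
          rw [ha]
          ext i
          simp [Matrix.scalar_apply, Matrix.mulVec_diagonal]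
        have hN : a * a ^ q = 1 := by
          have := z.2 (Pi.single ⟨0, by omega⟩ 1) (Pi.single ⟨0, by omega⟩ 1)
          change Cfsg.hermForm n F q (z.1.1 *ᵥ _) (z.1.1 *ᵥ _) = _ at this
          rw [hsm, hermForm_smul_left, hermForm_smul_right, hermForm_single_left] at this
          simpa using this
        have ha0 : a ≠ 0 := by
          rintro rfl
          simp at hN
        have hu1 : (Units.mk0 a ha0) ^ (q + 1) = 1 := by
          apply Units.ext
          simp only [Units.val_pow_eq_pow_val, Units.val_mk0, Units.val_one]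
          rw [pow_succ, mul_comm]; exact hN
        refine ⟨(Units.mk0 a ha0) ^ (n / d), ?_, ?_⟩
        · rw [← pow_mul, mul_comm, pow_mul, hu1, one_pow]
        · rw [← pow_mul, Nat.div_mul_cancel hdn]
          apply Units.ext
          change _ = z.1.1.det
          rw [ha, Matrix.scalar_apply, Matrix.det_diagonal]
          simp

end Cfsg.Agent.S0783
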