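import Mathlib
import Cfsg.Statements.S0792
import Cfsg.Agent.Lib.Helper14.OrthDet
import Cfsg.Agent.Lib.Helper14.DiscSplit
import Cfsg.Agent.S0786

set_option autoImplicit false
open Cfsg

namespace Cfsg.Agent.S0792

open Cfsg.Agent.Lib.Helper14

/-- For q odd and Q with non-degenerate polar form on F^n, the determinant-one isometries form the subgroup generated by all products r_u r_v of two reflections (Q(u), Q(v) ≠ 0). -/
theorem result {F : Type*} [Field F] [Fintype F] (h2 : (2 : F) ≠ 0) {n : ℕ} (Q : QuadraticForm F (Fin n → F)) (hQ : (QuadraticMap.polarBilin Q).Nondegenerate) : Cfsg.specialIsometryGroup F ⇑Q = Subgroup.closure {g : ↥(Cfsg.isometryGroup F ⇑Q) | ∃ u v : Fin n → F, Q u ≠ 0 ∧ Q v ≠ 0 ∧ ((g : Matrix.GeneralLinearGroup (Fin n) F) : Matrix (Fin n) (Fin n) F) = Cfsg.reflectionMatrix ⇑Q u * Cfsg.reflectionMatrix ⇑Q v} := by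
  have hcard : Fintype.card F ≠ 2 ∨ n ≠ 4 := by
    left
    intro h
    have := card_odd_of_two_ne_zero h2
    omega
  have hgen := Cfsg.Agent.S0786.result Q hQ hcard
  set R2 : Subgroup ↥(Cfsg.isometryGroup F ⇑Q) := Subgroup.closure {g : ↥(Cfsg.isometryGroup F ⇑Q) | ∃ u v : Fin n → F, Q u ≠ 0 ∧ Q v ≠ 0 ∧ ((g : Matrix.GeneralLinearGroup (Fin n) F) : Matrix (Fin n) (Fin n) F) = Cfsg.reflectionMatrix ⇑Q u * Cfsg.reflectionMatrix ⇑Q v} with hR2
  have hpair : ∀ (u v : Fin n → F) (hu : Q u ≠ 0) (hv : Q v ≠ 0),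
      reflIso Q u hu * reflIso Q v hv ∈ R2 := by
    intro u v hu hv
    exact Subgroup.subset_closure ⟨u, v, hu, hv, rfl⟩
  apply le_antisymm
  · intro g hg
    rw [mem_specialIsometryGroup_iff] at hg
    have hP : g ∈ R2 ∨ ∃ (w : Fin n → F) (hw : Q w ≠ 0), g * reflIso Q w hw ∈ R2 := by
      have hgtop : g ∈ Subgroup.closure {g : ↥(Cfsg.isometryGroup F ⇑Q) | ∃ v : Fin n → F, Q v ≠ 0 ∧ ((g : Matrix.GeneralLinearGroup (Fin n) F) : Matrix (Fin n) (Fin n) F) = Cfsg.reflectionMatrix ⇑Q v} := by
        rw [hgen]; exact Subgroup.mem_top g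
      have step : ∀ (x : ↥(Cfsg.isometryGroup F ⇑Q)) (v : Fin n → F) (hv : Q v ≠ 0),
          (x ∈ R2 ∨ ∃ (w : Fin n → F) (hw : Q w ≠ 0), x * reflIso Q w hw ∈ R2) →
          (x * reflIso Q v hv ∈ R2 ∨ ∃ (w : Fin n → F) (hw : Q w ≠ 0),
            x * reflIso Q v hv * reflIso Q w hw ∈ R2) := by
        intro x v hv hx
        rcases hx with hx | ⟨w, hw, hx⟩
        · right
          refine ⟨v, hv, ?_⟩
          rw [mul_assoc, reflIso_mul_self, mul_one]
          exact hx
        · left
          have : x * reflIso Q v hv = (x * reflIso Q w hw) * (reflIso Q w hw * reflIso Q v hv) := by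
            rw [mul_assoc, ← mul_assoc (reflIso Q w hw), reflIso_mul_self, one_mul]
          rw [this]
          exact R2.mul_mem hx (hpair w v hw hv)
      clear hg
      induction hgtop using Subgroup.closure_induction_right with
      | one => exact Or.inl R2.one_mem
      | mul_right x _ y hy ih =>
        obtain ⟨v, hv, hyv⟩ := hy
        have : y = reflIso Q v hv := isoMat_injective hyv
        rw [this]
        exact step x v hv ih
      | mul_inv_cancel x _ y hy ih =>
        obtain ⟨v, hv, hyv⟩ := hy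
        have : y = reflIso Q v hv := isoMat_injective hyv
        rw [this, reflIso_inv]
        exact step x v hv ih
    rcases hP with hP | ⟨w, hw, hP⟩
    · exact hP
    · exfalso
      have hle : R2 ≤ Cfsg.specialIsometryGroup F ⇑Q := by
        rw [hR2, Subgroup.closure_le]
        rintro x ⟨u, v, hu, hv, hx⟩
        show x ∈ Cfsg.specialIsometryGroup F ⇑Q
        rw [mem_specialIsometryGroup_iff]
        show (((x : Matrix.GeneralLinearGroup (Fin n) F) : Matrix (Fin n) (Fin n) F)).det = 1
        rw [hx, Matrix.det_mul, det_reflectionMatrix Q u hu, det_reflectionMatrix Q v hv]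
        ring
      have := hle hP
      rw [mem_specialIsometryGroup_iff, isoMat_mul, Matrix.det_mul, hg, isoMat_reflIso,
        det_reflectionMatrix Q w hw] at this
      apply h2
      linear_combination -this
  · rw [hR2, Subgroup.closure_le]
    rintro x ⟨u, v, hu, hv, hx⟩
    show x ∈ Cfsg.specialIsometryGroup F ⇑Q
    rw [mem_specialIsometryGroup_iff]
    show (((x : Matrix.GeneralLinearGroup (Fin n) F) : Matrix (Fin n) (Fin n) F)).det = 1
    rw [hx, Matrix.det_mul, det_reflectionMatrix Q u hu, det_reflectionMatrix Q v hv]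
    ring

end Cfsg.Agent.S0792
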