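import Mathlib
import Cfsg.Statements.S0793
import Cfsg.Agent.Lib.Helper14.Quad

set_option autoImplicit false
open Cfsg

namespace Cfsg.Agent.S0793

open Cfsg.Agent.Lib.Helper14 Matrix

/-- Root elements: if Q(u) = Q(v) = 0 and f(u, v) = 0 (f the polar form), then for every c the Siegel matrix T_(u,v)(c) preserves Q, fixes u and v, and T(c) T(d) = T(c + d). -/
theorem result {F : Type*} [Field F] {n : ℕ} (Q : QuadraticForm F (Fin n → F)) (u v : Fin n → F) (hu : Q u = 0) (hv : Q v = 0) (huv : QuadraticMap.polar ⇑Q u v = 0) : (∀ c x, Q ((Cfsg.siegelMatrix ⇑Q u v c).mulVec x) = Q x) ∧ (∀ c, (Cfsg.siegelMatrix ⇑Q u v c).mulVec u = u ∧ (Cfsg.siegelMatrix ⇑Q u v c).mulVec v = v) ∧ ∀ c d, Cfsg.siegelMatrix ⇑Q u v c * Cfsg.siegelMatrix ⇑Q u v d = Cfsg.siegelMatrix ⇑Q u v (c + d) := by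
  have hvu : QuadraticMap.polar ⇑Q v u = 0 := by rw [QuadraticMap.polar_comm]; exact huv
  have huu : QuadraticMap.polar ⇑Q u u = 0 := by
    rw [QuadraticMap.polar_self, hu]; simp
  have hvv : QuadraticMap.polar ⇑Q v v = 0 := by
    rw [QuadraticMap.polar_self, hv]; simp
  refine ⟨?_, ?_, ?_⟩
  · intro c x
    rw [siegelMatrix_mulVec]
    set α := QuadraticMap.polar ⇑Q u x with hα
    set β := QuadraticMap.polar ⇑Q v x with hβ
    have h1 : Q (x + c • (α • v - β • u)) = Q x + Q (c • (α • v - β • u))
        + QuadraticMap.polar ⇑Q x (c • (α • v - β • u)) := by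
      simp only [QuadraticMap.polar]
      ring
    have h2 : Q (α • v - β • u) = 0 := by
      have : Q (α • v - β • u) = Q (α • v) + Q (-(β • u))
          + QuadraticMap.polar ⇑Q (α • v) (-(β • u)) := by
        simp only [QuadraticMap.polar, sub_eq_add_neg]
        ring
      rw [this, QuadraticMap.map_neg, QuadraticMap.map_smul, QuadraticMap.map_smul, hu, hv,
        QuadraticMap.polar_neg_right, QuadraticMap.polar_smul_left, QuadraticMap.polar_smul_right,
        hvu]
      simp
    have h3 : QuadraticMap.polar ⇑Q x (c • (α • v - β • u)) = 0 := by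
      rw [QuadraticMap.polar_smul_right, QuadraticMap.polar_sub_right,
        QuadraticMap.polar_smul_right, QuadraticMap.polar_smul_right,
        QuadraticMap.polar_comm _ x v, QuadraticMap.polar_comm _ x u, ← hα, ← hβ]
      simp [mul_comm]
    rw [h1, h3, QuadraticMap.map_smul, h2]
    simp
  · intro c
    constructor
    · rw [siegelMatrix_mulVec, huu, hvu]; simp
    · rw [siegelMatrix_mulVec, huv, hvv]; simp
  · intro c d
    apply Matrix.toLin'.injective
    apply LinearMap.ext
    intro x
    simp only [Matrix.toLin'_apply, ← Matrix.mulVec_mulVec, siegelMatrix_mulVec]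
    simp only [QuadraticMap.polar_add_right, QuadraticMap.polar_smul_right,
      QuadraticMap.polar_sub_right, huu, hvv, huv, hvu]
    simp only [smul_eq_mul, mul_zero, sub_zero, add_zero]
    rw [add_smul]
    abel

end Cfsg.Agent.S0793
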