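import Mathlib
import Cfsg.Statements.S0794
import Cfsg.Agent.Lib.Helper14.Orth
import Cfsg.Agent.S0793

set_option autoImplicit false
open Cfsg
open scoped commutatorElement

namespace Cfsg.Agent.S0794

open Cfsg.Agent.Lib.Helper14 Matrix

theorem mem_commSet_of_mul_eq {G : Type*} [Group G] (t g h : G) (H : t * h * g = g * h) :
    t ∈ commutatorSet G := by
  refine ⟨g, h, ?_⟩
  rw [commutatorElement_def, ← H]
  group

/-- The matrix which is `-1` on the hyperbolic plane spanned by `u, u'`. -/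
def hypNeg {F : Type*} [Field F] {n : ℕ} (Q : QuadraticForm F (Fin n → F)) (u u' : Fin n → F) :
    Matrix (Fin n) (Fin n) F :=
  1 - (2 : F) • (vecMulVec u (Cfsg.polarVec (⇑Q) u') + vecMulVec u' (Cfsg.polarVec (⇑Q) u))

theorem hypNeg_mulVec {F : Type*} [Field F] {n : ℕ} (Q : QuadraticForm F (Fin n → F))
    (u u' x : Fin n → F) :
    hypNeg Q u u' *ᵥ x = x - (2 : F) • (QuadraticMap.polar (⇑Q) u' x • u
      + QuadraticMap.polar (⇑Q) u x • u') := by
  simp only [hypNeg, sub_mulVec, one_mulVec, smul_mulVec, add_mulVec,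
    vecMulVec_mulVec, polarVec_dotProduct]
  ext i
  simp [mul_comm]

/-- For q odd, n ≥ 5 and Q with non-degenerate polar form: an isometry whose matrix is a Siegel transformation T_(u,v)(c) (u, v singular and orthogonal) is a commutator in the isometry group, so lies in Ω. -/
theorem result {F : Type*} [Field F] [Fintype F] (h2 : (2 : F) ≠ 0) {n : ℕ} (hn : 5 ≤ n) (Q : QuadraticForm F (Fin n → F)) (hQ : (QuadraticMap.polarBilin Q).Nondegenerate) (u v : Fin n → F) (hu : Q u = 0) (hv : Q v = 0) (huv : QuadraticMap.polar ⇑Q u v = 0) (c : F) (g : ↥(Cfsg.isometryGroup F ⇑Q)) (hg : ((g : Matrix.GeneralLinearGroup (Fin n) F) : Matrix (Fin n) (Fin n) F) = Cfsg.siegelMatrix ⇑Q u v c) : g ∈ commutatorSet ↥(Cfsg.isometryGroup F ⇑Q) ∧ g ∈ Cfsg.Omega F ⇑Q := by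
  suffices hmain : g ∈ commutatorSet ↥(Cfsg.isometryGroup F ⇑Q) by
    refine ⟨hmain, ?_⟩
    show g ∈ commutator _
    rw [commutator_eq_closure]
    exact Subgroup.subset_closure hmain
  have hvu : QuadraticMap.polar ⇑Q v u = 0 := by rw [QuadraticMap.polar_comm]; exact huv
  have huu : QuadraticMap.polar ⇑Q u u = 0 := by
    rw [QuadraticMap.polar_self, hu]; simp
  have hvv : QuadraticMap.polar ⇑Q v v = 0 := by
    rw [QuadraticMap.polar_self, hv]; simp
  by_cases hdep : u ∈ Submodule.span F {v}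
  · -- the Siegel matrix is the identity
    rw [Submodule.mem_span_singleton] at hdep
    obtain ⟨a, rfl⟩ := hdep
    have : g = 1 := by
      apply isoMat_ext
      intro x
      show ((g : Matrix.GeneralLinearGroup (Fin n) F) : Matrix (Fin n) (Fin n) F) *ᵥ x = _
      rw [hg, siegelMatrix_mulVec, isoMat_one, one_mulVec, QuadraticMap.polar_smul_left]
      simp only [smul_eq_mul]
      module
    rw [this]
    exact one_mem_commutatorSet _
  · obtain ⟨φ, hφu, hφ⟩ := Submodule.exists_dual_map_eq_bot_of_notMem hdep inferInstance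
    have hφv : φ v = 0 := by
      have : φ v ∈ (Submodule.span F {v}).map φ :=
        Submodule.mem_map_of_mem (Submodule.mem_span_singleton_self v)
      rw [hφ] at this
      simpa using this
    obtain ⟨y, hyu, hyv⟩ : ∃ y, QuadraticMap.polar ⇑Q y u = 1 ∧ QuadraticMap.polar ⇑Q y v = 0 := by
      have hy₀x : ∀ x, QuadraticMap.polar ⇑Q
          ((LinearMap.BilinForm.toDual (QuadraticMap.polarBilin Q) hQ).symm φ) x = φ x := by
        intro x
        have := LinearMap.BilinForm.apply_toDual_symm_apply (B := QuadraticMap.polarBilin Q)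
          (hB := hQ) φ x
        exact this
      refine ⟨(φ u)⁻¹ • (LinearMap.BilinForm.toDual (QuadraticMap.polarBilin Q) hQ).symm φ, ?_, ?_⟩
      · rw [QuadraticMap.polar_smul_left, hy₀x, smul_eq_mul, inv_mul_cancel₀ hφu]
      · rw [QuadraticMap.polar_smul_left, hy₀x, hφv, smul_zero]
    obtain ⟨u', hQu', hu'u, hu'v⟩ : ∃ u', Q u' = 0 ∧ QuadraticMap.polar ⇑Q u' u = 1
        ∧ QuadraticMap.polar ⇑Q u' v = 0 := by
      refine ⟨y - Q y • u, ?_, ?_, ?_⟩
      · rw [quad_sub, quad_smul, hu, QuadraticMap.polar_smul_right, hyu]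
        simp
      · rw [QuadraticMap.polar_sub_left, QuadraticMap.polar_smul_left, huu, hyu]
        simp
      · rw [QuadraticMap.polar_sub_left, QuadraticMap.polar_smul_left, huv, hyv]
        simp
    have huu' : QuadraticMap.polar ⇑Q u u' = 1 := by rw [QuadraticMap.polar_comm]; exact hu'u
    have hvu' : QuadraticMap.polar ⇑Q v u' = 0 := by rw [QuadraticMap.polar_comm]; exact hu'v
    have hu'u' : QuadraticMap.polar ⇑Q u' u' = 0 := by
      rw [QuadraticMap.polar_self, hQu']; simp
    -- the element h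
    have hH2 : hypNeg Q u u' * hypNeg Q u u' = 1 := by
      apply matrix_ext_mulVec
      intro x
      rw [← mulVec_mulVec, hypNeg_mulVec Q u u' (hypNeg Q u u' *ᵥ x), hypNeg_mulVec, one_mulVec]
      simp only [QuadraticMap.polar_sub_right, QuadraticMap.polar_smul_right,
        QuadraticMap.polar_add_right, huu, huu', hu'u, hu'u', smul_eq_mul]
      module
    have hHQ : ∀ x, Q (hypNeg Q u u' *ᵥ x) = Q x := by
      intro x
      rw [hypNeg_mulVec, quad_sub, quad_smul, quad_add, quad_smul, quad_smul, hu, hQu']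
      simp only [QuadraticMap.polar_smul_right, QuadraticMap.polar_smul_left,
        QuadraticMap.polar_add_right, huu', smul_eq_mul,
        QuadraticMap.polar_comm _ x u, QuadraticMap.polar_comm _ x u']
      ring
    obtain ⟨hS1, -, hS3⟩ := Cfsg.Agent.S0793.result Q u v hu hv huv
    have hT0 : Cfsg.siegelMatrix ⇑Q u v 0 = 1 := by simp [Cfsg.siegelMatrix]
    let h : ↥(Cfsg.isometryGroup F ⇑Q) := mkIso (⇑Q) (hypNeg Q u u') (hypNeg Q u u') hH2 hHQ
    let t : ↥(Cfsg.isometryGroup F ⇑Q) := mkIso (⇑Q) (Cfsg.siegelMatrix ⇑Q u v (-c / 2))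
      (Cfsg.siegelMatrix ⇑Q u v (-(-c / 2))) (by rw [hS3, add_neg_cancel, hT0]) (hS1 _)
    apply mem_commSet_of_mul_eq g h t
    apply isoMat_ext
    intro x
    rw [isoMat_mul, isoMat_mul, isoMat_mul]
    show (((g : Matrix.GeneralLinearGroup (Fin n) F) : Matrix (Fin n) (Fin n) F)
      * Cfsg.siegelMatrix ⇑Q u v (-c / 2) * hypNeg Q u u') *ᵥ x
      = (hypNeg Q u u' * Cfsg.siegelMatrix ⇑Q u v (-c / 2)) *ᵥ x
    rw [hg, hS3, ← mulVec_mulVec, ← mulVec_mulVec, siegelMatrix_mulVec, siegelMatrix_mulVec,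
      hypNeg_mulVec, hypNeg_mulVec]
    simp only [QuadraticMap.polar_sub_right, QuadraticMap.polar_smul_right,
      QuadraticMap.polar_add_right, huu, huu', hu'u, huv, hvu, hu'v, hvu', smul_eq_mul]
    have h2' : c + -c / 2 = c / 2 := by field_simp; ring
    rw [h2']
    have hc : c = 2 * (c / 2) := by field_simp
    set d := c / 2 with hd
    have : -c / 2 = -d := by rw [hd]; ring
    rw [this]
    module

end Cfsg.Agent.S0794
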