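import Cfsg.Statements.S0795
import Mathlib
import Cfsg.Agent.Lib.Helper5.OmegaGen
import Cfsg.Agent.Lib.Helper44.CenterOmega

set_option autoImplicit false
open Cfsg

open Cfsg.Agent.Lib.Helper5 Cfsg.Agent.Lib.Helper44 Matrix

namespace Cfsg.Agent.S0795

/-- Generation of Ω by root elements: for q odd, n ≥ 5 and Q with non-degenerate polar form on F^n, the commutator subgroup of the isometry group equals the subgroup generated by the isometries whose matrices are Siegel transformations T_(u,v)(c) with u, v singular and orthogonal. -/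
theorem result {F : Type*} [Field F] [Fintype F] (h2 : (2 : F) ≠ 0) {n : ℕ} (hn : 5 ≤ n) (Q : QuadraticForm F (Fin n → F)) (hQ : (QuadraticMap.polarBilin Q).Nondegenerate) : Cfsg.Omega F ⇑Q = Subgroup.closure {g : ↥(Cfsg.isometryGroup F ⇑Q) | ∃ (u v : Fin n → F) (c : F), Q u = 0 ∧ Q v = 0 ∧ QuadraticMap.polar ⇑Q u v = 0 ∧ ((g : Matrix.GeneralLinearGroup (Fin n) F) : Matrix (Fin n) (Fin n) F) = Cfsg.siegelMatrix ⇑Q u v c} := by
  have hn' : 5 ≤ Module.finrank F (Fin n → F) := by simpa using hn
  have hsieg : ∀ (u v : Fin n → F) (c : F) (x : Fin n → F),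
      Cfsg.siegelMatrix ⇑Q u v c *ᵥ x
        = x + (c * QuadraticMap.polar Q u x) • v - (c * QuadraticMap.polar Q v x) • u := by
    intro u v c x
    rw [Cfsg.siegelMatrix, Matrix.add_mulVec, Matrix.one_mulVec, Matrix.smul_mulVec,
      Matrix.sub_mulVec, Matrix.vecMulVec_mulVec, Matrix.vecMulVec_mulVec, polarVec_dotProduct,
      polarVec_dotProduct]
    ext i
    simp only [Pi.add_apply, Pi.sub_apply, Pi.smul_apply, smul_eq_mul,
      MulOpposite.smul_eq_mul_unop, MulOpposite.unop_op]
    ring
  apply le_antisymm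
  · intro g hg
    rw [mem_Omega_iff, commutator_eq_EO hQ hn'] at hg
    have key : ∀ y ∈ EO Q, (isoEquiv Q).symm y ∈ Subgroup.closure
        {g : ↥(Cfsg.isometryGroup F ⇑Q) | ∃ (u v : Fin n → F) (c : F), Q u = 0 ∧ Q v = 0 ∧
          QuadraticMap.polar ⇑Q u v = 0 ∧
          ((g : Matrix.GeneralLinearGroup (Fin n) F) : Matrix (Fin n) (Fin n) F)
            = Cfsg.siegelMatrix ⇑Q u v c} := by
      intro y hy
      induction hy using Subgroup.closure_induction with
      | mem y hy =>
        obtain ⟨u, v, hu, huv, rfl⟩ := hy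
        have hs : ∀ s (hs : Q s = 0) (hus : QuadraticMap.polar Q u s = 0),
            (isoEquiv Q).symm (eichlerO Q u s hu hus) ∈ Subgroup.closure
            {g : ↥(Cfsg.isometryGroup F ⇑Q) | ∃ (u v : Fin n → F) (c : F), Q u = 0 ∧ Q v = 0 ∧
              QuadraticMap.polar ⇑Q u v = 0 ∧
              ((g : Matrix.GeneralLinearGroup (Fin n) F) : Matrix (Fin n) (Fin n) F)
                = Cfsg.siegelMatrix ⇑Q u v c} := by
          intro s hs hus
          apply Subgroup.subset_closure
          refine ⟨u, s, -1, hu, hs, hus, ?_⟩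
          apply matrix_ext_mulVec
          intro x
          have := eichlerElt_mulVec Q u s hu hus x
          rw [eichlerElt] at this
          rw [this, hsieg, eichler_apply, hs]
          module
        obtain ⟨s₁, s₂, s₃, rfl, h1, h2, h3⟩ := exists_three_singular hQ hn' u huv
        have e := eichlerO_add Q (v := s₁ + s₂) (v' := s₃) hu
          (by rw [QuadraticMap.polar_add_right, h1.2, h2.2, add_zero]) h3.2
        have e' := eichlerO_add Q (v := s₁) (v' := s₂) hu h1.2 h2.2
        rw [e, e', map_mul, map_mul]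
        exact mul_mem (mul_mem (hs s₁ h1.1 h1.2) (hs s₂ h2.1 h2.2)) (hs s₃ h3.1 h3.2)
      | one => rw [map_one]; exact one_mem _
      | mul a b _ _ iha ihb => rw [map_mul]; exact mul_mem iha ihb
      | inv a _ iha => rw [map_inv]; exact inv_mem iha
    have := key _ hg
    rwa [MulEquiv.symm_apply_apply] at this
  · rw [Subgroup.closure_le]
    rintro g ⟨u, v, c, hu, hv, huv, hg⟩
    have huv' : QuadraticMap.polar Q u ((-c) • v) = 0 := by
      rw [QuadraticMap.polar_smul_right, huv, smul_zero]
    have : g = eichlerElt Q u ((-c) • v) hu huv' := by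
      apply Subtype.ext
      apply Units.ext
      apply matrix_ext_mulVec
      intro x
      rw [eichlerElt_mulVec, hg, hsieg, eichler_apply, QuadraticMap.map_smul, hv,
        QuadraticMap.polar_smul_left]
      simp only [smul_eq_mul, mul_zero, zero_mul, zero_smul, sub_zero]
      module
    rw [this]
    exact eichlerElt_mem_Omega Q hQ (by simpa using hn) u _ hu huv'

end Cfsg.Agent.S0795
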