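import Mathlib
import Cfsg.Statements.S0797
import Cfsg.Agent.Lib.Helper14.Orth
import Cfsg.Agent.Lib.Helper14.DiscSplit
import Cfsg.Agent.Lib.Helper14.IndexTwo
import Cfsg.Agent.S0786
import Cfsg.Agent.S0788

set_option autoImplicit false
open Cfsg

namespace Cfsg.Agent.S0797

open Cfsg.Agent.Lib.Helper14

/-- O^ε_2m(q) ≅ Ω.2² for q odd: if F is finite of odd characteristic, n ≥ 2 is even and Q has non-degenerate polar form on F^n, the isometry group of Q has exactly three subgroups of index 2. -/
theorem result {F : Type*} [Field F] [Fintype F] (h2 : (2 : F) ≠ 0) {n : ℕ} (hn : 2 ≤ n) (heven : Even n) (Q : QuadraticForm F (Fin n → F)) (hQ : (QuadraticMap.polarBilin Q).Nondegenerate) : Nat.card {H : Subgroup ↥(Cfsg.isometryGroup F ⇑Q) // H.index = 2} = 3 := by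
  have hcard : Fintype.card F ≠ 2 ∨ n ≠ 4 := by
    left
    intro h
    have := card_odd_of_two_ne_zero h2
    omega
  have hgen := Cfsg.Agent.S0786.result Q hQ hcard
  have hidx : (commutator ↥(Cfsg.isometryGroup F ⇑Q)).index = 4 := Cfsg.Agent.S0788.result h2 hn Q hQ
  refine card_index_two_of_commutator_index_four _ ?_ hgen hidx
  rintro s ⟨v, hv, hs⟩
  have : s = reflIso Q v hv := isoMat_injective hs
  rw [this]
  exact reflIso_mul_self Q v hv

end Cfsg.Agent.S0797
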