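import Cfsg.Statements.S0798
import Cfsg.Agent.Lib.Helper44.Transport
import Cfsg.Agent.Lib.Helper44.ReflClass

set_option autoImplicit false
open Cfsg

namespace Cfsg.Agent.S0798

open Cfsg.Agent.Lib.Helper44

/-- For q odd, n ≥ 2 even, Q with non-degenerate polar form (n, |F|) ≠ (4, 3), and a fixed c ≠ 0: the subgroup of the isometry group generated by the reflections r_v with Q(v) ∈ c·(F^×)² has index 2. -/
theorem result {F : Type*} [Field F] [Fintype F] (h2 : (2 : F) ≠ 0) {n : ℕ} (hn : 2 ≤ n) (heven : Even n) (Q : QuadraticForm F (Fin n → F)) (hQ : (QuadraticMap.polarBilin Q).Nondegenerate) (h43 : ¬ (n = 4 ∧ Fintype.card F = 3)) (c : F) (hc : c ≠ 0) : (Subgroup.closure {g : ↥(Cfsg.isometryGroup F ⇑Q) | ∃ (v : Fin n → F) (t : F), t ≠ 0 ∧ Q v = c * t ^ 2 ∧ ((g : Matrix.GeneralLinearGroup (Fin n) F) : Matrix (Fin n) (Fin n) F) = Cfsg.reflectionMatrix ⇑Q v}).index = 2 := by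
  have hfr : Module.finrank F (Fin n → F) = n := by simp
  have key := index_reflClassSubgroup h2 hQ (by rw [hfr]; exact hn) (by rw [hfr]; exact heven)
    (by rw [hfr]; exact h43) hc
  refine Eq.trans ?_ key
  rw [← Subgroup.index_map_equiv _ (isoEquiv Q)]
  congr 1
  rw [MonoidHom.map_closure, reflClassSubgroup]
  congr 1
  ext g
  constructor
  · rintro ⟨x, ⟨v, t, ht, hv, hx⟩, rfl⟩
    refine ⟨v, ⟨t, ht, hv⟩, ?_⟩
    have : x = reflElt Q v := isometryGroup_ext (by rw [hx, reflElt_coe])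
    rw [this]
    exact isoEquiv_reflElt Q v
  · rintro ⟨v, ⟨t, ht, hv⟩, rfl⟩
    exact ⟨reflElt Q v, ⟨v, t, ht, hv, reflElt_coe Q v⟩, isoEquiv_reflElt Q v⟩

end Cfsg.Agent.S0798
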