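import Mathlib
import Cfsg.Statements.S0800
import Cfsg.Agent.Lib.Helper41.SL2Eigen2

set_option autoImplicit false
open Cfsg

namespace Cfsg.Agent.S0800

open Cfsg.Agent.Lib.Helper41

/-- Tori of SL_2(q): if g ∈ SL_2(q) has order coprime to the characteristic p, then the order of g divides q − 1 or q + 1. -/
theorem result {F : Type*} [Field F] [Fintype F] {q : ℕ} (hF : Fintype.card F = q) (p : ℕ) [Fact p.Prime] [CharP F p] (g : Matrix.SpecialLinearGroup (Fin 2) F) (hg : Nat.Coprime (orderOf g) p) : orderOf g ∣ q - 1 ∨ orderOf g ∣ q + 1 := by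
  classical
  obtain ⟨l, hl0, hl⟩ := exists_eigen (L := AlgebraicClosure F)
    (Matrix.trace (g : Matrix (Fin 2) (Fin 2) F))
  by_cases hne : l = l⁻¹
  · have hl2 : l * l = 1 := by
      calc l * l = l * l⁻¹ := by rw [← hne]
        _ = 1 := mul_inv_cancel₀ hl0
    have hg2p : g ^ (p * 2) = 1 := by
      apply Subtype.ext
      rw [Matrix.SpecialLinearGroup.coe_pow, pow_mul]
      rcases mul_self_eq_one_iff.mp hl2 with h1 | h1
      · have htr : Matrix.trace (g : Matrix (Fin 2) (Fin 2) F) = 2 := by
          apply (algebraMap F (AlgebraicClosure F)).injective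
          rw [← hl, h1, map_ofNat]
          norm_num
        rw [sl2_pow_char_of_trace_two p g htr]
        simp
      · have htr : Matrix.trace (g : Matrix (Fin 2) (Fin 2) F) = -2 := by
          apply (algebraMap F (AlgebraicClosure F)).injective
          rw [← hl, h1, map_neg, map_ofNat]
          norm_num
        rw [sl2_pow_char_of_trace_neg_two p g htr]
        simp
    have hdvd : orderOf g ∣ p * 2 := orderOf_dvd_of_pow_eq_one hg2p
    have h2 : orderOf g ∣ 2 := Nat.Coprime.dvd_of_dvd_mul_left hg hdvd
    left
    by_cases hp : p = 2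
    · subst hp
      have : orderOf g = 1 := Nat.Coprime.eq_one_of_dvd hg h2
      rw [this]
      exact one_dvd _
    · have hodd := FiniteField.odd_card_of_char_ne_two (F := F) (by rw [ringChar.eq F p]; exact hp)
      refine h2.trans ?_
      rw [← hF]
      omega
  · rw [sl2_orderOf_eq_eigen g l hl0 hne hl]
    rcases eigen_frobenius _ l hl0 hl with h | h
    · left
      apply orderOf_dvd_of_pow_eq_one
      have hq : 1 ≤ q := by rw [← hF]; exact Fintype.card_pos
      have h3 : l ^ (q - 1) * l = 1 * l := by
        rw [← pow_succ, Nat.sub_add_cancel hq, one_mul, ← hF]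
        exact h
      exact mul_right_cancel₀ hl0 h3
    · right
      apply orderOf_dvd_of_pow_eq_one
      rw [pow_succ, ← hF, h, inv_mul_cancel₀ hl0]

end Cfsg.Agent.S0800
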