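import Cfsg.Statements.S0801
import Cfsg.Agent.Lib.Helper41.Dickson.TraceOdd
import Cfsg.Agent.Lib.Helper41.Dickson.A5Gen
import Cfsg.Agent.Lib.Helper41.Dickson.WitPSL
import Cfsg.Agent.Lib.Helper41.Dickson.A5Exists
import Cfsg.Agent.Lib.Helper41.Dickson.MaxEven

set_option autoImplicit false
set_option linter.style.haveILetI false
set_option linter.unusedSectionVars false
set_option linter.unusedSimpArgs false
open Cfsg

namespace Cfsg.Agent.S0801

open Cfsg.Agent.Lib.Helper41 Cfsg.Agent.Lib.Helper41.Dickson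

section aux

variable {F : Type*} [Field F]

local notation "SL2" => Matrix.SpecialLinearGroup (Fin 2) F
local notation "PSL2" => Matrix.ProjectiveSpecialLinearGroup (Fin 2) F
local notation "M2" => Matrix (Fin 2) (Fin 2) F

theorem pow_lo (a : SL2) (t : F) (ha : (a : M2) = !![1, 0; t, 1]) (n : ℕ) :
    (a : M2) ^ n = !![1, 0; n * t, 1] := by
  induction n with
  | zero => simp; exact Matrix.one_fin_two
  | succ n ih =>
    rw [pow_succ, ih, ha, Matrix.mul_fin_two]
    ext i j
    fin_cases i <;> fin_cases j <;> simp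
    ring

theorem pow_up (b : SL2) (t : F) (hb : (b : M2) = !![1, t; 0, 1]) (n : ℕ) :
    (b : M2) ^ n = !![1, n * t; 0, 1] := by
  induction n with
  | zero => simp; exact Matrix.one_fin_two
  | succ n ih =>
    rw [pow_succ, ih, hb, Matrix.mul_fin_two]
    ext i j
    fin_cases i <;> fin_cases j <;> simp
    ring

theorem mk_pow_lo (p : ℕ) [CharP F p] (a : SL2) (t : F) (ha : (a : M2) = !![1, 0; t, 1]) :
    (QuotientGroup.mk a : PSL2) ^ p = 1 := by
  rw [psl2_pow_eq_one_iff]
  left
  rw [pow_lo a t ha, CharP.cast_eq_zero, zero_mul]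
  exact Matrix.one_fin_two.symm

theorem mk_pow_up (p : ℕ) [CharP F p] (b : SL2) (t : F) (hb : (b : M2) = !![1, t; 0, 1]) :
    (QuotientGroup.mk b : PSL2) ^ p = 1 := by
  rw [psl2_pow_eq_one_iff]
  left
  rw [pow_up b t hb, CharP.cast_eq_zero, zero_mul]
  exact Matrix.one_fin_two.symm

theorem mk_ne_one_of_entry (X : SL2) (h : (X : M2) 1 0 ≠ 0) : (QuotientGroup.mk X : PSL2) ≠ 1 := by
  intro hcon
  have := (psl2_pow_eq_one_iff X 1).1 (by rw [pow_one]; exact hcon)
  rw [pow_one] at this
  rcases this with h1 | h1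
  · apply h; rw [h1]; simp
  · apply h; rw [h1]; simp

/-- a non-scalar `X` with `X² = ±1` has trace `0` -/
theorem trace_of_sq (X : SL2) (h : (X : M2) 1 0 ≠ 0) (h2 : (QuotientGroup.mk X : PSL2) ^ 2 = 1) :
    Matrix.trace (X : M2) = 0 := by
  have hsq := sl2_sq X
  rw [← Matrix.trace_fin_two, ← sq] at hsq
  rcases (psl2_pow_eq_one_iff X 2).1 h2 with h1 | h1
  · rw [h1] at hsq
    have := congrFun (congrFun hsq 1) 0
    simp at this
    exact this.resolve_right h
  · rw [h1] at hsq
    have := congrFun (congrFun hsq 1) 0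
    simp at this
    exact this.resolve_right h

/-- a non-scalar `X` with `X⁵ = ±1` -/
theorem trace_of_pow_five (X : SL2) (h : (X : M2) 1 0 ≠ 0)
    (h5 : (QuotientGroup.mk X : PSL2) ^ 5 = 1) :
    Matrix.trace (X : M2) ^ 4 - 3 * Matrix.trace (X : M2) ^ 2 + 1 = 0 := by
  have hsq := sl2_sq X
  rw [← Matrix.trace_fin_two] at hsq
  have h1 := pow_five_of_sq _ _ hsq
  rcases (psl2_pow_eq_one_iff X 5).1 h5 with h2 | h2
  · rw [h2] at h1
    have := congrFun (congrFun h1 1) 0
    simp at this
    exact this.resolve_right h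
  · rw [h2] at h1
    have := congrFun (congrFun h1 1) 0
    simp at this
    exact this.resolve_right h

end aux

section main

variable {F : Type*} [Field F] [Fintype F]

local notation "SL2" => Matrix.SpecialLinearGroup (Fin 2) F
local notation "PSL2" => Matrix.ProjectiveSpecialLinearGroup (Fin 2) F
local notation "M2" => Matrix (Fin 2) (Fin 2) F

theorem card_le_of_fix (p : ℕ) [Fact p.Prime] [CharP F p] (lam : F)
    (hgen : Subfield.closure ({lam} : Set F) = ⊤) (j : ℕ) (hj : j ≠ 0) (h : lam ^ p ^ j = lam) :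
    Fintype.card F ≤ p ^ j := by
  by_contra hcon
  apply frobFix_ne_top (F := F) p j hj (by omega)
  rw [eq_top_iff, ← hgen, Subfield.closure_le]
  intro x hx
  rw [Set.mem_singleton_iff] at hx
  rw [hx, SetLike.mem_coe, mem_frobFix]
  exact h

theorem two_mul_card_psl' (h2 : (2 : F) ≠ 0) :
    2 * Nat.card PSL2 = Fintype.card F * (Fintype.card F ^ 2 - 1) := by
  apply two_mul_card_psl
  rcases Nat.even_or_odd (Fintype.card F) with he | ho
  · exfalso
    haveI := charTwo_of_even he
    exact h2 (CharP.cast_eq_zero F 2)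
  · exact ho


theorem eq_top_of_orders (p : ℕ) [Fact p.Prime] [CharP F p] (h2 : (2 : F) ≠ 0) (hp2 : p ≠ 2)
    (lam : F) (hgen : Subfield.closure ({lam} : Set F) = ⊤) (Γ : Subgroup PSL2) (X : SL2)
    (hX : (QuotientGroup.mk X : PSL2) ∈ Γ) (htr : Matrix.trace (X : M2) = 2 + lam) (j : ℕ)
    (hj : j ≠ 0)
    (hord : ∀ g ∈ Γ, orderOf g ∣ p ∨ 2 * orderOf g ∣ p ^ j - 1 ∨ 2 * orderOf g ∣ p ^ j + 1)
    (hcard : 2 * Nat.card Γ = p ^ j * ((p ^ j) ^ 2 - 1)) : Γ = ⊤ := by
  have h1 := trace_fix_odd p hp2 j X (hord _ hX)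
  rw [htr, add_pow_char_pow] at h1
  have h3 : (2 : F) ^ p ^ j = 2 := by
    have := natCast_pow_char (F := F) p 2 j
    simpa using this
  rw [h3] at h1
  have h4 := card_le_of_fix p lam hgen j hj (add_left_cancel h1)
  apply Subgroup.eq_top_of_le_card
  have h5 := two_mul_card_psl' (F := F) h2
  have h6 : Fintype.card F * (Fintype.card F ^ 2 - 1) ≤ p ^ j * ((p ^ j) ^ 2 - 1) :=
    Nat.mul_le_mul h4 (Nat.sub_le_sub_right (Nat.pow_le_pow_left h4 2) 1)
  omega

theorem gamma_eq_top (p : ℕ) [Fact p.Prime] [CharP F p] (h2 : (2 : F) ≠ 0) (lam : F)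
    (hlam : lam ≠ 0) (hgen : Subfield.closure ({lam} : Set F) = ⊤) (a b : SL2)
    (ha : (a : M2) = !![1, 0; 1, 1]) (hb : (b : M2) = !![1, lam; 0, 1])
    (hex : ¬ (Fintype.card F = 9 ∧ lam ^ 2 = -1)) :
    Subgroup.closure ({(QuotientGroup.mk a : PSL2), QuotientGroup.mk b} : Set PSL2) = ⊤ := by
  classical
  have hp2 : p ≠ 2 := by
    rintro rfl
    exact h2 (CharP.cast_eq_zero F 2)
  have hpodd : Odd p := (Fact.out : p.Prime).odd_of_ne_two hp2
  set u1 : PSL2 := QuotientGroup.mk a with hu1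
  set u2 : PSL2 := QuotientGroup.mk b with hu2
  set Γ : Subgroup PSL2 := Subgroup.closure ({u1, u2} : Set PSL2) with hΓ
  have hu1Γ : u1 ∈ Γ := Subgroup.subset_closure (Or.inl rfl)
  have hu2Γ : u2 ∈ Γ := Subgroup.subset_closure (Or.inr rfl)
  have hu1p : u1 ^ p = 1 := mk_pow_lo p a 1 ha
  have hu2p : u2 ^ p = 1 := mk_pow_up p b lam hb
  have hu1ne : u1 ≠ 1 := mk_ne_one_of_entry a (by rw [ha]; simp)
  have hS : ∀ s ∈ ({u1, u2} : Set PSL2), s ^ p = 1 := by
    rintro s (rfl | rfl)
    · exact hu1p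
    · exact hu2p
  have hpdvd : p ∣ Nat.card Γ := by
    have h1 : orderOf (⟨u1, hu1Γ⟩ : Γ) = p :=
      orderOf_eq_prime (Subtype.ext hu1p) (fun h => hu1ne (congrArg Subtype.val h))
    rw [← h1]; exact orderOf_dvd_natCard _
  have hab : ((a * b : SL2) : M2) = !![1, lam; 1, 1 + lam] := by
    rw [Matrix.SpecialLinearGroup.coe_mul, ha, hb, Matrix.mul_fin_two]
    ext i j
    fin_cases i <;> fin_cases j <;> simp [add_comm]
  have hbinv : ((b⁻¹ : SL2) : M2) = !![1, -lam; 0, 1] := by
    rw [Matrix.SpecialLinearGroup.coe_inv, hb, Matrix.adjugate_fin_two_of]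
    simp
  have hab' : ((a * b⁻¹ : SL2) : M2) = !![1, -lam; 1, 1 - lam] := by
    rw [Matrix.SpecialLinearGroup.coe_mul, ha, hbinv, Matrix.mul_fin_two]
    ext i j
    fin_cases i <;> fin_cases j <;> simp
    ring
  have hba : ((b * a : SL2) : M2) = !![1 + lam, lam; 1, 1] := by
    rw [Matrix.SpecialLinearGroup.coe_mul, ha, hb, Matrix.mul_fin_two]
    ext i j
    fin_cases i <;> fin_cases j <;> simp
  have hnc : u1 * u2 ≠ u2 * u1 := by
    intro h
    have h1 : (QuotientGroup.mk (a * b) : PSL2) = QuotientGroup.mk (b * a) := h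
    rcases (Dickson.psl2_mk_eq_iff _ _).1 h1 with h3 | h3
    · rw [hab, hba] at h3
      have := congrFun (congrFun h3 0) 0
      simp at this
      exact hlam this
    · rw [hab, hba] at h3
      have := congrFun (congrFun h3 1) 0
      simp at this
      apply h2
      linear_combination this
  have habΓ : (QuotientGroup.mk (a * b) : PSL2) ∈ Γ := Γ.mul_mem hu1Γ hu2Γ
  have habΓ' : (QuotientGroup.mk (a * b⁻¹) : PSL2) ∈ Γ := Γ.mul_mem hu1Γ (Γ.inv_mem hu2Γ)
  have htr : Matrix.trace ((a * b : SL2) : M2) = 2 + lam := by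
    rw [hab, Matrix.trace_fin_two_of]; ring
  have htr' : Matrix.trace ((a * b⁻¹ : SL2) : M2) = 2 - lam := by
    rw [hab', Matrix.trace_fin_two_of]; ring
  obtain ⟨n, -, hn⟩ := FiniteField.card F p
  have hqodd : Odd (Fintype.card F) := by rw [hn]; exact hpodd.pow
  have hgcd : Nat.gcd 2 (Fintype.card F - 1) = 2 := by
    obtain ⟨c, hc⟩ := hqodd
    exact Nat.gcd_eq_left ⟨c, by omega⟩
  have hpq : p ∣ Fintype.card F := by rw [hn]; exact dvd_pow_self p n.ne_zero
  have hG := two_mul_card_psl' (F := F) h2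
  have hΓG : Nat.card Γ ≤ Nat.card PSL2 := Subgroup.card_le_card_group Γ
  rcases dickson_card p Γ with ⟨hcyc, -⟩ | ⟨k, hk, -, hc⟩ | ⟨P, hP⟩ | ⟨⟨e⟩, hc⟩ | ⟨⟨e⟩, -⟩ | ⟨⟨e⟩, hc⟩ |
    ⟨K, m, hm, hqm, hK2, hK⟩
  · exfalso
    letI := IsCyclic.commGroup (α := Γ)
    exact hnc (congrArg Subtype.val (mul_comm (⟨u1, hu1Γ⟩ : Γ) ⟨u2, hu2Γ⟩))
  · exfalso
    rw [hgcd, ← hc] at hk
    have hp1 : ¬ p ∣ 1 := (Fact.out : p.Prime).one_lt.ne' ∘ Nat.dvd_one.1
    have hq1 : 1 ≤ Fintype.card F := Fintype.card_pos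
    rcases hk with hk | hk
    · have h3 := hpdvd.trans hk
      apply hp1
      have := (Nat.dvd_sub hpq h3)
      rwa [Nat.sub_sub_self hq1] at this
    · have h3 := hpdvd.trans hk
      exact hp1 ((Nat.dvd_add_right hpq).1 h3)
  · exfalso
    obtain ⟨-, -, -, -, hPc, -⟩ := borel_package p P
    exact hnc (hPc _ (mem_sylow_of_mem_normalizer p P u1 (hP hu1Γ) hu1p) _
      (mem_sylow_of_mem_normalizer p P u2 (hP hu2Γ) hu2p))
  · -- A4
    rw [hc] at hpdvd
    have hp3 : p = 3 := by
      have hle := Nat.le_of_dvd (by norm_num) hpdvd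
      have hpp := (Fact.out : p.Prime)
      interval_cases p <;> first | rfl | (exfalso; revert hpp hpdvd; decide) | omega
    subst hp3
    refine eq_top_of_orders 3 h2 hp2 lam hgen Γ (a * b) habΓ htr 1 one_ne_zero ?_ (by rw [hc]; norm_num)
    intro g hg
    have h3 := orderOf_of_alt_four e ⟨g, hg⟩
    rw [Subgroup.orderOf_mk] at h3
    rcases h3 with h3 | h3
    · right; right
      exact Nat.mul_dvd_mul_left 2 h3
    · left; exact h3
  · -- S4
    exfalso
    refine no_index_two_of_closure _ p hpodd hS Γ hΓ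
      ((alternatingGroup (Fin 4)).comap e.toMonoidHom) ?_
    rw [Subgroup.index_comap_of_surjective _ e.surjective]
    exact alternatingGroup.index_eq_two
  · -- A5
    rw [hc] at hpdvd
    have hp35 : p = 3 ∨ p = 5 := by
      have hle := Nat.le_of_dvd (by norm_num) hpdvd
      have hpp := (Fact.out : p.Prime)
      interval_cases p <;>
        first | (left; rfl) | (right; rfl) | (exfalso; revert hpp hpdvd; decide) | omega
    have hordA : ∀ g ∈ Γ, orderOf g ∣ 2 ∨ orderOf g ∣ 3 ∨ orderOf g ∣ 5 := by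
      intro g hg
      have h3 := orderOf_of_alt_five e ⟨g, hg⟩
      rwa [Subgroup.orderOf_mk] at h3
    rcases hp35 with hp3 | hp5
    · exfalso
      subst hp3
      have h3 : (3 : F) = 0 := by
        have := CharP.cast_eq_zero F 3
        simpa using this
      have hq3 : 3 < Fintype.card F := by
        by_contra hcon
        have h4 : Fintype.card F * (Fintype.card F ^ 2 - 1) ≤ 3 * (3 ^ 2 - 1) :=
          Nat.mul_le_mul (by omega) (Nat.sub_le_sub_right (Nat.pow_le_pow_left (by omega) 2) 1)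
        omega
      have hnot : lam ^ 3 ≠ lam := by
        intro h4
        have := card_le_of_fix 3 lam hgen 1 one_ne_zero (by rw [pow_one]; exact h4)
        omega
      have key : ∀ (X : SL2) (τ : F), (X : M2) 1 0 ≠ 0 → (QuotientGroup.mk X : PSL2) ∈ Γ →
          Matrix.trace (X : M2) = τ → (τ = 0 ∨ τ = 2 ∨ τ = -2) ∨ τ ^ 4 - 3 * τ ^ 2 + 1 = 0 := by
        intro X τ hX0 hX hτ
        rcases hordA _ hX with h4 | h4 | h4
        · left; left
          rw [← hτ]
          exact trace_of_sq X hX0 (orderOf_dvd_iff_pow_eq_one.1 h4)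
        · left; right
          rw [← hτ]
          exact trace_of_pow_p 3 X (orderOf_dvd_iff_pow_eq_one.1 h4)
        · right
          rw [← hτ]
          exact trace_of_pow_five X hX0 (orderOf_dvd_iff_pow_eq_one.1 h4)
      have k1 : (2 + lam) ^ 4 - 3 * (2 + lam) ^ 2 + 1 = 0 := by
        rcases key (a * b) _ (by rw [hab]; simp) habΓ htr with (h4 | h4 | h4) | h4
        · exfalso; apply hnot
          have : lam = -2 := by linear_combination h4
          rw [this]; linear_combination (-2 : F) * h3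
        · exfalso; apply hlam; linear_combination h4
        · exfalso; apply hnot
          have : lam = -4 := by linear_combination h4
          rw [this]; linear_combination (-20 : F) * h3
        · exact h4
      have k2 : (2 - lam) ^ 4 - 3 * (2 - lam) ^ 2 + 1 = 0 := by
        rcases key (a * b⁻¹) _ (by rw [hab']; simp) habΓ' htr' with (h4 | h4 | h4) | h4
        · exfalso; apply hnot
          have : lam = 2 := by linear_combination -h4
          rw [this]; linear_combination (2 : F) * h3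
        · exfalso; apply hlam; linear_combination -h4
        · exfalso; apply hnot
          have : lam = 4 := by linear_combination -h4
          rw [this]; linear_combination (20 : F) * h3
        · exact h4
      have k3 : lam * (lam ^ 2 + 1) = 0 := by
        linear_combination k1 - k2 + (-5 * lam ^ 3 - 13 * lam) * h3
      have hl2 : lam ^ 2 = -1 := by
        rcases mul_eq_zero.1 k3 with h4 | h4
        · exact absurd h4 hlam
        · linear_combination h4
      have h9 : lam ^ 3 ^ 2 = lam := by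
        have : lam ^ 3 ^ 2 = (lam ^ 2) ^ 4 * lam := by ring
        rw [this, hl2]; ring
      have hq9 := card_le_of_fix 3 lam hgen 2 two_ne_zero h9
      apply hex
      refine ⟨?_, hl2⟩
      have hn2 : (n : ℕ) < 3 := by
        by_contra hcon
        have : 3 ^ 3 ≤ 3 ^ (n : ℕ) := Nat.pow_le_pow_right (by norm_num) (by omega)
        omega
      have hn0 := n.pos
      rw [hn] at hq3 ⊢
      generalize (n : ℕ) = n' at *
      interval_cases n' <;> simp_all
    · subst hp5
      refine eq_top_of_orders 5 h2 hp2 lam hgen Γ (a * b) habΓ htr 1 one_ne_zero ?_ (by rw [hc]; norm_num)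
      intro g hg
      rcases hordA g hg with h3 | h3 | h3
      · right; left
        exact Nat.mul_dvd_mul_left 2 h3
      · right; right
        exact Nat.mul_dvd_mul_left 2 h3
      · left; exact h3
  · -- subfield groups
    haveI : Fintype K := Fintype.ofFinite _
    haveI : CharP K p := RingHom.charP K.subtype K.subtype.injective p
    obtain ⟨j, -, hj⟩ := FiniteField.card K p
    have hKc : Nat.card K = p ^ (j : ℕ) := by rw [Nat.card_eq_fintype_card, hj]
    have hKodd : Odd (Nat.card K) := by rw [hKc]; exact hpodd.pow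
    have hgK : Nat.gcd 2 (Fintype.card K - 1) = 2 := by
      rw [← Nat.card_eq_fintype_card]
      obtain ⟨c, hc⟩ := hKodd
      exact Nat.gcd_eq_left ⟨c, by omega⟩
    rcases hK with ⟨⟨e⟩, hc⟩ | ⟨⟨e⟩, -⟩
    · rw [hgcd, hKc] at hc
      refine eq_top_of_orders p h2 hp2 lam hgen Γ (a * b) habΓ htr j j.pos.ne' ?_ hc
      intro g hg
      have h1 := psl2_orderOf_dvd p (e ⟨g, hg⟩)
      rw [e.orderOf_eq, Subgroup.orderOf_mk, hgK, hj] at h1
      have hk1 : 1 ≤ p ^ (j : ℕ) := Nat.one_le_pow _ _ (Fact.out : p.Prime).pos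
      have hkodd : Odd (p ^ (j : ℕ)) := hpodd.pow
      obtain ⟨c, hc'⟩ := hkodd
      rcases h1 with h1 | h1 | h1
      · left; exact h1
      · right; left
        exact Nat.mul_dvd_of_dvd_div ⟨c, by omega⟩ h1
      · right; right
        exact Nat.mul_dvd_of_dvd_div ⟨c + 1, by omega⟩ h1
    · exfalso
      refine no_index_two_of_closure _ p hpodd hS Γ hΓ
        ((Matrix.ProjectiveSpecialLinearGroup.toPGL (n := Fin 2) (R := K)).range.comap
          e.toMonoidHom) ?_
      rw [Subgroup.index_comap_of_surjective _ e.surjective]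
      exact index_range_toPGL K hKodd


theorem neg_one_mem_of_trace_zero (H : Subgroup SL2) (Z : SL2) (hZ : Z ∈ H)
    (htr : Matrix.trace (Z : M2) = 0) : (-1 : SL2) ∈ H := by
  have h1 : Z * Z = -1 := by
    apply Subtype.ext
    rw [Matrix.SpecialLinearGroup.coe_mul, sl2_sq, ← Matrix.trace_fin_two, htr]
    simp
  rw [← h1]; exact H.mul_mem hZ hZ

theorem mem_of_mk_mem (H : Subgroup SL2) (hneg : (-1 : SL2) ∈ H) (X : SL2)
    (hX : (QuotientGroup.mk X : PSL2) ∈ H.map (QuotientGroup.mk' _)) : X ∈ H := by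
  obtain ⟨Y, hY, hYX⟩ := hX
  rcases (Dickson.psl2_mk_eq_iff Y X).1 hYX with h | h
  · have : Y = X := Subtype.ext h
    rw [← this]; exact hY
  · have : X = -1 * Y := by
      apply Subtype.ext
      rw [Matrix.SpecialLinearGroup.coe_mul, h]
      simp
    rw [this]; exact H.mul_mem hneg hY

theorem card_of_map (h2 : (2 : F) ≠ 0) (H : Subgroup SL2) (hneg : (-1 : SL2) ∈ H) :
    Nat.card H = 2 * Nat.card (H.map (QuotientGroup.mk' (Subgroup.center SL2))) := by
  let f : H →* H.map (QuotientGroup.mk' (Subgroup.center SL2)) :=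
    (QuotientGroup.mk' (Subgroup.center SL2)).subgroupMap H
  have hsurj : Function.Surjective f := MonoidHom.subgroupMap_surjective _ _
  have h1 : f.ker.index = Nat.card (H.map (QuotientGroup.mk' (Subgroup.center SL2))) := by
    rw [Subgroup.index_ker, MonoidHom.range_eq_top.2 hsurj, Subgroup.card_top]
  have h3 : Nat.card f.ker = 2 := by
    rw [Nat.card_eq_two_iff]
    have hk : ∀ x : H, x ∈ f.ker ↔ ((x : SL2) = 1 ∨ (x : SL2) = -1) := by
      intro x
      rw [MonoidHom.mem_ker]
      constructor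
      · intro hx
        have h4 : (QuotientGroup.mk (x : SL2) : PSL2) = QuotientGroup.mk 1 :=
          congrArg Subtype.val hx
        rcases (Dickson.psl2_mk_eq_iff _ _).1 h4 with h | h
        · left; exact Subtype.ext h
        · right; exact Subtype.ext h
      · intro hx
        apply Subtype.ext
        show (QuotientGroup.mk (x : SL2) : PSL2) = 1
        have h4 : (QuotientGroup.mk (x : SL2) : PSL2) = QuotientGroup.mk 1 := by
          rw [Dickson.psl2_mk_eq_iff]
          rcases hx with h | h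
          · left; rw [h]
          · right; rw [h]; rfl
        rw [h4]; rfl
    refine ⟨⟨1, f.ker.one_mem⟩, ⟨⟨-1, hneg⟩, (hk _).2 (Or.inr rfl)⟩, ?_, ?_⟩
    · intro h
      have h4 : (1 : SL2) = -1 := congrArg (fun z => ((z : f.ker) : H).1) h
      exact sl2_neg_one_ne_one h2 h4.symm
    · ext ⟨x, hx⟩
      simp only [Set.mem_insert_iff, Set.mem_singleton_iff, Set.mem_univ, iff_true]
      rcases (hk x).1 hx with h | h
      · left; exact Subtype.ext (Subtype.ext h)
      · right; exact Subtype.ext (Subtype.ext h)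
  rw [← f.ker.card_mul_index, h1, h3]

theorem exceptional [CharP F 3] (lam : F) (hl : lam ^ 2 = -1) (a b : SL2)
    (ha : (a : M2) = !![1, 0; 1, 1]) (hb : (b : M2) = !![1, lam; 0, 1]) :
    Nat.card (Subgroup.closure ({(QuotientGroup.mk a : PSL2), QuotientGroup.mk b} : Set PSL2)) = 60 ∧
      Matrix.trace ((a * (a * b) * (a * b) : SL2) : M2) = 0 := by
  have h3 : (3 : F) = 0 := by
    have := CharP.cast_eq_zero F 3
    simpa using this
  have hab : ((a * b : SL2) : M2) = !![1, lam; 1, 1 + lam] := by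
    rw [Matrix.SpecialLinearGroup.coe_mul, ha, hb, Matrix.mul_fin_two]
    ext i j
    fin_cases i <;> fin_cases j <;> simp [add_comm]
  have htrZ : Matrix.trace ((a * (a * b) * (a * b) : SL2) : M2) = 0 := by
    rw [Matrix.SpecialLinearGroup.coe_mul, Matrix.SpecialLinearGroup.coe_mul, hab, ha,
      Matrix.mul_fin_two, Matrix.mul_fin_two, Matrix.trace_fin_two_of]
    linear_combination 2 * hl + (2 * lam) * h3
  set x : PSL2 := QuotientGroup.mk a with hx
  set u2 : PSL2 := QuotientGroup.mk b with hu2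
  set w : PSL2 := QuotientGroup.mk (a * b) with hw
  have hwx : w = x * u2 := rfl
  have hx3 : x ^ 3 = 1 := mk_pow_lo 3 a 1 ha
  have hw5 : w ^ 5 = 1 := by
    rw [hw, psl2_pow_eq_one_iff]
    right
    have hsq := sl2_sq (a * b)
    rw [← Matrix.trace_fin_two] at hsq
    have htr : Matrix.trace ((a * b : SL2) : M2) = 2 + lam := by
      rw [hab, Matrix.trace_fin_two_of]; ring
    rw [htr] at hsq
    rw [pow_five_of_sq _ _ hsq]
    have hτ : (2 + lam) ^ 2 - (2 + lam) - 1 = 0 := by linear_combination hl + lam * h3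
    have h1 : (2 + lam) ^ 4 - 3 * (2 + lam) ^ 2 + 1 = 0 := by
      linear_combination ((2 + lam) ^ 2 + (2 + lam) - 1) * hτ
    have h2 : (2 + lam) ^ 3 - 2 * (2 + lam) = 1 := by
      linear_combination ((2 + lam) + 1) * hτ
    rw [h1, h2]
    simp
  have hw1 : w ≠ 1 := mk_ne_one_of_entry (a * b) (by rw [hab]; simp)
  have hy5 : (w ^ 2) ^ 5 = 1 := by rw [← pow_mul, mul_comm, pow_mul, hw5, one_pow]
  have hy1 : w ^ 2 ≠ 1 := by
    intro h
    apply hw1
    calc w = w ^ 5 * ((w ^ 2) ^ 2)⁻¹ := by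
          rw [← pow_mul]; group
      _ = 1 := by rw [hw5, h]; simp
  have hxy : (x * w ^ 2) ^ 2 = 1 := by
    have h1 : x * w ^ 2 = (QuotientGroup.mk (a * (a * b) * (a * b)) : PSL2) := by
      rw [sq, ← mul_assoc]; rfl
    rw [h1, psl2_pow_eq_one_iff]
    right
    rw [sq, sl2_sq, ← Matrix.trace_fin_two, htrZ]
    simp
  obtain ⟨e⟩ := closure_alt_five x (w ^ 2) hx3 hy5 hxy hy1
  have hcl : Subgroup.closure ({x, u2} : Set PSL2) = Subgroup.closure ({x, w ^ 2} : Set PSL2) := by
    apply le_antisymm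
    · rw [Subgroup.closure_le]
      have hxm : x ∈ Subgroup.closure ({x, w ^ 2} : Set PSL2) :=
        Subgroup.subset_closure (Or.inl rfl)
      have hwm : w ^ 2 ∈ Subgroup.closure ({x, w ^ 2} : Set PSL2) :=
        Subgroup.subset_closure (Or.inr rfl)
      rintro z (rfl | rfl)
      · exact hxm
      · have h1 : u2 = x⁻¹ * (w ^ 2) ^ 3 := by
          have h2 : (w ^ 2) ^ 3 = w := by
            rw [← pow_mul]
            calc w ^ (2 * 3) = w ^ 5 * w := by group
              _ = w := by rw [hw5, one_mul]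
          rw [h2, hwx]; group
        rw [SetLike.mem_coe, h1]
        exact Subgroup.mul_mem _ (Subgroup.inv_mem _ hxm) (Subgroup.pow_mem _ hwm 3)
    · rw [Subgroup.closure_le]
      have hxm : x ∈ Subgroup.closure ({x, u2} : Set PSL2) :=
        Subgroup.subset_closure (Or.inl rfl)
      have hum : u2 ∈ Subgroup.closure ({x, u2} : Set PSL2) :=
        Subgroup.subset_closure (Or.inr rfl)
      rintro z (rfl | rfl)
      · exact hxm
      · rw [SetLike.mem_coe, hwx]
        exact Subgroup.pow_mem _ (Subgroup.mul_mem _ hxm hum) 2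
  refine ⟨?_, htrZ⟩
  rw [hcl, Nat.card_congr e.toEquiv, natCard_alt_five]

end main

/-- Let F be a finite field of odd characteristic and λ ≠ 0 an element generating F as a field. Then the lower and upper unitriangular matrices with off-diagonal entries 1 and λ generate SL_2(F), unless |F| = 9 and λ² = −1, in which case they generate a subgroup of order 120. -/
theorem result {F : Type*} [Field F] [Fintype F] (h2 : (2 : F) ≠ 0) (lam : F) (hlam : lam ≠ 0) (hgen : Subfield.closure ({lam} : Set F) = ⊤) : (Subgroup.closure {g : Matrix.SpecialLinearGroup (Fin 2) F | (g : Matrix (Fin 2) (Fin 2) F) = !![1, 0; 1, 1] ∨ (g : Matrix (Fin 2) (Fin 2) F) = !![1, lam; 0, 1]} = ⊤ ∧ ¬ (Fintype.card F = 9 ∧ lam ^ 2 = -1)) ∨ (Fintype.card F = 9 ∧ lam ^ 2 = -1 ∧ Nat.card ↥(Subgroup.closure {g : Matrix.SpecialLinearGroup (Fin 2) F | (g : Matrix (Fin 2) (Fin 2) F) = !![1, 0; 1, 1] ∨ (g : Matrix (Fin 2) (Fin 2) F) = !![1, lam; 0, 1]}) = 120) := by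
  classical
  obtain ⟨p, hpp, hchar⟩ := exists_char_prime F
  haveI := fact_iff.2 hpp
  haveI := hchar
  obtain ⟨a, ha⟩ : ∃ g : Matrix.SpecialLinearGroup (Fin 2) F,
      (g : Matrix (Fin 2) (Fin 2) F) = !![1, 0; 1, 1] :=
    ⟨⟨!![1, 0; 1, 1], by simp [Matrix.det_fin_two]⟩, rfl⟩
  obtain ⟨b, hb⟩ : ∃ g : Matrix.SpecialLinearGroup (Fin 2) F,
      (g : Matrix (Fin 2) (Fin 2) F) = !![1, lam; 0, 1] :=
    ⟨⟨!![1, lam; 0, 1], by simp [Matrix.det_fin_two]⟩, rfl⟩
  have hS : {g : Matrix.SpecialLinearGroup (Fin 2) F | (g : Matrix (Fin 2) (Fin 2) F) = !![1, 0; 1, 1] ∨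
      (g : Matrix (Fin 2) (Fin 2) F) = !![1, lam; 0, 1]} = {a, b} := by
    ext g
    constructor
    · rintro (h | h)
      · left; exact Subtype.ext (h.trans ha.symm)
      · right; exact Subtype.ext (h.trans hb.symm)
    · rintro (rfl | rfl)
      · left; exact ha
      · right; exact hb
  rw [hS]
  set H := Subgroup.closure ({a, b} : Set (Matrix.SpecialLinearGroup (Fin 2) F)) with hH
  have haH : a ∈ H := Subgroup.subset_closure (Or.inl rfl)
  have hbH : b ∈ H := Subgroup.subset_closure (Or.inr rfl)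
  have hmap : H.map (QuotientGroup.mk' (Subgroup.center (Matrix.SpecialLinearGroup (Fin 2) F))) =
      Subgroup.closure ({(QuotientGroup.mk a : Matrix.ProjectiveSpecialLinearGroup (Fin 2) F),
        QuotientGroup.mk b} : Set (Matrix.ProjectiveSpecialLinearGroup (Fin 2) F)) := by
    rw [hH, MonoidHom.map_closure, Set.image_pair]
    rfl
  by_cases hex : Fintype.card F = 9 ∧ lam ^ 2 = -1
  · right
    obtain ⟨n, -, hn⟩ := FiniteField.card F p
    have hp3 : p = 3 := by
      have h1 : p ∣ 3 ^ 2 := by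
        have : p ∣ Fintype.card F := by rw [hn]; exact dvd_pow_self p n.ne_zero
        rw [hex.1] at this
        exact this
      exact (Nat.prime_dvd_prime_iff_eq hpp Nat.prime_three).1 (hpp.dvd_of_dvd_pow h1)
    subst hp3
    obtain ⟨h60, htr⟩ := exceptional lam hex.2 a b ha hb
    have hneg := neg_one_mem_of_trace_zero H _ (H.mul_mem (H.mul_mem haH (H.mul_mem haH hbH))
      (H.mul_mem haH hbH)) htr
    refine ⟨hex.1, hex.2, ?_⟩
    rw [card_of_map h2 H hneg, hmap, h60]
  · left
    refine ⟨?_, hex⟩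
    have htop := gamma_eq_top p h2 lam hlam hgen a b ha hb hex
    rw [← hmap] at htop
    obtain ⟨W, hW⟩ : ∃ g : Matrix.SpecialLinearGroup (Fin 2) F,
        (g : Matrix (Fin 2) (Fin 2) F) = !![0, -1; 1, 0] :=
      ⟨⟨!![0, -1; 1, 0], by simp [Matrix.det_fin_two]⟩, rfl⟩
    have hneg : (-1 : Matrix.SpecialLinearGroup (Fin 2) F) ∈ H := by
      have h1 : (QuotientGroup.mk W : Matrix.ProjectiveSpecialLinearGroup (Fin 2) F) ∈
          H.map (QuotientGroup.mk' _) := by rw [htop]; trivial
      obtain ⟨Y, hY, hYW⟩ := h1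
      apply neg_one_mem_of_trace_zero H Y hY
      rcases (Dickson.psl2_mk_eq_iff Y W).1 hYW with h | h
      · rw [h, hW]; simp [Matrix.trace_fin_two]
      · rw [h, hW]; simp [Matrix.trace_fin_two]
    rw [eq_top_iff]
    intro X _
    exact mem_of_mk_mem H hneg X (by rw [htop]; trivial)


end Cfsg.Agent.S0801
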