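import Mathlib
import Cfsg.Statements.S0805
import Cfsg.Agent.Lib.Helper14.PGL2Sub
import Cfsg.Agent.Lib.Helper14.PSL2Sub
import Cfsg.Agent.Lib.Helper5.LinearCard

set_option autoImplicit false
open Cfsg

namespace Cfsg.Agent.S0805

open Cfsg.Agent.Lib.Helper14

/-- Subfield subgroups: let F be a finite field of odd order q and K a finite field with |K|^m = q, m ≥ 1. Then PSL_2(F) has a subgroup isomorphic to PSL_2(K), and has a subgroup isomorphic to PGL_2(K) if and only if m is even. -/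
theorem result {F K : Type*} [Field F] [Fintype F] [Field K] [Fintype K] {q : ℕ} (hF : Fintype.card F = q) (hodd : Odd q) (m : ℕ) (hm : 1 ≤ m) (hK : Fintype.card K ^ m = q) : (∃ H : Subgroup (Matrix.ProjectiveSpecialLinearGroup (Fin 2) F), Nonempty (H ≃* Matrix.ProjectiveSpecialLinearGroup (Fin 2) K)) ∧ ((∃ H : Subgroup (Matrix.ProjectiveSpecialLinearGroup (Fin 2) F), Nonempty (H ≃* Matrix.ProjGenLinGroup (Fin 2) K)) ↔ Even m) := by
  subst hF
  obtain ⟨f⟩ := exists_ringHom_of_card_pow m hK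
  have hkodd : Odd (Fintype.card K) := by
    rw [← hK] at hodd
    by_contra hc
    rw [Nat.not_odd_iff_even] at hc
    have := hc.pow_of_ne_zero (n := m) (by omega)
    rw [Nat.even_iff] at this
    rw [Nat.odd_iff] at hodd
    omega
  refine ⟨?_, ?_, ?_⟩
  · obtain ⟨φ, hφ⟩ := exists_psl2_embedding f
    exact ⟨φ.range, ⟨(MonoidHom.ofInjective hφ).symm⟩⟩
  · rintro ⟨H, ⟨e⟩⟩
    have h1 : Nat.card H = Fintype.card K * (Fintype.card K ^ 2 - 1) := by
      rw [Nat.card_congr e.toEquiv, Cfsg.Agent.Lib.Helper5.card_PGL_eq_card_SL,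
        Cfsg.Agent.Lib.Helper5.card_SL2]
    have h2 := two_mul_card_psl2 (F := F) rfl hodd
    have h3 : Nat.card H ∣ Nat.card (Matrix.ProjectiveSpecialLinearGroup (Fin 2) F) :=
      Subgroup.card_subgroup_dvd_card H
    apply even_of_two_mul_dvd (Fintype.card K) m hkodd Fintype.one_lt_card
    rw [hK, ← h2, ← h1]
    exact Nat.mul_dvd_mul_left 2 h3
  · intro hm2
    exact exists_pgl2_subgroup f (isSquare_of_subfield f m hm2 hodd hK)

end Cfsg.Agent.S0805
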