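import Cfsg.Statements.S0812
import Cfsg.Agent.Lib.Helper41.Dickson.Proper

set_option autoImplicit false
set_option linter.style.haveILetI false
open Cfsg

namespace Cfsg.Agent.S0812

open Cfsg.Agent.Lib.Helper41.Dickson

theorem exists_char_prime (F : Type*) [Field F] [Finite F] :
    ∃ p : ℕ, p.Prime ∧ CharP F p := by
  obtain ⟨p, hp⟩ := CharP.exists F
  refine ⟨p, (CharP.char_is_prime_or_zero F p).resolve_right (fun h0 => ?_), hp⟩
  subst h0
  haveI := CharP.charP_to_charZero F
  exact not_finite F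

theorem small_A4 (q d k : ℕ) (hd : Nat.gcd 2 (q - 1) = d) (hk : d * k = q - 1)
    (hq2 : 4 ≤ q) (n5 : q ≠ 5) (n7 : q ≠ 7)
    (h : k ∣ 2 ∨ k ∣ 3) : q = 4 ∧ k = 3 := by
  have hk3 : k ≤ 3 := by
    rcases h with h | h
    · have := Nat.le_of_dvd (by norm_num) h; omega
    · exact Nat.le_of_dvd (by norm_num) h
  have hd2 : d ≤ 2 := by rw [← hd]; exact Nat.gcd_le_left _ (by norm_num)
  have hq : q ≤ 7 := by
    have : d * k ≤ 2 * 3 := Nat.mul_le_mul hd2 hk3
    omega
  interval_cases q <;> simp at hd <;> subst hd <;> omega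

theorem small_S4 (q d k g : ℕ) (hd : Nat.gcd 2 (q - 1) = d) (hk : d * k = q - 1)
    (hg : d * g = q * (q ^ 2 - 1)) (hq2 : 4 ≤ q) (n5 : q ≠ 5) (n7 : q ≠ 7) (n9 : q ≠ 9)
    (h : k ∣ 2 ∨ k ∣ 3 ∨ k ∣ 4) (h24 : 24 ∣ g) : False := by
  have hk3 : k ≤ 4 := by
    rcases h with h | h | h
    · have := Nat.le_of_dvd (by norm_num) h; omega
    · have := Nat.le_of_dvd (by norm_num) h; omega
    · exact Nat.le_of_dvd (by norm_num) h
  have hd2 : d ≤ 2 := by rw [← hd]; exact Nat.gcd_le_left _ (by norm_num)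
  have hq : q ≤ 9 := by
    have : d * k ≤ 2 * 4 := Nat.mul_le_mul hd2 hk3
    omega
  interval_cases q <;> simp at hd <;> subst hd <;> omega

theorem small_A5 (q d k g : ℕ) (hd : Nat.gcd 2 (q - 1) = d) (hk : d * k = q - 1)
    (hg : d * g = q * (q ^ 2 - 1)) (hq2 : 4 ≤ q) (n5 : q ≠ 5) (n7 : q ≠ 7) (n9 : q ≠ 9)
    (n11 : q ≠ 11)
    (h : k ∣ 2 ∨ k ∣ 3 ∨ k ∣ 5) (h60 : 60 ∣ g) (hne : g ≠ 60) : False := by
  have hk3 : k ≤ 5 := by
    rcases h with h | h | h
    · have := Nat.le_of_dvd (by norm_num) h; omega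
    · have := Nat.le_of_dvd (by norm_num) h; omega
    · exact Nat.le_of_dvd (by norm_num) h
  have hd2 : d ≤ 2 := by rw [← hd]; exact Nat.gcd_le_left _ (by norm_num)
  have hq : q ≤ 11 := by
    have : d * k ≤ 2 * 5 := Nat.mul_le_mul hd2 hk3
    omega
  interval_cases q <;> simp at hd <;> subst hd <;> omega

theorem dihedral_comm (k : ℕ) :
    (DihedralGroup.sr 0 : DihedralGroup k) * DihedralGroup.r 1 * (DihedralGroup.sr 0)⁻¹ *
      (DihedralGroup.r 1)⁻¹ = ((DihedralGroup.r 1) ^ 2)⁻¹ := by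
  simp [sq]

/-- For q ∉ {2, 3, 5, 7, 9, 11}, PSL_2(q) has a maximal subgroup isomorphic to the dihedral group of order 2(q − 1)/d, d = gcd(2, q − 1). -/
theorem result {F : Type*} [Field F] [Fintype F] {q : ℕ} (hF : Fintype.card F = q) (hq : q ∉ ({2, 3, 5, 7, 9, 11} : Finset ℕ)) : ∃ H : Subgroup (Matrix.ProjectiveSpecialLinearGroup (Fin 2) F), IsCoatom H ∧ Nonempty (H ≃* DihedralGroup ((q - 1) / Nat.gcd 2 (q - 1))) := by
  obtain ⟨p, hp, hch⟩ := exists_char_prime F
  haveI := fact_iff.2 hp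
  have hq2 : 2 ≤ q := by rw [← hF]; exact Fintype.one_lt_card
  have hpq : p ∣ q := by
    obtain ⟨n, -, hn⟩ := FiniteField.card F p
    rw [← hF, hn]
    exact dvd_pow_self p n.ne_zero
  have hg := natCard_PSL2 F
  rw [Nat.card_eq_fintype_card] at hg
  have hd2 : Nat.gcd 2 (q - 1) ≤ 2 := Nat.gcd_le_left _ (by norm_num)
  have hd0 : 0 < Nat.gcd 2 (q - 1) := Nat.gcd_pos_of_pos_left _ (by norm_num)
  simp only [Finset.mem_insert, Finset.mem_singleton, not_or] at hq
  obtain ⟨n2, n3, n5, n7, n9, n11⟩ := hq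
  have hq4 : 4 ≤ q := by omega
  have hpq1 : ¬ p ∣ q - 1 := by
    intro h2
    have h3 : p ∣ 1 := by
      have : q = (q - 1) + 1 := by omega
      rw [this] at hpq
      exact (Nat.dvd_add_right h2).1 hpq
    exact hp.one_lt.ne' (Nat.dvd_one.1 h3)
  -- semisimplicity from the order
  have hss : ∀ t : Matrix.ProjectiveSpecialLinearGroup (Fin 2) F,
      Nat.gcd 2 (q - 1) * orderOf t = q - 1 → t ^ p ≠ 1 := by
    intro t ht hcon
    rcases (Nat.dvd_prime hp).1 (orderOf_dvd_of_pow_eq_one hcon) with h1 | h1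
    · rw [h1] at ht; omega
    · rw [h1] at ht
      exact hpq1 ⟨_, by rw [← ht]; ring⟩
  obtain ⟨c, hc⟩ := exists_orderOf_minus (F := F)
  rw [hF] at hc hg
  obtain ⟨N, k, t, hk, ⟨eN⟩, htN, hord, hct, -⟩ := torus_package p c (hss c hc)
  rw [hF] at hk
  have hck : orderOf c ∣ k := by rw [← hord]; exact orderOf_dvd_of_mem_zpowers hct
  have hk0 : 0 < k := by
    rcases Nat.eq_zero_or_pos k with h0 | h0
    · rw [h0] at hk; omega
    · exact h0
  have hk' : Nat.gcd 2 (q - 1) * k = q - 1 := by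
    rcases hk with hk | hk
    · exact hk
    · exfalso
      have h1 : q - 1 ∣ q + 1 := by
        rw [← hc, ← hk]; exact Nat.mul_dvd_mul_left _ hck
      have h2 : q - 1 ∣ 2 := by
        have : q + 1 = (q - 1) + 2 := by omega
        rw [this] at h1
        exact (Nat.dvd_add_right (dvd_refl _)).1 h1
      have := Nat.le_of_dvd (by norm_num) h2
      omega
  have hkdiv : (q - 1) / Nat.gcd 2 (q - 1) = k := Nat.div_eq_of_eq_mul_right hd0 hk'.symm
  haveI : NeZero k := ⟨hk0.ne'⟩
  have hcN : Nat.card N = 2 * k := by rw [Nat.card_congr eN.toEquiv, DihedralGroup.nat_card]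
  have htp : t ^ p ≠ 1 := hss t (by rw [hord]; exact hk')
  refine ⟨N, ?_, ⟨by rw [hkdiv]; exact eN⟩⟩
  generalize hdd : Nat.gcd 2 (q - 1) = d at *
  generalize hgg : Nat.card (Matrix.ProjectiveSpecialLinearGroup (Fin 2) F) = g at *
  have hsq : q ^ 2 - 1 = (q - 1) * (q + 1) := by
    obtain ⟨s, rfl⟩ : ∃ s, q = s + 1 := ⟨q - 1, by omega⟩
    have : (s + 1) ^ 2 = (s + 1 - 1) * (s + 1 + 1) + 1 := by
      simp only [Nat.add_sub_cancel]; ring
    omega
  apply isCoatom_of_card
  · intro hcon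
    have h1 : Nat.card N = g := by rw [hcon, ← hgg]; exact Subgroup.card_top
    rw [hcN] at h1
    rw [← h1, hsq, ← hk'] at hg
    have h2 : (d * k) * 2 = (d * k) * (q * (q + 1)) := by
      calc (d * k) * 2 = d * (2 * k) := by ring
        _ = q * ((d * k) * (q + 1)) := hg
        _ = _ := by ring
    have h3 : 2 = q * (q + 1) := Nat.eq_of_mul_eq_mul_left (by positivity) h2
    have h4 : 4 * 2 ≤ q * (q + 1) := Nat.mul_le_mul hq4 (by omega)
    omega
  · intro M hNM hM
    have hdvdM : Nat.card M ∣ g := by rw [← hgg]; exact Subgroup.card_subgroup_dvd_card M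
    have hneM : Nat.card M ≠ g := fun h => hM (Subgroup.eq_top_of_card_eq M (by rw [h, hgg]))
    have hNdvd : 2 * k ∣ Nat.card M := by rw [← hcN]; exact Subgroup.card_dvd_of_le hNM
    rw [hcN]
    rcases dickson_proper p M hM t (hNM htN) htp with ⟨-, h⟩ | ⟨j, hj, -, h⟩ | ⟨P, hP⟩ |
      ⟨⟨e⟩, h, ho⟩ | ⟨-, h, ho⟩ | ⟨-, h, ho⟩ | ⟨K, m, hm, hqm, hK2, hK⟩
    · exfalso
      rw [hF, hdd] at h
      have h1 : d * (2 * k) ∣ d * Nat.card M := Nat.mul_dvd_mul_left d hNdvd
      have h2 : d * (2 * k) = 2 * (q - 1) := by rw [← hk']; ring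
      rw [h2] at h1
      rcases h with h | h
      · have := Nat.le_of_dvd (by omega) (h1.trans h); omega
      · have := Nat.le_of_dvd (by omega) (h1.trans h); omega
    · rw [hF, hdd] at hj
      rw [h] at hNdvd ⊢
      have hkj : k ∣ j := Nat.dvd_of_mul_dvd_mul_left (by norm_num) hNdvd
      rcases hj with hj | hj
      · have h3 : d * j ≤ d * k := by
          rw [hk']; exact Nat.le_of_dvd (by omega) hj
        have := Nat.le_of_mul_le_mul_left h3 hd0
        omega
      · exfalso
        have h1 : q - 1 ∣ q + 1 := by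
          rw [← hk']; exact (Nat.mul_dvd_mul_left d hkj).trans hj
        have h2 : q - 1 ∣ 2 := by
          have : q + 1 = (q - 1) + 2 := by omega
          rw [this] at h1
          exact (Nat.dvd_add_right (dvd_refl _)).1 h1
        have := Nat.le_of_dvd (by norm_num) h2
        omega
    · exfalso
      obtain ⟨-, -, -, h3, -, h4⟩ := borel_package p P
      have hr := hP (hNM (eN.symm (DihedralGroup.r 1)).2)
      have hs := hP (hNM (eN.symm (DihedralGroup.sr 0)).2)
      have h5 := h4 _ (h3 _ hs _ hr)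
      have h6 : ((eN.symm (DihedralGroup.sr 0) * eN.symm (DihedralGroup.r 1) *
          (eN.symm (DihedralGroup.sr 0))⁻¹ * (eN.symm (DihedralGroup.r 1))⁻¹) ^ p : N) = 1 :=
        Subtype.ext h5
      rw [← map_inv, ← map_inv, ← map_mul, ← map_mul, ← map_mul, dihedral_comm, ← map_pow,
        MulEquiv.map_eq_one_iff, inv_pow, inv_eq_one, ← pow_mul] at h6
      have h7 : k ∣ 2 * p := by
        have := orderOf_dvd_of_pow_eq_one h6
        rwa [DihedralGroup.orderOf_r_one] at this
      have h8 : Nat.Coprime k p := by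
        rw [Nat.coprime_comm, hp.coprime_iff_not_dvd]
        intro h9
        exact hpq1 (by rw [← hk']; exact Dvd.dvd.mul_left h9 d)
      have h9 : k ∣ 2 := h8.dvd_of_dvd_mul_right h7
      have h10 := (small_A4 q d k hdd hk' hq4 n5 n7 (Or.inl h9)).2
      rw [h10] at h9
      revert h9; decide
    · exfalso
      rw [hord] at ho
      obtain ⟨-, h3⟩ := small_A4 q d k hdd hk' hq4 n5 n7 ho
      exact no_index_two_of_alt N M hNM e (by rw [h, hcN, h3])
    · exfalso
      rw [hord] at ho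
      exact small_S4 q d k g hdd hk' hg hq4 n5 n7 n9 ho (h ▸ hdvdM)
    · exfalso
      rw [hord] at ho
      exact small_A5 q d k g hdd hk' hg hq4 n5 n7 n9 n11 ho (h ▸ hdvdM)
        (fun h' => hneM (h.trans h'.symm))
    · rw [hF] at hqm
      rw [hF, hdd, hord] at hK
      generalize Nat.card K = q₁ at *
      have h1 : q₁ ^ 2 ≤ q := by
        rw [hqm]; exact Nat.pow_le_pow_right (by omega) hm
      have hgcd : d = Nat.gcd 2 (q₁ - 1) := by
        rw [← hdd, hqm, gcd_two_pow _ _ (by omega) (by omega)]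
      have key : q - 1 ≤ q₁ + 1 → q₁ = 2 ∧ q = 4 ∧ d = 1 := by
        intro h2
        have h3 : q₁ = 2 := by
          by_contra hcon
          have h3 : 3 ≤ q₁ := by omega
          have h4 : q₁ * 3 ≤ q₁ ^ 2 := by rw [sq]; exact Nat.mul_le_mul_left _ h3
          omega
        subst h3
        refine ⟨rfl, by omega, ?_⟩
        rw [hgcd]; decide
      rcases hK with ⟨-, hc, h⟩ | ⟨-, hc, h⟩
      · rw [hk'] at h
        have h2 : q - 1 ≤ q₁ + 1 := by
          rcases h with h | h
          · have := Nat.le_of_dvd (by omega) h; omega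
          · exact Nat.le_of_dvd (by omega) h
        obtain ⟨rfl, rfl, rfl⟩ := key h2
        omega
      · have h2 : k ≤ q₁ + 1 := by
          rcases h with h | h
          · have := Nat.le_of_dvd (by omega) h; omega
          · exact Nat.le_of_dvd (by omega) h
        rcases (by omega : d = 1 ∨ d = 2) with hd1 | hd1
        · obtain ⟨rfl, rfl, -⟩ := key (by rw [← hk', hd1]; omega)
          subst hd1
          omega
        · exfalso
          have h3 : 3 ≤ q₁ := by
            by_contra hcon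
            have : q₁ = 2 := by omega
            rw [this, hd1] at hgcd
            revert hgcd; decide
          rw [hd1] at hk'
          have h5 : q₁ = 3 := by
            by_contra hcon
            have h3 : 4 ≤ q₁ := by omega
            have h4 : q₁ * 4 ≤ q₁ ^ 2 := by rw [sq]; exact Nat.mul_le_mul_left _ h3
            omega
          subst h5
          omega

end Cfsg.Agent.S0812
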