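import Cfsg.Statements.S0818
import Cfsg.Agent.Lib.Helper13.OOutN
import Cfsg.Agent.S2696

set_option autoImplicit false
open Cfsg

namespace Cfsg.Agent.S0818

/-- |Aut(PΩ⁻_2m(q))| for q = p^f, m ≥ 4 (form quadFormMinus (m−1) with anisotropic binary part): |PΩ⁻_2m(q)| times f, times 2 if p = 2, and times 4 or 8 if p is odd according as m(q−1)/2 is even or odd. -/
theorem result {F : Type*} [Field F] [Fintype F] (p f : ℕ) [Fact p.Prime] (hf : 1 ≤ f) (hF : Fintype.card F = p ^ f) (m : ℕ) (hm : 4 ≤ m) (a b : F) (hab : ∀ z₁ z₂ : F, z₁ ^ 2 + a * z₁ * z₂ + b * z₂ ^ 2 = 0 → z₁ = 0 ∧ z₂ = 0) : Nat.card (MulAut (Cfsg.POmega F (Cfsg.quadFormMinus (m - 1) F a b))) = (if p = 2 then 2 else (if Even (m * (p ^ f - 1) / 2) then 4 else 8)) * f * Nat.card (Cfsg.POmega F (Cfsg.quadFormMinus (m - 1) F a b)) := by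
  have h := Cfsg.Agent.Lib.Helper13.OOut.card_aut_minus (m - 1) hF (by omega) hab
    (Cfsg.Agent.S2696.result (by omega) a b hab)
  rw [h]
  by_cases hp2 : p = 2
  · rw [if_pos hp2, if_pos hp2]
  · rw [if_neg hp2, if_neg hp2]
    have hodd : Odd (p ^ f) := ((Fact.out : p.Prime).odd_of_ne_two hp2).pow
    obtain ⟨k, hk⟩ := hodd
    have h1 : m * (p ^ f - 1) / 2 = m * k := by
      rw [hk, Nat.add_sub_cancel, show m * (2 * k) = 2 * (m * k) by ring,
        Nat.mul_div_cancel_left _ (by norm_num)]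
    have h2 : (Even (m - 1) ∧ p ^ f % 4 = 3) ↔ ¬ Even (m * (p ^ f - 1) / 2) := by
      rw [h1, Nat.even_mul, hk]
      have e1 : Even (m - 1) ↔ ¬ Even m := by
        rw [Nat.even_sub (by omega)]
        simp
      have e2 : (2 * k + 1) % 4 = 3 ↔ ¬ Even k := by
        rw [Nat.even_iff]; omega
      rw [e1, e2]; tauto
    by_cases hc : Even (m * (p ^ f - 1) / 2)
    · rw [if_pos hc, if_neg (by rw [h2]; exact not_not.2 hc)]
    · rw [if_neg hc, if_pos (h2.2 hc)]

end Cfsg.Agent.S0818
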