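import Cfsg.Statements.S0819
import Cfsg.Agent.Lib.Helper43.F4Cubic

set_option autoImplicit false
open Cfsg

namespace Cfsg.Agent.S0819

open Polynomial Matrix Cfsg.Agent.Lib.Helper43

/-- In `SL_3(4)` some power `M ^ k`, `k ∈ {3,4,5,7}`, is scalar. -/
theorem exists_pow_scalar {F : Type*} [Field F] [Fintype F] (hF : Fintype.card F = 4)
    (M : Matrix (Fin 3) (Fin 3) F) (hM : M.det = 1) :
    ∃ (k : ℕ) (r : F), (k = 3 ∨ k = 4 ∨ k = 5 ∨ k = 7) ∧ M ^ k = Matrix.scalar (Fin 3) r := by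
  obtain ⟨h2, ω, hω, hall⟩ := f4_elems hF
  have hmonic : M.charpoly.Monic := M.charpoly_monic
  have hdeg : M.charpoly.natDegree = 3 := by simp [M.charpoly_natDegree_eq_dim]
  have hc0 : M.charpoly.coeff 0 = 1 := by
    have := Matrix.det_eq_sign_charpoly_coeff M
    rw [hM] at this
    simp only [Fintype.card_fin] at this
    linear_combination this - h2
  have hsum : M.charpoly = X ^ 3 + C (M.charpoly.coeff 2) * X ^ 2 + C (M.charpoly.coeff 1) * X + 1 := by
    have := hmonic.as_sum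
    rw [hdeg] at this
    simp only [Finset.sum_range_succ, Finset.sum_range_zero, hc0] at this
    refine this.trans ?_
    simp only [map_one, pow_zero, pow_one, mul_one, zero_add]
    ring
  have h2' : (2 : F[X]) = 0 := by
    calc (2 : F[X]) = C (2 : F) := (map_ofNat C 2).symm
      _ = 0 := by rw [h2, C_0]
  have hW : (C ω : F[X]) ^ 2 = C ω + 1 := by
    rw [← C_pow, hω, C_add, C_1]
  have hCall : ∀ y : F, (C y : F[X]) = 0 ∨ (C y : F[X]) = 1 ∨ (C y : F[X]) = C ω ∨ (C y : F[X]) = C ω + 1 := by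
    intro y
    rcases hall y with h | h | h | h
    · left; rw [h, C_0]
    · right; left; rw [h, C_1]
    · right; right; left; rw [h]
    · right; right; right; rw [h, C_add, C_1]
  obtain ⟨k, lam, q, hk, hlam, hq⟩ := f4_cubic_pow (X : F[X]) (C ω) (C (M.charpoly.coeff 1))
    (C (M.charpoly.coeff 2)) h2' hW (hCall _) (hCall _)
  rw [← hsum] at hq
  obtain ⟨r, hr⟩ : ∃ r : F, lam = C r := by
    rcases hlam with h | h | h
    · exact ⟨1, by rw [h, C_1]⟩
    · exact ⟨ω, h⟩
    · exact ⟨ω + 1, by rw [h, C_add, C_1]⟩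
  refine ⟨k, r, hk, ?_⟩
  have h := congrArg (aeval M) hq
  rw [map_mul, Matrix.aeval_self_charpoly, zero_mul, map_sub, map_pow, aeval_X, hr, aeval_C,
    sub_eq_zero] at h
  rw [h, Matrix.scalar_apply, Matrix.algebraMap_eq_diagonal]
  rfl

/-- No element of PSL_3(4) has order 15. -/
theorem result {F : Type*} [Field F] [Fintype F] (hF : Fintype.card F = 4) (g : Matrix.ProjectiveSpecialLinearGroup (Fin 3) F) : orderOf g ≠ 15 := by
  obtain ⟨A, rfl⟩ := QuotientGroup.mk_surjective g
  obtain ⟨k, r, hk, hpow⟩ := exists_pow_scalar hF (A : Matrix (Fin 3) (Fin 3) F) A.det_coe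
  have hr3 : r ^ 3 = 1 := by
    have h1 : ((A : Matrix (Fin 3) (Fin 3) F) ^ k).det = 1 := by
      rw [Matrix.det_pow, A.det_coe, one_pow]
    rw [hpow] at h1
    simpa using h1
  have hc : A ^ k ∈ Subgroup.center (Matrix.SpecialLinearGroup (Fin 3) F) := by
    rw [Matrix.SpecialLinearGroup.mem_center_iff]
    refine ⟨r, by simpa using hr3, ?_⟩
    rw [Matrix.SpecialLinearGroup.coe_pow, hpow]
  have h1 : (QuotientGroup.mk A : Matrix.ProjectiveSpecialLinearGroup (Fin 3) F) ^ k = 1 := by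
    rw [← QuotientGroup.mk_pow]
    exact (QuotientGroup.eq_one_iff _).mpr hc
  intro h15
  have := orderOf_dvd_of_pow_eq_one h1
  rw [h15] at this
  rcases hk with rfl | rfl | rfl | rfl <;> omega

end Cfsg.Agent.S0819
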