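import Cfsg.Statements.S2579
import Cfsg.Agent.Lib.Helper43.TransvMat

set_option autoImplicit false
open Cfsg

namespace Cfsg.Agent.S2579

open Cfsg.Agent.Lib.Helper43 Module Matrix in
/-- In SL_n(F) with n ≥ 3, over a finite field F, any two transvections (matrices t with t − 1 of rank one and square zero) are conjugate by an element of SL_n(F). -/
theorem result {F : Type*} [Field F] [Finite F] {n : ℕ} (hn : 3 ≤ n) (s t : Matrix.SpecialLinearGroup (Fin n) F) (hs : Cfsg.IsTransvection (s : Matrix (Fin n) (Fin n) F)) (ht : Cfsg.IsTransvection (t : Matrix (Fin n) (Fin n) F)) : IsConj s t := by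
  classical
  obtain ⟨φ, a, ha, hφ, hφa, hsx⟩ := transvection_decomp _ hs
  obtain ⟨ψ, b, hb, hψ, hψb, htx⟩ := transvection_decomp _ ht
  obtain ⟨g, hga, hgφ, hdet⟩ := exists_equiv_of_flags_det_one (by simpa using hn) a b φ ψ ha hb hφ hψ hφa hψb
  let M : Matrix (Fin n) (Fin n) F := LinearMap.toMatrix' (g : (Fin n → F) →ₗ[F] (Fin n → F))
  have hM : M.det = 1 := by rw [LinearMap.det_toMatrix', hdet]
  have hMx : ∀ x, M *ᵥ x = g x := by
    intro x
    have : Matrix.toLin' M = (g : (Fin n → F) →ₗ[F] (Fin n → F)) := Matrix.toLin'_toMatrix' _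
    rw [← Matrix.toLin'_apply, this]; rfl
  let c : Matrix.SpecialLinearGroup (Fin n) F := ⟨M, hM⟩
  rw [isConj_iff]
  refine ⟨c, ?_⟩
  rw [mul_inv_eq_iff_eq_mul]
  apply Subtype.ext
  show M * (s : Matrix (Fin n) (Fin n) F) = (t : Matrix (Fin n) (Fin n) F) * M
  apply mulVec_ext
  intro x
  rw [← Matrix.mulVec_mulVec, ← Matrix.mulVec_mulVec, hsx, hMx, hMx, htx, map_add, map_smul, hga, hgφ]

end Cfsg.Agent.S2579
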