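import Cfsg.Statements.S0820
import Cfsg.Agent.S2579

set_option autoImplicit false
open Cfsg

namespace Cfsg.Agent.S0820

open Matrix

/-- Every involution of `PSL_3(4)` lifts to a transvection of `SL_3(4)`. -/
theorem exists_transvection_lift {F : Type*} [Field F] [Fintype F] (hF : Fintype.card F = 4)
    (x : Matrix.ProjectiveSpecialLinearGroup (Fin 3) F) (hx : orderOf x = 2) :
    ∃ Y : Matrix.SpecialLinearGroup (Fin 3) F,
      (QuotientGroup.mk Y : Matrix.ProjectiveSpecialLinearGroup (Fin 3) F) = x ∧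
        Cfsg.IsTransvection (Y : Matrix (Fin 3) (Fin 3) F) := by
  classical
  have h2 : (2 : F) = 0 := by
    have h4 : ((4 : ℕ) : F) = 0 := hF ▸ Nat.cast_card_eq_zero F
    have : (2 : F) * 2 = 0 := by
      norm_num at h4 ⊢; exact h4
    exact mul_self_eq_zero.mp this
  obtain ⟨X, rfl⟩ := QuotientGroup.mk_surjective x
  have hx2 : (QuotientGroup.mk X : Matrix.ProjectiveSpecialLinearGroup (Fin 3) F) ^ 2 = 1 := by
    rw [← hx]; exact pow_orderOf_eq_one _
  have hX2 : X ^ 2 ∈ Subgroup.center (Matrix.SpecialLinearGroup (Fin 3) F) := by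
    rw [← QuotientGroup.eq_one_iff]; exact hx2
  obtain ⟨r, hr, hrX⟩ := Matrix.SpecialLinearGroup.mem_center_iff.mp hX2
  have hr3 : r ^ 3 = 1 := by simpa using hr
  let Z : Matrix.SpecialLinearGroup (Fin 3) F := ⟨Matrix.scalar (Fin 3) r, by simp [hr3]⟩
  have hZ : Z ∈ Subgroup.center (Matrix.SpecialLinearGroup (Fin 3) F) :=
    Matrix.SpecialLinearGroup.mem_center_iff.mpr ⟨r, hr, rfl⟩
  have hmk : (QuotientGroup.mk (Z * X) : Matrix.ProjectiveSpecialLinearGroup (Fin 3) F)
      = QuotientGroup.mk X := by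
    rw [QuotientGroup.mk_mul, (QuotientGroup.eq_one_iff Z).mpr hZ, one_mul]
  refine ⟨Z * X, hmk, ?_⟩
  set Y : Matrix (Fin 3) (Fin 3) F := ((Z * X : Matrix.SpecialLinearGroup (Fin 3) F) :
    Matrix (Fin 3) (Fin 3) F) with hY
  have hYr : Y = r • (X : Matrix (Fin 3) (Fin 3) F) := by
    rw [hY, Matrix.SpecialLinearGroup.coe_mul]
    show Matrix.scalar (Fin 3) r * _ = _
    rw [Matrix.scalar_apply, ← Matrix.smul_one_eq_diagonal, Matrix.smul_mul, Matrix.one_mul]
  have hXX : (X : Matrix (Fin 3) (Fin 3) F) * (X : Matrix (Fin 3) (Fin 3) F) = r • 1 := by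
    have : ((X ^ 2 : Matrix.SpecialLinearGroup (Fin 3) F) : Matrix (Fin 3) (Fin 3) F)
        = Matrix.scalar (Fin 3) r := hrX.symm
    rw [Matrix.SpecialLinearGroup.coe_pow, pow_two] at this
    rw [this, Matrix.scalar_apply, ← Matrix.smul_one_eq_diagonal]
  have hYY : Y * Y = 1 := by
    rw [hYr, Matrix.smul_mul, Matrix.mul_smul, hXX, smul_smul, smul_smul, ← pow_two, ← pow_succ,
      hr3, one_smul]
  have hsq : (Y - 1) * (Y - 1) = 0 := by
    have : (Y - 1) * (Y - 1) = Y * Y - (2 : F) • Y + 1 := by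
      rw [two_smul]; noncomm_ring
    rw [this, hYY, h2, zero_smul, sub_zero]
    have : (1 : Matrix (Fin 3) (Fin 3) F) + 1 = (2 : F) • 1 := by rw [two_smul]
    rw [this, h2, zero_smul]
  have hne : Y - 1 ≠ 0 := by
    intro h0
    have hY1 : (Z * X : Matrix.SpecialLinearGroup (Fin 3) F) = 1 := by
      apply Subtype.ext
      show Y = 1
      exact sub_eq_zero.mp h0
    rw [hY1] at hmk
    have : orderOf (QuotientGroup.mk X : Matrix.ProjectiveSpecialLinearGroup (Fin 3) F) = 1 := by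
      rw [← hmk]; exact orderOf_one
    omega
  refine ⟨?_, hsq⟩
  have h1 := Matrix.rank_add_rank_le_card_of_mul_eq_zero hsq
  have h3 : (Y - 1).rank ≠ 0 := by
    intro h0
    have hb : LinearMap.range (Y - 1).mulVecLin = ⊥ := Submodule.finrank_eq_zero.mp h0
    rw [LinearMap.range_eq_bot, ← Matrix.toLin'_apply'] at hb
    exact hne ((LinearEquiv.map_eq_zero_iff _).mp hb)
  simp only [Fintype.card_fin] at h1
  omega

/-- Any two elements of order 2 of PSL_3(4) are conjugate. -/
theorem result {F : Type*} [Field F] [Fintype F] (hF : Fintype.card F = 4) (x y : Matrix.ProjectiveSpecialLinearGroup (Fin 3) F) (hx : orderOf x = 2) (hy : orderOf y = 2) : IsConj x y := by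
  obtain ⟨X, rfl, hX⟩ := exists_transvection_lift hF x hx
  obtain ⟨Y, rfl, hY⟩ := exists_transvection_lift hF y hy
  have := Cfsg.Agent.S2579.result (le_refl 3) X Y hX hY
  exact (QuotientGroup.mk' _).map_isConj this

end Cfsg.Agent.S0820
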