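import Cfsg.Statements.S0822
import Cfsg.Agent.Lib.Helper54.Sp4Iso
import Cfsg.Agent.Lib.Helper54.PSpCongr

set_option autoImplicit false
open Cfsg

namespace Cfsg.Agent.S0822

/-- PSU_4(2) ≅ PSp_4(3): with |F| = 4 and |K| = 3, the projective special unitary group of the standard Hermitian form on F^4 is isomorphic to PSp_4(K). -/
theorem result {F K : Type*} [Field F] [Fintype F] [Field K] [Fintype K] (hF : Fintype.card F = 4) (hK : Fintype.card K = 3) : Nonempty (Cfsg.PSU 4 F 2 ≃* Cfsg.PSp 2 K) := by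
  open Cfsg.Agent.Lib.Helper54 in
  obtain ⟨e1⟩ := Cfsg.Agent.Lib.Helper54.W4.main0
  obtain ⟨e2⟩ := psu_congr_of_card (F := F) (K := Cfsg.Agent.Lib.Helper54.K4)
    (by rw [hF]; exact Cfsg.Agent.Lib.Helper54.K4.card_eq.symm) 4 2
  obtain ⟨e3⟩ := psp_congr_of_card (F := ZMod 3) (K := K) (by rw [hK]; exact ZMod.card 3) 2
  exact ⟨(e2.trans e1.symm).trans e3⟩

end Cfsg.Agent.S0822
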