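import Cfsg.Statements.S0823
import Cfsg.Agent.S1012
import Cfsg.Agent.Lib.Helper57.IsoPerm

set_option autoImplicit false
open Cfsg

namespace Cfsg.Agent.S0823

open Matrix Cfsg.Agent.Lib.Helper57

abbrev I := Unit ⊕ (Fin 1 ⊕ Fin 1)

/-- Determinant one isometries over `ZMod 3` (with a redundant first clause to speed up the
enumeration). -/
def P (M : Matrix I I (ZMod 3)) : Prop :=
  (∀ j : I, Cfsg.quadFormOdd 1 (ZMod 3) (fun i => M i j) =
    Cfsg.quadFormOdd 1 (ZMod 3) (Pi.single j 1)) ∧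
  (∀ v : I → ZMod 3, Cfsg.quadFormOdd 1 (ZMod 3) (M *ᵥ v) = Cfsg.quadFormOdd 1 (ZMod 3) v) ∧
  M.det = 1

instance (M : Matrix I I (ZMod 3)) : Decidable (P M) := by unfold P; infer_instance

set_option maxRecDepth 10000000 in
theorem c24 : Fintype.card {M : Matrix I I (ZMod 3) // P M} = 24 := by decide +kernel

set_option maxRecDepth 10000000 in
theorem no6 : ∀ M : Matrix I I (ZMod 3), P M → M ^ 6 = 1 → M ^ 2 = 1 ∨ M ^ 3 = 1 := by
  decide +kernel

theorem P_of {M : Matrix I I (ZMod 3)}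
    (h1 : ∀ v : I → ZMod 3, Cfsg.quadFormOdd 1 (ZMod 3) (M *ᵥ v) = Cfsg.quadFormOdd 1 (ZMod 3) v)
    (h2 : M.det = 1) : P M := by
  refine ⟨fun j => ?_, h1, h2⟩
  have := h1 (Pi.single j 1)
  rw [Matrix.mulVec_single_one] at this
  exact this

section

variable {F : Type*} [Field F] [Fintype F]

theorem quad_map (e : F ≃+* ZMod 3) (v : I → F) :
    e (Cfsg.quadFormOdd 1 F v) = Cfsg.quadFormOdd 1 (ZMod 3) (e ∘ v) := by
  simp [Cfsg.quadFormOdd]

/-- The matrix over `ZMod 3` of an element. -/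
def toM (e : F ≃+* ZMod 3) (g : ↥(Cfsg.specialIsometryGroup F (Cfsg.quadFormOdd 1 F))) :
    Matrix I I (ZMod 3) := ((g.1.1 : GL I F) : Matrix I I F).map e

theorem toM_mul (e : F ≃+* ZMod 3) (g h : ↥(Cfsg.specialIsometryGroup F (Cfsg.quadFormOdd 1 F))) :
    toM e (g * h) = toM e g * toM e h := by
  unfold toM
  exact Matrix.map_mul (f := e.toRingHom)

theorem toM_one (e : F ≃+* ZMod 3) :
    toM e (1 : ↥(Cfsg.specialIsometryGroup F (Cfsg.quadFormOdd 1 F))) = 1 := by
  unfold toM
  simp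

theorem toM_pow (e : F ≃+* ZMod 3) (g : ↥(Cfsg.specialIsometryGroup F (Cfsg.quadFormOdd 1 F)))
    (k : ℕ) : toM e (g ^ k) = toM e g ^ k := by
  induction k with
  | zero => rw [pow_zero, pow_zero, toM_one]
  | succ k ih => rw [pow_succ, pow_succ, toM_mul, ih]

theorem toM_injective (e : F ≃+* ZMod 3) : Function.Injective (toM (F := F) e) := by
  intro g h hgh
  apply Subtype.ext
  apply Subtype.ext
  apply Units.ext
  exact Matrix.map_injective e.injective hgh

theorem det_toM (e : F ≃+* ZMod 3) (A : Matrix I I F) : (A.map e).det = e A.det :=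
  (e.toRingHom.map_det A).symm

theorem toM_P (e : F ≃+* ZMod 3) (g : ↥(Cfsg.specialIsometryGroup F (Cfsg.quadFormOdd 1 F))) :
    P (toM e g) := by
  apply P_of
  · intro v
    have := (glMapEquiv_mem_iff e (Cfsg.quadFormOdd 1 F) (Cfsg.quadFormOdd 1 (ZMod 3))
      (quad_map e) g.1.1).2 g.1.2 v v
    exact this
  · have h := g.2
    have h1 : Matrix.GeneralLinearGroup.det (g.1.1 : GL I F) = 1 := h
    have h2 : ((g.1.1 : GL I F) : Matrix I I F).det = 1 := by
      have := congrArg Units.val h1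
      simpa using this
    unfold toM
    rw [det_toM, h2, map_one]

theorem toM_surj (e : F ≃+* ZMod 3) (M : Matrix I I (ZMod 3)) (hM : P M) :
    ∃ g : ↥(Cfsg.specialIsometryGroup F (Cfsg.quadFormOdd 1 F)), toM e g = M := by
  let g0 : GL I (ZMod 3) := Matrix.GeneralLinearGroup.mkOfDetNeZero M (by rw [hM.2.2]; decide)
  have hg0 : (g0 : Matrix I I (ZMod 3)) = M := rfl
  let g1 : GL I F := (glMapEquiv e).symm g0
  have hg1 : glMapEquiv e g1 = g0 := by simp [g1]
  have hcoe : (g1 : Matrix I I F).map e = M := by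
    rw [← glMapEquiv_coe, hg1, hg0]
  have hmem : g1 ∈ Cfsg.isometryGroup F (Cfsg.quadFormOdd 1 F) := by
    rw [← glMapEquiv_mem_iff e (Cfsg.quadFormOdd 1 F) (Cfsg.quadFormOdd 1 (ZMod 3)) (quad_map e),
      hg1]
    intro u _
    exact hM.2.1 u
  have hdet : (g1 : Matrix I I F).det = 1 := by
    apply e.injective
    rw [← det_toM, hcoe, hM.2.2, map_one]
  refine ⟨⟨⟨g1, hmem⟩, ?_⟩, hcoe⟩
  show Matrix.GeneralLinearGroup.det g1 = 1
  apply Units.ext
  simpa using hdet

end

/-- SO_3(3) ≅ S_4: the determinant-one isometries of the form x_0² + x_1y_1 over the field with 3 elements form a group isomorphic to the symmetric group on 4 letters. -/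
theorem result {F : Type*} [Field F] [Fintype F] (hF : Fintype.card F = 3) : Nonempty (↥(Cfsg.specialIsometryGroup F (Cfsg.quadFormOdd 1 F)) ≃* Equiv.Perm (Fin 4)) := by
  let e : F ≃+* ZMod 3 := (ZMod.ringEquivOfPrime F Nat.prime_three hF).symm
  have hcard : Nat.card ↥(Cfsg.specialIsometryGroup F (Cfsg.quadFormOdd 1 F)) = 24 := by
    let ψ : ↥(Cfsg.specialIsometryGroup F (Cfsg.quadFormOdd 1 F)) →
        {M : Matrix I I (ZMod 3) // P M} := fun g => ⟨toM e g, toM_P e g⟩
    have hψ : Function.Bijective ψ := by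
      constructor
      · intro g h hgh
        exact toM_injective e (congrArg Subtype.val hgh)
      · rintro ⟨M, hM⟩
        obtain ⟨g, hg⟩ := toM_surj e M hM
        exact ⟨g, Subtype.ext hg⟩
    rw [Nat.card_congr (Equiv.ofBijective ψ hψ), Nat.card_eq_fintype_card, c24]
  have : Finite ↥(Cfsg.specialIsometryGroup F (Cfsg.quadFormOdd 1 F)) :=
    Nat.finite_of_card_ne_zero (by rw [hcard]; norm_num)
  apply Cfsg.Agent.S1012.result hcard
  intro g h6
  have hp6 : g ^ 6 = 1 := by rw [← h6]; exact pow_orderOf_eq_one g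
  have h1 : toM e g ^ 6 = 1 := by rw [← toM_pow, hp6, toM_one]
  rcases no6 _ (toM_P e g) h1 with h | h
  · have : g ^ 2 = 1 := toM_injective e (by rw [toM_pow, h, toM_one])
    have := orderOf_dvd_of_pow_eq_one this
    rw [h6] at this
    omega
  · have : g ^ 3 = 1 := toM_injective e (by rw [toM_pow, h, toM_one])
    have := orderOf_dvd_of_pow_eq_one this
    rw [h6] at this
    omega

end Cfsg.Agent.S0823
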