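import Cfsg.Statements.S0825
import Cfsg.Agent.Lib.Helper57.IsoPerm
import Cfsg.Agent.Lib.Helper57.OrthTransp

set_option autoImplicit false
open Cfsg

namespace Cfsg.Agent.S0825

open Matrix Cfsg.Agent.Lib.Helper57 Cfsg.Agent.Lib.Helper44 QuadraticMap

/-- the six-dimensional space -/
abbrev V : Type := Fin 3 ⊕ Fin 3 → ZMod 2

/-- the hyperbolic form -/
abbrev q : V → ZMod 2 := Cfsg.quadFormPlus 3 (ZMod 2)

/-- eight vectors whose pairwise sums are the 28 non-singular vectors -/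
def P : Fin 8 → V :=
  ![Sum.elim ![0, 0, 1] ![0, 0, 1], Sum.elim ![0, 1, 0] ![0, 1, 1], Sum.elim ![0, 1, 1] ![1, 1, 0],
    Sum.elim ![1, 0, 0] ![1, 1, 1], Sum.elim ![1, 0, 1] ![1, 0, 0], Sum.elim ![1, 1, 0] ![1, 0, 1],
    Sum.elim ![1, 1, 1] ![0, 1, 0], 0]

/-- the transvection formula -/
def T (v x : V) : V := x + (q (v + x) - q v - q x) • v

theorem F1 : ∀ v : V, q v = 1 → ∃ a b : Fin 8, a ≠ b ∧ v = P a + P b := by decide +kernel

theorem F2 : ∀ a b c d : Fin 8, a ≠ b → P a + P b = P c + P d →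
    (a = c ∧ b = d) ∨ (a = d ∧ b = c) := by decide +kernel

theorem F3 : ∀ x : V, x = ∑ j : Fin 8, (if j.val < 6 then q (x + (P j + P 6)) - q x - q (P j + P 6) else 0) • P j := by
  decide +kernel

theorem F4 : ∀ a b : Fin 8, a ≠ b → q (P a + P b) = 1 ∧ ∀ i j : Fin 8,
    T (P a + P b) (P i + P j) = P (Equiv.swap a b i) + P (Equiv.swap a b j) := by decide +kernel

theorem F5 : ∀ i : Fin 8, ∃ j k : Fin 8, j ≠ i ∧ k ≠ i ∧ j ≠ k := by decide

/-- the form as a Mathlib quadratic form -/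
noncomputable abbrev QQ : QuadraticForm (ZMod 2) V := plusQF 3 (ZMod 2)

theorem QQ_apply (v : V) : QQ v = q v := by
  have := plusQF_coe 3 (ZMod 2)
  exact congrFun this v

/-- the group over `ZMod 2` -/
abbrev GG : Type := ↥(Cfsg.isometryGroup (ZMod 2) ⇑QQ)

/-- the action on vectors -/
def act (g : GG) (x : V) : V := ((g : GL (Fin 3 ⊕ Fin 3) (ZMod 2)) : Matrix _ _ (ZMod 2)) *ᵥ x

theorem act_mul (g h : GG) (x : V) : act (g * h) x = act g (act h x) := by
  simp [act, Matrix.mulVec_mulVec]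

theorem act_one (x : V) : act 1 x = x := by simp [act]

theorem act_inv_act (g : GG) (x : V) : act g⁻¹ (act g x) = x := by
  rw [← act_mul, inv_mul_cancel, act_one]

theorem act_reflElt {a : V} (ha : q a = 1) (x : V) : act (reflElt QQ a) x = T a x := by
  have ha' : QQ a = 1 := by rw [QQ_apply]; exact ha
  unfold act
  rw [reflElt_coe, reflectionMatrix_mulVec, refl2_apply QQ ha']
  unfold T QuadraticMap.polar
  rw [QQ_apply, QQ_apply, QQ_apply]

/-- the relation between isometries and permutations -/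
def R (g : GG) (σ : Equiv.Perm (Fin 8)) : Prop :=
  ∀ i j : Fin 8, act g (P i + P j) = P (σ i) + P (σ j)

theorem R_mul (g g' : GG) (σ σ' : Equiv.Perm (Fin 8)) (h : R g σ) (h' : R g' σ') :
    R (g * g') (σ * σ') := by
  intro i j
  rw [act_mul, h' i j, h]; rfl

theorem R_inv (g : GG) (σ : Equiv.Perm (Fin 8)) (h : R g σ) : R g⁻¹ σ⁻¹ := by
  intro i j
  have := h (σ⁻¹ i) (σ⁻¹ j)
  simp only [Equiv.Perm.coe_inv, Equiv.apply_symm_apply] at this
  rw [← this, act_inv_act]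
  rfl

theorem R_uniq (g : GG) (σ σ' : Equiv.Perm (Fin 8)) (h : R g σ) (h' : R g σ') : σ = σ' := by
  ext i
  congr 1
  by_contra hne
  obtain ⟨j, k, hj, hk, hjk⟩ := F5 i
  have e1 : P (σ i) + P (σ j) = P (σ' i) + P (σ' j) := by rw [← h i j, ← h' i j]
  have e2 : P (σ i) + P (σ k) = P (σ' i) + P (σ' k) := by rw [← h i k, ← h' i k]
  have n1 : σ i ≠ σ j := fun e => hj (σ.injective e).symm
  have n2 : σ i ≠ σ k := fun e => hk (σ.injective e).symm
  rcases F2 _ _ _ _ n1 e1 with ⟨h1, _⟩ | ⟨h1, _⟩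
  · exact hne h1
  · rcases F2 _ _ _ _ n2 e2 with ⟨h2, _⟩ | ⟨h2, _⟩
    · exact hne h2
    · exact hjk (σ'.injective (h1.symm.trans h2))

theorem P7 : P 7 = 0 := rfl

theorem R_inj (g : GG) (h : R g 1) : g = 1 := by
  have hP : ∀ i, act g (P i) = P i := by
    intro i
    have := h i 7
    simpa [P7] using this
  apply isometryGroup_ext
  apply matrix_ext_mulVec
  intro x
  show act g x = _
  have h1 : ((1 : GG) : GL (Fin 3 ⊕ Fin 3) (ZMod 2)) = 1 := rfl
  rw [h1, Units.val_one, Matrix.one_mulVec]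
  conv_lhs => rw [F3 x]
  conv_rhs => rw [F3 x]
  unfold act
  rw [Matrix.mulVec_sum]
  apply Finset.sum_congr rfl
  intro j _
  rw [Matrix.mulVec_smul]
  congr 1
  exact hP j

theorem R_swap (a b : Fin 8) (hab : a ≠ b) : R (reflElt QQ (P a + P b)) (Equiv.swap a b) := by
  intro i j
  rw [act_reflElt (F4 a b hab).1]
  exact (F4 a b hab).2 i j

theorem R_ex (g : GG) : ∃ σ, R g σ := by
  have hcl := (isThreeTranspositionClass_orth QQ (plusQF_nondeg 3 (ZMod 2)) (by simp)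
    ⟨P 0 + P 1, by rw [QQ_apply]; exact (F4 0 1 (by decide)).1⟩).2.2
  rw [transvSet_eq QQ (plusQF_nondeg 3 (ZMod 2))] at hcl
  refine exists_rel_of_closure R _ hcl ?_ R_mul R_inv ?_ g
  · intro i j
    rw [act_one]; rfl
  · rintro _ ⟨v, hv, rfl⟩
    rw [QQ_apply] at hv
    obtain ⟨a, b, hab, rfl⟩ := F1 v hv
    exact ⟨_, R_swap a b hab⟩

theorem main : Nonempty (GG ≃* Equiv.Perm (Fin 8)) :=
  nonempty_mulEquiv_perm_of_rel R R_ex R_mul R_uniq R_inj (fun a b hab => ⟨_, R_swap a b hab⟩)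

/-- O⁺_6(2) ≅ S_8: the isometry group of the hyperbolic form x_1y_1 + x_2y_2 + x_3y_3 over the field with 2 elements is isomorphic to the symmetric group on 8 letters. -/
theorem result {F : Type*} [Field F] [Fintype F] (hF : Fintype.card F = 2) : Nonempty (↥(Cfsg.isometryGroup F (Cfsg.quadFormPlus 3 F)) ≃* Equiv.Perm (Fin 8)) := by
  obtain ⟨E⟩ := main
  have hE : ⇑QQ = Cfsg.quadFormPlus 3 (ZMod 2) := plusQF_coe 3 (ZMod 2)
  let e : F ≃+* ZMod 2 := (ZMod.ringEquivOfPrime F Nat.prime_two hF).symm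
  have h : ∀ v, e (Cfsg.quadFormPlus 3 F v) = ⇑QQ (e ∘ v) := by
    intro v
    rw [hE]
    simp [Cfsg.quadFormPlus, map_sum, map_mul]
  exact ⟨(isometryGroupCongr e _ _ h).trans E⟩

end Cfsg.Agent.S0825
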