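import Mathlib
import Cfsg.Statements.S0832
import Cfsg.Agent.Lib.Helper14.StdPlus
import Cfsg.Agent.Lib.Helper14.SingularTwo

set_option autoImplicit false
open Cfsg

namespace Cfsg.Agent.S0832

open Cfsg.Agent.Lib.Helper14

/-- For the form Σ x_i y_i on F^(2m) over a finite field, m ≥ 1: an (m−1)-dimensional subspace on which the form vanishes is contained in exactly two m-dimensional subspaces on which it vanishes. -/
theorem result {F : Type*} [Field F] [Finite F] (m : ℕ) (hm : 1 ≤ m) (U : Submodule F (Fin m ⊕ Fin m → F)) (hU : Module.finrank F U + 1 = m ∧ ∀ u ∈ U, Cfsg.quadFormPlus m F u = 0) : Nat.card {W : Submodule F (Fin m ⊕ Fin m → F) // Module.finrank F W = m ∧ (∀ w ∈ W, Cfsg.quadFormPlus m F w = 0) ∧ U ≤ W} = 2 := by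
  have hD : TS (plusQ m F) U := fun u hu => by rw [plusQ_apply]; exact hU.2 u hu
  obtain ⟨W₁, W₂, hne, ⟨h₁, h₁d, h₁U⟩, ⟨h₂, h₂d, h₂U⟩, hall⟩ :=
    TS.exactly_two (plusQ_nondegenerate m F) (finrank_plus m F) (plusM₀_ts m F)
      (plusM₀_finrank m F) hD hU.1
  have hset : {W : Submodule F (Fin m ⊕ Fin m → F) | Module.finrank F W = m ∧ (∀ w ∈ W, Cfsg.quadFormPlus m F w = 0) ∧ U ≤ W} = {W₁, W₂} := by
    ext W
    simp only [Set.mem_ofPred_eq, Set.mem_insert_iff, Set.mem_singleton_iff]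
    constructor
    · rintro ⟨hWd, hW, hUW⟩
      exact hall W (fun w hw => by rw [plusQ_apply]; exact hW w hw) hWd hUW
    · rintro (rfl | rfl)
      · exact ⟨h₁d, fun w hw => by rw [← plusQ_apply]; exact h₁ w hw, h₁U⟩
      · exact ⟨h₂d, fun w hw => by rw [← plusQ_apply]; exact h₂ w hw, h₂U⟩
  have := Set.ncard_pair hne
  rw [← hset] at this
  exact this

end Cfsg.Agent.S0832
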