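import Mathlib
import Cfsg.Statements.S0835
import Cfsg.Agent.Lib.Helper14.DiscWitt
import Cfsg.Agent.Lib.Helper14.Isotropic

set_option autoImplicit false
open Cfsg

namespace Cfsg.Agent.S0835

open Cfsg.Agent.Lib.Helper14

/-- Over a finite field with 2 ≠ 0: if B₁ on U (dim 2k, k ≥ 1) is non-degenerate symmetric of minus type (no totally isotropic k-subspace) and B₂ on W (dim 2l + 1) is non-degenerate symmetric, then B₁ ⊗ B₂ (dimension 2k(2l+1)) admits no totally isotropic subspace of dimension k(2l+1) (minus type). -/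
theorem result {F U W : Type*} [Field F] [Fintype F] [AddCommGroup U] [Module F U] [FiniteDimensional F U] [AddCommGroup W] [Module F W] [FiniteDimensional F W] (h2 : (2 : F) ≠ 0) (B₁ : LinearMap.BilinForm F U) (B₂ : LinearMap.BilinForm F W) (h₁ : B₁.Nondegenerate) (h₂ : B₂.Nondegenerate) (hS₁ : B₁.IsSymm) (hS₂ : B₂.IsSymm) (k l : ℕ) (hk : 1 ≤ k) (hU : Module.finrank F U = 2 * k) (hW : Module.finrank F W = 2 * l + 1) (hm₁ : ¬ (∃ X : Submodule F (U), Module.finrank F X = k ∧ ∀ x ∈ X, ∀ y ∈ X, (B₁) x y = 0)) : ¬ (∃ X : Submodule F (TensorProduct F U W), Module.finrank F X = k * (2 * l + 1) ∧ ∀ x ∈ X, ∀ y ∈ X, (B₁.tmul B₂) x y = 0) := by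
  obtain ⟨d₁, hd₁⟩ := exists_hasDisc B₁
  obtain ⟨d₂, hd₂⟩ := exists_hasDisc B₂
  have hd := hd₁.tmul hd₂
  have hS : LinearMap.BilinForm.IsSymm (B₁.tmul B₂) :=
    LinearMap.BilinForm.isSymm_iff.mpr (LinearMap.IsSymm.tmul
      (LinearMap.BilinForm.isSymm_iff.mp hS₁) (LinearMap.BilinForm.isSymm_iff.mp hS₂))
  have hdim : Module.finrank F (TensorProduct F U W) = 2 * (k * (2 * l + 1)) := by
    rw [Module.finrank_tensorProduct, hU, hW]; ring
  rw [isotropic_iff_isSquare h2 (k * (2 * l + 1)) (B₁.tmul B₂) hS (tmul_nondegenerate B₁ B₂ h₁ h₂)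
    hdim _ hd]
  rw [isotropic_iff_isSquare h2 k B₁ hS₁ h₁ hU _ hd₁] at hm₁
  rw [hU, hW]
  have hd₁0 := hd₁.ne_zero h₁
  have hd₂0 := hd₂.ne_zero h₂
  have ht : ((-1) ^ k * d₁) ^ l * d₂ ^ k ≠ 0 :=
    mul_ne_zero (pow_ne_zero _ (mul_ne_zero (pow_ne_zero _ (by simp)) hd₁0)) (pow_ne_zero _ hd₂0)
  have : (-1 : F) ^ (k * (2 * l + 1)) * (d₁ ^ (2 * l + 1) * d₂ ^ (2 * k))
      = (((-1) ^ k * d₁) ^ l * d₂ ^ k) * (((-1) ^ k * d₁) ^ l * d₂ ^ k) * ((-1) ^ k * d₁) := by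
    ring
  rw [this, isSquare_sq_mul_iff ht]
  exact hm₁

end Cfsg.Agent.S0835
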