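import Mathlib
import Cfsg.Statements.S0836

set_option autoImplicit false
open Cfsg
open scoped commutatorElement

namespace Cfsg.Agent.S0836

theorem mem_commSet_of_mul_eq {G : Type*} [Group G] (t g h : G) (H : t * h * g = g * h) :
    t ∈ commutatorSet G := by
  refine ⟨g, h, ?_⟩
  rw [commutatorElement_def, ← H]
  group

/-- For i ≠ j and any scalar c, the elementary transvection 1 + c E_ij is a commutator ⁅g, h⁆ of two elements of SL_n(F) provided n ≥ 3, or n = 2 and F contains x ≠ 0 with x² ≠ 1. -/
theorem result {F : Type*} [Field F] (n : ℕ) (hn : 3 ≤ n ∨ (n = 2 ∧ ∃ x : F, x ≠ 0 ∧ x ^ 2 ≠ 1)) (i j : Fin n) (hij : i ≠ j) (c : F) (t : Matrix.SpecialLinearGroup (Fin n) F) (ht : (t : Matrix (Fin n) (Fin n) F) = Matrix.transvection i j c) : t ∈ commutatorSet (Matrix.SpecialLinearGroup (Fin n) F) := by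
  rcases hn with hn | ⟨rfl, x, hx0, hx1⟩
  · -- pick k different from i and j
    obtain ⟨k, hki, hkj⟩ : ∃ k : Fin n, k ≠ i ∧ k ≠ j := by
      by_contra hcon
      push Not at hcon
      have hsub : (Finset.univ : Finset (Fin n)) ⊆ {i, j} := by
        intro k _
        by_cases hk : k = i
        · simp [hk]
        · simp [hcon k hk]
      have := Finset.card_le_card hsub
      have h2 : ({i, j} : Finset (Fin n)).card ≤ 2 := Finset.card_le_two
      simp at this
      omega
    apply mem_commSet_of_mul_eq t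
      ⟨Matrix.transvection i k c, Matrix.det_transvection_of_ne i k hki.symm c⟩
      ⟨Matrix.transvection k j 1, Matrix.det_transvection_of_ne k j hkj 1⟩
    apply Subtype.ext
    show (t : Matrix (Fin n) (Fin n) F) * Matrix.transvection k j 1 * Matrix.transvection i k c
      = Matrix.transvection i k c * Matrix.transvection k j 1
    rw [ht]
    simp only [Matrix.transvection, mul_add, add_mul, mul_one, one_mul,
      Matrix.single_mul_single_same, Matrix.single_mul_single_of_ne _ _ _ _ hij.symm,
      Matrix.single_mul_single_of_ne _ _ _ _ hkj.symm, add_zero, zero_mul, mul_zero]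
    abel
  · have hx2 : x ^ 2 - 1 ≠ 0 := sub_ne_zero.mpr hx1
    set b : F := c / (x ^ 2 - 1) with hb
    have hbc : c = (x ^ 2 - 1) * b := by rw [hb]; field_simp
    fin_cases i <;> fin_cases j
    · exact absurd rfl hij
    · apply mem_commSet_of_mul_eq t
        ⟨!![x, 0; 0, x⁻¹], by simp [Matrix.det_fin_two, hx0]⟩
        ⟨!![1, b; 0, 1], by simp [Matrix.det_fin_two]⟩
      apply Subtype.ext
      show (t : Matrix (Fin 2) (Fin 2) F) * !![1, b; 0, 1] * !![x, 0; 0, x⁻¹]
        = !![x, 0; 0, x⁻¹] * !![1, b; 0, 1]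
      rw [ht]
      ext a d
      fin_cases a <;> fin_cases d <;>
        simp [Matrix.transvection, Matrix.mul_apply, Fin.sum_univ_two, Matrix.single_apply]
      rw [hbc]; field_simp; ring
    · apply mem_commSet_of_mul_eq t
        ⟨!![x⁻¹, 0; 0, x], by simp [Matrix.det_fin_two, hx0]⟩
        ⟨!![1, 0; b, 1], by simp [Matrix.det_fin_two]⟩
      apply Subtype.ext
      show (t : Matrix (Fin 2) (Fin 2) F) * !![1, 0; b, 1] * !![x⁻¹, 0; 0, x]
        = !![x⁻¹, 0; 0, x] * !![1, 0; b, 1]
      rw [ht]
      ext a d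
      fin_cases a <;> fin_cases d <;>
        simp [Matrix.transvection, Matrix.mul_apply, Fin.sum_univ_two, Matrix.single_apply]
      rw [hbc]; field_simp; ring
    · exact absurd rfl hij

end Cfsg.Agent.S0836
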