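import Cfsg.Statements.S0839
import Cfsg.Agent.Lib.Helper43.TransvMat

set_option autoImplicit false
open Cfsg

namespace Cfsg.Agent.S0839

open Cfsg.Agent.Lib.Helper43 Module Matrix in
/-- Every transvection t ∈ SL_(n+2)(F) (rank(t − 1) = 1, (t − 1)² = 0) is conjugate in SL_(n+2)(F) to 1 + v·e_0ᵀ for some column vector v with v_0 = 0 (the group A of matrices that are the identity except in the first column below the diagonal); the dimension is written n + 2 ≥ 2. -/
theorem result {F : Type*} [Field F] (n : ℕ) (t : Matrix.SpecialLinearGroup (Fin (n + 2)) F) (ht : Cfsg.IsTransvection (t : Matrix (Fin (n + 2)) (Fin (n + 2)) F)) : ∃ (g : Matrix.SpecialLinearGroup (Fin (n + 2)) F) (v : Fin (n + 2) → F), v 0 = 0 ∧ ((g⁻¹ * t * g : Matrix.SpecialLinearGroup (Fin (n + 2)) F) : Matrix (Fin (n + 2)) (Fin (n + 2)) F) = 1 + Matrix.vecMulVec v (Pi.single 0 1) := by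
  classical
  obtain ⟨ψ, b, hb, hψ, hψb, htx⟩ := transvection_decomp _ ht
  have h01 : (0 : Fin (n + 2)) ≠ 1 := by
    intro h; have := congrArg Fin.val h; simp at this
  let e1 : Fin (n + 2) → F := Pi.single 1 1
  let φ : Dual F (Fin (n + 2) → F) := LinearMap.proj 0
  have he1 : e1 ≠ 0 := by
    intro h; have := congrFun h 1; simp [e1] at this
  have hφ : φ ≠ 0 := by
    intro h
    have := LinearMap.congr_fun h (Pi.single 0 1)
    simp [φ] at this
  have hφe : φ e1 = 0 := by
    simp [φ, e1, h01]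
  obtain ⟨g, hga, hgφ⟩ := exists_equiv_of_flags e1 b φ ψ he1 hb hφ hψ hφe hψb
  let M : Matrix (Fin (n + 2)) (Fin (n + 2)) F :=
    LinearMap.toMatrix' (g : (Fin (n + 2) → F) →ₗ[F] (Fin (n + 2) → F))
  set d : F := LinearMap.det (g : (Fin (n + 2) → F) →ₗ[F] (Fin (n + 2) → F)) with hd
  have hd0 : d ≠ 0 := by
    have := (LinearEquiv.isUnit_det' g)
    exact this.ne_zero
  have hM : M.det = d := by rw [LinearMap.det_toMatrix']
  have hMx : ∀ x, M *ᵥ x = g x := by
    intro x
    have : Matrix.toLin' M = (g : (Fin (n + 2) → F) →ₗ[F] (Fin (n + 2) → F)) :=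
      Matrix.toLin'_toMatrix' _
    rw [← Matrix.toLin'_apply, this]; rfl
  let w : Fin (n + 2) → F := fun i => if i = 1 then d⁻¹ else 1
  let D : Matrix (Fin (n + 2)) (Fin (n + 2)) F := Matrix.diagonal w
  have hD : D.det = d⁻¹ := by
    rw [Matrix.det_diagonal]
    simp [w, Finset.prod_ite_eq']
  have hG : (M * D).det = 1 := by
    rw [Matrix.det_mul, hM, hD, mul_inv_cancel₀ hd0]
  let c : Matrix.SpecialLinearGroup (Fin (n + 2)) F := ⟨M * D, hG⟩
  have hDx : ∀ x, D *ᵥ x = fun i => w i * x i := by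
    intro x; funext i; rw [Matrix.mulVec_diagonal]
  refine ⟨c, d • e1, by simp [e1, h01], ?_⟩
  have key : (t : Matrix (Fin (n + 2)) (Fin (n + 2)) F) * (M * D)
      = (M * D) * (1 + Matrix.vecMulVec (d • e1) (Pi.single 0 1)) := by
    apply mulVec_ext
    intro x
    have h1 : (1 + Matrix.vecMulVec (d • e1) (Pi.single 0 1)) *ᵥ x = x + x 0 • (d • e1) := by
      rw [Matrix.add_mulVec, Matrix.one_mulVec, Matrix.vecMulVec_mulVec]
      simp
    have h2 : D *ᵥ (d • e1) = e1 := by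
      rw [hDx]; funext i
      by_cases hi : i = 1
      · subst hi; simp [w, e1, hd0]
      · simp [w, e1, hi]
    have h3 : ψ (g (D *ᵥ x)) = x 0 := by
      rw [hgφ, hDx]
      simp [φ, w, h01]
    rw [← Matrix.mulVec_mulVec, ← Matrix.mulVec_mulVec, ← Matrix.mulVec_mulVec, htx, hMx, h1,
      Matrix.mulVec_add, Matrix.mulVec_smul, ← Matrix.mulVec_mulVec, ← Matrix.mulVec_mulVec, h2,
      hMx, hMx, hga, h3]
  have hinv : ((c⁻¹ : Matrix.SpecialLinearGroup (Fin (n + 2)) F) :
      Matrix (Fin (n + 2)) (Fin (n + 2)) F) * (M * D) = 1 := by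
    have : ((c⁻¹ * c : Matrix.SpecialLinearGroup (Fin (n + 2)) F) :
      Matrix (Fin (n + 2)) (Fin (n + 2)) F) = 1 := by rw [inv_mul_cancel]; rfl
    rwa [Matrix.SpecialLinearGroup.coe_mul] at this
  rw [Matrix.SpecialLinearGroup.coe_mul, Matrix.SpecialLinearGroup.coe_mul]
  show _ * _ * (M * D) = _
  rw [Matrix.mul_assoc, key, ← Matrix.mul_assoc, hinv, Matrix.one_mul]

end Cfsg.Agent.S0839
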