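import Cfsg.Statements.S0842
import Cfsg.Agent.Lib.Helper55.QuatSylow

set_option autoImplicit false
open Cfsg

namespace Cfsg.Agent.S0842

open Cfsg.Agent.Lib.Helper55

/-- Suppose a Sylow 2-subgroup S of the finite group G is generalized quaternion of order at least 16, and let D be the commutator subgroup of S, C its centralizer and N its normalizer in G. Then there is a subgroup K of odd order, contained in C and normalized by N, with K ⊔ S = N and K ⊔ (S ⊓ C) = C, and C has index 2 in N. -/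
theorem result {G : Type*} [Group G] [Finite G] (S : Sylow 2 G) (n : ℕ) (e : (S : Subgroup G) ≃* QuaternionGroup (2 ^ (n + 2))) (D : Subgroup G) (hD : D = ⁅(S : Subgroup G), (S : Subgroup G)⁆) : ∃ K : Subgroup G, Odd (Nat.card K) ∧ K ≤ Subgroup.centralizer (D : Set G) ∧ Subgroup.normalizer (D : Set G) ≤ Subgroup.normalizer (K : Set G) ∧ K ⊔ (S : Subgroup G) = Subgroup.normalizer (D : Set G) ∧ K ⊔ ((S : Subgroup G) ⊓ Subgroup.centralizer (D : Set G)) = Subgroup.centralizer (D : Set G) ∧ ((Subgroup.centralizer (D : Set G)).subgroupOf (Subgroup.normalizer (D : Set G))).index = 2 := by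
  obtain ⟨α, h⟩ := quatLike_of_equiv (S : Subgroup G) n e
  rw [h.commutator_eq] at hD
  subst hD
  obtain ⟨K, hodd, hKC, hKmem, hsup⟩ := h.exists_complement S
  obtain ⟨ξ, hξ, hout⟩ := h.out
  have hconj : ∀ g ∈ Subgroup.normalizer (Subgroup.zpowers (α ^ 2) : Set G), ∀ x ∈ K,
      g * x * g⁻¹ ∈ K := by
    intro g hg x hx
    have hxC := hKC hx
    rw [hKmem _ (conj_mem_centralizer_of_mem_normalizer _ hg hxC), orderOf_conj_eq]
    exact (hKmem x hxC).1 hx
  refine ⟨K, hodd, hKC, ?_, ?_, ?_, ?_⟩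
  · intro g hg
    rw [Subgroup.mem_normalizer_iff]
    intro x
    refine ⟨hconj g hg x, fun hx => ?_⟩
    have := hconj g⁻¹ (Subgroup.inv_mem _ hg) _ hx
    have e1 : g⁻¹ * (g * x * g⁻¹) * g⁻¹⁻¹ = x := by group
    rwa [e1] at this
  · apply le_antisymm
    · exact sup_le (hKC.trans (Subgroup.centralizer_le_normalizer _)) h.le_normalizer
    · have hCle : Subgroup.centralizer (Subgroup.zpowers (α ^ 2) : Set G) ≤ K ⊔ (S : Subgroup G) := by
        rw [← hsup]
        exact sup_le_sup_left h.zpowers_le K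
      intro g hg
      rcases h.normalizer_dichotomy S hξ hout g hg with h1 | h1
      · exact hCle h1
      · have e1 : g = ξ * (ξ⁻¹ * g) := by group
        rw [e1]
        exact Subgroup.mul_mem _ ((le_sup_right : (S : Subgroup G) ≤ K ⊔ (S : Subgroup G)) hξ) (hCle h1)
  · rw [h.inf_centralizer]; exact hsup
  · rw [Subgroup.index_eq_two_iff']
    refine ⟨⟨ξ⁻¹, Subgroup.inv_mem _ (h.le_normalizer hξ)⟩, ?_⟩
    intro b
    simp only [Subgroup.mem_subgroupOf, Subgroup.coe_mul]
    have hξC : ξ ∉ Subgroup.centralizer (Subgroup.zpowers (α ^ 2) : Set G) := by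
      intro hc
      exact h.not_commute_of_out hξ hout ((mem_centralizer_zpowers_iff _ _).1 hc)
    have hnot : ¬ (ξ⁻¹ * (b : G) ∈ Subgroup.centralizer (Subgroup.zpowers (α ^ 2) : Set G) ∧
        (b : G) ∈ Subgroup.centralizer (Subgroup.zpowers (α ^ 2) : Set G)) := by
      rintro ⟨h1, h2⟩
      apply hξC
      have e1 : ξ = (b : G) * (ξ⁻¹ * (b : G))⁻¹ := by group
      rw [e1]
      exact Subgroup.mul_mem _ h2 (Subgroup.inv_mem _ h1)
    rcases h.normalizer_dichotomy S hξ hout b b.2 with h1 | h1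
    · exact Or.inr ⟨h1, fun h2 => hnot ⟨h2, h1⟩⟩
    · exact Or.inl ⟨h1, fun h2 => hnot ⟨h1, h2⟩⟩

end Cfsg.Agent.S0842
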