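import Cfsg.Statements.S0845
import Cfsg.Agent.Lib.Helper55.BSGroup

set_option autoImplicit false
open Cfsg

namespace Cfsg.Agent.S0845

open Cfsg.Agent.Lib.Helper55

/-- Suppose a Sylow 2-subgroup S of the finite group G is generalized quaternion of order at least 16. Then G has a normal subgroup M of even order such that G / M is non-abelian, that is, M does not contain the commutator subgroup of G. -/
theorem result {G : Type*} [Group G] [Finite G] (S : Sylow 2 G) (n : ℕ) (e : (S : Subgroup G) ≃* QuaternionGroup (2 ^ (n + 2))) : ∃ M : Subgroup G, M.Normal ∧ Even (Nat.card M) ∧ ¬ commutator G ≤ M := by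
  obtain ⟨α, h⟩ := quatLike_of_equiv (S : Subgroup G) n e
  obtain ⟨M, hM, hd, hcomm, -⟩ := h.exists_kernel S
  refine ⟨M, hM, ?_, hcomm⟩
  rw [even_iff_two_dvd]
  have := orderOf_dvd_natCard (⟨_, hd⟩ : M)
  rwa [Subgroup.orderOf_mk, h.orderOf_invol] at this

end Cfsg.Agent.S0845
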