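import Cfsg.Statements.S0846
import Cfsg.Agent.Lib.Helper55.BSGroup

set_option autoImplicit false
open Cfsg

namespace Cfsg.Agent.S0846

open Cfsg.Agent.Lib.Helper55

/-- Suppose a Sylow 2-subgroup S of the finite group G is generalized quaternion of order at least 16. Then every Sylow 2-subgroup of the subgroup generated by the involutions of G is cyclic. -/
theorem result {G : Type*} [Group G] [Finite G] (S : Sylow 2 G) (n : ℕ) (e : (S : Subgroup G) ≃* QuaternionGroup (2 ^ (n + 2))) (Q : Sylow 2 ↥(Subgroup.closure {g : G | orderOf g = 2})) : IsCyclic Q := by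
  obtain ⟨α, h⟩ := quatLike_of_equiv (S : Subgroup G) n e
  obtain ⟨M, hM, hd, -, hSM⟩ := h.exists_kernel S
  have hle : Subgroup.closure {g : G | orderOf g = 2} ≤ M := by
    rw [Subgroup.closure_le]
    intro t ht
    exact h.involution_mem S M hM hd ht
  have hcyc : IsCyclic ((Q : Subgroup ↥(Subgroup.closure {g : G | orderOf g = 2})).map
      (Subgroup.closure {g : G | orderOf g = 2}).subtype) := by
    apply QuatLike.isCyclic_of_isPGroup_le S M hM hSM _ (Q.2.map _)
    exact (Subgroup.map_subtype_le _).trans hle
  exact ((Subgroup.equivMapOfInjective _ _ (Subgroup.subtype_injective _)).isCyclic).2 hcyc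

end Cfsg.Agent.S0846
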