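import Cfsg.Statements.S0848
import Cfsg.Agent.Lib.Helper75.DihD8

set_option autoImplicit false
open Cfsg Cfsg.Agent.Lib.Helper75 Cfsg.Agent.Lib.Helper78

namespace Cfsg.Agent.S0848

/-- If a finite group equals its own commutator subgroup and contains an involution whose centralizer is isomorphic to the dihedral group of order 8, then the group has order 168 or 360. -/
theorem result {G : Type*} [Group G] [Finite G] (hperf : commutator G = ⊤) (t : G) (ht : orderOf t = 2) (e : Subgroup.centralizer ({t} : Set G) ≃* DihedralGroup 4) : Nat.card G = 168 ∨ Nat.card G = 360 := by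
  classical
  have := Fintype.ofFinite G
  obtain ⟨C, hC⟩ : ∃ C : Subgroup G, C = Subgroup.centralizer ({t} : Set G) := ⟨_, rfl⟩
  rw [← hC] at e
  have hcardC : Nat.card C = 8 := by rw [Nat.card_congr e.toEquiv, DihedralGroup.nat_card]
  have hpg : IsPGroup 2 C := IsPGroup.of_card (n := 3) (by rw [hcardC]; norm_num)
  obtain ⟨P, hP⟩ := hpg.exists_le_sylow
  have htC : t ∈ C := by rw [hC]; exact Subgroup.mem_centralizer_singleton_iff.2 rfl
  have ht1 : t ≠ 1 := by
    intro h; rw [h, orderOf_one] at ht; omega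
  have hcen : ∀ d : DihedralGroup 4, (∀ d', d * d' = d' * d) → d = 1 ∨ d = DihedralGroup.r 2 := by
    decide
  have hcenC : ∀ z : C, (∀ c : C, z * c = c * z) → z = 1 ∨ e z = DihedralGroup.r 2 := by
    intro z hz
    rcases hcen (e z) (fun d' => by
      obtain ⟨c, rfl⟩ := e.surjective d'
      rw [← map_mul, ← map_mul, hz c]) with h | h
    · left; exact e.injective (by rw [h, map_one])
    · right; exact h
  have het : e ⟨t, htC⟩ = DihedralGroup.r 2 := by
    rcases hcenC ⟨t, htC⟩ (fun c => by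
      apply Subtype.ext
      have hc : (c : G) ∈ Subgroup.centralizer ({t} : Set G) := hC ▸ c.2
      exact (Subgroup.mem_centralizer_singleton_iff.1 hc).symm) with h | h
    · exact absurd (congrArg Subtype.val h) ht1
    · exact h
  -- `P = C`
  have hPC : (P : Subgroup G) = C := by
    apply le_antisymm _ hP
    have hnt : Nontrivial (P : Subgroup G) :=
      ⟨⟨⟨t, hP htC⟩, 1, fun h => ht1 (congrArg Subtype.val h)⟩⟩
    have hcn := IsPGroup.center_nontrivial P.2
    obtain ⟨z, hz⟩ := exists_ne (1 : Subgroup.center (P : Subgroup G))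
    have hzc : ∀ p : (P : Subgroup G), p * (z : (P : Subgroup G)) = (z : (P : Subgroup G)) * p :=
      fun p => Subgroup.mem_center_iff.1 z.2 p
    have hzc' : ∀ p ∈ (P : Subgroup G), p * ((z : (P : Subgroup G)) : G)
        = ((z : (P : Subgroup G)) : G) * p := by
      intro p hp
      exact congrArg Subtype.val (hzc ⟨p, hp⟩)
    have hzC : ((z : (P : Subgroup G)) : G) ∈ C := by
      rw [hC]
      exact Subgroup.mem_centralizer_singleton_iff.2 (hzc' t (hP htC)).symm
    have hzt : ((z : (P : Subgroup G)) : G) = t := by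
      rcases hcenC ⟨_, hzC⟩ (fun c => by
        apply Subtype.ext
        exact (hzc' c (hP c.2)).symm) with h | h
      · exfalso
        apply hz
        apply Subtype.ext
        apply Subtype.ext
        have h' := congrArg Subtype.val h
        simpa using h'
      · have := e.injective (h.trans het.symm)
        exact congrArg Subtype.val this
    intro p hp
    rw [hC]
    apply Subgroup.mem_centralizer_singleton_iff.2
    rw [← hzt]
    exact hzc' p hp
  obtain ⟨σ, hσ⟩ : ∃ σ : G, σ = ((e.symm (DihedralGroup.r 1) : C) : G) := ⟨_, rfl⟩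
  have hσC : σ ∈ C := by rw [hσ]; exact (e.symm (DihedralGroup.r 1)).2
  have hσo : orderOf σ = 4 := by
    rw [hσ, Subgroup.orderOf_coe, MulEquiv.orderOf_eq, DihedralGroup.orderOf_r_one]
  have hne : NeZero 4 := ⟨by norm_num⟩
  obtain ⟨τ, h⟩ := DihS.of_iso (P : Subgroup G) σ 4 le_rfl ⟨2, rfl⟩ (by rw [hPC]; exact hσC) hσo
    ⟨(MulEquiv.subgroupCongr hPC).trans e⟩
  have hJ : σ ^ (4 / 2) = t := by
    have h1 : (e.symm (DihedralGroup.r 1)) ^ 2 = (⟨t, htC⟩ : C) := by
      apply e.injective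
      rw [map_pow, e.apply_symm_apply, het, DihedralGroup.r_one_pow]
      rfl
    have := congrArg Subtype.val h1
    rw [hσ]
    simpa using this
  have hno : ∀ M : Subgroup G, M.Normal → M.index ≠ 2 := by
    intro M _ hM
    have h1 := Cfsg.Agent.Lib.Helper14.commutator_le_of_index_two M hM
    rw [hperf, top_le_iff] at h1
    rw [h1, Subgroup.index_top] at hM
    omega
  have c1 := h.isConj_of_no_index_two hno h.τ_mem h.τ_not_mem
  have c2 := h.isConj_of_no_index_two hno (Subgroup.mul_mem _ h.σ_mem h.τ_mem) h.στ_not_mem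
  obtain ⟨M, hM⟩ := exists_isPModular 2 Nat.prime_two
  have hζ := Complex.isPrimitiveRoot_exp 4 (by norm_num)
  obtain ⟨X₁, X₂, X₃, β, d₁, d₂, d₃, s1, s2, s3, n12, n13, n23, t1, t2, t3, hβ, hinj, hblock,
    hv, hodd⟩ := h.main hζ hM
  obtain ⟨hxd, OF⟩ := h.order_formula hζ hM c1 c2 X₁ ((hblock X₁).2 (Or.inr (Or.inl rfl))) t1 d₁ s1
    (fun l hl => (hv l hl).1)
  have OC := (h.oneClass c1 c2).card_mul
  obtain ⟨W, L⟩ := h.exists_loc
  have hI : (Loc.Iset h.σ' 4).card = 4 := by
    apply L.card_Iset_of_top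
    intro x
    rw [Sylow.coe_subtype, Subgroup.mem_subgroupOf, hPC, hC, ← hJ]
    exact x.2
  have hcJ : Fintype.card (Cfsg.Agent.Lib.Helper4.Cen (σ ^ (4 / 2))) = 8 := by
    rw [← Nat.card_eq_fintype_card, ← hcardC, hC, hJ]
  rw [hI, irr_one_eq] at OF
  rw [irr_one_eq] at hxd
  rw [hcJ, ← Nat.card_eq_fintype_card] at OC
  have hx0 : (charDegree (X₁ : G → ℂ) : ℂ) ≠ 0 := by
    exact_mod_cast (irr_charDegree_pos X₁).ne'
  have hmain : (Nat.card G : ℂ) * ((charDegree (X₁ : G → ℂ) : ℂ) - d₁) ^ 2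
      = 256 * (charDegree (X₁ : G → ℂ) : ℂ) * ((charDegree (X₁ : G → ℂ) : ℂ) + d₁) := by
    rw [← OC, mul_assoc, OF]
    push_cast
    ring
  have hmainZ : (Nat.card G : ℤ) * ((charDegree (X₁ : G → ℂ) : ℤ) - d₁) ^ 2
      = 256 * (charDegree (X₁ : G → ℂ) : ℤ) * ((charDegree (X₁ : G → ℂ) : ℤ) + d₁) := by
    exact_mod_cast hmain
  have hidx := (P : Subgroup G).card_mul_index
  rw [hPC, hcardC] at hidx
  have hodd' := P.not_dvd_index
  rw [hPC] at hodd'
  apply d8_arith (Nat.card G) (charDegree (X₁ : G → ℂ)) d₁ s1 (irr_charDegree_pos X₁)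
    ⟨_, hidx.symm⟩ _ _ hmainZ
  · rw [← hidx]
    intro hd
    apply hodd'
    omega
  · intro hx
    have hx' : (charDegree (X₁ : G → ℂ) : ℂ) = (d₁ : ℂ) := by exact_mod_cast hx
    rw [hx', sub_self] at hmain
    rw [hx'] at hx0 hxd
    have : (256 : ℂ) * d₁ * ((d₁ : ℂ) + d₁) = 0 := by rw [← hmain]; ring
    rcases mul_eq_zero.1 this with h5 | h5
    · rcases mul_eq_zero.1 h5 with h6 | h6
      · norm_num at h6
      · exact hx0 h6
    · exact hxd h5

end Cfsg.Agent.S0848
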