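import Mathlib
import Cfsg.Statements.S0849

set_option autoImplicit false
open Cfsg

namespace Cfsg.Agent.S0849

open Classical in
/-- Let H be a subgroup of a finite group G and S a subset of H that is mapped to itself under conjugation by H, is disjoint from its conjugate by any element outside H, and is closed under inverses. Let φ be a class function of H vanishing on H away from S, and let u, v be involutions of G. Then the sum of the induced function of φ over all products a * b with a conjugate to u and b conjugate to v equals the index of H times the sum of φ (a * b) over such pairs with a and b in H. -/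
theorem result {G : Type*} [Group G] [Fintype G] (H : Subgroup G) (S : Set G) (hSH : S ⊆ H) (hHS : ∀ h ∈ H, ∀ s ∈ S, h * s * h⁻¹ ∈ S) (hTI : ∀ g : G, g ∉ H → ∀ s ∈ S, g * s * g⁻¹ ∉ S) (hinv : ∀ s ∈ S, s⁻¹ ∈ S) (φ : H → ℂ) (hφ : Cfsg.IsClassFunction H φ) (hφS : ∀ x : H, (x : G) ∉ S → φ x = 0) (u v : G) (hu : orderOf u = 2) (hv : orderOf v = 2) : ∑ᶠ p ∈ {p : G × G | IsConj u p.1 ∧ IsConj v p.2}, Cfsg.indFun H φ (p.1 * p.2) = (H.index : ℂ) * ∑ᶠ p ∈ {p : H × H | IsConj u (p.1 : G) ∧ IsConj v (p.2 : G)}, φ (p.1 * p.2) := by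
  set T : Set (G × G) := {p : G × G | IsConj u p.1 ∧ IsConj v p.2} with hT
  set TH : Set (H × H) := {p : H × H | IsConj u (p.1 : G) ∧ IsConj v (p.2 : G)} with hTH
  set ψ : G → ℂ := Cfsg.extendByZero H φ with hψ
  have hψH : ∀ h : H, ψ (h : G) = φ h := by
    intro h
    exact Function.Injective.extend_apply Subtype.val_injective _ _ _
  have hψn : ∀ g : G, g ∉ H → ψ g = 0 := by
    intro g hg
    have : ¬ ∃ a : H, (a : G) = g := by
      rintro ⟨a, rfl⟩
      exact hg a.2
    exact Function.extend_apply' _ _ _ this
  rw [finsum_mem_def, finsum_mem_def, finsum_eq_sum_of_fintype, finsum_eq_sum_of_fintype]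
  -- Step A
  have hA : ∀ x : G, ∑ p : G × G, T.indicator (fun p => ψ (x⁻¹ * (p.1 * p.2) * x)) p
      = ∑ p : G × G, T.indicator (fun p => ψ (p.1 * p.2)) p := by
    intro x
    let e : G × G ≃ G × G :=
      { toFun := fun p => (x⁻¹ * p.1 * x, x⁻¹ * p.2 * x)
        invFun := fun p => (x * p.1 * x⁻¹, x * p.2 * x⁻¹)
        left_inv := by intro p; ext <;> simp [mul_assoc]
        right_inv := by intro p; ext <;> simp [mul_assoc] }
    apply Fintype.sum_equiv e
    intro p
    have hmem : p ∈ T ↔ e p ∈ T := by
      have h1 : ∀ w a : G, IsConj w a ↔ IsConj w (x⁻¹ * a * x) := by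
        intro w a
        have hc : IsConj a (x⁻¹ * a * x) := by
          rw [isConj_iff]
          exact ⟨x⁻¹, by simp⟩
        exact ⟨fun h => h.trans hc, fun h => h.trans hc.symm⟩
      simp only [hT, Set.mem_ofPred_eq, e, Equiv.coe_fn_mk]
      rw [← h1, ← h1]
    by_cases hp : p ∈ T
    · rw [Set.indicator_of_mem hp, Set.indicator_of_mem (hmem.mp hp)]
      congr 1
      simp [e, mul_assoc]
    · rw [Set.indicator_of_notMem hp, Set.indicator_of_notMem (fun h => hp (hmem.mpr h))]
  -- Step B
  have hB : ∑ p : H × H, TH.indicator (fun p => φ (p.1 * p.2)) p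
      = ∑ p : G × G, T.indicator (fun p => ψ (p.1 * p.2)) p := by
    apply Fintype.sum_of_injective (Prod.map Subtype.val Subtype.val)
      (Function.Injective.prodMap Subtype.val_injective Subtype.val_injective)
    · rintro ⟨a, b⟩ hab
      by_contra hne
      have hmem : (a, b) ∈ T := by
        by_contra h
        exact hne (Set.indicator_of_notMem h _)
      rw [Set.indicator_of_mem hmem] at hne
      simp only at hne
      have ha2 : a * a = 1 := by
        have : orderOf a = 2 := by
          obtain ⟨c, hc⟩ := hmem.1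
          rw [← hu]; exact (SemiconjBy.orderOf_eq _ hc).symm
        rw [← sq, ← this]; exact pow_orderOf_eq_one a
      have hb2 : b * b = 1 := by
        have : orderOf b = 2 := by
          obtain ⟨c, hc⟩ := hmem.2
          rw [← hv]; exact (SemiconjBy.orderOf_eq _ hc).symm
        rw [← sq, ← this]; exact pow_orderOf_eq_one b
      have habH : a * b ∈ H := by
        by_contra h
        exact hne (hψn _ h)
      have habS : a * b ∈ S := by
        by_contra h
        apply hne
        have := hφS ⟨a * b, habH⟩ h
        rw [← this]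
        exact hψH ⟨a * b, habH⟩
      have hainv : a⁻¹ = a := inv_eq_of_mul_eq_one_left ha2
      have hbinv : b⁻¹ = b := inv_eq_of_mul_eq_one_left hb2
      have haH : a ∈ H := by
        by_contra h
        apply hTI a h (a * b) habS
        have : a * (a * b) * a⁻¹ = (a * b)⁻¹ := by
          rw [mul_inv_rev, hainv, hbinv, ← mul_assoc, ha2, one_mul]
        rw [this]
        exact hinv _ habS
      have hbH : b ∈ H := by
        have : b = a⁻¹ * (a * b) := by simp
        rw [this]
        exact H.mul_mem (H.inv_mem haH) habH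
      exact hab ⟨(⟨a, haH⟩, ⟨b, hbH⟩), rfl⟩
    · rintro ⟨a, b⟩
      by_cases hp : (a, b) ∈ TH
      · have hp' : Prod.map Subtype.val Subtype.val (a, b) ∈ T := hp
        rw [Set.indicator_of_mem hp, Set.indicator_of_mem hp']
        exact (hψH (a * b)).symm
      · have hp' : Prod.map Subtype.val Subtype.val (a, b) ∉ T := hp
        rw [Set.indicator_of_notMem hp, Set.indicator_of_notMem hp']
  rw [hB]
  have hC : ∀ p : G × G, T.indicator (fun p => Cfsg.indFun H φ (p.1 * p.2)) p
      = (Nat.card H : ℂ)⁻¹ * ∑ x : G, T.indicator (fun p => ψ (x⁻¹ * (p.1 * p.2) * x)) p := by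
    intro p
    by_cases hp : p ∈ T
    · simp only [Set.indicator_of_mem hp]
      rfl
    · simp only [Set.indicator_of_notMem hp]
      simp
  simp_rw [hC]
  rw [← Finset.mul_sum, Finset.sum_comm]
  simp_rw [hA]
  rw [Finset.sum_const, Finset.card_univ, nsmul_eq_mul, ← mul_assoc]
  congr 1
  have hidx : (Fintype.card G : ℂ) = (Nat.card H : ℂ) * (H.index : ℂ) := by
    rw [← Nat.cast_mul, Subgroup.card_mul_index, Nat.card_eq_fintype_card]
  rw [hidx, ← mul_assoc, inv_mul_cancel₀, one_mul]
  exact_mod_cast Nat.card_pos.ne'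

end Cfsg.Agent.S0849
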