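import Cfsg.Statements.S0850
import Cfsg.Agent.Lib.Helper15.Ind
import Cfsg.Agent.S0149

set_option autoImplicit false
open Cfsg Cfsg.Agent.Lib.Helper15

namespace Cfsg.Agent.S0850

/-- conjugation action of the normalizer on the subgroup -/
@[instance_reducible] def act {G : Type*} [Group G] (K : Subgroup G) :
    MulAction (Subgroup.normalizer (K : Set G)) K where
  smul n k := ⟨n * k * (n : G)⁻¹, (Subgroup.mem_normalizer_iff.1 n.2 k).1 k.2⟩
  one_smul k := by
    apply Subtype.ext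
    simp [HSMul.hSMul]
  mul_smul u v k := by
    apply Subtype.ext
    simp [HSMul.hSMul, mul_assoc]

theorem part1 {G : Type*} [Group G] [Finite G] (K : Subgroup G) (hTI : ∀ g : G, g ∉ Subgroup.normalizer (K : Set G) → ∀ k ∈ K, g * k * g⁻¹ ∈ K → k = 1) (hC : ∀ k ∈ K, k ≠ 1 → Subgroup.centralizer ({k} : Set G) ≤ K) :
    ∀ x ∈ Subgroup.normalizer (K : Set G), x ∉ K → ∀ g : G, g * x * g⁻¹ ∉ K := by
  intro x hxN hxK g hk
  have hx1 : x ≠ 1 := fun h => hxK (h ▸ K.one_mem)
  have hgN : g ∉ Subgroup.normalizer (K : Set G) := fun hg =>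
    hxK ((Subgroup.mem_normalizer_iff.1 hg x).2 hk)
  have hm : orderOf x ≠ 1 := fun h => hx1 (orderOf_eq_one_iff.1 h)
  obtain ⟨p, hp, hpm⟩ := Nat.exists_prime_and_dvd hm
  have : Fact p.Prime := ⟨hp⟩
  set y := x ^ (orderOf x / p) with hy
  have hyo : orderOf y = p := orderOf_pow_orderOf_div (orderOf_pos x).ne' hpm
  have hy1 : y ≠ 1 := by
    intro h
    rw [h, orderOf_one] at hyo
    exact hp.one_lt.ne hyo
  have hyN : y ∈ Subgroup.normalizer (K : Set G) := Subgroup.pow_mem _ hxN _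
  have hgy : g * y * g⁻¹ ∈ K := by
    have : g * y * g⁻¹ = (g * x * g⁻¹) ^ (orderOf x / p) := by
      rw [hy, conj_pow]
    rw [this]
    exact K.pow_mem hk _
  have hyK : y ∉ K := fun h => hy1 (hTI g hgN y h hgy)
  have hpK : p ∣ Nat.card K := by
    have h1 : orderOf (g * y * g⁻¹) = p := by
      rw [← hyo]
      exact (SemiconjBy.orderOf_eq g (x := y) (y := g * y * g⁻¹) (by simp [SemiconjBy])).symm
    have h2 : orderOf (⟨g * y * g⁻¹, hgy⟩ : K) = p := by
      rw [← h1, ← Subgroup.orderOf_coe]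
    rw [← h2]
    exact orderOf_dvd_natCard _
  let _ := act K
  let y' : Subgroup.normalizer (K : Set G) := ⟨y, hyN⟩
  have hP : IsPGroup p (Subgroup.zpowers y') := by
    apply IsPGroup.of_card (n := 1)
    rw [Nat.card_zpowers, pow_one, ← hyo, ← Subgroup.orderOf_coe]
  have key := hP.card_modEq_card_fixedPoints K
  have hfix : Nat.card (MulAction.fixedPoints (Subgroup.zpowers y') K) = 1 := by
    rw [Nat.card_eq_one_iff_unique]
    refine ⟨⟨?_⟩, ⟨⟨1, ?_⟩⟩⟩
    · have : ∀ a : MulAction.fixedPoints (Subgroup.zpowers y') K, a.1 = 1 := by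
        intro a
        by_contra ha
        have h1 : ((a.1 : K) : G) ≠ 1 := fun h => ha (Subtype.ext h)
        have h2 := a.2 ⟨y', Subgroup.mem_zpowers y'⟩
        have h3 : y * ((a.1 : K) : G) * y⁻¹ = ((a.1 : K) : G) := congrArg Subtype.val h2
        apply hyK
        apply hC _ a.1.2 h1
        rw [Subgroup.mem_centralizer_singleton_iff]
        rw [mul_inv_eq_iff_eq_mul] at h3
        exact h3
      intro a b
      apply Subtype.ext
      rw [this a, this b]
    · intro u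
      apply Subtype.ext
      show (u : G) * 1 * (u : G)⁻¹ = 1
      simp
  rw [hfix] at key
  have h0 : Nat.card K ≡ 0 [MOD p] := (Nat.modEq_zero_iff_dvd).2 hpK
  have h01 : 0 ≡ 1 [MOD p] := h0.symm.trans key
  have := (Nat.modEq_zero_iff_dvd.1 h01.symm)
  exact hp.one_lt.ne' (Nat.dvd_one.1 this)

theorem result {G : Type*} [Group G] [Fintype G] (K : Subgroup G) (hTI : ∀ g : G, g ∉ Subgroup.normalizer (K : Set G) → ∀ k ∈ K, g * k * g⁻¹ ∈ K → k = 1) (hlt : K < Subgroup.normalizer (K : Set G)) (hC : ∀ k ∈ K, k ≠ 1 → Subgroup.centralizer ({k} : Set G) ≤ K) : (∀ x ∈ Subgroup.normalizer (K : Set G), x ∉ K → ∀ g : G, g * x * g⁻¹ ∉ K) ∧ ∀ (ϑ : Subgroup.normalizer (K : Set G) → ℂ), Cfsg.IsClassFunction (Subgroup.normalizer (K : Set G)) ϑ → (∀ x : Subgroup.normalizer (K : Set G), (x : G) ∉ K → ϑ x = 0) → ϑ 1 = 0 → ∀ x : Subgroup.normalizer (K : Set G), Cfsg.indFun (Subgroup.normalizer (K : Set G)) ϑ x = ϑ x := by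
  have h1 := part1 K hTI hC
  refine ⟨h1, ?_⟩
  intro ϑ hϑ hϑK hϑ1 x
  by_cases hx1 : x = 1
  · rw [hx1, hϑ1, indFun_apply]
    have : ∀ z : G, extendByZero (Subgroup.normalizer (K : Set G)) ϑ
        (z⁻¹ * ((1 : Subgroup.normalizer (K : Set G)) : G) * z) = 0 := by
      intro z
      have h : z⁻¹ * ((1 : Subgroup.normalizer (K : Set G)) : G) * z
          = ((1 : Subgroup.normalizer (K : Set G)) : G) := by simp
      rw [h, extendByZero_coe, hϑ1]
    simp_rw [this]
    simp
  by_cases hxK : (x : G) ∈ K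
  · exact Cfsg.Agent.S0149.result (K : Set G) hTI Subgroup.le_normalizer ϑ hϑ hϑK x hxK hx1
  · rw [hϑK x hxK, indFun_apply]
    have : ∀ z : G, extendByZero (Subgroup.normalizer (K : Set G)) ϑ (z⁻¹ * (x : G) * z) = 0 := by
      intro z
      by_cases hmem : z⁻¹ * (x : G) * z ∈ Subgroup.normalizer (K : Set G)
      · rw [extendByZero_mem _ _ hmem]
        apply hϑK
        have := h1 x x.2 hxK z⁻¹
        simpa using this
      · rw [extendByZero_not_mem _ _ hmem]
    simp [this]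

end Cfsg.Agent.S0850
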