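import Cfsg.Statements.S0851
import Cfsg.Agent.Lib.Helper26.FeitSibley
import Cfsg.Agent.S1524
import Cfsg.Agent.S1529

set_option autoImplicit false
open Cfsg

namespace Cfsg.Agent.S0851


open Cfsg.Agent.Lib Cfsg.Agent.Lib.Helper26 Cfsg.Agent.Lib.Helper15

theorem aux {G : Type*} [Group G] [Fintype G] (H L : Subgroup G)
    (hN : Subgroup.normalizer (H : Set G) = L)
    (hTI : IsTISubset (H : Set G)) (hlt : H < L)
    (hC : ∀ k ∈ H, k ≠ 1 → Subgroup.centralizer ({k} : Set G) ≤ H)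
    (hab : ∀ a ∈ H, ∀ b ∈ H, a * b = b * a) :
    (Nat.card {χ : IrrCharacter L // ∃ k : L, (k : G) ∈ H ∧ (χ : L → ℂ) k ≠ (χ : L → ℂ) 1} = 1 ∧
      ∃ p : ℕ, p.Prime ∧ IsElementaryAbelian p H ∧ Nat.card H = (H.subgroupOf L).index + 1) ∨
    ∃ (ε : ℂ) (f : {χ : IrrCharacter L // ∃ k : L, (k : G) ∈ H ∧ (χ : L → ℂ) k ≠ (χ : L → ℂ) 1} →
        IrrCharacter G), (ε = 1 ∨ ε = -1) ∧ Function.Injective f ∧
      ∀ χ ξ, indFun L ((χ.1 : L → ℂ) - (ξ.1 : L → ℂ)) = ε • ((f χ : G → ℂ) - (f ξ : G → ℂ)) := by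
  classical
  have : Fintype L := Fintype.ofFinite L
  have hHL : H ≤ L := hlt.le
  by_cases hH1 : H = ⊥
  · right
    have hemp : ∀ χ : {χ : IrrCharacter L // ∃ k : L, (k : G) ∈ H ∧
        (χ : L → ℂ) k ≠ (χ : L → ℂ) 1}, False := by
      rintro ⟨χ, k, hk, hne⟩
      rw [hH1, Subgroup.mem_bot] at hk
      apply hne
      have : k = 1 := Subtype.ext hk
      rw [this]
    exact ⟨1, fun χ => (hemp χ).elim, Or.inl rfl, fun χ => (hemp χ).elim, fun χ => (hemp χ).elim⟩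
  have hKn := SibleyCore.normal_of_normalizer H L hN
  set K := H.subgroupOf L with hKdef
  have hC' := SibleyCore.hC_of H L hC
  have hSeq : inducedIrrAbove K ⊥ = {χ : L → ℂ | IsIrrCharacter L χ ∧ ∃ x ∈ K, χ x ≠ χ 1} :=
    SibleyCore.S_eq K hC'
  have hcardK : Nat.card K = Nat.card H :=
    Nat.card_congr (Subgroup.subgroupOfEquivOfLe hHL).toEquiv
  have hKbot : K ≠ ⊥ := by
    intro h
    apply hH1
    rw [eq_bot_iff]
    intro x hx
    have hm : (⟨x, hHL hx⟩ : L) ∈ K := Subgroup.mem_subgroupOf.2 hx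
    rw [h, Subgroup.mem_bot] at hm
    exact Subgroup.mem_bot.2 (congrArg Subtype.val hm)
  obtain ⟨hiso, hone⟩ := Cfsg.Agent.S1524.ti_isometry H L hTI hN
  have habK : ∀ x ∈ K, ∀ y ∈ K, x * y = y * x := by
    intro x hx y hy
    exact Subtype.ext (hab x hx y hy)
  have hmemS : ∀ χ : {χ : IrrCharacter L // ∃ k : L, (k : G) ∈ H ∧
      (χ : L → ℂ) k ≠ (χ : L → ℂ) 1}, (χ.1 : L → ℂ) ∈ inducedIrrAbove K ⊥ := by
    rintro ⟨χ, k, hk, hne⟩
    rw [hSeq]
    exact ⟨χ.2, k, hk, hne⟩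
  rcases FeitSibley.abelian_case K hKbot hC' habK _ hiso hone with ⟨h1, h2⟩ | hcoh
  · left
    have hne1 : Nat.card K ≠ 1 := fun h => hKbot ((Subgroup.card_eq_one).1 h)
    obtain ⟨p, hp, hpd⟩ := Nat.exists_prime_and_dvd hne1
    refine ⟨?_, p, hp, ⟨?_, ?_⟩, ?_⟩
    · rw [← h1]
      refine Nat.card_congr ⟨fun χ => ⟨χ.1.1, hmemS χ⟩, fun χ => ⟨⟨χ.1, ?_⟩, ?_⟩, ?_, ?_⟩
      · exact (hSeq.subset χ.2).1
      · obtain ⟨x, hx, hne⟩ := (hSeq.subset χ.2).2
        exact ⟨x, hx, hne⟩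
      · intro χ; rfl
      · intro χ; rfl
    · apply isMulCommutative_iff.2
      intro a b
      exact Subtype.ext (hab a a.2 b b.2)
    · intro a ha
      have := FeitSibley.pow_eq_one_of_card K hC' habK h2 p hp hpd ⟨a, hHL ha⟩
        (Subgroup.mem_subgroupOf.2 ha)
      have h3 := congrArg (fun w : L => (w : G)) this
      simpa using h3
    · rw [← hcardK]; exact h2
  · right
    obtain ⟨-, τ₁, hτ₁, hext⟩ := hcoh
    have hirr : ∀ χ ∈ inducedIrrAbove K ⊥, IsIrrCharacter L χ := by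
      intro χ hχ
      rw [hSeq] at hχ
      exact hχ.1
    have hdeg : ∀ ξ ∈ inducedIrrAbove K ⊥, ξ 1 = (K.index : ℂ) := by
      have := FeitSibley.deg1' K
      rwa [FeitSibley.comm_eq_bot K habK] at this
    obtain ⟨hpm, -, hpos, hneg⟩ := Cfsg.Agent.S1529.signs (inducedIrrAbove K ⊥) hirr τ₁ hτ₁ (by
      intro α hα hα1
      rw [hext α (mem_zspanOn_one.2 ⟨hα, hα1⟩)]
      exact hone α (mem_zspanOn_one.2 ⟨hα, hα1⟩))
    have hind : ∀ χ ξ : {χ : IrrCharacter L // ∃ k : L, (k : G) ∈ H ∧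
        (χ : L → ℂ) k ≠ (χ : L → ℂ) 1},
        indFun L ((χ.1 : L → ℂ) - (ξ.1 : L → ℂ)) = τ₁ χ.1 - τ₁ ξ.1 := by
      intro χ ξ
      rw [← iso_sub hτ₁ (isZMod_zspan _) (mem_zspan (hmemS χ)) (mem_zspan (hmemS ξ))]
      refine (hext _ (mem_zspanOn_one.2 ⟨zspan_sub (mem_zspan (hmemS χ)) (mem_zspan (hmemS ξ)), ?_⟩)).symm
      rw [Pi.sub_apply, hdeg _ (hmemS χ), hdeg _ (hmemS ξ), sub_self]
    have hinj : ∀ χ ξ : {χ : IrrCharacter L // ∃ k : L, (k : G) ∈ H ∧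
        (χ : L → ℂ) k ≠ (χ : L → ℂ) 1}, τ₁ χ.1 = τ₁ ξ.1 → χ = ξ := by
      intro χ ξ h
      have h1 := iso_inner hτ₁ (mem_zspan (hmemS χ)) (mem_zspan (hmemS ξ))
      have h2 := iso_inner hτ₁ (mem_zspan (hmemS ξ)) (mem_zspan (hmemS ξ))
      rw [h, h2, irr_inner_self ξ.1.2] at h1
      by_contra hne
      have h3 : (χ.1 : L → ℂ) ≠ (ξ.1 : L → ℂ) := fun h4 => hne (Subtype.ext (Subtype.ext h4))
      rw [irr_inner_ne χ.1.2 ξ.1.2 h3] at h1
      exact one_ne_zero h1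
    by_cases hsign : ∀ χ ∈ inducedIrrAbove K ⊥, IsIrrCharacter G (τ₁ χ)
    · refine ⟨1, fun χ => ⟨τ₁ χ.1, hsign _ (hmemS χ)⟩, Or.inl rfl, ?_, ?_⟩
      · intro χ ξ h
        exact hinj χ ξ (congrArg Subtype.val h)
      · intro χ ξ
        rw [one_smul]
        exact hind χ ξ
    · push Not at hsign
      obtain ⟨χ₀, hχ₀, hχ₀n⟩ := hsign
      have hχ₀' : IsIrrCharacter G (-τ₁ χ₀) := (hpm χ₀ hχ₀).resolve_left hχ₀n
      refine ⟨-1, fun χ => ⟨-τ₁ χ.1, hneg χ₀ hχ₀ _ (hmemS χ) hχ₀'⟩, Or.inr rfl, ?_, ?_⟩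
      · intro χ ξ h
        exact hinj χ ξ (neg_injective (congrArg Subtype.val h))
      · intro χ ξ
        rw [hind χ ξ]
        show τ₁ χ.1 - τ₁ ξ.1 = (-1 : ℂ) • (-τ₁ χ.1 - -τ₁ ξ.1)
        rw [neg_one_smul]
        ring

/-- Let K be a subgroup of the finite group G that meets each conjugate by an element outside its normalizer N trivially, is properly contained in N, and contains the centralizer of each of its non-identity elements (a T.I. subgroup with Frobenius normalizer). Suppose K is abelian, let e be the index of K in N, and call an irreducible character of N relevant when it takes at some element of K a value different from its degree. Then either there is exactly one relevant character and K is an elementary abelian p-group of order e + 1 for some prime p, or there are a sign ε and an injective map f from the relevant characters to the irreducible characters of G such that inducing χ - ξ to G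 gives ε (f χ - f ξ) for all relevant χ and ξ. -/
theorem result {G : Type*} [Group G] [Fintype G] (K : Subgroup G) (hTI : ∀ g : G, g ∉ Subgroup.normalizer (K : Set G) → ∀ k ∈ K, g * k * g⁻¹ ∈ K → k = 1) (hlt : K < Subgroup.normalizer (K : Set G)) (hC : ∀ k ∈ K, k ≠ 1 → Subgroup.centralizer ({k} : Set G) ≤ K) (hab : ∀ a ∈ K, ∀ b ∈ K, a * b = b * a) : (Nat.card {χ : Cfsg.IrrCharacter (Subgroup.normalizer (K : Set G)) // ∃ k : Subgroup.normalizer (K : Set G), (k : G) ∈ K ∧ (χ : ↥(Subgroup.normalizer (K : Set G)) → ℂ) k ≠ (χ : ↥(Subgroup.normalizer (K : Set G)) → ℂ) 1} = 1 ∧ ∃ p : ℕ, p.Prime ∧ Cfsg.IsElementaryAbelian p K ∧ Nat.card K = (K.subgroupOf (Subgroup.normalizer (K : Set G))).index + 1) ∨ ∃ (ε : ℂ) (f : {χ : Cfsg.IrrCharacter (Subgroup.normalizer (K : Set G)) // ∃ k : Subgroup.normalizer (K : Set G), (k : G) ∈ K ∧ (χ : ↥(Subgroup.normalizer (K : Set G)) → ℂ) k ≠ (χ : ↥(Subgroup.normalizer (K : Set G))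 → ℂ) 1} → Cfsg.IrrCharacter G), (ε = 1 ∨ ε = -1) ∧ Function.Injective f ∧ ∀ χ ξ, Cfsg.indFun (Subgroup.normalizer (K : Set G)) ((χ.1 : ↥(Subgroup.normalizer (K : Set G)) → ℂ) - (ξ.1 : ↥(Subgroup.normalizer (K : Set G)) → ℂ)) = ε • ((f χ : G → ℂ) - (f ξ : G → ℂ)) := by
  exact aux K _ rfl hTI hlt hC hab

end Cfsg.Agent.S0851
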