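import Cfsg.Statements.S0855
import Cfsg.Agent.Lib.Helper76.ItoDeg
import Cfsg.Agent.S4456

set_option autoImplicit false
open Cfsg

namespace Cfsg.Agent.S0855

/-- For a finite group G and a prime p: every irreducible character of G has degree a power of p if and only if G has an abelian normal subgroup whose order is prime to p and whose index is a power of p. -/
theorem result {G : Type*} [Group G] [Finite G] (p : ℕ) (hp : p.Prime) : (∀ χ : Cfsg.IrrCharacter G, ∃ k : ℕ, (χ : G → ℂ) 1 = (p : ℂ) ^ k) ↔ ∃ A : Subgroup G, A.Normal ∧ (∀ a ∈ A, ∀ b ∈ A, a * b = b * a) ∧ Nat.Coprime (Nat.card A) p ∧ ∃ k : ℕ, A.index = p ^ k := by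
  have : Fact p.Prime := ⟨hp⟩
  have hdegc : ∀ χ : Cfsg.IrrCharacter G, (χ : G → ℂ) 1 = (Cfsg.charDegree (χ : G → ℂ) : ℂ) :=
    fun χ => Cfsg.Agent.Lib.Helper80.char_one_eq_charDegree
      (Cfsg.Agent.Lib.Helper80.isCharacter_of_irr χ.2)
  constructor
  · intro h
    have h' : ∀ χ : Cfsg.IrrCharacter G, ∃ k : ℕ, Cfsg.charDegree (χ : G → ℂ) = p ^ k := by
      intro χ
      obtain ⟨k, hk⟩ := h χ
      refine ⟨k, ?_⟩
      rw [hdegc χ] at hk
      exact_mod_cast hk
    obtain ⟨N, hN, hcop, hidx⟩ := Cfsg.Agent.S4456.result (G := G) p hp (by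
      intro χ hne
      obtain ⟨k, hk⟩ := h' χ
      rw [hk]
      apply dvd_pow_self
      rintro rfl
      exact hne (by simpa using hk))
    refine ⟨N, hN, ?_, hcop, hidx⟩
    apply Cfsg.Agent.Lib.Helper76.comm_of_forall_charDegree_eq_one
    intro θ
    obtain ⟨χ, h1, -, -⟩ := Cfsg.Agent.Lib.Helper76.exists_irr_over N θ
    obtain ⟨k, hk⟩ := h' χ
    rw [hk] at h1
    have h2 := Cfsg.Agent.Lib.Helper80.charDegree_dvd_card θ
    exact Nat.eq_one_of_dvd_coprimes (Nat.Coprime.pow_right k hcop) h2 h1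
  · rintro ⟨A, hA, hc, -, k, hk⟩ χ
    have h1 := Cfsg.Agent.Lib.Helper76.charDegree_dvd_index_of_comm A hc χ
    rw [hk] at h1
    obtain ⟨j, -, hj⟩ := (Nat.dvd_prime_pow hp).mp h1
    refine ⟨j, ?_⟩
    rw [hdegc χ, hj]
    push_cast
    rfl

end Cfsg.Agent.S0855
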