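import Cfsg.Statements.S0856
import Cfsg.Agent.Lib.Helper15.Iso

set_option autoImplicit false
open Cfsg Cfsg.Agent.Lib.Helper15

namespace Cfsg.Agent.S0856

theorem result {G : Type*} [Group G] [Fintype G] (N : Subgroup G) [hN : N.Normal] (φ ϑ : N → ℂ) (hφ : Cfsg.IsIrrCharacter N φ) (hϑ : Cfsg.IsIrrCharacter N ϑ) (hφinv : ∀ (g : G) (n : N), φ ⟨g * n * g⁻¹, hN.conj_mem (n : G) n.2 g⟩ = φ n) (hϑinv : ∀ (g : G) (n : N), ϑ ⟨g * n * g⁻¹, hN.conj_mem (n : G) n.2 g⟩ = ϑ n) (hprod : Cfsg.IsIrrCharacter N (φ * ϑ)) (χ : G → ℂ) (hχ : Cfsg.IsIrrCharacter G χ) (hext : ∀ n : N, χ n = ϑ n) : Set.BijOn (fun β : G → ℂ => β * χ) {β : G → ℂ | Cfsg.IsIrrCharacter G β ∧ Cfsg.classInner (Cfsg.indFun N φ) β ≠ 0} {ψ : G → ℂ | Cfsg.IsIrrCharacter G ψ ∧ Cfsg.classInner (Cfsg.indFun N (φ * ϑ)) ψ ≠ 0} := by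
  have hφ' : ∀ g : G, cj N g φ = φ := fun g => (cj_eq_iff N g φ).2 (hφinv g)
  have hϑ' : ∀ g : G, cj N g ϑ = ϑ := fun g => (cj_eq_iff N g ϑ).2 (hϑinv g)
  have hprod' : ∀ g : G, cj N g (φ * ϑ) = φ * ϑ := fun g => by rw [cj_mul, hφ', hϑ']
  let L : (G → ℂ) →ₗ[ℂ] (G → ℂ) := LinearMap.mulRight ℂ χ
  have hLapp : ∀ β, L β = β * χ := fun β => rfl
  have hres : (fun n : N => χ n) = ϑ := funext hext
  have hLα : L (indFun N φ) = indFun N (φ * ϑ) := by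
    rw [hLapp, ← indFun_mul_restrict N φ (irr_cf hχ), hres]
  have hnorm : classInner (L (indFun N φ)) (L (indFun N φ))
      = classInner (indFun N φ) (indFun N φ) := by
    rw [hLα, norm_indFun_of_invariant N hprod hprod', norm_indFun_of_invariant N hφ hφ']
  have := iso_lemma_bijOn L
    (fun ψ hψ => Cfsg.Agent.Lib.Helper3.IsCharacter.mul (irr_char hψ) (irr_char hχ))
    (fun ψ hψ h0 => by
      have h1 := congrFun h0 1
      rw [hLapp, Pi.mul_apply] at h1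
      exact (mul_ne_zero (irr_one_ne_zero hψ) (irr_one_ne_zero hχ)) h1)
    (indFun N φ) (char_indFun N (irr_char hφ)) hnorm
  rw [hLα] at this
  exact this

end Cfsg.Agent.S0856
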