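import Cfsg.Statements.S0857
import Cfsg.Agent.Lib.Helper15.LinearMul

set_option autoImplicit false
open Cfsg Cfsg.Agent.Lib.Helper15

namespace Cfsg.Agent.S0857

theorem result {G : Type*} [Group G] [Fintype G] (K L : Subgroup G) [hK : K.Normal] [L.Normal] (hLK : L < K) (hchief : ∀ M : Subgroup G, M.Normal → L ≤ M → M ≤ K → M = L ∨ M = K) (hab : ⁅K, K⁆ ≤ L) (ϑ : K → ℂ) (hϑ : Cfsg.IsIrrCharacter K ϑ) (hinv : ∀ (g : G) (n : K), ϑ ⟨g * n * g⁻¹, hK.conj_mem (n : G) n.2 g⟩ = ϑ n) : Cfsg.IsIrrCharacter L (fun x : L => ϑ ⟨(x : G), hLK.le x.2⟩) ∨ (∃ (φ : L → ℂ) (e : ℕ), Cfsg.IsIrrCharacter L φ ∧ (fun x : L => ϑ ⟨(x : G), hLK.le x.2⟩) = (e : ℂ) • φ ∧ e ^ 2 = L.relIndex K) ∨ (∃ F : Finset (L → ℂ), (∀ φ ∈ F, Cfsg.IsIrrCharacter L φ) ∧ F.card = L.relIndex K ∧ (fun x : L => ϑ ⟨(x : G), hLK.le x.2⟩) = ∑ φ ∈ F, φ) := by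
  classical
  have := Fintype.ofFinite L
  have := Fintype.ofFinite K
  have h : L ≤ K := hLK.le
  show IsIrrCharacter L (resFun h ϑ) ∨ (∃ (φ : L → ℂ) (e : ℕ), IsIrrCharacter L φ ∧
    resFun h ϑ = (e : ℂ) • φ ∧ e ^ 2 = L.relIndex K) ∨ (∃ F : Finset (L → ℂ),
    (∀ φ ∈ F, IsIrrCharacter L φ) ∧ F.card = L.relIndex K ∧ resFun h ϑ = ∑ φ ∈ F, φ)
  have hinv' : ∀ g, cj K g ϑ = ϑ := fun g => (cj_eq_iff K g ϑ).2 (hinv g)
  have hresχ : IsCharacter L (resFun h ϑ) := char_resFun h (irr_char hϑ)
  have hres1 : resFun h ϑ 1 = ϑ 1 := rfl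
  have hres0 : resFun h ϑ ≠ 0 := by
    intro h0
    have := congrFun h0 1
    rw [hres1] at this
    exact irr_one_ne_zero hϑ this
  obtain ⟨φ, hφ, h1⟩ := exists_constituent hresχ hres0
  have hresinv : ∀ g, cj L g (resFun h ϑ) = resFun h ϑ := fun g => by rw [cj_resFun, hinv']
  let I : Subgroup G := K ⊓ inertia L φ
  have hLI : L ≤ I := le_inf h (le_inertia L (irr_cf hφ))
  have hIn : I.Normal := by
    constructor
    intro x hx g
    refine ⟨hK.conj_mem x hx.1 g, ?_⟩
    have hx2 : cj L x φ = φ := hx.2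
    have h2 : classInner (resFun h ϑ) (cj L g φ) ≠ 0 := by
      rw [← hresinv g, classInner_cj_cj]; exact h1
    obtain ⟨k, hk⟩ := rel_clifford_conj h hϑ hφ (irr_cj L g hφ) h1 h2
    have h3 : cj L x (cj L (k : G) φ) = cj L (k : G) φ := by
      rw [cj_cj]
      have hc : (k : G) * x * (k : G)⁻¹ * x⁻¹ ∈ L :=
        hab (Subgroup.commutator_mem_commutator k.2 hx.1)
      have e : (k : G) * x = ((k : G) * x * (k : G)⁻¹ * x⁻¹) * x * k := by group
      rw [e, ← cj_cj, ← cj_cj, cj_of_mem L hc (irr_cf hφ), hx2]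
    show cj L (g * x * g⁻¹) φ = φ
    rw [← cj_cj, ← cj_cj, hk, h3, ← hk, cj_inv_cj]
  have hcardK : (Nat.card K : ℂ) = (Nat.card L : ℂ) * (L.relIndex K : ℂ) := by
    have := (L.subgroupOf K).card_mul_index
    rw [card_subgroupOf_of_le h] at this
    rw [← this]; push_cast; rfl
  have hL0 : (Nat.card L : ℂ) ≠ 0 := card_ne_zero L
  rcases hchief I hIn hLI inf_le_left with hI | hI
  · -- the inertia group in K is L
    right; right
    have hstab : Nat.card {k : K // cj L (k : G) φ = φ} = Nat.card L := by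
      apply Nat.card_congr
      exact ⟨fun k => ⟨k.1.1, hI.le ⟨k.1.2, k.2⟩⟩,
        fun l => ⟨⟨l.1, h l.2⟩, cj_of_mem L l.2 (irr_cf hφ)⟩, fun _ => rfl, fun _ => rfl⟩
    have hnorm := rel_norm_indFun h hφ
    rw [hstab, inv_mul_cancel₀ hL0] at hnorm
    set Φ := indFun (L.subgroupOf K) (downFun L K φ) with hΦ
    have hΦirr : IsIrrCharacter K Φ :=
      isIrr_iff.2 ⟨char_indFun _ (irr_char (irr_downFun h hφ)), hnorm⟩
    have hΦϑ : classInner Φ ϑ = classInner φ (resFun h ϑ) :=
      classInner_indFun_downFun_left h φ ϑ (irr_cf hϑ)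
    have hcomm := inner_comm_of_char (irr_char hφ) hresχ
    have hΦeq : Φ = ϑ := irr_eq_of_inner_ne_zero hΦirr hϑ (by rw [hΦϑ, hcomm]; exact h1)
    have he : classInner (resFun h ϑ) φ = 1 := by
      rw [← hcomm, ← hΦϑ, hΦeq, irr_inner_self hϑ]
    have hcl := rel_clifford_theorem h hϑ hφ h1
    rw [he, one_smul] at hcl
    refine ⟨Finset.univ.image (fun k : K => cj L (k : G) φ), ?_, ?_, hcl⟩
    · intro φ' hφ'
      obtain ⟨g, -, rfl⟩ := Finset.mem_image.1 hφ'
      exact irr_cj L _ hφ
    · have h4 := congrFun hcl 1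
      rw [hres1, ← hΦeq, hΦ, indFun_one, Finset.sum_apply] at h4
      have h5 : ∀ φ' ∈ Finset.univ.image (fun k : K => cj L (k : G) φ), φ' 1 = φ 1 := by
        intro φ' hφ'
        obtain ⟨g, -, rfl⟩ := Finset.mem_image.1 hφ'
        exact cj_apply_one L _ φ
      rw [Finset.sum_congr rfl h5, Finset.sum_const, nsmul_eq_mul] at h4
      have h6 : downFun L K φ 1 = φ 1 := rfl
      rw [h6] at h4
      have h7 := mul_right_cancel₀ (irr_one_ne_zero hφ) h4
      have h8 : (L.subgroupOf K).index = (Finset.univ.image (fun k : K => cj L (k : G) φ)).card := by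
        exact_mod_cast h7
      exact h8.symm
  · -- φ is K-invariant
    have hinvK : ∀ k : K, cj L (k : G) φ = φ := fun k => by
      have : (k : G) ∈ I := hI.ge k.2
      exact this.2
    have hsm := rel_restrict_eq_smul h hϑ hφ h1 hinvK
    obtain ⟨e, he⟩ := inner_nat hresχ (irr_char hφ)
    rw [he] at hsm
    have hnormres : classInner (resFun h ϑ) (resFun h ϑ) = ((e ^ 2 : ℕ) : ℂ) := by
      rw [hsm, classInner_smul_left, classInner_smul_right, irr_inner_self hφ,
        Complex.conj_natCast]
      push_cast; ring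
    have hcomm' : commutator K ≤ L.subgroupOf K := by
      intro x hx
      rw [Subgroup.mem_subgroupOf]
      apply hab
      rw [← Subgroup.map_subtype_commutator]
      exact Subgroup.mem_map.2 ⟨x, hx, rfl⟩
    have := Fintype.ofFinite (L.subgroupOf K)
    by_cases hex : ∃ lam : K → ℂ, IsIrrCharacter K lam ∧
        classInner (fun n : L.subgroupOf K => lam n) (fun _ => 1) ≠ 0 ∧
        lam ≠ (fun _ => 1) ∧ lam * ϑ = ϑ
    · right; left
      refine ⟨φ, e, hφ, hsm, ?_⟩
      obtain ⟨lam, hlam, hlam1, hlamne, hlamϑ⟩ := hex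
      have hlin : lam 1 = 1 := linear_of_commutator_le (L.subgroupOf K) hcomm' hlam hlam1
      obtain ⟨f, hf⟩ := Cfsg.Agent.Lib.Helper80.exists_hom_of_degree_one (irr_char hlam) hlin
      let U : Subgroup G := f.ker.map K.subtype
      have hLU : L ≤ U := by
        intro l hl
        refine Subgroup.mem_map.2 ⟨⟨l, h hl⟩, ?_, rfl⟩
        rw [MonoidHom.mem_ker]
        have := (restrict_eq_of_inner_one_ne_zero (L.subgroupOf K) hlam hlam1).2
          ⟨⟨l, h hl⟩, Subgroup.mem_subgroupOf.2 hl⟩
        simp only [] at this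
        rw [hlin, hf] at this
        exact Units.ext this
      have hWK : U.normalCore ≤ K := (Subgroup.normalCore_le U).trans (Subgroup.map_subtype_le _)
      have hWne : U.normalCore ≠ K := by
        intro hW
        apply hlamne
        funext k
        have hk : (k : G) ∈ U := Subgroup.normalCore_le U (hW.ge k.2)
        obtain ⟨k', hk', hkk'⟩ := Subgroup.mem_map.1 hk
        have : k' = k := Subtype.ext hkk'
        rw [this, MonoidHom.mem_ker] at hk'
        rw [hf, hk']; simp
      have hW : U.normalCore = L :=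
        (hchief U.normalCore inferInstance (Subgroup.normal_le_normalCore.2 hLU) hWK).resolve_right
          hWne
      have hvan : ∀ k : K, (k : G) ∉ L → ϑ k = 0 := by
        intro k hk
        rw [← hW] at hk
        have : ¬ ∀ b : G, b * (k : G) * b⁻¹ ∈ U := hk
        push Not at this
        obtain ⟨g, hg⟩ := this
        rw [← hinv g k]
        set k' : K := ⟨g * k * g⁻¹, hK.conj_mem (k : G) k.2 g⟩ with hk'
        have h5 : lam k' ≠ 1 := by
          intro h6
          apply hg
          refine Subgroup.mem_map.2 ⟨k', ?_, rfl⟩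
          rw [MonoidHom.mem_ker]
          rw [hf] at h6
          exact Units.ext h6
        have h6 := congrFun hlamϑ k'
        rw [Pi.mul_apply] at h6
        by_contra h7
        exact h5 (mul_right_cancel₀ h7 (by rw [h6, one_mul]))
      rw [rel_vanishes_off_iff h ϑ, irr_inner_self hϑ, hnormres, hcardK, mul_one] at hvan
      have := mul_left_cancel₀ hL0 hvan
      exact_mod_cast this.symm
    · left
      push Not at hex
      have := Fintype.ofFinite (IrrCharacter K)
      set ρ := indFun (L.subgroupOf K) (fun _ => (1 : ℂ)) with hρ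
      have hρχ : IsCharacter K ρ := char_indFun _ (irr_char irr_one)
      have h5 : classInner (ρ * ϑ) ϑ = ((e ^ 2 : ℕ) : ℂ) := by
        rw [hρ, ← indFun_mul_restrict _ _ (irr_cf hϑ), classInner_indFun_left _ _ _ (irr_cf hϑ),
          ← hnormres, ← classInner_downFun h, downFun_resFun]
        congr 1
        funext x
        simp
      have h6 : classInner (ρ * ϑ) ϑ = 1 := by
        have hexp : ρ * ϑ = ∑ lam : IrrCharacter K, classInner ρ lam • ((lam : K → ℂ) * ϑ) := by
          conv_lhs => rw [cf_expansion (char_cf hρχ)]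
          rw [Finset.sum_mul]
          apply Finset.sum_congr rfl
          intro lam _
          rw [smul_mul_assoc]
        rw [hexp, classInner_sum_left,
          Finset.sum_eq_single (⟨fun _ => 1, irr_one⟩ : IrrCharacter K)]
        · rw [classInner_smul_left, hρ, classInner_indFun_left _ _ _ (irr_cf irr_one)]
          have e1 : ((fun _ => 1 : K → ℂ) * ϑ) = ϑ := by funext x; simp
          simp only []
          rw [e1, irr_inner_self hϑ, irr_inner_self irr_one, mul_one]
        · intro lam _ hne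
          rw [classInner_smul_left]
          by_cases h0 : classInner ρ lam = 0
          · rw [h0, zero_mul]
          · have h0' : classInner (fun n : L.subgroupOf K => (lam : K → ℂ) n) (fun _ => 1) ≠ 0 := by
              rw [hρ, classInner_indFun_left _ _ _ (irr_cf lam.2),
                inner_comm_of_char (irr_char irr_one) (char_restrict (irr_char lam.2) _)] at h0
              exact h0
            have hlin : (lam : K → ℂ) 1 = 1 :=
              linear_of_commutator_le (L.subgroupOf K) hcomm' lam.2 h0'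
            have hne' := hex lam lam.2 h0' (fun h => hne (Subtype.ext h))
            rw [irr_inner_ne (irr_linear_mul (irr_char lam.2) hlin hϑ) hϑ hne', mul_zero]
        · intro h; exact absurd (Finset.mem_univ _) h
      rw [h5] at h6
      have h7 : e ^ 2 = 1 := by exact_mod_cast h6
      have h8 : e = 1 := by
        rcases Nat.lt_or_ge e 2 with h | h
        · interval_cases e <;> simp_all
        · nlinarith
      rw [hsm, h8]
      simpa using hφ

end Cfsg.Agent.S0857
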