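import Cfsg.Statements.S0858
import Cfsg.Agent.S0857
import Cfsg.Agent.Lib.Helper81.Berger
import Cfsg.Agent.Lib.Helper3.Mono

set_option autoImplicit false
open Cfsg

namespace Cfsg.Agent.S0858

open Cfsg.Agent.Lib Cfsg.Agent.Lib.Helper15 Cfsg.Agent.Lib.Helper81

universe u

/-- the hypothesis on chief factors -/
def Hyp {G : Type u} [Group G] (N : Subgroup G) : Prop :=
  ∀ (H K L : Subgroup G), N ≤ L → L < K → K ≤ H → (∀ h ∈ H, ∀ k ∈ K, h * k * h⁻¹ ∈ K) →
    (∀ h ∈ H, ∀ l ∈ L, h * l * h⁻¹ ∈ L) →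
    (∀ M : Subgroup G, L ≤ M → M ≤ K → (∀ h ∈ H, ∀ m ∈ M, h * m * h⁻¹ ∈ M) → M = L ∨ M = K) →
    ¬ IsSquare (L.relIndex K)

/-- the conclusion -/
def Concl {G : Type u} [Group G] [Fintype G] (N : Subgroup G) (χ : G → ℂ) : Prop :=
  ∃ (H : Subgroup G) (hNH : N ≤ H) (ψ : H → ℂ), IsIrrCharacter H ψ ∧ indFun H ψ = χ ∧
    IsIrrCharacter N (fun n : N => ψ ⟨(n : G), hNH n.2⟩)

theorem map_subgroupOf {G : Type u} [Group G] {T M : Subgroup G} (h : M ≤ T) :
    (M.subgroupOf T).map T.subtype = M := by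
  rw [Subgroup.subgroupOf_map_subtype, inf_eq_left.2 h]

theorem hyp_subgroupOf {G : Type u} [Group G] (N T : Subgroup G) (hNT : N ≤ T) (h : Hyp N) :
    Hyp (N.subgroupOf T) := by
  intro H K L hNL hLK hKH hK hL hM
  have hinj : Function.Injective T.subtype := T.subtype_injective
  rw [← Subgroup.relIndex_map_map_of_injective L K hinj]
  apply h (H.map T.subtype) (K.map T.subtype) (L.map T.subtype)
  · rw [← map_subgroupOf hNT]
    exact Subgroup.map_mono hNL
  · exact (Subgroup.map_lt_map_iff_of_injective hinj).2 hLK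
  · exact Subgroup.map_mono hKH
  · rintro _ ⟨h, hh, rfl⟩ _ ⟨k, hk, rfl⟩
    exact ⟨h * k * h⁻¹, hK h hh k hk, rfl⟩
  · rintro _ ⟨h, hh, rfl⟩ _ ⟨k, hk, rfl⟩
    exact ⟨h * k * h⁻¹, hL h hh k hk, rfl⟩
  · intro M hLM hMK hMn
    have hMT : M ≤ T := hMK.trans (Subgroup.map_subtype_le K)
    have a1 : L ≤ M.subgroupOf T := by
      intro x hx
      exact hLM ⟨x, hx, rfl⟩
    have a2 : M.subgroupOf T ≤ K := by
      intro x hx
      obtain ⟨y, hy, hyx⟩ := hMK hx
      have : y = x := Subtype.ext hyx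
      rwa [← this]
    have a3 : ∀ h ∈ H, ∀ m ∈ M.subgroupOf T, h * m * h⁻¹ ∈ M.subgroupOf T := by
      intro h hh m hm
      exact hMn h ⟨h, hh, rfl⟩ m hm
    rcases hM (M.subgroupOf T) a1 a2 a3 with h1 | h1
    · left
      rw [← h1, map_subgroupOf hMT]
    · right
      rw [← h1, map_subgroupOf hMT]

theorem card_lt_of_lt {G : Type u} [Group G] [Finite G] {A B : Subgroup G} (h : A < B) :
    Nat.card A < Nat.card B := by
  refine lt_of_le_of_ne (Subgroup.card_le_of_le h.le) ?_
  intro he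
  exact absurd (Subgroup.eq_of_le_of_card_ge h.le he.ge) h.ne

theorem concl_of_subgroup {G : Type u} [Group G] [Fintype G] (N T : Subgroup G) [Fintype T]
    (hNT : N ≤ T) (ψ : T → ℂ) (h : Concl (N.subgroupOf T) ψ) : Concl N (indFun T ψ) := by
  classical
  obtain ⟨H, hNH, μ, hμ, hind, hres⟩ := h
  let e := H.equivMapOfInjective T.subtype T.subtype_injective
  have hle : H.map T.subtype ≤ T := Subgroup.map_subtype_le H
  have hN : N ≤ H.map T.subtype := by
    rw [← map_subgroupOf hNT]
    exact Subgroup.map_mono hNH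
  refine ⟨H.map T.subtype, hN, μ ∘ e.symm, irr_comp_equiv e.symm hμ, ?_, ?_⟩
  · rw [← hind, ← indFun_indFun hle]
    congr 1
    apply indFun_congr
    · ext x
      rw [Subgroup.mem_subgroupOf, Subgroup.mem_map]
      constructor
      · rintro ⟨y, hy, hyx⟩
        have : y = x := Subtype.ext hyx
        rwa [← this]
      · intro hx
        exact ⟨x, hx, rfl⟩
    · intro x h1 h2
      rw [downFun_apply, Function.comp_apply]
      refine congrArg _ ?_
      rw [MulEquiv.symm_apply_eq]
      exact Subtype.ext rfl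
  · have := irr_comp_equiv (Subgroup.subgroupOfEquivOfLe hNT).symm hres
    convert this using 1
    funext n
    rw [Function.comp_apply, Function.comp_apply]
    refine congrArg _ ?_
    rw [MulEquiv.symm_apply_eq]
    exact Subtype.ext rfl

theorem concl_top {G : Type u} [Group G] [Fintype G] (N : Subgroup G) {χ : G → ℂ}
    (hχ : IsIrrCharacter G χ) (hN : IsIrrCharacter N (fun n : N => χ n)) : Concl N χ := by
  have h1 : IsIrrCharacter (⊤ : Subgroup G) (χ ∘ Subgroup.topEquiv) :=
    irr_comp_equiv Subgroup.topEquiv hχ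
  refine ⟨⊤, le_top, χ ∘ Subgroup.topEquiv, h1, ?_, hN⟩
  funext g
  rw [Helper3.indFun_top _ (irr_cf h1)]
  rfl

theorem chief_abelian {G : Type u} [Group G] (N K L : Subgroup G) [N.Normal] [K.Normal]
    [L.Normal] (hsolv : Group.IsSolvable (G ⧸ N)) (hNL : N ≤ L) (hLK : L < K)
    (hchief : ∀ M : Subgroup G, M.Normal → L ≤ M → M ≤ K → M = L ∨ M = K) : ⁅K, K⁆ ≤ L := by
  have hs : Group.IsSolvable (G ⧸ L) := solvable_quot_of_le N L hNL hsolv
  have hcK : ⁅K, K⁆ ≤ K := Subgroup.commutator_le_left K K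
  rcases hchief (L ⊔ ⁅K, K⁆) inferInstance le_sup_left (sup_le hLK.le hcK) with h | h
  · rw [← h]
    exact le_sup_right
  · exfalso
    have hne : K.map (QuotientGroup.mk' L) ≠ ⊥ := by
      intro hb
      rw [Subgroup.map_eq_bot_iff, QuotientGroup.ker_mk'] at hb
      exact absurd hb (not_le_of_gt hLK)
    have hlt := Group.IsSolvable.commutator_lt_of_ne_bot hne
    rw [← Subgroup.map_commutator] at hlt
    have : K.map (QuotientGroup.mk' L) = (⁅K, K⁆).map (QuotientGroup.mk' L) := by
      conv_lhs => rw [← h]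
      rw [Subgroup.map_sup]
      have : L.map (QuotientGroup.mk' L) = ⊥ := by
        rw [Subgroup.map_eq_bot_iff, QuotientGroup.ker_mk']
      rw [this, bot_sup_eq]
    rw [← this] at hlt
    exact lt_irrefl _ hlt

theorem main (n : ℕ) : ∀ (G : Type u) [Group G] [Fintype G] (N : Subgroup G) [N.Normal],
    Nat.card G ≤ n → Group.IsSolvable (G ⧸ N) → Hyp N → ∀ χ : G → ℂ, IsIrrCharacter G χ →
    Concl N χ := by
  classical
  induction n with
  | zero =>
    intro G _ _ N _ hn
    exact absurd hn (by have := Nat.card_pos (α := G); omega)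
  | succ n ih =>
    intro G _ _ N _ hn hsolv hyp χ hχ
    by_cases hN : IsIrrCharacter N (fun n : N => χ n)
    · exact concl_top N hχ hN
    -- minimal normal `K ≥ N` with irreducible restriction
    have hex : ∃ m : ℕ, ∃ K : Subgroup G, K.Normal ∧ N ≤ K ∧
        IsIrrCharacter K (fun k : K => χ k) ∧ Nat.card K = m :=
      ⟨_, ⊤, inferInstance, le_top, irr_comp_equiv Subgroup.topEquiv hχ, rfl⟩
    obtain ⟨K, hKn, hNK, hχK, hKm⟩ := Nat.find_spec hex
    have hKmin : ∀ K' : Subgroup G, K'.Normal → N ≤ K' → K' < K →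
        ¬ IsIrrCharacter K' (fun k : K' => χ k) := by
      intro K' h1 h2 h3 h4
      have := Nat.find_min' hex ⟨K', h1, h2, h4, rfl⟩
      have h5 : Nat.card K' < Nat.card K := card_lt_of_lt h3
      omega
    have hNK' : N < K := by
      refine lt_of_le_of_ne hNK ?_
      rintro rfl
      exact hN hχK
    -- maximal normal `L` with `N ≤ L < K`
    have hex2 : ∃ m : ℕ, ∃ L : Subgroup G, L.Normal ∧ N ≤ L ∧ L < K ∧ L.index = m :=
      ⟨_, N, inferInstance, le_rfl, hNK', rfl⟩
    obtain ⟨L, hLn, hNL, hLK, hLm⟩ := Nat.find_spec hex2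
    have hchief : ∀ M : Subgroup G, M.Normal → L ≤ M → M ≤ K → M = L ∨ M = K := by
      intro M hM h1 h2
      by_contra hcon
      push Not at hcon
      have h3 : L < M := lt_of_le_of_ne h1 (Ne.symm hcon.1)
      have h4 : M < K := lt_of_le_of_ne h2 hcon.2
      have := Nat.find_min' hex2 ⟨M, hM, hNL.trans h1, h4, rfl⟩
      have h5 : M.index < L.index := Subgroup.index_strictAnti h3
      omega
    have hab : ⁅K, K⁆ ≤ L := chief_abelian N K L hsolv hNL hLK hchief
    have hnsq : ¬ IsSquare (L.relIndex K) := by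
      apply hyp ⊤ K L hNL hLK le_top
      · intro h _ k hk
        exact hKn.conj_mem k hk h
      · intro h _ k hk
        exact hLn.conj_mem k hk h
      · intro M h1 h2 h3
        exact hchief M ⟨fun m hm g => h3 g (Subgroup.mem_top g) m hm⟩ h1 h2
    have hLirr := hKmin L hLn hNL hLK
    rcases homog_or_induced L hχ with ⟨ω₁, c, hω₁, hc⟩ | ⟨T, ψ, hLT, hT, hψ, hind⟩
    · exfalso
      rcases S0857.result K L hLK hchief hab (fun k : K => χ k) hχK (by
        intro g k
        exact irr_cf hχ k g) with h | ⟨φ, e, hφ, he, hsq⟩ | ⟨F, hF, hFc, hFs⟩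
      · exact hLirr h
      · exact hnsq ⟨e, by rw [← hsq, sq]⟩
      · have hsub : ∀ φ ∈ F, φ = ω₁ := by
          intro φ hφ
          by_contra hne
          have h1 : classInner (fun x : L => χ x) φ = 0 := by
            rw [hc, classInner_smul_left, irr_inner_ne hω₁ (hF φ hφ) (Ne.symm hne), mul_zero]
          have h2 : classInner (fun x : L => χ x) φ = 1 := by
            have : (fun x : L => χ x) = ∑ φ ∈ F, φ := hFs
            rw [this, classInner_sum_left, Finset.sum_eq_single φ]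
            · exact irr_inner_self (hF φ hφ)
            · intro b hb hbφ
              exact irr_inner_ne (hF b hb) (hF φ hφ) hbφ
            · intro h
              exact absurd hφ h
          rw [h1] at h2
          exact zero_ne_one h2
        have hcard : F.card ≤ 1 := Finset.card_le_one.2 (fun a ha b hb => by
          rw [hsub a ha, hsub b hb])
        have h2 : 1 < L.relIndex K := by
          have h0 : L.relIndex K ≠ 0 := Subgroup.index_ne_zero_of_finite
          have h1 : L.relIndex K ≠ 1 := by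
            intro h
            rw [Subgroup.relIndex_eq_one] at h
            exact absurd h (not_le_of_gt hLK)
          omega
        omega
    · have hNT : N ≤ T := hNL.trans hLT
      rw [← hind]
      apply concl_of_subgroup N T hNT ψ
      apply ih T (N.subgroupOf T) _ _ (hyp_subgroupOf N T hNT hyp) ψ hψ
      · have : Nat.card T < Nat.card G := by
          rw [← Subgroup.card_top (G := G)]
          exact card_lt_of_lt (lt_top_iff_ne_top.2 hT)
        omega
      · exact solvable_quot_comap T.subtype N hsolv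

theorem result {G : Type*} [Group G] [Fintype G] (N : Subgroup G) [N.Normal] (hsolv : Group.IsSolvable (G ⧸ N)) (hchief : ∀ (H K L : Subgroup G), N ≤ L → L < K → K ≤ H → (∀ h ∈ H, ∀ k ∈ K, h * k * h⁻¹ ∈ K) → (∀ h ∈ H, ∀ l ∈ L, h * l * h⁻¹ ∈ L) → (∀ M : Subgroup G, L ≤ M → M ≤ K → (∀ h ∈ H, ∀ m ∈ M, h * m * h⁻¹ ∈ M) → M = L ∨ M = K) → ¬ IsSquare (L.relIndex K)) (χ : G → ℂ) (hχ : Cfsg.IsIrrCharacter G χ) : ∃ (H : Subgroup G) (hNH : N ≤ H) (ψ : H → ℂ), Cfsg.IsIrrCharacter H ψ ∧ Cfsg.indFun H ψ = χ ∧ Cfsg.IsIrrCharacter N (fun n : N => ψ ⟨(n : G), hNH n.2⟩) :=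
  main _ G N le_rfl hsolv hchief χ hχ

end Cfsg.Agent.S0858
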