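import Cfsg.Statements.S0860
import Cfsg.Agent.Lib.Helper81.BrauerPerm

set_option autoImplicit false
open Cfsg

namespace Cfsg.Agent.S0860

theorem result {G : Type*} [Group G] [Finite G] {A : Type*} [Group A] [MulAction A (Cfsg.IrrCharacter G)] [MulAction A (ConjClasses G)] (hcompat : ∀ (a : A) (χ : Cfsg.IrrCharacter G) (g g' : G), ConjClasses.mk g' = a • ConjClasses.mk g → ((a • χ : Cfsg.IrrCharacter G) : G → ℂ) g' = (χ : G → ℂ) g) (a : A) : Nat.card {χ : Cfsg.IrrCharacter G // a • χ = χ} = Nat.card {C : ConjClasses G // a • C = C} := by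
  have hex : ∀ g : G, ∃ x : G, ConjClasses.mk x = a⁻¹ • ConjClasses.mk g := by
    intro g
    exact ConjClasses.exists_rep _
  choose α hα using hex
  have h1 := Cfsg.Agent.Lib.Helper81.brauer_perm α (fun χ => a • χ)
    (fun χ g => hcompat a χ (α g) g (by rw [hα, smul_inv_smul]))
    (fun c => a⁻¹ • c) (fun g => (hα g).symm)
  rw [h1]
  apply Nat.card_congr
  apply Equiv.subtypeEquivRight
  intro c
  rw [inv_smul_eq_iff, eq_comm]

end Cfsg.Agent.S0860
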