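import Cfsg.Statements.S0861
import Cfsg.Agent.Lib.Helper80.NonVanish
import Cfsg.Agent.Lib.Helper80.Linear
import Cfsg.Agent.Lib.Helper76.RootsSum
import Cfsg.Agent.S0169

set_option autoImplicit false
open Cfsg

namespace Cfsg.Agent.S0861

open Cfsg.Agent.Lib.Helper74 Cfsg.Agent.Lib.Helper80 Cfsg.Agent.Lib.Helper76

/-- A character of degree prime to `p` does not vanish on `p`-elements. -/
theorem char_ne_zero_of_pElement {G : Type*} [Group G] (p : ℕ) [Fact p.Prime] {χ : G → ℂ}
    (hχ : IsCharacter G χ) (hdeg : ¬ p ∣ charDegree χ) (g : G) (j : ℕ) (hg : g ^ (p ^ j) = 1) :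
    χ g ≠ 0 := by
  intro h0
  apply hdeg
  have h1 := char_one_eq_charDegree hχ
  obtain ⟨n, ρ, rfl⟩ := hχ
  obtain ⟨μ, hμ1, hμ2⟩ := exists_char_eigenvalues ρ g (p ^ j)
    (pow_pos (Fact.out : p.Prime).pos _) hg
  have h2 := hμ2 1
  simp only [pow_one] at h2
  rw [h0] at h2
  have h3 := dvd_of_sum_roots_eq_zero p j _ μ hμ1 h2.symm
  rw [Representation.char_one] at h1
  have h4 : Module.finrank ℂ (Fin n → ℂ) = charDegree ρ.character := by exact_mod_cast h1
  rwa [h4] at h3

/-- Let P be a normal abelian Sylow p-subgroup of the finite group G and suppose some element g of P has centralizer exactly P. Then the number of irreducible characters of G is at most the order of P, and if equality holds then G / P is abelian (the commutator subgroup lies in P). -/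
theorem result {G : Type*} [Group G] [Finite G] (p : ℕ) [Fact p.Prime] (P : Sylow p G) [(P : Subgroup G).Normal] (hab : ∀ a ∈ P, ∀ b ∈ P, a * b = b * a) (g : G) (hg : g ∈ P) (hC : Subgroup.centralizer ({g} : Set G) = P) : Nat.card (Cfsg.IrrCharacter G) ≤ Nat.card P ∧ (Nat.card (Cfsg.IrrCharacter G) = Nat.card P → commutator G ≤ P) := by
  classical
  have := Fintype.ofFinite G
  have hnv : ∀ χ : IrrCharacter G, (χ : G → ℂ) g ≠ 0 := by
    intro χ
    obtain ⟨j, hj⟩ := IsPGroup.iff_card.1 P.2
    apply char_ne_zero_of_pElement p (isCharacter_of_irr χ.2) _ g j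
    · have h1 : (⟨g, hg⟩ : (P : Subgroup G)) ^ (p ^ j) = 1 := by
        rw [← hj]
        exact pow_card_eq_one'
      exact congrArg Subtype.val h1
    · intro hdvd
      have h1 := char_one_eq_charDegree (isCharacter_of_irr χ.2)
      obtain ⟨χ, n, ρ, hρ, rfl⟩ := χ
      have h2 := Cfsg.Agent.S0169.result ρ (P : Subgroup G) hab
      change ρ.character 1 = (charDegree ρ.character : ℂ) at h1
      change p ∣ charDegree ρ.character at hdvd
      rw [Representation.char_one] at h1
      have h4 : Module.finrank ℂ (Fin n → ℂ) = charDegree ρ.character := by exact_mod_cast h1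
      rw [h4] at h2
      exact P.not_dvd_index (hdvd.trans h2)
  have h1 := card_irr_le_of_nonvanishing g hnv
  rw [hC] at h1
  refine ⟨h1, fun heq => ?_⟩
  rw [← Subgroup.Normal.quotient_commutative_iff_commutator_le, isMulCommutative_iff,
    comm_iff_all_linear]
  intro ψ
  have h2 := charDegree_eq_one_of_nonvanishing g hnv (by rw [hC]; exact heq)
    (inflateEquiv (P : Subgroup G) ψ).1 ((inflateEquiv (P : Subgroup G) ψ).2 g hg)
  have h3 := char_one_eq_charDegree (isCharacter_of_irr (inflateEquiv (P : Subgroup G) ψ).1.2)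
  rw [h2] at h3
  simpa using h3

end Cfsg.Agent.S0861
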