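import Cfsg.Statements.S0875
import Cfsg.Agent.Lib.Helper75.BrauerR
import Cfsg.Agent.Lib.Helper75.PiPart

set_option autoImplicit false
open Cfsg

namespace Cfsg.Agent.S0875

/-- Let G be a finite group of order m * n with m and n coprime, and g an element whose order is coprime to m. Every x in G factors uniquely as x = u * v with u, v commuting, the order of u coprime to n and the order of v coprime to m; let ϑ be the function on G equal to n at those x whose factor v is conjugate to g and equal to 0 elsewhere. Then ϑ is a linear combination of the irreducible characters of G with algebraic-integer coefficients. -/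
theorem result {G : Type*} [Group G] [Fintype G] (m n : ℕ) (hmn : Nat.card G = m * n) (hcop : Nat.Coprime m n) (g : G) (hg : Nat.Coprime (orderOf g) m) (ϑ : G → ℂ) (hϑ1 : ∀ x : G, (∃ v : G, IsConj v g ∧ (∃ u : G, x = u * v ∧ Commute u v ∧ Nat.Coprime (orderOf u) n ∧ Nat.Coprime (orderOf v) m)) → ϑ x = n) (hϑ0 : ∀ x : G, (¬ ∃ v : G, IsConj v g ∧ (∃ u : G, x = u * v ∧ Commute u v ∧ Nat.Coprime (orderOf u) n ∧ Nat.Coprime (orderOf v) m)) → ϑ x = 0) : ∃ c : Cfsg.IrrCharacter G → ℂ, (∀ χ, c χ ∈ Cfsg.AlgInt) ∧ ϑ = ∑ᶠ χ : Cfsg.IrrCharacter G, c χ • (χ : G → ℂ) := by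
  classical
  have hconj : ∀ (x h : G), (∃ v : G, IsConj v g ∧ (∃ u : G, x = u * v ∧ Commute u v ∧
      Nat.Coprime (orderOf u) n ∧ Nat.Coprime (orderOf v) m)) →
      (∃ v : G, IsConj v g ∧ (∃ u : G, h * x * h⁻¹ = u * v ∧ Commute u v ∧
      Nat.Coprime (orderOf u) n ∧ Nat.Coprime (orderOf v) m)) := by
    rintro x h ⟨v, hv, u, rfl, hc, hu, hv'⟩
    refine ⟨MulAut.conj h v, ?_, MulAut.conj h u, ?_, ?_, ?_, ?_⟩
    · refine IsConj.trans ?_ hv
      rw [isConj_comm, isConj_iff]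
      exact ⟨h, rfl⟩
    · simp only [MulAut.conj_apply]; group
    · exact hc.map (MulAut.conj h)
    · rwa [MulEquiv.orderOf_eq]
    · rwa [MulEquiv.orderOf_eq]
  have hcl : Cfsg.IsClassFunction G ϑ := by
    intro x h
    by_cases hs : ∃ v : G, IsConj v g ∧ (∃ u : G, x = u * v ∧ Commute u v ∧
      Nat.Coprime (orderOf u) n ∧ Nat.Coprime (orderOf v) m)
    · rw [hϑ1 _ hs, hϑ1 _ (hconj x h hs)]
    · rw [hϑ0 _ hs, hϑ0 _ (fun hh => hs (by
        have := hconj _ h⁻¹ hh
        have e : h⁻¹ * (h * x * h⁻¹) * h⁻¹⁻¹ = x := by group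
        rwa [e] at this))]
  obtain ⟨k, hk0, hk1⟩ := Cfsg.Agent.Lib.Helper75.exists_crt_exp hcop
  have hint : ∀ χ : Cfsg.IrrCharacter G, IsIntegral ℤ (Cfsg.classInner ϑ (χ : G → ℂ)) := by
    intro χ
    refine Cfsg.Agent.Lib.Helper75.isIntegral_classInner_of_elementary hcl ?_
      (Cfsg.Agent.Lib.Helper74.IrrCharacter.isCharacter χ)
    intro E q hq hE _ ψ hψ
    obtain ⟨A, B, hA, hB, hc, hy⟩ := Cfsg.Agent.Lib.Helper75.exists_factor_of_isElementary hq hE hcop
      (hmn ▸ Subgroup.card_subgroup_dvd_card E)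
    refine Cfsg.Agent.Lib.Helper75.isIntegral_classInner_of_factor hcop hA hB hc hy
      (fun b => IsConj (b : G) g) (fun e : E => ϑ e) ?_ ?_ hψ
    · intro a ha b hb hT
      refine hϑ1 _ ⟨b, hT, a, rfl, ?_, ?_, ?_⟩
      · exact congrArg Subtype.val (hc a ha b hb)
      · rw [Subgroup.orderOf_coe]
        exact Nat.Coprime.coprime_dvd_left (Cfsg.Agent.Lib.Helper75.orderOf_dvd_of_mem hA ha) hcop
      · rw [Subgroup.orderOf_coe]
        exact Nat.Coprime.coprime_dvd_left (Cfsg.Agent.Lib.Helper75.orderOf_dvd_of_mem hB hb)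
          hcop.symm
    · intro a ha b hb hT
      refine hϑ0 _ ?_
      rintro ⟨v, hv, u, hx, hcomm, hu, hv'⟩
      apply hT
      have h1 : ((a : G) * (b : G)) ^ k = b :=
        Cfsg.Agent.Lib.Helper75.pow_eq_right_of_factor hk0 hk1
          (congrArg Subtype.val (hc a ha b hb))
          (by rw [Subgroup.orderOf_coe]; exact Cfsg.Agent.Lib.Helper75.orderOf_dvd_of_mem hA ha)
          (by rw [Subgroup.orderOf_coe]; exact Cfsg.Agent.Lib.Helper75.orderOf_dvd_of_mem hB hb)
      have h2 : (u * v) ^ k = v :=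
        Cfsg.Agent.Lib.Helper75.pow_eq_right_of_factor hk0 hk1 hcomm
          (Nat.Coprime.dvd_of_dvd_mul_right hu (hmn ▸ orderOf_dvd_natCard u))
          (Nat.Coprime.dvd_of_dvd_mul_left hv' (hmn ▸ orderOf_dvd_natCard v))
      have hx' : (a : G) * (b : G) = u * v := hx
      rw [← h1, hx', h2]
      exact hv
  have := Fintype.ofFinite (Cfsg.IrrCharacter G)
  refine ⟨fun χ => Cfsg.classInner ϑ (χ : G → ℂ), hint, ?_⟩
  rw [finsum_eq_sum_of_fintype]
  exact Cfsg.Agent.Lib.Helper3.classFunction_expansion hcl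

end Cfsg.Agent.S0875
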