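import Cfsg.Statements.S0876
import Cfsg.Agent.S0875
import Cfsg.Agent.Lib.Helper78.CharCongr

set_option autoImplicit false
open Cfsg

namespace Cfsg.Agent.S0876

/-- Let G be a finite group, p a prime and M a maximal ideal of the ring of algebraic integers containing p. Let x, y be elements with p-parts a and b (so a⁻¹ * x and b⁻¹ * y are their p-regular parts). Then a⁻¹ * x and b⁻¹ * y are conjugate in G if and only if, for every irreducible character χ, the difference χ x - χ y lies in the local ideal at M. -/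
theorem result {G : Type*} [Group G] [Finite G] (p : ℕ) (M : Ideal Cfsg.AlgInt) (hM : Cfsg.IsPModular p M) (x y a b : G) (ha : Cfsg.IsPPart p x a) (hb : Cfsg.IsPPart p y b) : IsConj (a⁻¹ * x) (b⁻¹ * y) ↔ ∀ χ : Cfsg.IrrCharacter G, Cfsg.MemLocalIdeal M ((χ : G → ℂ) x - (χ : G → ℂ) y) := by
  classical
  have := Fintype.ofFinite G
  have hMp : M.IsPrime := Cfsg.Agent.Lib.Helper78.pmod_isPrime hM
  have hp : p.Prime := hM.1
  obtain ⟨x', hx, hcx, ⟨i, hai⟩, hx'⟩ := ha
  obtain ⟨y', hy, hcy, ⟨j, hbj⟩, hy'⟩ := hb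
  have ex : a⁻¹ * x = x' := by rw [← hx]; group
  have ey : b⁻¹ * y = y' := by rw [← hy]; group
  rw [ex, ey]
  have hcong : ∀ χ : Cfsg.IrrCharacter G,
      Cfsg.MemLocalIdeal M (((χ : G → ℂ) x - (χ : G → ℂ) y) - ((χ : G → ℂ) x' - (χ : G → ℂ) y')) := by
    intro χ
    have hχ := Cfsg.Agent.Lib.Helper74.IrrCharacter.isCharacter χ
    have h1 := Cfsg.Agent.Lib.Helper78.memLocalIdeal_char_mul_sub hM hχ hcx (k := i)
      (by rw [← hai]; exact pow_orderOf_eq_one a)
    have h2 := Cfsg.Agent.Lib.Helper78.memLocalIdeal_char_mul_sub hM hχ hcy (k := j)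
      (by rw [← hbj]; exact pow_orderOf_eq_one b)
    rw [hx] at h1
    rw [hy] at h2
    have := Cfsg.Agent.Lib.Helper78.MemLocalIdeal.sub hMp h1 h2
    convert this using 1
    ring
  constructor
  · intro hconj χ
    have hcl := Cfsg.Agent.Lib.Helper78.irr_isClassFunction χ
    obtain ⟨c, hc⟩ := isConj_iff.1 hconj
    have : (χ : G → ℂ) x' = (χ : G → ℂ) y' := by rw [← hc, hcl]
    have h := hcong χ
    rwa [this, sub_self, sub_zero] at h
  · intro hall
    by_contra hncon
    set m := p ^ (Nat.card G).factorization p with hm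
    set n := Nat.card G / p ^ (Nat.card G).factorization p with hn
    have hmn : Nat.card G = m * n := (Nat.ordProj_mul_ordCompl_eq_self (Nat.card G) p).symm
    have hpn : Nat.Coprime p n := Nat.coprime_ordCompl hp Nat.card_pos.ne'
    have hcop : Nat.Coprime m n := Nat.Coprime.pow_left _ hpn
    have hxm : Nat.Coprime (orderOf x') m :=
      Nat.Coprime.pow_right _ ((Nat.Prime.coprime_iff_not_dvd hp).2 hx').symm
    have hym : Nat.Coprime (orderOf y') m :=
      Nat.Coprime.pow_right _ ((Nat.Prime.coprime_iff_not_dvd hp).2 hy').symm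
    obtain ⟨c, hcint, hc⟩ := Cfsg.Agent.S0875.result m n hmn hcop x' hxm
      (fun z => if (∃ v : G, IsConj v x' ∧ (∃ u : G, z = u * v ∧ Commute u v ∧
        Nat.Coprime (orderOf u) n ∧ Nat.Coprime (orderOf v) m)) then (n : ℂ) else 0)
      (fun z hz => if_pos hz) (fun z hz => if_neg hz)
    have hvx := congrFun hc x
    have hvy := congrFun hc y
    have hsx : ∃ v : G, IsConj v x' ∧ (∃ u : G, x = u * v ∧ Commute u v ∧
        Nat.Coprime (orderOf u) n ∧ Nat.Coprime (orderOf v) m) :=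
      ⟨x', IsConj.refl _, a, hx.symm, hcx, by rw [hai]; exact Nat.Coprime.pow_left _ hpn, hxm⟩
    have hsy : ¬ ∃ v : G, IsConj v x' ∧ (∃ u : G, y = u * v ∧ Commute u v ∧
        Nat.Coprime (orderOf u) n ∧ Nat.Coprime (orderOf v) m) := by
      rintro ⟨v, hv, u, hyuv, hcomm, hu, hv'⟩
      obtain ⟨k, hk0, hk1⟩ := Cfsg.Agent.Lib.Helper75.exists_crt_exp hcop
      have h1 : (b * y') ^ k = y' :=
        Cfsg.Agent.Lib.Helper75.pow_eq_right_of_factor hk0 hk1 hcy
          (Nat.Coprime.dvd_of_dvd_mul_right (by rw [hbj]; exact Nat.Coprime.pow_left _ hpn)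
            (hmn ▸ orderOf_dvd_natCard b))
          (Nat.Coprime.dvd_of_dvd_mul_left hym (hmn ▸ orderOf_dvd_natCard y'))
      have h2 : (u * v) ^ k = v :=
        Cfsg.Agent.Lib.Helper75.pow_eq_right_of_factor hk0 hk1 hcomm
          (Nat.Coprime.dvd_of_dvd_mul_right hu (hmn ▸ orderOf_dvd_natCard u))
          (Nat.Coprime.dvd_of_dvd_mul_left hv' (hmn ▸ orderOf_dvd_natCard v))
      rw [hy, hyuv, h2] at h1
      rw [h1] at hv
      exact hncon hv.symm
    simp only [if_pos hsx] at hvx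
    simp only [if_neg hsy] at hvy
    have := Fintype.ofFinite (Cfsg.IrrCharacter G)
    rw [finsum_eq_sum_of_fintype, Finset.sum_apply] at hvx hvy
    have hdiff : (n : ℂ) = ∑ χ : Cfsg.IrrCharacter G,
        c χ * ((χ : G → ℂ) x - (χ : G → ℂ) y) := by
      have : (n : ℂ) = (n : ℂ) - 0 := by ring
      rw [this, hvx, hvy, ← Finset.sum_sub_distrib]
      refine Finset.sum_congr rfl fun χ _ => ?_
      simp only [Pi.smul_apply, smul_eq_mul]
      ring
    have hmem : Cfsg.MemLocalIdeal M (n : ℂ) := by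
      rw [hdiff]
      refine Cfsg.Agent.Lib.Helper78.MemLocalIdeal.sum hMp _ _ fun χ _ => ?_
      exact Cfsg.Agent.Lib.Helper78.MemLocalIdeal.mul_left hMp
        (Cfsg.Agent.Lib.Helper78.memLocalRing_of_isIntegral hMp (hcint χ)) (hall χ)
    rw [Cfsg.Agent.Lib.Helper78.memLocalIdeal_natCast_iff hM] at hmem
    exact (Nat.Prime.coprime_iff_not_dvd hp).1 hpn hmem

end Cfsg.Agent.S0876
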