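import Cfsg.Statements.S0877
import Cfsg.Agent.Lib.Helper75.HallStar2

set_option autoImplicit false
open Cfsg

namespace Cfsg.Agent.S0877

open Cfsg.Agent.Lib.Helper75 Cfsg.Agent.Lib.Helper3 Cfsg.Agent.Lib.Helper80
open scoped ComplexConjugate

theorem exists_normal_complement {G : Type*} [Group G] [Fintype G] {H : Subgroup G} [Fintype H]
    {k : ℕ} (h : BSHyp H k) : ∃ K : Subgroup G, K.Normal ∧ K ⊔ H = ⊤ ∧ K ⊓ H = ⊥ := by
  classical
  have := Fintype.ofFinite (IrrCharacter H)
  let K : Subgroup G := ⨅ θ : IrrCharacter H,
    charKer (h.star θ) (IsIrrCharacter.isCharacter (h.star_irr θ.2))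
  have hKn : K.Normal := Subgroup.normal_iInf_normal fun θ => charKer_normal _
  have hmem : ∀ x : G, x ∈ K ↔ h.tau x = 1 := by
    intro x
    rw [Subgroup.mem_iInf]
    constructor
    · intro hx
      have h1 : ∀ θ : IrrCharacter H, (θ : H → ℂ) (h.tau x) = (θ : H → ℂ) 1 := by
        intro θ
        have := hx θ
        rw [mem_charKer, h.star_one (IsIrrCharacter.isClassFunction θ.2)] at this
        exact this
      have h2 := column_orthogonality (h.tau x) (1 : H)
      have h3 := column_orthogonality (1 : H) (1 : H)
      simp only [h1] at h2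
      rw [h3, if_pos (IsConj.refl _)] at h2
      by_contra hne
      rw [if_neg (by rwa [isConj_one_left])] at h2
      have : (Nat.card (Subgroup.centralizer ({1} : Set H)) : ℂ) ≠ 0 := by
        exact_mod_cast Nat.card_pos.ne'
      exact this h2
    · intro hx θ
      rw [mem_charKer, h.star_one (IsIrrCharacter.isClassFunction θ.2), BSHyp.star, hx]
  have hcard : Nat.card K * Nat.card H = Nat.card G := by
    have h1 := h.sum_tau' (F := fun a => if a = 1 then 1 else 0) (by
      intro a c
      have : c * a * c⁻¹ = 1 ↔ a = 1 := by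
        constructor
        · intro e
          have : a = c⁻¹ * (c * a * c⁻¹) * c := by group
          rw [this, e]; group
        · rintro rfl; group
      simp only [this])
    rw [Finset.sum_ite_eq' Finset.univ (1 : H), if_pos (Finset.mem_univ _), mul_one,
      ← Finset.sum_filter, Finset.sum_const, nsmul_eq_mul, mul_one] at h1
    have h2 : (Finset.univ.filter fun x : G => h.tau x = 1).card = Nat.card K := by
      rw [Nat.card_eq_fintype_card, ← Fintype.card_subtype]
      apply Fintype.card_congr
      exact Equiv.subtypeEquivRight fun x => (hmem x).symm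
    rw [h2] at h1
    have h5 : (Nat.card H : ℂ) ≠ 0 := by exact_mod_cast Nat.card_pos.ne'
    have h3 : ((Nat.card K * Nat.card H : ℕ) : ℂ) = (Nat.card G : ℂ) := by
      push_cast
      rw [h1]
      field_simp
    exact_mod_cast h3
  have hdisj : K ⊓ H = ⊥ := by
    rw [eq_bot_iff]
    rintro a ⟨haK, haH⟩
    have h1 := (hmem a).1 haK
    have h2 := h.isConj_tau a
    rw [h1, h.pow_eq_self_of_mem haH] at h2
    exact (isConj_one_left.1 h2)
  refine ⟨K, hKn, ?_, hdisj⟩
  exact (Subgroup.isComplement'_of_card_mul_and_disjoint hcard (disjoint_iff.2 hdisj)).sup_eq_top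

/-- Let H be a subgroup of the finite group G whose order is coprime to its index. Suppose that elements of H conjugate in G are conjugate in H, and that every subgroup E of G that is elementary for some prime (in the sense used for Brauer's characterisation of characters) and whose order divides the order of H is conjugate to a subgroup of H. Then there is a normal subgroup K with K ⊔ H = ⊤ and K ⊓ H trivial. -/
theorem result {G : Type*} [Group G] [Finite G] (H : Subgroup G) (hHall : Nat.Coprime (Nat.card H) H.index) (hfus : ∀ x ∈ H, ∀ y ∈ H, IsConj x y → ∃ h ∈ H, h * x * h⁻¹ = y) (helem : ∀ (E : Subgroup G) (p : ℕ), p.Prime → Cfsg.IsElementary p E → Nat.card E ∣ Nat.card H → ∃ g : G, E.map (MulAut.conj g).toMonoidHom ≤ H) : ∃ K : Subgroup G, K.Normal ∧ K ⊔ H = ⊤ ∧ K ⊓ H = ⊥ := by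
  have := Fintype.ofFinite G
  have := Fintype.ofFinite H
  obtain ⟨k, hk0, hk1⟩ := exists_crt_exp hHall.symm
  exact exists_normal_complement (k := k) ⟨hHall, hfus, helem, hk0, hk1⟩

end Cfsg.Agent.S0877
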