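import Cfsg.Statements.S0878

set_option autoImplicit false
open Cfsg

namespace Cfsg.Agent.S0878

theorem result {G Ω : Type*} [Group G] [Finite G] [MulAction G Ω] [Fintype Ω] (hZ : Cfsg.IsZassenhausGroup G Ω) (a : Ω) (H : Subgroup G) (hHa : H ≤ MulAction.stabilizer G a) (hHcard : Nat.card H + 1 = Fintype.card Ω) (hHfix : ∀ u ∈ H, u ≠ 1 → ∀ c : Ω, u • c = c → c = a) : (∀ g : G, g ∉ MulAction.stabilizer G a → ∀ u ∈ H, g * u * g⁻¹ ∈ H → u = 1) ∧ Subgroup.normalizer (H : Set G) = MulAction.stabilizer G a := by
  classical
  obtain ⟨hfaith, h2t, h3, ⟨g0, hg01, a0, b0, hab0, hga0, hgb0⟩, -⟩ := hZ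
  have part1 : ∀ g : G, g ∉ MulAction.stabilizer G a → ∀ u ∈ H, g * u * g⁻¹ ∈ H → u = 1 := by
    intro g hg u hu hgu
    by_contra hu1
    have hne : g * u * g⁻¹ ≠ 1 := by
      intro h
      apply hu1
      have : u = g⁻¹ * (g * u * g⁻¹) * g := by group
      rw [this, h]; group
    have hfix : (g * u * g⁻¹) • (g • a) = g • a := by
      have hua : u • a = a := hHa hu
      rw [mul_smul, mul_smul, inv_smul_smul, hua]
    exact hg (hHfix _ hgu hne _ hfix)
  refine ⟨part1, ?_⟩
  -- the type of points other than `a`
  have hXcard : Nat.card {c : Ω // c ≠ a} = Nat.card H := by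
    have : Fintype.card {c : Ω // c ≠ a} = Fintype.card Ω - 1 := by
      rw [Fintype.card_subtype_compl]; simp
    rw [Nat.card_eq_fintype_card, this, ← hHcard]; simp
  apply le_antisymm
  · intro g hg
    by_contra hga
    -- then H is trivial
    have hH1 : ∀ u ∈ H, u = 1 := fun u hu =>
      part1 g hga u hu ((Subgroup.mem_normalizer_iff.1 hg u).1 hu)
    have hHc : Nat.card H = 1 := by
      rw [Nat.card_eq_one_iff_unique]
      exact ⟨⟨fun x y => Subtype.ext ((hH1 x x.2).trans (hH1 y y.2).symm)⟩, ⟨1⟩⟩
    have hΩ : Fintype.card Ω = 2 := by rw [← hHcard, hHc]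
    apply hg01
    apply hfaith.eq_of_smul_eq_smul
    intro c
    rw [one_smul]
    by_cases hca : c = a0
    · rw [hca, hga0]
    by_cases hcb : c = b0
    · rw [hcb, hgb0]
    exfalso
    have : ({a0, b0, c} : Finset Ω).card ≤ Fintype.card Ω := Finset.card_le_univ _
    rw [Finset.card_insert_of_notMem (by simp [hab0, Ne.symm hca]),
      Finset.card_insert_of_notMem (by simp [Ne.symm hcb]), Finset.card_singleton, hΩ] at this
    omega
  · intro g hg
    have key : ∀ g ∈ MulAction.stabilizer G a, ∀ u ∈ H, g * u * g⁻¹ ∈ H := by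
      intro g hg u hu
      by_cases hu1 : u = 1
      · rw [hu1]; simp [H.one_mem]
      have hga : g • a = a := hg
      have hga' : g⁻¹ • a = a := by rw [inv_smul_eq_iff, hga]
      set v := g * u * g⁻¹ with hv
      have hva : v • a = a := by
        rw [hv, mul_smul, mul_smul, hga', (hHa hu : u • a = a), hga]
      have hvfix : ∀ c : Ω, v • c = c → c = a := by
        intro c hc
        have : u • (g⁻¹ • c) = g⁻¹ • c := by
          rw [hv, mul_smul, mul_smul] at hc
          rw [eq_inv_smul_iff, hc]
        have := hHfix u hu hu1 _ this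
        rw [inv_smul_eq_iff, hga] at this
        exact this
      by_contra hvH
      -- for every c ≠ a a unique w ∈ H with w • c = v • c
      have hreg : ∀ c : {c : Ω // c ≠ a}, ∃ w : H, (w : G) • (c : Ω) = v • (c : Ω) := by
        intro c
        let f : H → {c : Ω // c ≠ a} := fun h => ⟨(h : G) • (c : Ω), by
          intro hh
          have h1 : (h : G) • a = a := hHa h.2
          exact c.2 (MulAction.injective _ (hh.trans h1.symm))⟩
        have hf : Function.Injective f := by
          intro h1 h2 h12
          have h12' : (h1 : G) • (c : Ω) = (h2 : G) • (c : Ω) := congrArg Subtype.val h12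
          by_contra hne
          have hne' : (h2 : G)⁻¹ * (h1 : G) ≠ 1 := by
            intro h
            apply hne
            apply Subtype.ext
            rw [inv_mul_eq_one] at h
            exact h.symm
          have := hHfix _ (H.mul_mem (H.inv_mem h2.2) h1.2) hne' c (by
            rw [mul_smul, h12', inv_smul_smul])
          exact c.2 this
        have hbij := hf.bijective_of_nat_card_le hXcard.le
        obtain ⟨w, hw⟩ := hbij.2 ⟨v • (c : Ω), by
          intro hh
          exact c.2 (MulAction.injective _ (hh.trans hva.symm))⟩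
        exact ⟨w, congrArg Subtype.val hw⟩
      choose w hw using hreg
      have hwinj : Function.Injective w := by
        intro c d hcd
        by_contra hne
        apply hvH
        have h1 : ((w c : G)⁻¹ * v) • (c : Ω) = c := by
          rw [mul_smul, ← hw c, inv_smul_smul]
        have h2 : ((w c : G)⁻¹ * v) • (d : Ω) = d := by
          rw [mul_smul, ← hw d, hcd, inv_smul_smul]
        have h3' : ((w c : G)⁻¹ * v) • a = a := by
          rw [mul_smul, hva, inv_smul_eq_iff]
          exact (hHa (w c).2 : (w c : G) • a = a).symm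
        have := h3 _ a c d (Ne.symm c.2) (fun h => hne (Subtype.ext h)) (Ne.symm d.2) h3' h1 h2
        rw [inv_mul_eq_one] at this
        rw [← this]
        exact (w c).2
      have hbij := hwinj.bijective_of_nat_card_le hXcard.ge
      obtain ⟨c, hc⟩ := hbij.2 1
      have := hw c
      rw [hc] at this
      simp only [OneMemClass.coe_one, one_smul] at this
      exact c.2 (hvfix c this.symm)
    rw [Subgroup.mem_normalizer_iff]
    intro u
    refine ⟨key g hg u, fun h => ?_⟩
    have := key g⁻¹ (Subgroup.inv_mem _ hg) _ h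
    have h2 : g⁻¹ * (g * u * g⁻¹) * g⁻¹⁻¹ = u := by group
    rwa [h2] at this

end Cfsg.Agent.S0878
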