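import Cfsg.Statements.S0879

set_option autoImplicit false
open Cfsg

namespace Cfsg.Agent.S0879

theorem result {G Ω : Type*} [Group G] [Finite G] [MulAction G Ω] [Fintype Ω] (hZ : Cfsg.IsZassenhausGroup G Ω) {a b : Ω} (hab : a ≠ b) : (∀ g : G, g ∉ Subgroup.normalizer ((MulAction.stabilizer G a ⊓ MulAction.stabilizer G b : Subgroup G) : Set G) → ∀ x ∈ (MulAction.stabilizer G a ⊓ MulAction.stabilizer G b : Subgroup G), g * x * g⁻¹ ∈ (MulAction.stabilizer G a ⊓ MulAction.stabilizer G b : Subgroup G) → x = 1) ∧ ((MulAction.stabilizer G a ⊓ MulAction.stabilizer G b : Subgroup G).subgroupOf (Subgroup.normalizer ((MulAction.stabilizer G a ⊓ MulAction.stabilizer G b : Subgroup G) : Set G))).index = 2 := by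
  classical
  obtain ⟨hfaith, h2t, h3, ⟨g0, hg01, a0, b0, hab0, hga0, hgb0⟩, -⟩ := hZ
  rw [MulAction.is_two_pretransitive_iff] at h2t
  set E : Subgroup G := MulAction.stabilizer G a ⊓ MulAction.stabilizer G b with hE
  have memE : ∀ x : G, x ∈ E ↔ x • a = a ∧ x • b = b := by
    intro x
    rw [hE, Subgroup.mem_inf, MulAction.mem_stabilizer_iff, MulAction.mem_stabilizer_iff]
  -- fixed points of a non-identity element of E
  have hfixE : ∀ x ∈ E, x ≠ 1 → ∀ c : Ω, x • c = c → c = a ∨ c = b := by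
    intro x hx hx1 c hc
    by_contra hcon
    push Not at hcon
    exact hx1 (h3 x a b c hab (Ne.symm hcon.2) (Ne.symm hcon.1) ((memE x).1 hx).1 ((memE x).1 hx).2 hc)
  -- elements preserving {a,b} normalize E
  have hnorm1 : ∀ g : G, ((g • a = a ∧ g • b = b) ∨ (g • a = b ∧ g • b = a)) →
      ∀ x ∈ E, g * x * g⁻¹ ∈ E := by
    intro g hg x hx
    obtain ⟨hxa, hxb⟩ := (memE x).1 hx
    rw [memE]
    rcases hg with ⟨h1, h2⟩ | ⟨h1, h2⟩
    · have h1' : g⁻¹ • a = a := by rw [inv_smul_eq_iff, h1]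
      have h2' : g⁻¹ • b = b := by rw [inv_smul_eq_iff, h2]
      constructor
      · rw [mul_smul, mul_smul, h1', hxa, h1]
      · rw [mul_smul, mul_smul, h2', hxb, h2]
    · have h1' : g⁻¹ • b = a := by rw [inv_smul_eq_iff, h1]
      have h2' : g⁻¹ • a = b := by rw [inv_smul_eq_iff, h2]
      constructor
      · rw [mul_smul, mul_smul, h2', hxb, h2]
      · rw [mul_smul, mul_smul, h1', hxa, h1]
  have hnorm : ∀ g : G, ((g • a = a ∧ g • b = b) ∨ (g • a = b ∧ g • b = a)) →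
      g ∈ Subgroup.normalizer (E : Set G) := by
    intro g hg
    rw [Subgroup.mem_normalizer_iff]
    intro x
    refine ⟨hnorm1 g hg x, fun h => ?_⟩
    have hg' : ((g⁻¹ • a = a ∧ g⁻¹ • b = b) ∨ (g⁻¹ • a = b ∧ g⁻¹ • b = a)) := by
      rcases hg with ⟨h1, h2⟩ | ⟨h1, h2⟩
      · left; exact ⟨by rw [inv_smul_eq_iff, h1], by rw [inv_smul_eq_iff, h2]⟩
      · right; exact ⟨by rw [inv_smul_eq_iff, h2], by rw [inv_smul_eq_iff, h1]⟩
    have := hnorm1 g⁻¹ hg' _ h
    have h2 : g⁻¹ * (g * x * g⁻¹) * g⁻¹⁻¹ = x := by group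
    rwa [h2] at this
  -- if x ≠ 1 in E and g x g⁻¹ ∈ E then g⁻¹ preserves {a,b}
  have hpres : ∀ g : G, ∀ x ∈ E, x ≠ 1 → g * x * g⁻¹ ∈ E →
      ((g⁻¹ • a = a ∧ g⁻¹ • b = b) ∨ (g⁻¹ • a = b ∧ g⁻¹ • b = a)) := by
    intro g x hx hx1 hgx
    obtain ⟨h1, h2⟩ := (memE _).1 hgx
    have h1' : x • (g⁻¹ • a) = g⁻¹ • a := by
      rw [mul_smul, mul_smul] at h1
      rw [eq_inv_smul_iff, h1]
    have h2' : x • (g⁻¹ • b) = g⁻¹ • b := by
      rw [mul_smul, mul_smul] at h2
      rw [eq_inv_smul_iff, h2]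
    have hne : g⁻¹ • a ≠ g⁻¹ • b := fun h => hab (MulAction.injective _ h)
    rcases hfixE x hx hx1 _ h1' with ha | ha <;> rcases hfixE x hx hx1 _ h2' with hb | hb
    · exact absurd (ha.trans hb.symm) hne
    · exact Or.inl ⟨ha, hb⟩
    · exact Or.inr ⟨ha, hb⟩
    · exact absurd (ha.trans hb.symm) hne
  constructor
  · intro g hg x hx hgx
    by_contra hx1
    apply hg
    have := hnorm _ (hpres g x hx hx1 hgx)
    simpa using Subgroup.inv_mem _ this
  · -- a non-identity element of E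
    obtain ⟨k, hka, hkb⟩ := h2t hab0 hab
    have hx0 : k * g0 * k⁻¹ ∈ E := by
      rw [memE]
      have h1' : k⁻¹ • a = a0 := by rw [inv_smul_eq_iff, hka]
      have h2' : k⁻¹ • b = b0 := by rw [inv_smul_eq_iff, hkb]
      constructor
      · rw [mul_smul, mul_smul, h1', hga0, hka]
      · rw [mul_smul, mul_smul, h2', hgb0, hkb]
    have hx01 : k * g0 * k⁻¹ ≠ 1 := by
      intro h
      apply hg01
      have : g0 = k⁻¹ * (k * g0 * k⁻¹) * k := by group
      rw [this, h]; group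
    -- every element of the normalizer preserves {a,b}
    have hN : ∀ n ∈ Subgroup.normalizer (E : Set G),
        ((n • a = a ∧ n • b = b) ∨ (n • a = b ∧ n • b = a)) := by
      intro n hn
      have hn' : n⁻¹ ∈ Subgroup.normalizer (E : Set G) := Subgroup.inv_mem _ hn
      have := hpres n⁻¹ _ hx0 hx01 ((Subgroup.mem_normalizer_iff.1 hn' _).1 hx0)
      simpa using this
    -- a swap
    obtain ⟨t, hta, htb⟩ := h2t hab (Ne.symm hab)
    have htN : t ∈ Subgroup.normalizer (E : Set G) := hnorm t (Or.inr ⟨hta, htb⟩)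
    rw [Subgroup.index_eq_two_iff]
    refine ⟨⟨t, htN⟩, ?_⟩
    intro n
    rw [Subgroup.mem_subgroupOf, Subgroup.mem_subgroupOf]
    simp only [Subgroup.coe_mul]
    rw [memE, memE]
    rcases hN n n.2 with ⟨h1, h2⟩ | ⟨h1, h2⟩
    · right
      refine ⟨⟨h1, h2⟩, ?_⟩
      rintro ⟨h, -⟩
      rw [mul_smul, hta, h2] at h
      exact hab h.symm
    · left
      refine ⟨⟨by rw [mul_smul, hta, h2], by rw [mul_smul, htb, h1]⟩, ?_⟩
      rintro ⟨h, -⟩
      rw [h1] at h
      exact hab h.symm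

end Cfsg.Agent.S0879
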