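import Cfsg.Statements.S0880
import Cfsg.Agent.Lib.Helper6.Zas3

set_option autoImplicit false
open Cfsg

namespace Cfsg.Agent.S0880

/-- Let G be a finite simple Zassenhaus group on Ω with n points whose two-point stabilizer E has odd order less than n - 2. Then there are two elements of G, each fixing no point of Ω, that are not conjugate. -/
theorem result {G Ω : Type*} [Group G] [Finite G] [MulAction G Ω] [Fintype Ω] (hZ : Cfsg.IsZassenhausGroup G Ω) {a b : Ω} (hab : a ≠ b) [IsSimpleGroup G] (hodd : Odd (Nat.card ↥(MulAction.stabilizer G a ⊓ MulAction.stabilizer G b : Subgroup G))) (hlt : Nat.card ↥(MulAction.stabilizer G a ⊓ MulAction.stabilizer G b : Subgroup G) < Fintype.card Ω - 2) : ∃ x y : G, (∀ c : Ω, x • c ≠ c) ∧ (∀ c : Ω, y • c ≠ c) ∧ ¬ IsConj x y := by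
  classical
  have hb := Cfsg.Agent.Lib.Helper6.Zas.base_of_zassenhaus hZ
  have : Fintype G := Fintype.ofFinite G
  obtain ⟨h, hh⟩ : ∃ h, Fintype.card Ω = h + 1 :=
    ⟨Fintype.card Ω - 1, by have : 0 < Fintype.card Ω := Fintype.card_pos_iff.2 ⟨a⟩; omega⟩
  obtain ⟨e, he⟩ : ∃ e, Nat.card ↥(MulAction.stabilizer G a ⊓ MulAction.stabilizer G b : Subgroup G) = e :=
    ⟨_, rfl⟩
  rw [he] at hodd
  -- `h ≥ 2`
  have hh2 : 2 ≤ h := by
    obtain ⟨c, hca, hcb⟩ := Cfsg.Agent.Lib.Helper6.Zas.exists_third hZ a b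
    have : 2 < Fintype.card Ω := Fintype.two_lt_card_iff.2 ⟨a, b, c, hab, hca.symm, hcb.symm⟩
    omega
  -- `e ≥ 3`
  have he3 : 3 ≤ e := by
    obtain ⟨g, hg, a', b', hab', hga, hgb⟩ := hZ.2.2.2.1
    have h1 : 1 < Nat.card ↥(MulAction.stabilizer G a' ⊓ MulAction.stabilizer G b' : Subgroup G) := by
      rw [Finite.one_lt_card_iff_nontrivial]
      exact ⟨⟨⟨g, hga, hgb⟩, 1, fun h => hg (congrArg Subtype.val h)⟩⟩
    rw [hb.card_stab2 hab hab', he] at h1
    obtain ⟨k, hk⟩ := hodd
    omega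
  have hcount := hb.two_mul_card_fpf hab he hh
  have hG := hb.card_group hab he hh
  set F := Finset.univ.filter (fun g : G => ∀ c : Ω, g • c ≠ c) with hF
  have hFpos : 0 < F.card := by
    by_contra h0
    have h0' : F.card = 0 := by omega
    rw [h0'] at hcount
    nlinarith [hcount, Nat.zero_le (h * h * e), Nat.zero_le (h * e)]
  obtain ⟨x, hx⟩ := Finset.card_pos.1 hFpos
  have hxf : ∀ c : Ω, x • c ≠ c := by simpa [hF] using hx
  by_contra hcon
  push Not at hcon
  have horb := MulAction.card_orbit_mul_card_stabilizer_eq_card_group (ConjAct G) x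
  have h1 : Fintype.card (MulAction.orbit (ConjAct G) x) = F.card := by
    apply Fintype.card_of_subtype
    intro y
    rw [ConjAct.mem_orbit_conjAct, hF, Finset.mem_filter]
    constructor
    · intro hy
      exact hcon y x hy.2 hxf
    · intro hy
      refine ⟨Finset.mem_univ _, ?_⟩
      obtain ⟨g, hg⟩ := isConj_iff.1 hy.symm
      intro c hc
      apply hxf (g⁻¹ • c)
      rw [← hg] at hc
      rw [mul_smul, mul_smul] at hc
      rw [eq_inv_smul_iff]
      exact hc
  rw [h1, ConjAct.card, hG] at horb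
  generalize Fintype.card (MulAction.stabilizer (ConjAct G) x) = m at horb
  generalize F.card = N at *
  have hhpos : 0 < h := by omega
  have key : 2 * ((h + 1) * e) + m * h = m * ((h + 1) * e) + m := by
    apply Nat.eq_of_mul_eq_mul_left hhpos
    have := congrArg (fun t => m * t) hcount
    nlinarith [this, horb]
  obtain ⟨r, hr⟩ : ∃ r, e = 3 + r := ⟨e - 3, by omega⟩
  subst hr
  rcases Nat.lt_or_ge m 3 with hm | hm
  · interval_cases m
    · nlinarith [key]
    · nlinarith [key]
    · nlinarith [key]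
  · obtain ⟨k, rfl⟩ : ∃ k, m = 3 + k := ⟨m - 3, by omega⟩
    nlinarith [key, Nat.zero_le (k * h), Nat.zero_le (k * r), Nat.zero_le (k * h * r), Nat.zero_le (h * r)]

end Cfsg.Agent.S0880
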