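import Cfsg.Statements.S0882
import Cfsg.Agent.Lib.Helper6.Zas6

set_option autoImplicit false
open Cfsg

namespace Cfsg.Agent.S0882

/-- Let G be a finite simple Zassenhaus group on Ω with n = h + 1 points whose two-point stabilizer E has odd order e with 2e < h - 1. Then any two involutions of G are conjugate, and the number of involutions is e * (h + 1) if h is even and e * h if h is odd. -/
theorem result {G Ω : Type*} [Group G] [Finite G] [MulAction G Ω] [Fintype Ω] (hZ : Cfsg.IsZassenhausGroup G Ω) {a b : Ω} (hab : a ≠ b) [IsSimpleGroup G] (h e : ℕ) (hh : Fintype.card Ω = h + 1) (he : Nat.card ↥(MulAction.stabilizer G a ⊓ MulAction.stabilizer G b : Subgroup G) = e) (hodd : Odd e) (hlt : 2 * e < h - 1) : (∀ x y : G, orderOf x = 2 → orderOf y = 2 → IsConj x y) ∧ Nat.card {x : G // orderOf x = 2} = (if Even h then e * (h + 1) else e * h) := by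
  classical
  have hb := Cfsg.Agent.Lib.Helper6.Zas.base_of_zassenhaus hZ
  have : Fintype G := Fintype.ofFinite G
  have hodd' : Odd (Nat.card ↥(MulAction.stabilizer G a ⊓ MulAction.stabilizer G b : Subgroup G)) := by
    rw [he]; exact hodd
  have hord : ∀ x : G, orderOf x = 2 ↔ (x ≠ 1 ∧ x * x = 1) := by
    intro x
    have : Fact (Nat.Prime 2) := ⟨Nat.prime_two⟩
    rw [orderOf_eq_prime_iff, pow_two, and_comm]
  have hsw' : ∀ c d : Ω, c ≠ d → ∀ s : G, s • c = d → s • d = c → s * s = 1 :=
    fun c d hcd s hsc hsd =>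
      (Cfsg.Agent.Lib.Helper6.Zas.swap_inverts_of_simple hZ hab hodd' hcd s hsc hsd).1
  constructor
  · intro x y hx hy
    rw [hord] at hx hy
    exact hb.invol_isConj hab hodd'
      (fun s hsa hsb => Cfsg.Agent.Lib.Helper6.Zas.swap_inverts_of_simple hZ hab hodd' hab s hsa hsb)
      x y hx.1 hx.2 hy.1 hy.2
  · have h1 : Nat.card {x : G // orderOf x = 2}
        = (Finset.univ.filter (fun t : G => t ≠ 1 ∧ t * t = 1)).card := by
      rw [Nat.card_eq_fintype_card, Fintype.card_subtype]
      congr 1
      ext x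
      simp only [Finset.mem_filter, Finset.mem_univ, true_and]
      exact hord x
    rw [h1]
    split_ifs with hpar
    · have hn : Odd (Fintype.card Ω) := by rw [hh]; exact hpar.add_one
      have hfix : ∀ t : G, t ≠ 1 → t * t = 1 →
          ∃ c : Ω, t • c = c ∧ ∀ d : Ω, t • d = d → d = c := by
        intro t ht1 ht2
        obtain ⟨c, hc⟩ := hb.invol_exists_fix hn t ht1 ht2
        exact ⟨c, hc, fun d hd => hb.invol_fix_unique hab hodd' t ht1 ht2 hd hc⟩
      rw [(hb.card_invol_of_fix hab he hh hsw' hfix).1, mul_comm]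
    · have hn : Even (Fintype.card Ω) := by
        rw [hh]; exact (Nat.not_even_iff_odd.1 hpar).add_one
      rw [hb.card_invol_of_fpf hab he hh hsw' (hb.invol_fpf hab hodd' hn), mul_comm]

end Cfsg.Agent.S0882
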