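import Cfsg.Statements.S0883
import Cfsg.Agent.Lib.Helper6.Zas4

set_option autoImplicit false
open Cfsg

namespace Cfsg.Agent.S0883

/-- Let G be a finite simple Zassenhaus group on Ω with h + 1 points whose two-point stabilizer E has odd order e with 2e < h - 1, and let H be the subgroup of the stabilizer of a consisting of the identity and the elements fixing no point other than a (given here as a subgroup of the stabilizer of order one less than the number of points whose non-identity elements fix only a; it is the Frobenius kernel of the stabilizer). If a non-identity element u of H is a product of two involutions of G, then u is an involution. -/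
theorem result {G Ω : Type*} [Group G] [Finite G] [MulAction G Ω] [Fintype Ω] (hZ : Cfsg.IsZassenhausGroup G Ω) {a b : Ω} (hab : a ≠ b) [IsSimpleGroup G] (h e : ℕ) (hh : Fintype.card Ω = h + 1) (he : Nat.card ↥(MulAction.stabilizer G a ⊓ MulAction.stabilizer G b : Subgroup G) = e) (hodd : Odd e) (hlt : 2 * e < h - 1) (H : Subgroup G) (hHa : H ≤ MulAction.stabilizer G a) (hHcard : Nat.card H + 1 = Fintype.card Ω) (hHfix : ∀ u ∈ H, u ≠ 1 → ∀ c : Ω, u • c = c → c = a) (u : G) (hu : u ∈ H) (hu1 : u ≠ 1) (x y : G) (hx : orderOf x = 2) (hy : orderOf y = 2) (hxy : x * y = u) : orderOf u = 2 := by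
  classical
  have hb := Cfsg.Agent.Lib.Helper6.Zas.base_of_zassenhaus hZ
  have : Fintype G := Fintype.ofFinite G
  have hodd' : Odd (Nat.card ↥(MulAction.stabilizer G a ⊓ MulAction.stabilizer G b : Subgroup G)) := by
    rw [he]; exact hodd
  have hx2 : x * x = 1 := by rw [← pow_two, ← hx]; exact pow_orderOf_eq_one x
  have hy2 : y * y = 1 := by rw [← pow_two, ← hy]; exact pow_orderOf_eq_one y
  have hx1 : x ≠ 1 := by rintro rfl; rw [orderOf_one] at hx; omega
  have hy1 : y ≠ 1 := by rintro rfl; rw [orderOf_one] at hy; omega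
  have hua : u • a = a := hHa hu
  have hxa : x • a = a := by
    apply hHfix u hu hu1
    have h1 : u * x = x * (y * x) := by rw [← hxy]; group
    have h2 : (y * x) * u = 1 := by
      rw [← hxy]
      have : y * x * (x * y) = y * (x * x) * y := by group
      rw [this, hx2, mul_one, hy2]
    have h3 : (y * x) • a = a := by
      have := congrArg (fun g => g • a) h2
      simp only [mul_smul, one_smul, hua] at this
      rw [mul_smul]
      exact this
    rw [← mul_smul, h1, mul_smul, h3]
  have hya : y • a = a := by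
    have h1 : y = x * u := by rw [← hxy, ← mul_assoc, hx2, one_mul]
    rw [h1, mul_smul, hua, hxa]
  have hn : Odd (Fintype.card Ω) := by
    rw [← Nat.not_even_iff_odd]
    intro hn
    exact hb.invol_fpf hab hodd' hn x hx1 hx2 a hxa
  have hsw : ∀ c d : Ω, c ≠ d → ∀ s : G, s • c = d → s • d = c → s * s = 1 := by
    intro c d hcd s hsc hsd
    exact (Cfsg.Agent.Lib.Helper6.Zas.swap_inverts_of_odd_degree hZ hn hcd
      (by rw [hb.card_stab2 hab hcd]; exact hodd') s hsc hsd).1
  have hfix : ∀ t : G, t ≠ 1 → t * t = 1 → ∃ c : Ω, t • c = c ∧ ∀ d : Ω, t • d = d → d = c := by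
    intro t ht1 ht2
    obtain ⟨c, hc⟩ := hb.invol_exists_fix hn t ht1 ht2
    exact ⟨c, hc, fun d hd => hb.invol_fix_unique hab hodd' t ht1 ht2 hd hc⟩
  have hInv := (hb.card_invol_of_fix hab he hh hsw hfix).2 a
  have hGa := hb.card_stab1 hab he hh a
  have hSa := hb.card_fix_only hab he hh a
  set Ia := Finset.univ.filter (fun t : G => (t ≠ 1 ∧ t * t = 1) ∧ t • a = a) with hIa
  set Ga := Finset.univ.filter (fun g : G => g • a = a) with hGa'
  set Sa := Finset.univ.filter (fun g : G => g • a = a ∧ ∀ d : Ω, g • d = d → d = a) with hSa'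
  set C := Finset.univ.filter (fun g : G => g • a = a ∧ g * x = x * g) with hC
  have hxonly : ∀ d : Ω, x • d = d → d = a :=
    fun d hd => hb.invol_fix_unique hab hodd' x hx1 hx2 hd hxa
  have hyonly : ∀ d : Ω, y • d = d → d = a :=
    fun d hd => hb.invol_fix_unique hab hodd' y hy1 hy2 hd hya
  -- `h ≤ |C|`
  have h1 := Finset.card_eq_sum_card_fiberwise (s := Ga) (t := Ia) (f := fun g => g * x * g⁻¹) (by
    intro g hg
    simp only [hGa', Finset.coe_filter, Finset.mem_univ, true_and, Set.mem_ofPred_eq] at hg
    simp only [hIa, Finset.coe_filter, Finset.mem_univ, true_and, Set.mem_ofPred_eq]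
    refine ⟨⟨?_, ?_⟩, ?_⟩
    · intro h
      apply hx1
      have : x = g⁻¹ * (g * x * g⁻¹) * g := by group
      rw [this, h]; group
    · have : g * x * g⁻¹ * (g * x * g⁻¹) = g * (x * x) * g⁻¹ := by group
      rw [this, hx2]; group
    · have hg' : g⁻¹ • a = a := by rw [inv_smul_eq_iff, hg]
      rw [mul_smul, mul_smul, hg', hxa, hg])
  have h2 : ∀ z ∈ Ia, (Ga.filter (fun g => g * x * g⁻¹ = z)).card ≤ C.card := by
    intro z _
    rcases (Ga.filter (fun g => g * x * g⁻¹ = z)).eq_empty_or_nonempty with hemp | ⟨g₀, hg₀⟩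
    · rw [hemp]; simp
    · simp only [hGa', Finset.mem_filter, Finset.mem_univ, true_and] at hg₀
      apply Finset.card_le_card_of_injOn (fun g => g₀⁻¹ * g)
      · intro g hg
        simp only [hGa', Finset.coe_filter, Finset.mem_filter, Finset.mem_univ, true_and,
          Set.mem_ofPred_eq] at hg
        simp only [hC, Finset.coe_filter, Finset.mem_univ, true_and, Set.mem_ofPred_eq]
        constructor
        · rw [mul_smul, hg.1, inv_smul_eq_iff, hg₀.1]
        · have h3 : g * x * g⁻¹ = g₀ * x * g₀⁻¹ := hg.2.trans hg₀.2.symm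
          have h4 : g * x = g₀ * x * g₀⁻¹ * g := by rw [← h3]; group
          rw [mul_assoc, h4]; group
      · intro g _ g' _ hgg
        exact mul_left_cancel hgg
  have h3 : h * e ≤ e * C.card := by
    rw [← hGa, h1, ← hInv, ← smul_eq_mul]
    exact Finset.sum_le_card_nsmul _ _ _ h2
  have hepos : 0 < e := hodd.pos
  have h4 : h ≤ C.card := by
    apply Nat.le_of_mul_le_mul_left _ hepos
    rw [mul_comm e h]; exact h3
  -- `C \ {1} ⊆ Sa`
  have h5 : C.erase 1 ⊆ Sa := by
    intro g hg
    rw [Finset.mem_erase] at hg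
    obtain ⟨hg1, hg⟩ := hg
    simp only [hC, Finset.mem_filter, Finset.mem_univ, true_and] at hg
    simp only [hSa', Finset.mem_filter, Finset.mem_univ, true_and]
    refine ⟨hg.1, ?_⟩
    intro d hd
    by_contra hda
    apply hg1
    apply hb.three g a d (x • d) (Ne.symm hda) (fun h => hda (hxonly d h.symm)) ?_ hg.1 hd ?_
    · intro h
      apply hda
      exact (MulAction.injective x (hxa.trans h)).symm
    · rw [← mul_smul, hg.2, mul_smul, hd]
  have h1C : (1 : G) ∈ C := by simp [hC]
  have h6 : C.erase 1 = Sa := by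
    apply Finset.eq_of_subset_of_card_le h5
    rw [Finset.card_erase_of_mem h1C]
    omega
  have hyC : y ∈ C := by
    have : y ∈ Sa := by
      simp only [hSa', Finset.mem_filter, Finset.mem_univ, true_and]
      exact ⟨hya, hyonly⟩
    rw [← h6] at this
    exact Finset.mem_of_mem_erase this
  simp only [hC, Finset.mem_filter, Finset.mem_univ, true_and] at hyC
  apply orderOf_eq_prime _ hu1
  rw [pow_two, ← hxy]
  have : x * y * (x * y) = x * (y * x) * y := by group
  rw [this, hyC.2]
  have : x * (x * y) * y = (x * x) * (y * y) := by group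
  rw [this, hx2, hy2, one_mul]

end Cfsg.Agent.S0883
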