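import Cfsg.Statements.S0893
import Cfsg.Agent.Lib.Helper15.Extraspecial
import Cfsg.Agent.Lib.Helper74.CharMore

set_option autoImplicit false
open Cfsg

namespace Cfsg.Agent.S0893

open Cfsg.Agent.Lib Cfsg.Agent.Lib.Helper15
open scoped ComplexConjugate

/-- Let P be an extraspecial p-group of order p ^ (2 * n + 1), A an abelian subgroup of order p ^ (n + 1), and λ a character of A of degree 1 that is not identically 1 on the elements of A lying in the centre of P. Then the function induced from λ to P is an irreducible character of P and vanishes at every element outside the centre. -/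
theorem result {P : Type*} [Group P] [Fintype P] (p n : ℕ) [Fact p.Prime] (hP : Cfsg.IsExtraspecial p P) (hcard : Nat.card P = p ^ (2 * n + 1)) (A : Subgroup P) (hab : ∀ a ∈ A, ∀ b ∈ A, a * b = b * a) (hA : Nat.card A = p ^ (n + 1)) (lam : A → ℂ) (hlam : Cfsg.IsCharacter A lam ∧ lam 1 = 1) (hZ : ∃ a : A, (a : P) ∈ Subgroup.center P ∧ lam a ≠ 1) : Cfsg.IsIrrCharacter P (Cfsg.indFun A lam) ∧ ∀ x : P, x ∉ Subgroup.center P → Cfsg.indFun A lam x = 0 := by
  classical
  have hp : p.Prime := Fact.out
  have := Fintype.ofFinite A
  obtain ⟨a, haZ, ha1⟩ := hZ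
  have hind := char_indFun A hlam.1
  have hidx : A.index = p ^ n := by
    have h := Subgroup.index_mul_card A
    rw [hA, hcard] at h
    have e : p ^ (2 * n + 1) = p ^ n * p ^ (n + 1) := by rw [← pow_add]; congr 1; ring
    rw [e] at h
    exact Nat.eq_of_mul_eq_mul_right (pow_pos hp.pos _) h
  have hone : indFun A lam 1 = (p : ℂ) ^ n := by
    rw [indFun_one, hlam.2, hidx]; push_cast; ring
  have hne : indFun A lam ≠ 0 := by
    intro h
    have h0 := congrFun h 1
    rw [hone] at h0
    have : (p : ℂ) ≠ 0 := by exact_mod_cast hp.ne_zero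
    exact (pow_ne_zero n this) h0
  obtain ⟨χ, hχ, hinner⟩ := exists_constituent hind hne
  have hinner' := hinner
  rw [classInner_indFun_left A lam χ (irr_cf hχ)] at hinner'
  -- the central character
  have key : classInner lam (fun h : A => χ h) * conj (χ 1)
      = lam a * conj (χ a) * classInner lam (fun h : A => χ h) := by
    unfold classInner
    rw [mul_assoc, mul_left_comm (lam a * conj (χ a))]
    congr 1
    rw [Finset.sum_mul, Finset.mul_sum, ← Equiv.sum_comp (Equiv.mulRight a)]
    apply Finset.sum_congr rfl
    intro x _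
    simp only [Equiv.coe_mulRight]
    rw [linear_mul hlam.1 hlam.2, mul_assoc, ← map_mul, Subgroup.coe_mul,
      irr_mul_central hχ (x : P) haZ, map_mul]
    ring
  have hχ1 : χ 1 ≠ 1 := by
    intro h1
    have h2 : χ a = χ 1 := by
      apply Helper80.char_eq_one_of_mem_commutator (irr_char hχ) h1
      rw [hP.1.2.2]
      exact haZ
    rw [h2, h1, map_one, mul_one, mul_one] at key
    apply ha1
    have := mul_right_cancel₀ hinner' (key.symm.trans (one_mul _).symm)
    exact this
  have hdeg := es_degree hP hcard hχ hχ1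
  have hsub := char_sub_irr hind hχ hinner
  have hzero : indFun A lam - χ = 0 := by
    apply Helper74.IsCharacter.eq_zero_of_one_eq_zero hsub
    rw [Pi.sub_apply, hone, hdeg, sub_self]
  have heq : indFun A lam = χ := sub_eq_zero.1 hzero
  rw [heq]
  exact ⟨hχ, fun x hx => es_vanish hP hχ hχ1 hx⟩

end Cfsg.Agent.S0893
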