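import Cfsg.Statements.S0895
import Cfsg.Agent.Lib.Helper81.FrobSchur

set_option autoImplicit false
open Cfsg

namespace Cfsg.Agent.S0895

/-- Let χ be a real-valued irreducible character of a finite group G whose degree is an odd natural number. Then the average over s in G of χ (s * s) equals 1. -/
theorem result {G : Type*} [Group G] [Fintype G] (χ : G → ℂ) (hχ : Cfsg.IsIrrCharacter G χ) (hreal : ∀ g : G, (χ g).im = 0) (d : ℕ) (hd : χ 1 = d) (hodd : Odd d) : (Nat.card G : ℂ)⁻¹ * ∑ s : G, χ (s * s) = 1 := by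
  obtain ⟨n, ρ, hirr, rfl⟩ := hχ
  have hcard : (Nat.card G : ℂ) ≠ 0 := by
    exact_mod_cast (Nat.card_pos (α := G)).ne'
  have hc : (Fintype.card G : ℂ) = (Nat.card G : ℂ) := by rw [Nat.card_eq_fintype_card]
  rcases Cfsg.Agent.Lib.Helper81.frobSchur_sum_strong ρ with ⟨_, s, hs⟩ | ⟨h1 | ⟨_, h1⟩, _⟩
  · exact absurd (hreal s) hs
  · rw [h1, hc, inv_mul_cancel₀ hcard]
  · exfalso
    rw [Representation.char_one] at hd
    have : Module.finrank ℂ (Fin n → ℂ) = d := by exact_mod_cast hd
    rw [this] at h1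
    exact (Nat.not_even_iff_odd.2 hodd) h1

end Cfsg.Agent.S0895
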