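import Cfsg.Statements.S0898
import Cfsg.Agent.Lib.Helper6.FTBound2

set_option autoImplicit false
open Cfsg

namespace Cfsg.Agent.S0898

/-- Let H be an abelian subgroup of the finite group G meeting the centre of G trivially, such that for every non-central g the centralizer of g has nontrivial intersection with at most one conjugate of H. Let χ be an irreducible character of G with χ h ≠ χ 1 for some h in H, and let c be the inner product of the restriction of χ to H with the principal character. Then χ(1)² > (order of H)·c²; and if in addition χ 1 ≠ 1 and no proper normal subgroup of G contains H, then (1 + χ 1)² > order of H (both sides read as real numbers). -/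
theorem result {G : Type*} [Group G] [Fintype G] (H : Subgroup G) [Fintype H] (hab : ∀ a ∈ H, ∀ b ∈ H, a * b = b * a) (hZ : H ⊓ Subgroup.center G = ⊥) (hone : ∀ g : G, g ∉ Subgroup.center G → ∀ a b : G, Subgroup.centralizer ({g} : Set G) ⊓ H.map (MulAut.conj a).toMonoidHom ≠ ⊥ → Subgroup.centralizer ({g} : Set G) ⊓ H.map (MulAut.conj b).toMonoidHom ≠ ⊥ → H.map (MulAut.conj a).toMonoidHom = H.map (MulAut.conj b).toMonoidHom) (χ : G → ℂ) (hχ : Cfsg.IsIrrCharacter G χ) (hker : ∃ h ∈ H, χ h ≠ χ 1) : (χ 1).re ^ 2 > (Nat.card H : ℝ) * (Cfsg.classInner (fun h : H => χ h) (fun _ => 1)).re ^ 2 ∧ (χ 1 ≠ 1 → (∀ M : Subgroup G, M.Normal → H ≤ M → M = ⊤) → (1 + (χ 1).re) ^ 2 > (Nat.card H : ℝ)) := by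
  open Cfsg.Agent.Lib.Helper6.FTBound Cfsg.Agent.Lib.Helper6.FTAvg Cfsg.Agent.Lib.Helper15 in
  obtain ⟨n, hn⟩ := char_one_nat (irr_char hχ)
  have hre : (χ 1).re = n := by rw [hn]; simp
  refine ⟨?_, ?_⟩
  · have h1 := first H hab hZ hone hχ hker
    rw [avg_one_eq_inner] at h1
    have h2 : (Cfsg.classInner (fun h : H => χ h) (fun _ => 1)).re ^ 2
        ≤ Complex.normSq (Cfsg.classInner (fun h : H => χ h) (fun _ => 1)) := by
      rw [Complex.normSq_apply]
      nlinarith [mul_self_nonneg (Cfsg.classInner (fun h : H => χ h) (fun _ => 1)).im]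
    have h3 : Complex.normSq (χ 1) = (χ 1).re ^ 2 := by
      rw [hre, hn, Complex.normSq_natCast]; ring
    rw [h3] at h1
    have h4 : (0 : ℝ) ≤ Nat.card H := Nat.cast_nonneg _
    have h5 := mul_le_mul_of_nonneg_left h2 h4
    exact lt_of_le_of_lt h5 h1
  · intro h1 hM
    have hn1 : n ≠ 1 := by
      intro h
      apply h1
      rw [hn, h, Nat.cast_one]
    have h2 := second H hab hZ hone hχ hn hn1 hM
    rw [hre]
    exact_mod_cast h2

end Cfsg.Agent.S0898
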