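import Cfsg.Statements.S0900
import Cfsg.Agent.Lib.Helper15.Clifford2

set_option autoImplicit false
open Cfsg Cfsg.Agent.Lib.Helper15

namespace Cfsg.Agent.S0900

variable {G : Type*} [Group G] [Fintype G] (N : Subgroup G) [hN : N.Normal] [Fintype N]

/-- (a) -/
def A (χ : G → ℂ) (ϑ : N → ℂ) : Prop := ∃ e : ℕ, (fun n : N => χ n) = (e : ℂ) • ϑ ∧ e ^ 2 = N.index

theorem index_ne_zero' : (N.index : ℂ) ≠ 0 := by
  exact_mod_cast (Subgroup.index_ne_zero_of_finite (H := N))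

theorem inv_of_A {χ : G → ℂ} (hχ : IsIrrCharacter G χ) {ϑ : N → ℂ} (h : A N χ ϑ) :
    ∀ g : G, cj N g ϑ = ϑ := by
  obtain ⟨e, he, he2⟩ := h
  intro g
  have he0 : (e : ℂ) ≠ 0 := by
    intro h0
    have : e = 0 := by exact_mod_cast h0
    rw [this] at he2
    exact (Subgroup.index_ne_zero_of_finite (H := N)) (by simpa using he2.symm)
  have h1 := cj_restrict N g (irr_cf hχ)
  rw [he, cj_smul] at h1
  funext n
  have := congrFun h1 n
  simp only [Pi.smul_apply, smul_eq_mul] at this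
  exact mul_left_cancel₀ he0 this

theorem norm_of_smul {ϑ : N → ℂ} (hϑ : IsIrrCharacter N ϑ) (e : ℕ) :
    classInner ((e : ℂ) • ϑ) ((e : ℂ) • ϑ) = ((e ^ 2 : ℕ) : ℂ) := by
  rw [classInner_smul_left, classInner_smul_right, irr_inner_self hϑ, Complex.conj_natCast]
  push_cast; ring

theorem exists_e {χ : G → ℂ} (hχ : IsIrrCharacter G χ) {ϑ : N → ℂ} (hϑ : IsIrrCharacter N ϑ)
    (hcon : classInner (fun n : N => χ n) ϑ ≠ 0) (hinv : ∀ g : G, cj N g ϑ = ϑ) :
    ∃ e : ℕ, classInner (fun n : N => χ n) ϑ = e ∧ (fun n : N => χ n) = (e : ℂ) • ϑ := by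
  obtain ⟨e, he⟩ := inner_nat (char_restrict (irr_char hχ) N) (irr_char hϑ)
  refine ⟨e, he, ?_⟩
  have := restrict_eq_smul_of_invariant N hχ hϑ hcon hinv
  rwa [he] at this

theorem card_eq : (Nat.card G : ℂ) = (Nat.card N : ℂ) * (N.index : ℂ) := by
  rw [← N.card_mul_index]; push_cast; ring

theorem ab {χ : G → ℂ} (hχ : IsIrrCharacter G χ) {ϑ : N → ℂ} (hϑ : IsIrrCharacter N ϑ)
    (hcon : classInner (fun n : N => χ n) ϑ ≠ 0) :
    A N χ ϑ ↔ ((∀ g : G, g ∉ N → χ g = 0) ∧ ∀ g : G, cj N g ϑ = ϑ) := by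
  constructor
  · intro h
    refine ⟨?_, inv_of_A N hχ h⟩
    obtain ⟨e, he, he2⟩ := h
    rw [vanishes_off_iff N χ, irr_inner_self hχ, he, norm_of_smul N hϑ, he2, card_eq N]
    ring
  · rintro ⟨h1, hinv⟩
    obtain ⟨e, -, he⟩ := exists_e N hχ hϑ hcon hinv
    refine ⟨e, he, ?_⟩
    rw [vanishes_off_iff N χ, irr_inner_self hχ, he, norm_of_smul N hϑ, card_eq N, mul_one] at h1
    have := mul_left_cancel₀ (card_ne_zero N) h1
    exact_mod_cast this.symm

theorem ac {χ : G → ℂ} (hχ : IsIrrCharacter G χ) {ϑ : N → ℂ} (hϑ : IsIrrCharacter N ϑ)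
    (hcon : classInner (fun n : N => χ n) ϑ ≠ 0) :
    A N χ ϑ ↔ ((∀ g : G, cj N g ϑ = ϑ) ∧ ∀ ψ : G → ℂ, IsIrrCharacter G ψ →
      classInner (indFun N ϑ) ψ ≠ 0 → ψ = χ) := by
  constructor
  · intro h
    have hinv := inv_of_A N hχ h
    refine ⟨hinv, ?_⟩
    obtain ⟨e, he, he2⟩ := h
    -- θ^G = e χ
    have h1 : classInner (indFun N ϑ) χ = e := by
      rw [classInner_indFun_left N ϑ χ (irr_cf hχ), he, classInner_smul_right, irr_inner_self hϑ]
      simp
    have h2 : indFun N ϑ = (e : ℂ) • χ := by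
      rw [← sub_eq_zero]
      apply classInner_self_eq_zero
      rw [classInner_sub_left, classInner_sub_right, classInner_sub_right,
        norm_indFun_of_invariant N hϑ hinv, classInner_smul_right, classInner_smul_left,
        classInner_smul_left, classInner_smul_right, h1, irr_inner_self hχ,
        ← classInner_conj_symm (indFun N ϑ) χ, h1, ← he2]
      simp only [Complex.conj_natCast]
      push_cast; ring
    intro ψ hψ h0
    rw [h2, classInner_smul_left] at h0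
    exact (irr_eq_of_inner_ne_zero hχ hψ (right_ne_zero_of_mul h0)).symm
  · rintro ⟨hinv, huniq⟩
    obtain ⟨e, he0, he⟩ := exists_e N hχ hϑ hcon hinv
    refine ⟨e, he, ?_⟩
    have h1 : classInner (indFun N ϑ) χ = e := by
      rw [classInner_indFun_left N ϑ χ (irr_cf hχ), he, classInner_smul_right, irr_inner_self hϑ]
      simp
    have h2 : indFun N ϑ = (e : ℂ) • χ := by
      have := cf_eq_sum_finset (indFun_isClassFunction N ϑ) {χ}
        (by intro φ hφ; rw [Finset.mem_singleton.1 hφ]; exact hχ)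
        (by
          intro φ hφ hnot
          by_contra h0
          exact hnot (Finset.mem_singleton.2 (huniq φ hφ h0)))
      rw [Finset.sum_singleton, h1] at this
      exact this
    have h3 := norm_indFun_of_invariant N hϑ hinv
    rw [h2, classInner_smul_left, classInner_smul_right, irr_inner_self hχ,
      Complex.conj_natCast] at h3
    have : ((e ^ 2 : ℕ) : ℂ) = (N.index : ℂ) := by rw [← h3]; push_cast; ring
    exact_mod_cast this

theorem result {G : Type*} [Group G] [Fintype G] (N : Subgroup G) [hN : N.Normal] [Fintype N] (χ : G → ℂ) (hχ : Cfsg.IsIrrCharacter G χ) (ϑ : N → ℂ) (hϑ : Cfsg.IsIrrCharacter N ϑ) (hcon : Cfsg.classInner (fun n : N => χ n) ϑ ≠ 0) : ((∃ e : ℕ, (fun n : N => χ n) = (e : ℂ) • ϑ ∧ e ^ 2 = N.index) ↔ ((∀ g : G, g ∉ N → χ g = 0) ∧ ∀ (g : G) (n : N), ϑ ⟨g * n * g⁻¹, hN.conj_mem (n : G) n.2 g⟩ = ϑ n)) ∧ ((∃ e : ℕ, (fun n : N => χ n) = (e : ℂ) • ϑ ∧ e ^ 2 = N.index) ↔ (∀ (g : G) (n : N), ϑ ⟨g *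 n * g⁻¹, hN.conj_mem (n : G) n.2 g⟩ = ϑ n ∧ ∀ ψ : G → ℂ, Cfsg.IsIrrCharacter G ψ → Cfsg.classInner (Cfsg.indFun N ϑ) ψ ≠ 0 → ψ = χ)) := by
  constructor
  · have := ab N hχ hϑ hcon
    unfold A at this
    rw [this]
    simp only [cj_eq_iff]
  · have := ac N hχ hϑ hcon
    unfold A at this
    rw [this]
    simp only [cj_eq_iff]
    constructor
    · rintro ⟨h1, h2⟩ g n
      exact ⟨h1 g n, h2⟩
    · intro h
      exact ⟨fun g n => (h g n).1, (h 1 1).2⟩

end Cfsg.Agent.S0900
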