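import Cfsg.Statements.S0902
import Cfsg.Agent.Lib.Helper78.Linkage

set_option autoImplicit false
open Cfsg

namespace Cfsg.Agent.S0902

open Cfsg.Agent.Lib.Helper78
open scoped ComplexConjugate

/-- If two irreducible characters of a finite group lie in the same block relative to one maximal ideal M of the algebraic integers containing the prime p, then at every element the difference of their central characters is an algebraic integer lying in every maximal ideal containing p; in particular they lie in the same block relative to any such ideal. -/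
theorem result {G : Type*} [Group G] [Finite G] (p : ℕ) [Fact p.Prime] (M : Ideal Cfsg.AlgInt) (hM : Cfsg.IsPModular p M) (χ ψ : Cfsg.IrrCharacter G) (h : Cfsg.SameBlock M (χ : G → ℂ) (ψ : G → ℂ)) (M' : Ideal Cfsg.AlgInt) (hM' : Cfsg.IsPModular p M') (g : G) : ∃ r : Cfsg.AlgInt, r ∈ M' ∧ (r : ℂ) = Cfsg.centralChar (χ : G → ℂ) g - Cfsg.centralChar (ψ : G → ℂ) g := by
  classical
  have : Fintype G := Fintype.ofFinite G
  have hMp' := pmod_isPrime hM'
  have h1 : ψ ∈ blockOf M (χ : G → ℂ) := h
  rw [blockOf_eq_blockOf hM hM' χ] at h1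
  have h2 : MemLocalIdeal M' (centralChar (χ : G → ℂ) g - centralChar (ψ : G → ℂ) g) := h1 g
  have hint : IsIntegral ℤ (centralChar (χ : G → ℂ) g - centralChar (ψ : G → ℂ) g) :=
    (isIntegral_centralChar χ.2 g).sub (isIntegral_centralChar ψ.2 g)
  refine ⟨⟨_, hint⟩, ?_, rfl⟩
  exact (memLocalIdeal_algInt_iff hMp' ⟨_, hint⟩).1 h2

end Cfsg.Agent.S0902
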