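import Cfsg.Statements.S0903
import Mathlib

set_option autoImplicit false
open Cfsg

namespace Cfsg.Agent.S0903

/-- the set of pairs -/
abbrev Pairs {G : Type*} [Group G] (c g h : G) : Type _ :=
  {xy : G × G // IsConj g xy.1 ∧ IsConj h xy.2 ∧ xy.1 * xy.2 = c}

/-- conjugation action of `P` on the pairs -/
noncomputable def act {G : Type*} [Group G] (P : Subgroup G) (c : G)
    (hc : c ∈ Subgroup.centralizer (P : Set G)) (g h : G) : MulAction P (Pairs c g h) where
  smul u xy := ⟨((u : G) * xy.1.1 * (u : G)⁻¹, (u : G) * xy.1.2 * (u : G)⁻¹), by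
    obtain ⟨⟨x, y⟩, h1, h2, h3⟩ := xy
    refine ⟨h1.trans (isConj_iff.2 ⟨u, rfl⟩), h2.trans (isConj_iff.2 ⟨u, rfl⟩), ?_⟩
    simp only at h3 ⊢
    have := Subgroup.mem_centralizer_iff.1 hc u u.2
    calc (u : G) * x * (u : G)⁻¹ * ((u : G) * y * (u : G)⁻¹) = (u : G) * (x * y) * (u : G)⁻¹ := by group
      _ = (u : G) * c * (u : G)⁻¹ := by rw [h3]
      _ = c := by rw [this]; group⟩
  one_smul xy := by
    apply Subtype.ext
    apply Prod.ext <;> simp [HSMul.hSMul]
  mul_smul u v xy := by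
    apply Subtype.ext
    apply Prod.ext <;> simp [HSMul.hSMul, mul_assoc]

theorem result {G : Type*} [Group G] [Finite G] (p : ℕ) [Fact p.Prime] (P : Subgroup G) (hP : IsPGroup p P) (c : G) (hc : c ∈ Subgroup.centralizer (P : Set G)) (g h : G) : Nat.card {xy : G × G // IsConj g xy.1 ∧ IsConj h xy.2 ∧ xy.1 * xy.2 = c} ≡ Nat.card {xy : G × G // IsConj g xy.1 ∧ IsConj h xy.2 ∧ xy.1 * xy.2 = c ∧ xy.1 ∈ Subgroup.centralizer (P : Set G) ∧ xy.2 ∈ Subgroup.centralizer (P : Set G)} [MOD p] := by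
  letI := act P c hc g h
  have key := hP.card_modEq_card_fixedPoints (Pairs c g h)
  refine key.trans ?_
  have hsmul : ∀ (u : P) (xy : Pairs c g h), (u • xy).1 = ((u : G) * xy.1.1 * (u : G)⁻¹, (u : G) * xy.1.2 * (u : G)⁻¹) := fun _ _ => rfl
  have : Nat.card (MulAction.fixedPoints P (Pairs c g h)) = Nat.card {xy : G × G // IsConj g xy.1 ∧ IsConj h xy.2 ∧ xy.1 * xy.2 = c ∧ xy.1 ∈ Subgroup.centralizer (P : Set G) ∧ xy.2 ∈ Subgroup.centralizer (P : Set G)} := by
    apply Nat.card_congr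
    refine ⟨fun z => ⟨z.1.1, z.1.2.1, z.1.2.2.1, z.1.2.2.2, ?_, ?_⟩, fun z => ⟨⟨z.1, z.2.1, z.2.2.1, z.2.2.2.1⟩, ?_⟩, ?_, ?_⟩
    · rw [Subgroup.mem_centralizer_iff]
      intro u hu
      have := congrArg Subtype.val (z.2 ⟨u, hu⟩)
      rw [hsmul] at this
      have h1 := congrArg Prod.fst this
      simp only at h1
      rw [mul_inv_eq_iff_eq_mul] at h1
      exact h1
    · rw [Subgroup.mem_centralizer_iff]
      intro u hu
      have := congrArg Subtype.val (z.2 ⟨u, hu⟩)
      rw [hsmul] at this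
      have h1 := congrArg Prod.snd this
      simp only at h1
      rw [mul_inv_eq_iff_eq_mul] at h1
      exact h1
    · intro u
      apply Subtype.ext
      rw [hsmul]
      have h1 := Subgroup.mem_centralizer_iff.1 z.2.2.2.2.1 u u.2
      have h2 := Subgroup.mem_centralizer_iff.1 z.2.2.2.2.2 u u.2
      apply Prod.ext
      · simp only; rw [h1]; group
      · simp only; rw [h2]; group
    · intro z; rfl
    · intro z; rfl
  rw [this]

end Cfsg.Agent.S0903
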