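import Cfsg.Statements.S0905
import Cfsg.Agent.Lib.Helper16.Nilpotent
import Cfsg.Agent.Lib.Lead.Cores

set_option autoImplicit false
open Cfsg

namespace Cfsg.Agent.S0905

open Cfsg.Agent.Lib.Helper16 in
/-- Let G be a finite group, p a prime and F a field of characteristic p. If no element of the conjugacy class of g centralizes O_p(G), the class sum of g is nilpotent. -/
theorem result {G : Type*} [Group G] [Finite G] (p : ℕ) [Fact p.Prime] (F : Type*) [Field F] [CharP F p] (g : G) (hg : ∀ x : G, IsConj g x → x ∉ Subgroup.centralizer (Cfsg.pCore p G : Set G)) : IsNilpotent (∑ᶠ x ∈ ConjClasses.carrier (ConjClasses.mk g), MonoidAlgebra.single x (1 : F) : MonoidAlgebra F G) := by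
  classical
  cases nonempty_fintype G
  have hcoeff : ∀ c : G, (∑ᶠ x ∈ ConjClasses.carrier (ConjClasses.mk g),
      MonoidAlgebra.single x (1 : F) : MonoidAlgebra F G).coeff c = if IsConj g c then 1 else 0 := by
    intro c
    rw [finsum_mem_eq_finite_toFinset_sum _ (Set.toFinite _), MonoidAlgebra.coeff_sum,
      Finsupp.finset_sum_apply]
    simp only [MonoidAlgebra.coeff_single, Finsupp.single_apply]
    rw [Finset.sum_ite_eq']
    simp only [Set.Finite.mem_toFinset, ConjClasses.mem_carrier_iff_mk_eq,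
      ConjClasses.mk_eq_mk_iff_isConj]
    by_cases h : IsConj g c
    · rw [if_pos h, if_pos h.symm]
    · rw [if_neg h, if_neg fun h' => h h'.symm]
  haveI := Cfsg.Agent.Lib.Lead.pCore_normal' p G
  apply isNilpotent_of_vanish_on_centralizer p (Cfsg.pCore p G)
    (Cfsg.Agent.Lib.Lead.pCore_isPGroup p G)
  · rw [mem_center_iff_coeff]
    intro x h
    rw [hcoeff, hcoeff]
    have : IsConj g (h * x * h⁻¹) ↔ IsConj g x :=
      ⟨fun h1 => h1.trans (isConj_iff.2 ⟨h⁻¹, by group⟩), fun h1 => h1.trans (isConj_iff.2 ⟨h, rfl⟩)⟩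
    simp only [this]
  · intro c hc
    rw [hcoeff, if_neg fun h => hg c h hc]

end Cfsg.Agent.S0905
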