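import Cfsg.Statements.S0916
import Cfsg.Agent.Lib.Helper16.SylowConj
-- import your own Cfsg.Agent.* helpers here

set_option autoImplicit false
open Cfsg Cfsg.Agent.Lib.Helper78 Cfsg.Agent.Lib.Helper16 Cfsg.Agent.Lib

namespace Cfsg.Agent.S0916

/-- Let P be a p-subgroup of the finite group G, C its centralizer and N its normalizer. Say that a conjugacy class (of G, or of N) has defect group P when P is a Sylow p-subgroup of the centralizer (in G, respectively in N) of some element of the class. Then: (i) if the class of g in G has defect group P, the elements of that class lying in C form a single N-class, again with defect group P; (ii) every N-class with defect group P arises this way from exactly one G-class with defect group P. -/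
theorem result {G : Type*} [Group G] [Finite G] (p : ℕ) [Fact p.Prime] (P : Subgroup G) (hP : IsPGroup p P) : (∀ g : G, (∃ S : Sylow p (Subgroup.centralizer ({g} : Set G)), (S : Subgroup (Subgroup.centralizer ({g} : Set G))).map (Subgroup.centralizer ({g} : Set G)).subtype = P) → (∃ c : G, IsConj g c ∧ c ∈ Subgroup.centralizer (P : Set G)) ∧ (∀ c₁ c₂ : G, IsConj g c₁ → IsConj g c₂ → c₁ ∈ Subgroup.centralizer (P : Set G) → c₂ ∈ Subgroup.centralizer (P : Set G) → ∃ n ∈ Subgroup.normalizer (P : Set G), n * c₁ * n⁻¹ = c₂)) ∧ (∀ c : G, c ∈ Subgroup.centralizer (P : Set G) → (∃ S : Sylow p (Subgroup.centralizer ({c} : Set G) ⊓ Subgroup.normalizer (P : Set G) : Subgroup G), (S : Subgroup ↥(Subgroup.centralizer ({c} : Set G) ⊓ Subgroup.normalizer (P : Set G))).map (Subgroup.centralizer ({c} : Set G) ⊓ Subgroup.normalizer (P : Set G)).subtype = P) → ∃ S : Sylow p (Subgroup.centralizer ({c} : Set G)), (S : Subgroup (Subgroup.centralizer ({c} : Set G))).map (Subgroup.centralizer ({c} : Set G)).subtype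 = P) := by
  classical
  cases nonempty_fintype G
  refine ⟨fun g hg => ?_, fun c hc hS => ?_⟩
  · obtain ⟨S, hS⟩ := hg
    obtain ⟨hle, hcard⟩ := (sylow_image_iff _ P).1 ⟨S, hS.symm⟩
    refine ⟨⟨g, IsConj.refl g, (le_centralizer_singleton_iff _ _).1 hle⟩, ?_⟩
    intro c₁ c₂ h1 h2 hc1 hc2
    obtain ⟨n1, hn1, e1⟩ := exists_normalizer_conj hle hcard h1 hc1
    obtain ⟨n2, hn2, e2⟩ := exists_normalizer_conj hle hcard h2 hc2
    refine ⟨n2⁻¹ * n1, Subgroup.mul_mem _ (Subgroup.inv_mem _ hn2) hn1, ?_⟩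
    calc n2⁻¹ * n1 * c₁ * (n2⁻¹ * n1)⁻¹ = n2⁻¹ * (n1 * c₁ * n1⁻¹) * n2 := by group
      _ = n2⁻¹ * (n2 * c₂ * n2⁻¹) * n2 := by rw [e1, e2]
      _ = c₂ := by group
  · obtain ⟨S, hS⟩ := hS
    obtain ⟨hle, hcard⟩ := (sylow_image_iff _ P).1 ⟨S, hS.symm⟩
    obtain ⟨S', hS'⟩ := (sylow_image_iff (Subgroup.centralizer ({c} : Set G)) P).2
      ⟨(le_centralizer_singleton_iff _ _).2 hc, card_eq_of_card_inf_normalizer hP hc hcard⟩
    exact ⟨S', hS'.symm⟩

end Cfsg.Agent.S0916
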