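import Cfsg.Statements.S0921
import Mathlib
import Cfsg.Agent.Lib.Helper82.PPrimeKer
import Cfsg.Agent.Lib.Helper15.Clifford2
import Cfsg.Agent.Lib.Lead.Cores

set_option autoImplicit false
open Cfsg

namespace Cfsg.Agent.S0921

open Cfsg.Agent.Lib.Helper78 Cfsg.Agent.Lib.Helper15 in
open scoped ComplexConjugate in
theorem constituent_of_sameBlock {G : Type*} [Group G] [Fintype G] (p : ℕ) [Fact p.Prime]
    {M : Ideal Cfsg.AlgInt} (hM : Cfsg.IsPModular p M) (N : Subgroup G) [N.Normal] [Fintype N]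
    (hN : ¬ p ∣ Nat.card N) {χ ψ : Cfsg.IrrCharacter G}
    (h : Cfsg.SameBlock M (χ : G → ℂ) (ψ : G → ℂ)) (θ : Cfsg.IrrCharacter N)
    (hθ : Cfsg.classInner (fun n : N => (χ : G → ℂ) n) (θ : N → ℂ) ≠ 0) :
    Cfsg.classInner (fun n : N => (ψ : G → ℂ) n) (θ : N → ℂ) ≠ 0 := by
  classical
  have hMp := pmod_isPrime hM
  intro h0
  have hcl := clifford_theorem N χ.2 θ.2 hθ
  set e := Cfsg.classInner (fun n : N => (χ : G → ℂ) n) (θ : N → ℂ) with hedef
  set O := Finset.univ.image (fun g : G => cj N g (θ : N → ℂ)) with hO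
  obtain ⟨m, hm⟩ : ∃ m : ℕ, e = m := inner_nat (char_restrict (irr_char χ.2) N) (irr_char θ.2)
  have hconj : conj e = e := by rw [hm]; simp
  have hN0 : (Nat.card N : ℂ) ≠ 0 := by exact_mod_cast Nat.card_pos.ne'
  have hθ1 : (θ : N → ℂ) 1 ≠ 0 := irr_one_ne_zero θ.2
  have hOne : O.Nonempty := ⟨cj N 1 (θ : N → ℂ), Finset.mem_image_of_mem _ (Finset.mem_univ _)⟩
  have hO0 : (O.card : ℂ) ≠ 0 := by exact_mod_cast hOne.card_pos.ne'
  let c : ℂ := (θ : N → ℂ) 1 / (e * (Nat.card N : ℂ))
  let a : G → ℂ := fun g => if g ∈ N then c * conj ((χ : G → ℂ) g) else 0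
  have ha : Cfsg.IsClassFunction G a := by
    intro g x
    simp only [a, Cfsg.Agent.Lib.Helper82.conj_mem_iff_of_normal N g x, irr_cf χ.2 g x]
  have ha' : ∀ g, Cfsg.MemLocalRing M (a g) := by
    intro g
    by_cases hg : g ∈ N
    · simp only [a, hg, if_true]
      have h1 : (χ : G → ℂ) g = e * ∑ φ ∈ O, φ ⟨g, hg⟩ := by
        have := congrFun hcl ⟨g, hg⟩
        simpa using this
      have h2 : c * conj ((χ : G → ℂ) g) =
          ((θ : N → ℂ) 1 * (Nat.card N : ℂ)⁻¹) * ∑ φ ∈ O, conj (φ ⟨g, hg⟩) := by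
        rw [h1, map_mul, hconj, map_sum]
        simp only [c]
        field_simp
      rw [h2]
      apply MemLocalRing.mul hMp
      · apply MemLocalRing.mul hMp
        · exact memLocalRing_of_isIntegral hMp
            (Cfsg.Agent.Lib.Helper3.IsCharacter.isIntegral (irr_char θ.2) 1)
        · exact memLocalRing_inv_natCast hM hN
      · apply MemLocalRing.sum hMp
        intro φ hφ
        obtain ⟨x, -, rfl⟩ := Finset.mem_image.1 hφ
        apply memLocalRing_of_isIntegral hMp
        exact map_isIntegral_int (starRingEnd ℂ)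
          (Cfsg.Agent.Lib.Helper3.IsCharacter.isIntegral (char_cj N x (irr_char θ.2)) _)
    · simp only [a, hg, if_false]
      exact memLocalRing_zero hMp
  have hsum : ∀ η : G → ℂ, Cfsg.IsClassFunction G η → ∑ g : G, a g * η g =
      c * ((Nat.card N : ℂ) * (e * ((O.card : ℂ) *
        Cfsg.classInner (fun n : N => η n) (θ : N → ℂ)))) := by
    intro η hη
    have h1 : ∑ g : G, a g * η g = ∑ g ∈ Finset.univ.filter (fun g : G => g ∈ N),
        c * (η g * conj ((χ : G → ℂ) g)) := by
      rw [Finset.sum_filter]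
      apply Finset.sum_congr rfl
      intro g _
      by_cases hg : g ∈ N
      · simp only [a, hg, if_true]; ring
      · simp [a, hg]
    have h2 : ∑ g ∈ Finset.univ.filter (fun g : G => g ∈ N),
        c * (η g * conj ((χ : G → ℂ) g)) = ∑ n : N, c * (η n * conj ((χ : G → ℂ) n)) :=
      (Finset.sum_subtype (Finset.univ.filter (fun g : G => g ∈ N)) (by simp)
        (fun g => c * (η g * conj ((χ : G → ℂ) g))))
    have h3 : ∑ n : N, η n * conj ((χ : G → ℂ) n) = (Nat.card N : ℂ) *
        Cfsg.classInner (fun n : N => η n) (fun n : N => (χ : G → ℂ) n) := by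
      unfold Cfsg.classInner
      rw [mul_inv_cancel_left₀ hN0]
    have h4 : Cfsg.classInner (fun n : N => η n) (fun n : N => (χ : G → ℂ) n) =
        e * ((O.card : ℂ) * Cfsg.classInner (fun n : N => η n) (θ : N → ℂ)) := by
      rw [hcl, Cfsg.Agent.Lib.Helper74.classInner_smul_right,
        Cfsg.Agent.Lib.Helper74.classInner_sum_right, hconj]
      congr 1
      rw [Finset.sum_congr rfl (g := fun _ => Cfsg.classInner (fun n : N => η n) (θ : N → ℂ)),
        Finset.sum_const, nsmul_eq_mul]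
      intro φ hφ
      obtain ⟨x, -, rfl⟩ := Finset.mem_image.1 hφ
      exact classInner_restrict_cj N x hη _
    rw [h1, h2, ← Finset.mul_sum, h3, h4]
  have hχ1 : (χ : G → ℂ) 1 = e * ((O.card : ℂ) * (θ : N → ℂ) 1) := by
    have := congrFun hcl 1
    simp only [Pi.smul_apply, Finset.sum_apply, smul_eq_mul] at this
    rw [Finset.sum_congr rfl (g := fun _ => (θ : N → ℂ) 1), Finset.sum_const, nsmul_eq_mul] at this
    · exact this
    · intro φ hφ
      obtain ⟨x, -, rfl⟩ := Finset.mem_image.1 hφ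
      exact cj_apply_one N x _
  have h1 : omega (χ : G → ℂ) a = 1 := by
    unfold omega
    rw [hsum _ (irr_cf χ.2), hχ1, ← hedef]
    simp only [c]
    field_simp
  have h2 : omega (ψ : G → ℂ) a = 0 := by
    unfold omega
    rw [hsum _ (irr_cf ψ.2), h0]
    simp
  have h3 := memLocalIdeal_omega_sub hMp h ha ha'
  rw [h1, h2, sub_zero] at h3
  exact not_memLocalIdeal_one hMp h3

/-- Let N = O_p'(G) be the largest normal subgroup of the finite group G of order prime to p, and fix a maximal ideal M of the algebraic integers containing p. If two irreducible characters χ, ψ of G lie in the same block relative to M, then an irreducible character of N occurs in the restriction of χ exactly when it occurs in the restriction of ψ. -/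
theorem result {G : Type*} [Group G] [Finite G] (p : ℕ) [Fact p.Prime] (M : Ideal Cfsg.AlgInt) (hM : Cfsg.IsPModular p M) [Fintype G] (χ ψ : Cfsg.IrrCharacter G) (h : Cfsg.SameBlock M (χ : G → ℂ) (ψ : G → ℂ)) (θ : Cfsg.IrrCharacter (Cfsg.pPrimeCore p G)) [Fintype (Cfsg.pPrimeCore p G)] : Cfsg.classInner (fun n : Cfsg.pPrimeCore p G => (χ : G → ℂ) n) (θ : Cfsg.pPrimeCore p G → ℂ) ≠ 0 ↔ Cfsg.classInner (fun n : Cfsg.pPrimeCore p G => (ψ : G → ℂ) n) (θ : Cfsg.pPrimeCore p G → ℂ) ≠ 0 := by
  have hp : p.Prime := Fact.out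
  have hNc : ¬ p ∣ Nat.card (Cfsg.pPrimeCore p G) := by
    have := Cfsg.Agent.Lib.Lead.card_pPrimeCore_coprime (G := G) p
    exact fun hd => (Nat.Prime.coprime_iff_not_dvd hp).1 this.symm hd
  exact ⟨fun h1 => constituent_of_sameBlock p hM _ hNc h θ h1,
    fun h1 => constituent_of_sameBlock p hM _ hNc (Cfsg.Agent.Lib.Helper78.sameBlock_symm h) θ h1⟩

end Cfsg.Agent.S0921
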