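import Cfsg.Statements.S0926
import Cfsg.Agent.S0924
import Cfsg.Agent.Lib.Helper78.HeightZero
import Cfsg.Agent.Lib.Helper16.DefectAPI
-- import your own Cfsg.Agent.* helpers here

set_option autoImplicit false
open Cfsg Cfsg.Agent.Lib.Helper78 Cfsg.Agent.Lib.Helper16 Cfsg.Agent.Lib

namespace Cfsg.Agent.S0926

/-- Let B be a block of the finite group G with defect group D (relative to a maximal ideal M of the algebraic integers containing p), let χ ∈ B have height zero, and let x be a p-element. Then some conjugate of x lies in D if and only if χ does not vanish on the whole p-section of x (the elements whose p-part is conjugate to x). -/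
theorem result {G : Type*} [Group G] [Finite G] (p : ℕ) [Fact p.Prime] (M : Ideal Cfsg.AlgInt) (hM : Cfsg.IsPModular p M) (B : Set (Cfsg.IrrCharacter G)) (hB : Cfsg.IsPBlock M B) (D : Subgroup G) (hD : Cfsg.IsDefectGroup p M B D) (χ : Cfsg.IrrCharacter G) (hχ : χ ∈ B) (h0 : Cfsg.blockHeight p B (χ : G → ℂ) = 0) (x : G) (hx : ∃ k : ℕ, orderOf x = p ^ k) : (∃ g : G, g * x * g⁻¹ ∈ D) ↔ ∃ u : G, (∃ z : G, Cfsg.IsPPart p u z ∧ IsConj x z) ∧ (χ : G → ℂ) u ≠ 0 := by
  classical
  cases nonempty_fintype G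
  have hM' := pmod_isPrime hM
  obtain ⟨k, hk⟩ := hx
  constructor
  · rintro ⟨g, hg⟩
    obtain ⟨y, hy, P, rfl⟩ := hD
    obtain ⟨c, hcP, hc⟩ := hg
    have hcomm : Commute (g * x * g⁻¹) y := by
      have h1 := c.2
      rw [Subgroup.mem_centralizer_singleton_iff] at h1
      have h2 : (c : G) = g * x * g⁻¹ := hc
      rw [h2] at h1
      exact h1
    have hord : orderOf (g * x * g⁻¹) = p ^ k := by
      rw [← hk]
      have := orderOf_injective (MulAut.conj g).toMonoidHom (MulAut.conj g).injective x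
      simpa using this
    refine ⟨g * x * g⁻¹ * y, ⟨g * x * g⁻¹, ⟨y, rfl, hcomm, ⟨k, hord⟩,
      isDefectClass_regular hM hB hy⟩, isConj_iff.2 ⟨g, rfl⟩⟩, ?_⟩
    intro h0'
    apply not_memLocalIdeal_height_zero hM hB hy hχ h0 hcomm (k := k)
      (by rw [← hord]; exact pow_orderOf_eq_one _)
    rw [h0']
    exact memLocalIdeal_zero hM'
  · rintro ⟨u, ⟨z, hz, hxz⟩, hu⟩
    by_contra hcon
    apply hu
    apply Cfsg.Agent.S0924.result p M hM χ u z hz
    intro D' hD' hzD'
    rw [← IsPBlock.eq_blockOf hM' hB hχ] at hD'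
    obtain ⟨t, rfl⟩ := IsDefectGroup.exists_conj_eq hM hB hD hD'
    obtain ⟨s, rfl⟩ := isConj_iff.1 hxz
    rw [mem_cj] at hzD'
    apply hcon
    refine ⟨t⁻¹ * s, ?_⟩
    convert hzD' using 1
    group

end Cfsg.Agent.S0926
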