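import Cfsg.Statements.S0927
import Cfsg.Agent.Lib.Helper78.HeightZero

set_option autoImplicit false
open Cfsg

namespace Cfsg.Agent.S0927

/-- Let B be a block of the finite group G relative to a maximal ideal M of the algebraic integers containing p, let y represent a defect class of B and let P be a Sylow p-subgroup of the centralizer of y. (a) If x ∈ P and χ ∈ B has height zero, then χ (x * y) is not in the local ideal at M. (b) If x lies in the centre of P, then for every χ ∈ B the central character of χ at x * y is not in the local ideal at M. -/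
theorem result {G : Type*} [Group G] [Finite G] (p : ℕ) [Fact p.Prime] (M : Ideal Cfsg.AlgInt) (hM : Cfsg.IsPModular p M) (B : Set (Cfsg.IrrCharacter G)) (hB : Cfsg.IsPBlock M B) (y : G) (hy : Cfsg.IsDefectClass M B y) (P : Sylow p (Subgroup.centralizer ({y} : Set G))) (x : Subgroup.centralizer ({y} : Set G)) (hx : x ∈ (P : Subgroup (Subgroup.centralizer ({y} : Set G)))) : (∀ χ ∈ B, Cfsg.blockHeight p B (χ : G → ℂ) = 0 → ¬ Cfsg.MemLocalIdeal M ((χ : G → ℂ) ((x : G) * y))) ∧ ((∀ w ∈ (P : Subgroup (Subgroup.centralizer ({y} : Set G))), x * w = w * x) → ∀ χ ∈ B, ¬ Cfsg.MemLocalIdeal M (Cfsg.centralChar (χ : G → ℂ) ((x : G) * y))) := by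
  classical
  haveI := Fintype.ofFinite G
  have hMp := Lib.Helper78.pmod_isPrime hM
  have hp : p.Prime := hM.1
  have hc : Commute (x : G) y := Subgroup.mem_centralizer_singleton_iff.1 x.2
  obtain ⟨k, hk⟩ := P.isPGroup' ⟨x, hx⟩
  have hxk : (x : G) ^ p ^ k = 1 := by
    have := congrArg (fun z : (P : Subgroup (Subgroup.centralizer ({y} : Set G))) =>
      ((z : Subgroup.centralizer ({y} : Set G)) : G)) hk
    simpa using this
  refine ⟨fun χ hχ h0 => Lib.Helper78.not_memLocalIdeal_height_zero hM hB hy hχ h0 hc hxk, ?_⟩
  intro hcen χ hχ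
  obtain ⟨χ0, hχ0, h0⟩ := Lib.Helper78.exists_height_zero (p := p)
    (Lib.Helper78.IsPBlock.nonempty hMp hB)
  have hreg := Lib.Helper78.isDefectClass_regular hM hB hy
  have hle := Lib.Helper78.centralizer_mul_le hp hc hxk hreg
  have hPle : (P : Subgroup (Subgroup.centralizer ({y} : Set G))).map
      (Subgroup.centralizer ({y} : Set G)).subtype ≤ Subgroup.centralizer ({(x : G) * y} : Set G) := by
    rintro _ ⟨w, hw, rfl⟩
    rw [Subgroup.mem_centralizer_singleton_iff]
    have h1 : Commute (w : G) y := Subgroup.mem_centralizer_singleton_iff.1 w.2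
    have h2 : Commute (w : G) (x : G) := by
      have := congrArg Subtype.val (hcen w hw)
      exact this.symm
    exact h2.mul_right h1
  have hcardP : Nat.card ((P : Subgroup (Subgroup.centralizer ({y} : Set G))).map
      (Subgroup.centralizer ({y} : Set G)).subtype) =
      p ^ (Nat.card (Subgroup.centralizer ({y} : Set G))).factorization p := by
    rw [← P.card_eq_multiplicity]
    exact Nat.card_congr ((P : Subgroup (Subgroup.centralizer ({y} : Set G))).equivMapOfInjective
      (Subgroup.centralizer ({y} : Set G)).subtype (Subgroup.subtype_injective _)).symm.toEquiv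
  have hν : (Nat.card (Subgroup.centralizer ({(x : G) * y} : Set G))).factorization p =
      (Nat.card (Subgroup.centralizer ({y} : Set G))).factorization p := by
    apply le_antisymm
    · exact (Nat.factorization_le_iff_dvd Nat.card_pos.ne' Nat.card_pos.ne').2
        (Subgroup.card_dvd_of_le hle) p
    · have := Subgroup.card_dvd_of_le hPle
      rw [hcardP] at this
      exact (Nat.Prime.pow_dvd_iff_le_factorization hp Nat.card_pos.ne').1 this
  have hidx : (Subgroup.centralizer ({(x : G) * y} : Set G)).index.factorization p =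
      (Cfsg.charDegree (χ0 : G → ℂ)).factorization p := by
    have h1 := Lib.Helper78.factorization_index_add p (Subgroup.centralizer ({(x : G) * y} : Set G))
    have h2 := Lib.Helper78.factorization_index_add p (Subgroup.centralizer ({y} : Set G))
    have h3 := Lib.Helper78.factorization_index_of_isDefectClass hM hB hy
    have h4 := (Lib.Helper78.blockHeight_eq_zero_iff hχ0).1 h0
    omega
  have h5 : ¬ Cfsg.MemLocalIdeal M (Cfsg.centralChar (χ0 : G → ℂ) ((x : G) * y)) := by
    rw [Lib.Helper78.centralChar_unit_iff hM χ0 _ hidx]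
    exact Lib.Helper78.not_memLocalIdeal_height_zero hM hB hy hχ0 h0 hc hxk
  rwa [Lib.Helper78.MemLocalIdeal.congr hMp
    (Lib.Helper78.IsPBlock.sameBlock hMp hB hχ hχ0 ((x : G) * y))]

end Cfsg.Agent.S0927
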