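import Cfsg.Statements.S0929
import Cfsg.Agent.Lib.Helper16.FirstMain
import Cfsg.Agent.S0924
import Cfsg.Agent.Lib.Helper4.PPart
-- import your own Cfsg.Agent.* helpers here

set_option autoImplicit false
open Cfsg Cfsg.Agent.Lib.Helper78 Cfsg.Agent.Lib.Helper16 Cfsg.Agent.Lib

namespace Cfsg.Agent.S0929

/-- Let B be a block of the finite group G with defect group P (relative to a maximal ideal M of the algebraic integers containing p), and let g be an element at which the central character of some member of B is not in the local ideal at M. Then some conjugate x of g centralizes P and has its p-part in the centre of P. -/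
theorem result {G : Type*} [Group G] [Finite G] (p : ℕ) [Fact p.Prime] (M : Ideal Cfsg.AlgInt) (hM : Cfsg.IsPModular p M) (B : Set (Cfsg.IrrCharacter G)) (hB : Cfsg.IsPBlock M B) (P : Subgroup G) (hP : Cfsg.IsDefectGroup p M B P) (g : G) (hg : ∃ χ ∈ B, ¬ Cfsg.MemLocalIdeal M (Cfsg.centralChar (χ : G → ℂ) g)) : ∃ x : G, IsConj g x ∧ x ∈ Subgroup.centralizer (P : Set G) ∧ ∀ z : G, Cfsg.IsPPart p x z → z ∈ P ∧ ∀ w ∈ P, z * w = w * z := by
  classical
  cases nonempty_fintype G
  haveI : M.IsMaximal := hM.2.1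
  haveI : CharP (FM M) p := charP_FM hM
  have hM' := pmod_isPrime hM
  have hPp := IsDefectGroup.isPGroup hP
  have hPN : P ≤ Subgroup.normalizer (P : Set G) := Subgroup.le_normalizer
  have hCN : Subgroup.centralizer (P : Set G) ≤ Subgroup.normalizer (P : Set G) :=
    Subgroup.centralizer_le_normalizer _
  obtain ⟨b, hind⟩ := exists_induced_of_le_defect M p (Subgroup.normalizer (P : Set G)) hM hPp
    hPN hCN le_rfl hB hP le_rfl
  have hDb := isDefectGroup_subgroupOf_of_induced M p _ hM hPN le_rfl hind hP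
  obtain ⟨χ, hχ, hg⟩ := hg
  obtain ⟨ξ, hξ⟩ := block_nonempty M hind.1
  have hi := (isInducedBlock_iff M _ hind.1 hind.2.1 hξ hχ).1 hind (classSumZ (FM M) g)
  rw [lam_resZ_eq_lam_brauerHom M p hPp hPN hCN le_rfl] at hi
  have h1 : lam M ξ (brauerHom p P _ hPp hCN le_rfl (classSumZ (FM M) g)) ≠ 0 := by
    rw [hi, lam_classSumZ_ne_zero_iff]; exact hg
  obtain ⟨h, hh1, hh2⟩ := exists_coeff_ne_zero_of_lam_ne_zero M ξ _ h1
  rw [brauerHom_coeff] at hh1
  simp only [brauerFun, ofFun_coeff] at hh1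
  have hhC : (h : G) ∈ Subgroup.centralizer (P : Set G) := by
    by_contra hne
    rw [if_neg hne] at hh1
    exact hh1 rfl
  rw [if_pos hhC, classSumZ_coeff] at hh1
  have hconj : IsConj g (h : G) := by
    by_contra hne
    rw [if_neg hne] at hh1
    exact hh1 rfl
  refine ⟨h, hconj, hhC, ?_⟩
  intro z hz
  obtain ⟨c, a, hc, -⟩ := Cfsg.Agent.Lib.Helper4.exists_pPartExp G p
  have hzc : z = (h : G) ^ c := (hc _ _).1 hz
  have hzN : z ∈ Subgroup.normalizer (P : Set G) := by
    rw [hzc]; exact Subgroup.pow_mem _ h.2 c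
  have hzC : z ∈ Subgroup.centralizer (P : Set G) := by
    rw [hzc]; exact Subgroup.pow_mem _ hhC c
  refine ⟨?_, fun w hw => (hzC w hw).symm⟩
  -- the `p`-part inside the normalizer
  have hz' : IsPPart p h (⟨z, hzN⟩ : Subgroup.normalizer (P : Set G)) := by
    obtain ⟨y, hy1, hy2, ⟨k, hk⟩, hy4⟩ := hz
    have hyN : y ∈ Subgroup.normalizer (P : Set G) := by
      have : y = z⁻¹ * (h : G) := by rw [← hy1]; group
      rw [this]
      exact Subgroup.mul_mem _ (Subgroup.inv_mem _ hzN) h.2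
    refine ⟨⟨y, hyN⟩, Subtype.ext hy1, Subtype.ext hy2, ⟨k, ?_⟩, ?_⟩
    · rw [← hk]; exact Subgroup.orderOf_mk z hzN
    · rw [Subgroup.orderOf_mk y hyN]; exact hy4
  by_contra hzP
  rw [lam_classSumZ_ne_zero_iff] at hh2
  apply hh2
  have h0 : (ξ : Subgroup.normalizer (P : Set G) → ℂ) h = 0 := by
    apply Cfsg.Agent.S0924.result p M hM ξ h _ hz'
    intro D' hD' hzD'
    rw [← IsPBlock.eq_blockOf hM' hind.1 hξ] at hD'
    obtain ⟨t, rfl⟩ := IsDefectGroup.exists_conj_eq hM hind.1 hDb hD'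
    haveI hnorm : (P.subgroupOf (Subgroup.normalizer (P : Set G))).Normal :=
      (Subgroup.normal_subgroupOf_iff_le_normalizer hPN).2 le_rfl
    rw [mem_cj] at hzD'
    have h5 := hnorm.conj_mem _ hzD' t
    apply hzP
    have h6 : t * (t⁻¹ * (⟨z, hzN⟩ : Subgroup.normalizer (P : Set G)) * t) * t⁻¹ = ⟨z, hzN⟩ := by
      group
    rw [h6] at h5
    simpa [Subgroup.mem_subgroupOf] using h5
  unfold centralChar
  rw [h0, mul_zero, zero_div]
  exact memLocalIdeal_zero hM'

end Cfsg.Agent.S0929
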