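import Cfsg.Statements.S0928
import Mathlib
import Cfsg.Agent.Lib.Helper77.BrauerMap
import Cfsg.Agent.Lib.Helper78.DefectZero
import Cfsg.Agent.Lib.Helper80.CoreDvd
import Cfsg.Agent.S0906
import Cfsg.Agent.S0908
import Cfsg.Agent.S0929

set_option autoImplicit false
open Cfsg

namespace Cfsg.Agent.S0928

open Cfsg.Agent.Lib.Helper77 Cfsg.Agent.Lib.Helper78

section
variable {G : Type*} [Group G] [Fintype G] [DecidableEq G] (p : ℕ) [Fact p.Prime]

/-- the number of factorizations `w = x * y` with `x ^ p = y ^ p = 1` is divisible by `p` when `w`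
centralizes a `p`-subgroup `D` having a central element `z` of order `p`. -/
theorem dvd_card_pairs (D : Subgroup G) (hD : IsPGroup p D) (z : G) (hzD : z ∈ D)
    (hzc : ∀ d ∈ D, d * z = z * d) (hz : orderOf z = p) (w : G)
    (hw : w ∈ Subgroup.centralizer (D : Set G)) :
    p ∣ (Finset.univ.filter (fun x : G => x ^ p = 1 ∧ (x⁻¹ * w) ^ p = 1)).card := by
  classical
  have hp : p.Prime := Fact.out
  set C := Subgroup.centralizer (D : Set G) with hC
  rw [← CharP.cast_eq_zero_iff (ZMod p) p, Finset.card_filter]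
  push_cast
  -- step 1: reduce to the centralizer
  rw [sum_eq_sum_fixed p hD (conjPerm D)
    (fun x : G => if x ^ p = 1 ∧ (x⁻¹ * w) ^ p = 1 then (1 : ZMod p) else 0) ?_
    (Finset.univ.filter fun y => y ∈ C) ?_]
  · -- step 2: free action of `⟨z⟩`
    rw [Finset.sum_filter]
    let φ : Subgroup.zpowers z →* Equiv.Perm G :=
      { toFun := fun u => Equiv.mulRight ((u : G)⁻¹)
        map_one' := by ext x; simp
        map_mul' := by intro u v; ext x; simp [mul_assoc] }
    have hZ : IsPGroup p (Subgroup.zpowers z) :=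
      IsPGroup.of_card (n := 1) (by rw [Nat.card_zpowers, hz, pow_one])
    have hu : ∀ u ∈ Subgroup.zpowers z, u ∈ D ∧ u ∈ C ∧ u ^ p = 1 := by
      intro u hu
      obtain ⟨k, rfl⟩ := Subgroup.mem_zpowers_iff.1 hu
      refine ⟨D.zpow_mem hzD k, C.zpow_mem ?_ k, ?_⟩
      · rw [hC, Subgroup.mem_centralizer_iff]
        intro d hd
        exact hzc d hd
      · rw [← zpow_natCast, ← zpow_mul, mul_comm, zpow_mul, zpow_natCast, ← hz, pow_orderOf_eq_one,
          one_zpow]
    have himp : ∀ u ∈ Subgroup.zpowers z, ∀ x : G,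
        (x ∈ C ∧ x ^ p = 1 ∧ (x⁻¹ * w) ^ p = 1) →
        (x * u ∈ C ∧ (x * u) ^ p = 1 ∧ ((x * u)⁻¹ * w) ^ p = 1) := by
      intro u hu' x ⟨hx, hx1, hx2⟩
      obtain ⟨huD, huC, hup⟩ := hu u hu'
      have hcx : Commute x u := (Subgroup.mem_centralizer_iff.1 hx u huD).symm
      have hxw : x⁻¹ * w ∈ C := C.mul_mem (C.inv_mem hx) hw
      have hcw : Commute u⁻¹ (x⁻¹ * w) :=
        (show Commute u (x⁻¹ * w) from (Subgroup.mem_centralizer_iff.1 hxw u huD)).inv_left
      refine ⟨C.mul_mem hx huC, ?_, ?_⟩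
      · rw [hcx.mul_pow, hx1, hup, one_mul]
      · rw [mul_inv_rev, mul_assoc, hcw.mul_pow, hx2, inv_pow, hup, inv_one, one_mul]
    rw [sum_eq_sum_fixed p hZ φ
      (fun x : G => if x ∈ C then (if x ^ p = 1 ∧ (x⁻¹ * w) ^ p = 1 then (1 : ZMod p) else 0) else 0)
      ?_ ∅ ?_]
    · simp
    · intro u x
      have h1 : (φ u x ∈ C ∧ (φ u x) ^ p = 1 ∧ ((φ u x)⁻¹ * w) ^ p = 1) ↔
          (x ∈ C ∧ x ^ p = 1 ∧ (x⁻¹ * w) ^ p = 1) := by
        constructor
        · intro h
          have := himp u u.2 _ h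
          simpa [φ] using this
        · intro h
          exact himp (u : G)⁻¹ (Subgroup.inv_mem _ u.2) x h
      by_cases h2 : x ∈ C ∧ x ^ p = 1 ∧ (x⁻¹ * w) ^ p = 1
      · have h3 := h1.2 h2
        simp only [h2.1, h2.2, h3.1, h3.2, and_self, if_true]
      · have h3 : ¬ (φ u x ∈ C ∧ (φ u x) ^ p = 1 ∧ ((φ u x)⁻¹ * w) ^ p = 1) := fun h => h2 (h1.1 h)
        have e1 : ∀ y : G, (if y ∈ C then (if y ^ p = 1 ∧ (y⁻¹ * w) ^ p = 1 then (1 : ZMod p) else 0)
            else 0) = if (y ∈ C ∧ y ^ p = 1 ∧ (y⁻¹ * w) ^ p = 1) then 1 else 0 := by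
          intro y
          by_cases hy : y ∈ C <;> simp [hy]
        rw [e1, e1, if_neg h2, if_neg h3]
    · intro x
      simp only [Finset.notMem_empty, false_iff, not_forall]
      refine ⟨⟨z, Subgroup.mem_zpowers z⟩, ?_⟩
      intro h
      have h1 : x * z⁻¹ = x := h
      have h2 : z = 1 := by simpa using h1
      rw [h2, orderOf_one] at hz
      exact hp.one_lt.ne hz
  · intro u y
    have hxu : (u : G) * w * (u : G)⁻¹ = w := (mem_centralizer_iff_conj.1 hw) u
    have h1 : ((u : G) * y * (u : G)⁻¹)⁻¹ * w = (u : G) * (y⁻¹ * w) * (u : G)⁻¹ := by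
      conv_lhs => rw [← hxu]
      group
    have h2 : ((conjPerm D u y) ^ p = 1 ∧ ((conjPerm D u y)⁻¹ * w) ^ p = 1) ↔
        (y ^ p = 1 ∧ (y⁻¹ * w) ^ p = 1) := by
      rw [conjPerm_apply, h1, conj_pow, conj_pow, conj_eq_one_iff, conj_eq_one_iff]
    exact if_congr h2 rfl rfl
  · intro y
    simp only [Finset.mem_filter, Finset.mem_univ, true_and]
    exact mem_centralizer_iff_conj

end

/-- Let χ be an irreducible character of the finite group G and p a prime. If χ g = 0 for every element g of order p, then the exponent of p in the degree χ(1) equals the exponent of p in the order of G (χ has p-defect zero). -/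
theorem result {G : Type*} [Group G] [Finite G] (p : ℕ) [Fact p.Prime] (χ : Cfsg.IrrCharacter G) (hvan : ∀ g : G, orderOf g = p → (χ : G → ℂ) g = 0) : (Cfsg.charDegree (χ : G → ℂ)).factorization p = (Nat.card G).factorization p := by
  classical
  have hp : p.Prime := Fact.out
  have := Fintype.ofFinite G
  obtain ⟨M, hM⟩ := Cfsg.Agent.Lib.Helper78.exists_isPModular p hp
  have hMp := pmod_isPrime hM
  have hdvd : Cfsg.charDegree (χ : G → ℂ) ∣ Nat.card G :=
    Cfsg.Agent.Lib.Helper80.charDegree_dvd_card χ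
  have hd0 : Cfsg.charDegree (χ : G → ℂ) ≠ 0 := (irr_charDegree_pos χ).ne'
  have hle : (Cfsg.charDegree (χ : G → ℂ)).factorization p ≤ (Nat.card G).factorization p :=
    (Nat.factorization_le_iff_dvd hd0 Nat.card_pos.ne').2 hdvd p
  by_contra hne
  have hlt : (Cfsg.charDegree (χ : G → ℂ)).factorization p < (Nat.card G).factorization p :=
    lt_of_le_of_ne hle hne
  set B := Cfsg.blockOf M (χ : G → ℂ) with hBdef
  have hB : Cfsg.IsPBlock M B := isPBlock_blockOf χ
  have hχB : χ ∈ B := mem_blockOf_self hMp χ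
  obtain ⟨g₀, hg₀⟩ := Cfsg.Agent.S0906.result p M hM B hB
  obtain ⟨P₀⟩ : Nonempty (Sylow p (Subgroup.centralizer ({g₀} : Set G))) := inferInstance
  set D : Subgroup G := (P₀ : Subgroup (Subgroup.centralizer ({g₀} : Set G))).map
    (Subgroup.centralizer ({g₀} : Set G)).subtype with hDdef
  have hD : Cfsg.IsDefectGroup p M B D := ⟨g₀, hg₀, P₀, rfl⟩
  have hDp : IsPGroup p D := P₀.2.map _
  have hcard := Cfsg.Agent.S0908.result p M hM B hB D hD
  have hdef : 0 < Cfsg.blockDefect p B := by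
    unfold Cfsg.blockDefect
    have h1 : sInf ((fun χ : Cfsg.IrrCharacter G => (Cfsg.charDegree (χ : G → ℂ)).factorization p) '' B)
        ≤ (Cfsg.charDegree (χ : G → ℂ)).factorization p := Nat.sInf_le ⟨χ, hχB, rfl⟩
    omega
  -- a central element of order `p` in `D`
  have hDnt : Nontrivial D := by
    rw [← Finite.one_lt_card_iff_nontrivial, hcard]
    exact Nat.one_lt_pow hdef.ne' hp.one_lt
  have hZnt : Nontrivial (Subgroup.center D) := hDp.center_nontrivial
  have hZp : IsPGroup p (Subgroup.center D) := hDp.to_subgroup _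
  obtain ⟨n, hn⟩ := hZp.exists_card_eq
  have hn0 : n ≠ 0 := by
    rintro rfl
    rw [pow_zero] at hn
    have := Finite.one_lt_card_iff_nontrivial.2 hZnt
    omega
  obtain ⟨z', hz'⟩ := exists_prime_orderOf_dvd_card' (G := Subgroup.center D) p
    (hn ▸ dvd_pow_self p hn0)
  set z : G := ((z' : D) : G) with hzdef
  have hzD : z ∈ D := (z' : D).2
  have hzo : orderOf z = p := by
    rw [hzdef, Subgroup.orderOf_coe, Subgroup.orderOf_coe, hz']
  have hzc : ∀ d ∈ D, d * z = z * d := by
    intro d hd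
    have := Subgroup.mem_center_iff.1 z'.2 ⟨d, hd⟩
    exact congrArg Subtype.val this
  -- the indicator function of `{x | x ^ p = 1}`
  set s : G → ℂ := fun x => if x ^ p = 1 then 1 else 0 with hs
  have hscl : Cfsg.IsClassFunction G s := by
    intro g h
    simp only [hs, conj_pow, conj_eq_one_iff]
  have hχ1 : (χ : G → ℂ) 1 ≠ 0 := irr_one_ne_zero χ
  have hom1 : omega (χ : G → ℂ) s = 1 := by
    unfold omega
    rw [Finset.sum_eq_single (1 : G)]
    · simp [hs, hχ1]
    · intro x _ hx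
      by_cases hxp : x ^ p = 1
      · rw [hvan x (orderOf_eq_prime hxp hx), mul_zero]
      · simp [hs, hxp]
    · intro h; exact absurd (Finset.mem_univ _) h
  have hconv : ∀ w : G, conv s s w =
      ((Finset.univ.filter (fun x : G => x ^ p = 1 ∧ (x⁻¹ * w) ^ p = 1)).card : ℂ) := by
    intro w
    unfold conv
    rw [Finset.card_filter]
    push_cast
    apply Finset.sum_congr rfl
    intro x _
    by_cases h1 : x ^ p = 1 <;> by_cases h2 : (x⁻¹ * w) ^ p = 1 <;> simp [hs, h1, h2]
  have hcc : Cfsg.IsClassFunction G (conv s s) := conv_isClassFunction hscl hscl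
  have h1 : omega (χ : G → ℂ) (conv s s) = 1 := by
    rw [omega_conv χ.2 s hscl, hom1, one_mul]
  have : Fintype (ConjClasses G) := Fintype.ofFinite _
  rw [omega_eq_sum_conjClasses (irr_isClassFunction χ) hcc] at h1
  apply not_memLocalIdeal_one hMp
  rw [← h1]
  apply MemLocalIdeal.sum hMp
  intro c _
  set w := Quotient.out c with hw
  have hint : Cfsg.MemLocalRing M (Cfsg.centralChar (χ : G → ℂ) w) :=
    memLocalRing_of_isIntegral hMp (isIntegral_centralChar χ.2 w)
  by_cases hloc : Cfsg.MemLocalIdeal M (Cfsg.centralChar (χ : G → ℂ) w)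
  · rw [hconv]
    exact MemLocalIdeal.mul_left hMp (memLocalRing_natCast hMp _) hloc
  · obtain ⟨x, hwx, hxC, -⟩ := Cfsg.Agent.S0929.result p M hM B hB D hD w ⟨χ, hχB, hloc⟩
    rw [(isClassFunction_iff_isConj.1 hcc) w x hwx, hconv]
    exact MemLocalIdeal.mul_right hMp
      ((memLocalIdeal_natCast_iff hM _).2 (dvd_card_pairs p D hDp z hzD hzc hzo x hxC)) hint

end Cfsg.Agent.S0928
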