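import Cfsg.Statements.S0930
import Cfsg.Agent.Lib.Helper16.FirstMain
import Cfsg.Agent.S0929
import Cfsg.Agent.S0927
import Cfsg.Agent.Lib.Helper4.PPart
import Cfsg.Agent.Lib.Helper78.HeightZero
-- import your own Cfsg.Agent.* helpers here

set_option autoImplicit false
open Cfsg Cfsg.Agent.Lib.Helper78 Cfsg.Agent.Lib.Helper16 Cfsg.Agent.Lib

namespace Cfsg.Agent.S0930

/-- Let H be a subgroup of the finite group G and fix a maximal ideal M of the algebraic integers containing the prime p. If the block b of H with defect group D induces the block B of G with defect group P, then every element of the centre of P is conjugate in G to an element of the centre of D. -/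
theorem result {G : Type*} [Group G] [Finite G] (p : ℕ) [Fact p.Prime] (M : Ideal Cfsg.AlgInt) (hM : Cfsg.IsPModular p M) (H : Subgroup G) (b : Set (Cfsg.IrrCharacter H)) (B : Set (Cfsg.IrrCharacter G)) (hind : Cfsg.IsInducedBlock M H b B) (D : Subgroup H) (hD : Cfsg.IsDefectGroup p M b D) (P : Subgroup G) (hP : Cfsg.IsDefectGroup p M B P) (x : G) (hx : x ∈ P) (hxc : ∀ w ∈ P, x * w = w * x) : ∃ g : G, g * x * g⁻¹ ∈ D.map H.subtype ∧ ∀ w ∈ D.map H.subtype, (g * x * g⁻¹) * w = w * (g * x * g⁻¹) := by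
  classical
  cases nonempty_fintype G
  haveI : M.IsMaximal := hM.2.1
  haveI : CharP (FM M) p := charP_FM hM
  have hM' := pmod_isPrime hM
  have hPp := IsDefectGroup.isPGroup hP
  obtain ⟨y, hy, S, rfl⟩ := hP
  obtain ⟨x', hx'S, rfl⟩ := hx
  have hcen : ∀ w ∈ (S : Subgroup (Subgroup.centralizer ({y} : Set G))), x' * w = w * x' := by
    intro w hw
    apply Subtype.ext
    exact hxc w ⟨w, hw, rfl⟩
  have h1 := (Cfsg.Agent.S0927.result p M hM B hind.2.1 y hy S x' hx'S).2 hcen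
  obtain ⟨χ, hχ⟩ := block_nonempty M hind.2.1
  obtain ⟨ξ, hξ⟩ := block_nonempty M hind.1
  have hi := (isInducedBlock_iff M _ hind.1 hind.2.1 hξ hχ).1 hind
    (classSumZ (FM M) ((x' : G) * y))
  have h2 : lam M ξ (resZ H (classSumZ (FM M) ((x' : G) * y))) ≠ 0 := by
    rw [hi, lam_classSumZ_ne_zero_iff]; exact h1 χ hχ
  obtain ⟨h, hh1, hh2⟩ := exists_coeff_ne_zero_of_lam_ne_zero M ξ _ h2
  have hconj : IsConj ((x' : G) * y) (h : G) := by
    by_contra hne
    apply hh1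
    show (classSumZ (FM M) ((x' : G) * y)).1.coeff (h : G) = 0
    rw [classSumZ_coeff, if_neg hne]
  rw [lam_classSumZ_ne_zero_iff] at hh2
  obtain ⟨x₁, hx₁, -, hx₁z⟩ := Cfsg.Agent.S0929.result p M hM b hind.1 D hD h ⟨ξ, hξ, hh2⟩
  obtain ⟨c, a, hc, -⟩ := Cfsg.Agent.Lib.Helper4.exists_pPartExp G p
  obtain ⟨c', a', hc', -⟩ := Cfsg.Agent.Lib.Helper4.exists_pPartExp H p
  obtain ⟨hzD, hzc⟩ := hx₁z (x₁ ^ c') ((hc' _ _).2 rfl)
  -- the `p`-part of `x₁` in `G`
  have hpp : IsPPart p (x₁ : G) ((x₁ ^ c' : H) : G) := by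
    obtain ⟨y', e1, e2, ⟨k, e3⟩, e4⟩ := (hc' x₁ (x₁ ^ c')).2 rfl
    refine ⟨y', congrArg Subtype.val e1, congrArg Subtype.val e2, ⟨k, ?_⟩, ?_⟩
    · rw [Subgroup.orderOf_coe]; exact e3
    · rw [Subgroup.orderOf_coe]; exact e4
  have hpp2 : IsPPart p ((x' : G) * y) (x' : G) := by
    have hcomm : Commute (x' : G) y := by
      have := x'.2
      rw [Subgroup.mem_centralizer_singleton_iff] at this
      exact this
    refine ⟨y, rfl, hcomm, ?_, isDefectClass_regular hM hind.2.1 hy⟩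
    obtain ⟨k, hk⟩ := S.isPGroup' ⟨x', hx'S⟩
    have hk' : (x' : G) ^ p ^ k = 1 := by
      have h7 := congrArg Subtype.val (congrArg Subtype.val hk)
      simpa using h7
    obtain ⟨j, -, hj⟩ := (Nat.dvd_prime_pow hM.1).1 (orderOf_dvd_of_pow_eq_one hk')
    exact ⟨j, hj⟩
  have e1 := (hc _ _).1 hpp
  have e2 := (hc _ _).1 hpp2
  obtain ⟨t, ht⟩ := isConj_iff.1 (hconj.trans
    (by
      obtain ⟨s, hs⟩ := isConj_iff.1 hx₁
      exact isConj_iff.2 ⟨s, congrArg Subtype.val hs⟩ : IsConj (h : G) (x₁ : G)))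
  have e3 : t * (x' : G) * t⁻¹ = ((x₁ ^ c' : H) : G) := by
    rw [e1, ← ht, conj_pow, ← e2]
  refine ⟨t, ?_, ?_⟩
  · show t * (x' : G) * t⁻¹ ∈ _
    rw [e3]
    exact ⟨_, hzD, rfl⟩
  · rintro _ ⟨w, hw, rfl⟩
    show t * (x' : G) * t⁻¹ * _ = _ * (t * (x' : G) * t⁻¹)
    rw [e3]
    exact congrArg Subtype.val (hzc w hw)

end Cfsg.Agent.S0930
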