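import Cfsg.Statements.S0931
import Cfsg.Agent.Lib.Helper16.FirstMain
import Cfsg.Agent.S0930
-- import your own Cfsg.Agent.* helpers here

set_option autoImplicit false
open Cfsg Cfsg.Agent.Lib.Helper78 Cfsg.Agent.Lib.Helper16 Cfsg.Agent.Lib

namespace Cfsg.Agent.S0931

/-- Let H be a subgroup of the finite group G and fix a maximal ideal M of the algebraic integers containing the prime p. If the block b of H induces the block B of G, then b has defect 0 if and only if B has defect 0. -/
theorem result {G : Type*} [Group G] [Finite G] (p : ℕ) [Fact p.Prime] (M : Ideal Cfsg.AlgInt) (hM : Cfsg.IsPModular p M) (H : Subgroup G) (b : Set (Cfsg.IrrCharacter H)) (B : Set (Cfsg.IrrCharacter G)) (hind : Cfsg.IsInducedBlock M H b B) : Cfsg.blockDefect p b = 0 ↔ Cfsg.blockDefect p B = 0 := by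
  classical
  cases nonempty_fintype G
  have hp : p.Prime := hM.1
  obtain ⟨D, hD⟩ := exists_isDefectGroup hM hind.1
  obtain ⟨P, hP⟩ := exists_isDefectGroup hM hind.2.1
  have hcD := card_of_isDefectGroup hM hind.1 hD
  have hcP := card_of_isDefectGroup hM hind.2.1 hP
  have key : ∀ n : ℕ, p ^ n = 1 ↔ n = 0 := by
    intro n
    constructor
    · intro h
      by_contra hn
      have := Nat.one_lt_pow hn hp.one_lt
      omega
    · rintro rfl; simp
  constructor
  · intro h0
    rw [h0, pow_zero] at hcD
    rw [← key, ← hcP]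
    by_contra hne
    haveI : Nontrivial P := by
      rw [← Finite.one_lt_card_iff_nontrivial]
      have := Nat.card_pos (α := P)
      omega
    haveI : Nontrivial (Subgroup.center P) := (IsDefectGroup.isPGroup hP).center_nontrivial
    obtain ⟨⟨z, hz⟩, hz1⟩ := exists_ne (1 : Subgroup.center P)
    have hzc : ∀ w ∈ P, (z : G) * w = w * (z : G) := by
      intro w hw
      have := (Subgroup.mem_center_iff.1 hz) ⟨w, hw⟩
      exact (congrArg Subtype.val this).symm
    obtain ⟨g, ⟨d, hd, hd2⟩, -⟩ := Cfsg.Agent.S0930.result p M hM H b B hind D hD P hP z z.2 hzc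
    have hd1 : d = 1 := by
      have hsub : Subsingleton D := (Nat.card_eq_one_iff_unique.1 hcD).1
      have := Subsingleton.elim (⟨d, hd⟩ : D) 1
      exact congrArg Subtype.val this
    rw [hd1] at hd2
    have hz0 : (z : G) = 1 := by
      have h3 : g * (z : G) * g⁻¹ = 1 := by rw [← hd2]; rfl
      calc (z : G) = g⁻¹ * (g * (z : G) * g⁻¹) * g := by group
        _ = 1 := by rw [h3]; group
    apply hz1
    apply Subtype.ext
    apply Subtype.ext
    exact hz0
  · intro h0
    obtain ⟨E, hE, hDE⟩ := Cfsg.Agent.S0917.result p M hM H b hind.1 B hind.2.1 hind D hD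
    have hcE := card_of_isDefectGroup hM hind.2.1 hE
    rw [h0, pow_zero] at hcE
    rw [← key, ← hcD, ← Subgroup.card_map_of_injective H.subtype_injective]
    have h1 := Nat.card_le_card_of_injective _ (Subgroup.inclusion_injective hDE)
    have h2 := Nat.card_pos (α := (D.map H.subtype))
    omega

end Cfsg.Agent.S0931
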