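import Cfsg.Statements.S0934
import Cfsg.Agent.Lib.Helper16.HeightT
-- import your own Cfsg.Agent.* helpers here

set_option autoImplicit false
open Cfsg Cfsg.Agent.Lib.Helper78 Cfsg.Agent.Lib.Helper16 Cfsg.Agent.Lib

namespace Cfsg.Agent.S0934

/-- Let H be a subgroup of the finite group G and fix a maximal ideal M of the algebraic integers containing the prime p. If the block b of H induces the block B of G and ξ ∈ b, then there is χ ∈ B whose restriction to H has nonzero inner product with ξ. -/
theorem result {G : Type*} [Group G] [Fintype G] (p : ℕ) [Fact p.Prime] (M : Ideal Cfsg.AlgInt) (hM : Cfsg.IsPModular p M) (H : Subgroup G) [Fintype H] (b : Set (Cfsg.IrrCharacter H)) (B : Set (Cfsg.IrrCharacter G)) (hind : Cfsg.IsInducedBlock M H b B) (ξ : Cfsg.IrrCharacter H) (hξ : ξ ∈ b) : ∃ χ ∈ B, Cfsg.classInner (fun h : H => (χ : G → ℂ) h) (ξ : H → ℂ) ≠ 0 := by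
  classical
  have hM' := pmod_isPrime hM
  by_contra hcon
  obtain ⟨χ0, hχ0⟩ := IsPBlock.nonempty hM' hind.2.1
  have h1 := memLocalIdeal_omega_res_sub H hM hind hξ hχ0 (blockCoeff_isClassFunction B)
    (memLocalRing_blockCoeff hM' hind.2.1)
  rw [omega_blockCoeff, if_pos hχ0] at h1
  have h2 : omega (ξ : H → ℂ) (fun x : H => Cfsg.blockCoeff B x) = 0 := by
    unfold omega
    have : ∑ g : H, Cfsg.blockCoeff B g * (ξ : H → ℂ) g = 0 := by
      simp only [blockCoeff_eq_sum, Finset.mul_sum, Finset.sum_mul]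
      rw [Finset.sum_comm]
      refine Finset.sum_eq_zero fun χ _ => ?_
      by_cases hχ : χ ∈ B
      · have h3 : Cfsg.classInner (fun h : H => (χ : G → ℂ) h) (ξ : H → ℂ) = 0 := by
          by_contra h3
          exact hcon ⟨χ, hχ, h3⟩
        have h4 := Helper74.classInner_conj_symm (fun h : H => (χ : G → ℂ) h) (ξ : H → ℂ)
        rw [h3, map_zero] at h4
        unfold Cfsg.classInner at h4
        have hc : (Nat.card H : ℂ)⁻¹ ≠ 0 := inv_ne_zero (by exact_mod_cast Nat.card_pos.ne')
        have h5 := (mul_eq_zero.1 h4.symm).resolve_left hc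
        calc ∑ x : H, (Fintype.card G : ℂ)⁻¹ * ((if χ ∈ B then (1 : ℂ) else 0) *
              ((χ : G → ℂ) 1 * (starRingEnd ℂ) ((χ : G → ℂ) x))) * (ξ : H → ℂ) x
            = (Fintype.card G : ℂ)⁻¹ * (χ : G → ℂ) 1 *
              ∑ x : H, (ξ : H → ℂ) x * (starRingEnd ℂ) ((χ : G → ℂ) x) := by
                rw [Finset.mul_sum]
                refine Finset.sum_congr rfl fun x _ => ?_
                rw [if_pos hχ]; ring
          _ = 0 := by rw [h5, mul_zero]
      · refine Finset.sum_eq_zero fun x _ => ?_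
        rw [if_neg hχ]; ring
    rw [this, zero_div]
  rw [h2, zero_sub] at h1
  have := MemLocalIdeal.neg h1
  rw [neg_neg] at this
  exact not_memLocalIdeal_one hM' this

end Cfsg.Agent.S0934
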