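import Cfsg.Statements.S0940
import Cfsg.Agent.Lib.Helper16.PrincipalIdem
-- import your own Cfsg.Agent.* helpers here

set_option autoImplicit false
open Cfsg Cfsg.Agent.Lib.Helper78 Cfsg.Agent.Lib.Helper16 Cfsg.Agent.Lib

namespace Cfsg.Agent.S0940

/-- Let G be a finite group and M a maximal ideal of the algebraic integers containing the prime p. For every p-regular g, the idempotent coefficient of the principal block at g (the inverse of the group order times the sum over χ in the principal block of χ 1 * conj (χ g)) is congruent modulo the local ideal at M to N / R, where N is the number of pairs (x, y) with x of p-power order, y of order prime to p and x * y = g, and R is the number of elements of G of order prime to p. -/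
theorem result {G : Type*} [Group G] [Finite G] (p : ℕ) [Fact p.Prime] (M : Ideal Cfsg.AlgInt) (hM : Cfsg.IsPModular p M) (g : G) (hg : ¬ p ∣ orderOf g) : Cfsg.MemLocalIdeal M (Cfsg.blockCoeff (Cfsg.principalBlock M G) g - (Nat.card {xy : G × G // (∃ k : ℕ, orderOf xy.1 = p ^ k) ∧ ¬ p ∣ orderOf xy.2 ∧ xy.1 * xy.2 = g} : ℂ) / (Nat.card {y : G // ¬ p ∣ orderOf y} : ℂ)) := by
  classical
  cases nonempty_fintype G
  haveI : M.IsMaximal := hM.2.1
  haveI : CharP (FM M) p := charP_FM hM
  have hM' := pmod_isPrime hM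
  have hp : p.Prime := hM.1
  obtain ⟨n, hn, hcoef⟩ := eB_principal_coeff M p hM g hg
  have hc1 : Nat.card {y : G // ¬ p ∣ orderOf y} = nReg p G := by
    rw [Nat.card_eq_fintype_card, Fintype.card_subtype]; rfl
  have hc2 : Nat.card {xy : G × G // (∃ k : ℕ, orderOf xy.1 = p ^ k) ∧ ¬ p ∣ orderOf xy.2 ∧
      xy.1 * xy.2 = g} =
      (Finset.univ.filter fun x : G => x ^ (p ^ n) = 1 ∧ ¬ p ∣ orderOf (x * g)).card := by
    rw [← Fintype.card_subtype, ← Nat.card_eq_fintype_card]
    refine Nat.card_congr ⟨fun xy => ⟨xy.1.1⁻¹, ?_, ?_⟩, fun x => ⟨(x.1⁻¹, x.1 * g), ?_, ?_, ?_⟩,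
      ?_, ?_⟩
    · obtain ⟨⟨a, b⟩, ⟨k, hk⟩, h2, h3⟩ := xy
      simp only at hk h2 h3 ⊢
      rw [inv_pow, inv_eq_one]
      apply orderOf_dvd_iff_pow_eq_one.1
      rw [hk]
      apply pow_dvd_pow
      have h4 : p ^ k ∣ Nat.card G := hk ▸ orderOf_dvd_natCard a
      exact ((hp.pow_dvd_iff_le_factorization Nat.card_pos.ne').1 h4).trans hn
    · obtain ⟨⟨a, b⟩, ⟨k, hk⟩, h2, h3⟩ := xy
      simp only at hk h2 h3 ⊢
      rw [← h3, inv_mul_cancel_left]
      exact h2
    · obtain ⟨x, h1, h2⟩ := x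
      simp only
      rw [orderOf_inv]
      obtain ⟨j, -, hj⟩ := (Nat.dvd_prime_pow hp).1 (orderOf_dvd_of_pow_eq_one h1)
      exact ⟨j, hj⟩
    · exact x.2.2
    · simp
    · rintro ⟨⟨a, b⟩, h1, h2, h3⟩
      simp only at h3
      apply Subtype.ext
      simp only [inv_inv, Prod.mk.injEq, true_and]
      rw [← h3, inv_mul_cancel_left]
    · rintro ⟨x, h1, h2⟩
      simp
  rw [hc1, hc2]
  set c := (Finset.univ.filter fun x : G => x ^ (p ^ n) = 1 ∧ ¬ p ∣ orderOf (x * g)).card with hc
  have hu := nReg_unit (G := G) M p hM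
  have hinv : MemLocalRing M ((nReg p G : ℂ)⁻¹) :=
    MemLocalRing.inv hM' (memLocalRing_natCast hM' _) hu
  have hne : (nReg p G : ℂ) ≠ 0 := ne_zero_of_not_memLocalIdeal hM' hu
  have hredinv : redC M ((nReg p G : ℂ)⁻¹) = (nReg p G : FM M)⁻¹ := by
    apply eq_inv_of_mul_eq_one_left
    rw [← redC_natCast, ← redC_mul hinv (memLocalRing_natCast hM' _), inv_mul_cancel₀ hne, redC_one]
  have hR : MemLocalRing M ((c : ℂ) / (nReg p G : ℂ)) := by
    rw [div_eq_mul_inv]
    exact MemLocalRing.mul hM' (memLocalRing_natCast hM' _) hinv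
  rw [← redC_eq_iff (memLocalRing_blockCoeff hM' isPBlock_principalBlock g) hR, ← eB_coeff, hcoef,
    div_eq_mul_inv, redC_mul (memLocalRing_natCast hM' _) hinv, hredinv, redC_natCast, mul_comm]

end Cfsg.Agent.S0940
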