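import Cfsg.Statements.S0949
import Cfsg.Agent.Lib.Helper74.AbSylowNormal
import Cfsg.Agent.Lib.Helper74.Homocyclic2
import Cfsg.Agent.Lib.Helper78.DefectZero

set_option autoImplicit false
open Cfsg

namespace Cfsg.Agent.S0949

open Cfsg.Agent.Lib.Helper74 Cfsg.Agent.Lib.Helper78

/-- Let the finite group G have a Sylow 2-subgroup P isomorphic to Z/2^m × Z/2^m with m ≥ 2, and suppose G has no nontrivial normal subgroup of odd order. Then P is normal in G, C_G(P) = P, and the index of P is 1 or 3. -/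
theorem result {G : Type*} [Group G] [Finite G] (P : Sylow 2 G) (m : ℕ) (hm : 2 ≤ m) (e : (P : Subgroup G) ≃* Multiplicative (ZMod (2 ^ m) × ZMod (2 ^ m))) (hO : ∀ N : Subgroup G, N.Normal → Odd (Nat.card N) → N = ⊥) : (P : Subgroup G).Normal ∧ Subgroup.centralizer (P : Set G) = (P : Subgroup G) ∧ ((P : Subgroup G).index = 1 ∨ (P : Subgroup G).index = 3) := by
  classical
  haveI : Fact (Nat.Prime 2) := ⟨Nat.prime_two⟩
  have hab := homocyclic_comm P m e
  have hcard := card_autS P
  show (P : Subgroup G).Normal ∧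
    Subgroup.centralizer ((P : Subgroup G) : Set G) = (P : Subgroup G) ∧
      ((P : Subgroup G).index = 1 ∨ (P : Subgroup G).index = 3)
  rcases homocyclic_card_autS P m (by omega) e with h1 | h3
  · -- `N(P) = C(P)`: Burnside
    rw [hcard, Subgroup.relIndex_eq_one] at h1
    obtain ⟨K, hKn, hKc, hKi, -⟩ := exists_normal_pComplement P h1
    have hK : K = ⊥ := hO K hKn (Nat.coprime_two_right.1 hKc)
    rw [hK, Subgroup.index_bot] at hKi
    have htop : (P : Subgroup G) = ⊤ := Subgroup.eq_top_of_card_eq _ hKi.symm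
    refine ⟨by rw [htop]; infer_instance, ?_, Or.inl (by rw [htop, Subgroup.index_top])⟩
    apply le_antisymm
    · rw [htop]; exact le_top
    · exact ab_le_centralizer P hab
  · have hfrob := homocyclic_hfrob P m (by omega) e h3
    have : Fintype ↥(P : Subgroup G) := Fintype.ofFinite _
    have : Fintype (↥(P : Subgroup G) →* ℂˣ) := Fintype.ofFinite _
    have hPcard : Nat.card ↥(P : Subgroup G) = 2 ^ m * 2 ^ m := by
      rw [Nat.card_congr e.toEquiv]
      show Nat.card (ZMod (2 ^ m) × ZMod (2 ^ m)) = _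
      rw [Nat.card_prod, Nat.card_zmod]
    have hm4 : 4 ≤ 2 ^ m := by
      calc 4 = 2 ^ 2 := by norm_num
        _ ≤ 2 ^ m := Nat.pow_le_pow_right (by norm_num) hm
    have hmm : Nat.card (autS P) + 1 < Nat.card ↥(P : Subgroup G) := by
      rw [h3, hPcard]
      nlinarith
    obtain ⟨M, hM⟩ := exists_isPModular 2 Nat.prime_two
    obtain ⟨ε, w, θ, χ₁, χ₂, T⟩ := ab3_exists hM P hab hfrob hmm h3
    obtain ⟨hn, hC⟩ := T.two_structure hM P hab hfrob hmm h3 hO
    refine ⟨hn, hC, Or.inr ?_⟩
    rw [hcard, hC, Subgroup.normalizer_eq_top, Subgroup.relIndex_top_right] at h3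
    exact h3

end Cfsg.Agent.S0949
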