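import Cfsg.Statements.S0950
import Cfsg.Agent.S0071
import Cfsg.Agent.Lib.Helper20.Fus2
import Cfsg.Agent.Lib.Helper55.OddAction
import Cfsg.Agent.Lib.Helper5.Quaternion

set_option autoImplicit false
open Cfsg

namespace Cfsg.Agent.S0950

open Cfsg.Agent.Lib

set_option maxRecDepth 1000000 in
set_option synthInstance.maxHeartbeats 400000 in
set_option synthInstance.maxSize 1024 in
theorem q8_six : ∀ x y w : QuaternionGroup 2, x * x ≠ 1 → y * y ≠ 1 → w * w ≠ 1 → y ≠ x → y ≠ x⁻¹ →
    w = x ∨ w = x⁻¹ ∨ w = y ∨ w = y⁻¹ ∨ w = x * y ∨ w = (x * y)⁻¹ := by decide +kernel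

set_option maxRecDepth 1000000 in
theorem q8_pow4 : ∀ x : QuaternionGroup 2, x ^ 4 = 1 := by decide +kernel

set_option maxRecDepth 1000000 in
theorem q8_invol : ∀ x : QuaternionGroup 2, x * x = 1 → x = 1 ∨ x = QuaternionGroup.a 2 := by
  decide +kernel

/-- a subgroup of order four of a quaternion group of order eight is generated by an element with
nontrivial square -/
theorem exists_gen {G : Type*} [Group G] [Finite G] (S : Subgroup G) (e : S ≃* QuaternionGroup 2)
    (A : Subgroup G) (hA : A ≤ S) (hA4 : Nat.card A = 4) :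
    ∃ x ∈ A, x * x ≠ 1 ∧ A = Subgroup.zpowers x := by
  classical
  have h1 : ∃ x ∈ A, x * x ≠ 1 := by
    by_contra hcon
    push Not at hcon
    have hinj : Function.Injective (fun x : A => e ⟨x.1, hA x.2⟩) := by
      intro x y hxy
      have := e.injective hxy
      exact Subtype.ext (Subtype.mk.inj this)
    have hsub : ∀ x : A, e ⟨x.1, hA x.2⟩ ∈ ({1, QuaternionGroup.a 2} : Finset (QuaternionGroup 2)) := by
      intro x
      have : e ⟨x.1, hA x.2⟩ * e ⟨x.1, hA x.2⟩ = 1 := by
        rw [← map_mul, ← map_one e]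
        congr 1
        exact Subtype.ext (hcon x.1 x.2)
      rcases q8_invol _ this with h | h <;> simp [h]
    have hle : Nat.card A ≤ Nat.card ({1, QuaternionGroup.a 2} : Finset (QuaternionGroup 2)) :=
      Nat.card_le_card_of_injective (fun x : A => (⟨_, hsub x⟩ :
        ({1, QuaternionGroup.a 2} : Finset (QuaternionGroup 2)))) (by
        intro x y hxy
        exact hinj (congrArg Subtype.val hxy))
    rw [hA4, Nat.card_eq_fintype_card, Fintype.card_coe] at hle
    have : ({1, QuaternionGroup.a 2} : Finset (QuaternionGroup 2)).card ≤ 2 := Finset.card_le_two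
    omega
  obtain ⟨x, hx, hx1⟩ := h1
  refine ⟨x, hx, hx1, ?_⟩
  symm
  apply Subgroup.eq_of_le_of_card_ge (Subgroup.zpowers_le.mpr hx)
  rw [hA4, Nat.card_zpowers]
  have h4 : x ^ 4 = 1 := by
    have := q8_pow4 (e ⟨x, hA hx⟩)
    rw [← map_pow, ← map_one e] at this
    exact congrArg Subtype.val (e.injective this)
  have : orderOf x = 2 ^ (1 + 1) := orderOf_eq_prime_pow (by rwa [pow_one, pow_two]) (by simpa using h4)
  rw [this]; norm_num

theorem result {G : Type*} [Group G] [Finite G] (S : Sylow 2 G) (e : (S : Subgroup G) ≃* QuaternionGroup 2) (hnc : ∀ N : Subgroup G, N.Normal → ¬ Subgroup.IsComplement' N (S : Subgroup G)) (A B : Subgroup G) (hA : A ≤ S) (hB : B ≤ S) (hA4 : Nat.card A = 4) (hB4 : Nat.card B = 4) : ∃ n ∈ Subgroup.normalizer ((S : Subgroup G) : Set G), B = A.map (MulAut.conj n).toMonoidHom := by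
  classical
  have h1 : ¬ ∃ N : Subgroup G, N.Normal ∧ N.IsComplement' (S : Subgroup G) := by
    rintro ⟨N, hN, hc⟩
    exact hnc N hN hc
  rw [S0071.result S] at h1
  push Not at h1
  obtain ⟨Q, hQS, g, hgN, hgo, hgC⟩ := h1
  have hodd : Odd (orderOf g) := Nat.coprime_two_right.1 hgo
  have hS8 : Nat.card (S : Subgroup G) = 8 := by
    rw [Nat.card_congr e.toEquiv, Nat.card_eq_fintype_card, QuaternionGroup.card]
  have hQ2 : IsPGroup 2 Q := S.2.to_le hQS
  -- Q = S
  have hQ : Q = S := by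
    let ψ : Q →* QuaternionGroup (2 ^ 1) := e.toMonoidHom.comp (Subgroup.inclusion hQS)
    have hψ : Function.Injective ψ := e.injective.comp (Subgroup.inclusion_injective hQS)
    have e2 := MonoidHom.ofInjective hψ
    rcases Helper5.subgroup_quaternionGroup_two_pow 1 ψ.range with h | ⟨j, hj, ⟨e3⟩⟩
    · exfalso
      have hcyc : IsCyclic Q := isCyclic_of_surjective e2.symm e2.symm.surjective
      exact hgC (Helper55.mem_centralizer_of_odd_of_cyclic Q hcyc hQ2 g hgN hodd)
    · apply Subgroup.eq_of_le_of_card_ge hQS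
      rw [hS8, Nat.card_congr (e2.trans e3).toEquiv, Nat.card_eq_fintype_card, QuaternionGroup.card]
      have : 2 ^ 1 ≤ 2 ^ j := Nat.pow_le_pow_right (by norm_num) hj
      omega
  subst hQ
  obtain ⟨x, hxA, hx1, rfl⟩ := exists_gen _ e A hA hA4
  obtain ⟨w, hwB, hw1, rfl⟩ := exists_gen _ e B hB hB4
  have hxS : x ∈ (S : Subgroup G) := hA hxA
  have hwS : w ∈ (S : Subgroup G) := hB hwB
  have hg1 : g ^ orderOf g = 1 := pow_orderOf_eq_one g
  obtain ⟨hn1, hn2⟩ := Helper20.Fus.q8_no_fixed e hgN hgC hodd hg1 hxS hx1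
  have h3 := Helper20.Fus.q8_three_cycle e hgN hgC hodd hg1 hxS hx1
  have hyS : g * x * g⁻¹ ∈ (S : Subgroup G) := (Subgroup.mem_normalizer_iff.mp hgN x).mp hxS
  have hy1 : (g * x * g⁻¹) * (g * x * g⁻¹) ≠ 1 := by
    intro h
    apply hx1
    have : g * (x * x) * g⁻¹ = 1 := by rw [← h]; group
    have h5 : x * x = g⁻¹ * (g * (x * x) * g⁻¹) * g := by group
    rw [h5, this]; group
  have tr : ∀ (s : G) (hs : s ∈ (S : Subgroup G)), s * s ≠ 1 → e ⟨s, hs⟩ * e ⟨s, hs⟩ ≠ 1 := by
    intro s hs h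
    rw [← map_mul, Ne, ← map_one e, e.injective.eq_iff]
    intro h'; exact h (congrArg Subtype.val h')
  have h6 := q8_six (e ⟨x, hxS⟩) (e ⟨_, hyS⟩) (e ⟨w, hwS⟩) (tr _ _ hx1) (tr _ _ hy1) (tr _ _ hw1)
    (by rw [Ne, e.injective.eq_iff]; intro h; exact hn1 (congrArg Subtype.val h))
    (by rw [← map_inv, Ne, e.injective.eq_iff]; intro h; exact hn2 (congrArg Subtype.val h))
  simp only [← map_inv, ← map_mul, e.injective.eq_iff] at h6
  have h7 : w = x ∨ w = x⁻¹ ∨ w = g * x * g⁻¹ ∨ w = (g * x * g⁻¹)⁻¹ ∨ w = x * (g * x * g⁻¹) ∨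
      w = (x * (g * x * g⁻¹))⁻¹ := by
    rcases h6 with h | h | h | h | h | h
    · exact Or.inl (congrArg Subtype.val h)
    · exact Or.inr (Or.inl (congrArg Subtype.val h))
    · exact Or.inr (Or.inr (Or.inl (congrArg Subtype.val h)))
    · exact Or.inr (Or.inr (Or.inr (Or.inl (congrArg Subtype.val h))))
    · exact Or.inr (Or.inr (Or.inr (Or.inr (Or.inl (congrArg Subtype.val h)))))
    · exact Or.inr (Or.inr (Or.inr (Or.inr (Or.inr (congrArg Subtype.val h)))))
  have hmap : ∀ n : G, (Subgroup.zpowers x).map (MulAut.conj n).toMonoidHom =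
      Subgroup.zpowers (n * x * n⁻¹) := by
    intro n
    rw [MonoidHom.map_zpowers]
    rfl
  have hgg : g * (g * x * g⁻¹) * g⁻¹ = (g * g) * x * (g * g)⁻¹ := by group
  have h8 : Subgroup.zpowers w = Subgroup.zpowers x ∨
      Subgroup.zpowers w = Subgroup.zpowers (g * x * g⁻¹) ∨
      Subgroup.zpowers w = Subgroup.zpowers ((g * g) * x * (g * g)⁻¹) := by
    rcases h7 with h | h | h | h | h | h
    · left; rw [h]
    · left; rw [h, Subgroup.zpowers_inv]
    · right; left; rw [h]
    · right; left; rw [h, Subgroup.zpowers_inv]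
    · right; right
      rcases h3 with h' | h'
      · rw [h, h', hgg]
      · rw [h, h', Subgroup.zpowers_inv, hgg]
    · right; right
      rcases h3 with h' | h'
      · rw [h, h', Subgroup.zpowers_inv, hgg]
      · rw [h, h', inv_inv, hgg]
  rcases h8 with h | h | h
  · exact ⟨1, one_mem _, by rw [hmap, h]; simp⟩
  · exact ⟨g, hgN, by rw [hmap, h]⟩
  · exact ⟨g * g, mul_mem hgN hgN, by rw [hmap, h]⟩

end Cfsg.Agent.S0950
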