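import Cfsg.Statements.S0952
import Cfsg.Agent.Lib.Helper78.BlockOrth

set_option autoImplicit false
open scoped ComplexConjugate
open Cfsg

namespace Cfsg.Agent.S0952

/-- Let χ and ψ be irreducible characters of the finite group G lying in different blocks relative to a maximal ideal M of the algebraic integers containing the prime p. Then the sum of χ x * conj (ψ x) over the elements x of order prime to p is zero. -/
theorem result {G : Type*} [Group G] [Finite G] (p : ℕ) [Fact p.Prime] (M : Ideal Cfsg.AlgInt) (hM : Cfsg.IsPModular p M) (χ ψ : Cfsg.IrrCharacter G) (h : ¬ Cfsg.SameBlock M (χ : G → ℂ) (ψ : G → ℂ)) : ∑ᶠ x ∈ {x : G | ¬ p ∣ orderOf x}, (χ : G → ℂ) x * conj ((ψ : G → ℂ) x) = 0 := by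
  classical
  haveI := Fintype.ofFinite G
  have hMp := Lib.Helper78.pmod_isPrime hM
  have h1 := Lib.Helper78.sum_regular_eq_zero hM (Lib.Helper78.isPBlock_blockOf (M := M) χ)
    (Lib.Helper78.mem_blockOf_self hMp χ) (ψ := ψ) (fun hh => h hh)
  rw [finsum_mem_eq_finite_toFinset_sum _ (Set.toFinite _)]
  rw [← h1, ← Finset.sum_filter]
  refine Finset.sum_congr ?_ fun _ _ => rfl
  ext x
  simp

end Cfsg.Agent.S0952
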