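import Cfsg.Statements.S0957
import Mathlib

set_option autoImplicit false

open Cfsg

namespace Cfsg.Agent.S0957

open Subgroup

theorem dvd_card_of_dvd_orbits {P Ω : Type*} [Group P] [MulAction P Ω] [Finite Ω] (m : ℕ)
    (h : ∀ w : Ω, m ∣ Nat.card (MulAction.orbit P w)) : m ∣ Nat.card Ω := by
  classical
  rw [Nat.card_congr (MulAction.selfEquivSigmaOrbits P Ω)]
  haveI : Fintype (Quotient (MulAction.orbitRel P Ω)) := Fintype.ofFinite _
  rw [Nat.card_sigma]
  exact Finset.dvd_sum (fun ω _ => h _)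

/-- simultaneous conjugation on the pairs -/
@[reducible] def act {G : Type*} [Group G] (P : Subgroup G) (g h : G) :
    MulAction P {yz : G × G // IsConj g yz.1 ∧ IsConj h yz.2 ∧ yz.2 * yz.1⁻¹ ∈ P} where
  smul u w := ⟨((u : G) * w.1.1 * (u : G)⁻¹, (u : G) * w.1.2 * (u : G)⁻¹),
    w.2.1.trans (isConj_iff.2 ⟨u, rfl⟩), w.2.2.1.trans (isConj_iff.2 ⟨u, rfl⟩), by
      have e : (u : G) * w.1.2 * (u : G)⁻¹ * ((u : G) * w.1.1 * (u : G)⁻¹)⁻¹
          = u * (w.1.2 * w.1.1⁻¹) * (u : G)⁻¹ := by group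
      show (u : G) * w.1.2 * (u : G)⁻¹ * ((u : G) * w.1.1 * (u : G)⁻¹)⁻¹ ∈ P
      rw [e]
      exact mul_mem (mul_mem u.2 w.2.2.2) (inv_mem u.2)⟩
  one_smul w := by
    apply Subtype.ext
    show (((1 : P) : G) * w.1.1 * ((1 : P) : G)⁻¹, ((1 : P) : G) * w.1.2 * ((1 : P) : G)⁻¹) = w.1
    simp
  mul_smul u v w := by
    apply Subtype.ext
    show (((u * v : P) : G) * w.1.1 * ((u * v : P) : G)⁻¹,
      ((u * v : P) : G) * w.1.2 * ((u * v : P) : G)⁻¹) =
      ((u : G) * ((v : G) * w.1.1 * (v : G)⁻¹) * (u : G)⁻¹,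
        (u : G) * ((v : G) * w.1.2 * (v : G)⁻¹) * (u : G)⁻¹)
    refine Prod.ext ?_ ?_ <;> (push_cast; group)

/-- Let P be a Sylow p-subgroup of the finite group G, let g, h ∈ G and let p ^ d be the order of a Sylow p-subgroup of the centralizer of g. Then the number of pairs (y, z) with y conjugate to g, z conjugate to h and z * y⁻¹ ∈ P is divisible by the order of P divided by p ^ d. -/
theorem result {G : Type*} [Group G] [Finite G] (p : ℕ) [Fact p.Prime] (P : Sylow p G) (g h : G) (S : Sylow p (Subgroup.centralizer ({g} : Set G))) : Nat.card P / Nat.card S ∣ Nat.card {yz : G × G // IsConj g yz.1 ∧ IsConj h yz.2 ∧ yz.2 * yz.1⁻¹ ∈ (P : Subgroup G)} := by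
  have hpp : p.Prime := Fact.out
  letI := act (P : Subgroup G) g h
  refine dvd_card_of_dvd_orbits (P := (P : Subgroup G)) _ ?_
  intro w
  rw [Nat.card_coe_set_eq, ← MulAction.index_stabilizer]
  set St := MulAction.stabilizer (P : Subgroup G) w with hSt
  obtain ⟨k, hk⟩ := isConj_iff.1 w.2.1
  -- the stabilizer embeds in the centralizer of g
  set T : Subgroup G := (St.map (P : Subgroup G).subtype).map (MulAut.conj k⁻¹).toMonoidHom with hT
  have hTcard : Nat.card T = Nat.card St := by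
    rw [hT, Subgroup.card_map_of_injective (MulAut.conj k⁻¹).injective,
      Subgroup.card_map_of_injective (P : Subgroup G).subtype_injective]
  have hTle : T ≤ centralizer ({g} : Set G) := by
    rintro _ ⟨_, ⟨u, hu, rfl⟩, rfl⟩
    have h1 : u • w = w := hu
    have h2 : (u : G) * w.1.1 * (u : G)⁻¹ = w.1.1 := congrArg (fun z => z.1.1) h1
    rw [mem_centralizer_singleton_iff]
    simp only [MulEquiv.coe_toMonoidHom, MulAut.conj_apply, Subgroup.coe_subtype, inv_inv]
    rw [← hk] at h2
    calc k⁻¹ * (u : G) * k * g = k⁻¹ * ((u : G) * (k * g * k⁻¹) * (u : G)⁻¹) * u * k := by group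
      _ = k⁻¹ * (k * g * k⁻¹) * u * k := by rw [h2]
      _ = _ := by group
  have hdvd : Nat.card St ∣ Nat.card (centralizer ({g} : Set G)) :=
    hTcard ▸ Subgroup.card_dvd_of_le hTle
  obtain ⟨e, he⟩ := (P.isPGroup'.to_subgroup St).exists_card_eq
  have hScard := S.card_eq_multiplicity
  have hPcard := P.card_eq_multiplicity
  set d := (Nat.card (centralizer ({g} : Set G))).factorization p with hd
  set a := (Nat.card G).factorization p with ha
  have hed : e ≤ d := by
    rw [he] at hdvd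
    exact (hpp.pow_dvd_iff_le_factorization Nat.card_pos.ne').1 hdvd
  have hda : d ≤ a := by
    have h1 : p ^ d ∣ Nat.card G :=
      (Nat.ordProj_dvd _ p).trans (Subgroup.card_subgroup_dvd_card _)
    exact (hpp.pow_dvd_iff_le_factorization Nat.card_pos.ne').1 h1
  have hidx : St.index = p ^ (a - e) := by
    have h1 := Subgroup.card_mul_index St
    rw [he] at h1
    have h2 : Nat.card (P : Subgroup G) = p ^ a := hPcard
    rw [h2] at h1
    have h3 : p ^ a = p ^ e * p ^ (a - e) := by rw [← pow_add]; congr 1; omega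
    rw [h3] at h1
    exact Nat.eq_of_mul_eq_mul_left (pow_pos hpp.pos e) h1
  have hP' : Nat.card P = p ^ a := hPcard
  have hS' : Nat.card S = p ^ d := hScard
  rw [hidx, hP', hS', Nat.pow_div hda hpp.pos]
  exact pow_dvd_pow p (by omega)

end Cfsg.Agent.S0957
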