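import Cfsg.Statements.S0959
import Cfsg.Agent.Lib.Helper16.BlockIdem

set_option autoImplicit false
open Cfsg

namespace Cfsg.Agent.S0959

open Cfsg.Agent.Lib.Helper16 Cfsg.Agent.Lib.Helper78 in
/-- Let B be a block of the finite group G with defect group D (relative to a maximal ideal M of the algebraic integers containing the prime p), and let P be a p-subgroup. Then there is an element g whose idempotent coefficient for B is a local integer outside the local ideal at M and which has a conjugate centralizing P, if and only if some conjugate of P is contained in D. -/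
theorem result {G : Type*} [Group G] [Finite G] (p : ℕ) [Fact p.Prime] (M : Ideal Cfsg.AlgInt) (hM : Cfsg.IsPModular p M) (B : Set (Cfsg.IrrCharacter G)) (hB : Cfsg.IsPBlock M B) (D : Subgroup G) (hD : Cfsg.IsDefectGroup p M B D) (P : Subgroup G) (hP : IsPGroup p P) : (∃ g : G, Cfsg.MemLocalRing M (Cfsg.blockCoeff B g) ∧ ¬ Cfsg.MemLocalIdeal M (Cfsg.blockCoeff B g) ∧ ∃ c : G, IsConj g c ∧ c ∈ Subgroup.centralizer (P : Set G)) ↔ ∃ x : G, P.map (MulAut.conj x).toMonoidHom ≤ D := by
  classical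
  cases nonempty_fintype G
  constructor
  · rintro ⟨g, _, hg, c, hgc, hc⟩
    have hc' : ¬ MemLocalIdeal M (blockCoeff B c) := by
      obtain ⟨y, rfl⟩ := isConj_iff.1 hgc
      rwa [blockCoeff_isClassFunction B g y]
    obtain ⟨x, hx⟩ := minmax_a hM hB hD hc' P hP ((le_centralizer_singleton_iff _ _).2 hc)
    exact ⟨x⁻¹, le_cj_iff.1 hx⟩
  · rintro ⟨x, hx⟩
    obtain ⟨g, ⟨h1, h2, h3⟩, Q, rfl⟩ := hD
    refine ⟨g, h1, h2, x⁻¹ * g * x, isConj_iff.2 ⟨x⁻¹, by simp⟩, ?_⟩
    intro q hq
    obtain ⟨z, _, hz⟩ := hx (conj_mem_cj (x := x) hq)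
    have h4 := z.2
    rw [Subgroup.mem_centralizer_singleton_iff] at h4
    have h5 : (z : G) = x * q * x⁻¹ := hz
    rw [h5] at h4
    calc q * (x⁻¹ * g * x) = x⁻¹ * ((x * q * x⁻¹) * g) * x := by group
      _ = x⁻¹ * (g * (x * q * x⁻¹)) * x := by rw [h4]
      _ = x⁻¹ * g * x * q := by group

end Cfsg.Agent.S0959
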