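import Cfsg.Statements.S0961
import Cfsg.Agent.Lib.Helper78.RegInner2
import Cfsg.Agent.S0164

set_option autoImplicit false
open Cfsg

namespace Cfsg.Agent.S0961

/-- Let χ be an irreducible character of the finite group G and let p ^ a be the largest power of the prime p dividing the order of G. Then the function equal to p ^ a * χ x at elements x of order prime to p and to 0 elsewhere is a generalized character (a difference of characters). -/
theorem result {G : Type*} [Group G] [Finite G] (p : ℕ) [Fact p.Prime] (χ : Cfsg.IrrCharacter G) : Cfsg.IsGeneralizedCharacter G (fun x : G => if p ∣ orderOf x then 0 else ((p ^ (Nat.card G).factorization p : ℕ) : ℂ) * (χ : G → ℂ) x) := by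
  exact Lib.Helper78.isGeneralizedCharacter_regPart
    (fun θ hθ hE => Cfsg.Agent.S0164.result θ hθ hE) (Fact.out : p.Prime)
    (Lib.Helper74.IrrCharacter.isCharacter χ)

end Cfsg.Agent.S0961
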