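import Cfsg.Statements.S0964
import Cfsg.Agent.Lib.Helper35.BlockNormal

set_option autoImplicit false
open Cfsg

namespace Cfsg.Agent.S0964

open Cfsg.Agent.Lib.Helper35 Cfsg.Agent.Lib.Helper78 Cfsg.Agent.Lib.Helper15

/-- Let N be a normal subgroup of the finite group G, B a block of G and b a block of N relative to a maximal ideal M of the algebraic integers containing the prime p. Suppose some χ ∈ B has a constituent θ ∈ b on restriction to N. Then for every χ' ∈ B and every constituent ψ of the restriction of χ' to N there are g ∈ G and θ' ∈ b with ψ n = θ' (g n g⁻¹) for all n ∈ N. -/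
theorem result {G : Type*} [Group G] [Fintype G] (p : ℕ) [Fact p.Prime] (M : Ideal Cfsg.AlgInt) (hM : Cfsg.IsPModular p M) (N : Subgroup G) [hN : N.Normal] [Fintype N] (B : Set (Cfsg.IrrCharacter G)) (hB : Cfsg.IsPBlock M B) (b : Set (Cfsg.IrrCharacter N)) (hb : Cfsg.IsPBlock M b) (χ : Cfsg.IrrCharacter G) (hχ : χ ∈ B) (θ : Cfsg.IrrCharacter N) (hθ : θ ∈ b) (hcon : Cfsg.classInner (fun n : N => (χ : G → ℂ) n) (θ : N → ℂ) ≠ 0) (χ' : Cfsg.IrrCharacter G) (hχ' : χ' ∈ B) (ψ : Cfsg.IrrCharacter N) (hψ : Cfsg.classInner (fun n : N => (χ' : G → ℂ) n) (ψ : N → ℂ) ≠ 0) : ∃ g : G, ∃ θ' ∈ b, ∀ n : N, (ψ : N → ℂ) n = (θ' : N → ℂ) ⟨g * n * g⁻¹, hN.conj_mem n n.2 g⟩ := by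
  have hMp := pmod_isPrime hM
  obtain ⟨g, hg⟩ := exists_cjIrr_mem_of_covers N hMp hB hb
    (Covers.memLocalIdeal N hMp hB hb ⟨χ, hχ, θ, hθ, hcon⟩) hχ' hψ
  refine ⟨g⁻¹, _, hg, fun n => ?_⟩
  have h1 : cj N g⁻¹ (cj N g (ψ : N → ℂ)) = ψ := cj_inv_cj N g _
  have h2 := congrFun h1 n
  rw [cj_apply] at h2
  exact h2.symm

end Cfsg.Agent.S0964
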