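import Cfsg.Statements.S0967
import Cfsg.Agent.Lib.Helper35.BlockNormal2

set_option autoImplicit false
open Cfsg

namespace Cfsg.Agent.S0967

open Cfsg.Agent.Lib.Helper35 Cfsg.Agent.Lib.Helper78 Cfsg.Agent.Lib.Helper15

/-- Let N be a normal subgroup of the finite group G of order prime to p and fix a maximal ideal M of the algebraic integers containing p. If χ is an irreducible character of G ⧸ N and ψ lies in the block of its inflation χ ∘ (quotient map), then ψ is itself inflated from an irreducible character ψ' of G ⧸ N lying in the block of χ. (Over a normal p'-subgroup, blocks of the quotient are whole blocks of G.) -/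
theorem result {G : Type*} [Group G] [Finite G] (p : ℕ) [Fact p.Prime] (M : Ideal Cfsg.AlgInt) (hM : Cfsg.IsPModular p M) (N : Subgroup G) [N.Normal] (hN : ¬ p ∣ Nat.card N) (χ : Cfsg.IrrCharacter (G ⧸ N)) (ψ : Cfsg.IrrCharacter G) (hψ : ψ ∈ Cfsg.blockOf M ((χ : G ⧸ N → ℂ) ∘ QuotientGroup.mk)) : ∃ ψ' : Cfsg.IrrCharacter (G ⧸ N), (ψ : G → ℂ) = (ψ' : G ⧸ N → ℂ) ∘ QuotientGroup.mk ∧ Cfsg.SameBlock M (χ : G ⧸ N → ℂ) (ψ' : G ⧸ N → ℂ) := by
  classical
  have := Fintype.ofFinite G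
  have := Fintype.ofFinite (G ⧸ N)
  have h1 : ∀ n : N, (ψ : G → ℂ) n = (ψ : G → ℂ) 1 :=
    ker_of_sameBlock N hM hN (χ := (Cfsg.Agent.Lib.Helper80.inflateEquiv N χ).1)
      (fun n => (Cfsg.Agent.Lib.Helper80.inflateEquiv N χ).2 n n.2) hψ
  obtain ⟨ψ', hψ'⟩ := (Cfsg.Agent.Lib.Helper80.inflateEquiv N).surjective
    ⟨ψ, fun n hn => h1 ⟨n, hn⟩⟩
  have h2 : (ψ : G → ℂ) = (ψ' : G ⧸ N → ℂ) ∘ QuotientGroup.mk := by
    have := congrArg (fun t => (t.1 : G → ℂ)) hψ'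
    exact this.symm
  refine ⟨ψ', h2, ?_⟩
  apply sameBlock_quotient_of_inflate N hM hN χ ψ'
  have h3 : SameBlock M ((χ : G ⧸ N → ℂ) ∘ QuotientGroup.mk) (ψ : G → ℂ) := hψ
  rw [h2] at h3
  exact h3

end Cfsg.Agent.S0967
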