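import Cfsg.Statements.S0972
import Cfsg.Agent.S0187
import Cfsg.Agent.S0887
import Cfsg.Agent.S4438
import Cfsg.Agent.S0968
import Cfsg.Agent.Lib.Helper79.CentralProductBlock
import Cfsg.Agent.Lib.Helper79.CliffordCount
import Cfsg.Agent.Lib.Helper35.BlockNormal3
import Cfsg.Agent.Lib.Helper4.SecondMainD
import Cfsg.Agent.Lib.Helper16.DefectAPI
import Cfsg.Agent.Lib.Helper80.Induced

set_option autoImplicit false
open Cfsg

namespace Cfsg.Agent.S0972

open Cfsg.Agent.Lib.Helper78 Cfsg.Agent.Lib.Helper79 Cfsg.Agent.Lib.Helper16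
open scoped ComplexConjugate

theorem cj_eq_of_normal' {G : Type*} [Group G] (D : Subgroup G) [D.Normal] (x : G) :
    cj x D = D := by
  ext y
  rw [mem_cj]
  constructor
  · intro h
    have := (inferInstance : D.Normal).conj_mem _ h x
    simpa [mul_assoc] using this
  · intro h
    have := (inferInstance : D.Normal).conj_mem _ h x⁻¹
    simpa [mul_assoc] using this

/-- Let B be a block of the finite group G (relative to a maximal ideal M of the algebraic integers containing the prime p) with a defect group P that is normal in G. Then P is commutative if and only if every member of B has height zero. -/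
theorem result {G : Type*} [Group G] [Finite G] (p : ℕ) [Fact p.Prime] (M : Ideal Cfsg.AlgInt) (hM : Cfsg.IsPModular p M) (B : Set (Cfsg.IrrCharacter G)) (hB : Cfsg.IsPBlock M B) (P : Subgroup G) [P.Normal] (hP : Cfsg.IsDefectGroup p M B P) : (∀ a ∈ P, ∀ c ∈ P, a * c = c * a) ↔ ∀ χ ∈ B, Cfsg.blockHeight p B (χ : G → ℂ) = 0 := by
  classical
  have := Fintype.ofFinite G
  have hp : p.Prime := Fact.out
  have hMp := pmod_isPrime hM
  have hPp : IsPGroup p P := IsDefectGroup.isPGroup hP
  have hPN : P ≤ P ⊔ Subgroup.centralizer (P : Set G) := le_sup_left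
  have hCN : Subgroup.centralizer (P : Set G) ≤ P ⊔ Subgroup.centralizer (P : Set G) := le_sup_right
  set N := P ⊔ Subgroup.centralizer (P : Set G) with hN
  set PN : Subgroup N := P.subgroupOf N with hPNdef
  have hPNp : IsPGroup p PN := hPp.comap_subtype
  have hsup : PN ⊔ Subgroup.centralizer (PN : Set N) = ⊤ := by
    have h1 : (Subgroup.centralizer (P : Set G)).subgroupOf N ≤ Subgroup.centralizer (PN : Set N) := by
      intro c hc
      rw [Subgroup.mem_centralizer_iff]
      intro x hx
      apply Subtype.ext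
      exact Subgroup.mem_centralizer_iff.1 (Subgroup.mem_subgroupOf.1 hc) x
        (Subgroup.mem_subgroupOf.1 hx)
    rw [eq_top_iff]
    calc (⊤ : Subgroup N) = N.subgroupOf N := (Subgroup.subgroupOf_self N).symm
      _ = PN ⊔ (Subgroup.centralizer (P : Set G)).subgroupOf N :=
          Subgroup.subgroupOf_sup hPN hCN
      _ ≤ _ := sup_le_sup_left h1 _
  -- numerical data
  have hcardP := card_of_isDefectGroup hM hB hP
  have hνP : (Nat.card P).factorization p = blockDefect p B := by
    rw [hcardP, hp.factorization_pow]; simp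
  have hνG := factorization_index_add p P
  have hmin : minDeg p B = P.index.factorization p := by
    have h5 := blockDefect_eq p B
    have h6 := minDeg_le_card (p := p) (IsPBlock.nonempty hMp hB)
    omega
  have hidx : PN.index * N.index = P.index := Subgroup.relIndex_mul_index hPN
  have hνidx : P.index.factorization p = PN.index.factorization p + N.index.factorization p := by
    rw [← hidx, Nat.factorization_mul Subgroup.index_ne_zero_of_finite
      Subgroup.index_ne_zero_of_finite]; rfl
  have hcardPN : Nat.card PN = Nat.card P :=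
    Nat.card_congr (Subgroup.subgroupOfEquivOfLe hPN).toEquiv
  have hνN := factorization_index_add p PN
  rw [hcardPN] at hνN
  -- blocks of `N` covered by `B` have defect group `P`
  have K1 : ∀ b : Set (IrrCharacter N), IsPBlock M b → Cfsg.Agent.Lib.Helper35.Covers N B b →
      IsDefectGroup p M b PN := by
    intro b hb hcov
    obtain ⟨Q', hQ'⟩ := exists_isDefectGroup hM hb
    have e1 : (Q'.map N.subtype).subgroupOf N = Q' :=
      Subgroup.comap_map_eq_self_of_injective N.subtype_injective Q'
    obtain ⟨P', hP', hP'N⟩ := Cfsg.Agent.S4438.result p M hM N b hb (Q'.map N.subtype)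
      (Subgroup.map_subtype_le Q') (by rw [e1]; exact hQ') B hB hcov
    obtain ⟨x, hx⟩ := IsDefectGroup.exists_conj_eq hM hB hP hP'
    rw [cj_eq_of_normal'] at hx
    rw [hx, inf_eq_left.2 hPN] at hP'N
    rw [hPNdef, hP'N, e1]
    exact hQ'
  -- characters over a block covered by `B` lie in `B`
  have K3 : ∀ b : Set (IrrCharacter N), IsPBlock M b → Cfsg.Agent.Lib.Helper35.Covers N B b →
      ∀ (χ : IrrCharacter G) (ξ : IrrCharacter N), ξ ∈ b →
      classInner (fun n : N => (χ : G → ℂ) n) (ξ : N → ℂ) ≠ 0 → χ ∈ B := by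
    intro b hb hcov χ ξ hξ hover
    have h1 := Cfsg.Agent.Lib.Helper35.isInducedBlock_of_covers P hM hPp hb hB hcov
    have h2 := Cfsg.Agent.Lib.Helper35.isInducedBlock_of_covers P hM hPp hb
      (isPBlock_blockOf (M := M) χ) ⟨χ, mem_blockOf_self hMp χ, ξ, hξ, hover⟩
    rw [Cfsg.Agent.Lib.Helper4.isInducedBlock_unique hMp h1 h2]
    exact mem_blockOf_self hMp χ
  constructor
  · -- `P` abelian: all heights are zero
    intro hcomm χ hχ
    obtain ⟨ξ, hξ⟩ := Cfsg.Agent.Lib.Helper80.exists_constituent_restrict χ N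
    have hb := isPBlock_blockOf (M := M) ξ
    have hξb := mem_blockOf_self hMp ξ
    have hcov : Cfsg.Agent.Lib.Helper35.Covers N B (blockOf M (ξ : N → ℂ)) :=
      ⟨χ, hχ, ξ, hξb, hξ⟩
    obtain ⟨θ, Θ, hθb, hθP, hθdeg, hΘinj, hbeq, hΘP⟩ :=
      Cfsg.Agent.Lib.Helper79.CPB.exists_family p M hM PN hPNp hsup _ hb (K1 _ hb hcov)
    rw [hbeq] at hξb
    obtain ⟨η, rfl⟩ := hξb
    have hη1 : (η : PN → ℂ) 1 = 1 := by
      apply (Cfsg.Agent.S0187.result (G := PN)).1
      intro a c
      apply Subtype.ext
      apply Subtype.ext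
      exact hcomm a (Subgroup.mem_subgroupOf.1 a.2) c (Subgroup.mem_subgroupOf.1 c.2)
    have hdeg : charDegree (Θ η : N → ℂ) = charDegree (θ : N → ℂ) := by
      have h1 := hΘP η 1
      rw [hη1, one_mul, Subgroup.coe_one, irr_one_eq, irr_one_eq] at h1
      exact_mod_cast h1
    obtain ⟨h1, h2⟩ := Cfsg.Agent.S0887.result N (χ : G → ℂ) χ.2 (Θ η : N → ℂ) (Θ η).2 hξ
      (charDegree (χ : G → ℂ)) (charDegree (Θ η : N → ℂ)) (irr_one_eq χ) (irr_one_eq (Θ η))
    have h3 : (charDegree (χ : G → ℂ)).factorization p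
        ≤ (charDegree (Θ η : N → ℂ)).factorization p + N.index.factorization p := by
      obtain ⟨k, hk⟩ := h1
      have hd0 : charDegree (Θ η : N → ℂ) ≠ 0 := (irr_charDegree_pos _).ne'
      have hk0 : k ≠ 0 := by
        rintro rfl
        rw [mul_zero] at hk
        exact (irr_charDegree_pos χ).ne' hk
      rw [hk, Nat.mul_div_cancel_left _ (Nat.pos_of_ne_zero hd0)] at h2
      rw [hk, Nat.factorization_mul hd0 hk0, Finsupp.add_apply]
      have := (Nat.factorization_le_iff_dvd hk0 Subgroup.index_ne_zero_of_finite).2 h2 p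
      omega
    rw [blockHeight_eq]
    rw [hdeg, hθdeg] at h3
    omega
  · -- all heights zero: `P` is abelian
    intro hht
    obtain ⟨χ0, hχ0⟩ := IsPBlock.nonempty hMp hB
    obtain ⟨ξ0, hξ0⟩ := Cfsg.Agent.Lib.Helper80.exists_constituent_restrict χ0 N
    set b := blockOf M (ξ0 : N → ℂ) with hbdef
    have hb : IsPBlock M b := isPBlock_blockOf (M := M) ξ0
    have hcov : Cfsg.Agent.Lib.Helper35.Covers N B b :=
      ⟨χ0, hχ0, ξ0, mem_blockOf_self hMp ξ0, hξ0⟩
    have hDb := K1 b hb hcov
    obtain ⟨θ, Θ, hθb, hθP, hθdeg, hΘinj, hbeq, hΘP⟩ :=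
      Cfsg.Agent.Lib.Helper79.CPB.exists_family p M hM PN hPNp hsup b hb hDb
    obtain ⟨⟨θu, -, hθu⟩, -, -⟩ := Cfsg.Agent.S0968.result p M hM PN hPNp hsup b hb hDb
    -- the inertia group of the canonical character has `p'`-index over `N`
    have hIθ : (Nat.card (inertia N (θ : N → ℂ))).factorization p = (Nat.card N).factorization p := by
      apply factorization_card_inertia_eq N hp θ
      intro χ hover
      have hχB := K3 b hb hcov χ θ hθb hover
      have h1 := minDeg_le (p := p) hχB
      omega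
    have hlin : ∀ η : IrrCharacter PN, (η : PN → ℂ) 1 = 1 := by
      intro η
      have hξb : Θ η ∈ b := by rw [hbeq]; exact ⟨η, rfl⟩
      have hle : inertia N (Θ η : N → ℂ) ≤ inertia N (θ : N → ℂ) := by
        intro g hg
        have hg' : Cfsg.Agent.Lib.Helper15.cj N g (Θ η : N → ℂ) = (Θ η : N → ℂ) := hg
        have h1 : SameBlock M (Θ η : N → ℂ) (θ : N → ℂ) := IsPBlock.sameBlock hMp hb hξb hθb
        have h2 := Cfsg.Agent.Lib.Helper35.sameBlock_cj N (M := M) g h1
        rw [hg'] at h2
        have h3 : Cfsg.Agent.Lib.Helper35.cjIrr N g θ ∈ b :=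
          IsPBlock.mem_of_sameBlock hMp hb hξb h2
        have h4 : ∀ x ∈ PN, (Cfsg.Agent.Lib.Helper35.cjIrr N g θ : N → ℂ) x
            = (Cfsg.Agent.Lib.Helper35.cjIrr N g θ : N → ℂ) 1 := by
          intro x hx
          rw [Cfsg.Agent.Lib.Helper35.cjIrr_coe, Cfsg.Agent.Lib.Helper15.cj_apply,
            Cfsg.Agent.Lib.Helper15.cj_apply_one]
          apply hθP
          rw [hPNdef, Subgroup.mem_subgroupOf]
          exact (inferInstance : P.Normal).conj_mem _ (Subgroup.mem_subgroupOf.1 hx) g
        have h5 := hθu _ ⟨h3, h4⟩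
        have h6 := hθu θ ⟨hθb, hθP⟩
        have h7 : Cfsg.Agent.Lib.Helper35.cjIrr N g θ = θ := h5.trans h6.symm
        exact congrArg Subtype.val h7
      have hIξ : (Nat.card (inertia N (Θ η : N → ℂ))).factorization p
          ≤ (Nat.card N).factorization p := by
        rw [← hIθ]
        exact (Nat.factorization_le_iff_dvd Nat.card_pos.ne' Nat.card_pos.ne').2
          (Subgroup.card_dvd_of_le hle) p
      obtain ⟨χ, hover⟩ := Cfsg.Agent.Lib.Helper35.exists_over N (Θ η)
      have hχB := K3 b hb hcov χ (Θ η) hξb hover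
      have h1 := le_factorization_of_over N χ (Θ η) hover hIξ
      have h2 := (blockHeight_eq_zero_iff hχB).1 (hht χ hχB)
      have h3 : charDegree (Θ η : N → ℂ) = charDegree (η : PN → ℂ) * charDegree (θ : N → ℂ) := by
        have h4 := hΘP η 1
        rw [Subgroup.coe_one, irr_one_eq, irr_one_eq, irr_one_eq] at h4
        exact_mod_cast h4
      rw [h3, Nat.factorization_mul (irr_charDegree_pos η).ne' (irr_charDegree_pos θ).ne',
        Finsupp.add_apply] at h1
      have h5 : (charDegree (η : PN → ℂ)).factorization p = 0 := by omega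
      obtain ⟨k, hk⟩ := IsPGroup.iff_card.1 hPNp
      obtain ⟨j, -, hj⟩ := (Nat.dvd_prime_pow hp).1 (hk ▸ irr_charDegree_dvd_card η)
      rw [hj, hp.factorization_pow] at h5
      simp only [Finsupp.single_eq_same] at h5
      rw [irr_one_eq, hj, h5]; simp
    have hcommPN := (Cfsg.Agent.S0187.result (G := PN)).2 hlin
    intro a ha c hc
    have := hcommPN ⟨⟨a, hPN ha⟩, Subgroup.mem_subgroupOf.2 ha⟩
      ⟨⟨c, hPN hc⟩, Subgroup.mem_subgroupOf.2 hc⟩
    exact congrArg (fun z : PN => ((z : N) : G)) this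

end Cfsg.Agent.S0972
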