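import Cfsg.Statements.S0986
import Cfsg.Agent.Lib.Helper22.CoprimeP

set_option autoImplicit false
open Cfsg

namespace Cfsg.Agent.S0986

open Subgroup

theorem card_lt_of_lt' {G : Type*} [Group G] [Finite G] {H K : Subgroup G} (h : H < K) :
    Nat.card H < Nat.card K := by
  by_contra hc
  exact absurd (Subgroup.eq_of_le_of_card_ge h.le (not_lt.mp hc)) h.ne

theorem aux {G : Type*} [Group G] [Finite G] (p : ℕ) [Fact p.Prime] (P Q : Sylow p G) (hPQ : P ≠ Q)
    (D N : Subgroup G) (hD : D = (P : Subgroup G) ⊓ (Q : Subgroup G))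
    (hN : N = Subgroup.normalizer (D : Set G))
    (hmax : ∀ P' Q' : Sylow p G, P' ≠ Q' →
      Nat.card ↥((P' : Subgroup G) ⊓ (Q' : Subgroup G)) ≤ Nat.card ↥D) :
    1 < Nat.card (Sylow p ↥N) ∧
    (∀ S T : Sylow p ↥N, S ≠ T → (S : Subgroup _) ⊓ (T : Subgroup _) = D.subgroupOf N) ∧
    ∀ S : Sylow p ↥N, ∃! T : Sylow p G, (S : Subgroup _).map N.subtype ≤ (T : Subgroup G) := by
  classical
  have hDN : D ≤ N := hN ▸ Subgroup.le_normalizer
  have key : ∀ (R R' : Sylow p G) (H : Subgroup G), H ≤ R → H ≤ R' →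
      Nat.card D < Nat.card H → R = R' := by
    intro R R' H h1 h2 h3
    by_contra hne
    have h5 := hmax R R' hne
    have h4 : Nat.card H ≤ Nat.card ↥((R : Subgroup G) ⊓ R') :=
      Subgroup.card_le_of_le (le_inf h1 h2)
    omega
  -- D < P, D < Q
  have hlt : ∀ (R R' : Sylow p G), R ≠ R' → D = (R : Subgroup G) ⊓ R' → D < R := by
    intro R R' hne h
    refine lt_of_le_of_ne (h ▸ inf_le_left) ?_
    intro h2
    apply hne
    have h3 : (R : Subgroup G) ≤ R' := by rw [← h2, h]; exact inf_le_right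
    exact Sylow.ext (R.3 R'.2 h3).symm
  have hDP : D < P := hlt P Q hPQ hD
  have hDQ : D < Q := hlt Q P hPQ.symm (by rw [hD, inf_comm])
  -- D.subgroupOf N is normal p-subgroup
  have hnorm : (D.subgroupOf N).Normal := by
    rw [hN]; exact Subgroup.normal_in_normalizer
  have hDp : IsPGroup p D := P.2.to_le hDP.le
  have hDp' : IsPGroup p (D.subgroupOf N) :=
    hDp.comap_of_injective N.subtype N.subtype_injective
  have hDS : ∀ S : Sylow p N, D.subgroupOf N ≤ S := fun S => hDp'.le_sylow_of_normal S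
  have hDS' : ∀ S : Sylow p N, D ≤ (S : Subgroup N).map N.subtype := by
    intro S x hx
    exact ⟨⟨x, hDN hx⟩, hDS S (by simpa [Subgroup.mem_subgroupOf] using hx), rfl⟩
  -- for a Sylow R of G strictly containing D, some Sylow of N contains R ⊓ N > D
  have hgrow : ∀ R : Sylow p G, D < R → ∃ S : Sylow p N,
      ((R : Subgroup G) ⊓ N).subgroupOf N ≤ S ∧ Nat.card D < Nat.card ↥((R : Subgroup G) ⊓ N) := by
    intro R hR
    obtain ⟨x, hxR, hxN, hxD⟩ := Lib.Helper22.exists_mem_normalizer_not_mem R.2 hR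
    have h1 : IsPGroup p (((R : Subgroup G) ⊓ N).subgroupOf N) :=
      (R.2.to_le inf_le_left).comap_of_injective N.subtype N.subtype_injective
    obtain ⟨S, hS⟩ := h1.exists_le_sylow
    refine ⟨S, hS, card_lt_of_lt' ?_⟩
    refine lt_of_le_of_ne (le_inf hR.le hDN) ?_
    intro h
    apply hxD
    rw [h]
    exact ⟨hxR, hN ▸ hxN⟩
  have hcardmap : ∀ S : Sylow p N, Nat.card ((S : Subgroup N).map N.subtype) = Nat.card S :=
    fun S => Subgroup.card_map_of_injective N.subtype_injective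
  have hbig : ∀ S : Sylow p N, Nat.card D < Nat.card ((S : Subgroup N).map N.subtype) := by
    intro S
    obtain ⟨S0, hS0, hc⟩ := hgrow P hDP
    rw [hcardmap, S.card_eq_multiplicity, ← S0.card_eq_multiplicity]
    refine lt_of_lt_of_le hc ?_
    have h2 : Nat.card (((P : Subgroup G) ⊓ N).subgroupOf N) = Nat.card ↥((P : Subgroup G) ⊓ N) :=
      Nat.card_congr (Subgroup.subgroupOfEquivOfLe inf_le_right).toEquiv
    rw [← h2]
    exact Subgroup.card_le_of_le hS0
  have h3 : ∀ S : Sylow p ↥N, ∃! T : Sylow p G, (S : Subgroup _).map N.subtype ≤ (T : Subgroup G) := by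
    intro S
    obtain ⟨T, hT⟩ := (S.2.map N.subtype).exists_le_sylow
    exact ⟨T, hT, fun T' hT' => key T' T _ hT' hT (hbig S)⟩
  refine ⟨?_, ?_, h3⟩
  · by_contra hcon
    have hsub : Subsingleton (Sylow p N) := by
      have : Nat.card (Sylow p N) ≤ 1 := not_lt.mp hcon
      exact (Finite.card_le_one_iff_subsingleton).mp this
    obtain ⟨S1, hS1, hc1⟩ := hgrow P hDP
    obtain ⟨S2, hS2, hc2⟩ := hgrow Q hDQ
    have hS12 : S1 = S2 := Subsingleton.elim _ _
    obtain ⟨R, hR, -⟩ := h3 S1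
    have hle : ∀ (X : Sylow p G) (S : Sylow p N), ((X : Subgroup G) ⊓ N).subgroupOf N ≤ S →
        (X : Subgroup G) ⊓ N ≤ (S : Subgroup N).map N.subtype := by
      intro X S h x hx
      exact ⟨⟨x, hx.2⟩, h (by rw [Subgroup.mem_subgroupOf]; exact hx), rfl⟩
    have e1 : P = R := key P R _ inf_le_left ((hle P S1 hS1).trans hR) hc1
    have e2 : Q = R := key Q R _ inf_le_left ((hle Q S1 (hS12 ▸ hS2)).trans hR) hc2
    exact hPQ (e1.trans e2.symm)
  · intro S T hST
    obtain ⟨S', hS', -⟩ := h3 S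
    obtain ⟨T', hT', -⟩ := h3 T
    have hne : S' ≠ T' := by
      intro h
      apply hST
      have hp : IsPGroup p ((S' : Subgroup G).subgroupOf N) :=
        S'.2.comap_of_injective N.subtype N.subtype_injective
      have h1 : (S : Subgroup N) ≤ (S' : Subgroup G).subgroupOf N := by
        intro x hx
        exact hS' ⟨x, hx, rfl⟩
      have h2 : (T : Subgroup N) ≤ (S' : Subgroup G).subgroupOf N := by
        intro x hx
        rw [h]
        exact hT' ⟨x, hx, rfl⟩
      exact Sylow.ext ((S.3 hp h1).symm.trans (T.3 hp h2))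
    have h5 := hmax S' T' hne
    have h6 : D ≤ (S' : Subgroup G) ⊓ T' := le_inf ((hDS' S).trans hS') ((hDS' T).trans hT')
    have h7 : D = (S' : Subgroup G) ⊓ T' := Subgroup.eq_of_le_of_card_ge h6 h5
    apply le_antisymm
    · intro x hx
      rw [Subgroup.mem_subgroupOf, h7]
      exact ⟨hS' ⟨x, hx.1, rfl⟩, hT' ⟨x, hx.2, rfl⟩⟩
    · exact le_inf (hDS S) (hDS T)

theorem result {G : Type*} [Group G] [Finite G] (p : ℕ) [Fact p.Prime] (P Q : Sylow p G) (hPQ : P ≠ Q) (hmax : ∀ P' Q' : Sylow p G, P' ≠ Q' → Nat.card ↥((P' : Subgroup G) ⊓ (Q' : Subgroup G)) ≤ Nat.card ↥((P : Subgroup G) ⊓ (Q : Subgroup G))) : 1 < Nat.card (Sylow p ↥(Subgroup.normalizer (((P : Subgroup G) ⊓ (Q : Subgroup G) : Subgroup G) : Set G))) ∧ (∀ S T : Sylow p ↥(Subgroup.normalizer (((P : Subgroup G) ⊓ (Q : Subgroup G) : Subgroup G) : Set G)), S ≠ T → (S : Subgroup _) ⊓ (T : Subgroup _) = ((P : Subgroup G) ⊓ (Q : Subgroup G)).subgroupOf (Subgroup.normalizer (((P : Subgroup G) ⊓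 (Q : Subgroup G) : Subgroup G) : Set G))) ∧ ∀ S : Sylow p ↥(Subgroup.normalizer (((P : Subgroup G) ⊓ (Q : Subgroup G) : Subgroup G) : Set G)), ∃! T : Sylow p G, (S : Subgroup _).map (Subgroup.normalizer (((P : Subgroup G) ⊓ (Q : Subgroup G) : Subgroup G) : Set G)).subtype ≤ (T : Subgroup G) := by
  exact aux p P Q hPQ _ _ rfl rfl hmax

end Cfsg.Agent.S0986
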