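import Mathlib
import Cfsg.Statements.S0987
import Cfsg.Agent.Lib.Helper17.Basic

set_option autoImplicit false
open Cfsg

namespace Cfsg.Agent.S0987

open Cfsg.Agent.Lib.Helper17

/-- If a finite group has order pqr for primes p < q < r, then its Sylow r-subgroups are normal. -/
theorem result {G : Type*} [Group G] [Finite G] (p q r : ℕ) (hp : p.Prime) (hq : q.Prime) [Fact r.Prime] (hpq : p < q) (hqr : q < r) (hG : Nat.card G = p * q * r) (R : Sylow r G) : (R : Subgroup G).Normal := by
  have hr : r.Prime := Fact.out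
  have : Fact p.Prime := ⟨hp⟩
  obtain ⟨P⟩ : Nonempty (Sylow p G) := inferInstance
  have hpq' : ¬ p ∣ q := fun h => hpq.ne ((Nat.prime_dvd_prime_iff_eq hp hq).mp h)
  have hpr' : ¬ p ∣ r := fun h => (hpq.trans hqr).ne ((Nat.prime_dvd_prime_iff_eq hp hr).mp h)
  have hfacp : Nat.card G = p ^ 1 * (q * r) := by rw [hG]; ring
  have hnd : ¬ p ∣ q * r := fun h => (hp.dvd_mul.mp h).elim hpq' hpr'
  have hPc : Nat.card ↥(P : Subgroup G) = p := by simpa using (sylow_card_index P hfacp hnd).1
  have hcyc : IsCyclic ↥(P : Subgroup G) := isCyclic_of_prime_card hPc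
  have hmin : (Nat.card G).minFac = p := by
    rw [hG]
    apply le_antisymm
    · exact Nat.minFac_le_of_dvd hp.two_le (Dvd.intro (q * r) (by ring) : p ∣ p * q * r)
    · have hmp : (p * q * r).minFac.Prime := Nat.minFac_prime (by
        have := hp.two_le; have := hq.two_le; have := hr.two_le
        intro h
        have h4 : 2 * 2 * 2 ≤ p * q * r := Nat.mul_le_mul (Nat.mul_le_mul hp.two_le hq.two_le) hr.two_le
        omega)
      have hd : (p * q * r).minFac ∣ p * q * r := Nat.minFac_dvd _
      rcases (hmp.dvd_mul.mp hd) with h | h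
      · rcases (hmp.dvd_mul.mp h) with h | h
        · exact ((Nat.prime_dvd_prime_iff_eq hmp hp).mp h).ge
        · rw [(Nat.prime_dvd_prime_iff_eq hmp hq).mp h]; exact hpq.le
      · rw [(Nat.prime_dvd_prime_iff_eq hmp hr).mp h]; exact (hpq.trans hqr).le
  have hNC := hcyc.normalizer_le_centralizer hmin
  have hcompl := IsCyclic.isComplement' hmin hcyc
  set K := (MonoidHom.transferSylow P hNC).ker with hK
  have hKn : K.Normal := MonoidHom.normal_ker _
  have hKc : Nat.card K = q * r := by
    have := hcompl.card_mul_card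
    rw [hPc, hG] at this
    have h2 : p * Nat.card K = p * (q * r) := by rw [mul_comm, this]; ring
    exact Nat.eq_of_mul_eq_mul_left hp.pos h2
  have hRK : (R : Subgroup G) ≤ K := by
    intro x hx
    rw [hK, MonoidHom.mem_ker]
    obtain ⟨k, hk⟩ := R.2 ⟨x, hx⟩
    have hk' : x ^ (r ^ k) = 1 := by simpa using congrArg Subtype.val hk
    set y := MonoidHom.transferSylow P hNC x
    have h1 : y ^ (r ^ k) = 1 := by rw [← map_pow, hk', map_one]
    have h2 : y ^ p = 1 := by
      have h := pow_card_eq_one' (x := y)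
      rwa [hPc] at h
    have hcop : Nat.Coprime (r ^ k) p := Nat.Coprime.pow_left _ ((Nat.coprime_primes hr hp).mpr (hpq.trans hqr).ne')
    have h3 : orderOf y ∣ Nat.gcd (r ^ k) p := Nat.dvd_gcd (orderOf_dvd_of_pow_eq_one h1) (orderOf_dvd_of_pow_eq_one h2)
    rw [hcop.gcd_eq_one, Nat.dvd_one, orderOf_eq_one_iff] at h3
    exact h3
  have hrq : ¬ r ∣ q := fun h => hqr.ne' ((Nat.prime_dvd_prime_iff_eq hr hq).mp h)
  have hfacK : Nat.card K = r ^ 1 * q := by rw [hKc]; ring
  obtain ⟨d1, d2⟩ := card_sylow_mem (p := r) hfacK hrq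
  have hone : Nat.card (Sylow r K) = 1 := by
    rcases (Nat.dvd_prime hq).mp d1 with h | h
    · exact h
    · rw [h, Nat.mod_eq_of_lt hqr] at d2
      exact absurd d2 hq.one_lt.ne'
  have hsub : Subsingleton (Sylow r K) := (Nat.card_eq_one_iff_unique.mp hone).1
  have hchar : ((R.subtype hRK : Sylow r K) : Subgroup K).Characteristic := Sylow.characteristic_of_subsingleton _
  have hnorm : (((R.subtype hRK : Sylow r K) : Subgroup K).map K.subtype).Normal := ConjAct.normal_of_characteristic_of_normal
  rw [Sylow.coe_subtype, Subgroup.subgroupOf_map_subtype, inf_of_le_left hRK] at hnorm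
  exact hnorm

end Cfsg.Agent.S0987
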