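import Mathlib
import Cfsg.Statements.S1001
import Cfsg.Agent.Lib.Helper17.Basic
import Cfsg.Agent.S0904
import Cfsg.Agent.S0144
import Cfsg.Agent.S1018

set_option autoImplicit false
open Cfsg

namespace Cfsg.Agent.S1001

open Cfsg.Agent.Lib.Helper17

/-- In a finite simple group whose order has the form p * 3^a * 2^b with p prime, the centralizer of any element of order p is the cyclic group it generates. -/
theorem result {G : Type*} [Group G] [Finite G] [IsSimpleGroup G] (p a b : ℕ) (hp : p.Prime) (hG : Nat.card G = p * 3 ^ a * 2 ^ b) (x : G) (hx : orderOf x = p) : Subgroup.centralizer ({x} : Set G) = Subgroup.zpowers x := by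
  have hx1 : x ≠ 1 := by
    rintro rfl
    rw [orderOf_one] at hx
    exact hp.one_lt.ne hx
  -- the abelian case
  have habel : (∀ a b : G, a * b = b * a) → Subgroup.centralizer ({x} : Set G) = Subgroup.zpowers x := by
    intro hc
    have hn : (Subgroup.zpowers x).Normal :=
      ⟨fun n hn g => by rw [hc g n, mul_inv_cancel_right]; exact hn⟩
    rcases hn.eq_bot_or_eq_top with h | h
    · exfalso
      rw [Subgroup.zpowers_eq_bot] at h
      exact hx1 h
    · rw [h, eq_top_iff]
      intro g _
      rw [Subgroup.mem_centralizer_iff]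
      intro y _
      exact hc y g
  by_cases h2 : p = 2
  · apply habel
    rw [IsSimpleGroup.comm_iff_isSolvable]
    exact Cfsg.Agent.S0144.result 3 2 a (b + 1) (by norm_num) (by norm_num) (by rw [hG, h2]; ring)
  by_cases h3 : p = 3
  · apply habel
    rw [IsSimpleGroup.comm_iff_isSolvable]
    exact Cfsg.Agent.S0144.result 3 2 (a + 1) b (by norm_num) (by norm_num) (by rw [hG, h3]; ring)
  have : Fact p.Prime := ⟨hp⟩
  have hcard : Nat.card G = 3 ^ a * 2 ^ b * p := by rw [hG]; ring
  have hpg : IsPGroup p (Subgroup.zpowers x) := by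
    apply IsPGroup.of_card (n := 1)
    rw [Nat.card_zpowers, hx, pow_one]
  obtain ⟨S, hS⟩ := hpg.exists_le_sylow
  have hnd : ¬ p ∣ 3 ^ a * 2 ^ b := by
    intro h4
    rcases (Nat.Prime.dvd_mul hp).mp h4 with h5 | h5
    · exact h3 ((Nat.prime_dvd_prime_iff_eq hp (by norm_num)).mp (hp.dvd_of_dvd_pow h5))
    · exact h2 ((Nat.prime_dvd_prime_iff_eq hp (by norm_num)).mp (hp.dvd_of_dvd_pow h5))
  have hScard : Nat.card ↥(S : Subgroup G) = p := by
    simpa using (sylow_card_index S (a := 1) (m := 3 ^ a * 2 ^ b) (by rw [hcard]; ring) hnd).1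
  have hz : Subgroup.zpowers x = (S : Subgroup G) :=
    Cfsg.Agent.S1018.zpowers_eq_sylow S hScard x hx (hS (Subgroup.mem_zpowers x))
  have key := Cfsg.Agent.S0904.result 3 2 p a b (by norm_num) (by norm_num) (by norm_num)
    (fun h => h3 h.symm) (fun h => h2 h.symm) hcard S
  rw [hz, ← key]
  ext g
  rw [Subgroup.mem_centralizer_iff, Subgroup.mem_centralizer_iff]
  constructor
  · intro h y hy
    have hy' : y ∈ Subgroup.zpowers x := by rw [hz]; exact hy
    obtain ⟨k, rfl⟩ := Subgroup.mem_zpowers_iff.mp hy'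
    have hc : Commute x g := h x rfl
    exact hc.zpow_left k
  · intro h y hy
    rw [Set.mem_singleton_iff] at hy
    subst hy
    exact h y (hS (Subgroup.mem_zpowers y))

end Cfsg.Agent.S1001
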