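import Mathlib
import Cfsg.Statements.S1002
import Cfsg.Agent.Lib.Helper17.Basic
import Cfsg.Agent.Lib.Helper17.Burn
import Cfsg.Agent.Lib.Helper17.PermRep
import Cfsg.Agent.Lib.Helper17.Count

set_option autoImplicit false
open Cfsg

namespace Cfsg.Agent.S1002

open Cfsg.Agent.Lib.Helper17

/-- No finite simple group has order 1004913 = 3^3 * 7 * 13 * 409. -/
theorem result {G : Type*} [Group G] [Finite G] [IsSimpleGroup G] : Nat.card G ≠ 1004913 := by
  intro hG
  have : Fact (Nat.Prime 409) := ⟨by norm_num⟩
  have : Fact (Nat.Prime 13) := ⟨by norm_num⟩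
  have : Fact (Nat.Prime 7) := ⟨by norm_num⟩
  have : Fact (Nat.Prime 3) := ⟨by norm_num⟩
  -- n_409 = 819
  have hfac : Nat.card G = 409 ^ 1 * 2457 := by rw [hG]; norm_num
  have h1 := mem_divisors_filter (by norm_num) (card_sylow_mem (p := 409) hfac (by norm_num))
  rw [show (Nat.divisors 2457).filter (fun d => d % 409 = 1) = {1, 819} by decide +kernel] at h1
  have h2 := card_sylow_ne_one (p := 409) hfac (by norm_num) (by norm_num) (by norm_num)
  have n409 : Nat.card (Sylow 409 G) = 819 := by
    simp only [Finset.mem_insert, Finset.mem_singleton] at h1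
    rcases h1 with h | h
    · exact absurd h h2
    · exact h
  -- n_7 = 47853
  have hfac7 : Nat.card G = 7 ^ 1 * 143559 := by rw [hG]; norm_num
  have n7 : Nat.card (Sylow 7 G) = 47853 := by
    obtain ⟨t, ht, ht6, htn⟩ := exists_prime_of_sylow_prime (s := 7) hfac7 (by norm_num) (by norm_num)
    have ht3 : t = 3 := by
      have h6 : t ∣ 2 * 3 := by simpa using ht6
      rcases (Nat.Prime.dvd_mul ht).mp h6 with h | h
      · have h2 : t = 2 := (Nat.prime_dvd_prime_iff_eq ht (by norm_num)).mp h
        exfalso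
        rw [h2] at htn
        have : 2 ∣ 143559 := Dvd.dvd.trans (Dvd.intro _ rfl) htn
        omega
      · exact (Nat.prime_dvd_prime_iff_eq ht (by norm_num)).mp h
    rw [ht3] at htn
    have hd : Nat.card (Sylow 7 G) ∣ 47853 := by
      have : 3 * Nat.card (Sylow 7 G) ∣ 3 * 47853 := by simpa using htn
      exact Nat.dvd_of_mul_dvd_mul_left (by norm_num) this
    have h1 := mem_divisors_filter (by norm_num) ⟨hd, (card_sylow_mem (p := 7) hfac7 (by norm_num)).2⟩
    rw [show (Nat.divisors 47853).filter (fun d => d % 7 = 1) = {1, 47853} by decide +kernel] at h1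
    have h2 := card_sylow_ne_one (p := 7) hfac7 (by norm_num) (by norm_num) (by norm_num)
    simp only [Finset.mem_insert, Finset.mem_singleton] at h1
    rcases h1 with h | h
    · exact absurd h h2
    · exact h
  -- n_13 = 25767
  have hfac13 : Nat.card G = 13 ^ 1 * 77301 := by rw [hG]; norm_num
  have n13 : Nat.card (Sylow 13 G) = 25767 := by
    obtain ⟨t, ht, ht6, htn⟩ := exists_prime_of_sylow_prime (s := 13) hfac13 (by norm_num) (by norm_num)
    have ht3 : t = 3 := by
      have h6 : t ∣ 2 * (2 * 3) := by simpa using ht6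
      have hodd : t ≠ 2 := by
        intro h2
        rw [h2] at htn
        have : 2 ∣ 77301 := Dvd.dvd.trans (Dvd.intro _ rfl) htn
        omega
      rcases (Nat.Prime.dvd_mul ht).mp h6 with h | h
      · exact absurd ((Nat.prime_dvd_prime_iff_eq ht (by norm_num)).mp h) hodd
      · rcases (Nat.Prime.dvd_mul ht).mp h with h | h
        · exact absurd ((Nat.prime_dvd_prime_iff_eq ht (by norm_num)).mp h) hodd
        · exact (Nat.prime_dvd_prime_iff_eq ht (by norm_num)).mp h
    rw [ht3] at htn
    have hd : Nat.card (Sylow 13 G) ∣ 25767 := by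
      have : 3 * Nat.card (Sylow 13 G) ∣ 3 * 25767 := by simpa using htn
      exact Nat.dvd_of_mul_dvd_mul_left (by norm_num) this
    have h1 := mem_divisors_filter (by norm_num) ⟨hd, (card_sylow_mem (p := 13) hfac13 (by norm_num)).2⟩
    rw [show (Nat.divisors 25767).filter (fun d => d % 13 = 1) = {1, 25767} by decide +kernel] at h1
    have h2 := card_sylow_ne_one (p := 13) hfac13 (by norm_num) (by norm_num) (by norm_num)
    simp only [Finset.mem_insert, Finset.mem_singleton] at h1
    rcases h1 with h | h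
    · exact absurd h h2
    · exact h
  -- the normalizer of a Sylow 409-subgroup
  obtain ⟨Q⟩ : Nonempty (Sylow 409 G) := inferInstance
  have hQ : Nat.card ↥(Q : Subgroup G) = 409 := by simpa using (sylow_card_index Q hfac (by norm_num)).1
  have hN := card_sylow_mul_card_normalizer Q
  rw [n409, hG] at hN
  have hN' : Nat.card ↥(Subgroup.normalizer ((Q : Subgroup G) : Set G)) = 1227 := by omega
  set N := Subgroup.normalizer ((Q : Subgroup G) : Set G) with hNdef
  -- an element of order 3 in the normalizer
  obtain ⟨x', hx'⟩ := exists_prime_orderOf_dvd_card' (G := ↥N) 3 (by rw [hN']; norm_num)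
  set x : G := (x' : G) with hxdef
  have hx3 : orderOf x = 3 := (Subgroup.orderOf_coe x').trans hx'
  have hxN : x ∈ N := x'.2
  -- it does not centralize any nontrivial element of Q
  have hnc : ∀ q : G, q ∈ (Q : Subgroup G) → q ≠ 1 → q * x ≠ x * q := by
    intro q hq hq1 hcomm
    obtain ⟨r1, r2, r3⟩ := sylow_prime_relIndex Q hQ (by rw [hG]; norm_num)
    rw [← hNdef, hN'] at r3
    rw [← hNdef] at r1 r2
    set r := (Subgroup.centralizer ((Q : Subgroup G) : Set G)).relIndex N with hr
    have r4 : r ∣ 3 := by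
      have : r * 409 ∣ 3 * 409 := by simpa using r3
      exact Nat.dvd_of_mul_dvd_mul_right (by norm_num) this
    have r5 : r = 3 := by
      rcases (Nat.dvd_prime (by norm_num)).mp r4 with h | h
      · exact absurd h r1
      · exact h
    have hCN : Subgroup.centralizer ((Q : Subgroup G) : Set G) ≤ N := Subgroup.centralizer_le_normalizer _
    have hC := ((Subgroup.centralizer ((Q : Subgroup G) : Set G)).subgroupOf N).index_mul_card
    rw [card_subgroupOf_of_le hCN, ← Subgroup.relIndex, ← hr, r5, hN'] at hC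
    have hC' : Nat.card ↥(Subgroup.centralizer ((Q : Subgroup G) : Set G)) = 409 := by omega
    have hqo : orderOf q = 409 := by
      have h2 : orderOf q ∣ 409 := by
        have := orderOf_dvd_natCard (⟨q, hq⟩ : ↥(Q : Subgroup G))
        rw [hQ] at this
        rwa [← Subgroup.orderOf_coe] at this
      rcases (Nat.dvd_prime (by norm_num)).mp h2 with h3 | h3
      · rw [orderOf_eq_one_iff] at h3; exact absurd h3 hq1
      · exact h3
    have hz := Cfsg.Agent.S1018.zpowers_eq_sylow Q hQ q hqo hq
    have hxC : x ∈ Subgroup.centralizer ((Q : Subgroup G) : Set G) := by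
      rw [Subgroup.mem_centralizer_iff]
      intro h hh
      have hh' : h ∈ Subgroup.zpowers q := by rw [hz]; exact hh
      obtain ⟨k, rfl⟩ := Subgroup.mem_zpowers_iff.mp hh'
      have hc : Commute q x := hcomm
      exact (hc.zpow_left k)
    have h3 := orderOf_dvd_natCard (⟨x, hxC⟩ : ↥(Subgroup.centralizer ((Q : Subgroup G) : Set G)))
    rw [hC', ← Subgroup.orderOf_coe] at h3
    simp only at h3
    rw [hx3] at h3
    omega
  have hxC : x ∉ Subgroup.centralizer ((Q : Subgroup G) : Set G) := by
    intro hxC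
    rw [Subgroup.mem_centralizer_iff] at hxC
    obtain ⟨q', hq'⟩ := exists_prime_orderOf_dvd_card' (G := ↥(Q : Subgroup G)) 409 (by rw [hQ])
    refine hnc (q' : G) q'.2 ?_ (hxC _ q'.2)
    intro h
    have h5 : orderOf (q' : G) = 409 := (Subgroup.orderOf_coe q').trans hq'
    rw [h, orderOf_one] at h5
    omega
  -- the number of fixed points of x
  have hfix := (Cfsg.Agent.S1018.result 409 Q hQ).2 x hxN hxC
  have hk := card_orbits_sylow Q hQ
  rw [n409] at hk
  rw [← hNdef] at hfix hk
  have hfix3 : Nat.card (MulAction.fixedBy (G ⧸ N) x) ≤ 3 := by omega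
  -- the class of x
  have hcl := Cfsg.Agent.S1019.result N x hxN
  have hidx : N.index = 819 := by
    rw [← n409]; exact (Q.card_eq_index_normalizer).symm
  rw [hidx] at hcl
  have hge : 409 ≤ Nat.card {g : G // IsConj x g ∧ g ∈ N} := by
    rw [← hQ]
    apply Nat.card_le_card_of_injective
      (fun q : ↥(Q : Subgroup G) => (⟨(q : G) * x * (q : G)⁻¹, isConj_iff.mpr ⟨q, rfl⟩,
        N.mul_mem (N.mul_mem (Subgroup.le_normalizer q.2) hxN) (N.inv_mem (Subgroup.le_normalizer q.2))⟩ :
        {g : G // IsConj x g ∧ g ∈ N}))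
    intro a b hab
    have h1 : (a : G) * x * (a : G)⁻¹ = (b : G) * x * (b : G)⁻¹ :=
      congrArg (fun z : {g : G // IsConj x g ∧ g ∈ N} => z.1) hab
    by_contra hne
    apply hnc ((b : G)⁻¹ * (a : G)) ((Q : Subgroup G).mul_mem ((Q : Subgroup G).inv_mem b.2) a.2)
    · intro h
      apply hne
      apply Subtype.ext
      rw [inv_mul_eq_one] at h
      exact h.symm
    · calc (b : G)⁻¹ * (a : G) * x = (b : G)⁻¹ * ((a : G) * x * (a : G)⁻¹) * (a : G) := by group
        _ = (b : G)⁻¹ * ((b : G) * x * (b : G)⁻¹) * (a : G) := by rw [h1]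
        _ = x * ((b : G)⁻¹ * (a : G)) := by group
  have hclass : 111657 ≤ Nat.card {g : G // IsConj x g} := by
    by_contra hlt
    push Not at hlt
    have h1 : Nat.card (MulAction.fixedBy (G ⧸ N) x) * Nat.card {g : G // IsConj x g} ≤ 3 * 111656 :=
      Nat.mul_le_mul hfix3 (by omega)
    have h2 : 819 * 409 ≤ 819 * Nat.card {g : G // IsConj x g ∧ g ∈ N} := Nat.mul_le_mul_left _ hge
    omega
  have ho3 := card_conj_le_card_orderOf x
  rw [hx3] at ho3
  -- counting
  obtain ⟨P7⟩ : Nonempty (Sylow 7 G) := inferInstance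
  have hP7 : Nat.card ↥(P7 : Subgroup G) = 7 := by simpa using (sylow_card_index P7 hfac7 (by norm_num)).1
  obtain ⟨P13⟩ : Nonempty (Sylow 13 G) := inferInstance
  have hP13 : Nat.card ↥(P13 : Subgroup G) = 13 := by simpa using (sylow_card_index P13 hfac13 (by norm_num)).1
  have c409 := card_orderOf_eq_prime Q hQ
  have c7 := card_orderOf_eq_prime P7 hP7
  have c13 := card_orderOf_eq_prime P13 hP13
  rw [n409] at c409
  rw [n7] at c7
  rw [n13] at c13
  have hsum := sum_card_orderOf_le (G := G) {3, 7, 13, 409}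
  rw [Finset.sum_insert (by decide), Finset.sum_insert (by decide), Finset.sum_insert (by decide),
    Finset.sum_singleton, c409, c7, c13, hG] at hsum
  omega

end Cfsg.Agent.S1002
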