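import Mathlib
import Cfsg.Statements.S1009

set_option autoImplicit false
open Cfsg

namespace Cfsg.Agent.S1009

lemma mem_smul_sylow {G : Type*} [Group G] {p : ℕ} (g x : G) (P : Sylow p G) :
    x ∈ ((g • P : Sylow p G) : Subgroup G) ↔ g⁻¹ * x * g ∈ (P : Subgroup G) := by
  rw [Sylow.coe_subgroup_smul, Subgroup.mem_pointwise_smul_iff_inv_smul_mem]
  simp [MulAut.smul_def]

/-- Brodkey's Theorem: if a finite group has abelian Sylow p-subgroups, then there are two Sylow p-subgroups whose intersection equals the intersection of all Sylow p-subgroups. -/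
theorem result {G : Type*} [Group G] [Finite G] (p : ℕ) [Fact p.Prime] (hab : ∀ P : Sylow p G, IsMulCommutative ↥(P : Subgroup G)) : ∃ P Q : Sylow p G, (P : Subgroup G) ⊓ (Q : Subgroup G) = ⨅ R : Sylow p G, (R : Subgroup G) := by
  classical
  obtain ⟨⟨P, Q⟩, hmin⟩ := Finite.exists_min (fun PQ : Sylow p G × Sylow p G => Nat.card ↥((PQ.1 : Subgroup G) ⊓ (PQ.2 : Subgroup G)))
  refine ⟨P, Q, le_antisymm ?_ ?_⟩
  swap
  · exact le_inf (iInf_le _ P) (iInf_le _ Q)
  have hcomm : ∀ (S : Sylow p G) (a b : G), a ∈ (S : Subgroup G) → b ∈ (S : Subgroup G) → a * b = b * a := by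
    intro S a b ha hb
    have := (hab S).is_comm.comm ⟨a, ha⟩ ⟨b, hb⟩
    exact congrArg Subtype.val this
  set D := (P : Subgroup G) ⊓ Q with hD
  set N := Subgroup.normalizer (D : Set G) with hN
  have hPN : (P : Subgroup G) ≤ N := by
    rw [hN, Subgroup.le_normalizer_iff]
    intro h hh k hk
    rw [hcomm P h k hh hk.1, mul_inv_cancel_right]
    exact hk
  have hQN : (Q : Subgroup G) ≤ N := by
    rw [hN, Subgroup.le_normalizer_iff]
    intro h hh k hk
    rw [hcomm Q h k hh hk.2, mul_inv_cancel_right]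
    exact hk
  intro x hx
  rw [Subgroup.mem_iInf]
  intro R
  have hpg : IsPGroup p ↥((R : Subgroup G).subgroupOf N) := R.2.comap_subtype
  obtain ⟨S, hS⟩ := hpg.exists_le_sylow
  obtain ⟨n, hn⟩ := MulAction.exists_smul_eq N (P.subtype hPN) S
  have key : ∀ y : G, y ∈ (R : Subgroup G) → y ∈ N → (n : G)⁻¹ * y * n ∈ (P : Subgroup G) := by
    intro y hyR hyN
    have h1 : (⟨y, hyN⟩ : N) ∈ (S : Subgroup N) := hS (Subgroup.mem_subgroupOf.mpr hyR)
    rw [← hn, mem_smul_sylow, Sylow.coe_subtype, Subgroup.mem_subgroupOf] at h1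
    simpa using h1
  let R' : Sylow p G := (n : G)⁻¹ • R
  have hle : (R' : Subgroup G) ⊓ Q ≤ D := by
    intro z hz
    refine ⟨?_, hz.2⟩
    have h1 : (n : G) * z * (n : G)⁻¹ ∈ (R : Subgroup G) := by
      have := (mem_smul_sylow (n : G)⁻¹ z R).mp hz.1
      simpa using this
    have h2 : (n : G) * z * (n : G)⁻¹ ∈ N := N.mul_mem (N.mul_mem n.2 (hQN hz.2)) (N.inv_mem n.2)
    have h3 := key _ h1 h2
    have h4 : (n : G)⁻¹ * ((n : G) * z * (n : G)⁻¹) * n = z := by group
    rw [h4] at h3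
    exact h3
  have hcard : Nat.card D ≤ Nat.card ↥((R' : Subgroup G) ⊓ Q) := hmin (R', Q)
  have heq : (R' : Subgroup G) ⊓ Q = D := Subgroup.eq_of_le_of_card_ge hle hcard
  -- n x n⁻¹ ∈ D
  have hx' : (n : G)⁻¹ * x * (n : G) ∈ D := by
    have hn' : (n : G)⁻¹ ∈ N := N.inv_mem n.2
    have := (Subgroup.mem_normalizer_iff.mp hn' x).mp hx
    simpa using this
  rw [← heq] at hx'
  have := (mem_smul_sylow (n : G)⁻¹ _ R).mp hx'.1
  simpa [mul_assoc] using this

end Cfsg.Agent.S1009
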