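import Cfsg.Statements.S1010
import Cfsg.Agent.S0215
import Cfsg.Agent.S4303
import Cfsg.Agent.S1009
import Cfsg.Agent.Lib.Helper21.Syl21

set_option autoImplicit false
open Cfsg

namespace Cfsg.Agent.S1010

open MulAction Subgroup
open Cfsg.Agent.Lib.Helper21.Syl21
open scoped commutatorElement

theorem commutator_le_of_index_dvd {W : Type*} [Group W] [Finite W] {p : ℕ} [Fact p.Prime]
    (hW : IsPGroup p W) (H : Subgroup W) (hH : H.index ∣ p) : commutator W ≤ H := by
  have hp : p.Prime := Fact.out
  rcases (Nat.dvd_prime hp).mp hH with h1 | h1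
  · rw [Subgroup.index_eq_one.mp h1]; exact le_top
  · obtain ⟨n, hn⟩ := hW.exists_card_eq
    have hn0 : n ≠ 0 := by
      rintro rfl
      have : H.index ∣ Nat.card W := Subgroup.index_dvd_card H
      rw [hn, pow_zero, h1] at this
      exact hp.one_lt.ne' (Nat.dvd_one.mp this)
    have hN : H.Normal :=
      Subgroup.normal_of_index_eq_minFac_card (by rw [h1, hn, hp.pow_minFac hn0])
    rw [← Subgroup.Normal.quotient_commutative_iff_commutator_le]
    have hc : Nat.card (W ⧸ H) = p := by rw [← Subgroup.index_eq_card, h1]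
    have := isCyclic_of_prime_card hc
    exact IsCyclic.isMulCommutative

section Simple
variable {G : Type*} [Group G] [Finite G]

omit [Finite G] in
theorem sylow_eq_of_fix (W Q : Sylow 5 G) (hg : ∀ g ∈ W, g • Q = Q) : Q = W := by
  have h1 : Q ∈ fixedPoints (W : Subgroup G) (Sylow 5 G) := by
    intro g
    exact hg g g.2
  have h2 : (W : Subgroup G) ≤ Q := W.2.sylow_mem_fixedPoints_iff.mp h1
  exact Sylow.ext (W.3 Q.2 h2)

theorem faithful [IsSimpleGroup G] (h21 : Nat.card (Sylow 5 G) = 21) (g : G)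
    (hg : ∀ Q : Sylow 5 G, g • Q = Q) : g = 1 := by
  have hK : (toPermHom G (Sylow 5 G)).ker.Normal := inferInstance
  rcases hK.eq_bot_or_eq_top with hb | ht
  · have : g ∈ (toPermHom G (Sylow 5 G)).ker := by
      rw [MonoidHom.mem_ker]
      ext Q : 1
      exact hg Q
    rw [hb] at this
    exact Subgroup.mem_bot.mp this
  · exfalso
    have hfix : ∀ (g : G) (Q : Sylow 5 G), g • Q = Q := by
      intro g Q
      have : g ∈ (toPermHom G (Sylow 5 G)).ker := ht ▸ Subgroup.mem_top g
      rw [MonoidHom.mem_ker] at this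
      exact congrArg (fun σ : Equiv.Perm (Sylow 5 G) => σ Q) this
    have : Subsingleton (Sylow 5 G) := ⟨fun Q R => by
      obtain ⟨g, rfl⟩ := exists_smul_eq G Q R
      exact (hfix g Q).symm⟩
    have := Finite.card_le_one_iff_subsingleton.mpr this
    omega

theorem card_ge (h21 : Nat.card (Sylow 5 G) = 21) : 21 ∣ Nat.card G := by
  obtain ⟨P⟩ : Nonempty (Sylow 5 G) := inferInstance
  rw [← h21, P.card_eq_index_normalizer]
  exact Subgroup.index_dvd_card _

theorem even_action [IsSimpleGroup G] [Fintype (Sylow 5 G)] [DecidableEq (Sylow 5 G)]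
    (h21 : Nat.card (Sylow 5 G) = 21) (g : G) :
    Equiv.Perm.sign (toPerm g : Equiv.Perm (Sylow 5 G)) = 1 := by
  set φ : G →* ℤˣ := Equiv.Perm.sign.comp (toPermHom G (Sylow 5 G)) with hφ
  have hK : φ.ker.Normal := inferInstance
  rcases hK.eq_bot_or_eq_top with hb | ht
  · exfalso
    have h1 := Nat.card_le_card_of_injective φ ((MonoidHom.ker_eq_bot_iff φ).mp hb)
    rw [Nat.card_eq_fintype_card (α := ℤˣ), Fintype.card_units_int] at h1
    have h2 := Nat.le_of_dvd Nat.card_pos (card_ge (G := G) h21)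
    omega
  · have : g ∈ φ.ker := ht ▸ Subgroup.mem_top g
    exact this

theorem orbit_card_dvd (h21 : Nat.card (Sylow 5 G) = 21) (W Q : Sylow 5 G) :
    (stabilizer (W : Subgroup G) Q).index ∣ 5 := by
  obtain ⟨n, hn⟩ := W.2.card_orbit Q
  rw [index_stabilizer, ← Nat.card_coe_set_eq, hn]
  have hle : Nat.card (orbit (W : Subgroup G) Q) ≤ 21 := by
    rw [← h21]
    exact Nat.card_le_card_of_injective _ Subtype.val_injective
  rw [hn] at hle
  have hn1 : n ≤ 1 := by
    by_contra hlt
    have : 5 ^ 2 ≤ 5 ^ n := Nat.pow_le_pow_right (by norm_num) (by omega)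
    omega
  exact pow_dvd_pow 5 hn1

theorem sylow_comm [IsSimpleGroup G] (h21 : Nat.card (Sylow 5 G) = 21) (W : Sylow 5 G) (x y : G)
    (hx : x ∈ W) (hy : y ∈ W) : x * y = y * x := by
  have h1 : x * y * x⁻¹ * y⁻¹ = 1 := by
    apply faithful h21
    intro Q
    have hc := commutator_le_of_index_dvd W.2 (stabilizer (W : Subgroup G) Q)
      (orbit_card_dvd h21 W Q)
    have hm : ⁅(⟨x, hx⟩ : (W : Subgroup G)), ⟨y, hy⟩⁆ ∈ commutator (W : Subgroup G) :=
      Subgroup.commutator_mem_commutator (Subgroup.mem_top _) (Subgroup.mem_top _)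
    have := hc hm
    rw [mem_stabilizer_iff] at this
    exact this
  have h2 : x * y = (x * y * x⁻¹ * y⁻¹) * (y * x) := by group
  rw [h2, h1, one_mul]

theorem card_sylow_five [IsSimpleGroup G] (h21 : Nat.card (Sylow 5 G) = 21) (W : Sylow 5 G) :
    Nat.card W = 5 := by
  obtain ⟨P, Q, hPQ⟩ := Cfsg.Agent.S1009.result (G := G) 5
    (fun P => ⟨⟨fun a b => Subtype.ext (sylow_comm h21 P a b a.2 b.2)⟩⟩)
  have hbot : (⨅ R : Sylow 5 G, (R : Subgroup G)) = ⊥ := by
    rw [eq_bot_iff]
    intro g hg
    rw [Subgroup.mem_bot]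
    apply faithful h21
    intro R
    rw [Sylow.smul_eq_iff_mem_normalizer]
    exact le_normalizer ((Subgroup.mem_iInf.mp hg) R)
  rw [hbot] at hPQ
  have hinj : Function.Injective (fun x : (P : Subgroup G) => (x : G) • Q) := by
    intro x y hxy
    have h1 : ((y : G)⁻¹ * x) • Q = Q := by
      rw [mul_smul]
      show (y : G)⁻¹ • ((x : G) • Q) = Q
      rw [show (x : G) • Q = (y : G) • Q from hxy, inv_smul_smul]
    rw [Sylow.smul_eq_iff_mem_normalizer] at h1
    have h2 : ((y : G)⁻¹ * x) ∈ (P : Subgroup G) ⊓ normalizer (Q : Set G) :=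
      ⟨(P : Subgroup G).mul_mem ((P : Subgroup G).inv_mem y.2) x.2, h1⟩
    rw [P.2.inf_normalizer_sylow Q, hPQ, Subgroup.mem_bot] at h2
    exact Subtype.ext (inv_mul_eq_one.mp h2).symm
  have hle := Nat.card_le_card_of_injective _ hinj
  rw [h21] at hle
  obtain ⟨n, hn⟩ := P.2.exists_card_eq
  have hWP : Nat.card W = Nat.card P := by
    rw [Sylow.card_eq_multiplicity, Sylow.card_eq_multiplicity]
  rw [hWP, hn]
  rw [hn] at hle
  have hn1 : n ≤ 1 := by
    by_contra hlt
    have : 5 ^ 2 ≤ 5 ^ n := Nat.pow_le_pow_right (by norm_num) (by omega)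
    omega
  have hn0 : n ≠ 0 := by
    rintro rfl
    rw [pow_zero] at hn
    have hall : ∀ R : Sylow 5 G, (R : Subgroup G) = ⊥ := by
      intro R
      have : Nat.card R = 1 := by
        rw [← hn, Sylow.card_eq_multiplicity, Sylow.card_eq_multiplicity]
      exact Subgroup.card_eq_one.mp this
    have : Subsingleton (Sylow 5 G) := ⟨fun Q R => Sylow.ext ((hall Q).trans (hall R).symm)⟩
    have := Finite.card_le_one_iff_subsingleton.mpr this
    omega
  have : n = 1 := by omega
  rw [this, pow_one]

theorem setup [IsSimpleGroup G] [Fintype (Sylow 5 G)] [DecidableEq (Sylow 5 G)]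
    (h21 : Nat.card (Sylow 5 G) = 21) (P : Sylow 5 G) :
    Setup G (Sylow 5 G) (P : Subgroup G) P where
  card := by rw [← Nat.card_eq_fintype_card]; exact h21
  faithful := faithful h21
  even := even_action h21
  stab := fun g => Sylow.smul_eq_iff_mem_normalizer
  cardP := card_sylow_five h21 P
  fix := by
    intro x hx hx1 Q hQ
    apply sylow_eq_of_fix
    intro g hg
    have h1 : (⟨g, hg⟩ : (P : Subgroup G)) ∈ zpowers (⟨x, hx⟩ : (P : Subgroup G)) :=
      mem_zpowers_of_prime_card (card_sylow_five h21 P) (fun h' => hx1 (congrArg Subtype.val h'))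
    obtain ⟨k, hk⟩ := h1
    have hk' : x ^ k = g := by simpa using congrArg Subtype.val hk
    rw [← hk']
    have hst : x ∈ stabilizer G Q := hQ
    exact (stabilizer G Q).zpow_mem hst k

theorem simple_case [IsSimpleGroup G] (h21 : Nat.card (Sylow 5 G) = 21) : False := by
  classical
  have := Fintype.ofFinite (Sylow 5 G)
  obtain ⟨S⟩ : Nonempty (Sylow 2 G) := inferInstance
  obtain ⟨P, hP⟩ := S.2.nonempty_fixed_point_of_prime_not_dvd_card (Sylow 5 G)
    (by rw [h21]; norm_num)
  have hSa : ∀ s ∈ (S : Subgroup G), s • P = P := fun s hs => hP ⟨s, hs⟩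
  have h := setup h21 P
  by_cases hSC : ∀ s ∈ (S : Subgroup G), ∀ x ∈ (P : Subgroup G), s * x = x * s
  · -- Burnside transfer
    have hSle : (S : Subgroup G) ≤ centralizer ((P : Subgroup G) : Set G) := by
      intro s hs
      rw [mem_centralizer_iff]
      intro x hx
      exact (hSC s hs x hx).symm
    have hcyc : IsCyclic (P : Subgroup G) := isCyclic_of_prime_card h.cardP
    have hNC : normalizer ((P : Subgroup G) : Set G) ≤ centralizer ((P : Subgroup G) : Set G) := by
      have key := card_dvd_of_injective _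
        (QuotientGroup.kerLift_injective (P : Subgroup G).normalizerMonoidHom)
      rw [normalizerMonoidHom_ker, ← index, ← relIndex, hcyc.card_mulAut, h.cardP,
        Nat.totient_prime (by norm_num)] at key
      have h1 : (centralizer ((P : Subgroup G) : Set G)).relIndex
          (normalizer ((P : Subgroup G) : Set G)) ∣ (S : Subgroup G).index := by
        have h2 := Subgroup.relIndex_mul_index
          (Subgroup.centralizer_le_normalizer ((P : Subgroup G) : Set G))
        exact (Dvd.intro _ h2).trans (Subgroup.index_dvd_of_le hSle)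
      have hodd : Nat.Coprime (S : Subgroup G).index (5 - 1) := by
        have : ¬ 2 ∣ (S : Subgroup G).index := S.not_dvd_index
        have h3 : Nat.Coprime (S : Subgroup G).index 2 :=
          ((Nat.Prime.coprime_iff_not_dvd Nat.prime_two).mpr this).symm
        exact Nat.Coprime.pow_right 2 h3
      exact relIndex_eq_one.mp (Nat.eq_one_of_dvd_coprimes hodd h1 key)
    have hK : (MonoidHom.transferSylow P hNC).ker.Normal := inferInstance
    have hidx : (MonoidHom.transferSylow P hNC).ker.index = 5 := by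
      rw [(MonoidHom.ker_transferSylow_isComplement' P hNC).symm.index_eq_card, h.cardP]
    rcases hK.eq_bot_or_eq_top with hb | ht
    · rw [hb, Subgroup.index_bot] at hidx
      have := Nat.le_of_dvd Nat.card_pos (card_ge (G := G) h21)
      omega
    · rw [ht, Subgroup.index_top] at hidx
      norm_num at hidx
  · obtain ⟨u, huS, hu, hiso⟩ := h.exists_isolated (S : Subgroup G) S.2 hSa hSC
    obtain ⟨N, hN, hodd, hcomm⟩ := Cfsg.Agent.S0215.result S u hu huS hiso
    rcases hN.eq_bot_or_eq_top with hb | ht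
    · have hcen : ∀ g : G, u * g = g * u := by
        intro g
        have := hcomm g
        rw [hb, Subgroup.mem_bot] at this
        have h2 : u * g = (u * g * u⁻¹ * g⁻¹) * (g * u) := by group
        rw [h2, this, one_mul]
      have hu1 : u = 1 := by
        apply faithful h21
        intro Q
        obtain ⟨g, rfl⟩ := exists_smul_eq G P Q
        rw [smul_smul, hcen g, mul_smul, hSa u huS]
      rw [hu1, orderOf_one] at hu
      norm_num at hu
    · rw [ht, Subgroup.card_top] at hodd
      have h2 : 2 ∣ Nat.card G := hu ▸ orderOf_dvd_natCard u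
      exact (Nat.not_even_iff_odd.mpr hodd) (even_iff_two_dvd.mpr h2)

end Simple

/-- No finite group has exactly twenty-one Sylow 5-subgroups. -/
theorem result {G : Type*} [Group G] [Finite G] : Nat.card (Sylow 5 G) ≠ 21 := by
  intro h21
  obtain ⟨l, hprod, hl⟩ := Cfsg.Agent.S4303.result (G := G) 5
  rw [h21] at hprod
  have hmod : ∀ m ∈ l, m % 5 = 1 := by
    intro m hm
    rcases hl m hm with ⟨_, h⟩ | ⟨S, _, _, _, h⟩
    · exact h
    · rw [h]; exact card_sylow_modEq_one 5 S
  have hdvd : ∀ m ∈ l, m ∣ 21 := fun m hm => hprod ▸ List.dvd_prod hm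
  have hex : ∃ m ∈ l, m = 21 := by
    by_contra hno
    push Not at hno
    have hone : ∀ m ∈ l, m = 1 := by
      intro m hm
      have h1 := hmod m hm
      have h2 := hdvd m hm
      have h3 := hno m hm
      have h4 : m ≤ 21 := Nat.le_of_dvd (by norm_num) h2
      interval_cases m <;> first | rfl | omega
    rw [List.prod_eq_one hone] at hprod
    norm_num at hprod
  obtain ⟨m, hm, rfl⟩ := hex
  rcases hl 21 hm with ⟨hpp, _⟩ | ⟨S, _, _, hS, h⟩
  · obtain ⟨p, k, hp, _, hpk⟩ := hpp
    have hp' : p.Prime := hp.nat_prime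
    have h3 : 3 ∣ p := Nat.Prime.dvd_of_dvd_pow Nat.prime_three (hpk ▸ (by norm_num : 3 ∣ 21))
    have h7 : 7 ∣ p := Nat.Prime.dvd_of_dvd_pow (by norm_num : Nat.Prime 7)
      (hpk ▸ (by norm_num : 7 ∣ 21))
    have e3 := (Nat.prime_dvd_prime_iff_eq Nat.prime_three hp').mp h3
    have e7 := (Nat.prime_dvd_prime_iff_eq (by norm_num : Nat.Prime 7) hp').mp h7
    omega
  · exact simple_case h.symm

end Cfsg.Agent.S1010
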