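import Mathlib
import Cfsg.Statements.S1013
import Cfsg.Agent.Lib.Helper17.Basic

set_option autoImplicit false
open Cfsg

namespace Cfsg.Agent.S1013

open Cfsg.Agent.Lib.Helper17

/-- nontrivial normal subgroups of a faithful transitive group of prime degree are transitive, and
so have order divisible by `p`. -/
lemma dvd_card_of_normal {H α : Type*} [Group H] [Finite H] [MulAction H α] {p : ℕ} (hp : p.Prime)
    (hα : Nat.card α = p) [MulAction.IsPretransitive H α]
    (hf : ∀ h : H, (∀ a : α, h • a = a) → h = 1) (N : Subgroup H) [N.Normal] (hN : N ≠ ⊥) :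
    MulAction.IsPretransitive N α ∧ p ∣ Nat.card N := by
  have hprim : MulAction.IsPreprimitive H α := MulAction.IsPreprimitive.of_prime_card (hα ▸ hp)
  have hfix : MulAction.fixedPoints N α ≠ Set.univ := by
    intro h
    apply hN
    rw [eq_bot_iff]
    intro n hn
    rw [Subgroup.mem_bot]
    apply hf
    intro a
    have : a ∈ MulAction.fixedPoints N α := h ▸ Set.mem_univ a
    exact this ⟨n, hn⟩
  have htr : MulAction.IsPretransitive N α :=
    MulAction.IsQuasiPreprimitive.isPretransitive_of_normal hfix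
  refine ⟨htr, ?_⟩
  have hne : Nonempty α := by
    have : Nat.card α ≠ 0 := by rw [hα]; exact hp.ne_zero
    exact (Nat.card_ne_zero.mp this).1
  obtain ⟨a⟩ := hne
  have := MulAction.index_stabilizer_of_transitive N a
  rw [hα] at this
  rw [← this]
  exact Subgroup.index_dvd_card _

/-- Let G be a transitive permutation group of prime degree p having more than one Sylow p-subgroup, and suppose a Sylow p-subgroup P has prime index in its normalizer. Then G is simple. -/
theorem result {α : Type*} [Fintype α] [DecidableEq α] {p : ℕ} [Fact p.Prime] (hα : Fintype.card α = p) (G : Subgroup (Equiv.Perm α)) [MulAction.IsPretransitive ↥G α] (P : Sylow p ↥G) (hn : 1 < Nat.card (Sylow p ↥G)) (ht : (((P : Subgroup ↥G).subgroupOf (Subgroup.normalizer ((P : Subgroup ↥G) : Set ↥G))).index).Prime) : IsSimpleGroup ↥G := by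
  have hp : p.Prime := Fact.out
  have hα' : Nat.card α = p := by rw [Nat.card_eq_fintype_card, hα]
  have hfG : ∀ h : ↥G, (∀ a : α, h • a = a) → h = 1 := by
    intro h hh
    apply Subtype.ext
    ext a
    exact hh a
  have hne : Nonempty α := by
    have : Nat.card α ≠ 0 := by rw [hα']; exact hp.ne_zero
    exact (Nat.card_ne_zero.mp this).1
  obtain ⟨a₀⟩ := hne
  have hpG : p ∣ Nat.card ↥G := by
    have := MulAction.index_stabilizer_of_transitive ↥G a₀
    rw [hα'] at this
    rw [← this]; exact Subgroup.index_dvd_card _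
  have hGfact : Nat.card ↥G ∣ p.factorial := by
    have := Subgroup.card_subgroup_dvd_card G
    rwa [Nat.card_eq_fintype_card (α := Equiv.Perm α), Fintype.card_perm, hα] at this
  obtain ⟨m, hm⟩ := hpG
  have hpm : ¬ p ∣ m := by
    intro h
    have h1 : p * p ∣ p.factorial := (hm ▸ Nat.mul_dvd_mul_left p h : p * p ∣ Nat.card ↥G).trans hGfact
    rw [← Nat.mul_factorial_pred hp.ne_zero] at h1
    have h2 : p ∣ (p - 1).factorial := Nat.dvd_of_mul_dvd_mul_left hp.pos h1
    have := (hp.dvd_factorial).mp h2
    have := hp.pos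
    omega
  have hfac : Nat.card ↥G = p ^ 1 * m := by rw [pow_one, hm]
  have hPc : Nat.card ↥(P : Subgroup ↥G) = p := by simpa using (sylow_card_index P hfac hpm).1
  have hnt : Nontrivial ↥G := by
    rw [← Finite.one_lt_card_iff_nontrivial]
    have h0 : 0 < Nat.card ↥G := Nat.card_pos
    have : p ≤ Nat.card ↥G := Nat.le_of_dvd h0 ⟨m, hm⟩
    exact lt_of_lt_of_le hp.one_lt this
  refine { toNontrivial := hnt, eq_bot_or_eq_top_of_normal := ?_ }
  intro K hK
  by_cases hKb : K = ⊥
  · left; exact hKb
  right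
  obtain ⟨hKtr, hpK⟩ := dvd_card_of_normal hp hα' hfG K hKb
  have hidx : ¬ p ∣ K.index := by
    intro h
    have h1 : p * p ∣ Nat.card ↥G := by rw [← K.index_mul_card]; exact Nat.mul_dvd_mul h hpK
    rw [hm] at h1
    exact hpm (Nat.dvd_of_mul_dvd_mul_left hp.pos h1)
  have hPK : (P : Subgroup ↥G) ≤ K := by
    intro x hx
    rw [← QuotientGroup.eq_one_iff]
    have h1 : (x : ↥G ⧸ K) ^ p = 1 := by
      have h0 : x ^ p = 1 := by
        have := pow_card_eq_one' (x := (⟨x, hx⟩ : ↥(P : Subgroup ↥G)))
        rw [hPc] at this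
        simpa using congrArg Subtype.val this
      rw [← QuotientGroup.mk_pow, h0, QuotientGroup.mk_one]
    have h2 : (x : ↥G ⧸ K) ^ K.index = 1 := by rw [Subgroup.index_eq_card]; exact pow_card_eq_one'
    have h3 : orderOf (x : ↥G ⧸ K) ∣ Nat.gcd p K.index :=
      Nat.dvd_gcd (orderOf_dvd_of_pow_eq_one h1) (orderOf_dvd_of_pow_eq_one h2)
    rw [(hp.coprime_iff_not_dvd.mpr hidx).gcd_eq_one, Nat.dvd_one, orderOf_eq_one_iff] at h3
    exact h3
  set N := Subgroup.normalizer ((P : Subgroup ↥G) : Set ↥G) with hN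
  have hsup : N ⊔ K = ⊤ := Sylow.normalizer_sup_eq_top' P hPK
  have hrel : K.relIndex N = K.index := by
    rw [← Subgroup.relIndex_sup_right, hsup, Subgroup.relIndex_top_right]
  have hdvd : K.relIndex N ∣ (P : Subgroup ↥G).relIndex N := Subgroup.relIndex_dvd_of_le_left N hPK
  rcases (Nat.dvd_prime ht).mp hdvd with h1 | h1
  · rw [hrel] at h1; exact Subgroup.index_eq_one.mp h1
  · exfalso
    have hPN : (P : Subgroup ↥G) ≤ N := Subgroup.le_normalizer
    have c1 := (K.subgroupOf N).index_mul_card
    have c2 := ((P : Subgroup ↥G).subgroupOf N).index_mul_card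
    rw [card_subgroupOf] at c1
    rw [card_subgroupOf_of_le hPN] at c2
    have h1' : (K.subgroupOf N).index = ((P : Subgroup ↥G).subgroupOf N).index := h1
    rw [h1', ← c2] at c1
    have c3 : Nat.card ↥(K ⊓ N : Subgroup ↥G) = Nat.card ↥(P : Subgroup ↥G) :=
      Nat.eq_of_mul_eq_mul_left ht.pos c1
    have hKN : (P : Subgroup ↥G) = K ⊓ N := Subgroup.eq_of_le_of_card_ge (le_inf hPK hPN) c3.le
    -- Burnside inside K
    let P' : Sylow p ↥K := P.subtype hPK
    have hP'c : Nat.card ↥(P' : Subgroup ↥K) = p := by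
      rw [Sylow.coe_subtype, card_subgroupOf_of_le hPK, hPc]
    have hcyc : IsCyclic ↥(P' : Subgroup ↥K) := isCyclic_of_prime_card hP'c
    have hcomm : IsMulCommutative ↥(P' : Subgroup ↥K) := ⟨⟨fun a b => by
        letI := hcyc.commGroup
        exact mul_comm a b⟩⟩
    have hNC : Subgroup.normalizer ((P' : Subgroup ↥K) : Set ↥K) ≤ Subgroup.centralizer ((P' : Subgroup ↥K) : Set ↥K) := by
      intro x hx
      have hx1 : x ∈ (P' : Subgroup ↥K) := by
        rw [Sylow.coe_subtype, ← Subgroup.subgroupOf_normalizer_eq hPK, Subgroup.mem_subgroupOf] at hx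
        rw [Sylow.coe_subtype, Subgroup.mem_subgroupOf, hKN]
        exact ⟨x.2, hx⟩
      exact Subgroup.le_centralizer _ hx1
    have hcompl := MonoidHom.ker_transferSylow_isComplement' P' hNC
    have hnd := MonoidHom.not_dvd_card_ker_transferSylow P' hNC
    set L := (MonoidHom.transferSylow P' hNC).ker with hL
    have hLn : L.Normal := MonoidHom.normal_ker _
    have hfK : ∀ h : ↥K, (∀ a : α, h • a = a) → h = 1 := by
      intro h hh
      apply Subtype.ext
      exact hfG h.1 hh
    have hLb : L = ⊥ := by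
      by_contra hLb
      exact hnd (dvd_card_of_normal hp hα' hfK L hLb).2
    have hKc : Nat.card ↥K = p := by
      have := hcompl.card_mul_card
      rw [hLb, hP'c] at this
      simpa using this.symm
    have hPKeq : (P : Subgroup ↥G) = K := Subgroup.eq_of_le_of_card_ge hPK (by rw [hKc, hPc])
    have hPn : (P : Subgroup ↥G).Normal := hPKeq ▸ hK
    have hone : Nat.card (Sylow p ↥G) = 1 := by
      rw [P.card_eq_index_normalizer]
      have : Subgroup.normalizer ((P : Subgroup ↥G) : Set ↥G) = ⊤ := Subgroup.normalizer_eq_top_iff.mpr hPn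
      show (Subgroup.normalizer ((P : Subgroup ↥G) : Set ↥G)).index = 1
      rw [this, Subgroup.index_top]
    omega

end Cfsg.Agent.S1013
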