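import Mathlib
import Cfsg.Statements.S1014
import Cfsg.Agent.Lib.Helper17.Basic
import Cfsg.Agent.Lib.Helper17.PermRep

set_option autoImplicit false
open Cfsg

namespace Cfsg.Agent.S1014

open Cfsg.Agent.Lib.Helper17

/-- No finite simple group has order 1104 = 2^4 * 3 * 23. -/
theorem result {G : Type*} [Group G] [Finite G] [IsSimpleGroup G] : Nat.card G ≠ 1104 := by
  intro hG
  have : Fact (Nat.Prime 23) := ⟨by norm_num⟩
  have : Fact (Nat.Prime 2) := ⟨by norm_num⟩
  have hnc : ¬ IsMulCommutative G := not_comm_of_not_prime (by rw [hG]; norm_num)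
  have hfac : Nat.card G = 23 ^ 1 * 48 := by rw [hG]; norm_num
  have h1 := mem_divisors_filter (by norm_num) (card_sylow_mem (p := 23) hfac (by norm_num))
  rw [show (Nat.divisors 48).filter (fun d => d % 23 = 1) = {1, 24} by decide +kernel] at h1
  have h2 := card_sylow_ne_one (p := 23) hfac (by norm_num) (by norm_num) (by norm_num)
  have h3 : Nat.card (Sylow 23 G) = 24 := by
    simp only [Finset.mem_insert, Finset.mem_singleton] at h1
    tauto
  obtain ⟨P⟩ : Nonempty (Sylow 23 G) := inferInstance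
  have hP : Nat.card ↥(P : Subgroup G) = 23 := by simpa using (sylow_card_index P hfac (by norm_num)).1
  have hN := card_sylow_mul_card_normalizer P
  rw [h3, hG] at hN
  set N := Subgroup.normalizer ((P : Subgroup G) : Set G) with hNdef
  have hN' : Nat.card ↥N = 46 := by omega
  obtain ⟨r1, r2, r3⟩ := sylow_prime_relIndex P hP (by rw [hG]; norm_num)
  rw [← hNdef, hN'] at r3
  set C := Subgroup.centralizer ((P : Subgroup G) : Set G) with hCdef
  have hρ : C.relIndex N = 2 := by
    have h4 : C.relIndex N ∣ 2 := Nat.dvd_of_mul_dvd_mul_right (by norm_num : 0 < 23) (by simpa using r3)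
    rcases (Nat.dvd_prime Nat.prime_two).mp h4 with h5 | h5
    · exact absurd h5 r1
    · exact h5
  have hCN : Nat.card ↥(C ⊓ N : Subgroup G) = 23 := by
    have h5 := (C.subgroupOf N).index_mul_card
    rw [card_subgroupOf, hN'] at h5
    have h6 : (C.subgroupOf N).index = 2 := hρ
    rw [h6] at h5
    omega
  obtain ⟨x, hx⟩ := exists_prime_orderOf_dvd_card' (G := ↥N) 2 (by rw [hN']; norm_num)
  have hx2 : orderOf (x : G) = 2 := (Subgroup.orderOf_coe x).trans hx
  have hxC : (x : G) ∉ C := by
    intro hxC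
    have h5 : orderOf (⟨x, ⟨hxC, x.2⟩⟩ : ↥(C ⊓ N : Subgroup G)) ∣ 23 := hCN ▸ orderOf_dvd_natCard _
    rw [← Subgroup.orderOf_coe] at h5
    simp only at h5
    rw [hx2] at h5
    norm_num at h5
  have hfix := (Cfsg.Agent.S1018.result 23 P hP).2 x x.2 hxC
  have horb := card_orbits_sylow P hP
  rw [h3] at horb
  have hpar := four_dvd_index_sub_fixed hnc N x (by rw [← hx2]; exact pow_orderOf_eq_one _)
  have hidx : N.index = 24 := by rw [← h3]; exact (P.card_eq_index_normalizer).symm
  rw [hidx] at hpar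
  have hpos : 0 < Nat.card (MulAction.fixedBy (G ⧸ N) (x : G)) := by
    have hne : Nonempty (MulAction.fixedBy (G ⧸ N) (x : G)) := ⟨⟨((1 : G) : G ⧸ N), by
      rw [Cfsg.Agent.S1018.mem_fixedBy_iff]
      simpa using x.2⟩⟩
    exact Nat.card_pos
  rw [← hNdef] at hfix horb
  omega

end Cfsg.Agent.S1014
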