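import Mathlib
import Cfsg.Statements.S1015
import Cfsg.Agent.Lib.Helper17.Basic
import Cfsg.Agent.Lib.Helper17.Inter

set_option autoImplicit false
open Cfsg

namespace Cfsg.Agent.S1015

open Cfsg.Agent.Lib.Helper17

/-- No finite simple group has order 1200 = 2^4 * 3 * 5^2. -/
theorem result {G : Type*} [Group G] [Finite G] [IsSimpleGroup G] : Nat.card G ≠ 1200 := by
  intro hG
  have : Fact (Nat.Prime 5) := ⟨by norm_num⟩
  have hfac : Nat.card G = 5 ^ 2 * 48 := by rw [hG]; norm_num
  have h1 := mem_divisors_filter (by norm_num) (card_sylow_mem (p := 5) hfac (by norm_num))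
  rw [show (Nat.divisors 48).filter (fun d => d % 5 = 1) = {1, 6, 16} by decide +kernel] at h1
  have h2 := card_sylow_ne_one (p := 5) hfac (by norm_num) (by norm_num) (by norm_num)
  simp only [Finset.mem_insert, Finset.mem_singleton] at h1
  rcases h1 with h1 | h1 | h1
  · exact h2 h1
  · obtain ⟨P⟩ : Nonempty (Sylow 5 G) := inferInstance
    have hidx := P.card_eq_index_normalizer
    rw [h1] at hidx
    have hne : Subgroup.normalizer ((P : Subgroup G) : Set G) ≠ ⊤ := by
      intro h
      have : (Subgroup.normalizer ((P : Subgroup G) : Set G)).index = 1 := by rw [h]; simp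
      have h6 : (Subgroup.normalizer ((P : Subgroup G) : Set G)).index = 6 := hidx.symm
      omega
    have := card_dvd_factorial_index _ hne
    have h6 : (Subgroup.normalizer ((P : Subgroup G) : Set G)).index = 6 := hidx.symm
    rw [h6, hG] at this
    revert this
    decide
  · have hmod : ¬ Nat.card (Sylow 5 G) ≡ 1 [MOD 5 ^ 2] := by
      rw [h1]; decide
    obtain ⟨P, R, hne, hc, hP, hR⟩ := exists_sylow_inter_index_p hmod
    have hPc : Nat.card ↥(P : Subgroup G) = 25 := by simpa using (sylow_card_index P hfac (by norm_num)).1
    rw [hPc] at hc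
    have hD : Nat.card ↥((P : Subgroup G) ⊓ R) = 5 := by omega
    set D := (P : Subgroup G) ⊓ R with hDdef
    set M := Subgroup.normalizer (D : Set G) with hM
    have hge := card_ge_of_two_sylow_le P R hne M hP hR
    rw [hPc] at hge
    have hMne : M ≠ ⊤ := by
      intro h
      have hn : D.Normal := Subgroup.normalizer_eq_top_iff.mp h
      rcases normal_card D hn with h | h <;> omega
    have hdvd := card_dvd_factorial_index M hMne
    have hmul := M.index_mul_card
    rw [hG] at hmul hdvd
    have hle : M.index ≤ 8 := by
      by_contra hcon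
      have : 9 * 150 ≤ M.index * Nat.card M := Nat.mul_le_mul (by omega) (by omega)
      omega
    have := hdvd.trans (Nat.factorial_dvd_factorial hle)
    revert this
    decide

end Cfsg.Agent.S1015
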