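import Mathlib
import Cfsg.Statements.S1017
import Cfsg.Agent.Lib.Helper17.SelfCent2

set_option autoImplicit false
open Cfsg

namespace Cfsg.Agent.S1017

open Cfsg.Agent.Lib.Helper17

/-- No finite simple group has order 2016 = 2^5 * 3^2 * 7. -/
theorem result {G : Type*} [Group G] [Finite G] [IsSimpleGroup G] : Nat.card G ≠ 2016 := by
  intro hG
  have : Fact (Nat.Prime 7) := ⟨by norm_num⟩
  obtain ⟨e, he1, hed, hn, hmod⟩ := exists_sylow_number_of_pqr (G := G) 2 3 7 5 2 (by norm_num) (by norm_num)
    (by norm_num) (by norm_num) (by norm_num) (by rw [hG]; norm_num) (by rw [hG]; norm_num)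
  rw [hG] at hn
  have hle : e ≤ 6 := Nat.le_of_dvd (by norm_num) hed
  interval_cases e <;> omega

end Cfsg.Agent.S1017
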