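import Cfsg.Statements.S1026
import Cfsg.Agent.Lib.Helper17.ChevOrd

set_option autoImplicit false
open Cfsg

namespace Cfsg.Agent.S1026

open Cfsg.Agent.Lib.Helper17 Cfsg.Agent.Lib.Helper36

/-- Every element of `U` has a unique expression `∏_{r ∈ Φ⁺} x_r(t_r)`, the product over the positive roots in increasing index order (the coefficient family `t`, supported on the positive roots, exists and is unique); and conversely every such ordered product is the matrix of an element of `U`. -/
theorem result {F : Type*} [Field F] (D : Cfsg.Lie.ChevalleyDatum) (hD : D ∈ [Cfsg.Lie.chevG2, Cfsg.Lie.chevB2, Cfsg.Lie.chevD4, Cfsg.Lie.chevF4, Cfsg.Lie.chevE6, Cfsg.Lie.chevE7, Cfsg.Lie.chevE8]) :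
    (∀ g : GL D.Idx F, g ∈ D.posUnipotent F →
      ∃! t : ℕ → F, (∀ r, ¬ D.IsPosRoot r → t r = 0) ∧
        (g : Matrix D.Idx D.Idx F) = D.wordMat F (D.posRoots.map fun r => (r, t r))) ∧
    (∀ t : ℕ → F, ∃ g : GL D.Idx F, g ∈ D.posUnipotent F ∧
      (g : Matrix D.Idx D.Idx F) = D.wordMat F (D.posRoots.map fun r => (r, t r))) := by
  classical
  have hT := triOK_of_mem hD
  have hO := ordOK_of_mem hD
  obtain ⟨T, W, h⟩ := exists_checks D hD
  refine ⟨fun g hg => ?_, fun t => ordProd_mem h D.posRoots (upList_posRoots D).pos t⟩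
  obtain ⟨t, ht⟩ := exists_ordProd h hT hO hg
  refine ⟨fun r => if D.IsPosRoot r then t r else 0, ⟨fun r hr => if_neg hr, ?_⟩, ?_⟩
  · rw [ht]
    refine ordProd_congr fun r hr => ?_
    rw [if_pos (mem_posRoots.mp hr)]
  · rintro t' ⟨h0, ht'⟩
    funext r
    by_cases hr : D.IsPosRoot r
    · rw [if_pos hr]
      have h2 : ordProd D D.posRoots t' = ordProd D D.posRoots t := by
        rw [← ht]; exact ht'.symm
      exact ordProd_inj h hT hO D.posRoots (upList_posRoots D).pos (upList_posRoots D).sorted _ _ h2 r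
        (mem_posRoots.mpr hr)
    · rw [if_neg hr, h0 r hr]

end Cfsg.Agent.S1026
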