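import Cfsg.Statements.S1030
import Cfsg.Agent.Lib.Helper96.ChevSL2

set_option autoImplicit false
open Cfsg

namespace Cfsg.Agent.S1030

open Cfsg.Agent.Lib.Helper18 Cfsg.Agent.Lib.Helper66 Cfsg.Agent.Lib.Helper96

/-- There is a homomorphism `SL₂(F) → GL` with image `⟨X_r, X_{-r}⟩` sending `[[1,t],[0,1]]` to `x_r(t)` and `[[1,0],[t,1]]` to `x_{-r}(t)`. -/
theorem result {F : Type*} [Field F] (D : Cfsg.Lie.ChevalleyDatum) (hD : D ∈ [Cfsg.Lie.chevG2, Cfsg.Lie.chevB2, Cfsg.Lie.chevD4, Cfsg.Lie.chevF4, Cfsg.Lie.chevE6, Cfsg.Lie.chevE7, Cfsg.Lie.chevE8]) (r : ℕ) (hr : r < D.nroots) :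
    ∃ φ : Matrix.SpecialLinearGroup (Fin 2) F →* GL D.Idx F,
      φ.range = D.rootSubgroup F r ⊔ D.rootSubgroup F (D.neg r) ∧
      ∀ (g : Matrix.SpecialLinearGroup (Fin 2) F) (t : F),
        ((g : Matrix (Fin 2) (Fin 2) F) = !![1, t; 0, 1] → ((φ g : GL D.Idx F) : Matrix D.Idx D.Idx F) = D.x F r t) ∧
        ((g : Matrix (Fin 2) (Fin 2) F) = !![1, 0; t, 1] → ((φ g : GL D.Idx F) : Matrix D.Idx D.Idx F) = D.x F (D.neg r) t) := by
  have hB := base_of_mem F hD
  obtain ⟨φ, hx, hy⟩ := ChevSL2.exists_hom hD hB hr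
  refine ⟨φ, ?_, fun g t => ⟨fun hg => ?_, fun hg => ?_⟩⟩
  · have e1 : φ '' Set.range (St2.slx : F → _) = (D.rootSubgroup F r : Set (GL D.Idx F)) := by
      rw [hB.rootSubgroup_eq, ← Set.range_comp]
      congr 1
      funext t
      exact hx t
    have e2 : φ '' Set.range (St2.sly : F → _) = (D.rootSubgroup F (D.neg r) : Set (GL D.Idx F)) := by
      rw [hB.rootSubgroup_eq, ← Set.range_comp]
      congr 1
      funext t
      exact hy t
    rw [MonoidHom.range_eq_map, ← St2G.sl_gen, MonoidHom.map_closure, Set.image_union,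
      Subgroup.closure_union, e1, e2, Subgroup.closure_eq, Subgroup.closure_eq]
  · have : g = St2.slx t := Subtype.ext hg
    rw [this, hx]
    rfl
  · have : g = St2.sly t := Subtype.ext hg
    rw [this, hy]
    rfl

end Cfsg.Agent.S1030
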