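import Cfsg.Statements.S1036
import Cfsg.Agent.Lib.Helper18.ChevFinal

set_option autoImplicit false
open Cfsg

namespace Cfsg.Agent.S1036

open Cfsg.Agent.Lib.Helper18

/-- `H` normalises `U` and `U ∩ H = 1`; thus `B = UH` is the semidirect product of `U` by `H`. -/
theorem result {F : Type*} [Field F] (D : Cfsg.Lie.ChevalleyDatum) (hD : D ∈ [Cfsg.Lie.chevG2, Cfsg.Lie.chevB2, Cfsg.Lie.chevD4, Cfsg.Lie.chevF4, Cfsg.Lie.chevE6, Cfsg.Lie.chevE7, Cfsg.Lie.chevE8]) :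
    D.diagonalSubgroup F ≤ Subgroup.normalizer (D.posUnipotent F : Set (GL D.Idx F)) ∧
      D.posUnipotent F ⊓ D.diagonalSubgroup F = ⊥ := by
  have hB := base_of_mem F hD
  exact ⟨hB.H_le_normalizer_U, hB.U_inf_H (tabs2_of_mem hD).toTabs⟩

end Cfsg.Agent.S1036
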