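import Cfsg.Statements.S1041
-- import your own Cfsg.Agent.* helpers here

set_option autoImplicit false
open Cfsg

namespace Cfsg.Agent.S1041

open Cfsg.Lie

/-- every root index is positive or negative. -/
def pnOK (D : ChevalleyDatum) : Bool :=
  (List.range D.nroots).all fun r => decide (D.IsPosRoot r) || decide (D.IsNegRoot r)

theorem pnOK_G2 : pnOK chevG2 = true := by decide +kernel
theorem pnOK_B2 : pnOK chevB2 = true := by decide +kernel
theorem pnOK_D4 : pnOK chevD4 = true := by decide +kernel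
theorem pnOK_F4 : pnOK chevF4 = true := by decide +kernel
theorem pnOK_E6 : pnOK chevE6 = true := by decide +kernel
theorem pnOK_E7 : pnOK chevE7 = true := by decide +kernel
theorem pnOK_E8 : pnOK chevE8 = true := by decide +kernel

theorem pnOK_of_mem {D : ChevalleyDatum}
    (hD : D ∈ [chevG2, chevB2, chevD4, chevF4, chevE6, chevE7, chevE8]) : pnOK D = true := by
  simp only [List.mem_cons, List.not_mem_nil, or_false] at hD
  rcases hD with rfl | rfl | rfl | rfl | rfl | rfl | rfl
  · exact pnOK_G2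
  · exact pnOK_B2
  · exact pnOK_D4
  · exact pnOK_F4
  · exact pnOK_E6
  · exact pnOK_E7
  · exact pnOK_E8

lemma pos_or_neg {D : ChevalleyDatum} (hD : pnOK D = true) {r : ℕ} (hr : r < D.nroots) :
    D.IsPosRoot r ∨ D.IsNegRoot r := by
  unfold pnOK at hD
  rw [List.all_eq_true] at hD
  simpa using hD r (List.mem_range.mpr hr)

/-- `U` and `V` generate the whole Chevalley group. -/
theorem result {F : Type*} [Field F] (D : Cfsg.Lie.ChevalleyDatum) (hD : D ∈ [Cfsg.Lie.chevG2, Cfsg.Lie.chevB2, Cfsg.Lie.chevD4, Cfsg.Lie.chevF4, Cfsg.Lie.chevE6, Cfsg.Lie.chevE7, Cfsg.Lie.chevE8]) : D.posUnipotent F ⊔ D.negUnipotent F = D.group F := by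
  apply le_antisymm
  · apply sup_le
    · unfold ChevalleyDatum.posUnipotent ChevalleyDatum.group
      rw [Subgroup.closure_le]
      rintro g ⟨r, t, hr, hg⟩
      apply Subgroup.subset_closure
      refine ⟨⟨r, hr.1⟩, t, ?_⟩
      rw [hg, ChevalleyDatum.x, dif_pos hr.1]
    · unfold ChevalleyDatum.negUnipotent ChevalleyDatum.group
      rw [Subgroup.closure_le]
      rintro g ⟨r, t, hr, hg⟩
      apply Subgroup.subset_closure
      refine ⟨⟨r, hr.1⟩, t, ?_⟩
      rw [hg, ChevalleyDatum.x, dif_pos hr.1]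
  · conv_lhs => unfold ChevalleyDatum.group
    rw [Subgroup.closure_le]
    rintro g ⟨r, t, hg⟩
    have hx : (g : Matrix D.Idx D.Idx F) = D.x F r.1 t := by
      rw [hg, ChevalleyDatum.x, dif_pos r.2]
    rcases pos_or_neg (pnOK_of_mem hD) r.2 with h | h
    · exact (le_sup_left : D.posUnipotent F ≤ _) (Subgroup.subset_closure ⟨r.1, t, h, hx⟩)
    · exact (le_sup_right : D.negUnipotent F ≤ _) (Subgroup.subset_closure ⟨r.1, t, h, hx⟩)

end Cfsg.Agent.S1041
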