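import Cfsg.Statements.S1057
import Cfsg.Agent.Lib.Helper56.G22.Main

set_option autoImplicit false
open Cfsg

namespace Cfsg.Agent.S1057

/-- G₂(2)′ ≅ PSU₃(3). -/
theorem result {F K : Type*} [Field F] [Fintype F] [Field K] [Fintype K] (hF : Fintype.card F = 2) (hK : Fintype.card K = 9) :
    Nonempty (↥(commutator ↥(Cfsg.Lie.chevG2.group F)) ≃* Cfsg.PSU 3 K 3) := by
  exact Cfsg.Agent.Lib.Helper56.G22.main hF hK

end Cfsg.Agent.S1057
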