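import Mathlib
import Cfsg.Statements.S1058
import Cfsg.Agent.Lib.Helper14.B2Iso
import Cfsg.Agent.S0247
import Cfsg.Agent.S0246

set_option autoImplicit false
open Cfsg

namespace Cfsg.Agent.S1058

/-- B₂(2) ≅ S₆. -/
theorem result {F : Type*} [Field F] [Fintype F] (hF : Fintype.card F = 2) :
    Nonempty (↥(Cfsg.Lie.chevB2.group F) ≃* Equiv.Perm (Fin 6)) := by
  obtain ⟨e1⟩ := Cfsg.Agent.Lib.Helper14.chevB2_equiv_psp (F := F)
  obtain ⟨e2⟩ := Cfsg.Agent.S0247.result hF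
  have hc := Cfsg.Agent.S0246.result hF 2 (by norm_num)
  norm_num at hc
  have hbot : Subgroup.center (Matrix.symplecticGroup (Fin 2) F) = ⊥ :=
    hc
  have e3 : Cfsg.PSp 2 F ≃* Matrix.symplecticGroup (Fin 2) F :=
    (QuotientGroup.quotientMulEquivOfEq hbot).trans QuotientGroup.quotientBot
  exact ⟨(e1.trans e3).trans e2⟩

end Cfsg.Agent.S1058
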