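import Cfsg.Statements.S1074
import Cfsg.Agent.Lib.Helper27.TiPGlue

set_option autoImplicit false
open Cfsg

namespace Cfsg.Agent.S1074

/-- ²F₄(2)′ has index 2 in ²F₄(2), is simple, and has order `2¹¹ · 3³ · 5² · 13`. -/
theorem result : (commutator ↥(Cfsg.Lie.twistedF4 (ZMod 2) 1)).index = 2 ∧ IsSimpleGroup Cfsg.Lie.TitsGroup ∧ ¬ IsMulCommutative Cfsg.Lie.TitsGroup ∧
    Nat.card Cfsg.Lie.TitsGroup = 2 ^ 11 * 3 ^ 3 * 5 ^ 2 * 13 := by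
  obtain ⟨T, h2, hs, hc, _⟩ := Cfsg.Agent.Lib.Helper27.TiP.main
  have hnc : ¬ IsMulCommutative T := Cfsg.Agent.Lib.Helper27.TiP.not_comm_of_simple hs (by rw [hc]; norm_num)
  have e : commutator ↥(Cfsg.Lie.twistedF4 (ZMod 2) 1) = T :=
    Cfsg.Agent.Lib.Helper27.TiP.commutator_eq_of_index_two T h2 hs hnc
  show _ ∧ IsSimpleGroup ↥(commutator ↥(Cfsg.Lie.twistedF4 (ZMod 2) 1)) ∧
    ¬ IsMulCommutative ↥(commutator ↥(Cfsg.Lie.twistedF4 (ZMod 2) 1)) ∧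
    Nat.card ↥(commutator ↥(Cfsg.Lie.twistedF4 (ZMod 2) 1)) = _
  rw [e]
  exact ⟨h2, hs, hnc, by rw [hc]; norm_num⟩

end Cfsg.Agent.S1074
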