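import Cfsg.Statements.S1087
import Cfsg.Agent.Lib.Helper18.TwistD4

set_option autoImplicit false
open Cfsg

namespace Cfsg.Agent.S1087

open Cfsg.Agent.Lib.Helper18

/-- ³D₄(q) has a (B,N)-pair: B¹ = G¹ ∩ B and N¹ = G¹ ∩ N, intersections with the ambient Chevalley group's B = UH and N. -/
theorem result {K : Type*} [Field K] [Fintype K] {q : ℕ} (hq : IsPrimePow q) (hK : Fintype.card K = q ^ 3) :
    ∃ P : Cfsg.BNPair ↥(Cfsg.Lie.twistedD4 K q),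
      P.B = (Cfsg.Lie.chevD4.borelSubgroup K ⊓ Cfsg.Lie.twistedD4 K q).subgroupOf (Cfsg.Lie.twistedD4 K q) ∧
      P.N = (Cfsg.Lie.chevD4.monomialSubgroup K ⊓ Cfsg.Lie.twistedD4 K q).subgroupOf (Cfsg.Lie.twistedD4 K q) := by
  obtain ⟨T, hG, -⟩ := exists_commData_D4 hq hK
  rw [← hG]
  exact ⟨T.toTwistBN.bnPair, rfl, rfl⟩

end Cfsg.Agent.S1087
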