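import Cfsg.Statements.S1094
import Cfsg.Agent.Lib.Helper40.CoxeterWords
import Cfsg.Agent.Lib.Helper40.CoxDataB2
import Cfsg.Agent.Lib.Helper40.CoxDataG2
import Cfsg.Agent.Lib.Helper40.CoxDataD4
import Cfsg.Agent.Lib.Helper40.CoxDataF4
import Cfsg.Agent.Lib.Helper40.CoxDataE6
import Cfsg.Agent.Lib.Helper40.CoxDataE7
import Cfsg.Agent.Lib.Helper40.CoxDataE8

set_option autoImplicit false
open Cfsg

namespace Cfsg.Agent.S1094

open Cfsg.Agent.Lib.Helper40

/-- The Coxeter element `s₁ s₂ ⋯ s_l` of the Coxeter group of type B₂, G₂, D₄, F₄, E₆, E₇, E₈ has order `h = 2N/l` = 4, 6, 6, 12, 12, 18, 30. -/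
theorem result (p : (Σ n : ℕ, CoxeterMatrix (Fin n)) × ℕ)
    (hp : p ∈ [(⟨2, CoxeterMatrix.B 2⟩, 4), (⟨2, CoxeterMatrix.G₂⟩, 6), (⟨4, Cfsg.Lie.coxeterD4⟩, 6), (⟨4, CoxeterMatrix.F₄⟩, 12),
      (⟨6, CoxeterMatrix.E₆⟩, 12), (⟨7, CoxeterMatrix.E₇⟩, 18), (⟨8, CoxeterMatrix.E₈⟩, 30)]) :
    orderOf ((List.finRange p.1.1).map p.1.2.simple).prod = p.2 := by
  simp only [List.mem_cons, List.not_mem_nil, or_false] at hp
  rcases hp with rfl | rfl | rfl | rfl | rfl | rfl | rfl
  · rw [coxeterElement_eq]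
    exact coxeter_orderOf _ 8 B2.tab B2.tab_ok B2.levels B2.chain_ok _ _ 0 (by norm_num)
      (by decide +kernel) (by decide +kernel)
  · rw [coxeterElement_eq]
    exact coxeter_orderOf _ 12 G2.tab G2.tab_ok G2.levels G2.chain_ok _ _ 0 (by norm_num)
      (by decide +kernel) (by decide +kernel)
  · rw [coxeterElement_eq]
    exact coxeter_orderOf _ 24 D4.tab D4.tab_ok D4.levels D4.chain_ok _ _ 0 (by norm_num)
      (by decide +kernel) (by decide +kernel)
  · rw [coxeterElement_eq]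
    exact coxeter_orderOf _ 48 F4.tab F4.tab_ok F4.levels F4.chain_ok _ _ 0 (by norm_num)
      (by decide +kernel) (by decide +kernel)
  · rw [coxeterElement_eq]
    exact coxeter_orderOf _ 72 E6.tab E6.tab_ok E6.levels E6.chain_ok _ _ 0 (by norm_num)
      (by decide +kernel) (by decide +kernel)
  · rw [coxeterElement_eq]
    exact coxeter_orderOf _ 126 E7.tab E7.tab_ok E7.levels E7.chain_ok _ _ 0 (by norm_num)
      (by decide +kernel) (by decide +kernel)
  · rw [coxeterElement_eq]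
    exact coxeter_orderOf _ 240 E8.tab E8.tab_ok E8.levels E8.chain_ok _ _ 0 (by norm_num)
      (by decide +kernel) (by decide +kernel)

end Cfsg.Agent.S1094
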