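import Cfsg.Statements.S1118
import Cfsg.Agent.Lib.Helper19.RankOne

set_option autoImplicit false
open Cfsg

namespace Cfsg.Agent.S1118

/-- In the rank-one set-up (`G` finite and doubly transitive on `Ω`, `t` an involution moving `a`, `Q` normal in `G_a` with `G_a = Q D`, `Q ⊓ D = 1` for the two-point stabiliser `D = G_a ⊓ G_{t • a}`, `|Q|` even, `|D|` odd), the normaliser of a subset of `Q` containing a non-identity element lies in `G_a`; consequently `N_G(Q) = N_G(G_a) = G_a`. -/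
theorem result {G Ω : Type*} [Group G] [Finite G] [MulAction G Ω] {a : Ω} {t : G} {Q : Subgroup G}
    (hS : Cfsg.IsRankOneSetup G Ω a t Q) :
    (∀ X : Set G, X ⊆ (Q : Set G) → (∃ x ∈ X, x ≠ 1) → Subgroup.normalizer X ≤ MulAction.stabilizer G a) ∧
      Subgroup.normalizer (Q : Set G) = MulAction.stabilizer G a ∧
      Subgroup.normalizer (MulAction.stabilizer G a : Set G) = MulAction.stabilizer G a := by
  open Cfsg.Agent.Lib.Helper19 in
  have key : ∀ X : Set G, X ⊆ (MulAction.stabilizer G a : Set G) → (∃ x ∈ X, x ∈ Q ∧ x ≠ 1) →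
      Subgroup.normalizer X ≤ MulAction.stabilizer G a := by
    intro X hX ⟨x, hxX, hxQ, hx1⟩ g hg
    have h1 : g * x * g⁻¹ ∈ X := (Subgroup.mem_set_normalizer_iff.mp hg x).mp hxX
    have h2 : (g * x * g⁻¹) • a = a := hX h1
    have h3 : x • (g⁻¹ • a) = g⁻¹ • a := by
      have : g⁻¹ • ((g * x * g⁻¹) • a) = g⁻¹ • a := by rw [h2]
      simpa [mul_smul] using this
    have h4 := fix_eq_a_of_Q hS hxQ hx1 h3
    rw [MulAction.mem_stabilizer_iff]
    exact (inv_smul_eq_iff.mp h4).symm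
  have hQ1 : ∃ x ∈ Q, x ≠ 1 := by
    by_contra hcon
    push_neg at hcon
    have : Q = ⊥ := (Subgroup.eq_bot_iff_forall Q).mpr hcon
    have h := hS.even_card
    rw [this] at h
    simp at h
  obtain ⟨x, hxQ, hx1⟩ := hQ1
  refine ⟨?_, ?_, ?_⟩
  · intro X hX ⟨y, hyX, hy1⟩
    exact key X (fun z hz => hS.le (hX hz)) ⟨y, hyX, hX hyX, hy1⟩
  · apply le_antisymm
    · exact key _ (fun z hz => hS.le hz) ⟨x, hxQ, hxQ, hx1⟩
    · exact Cfsg.Agent.Lib.Helper19.D_le_normalizer hS
  · apply le_antisymm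
    · exact key _ (fun z hz => hz) ⟨x, hS.le hxQ, hxQ, hx1⟩
    · exact Subgroup.le_normalizer

end Cfsg.Agent.S1118
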