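import Cfsg.Statements.S1119
import Cfsg.Agent.Lib.Helper19.RankOneCard

set_option autoImplicit false
open Cfsg

namespace Cfsg.Agent.S1119

/-- In the rank-one set-up (`G` finite and doubly transitive on `Ω`, `t` an involution moving `a`, `Q` normal in `G_a` with `G_a = Q D`, `Q ⊓ D = 1` for the two-point stabiliser `D = G_a ⊓ G_{t • a}`, `|Q|` even, `|D|` odd): `Q` acts regularly on `Ω` minus `a`; hence `|Ω| = |Q| + 1`, `|G| = |Q| |D| (|Q| + 1)`, some Sylow 2-subgroup of `G` lies in `Q`, and each `g ∉ G_a` is uniquely `x t y` with `x ∈ G_a`, `y ∈ Q` (canonical form). -/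
theorem result {G Ω : Type*} [Group G] [Finite G] [MulAction G Ω] {a : Ω} {t : G} {Q : Subgroup G}
    (hS : Cfsg.IsRankOneSetup G Ω a t Q) :
    (∀ b c : Ω, b ≠ a → c ≠ a → ∃! x : Q, (x : G) • b = c) ∧
      Nat.card Ω = Nat.card Q + 1 ∧
      Nat.card G = Nat.card Q * Nat.card ↥(MulAction.stabilizer G a ⊓ MulAction.stabilizer G (t • a)) * (Nat.card Q + 1) ∧
      (∃ P : Sylow 2 G, (P : Subgroup G) ≤ Q) ∧
      ∀ g : G, g ∉ MulAction.stabilizer G a → ∃! p : G × G, p.1 ∈ MulAction.stabilizer G a ∧ p.2 ∈ Q ∧ g = p.1 * t * p.2 := by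
  open Cfsg.Agent.Lib.Helper19 in
  refine ⟨fun b c hb hc => existsUnique_Q_smul hS hb hc, card_Omega hS, card_G hS, exists_sylow_le hS, ?_⟩
  intro g hg
  have hga : g⁻¹ • a ≠ a := by
    intro h
    apply hg
    rw [MulAction.mem_stabilizer_iff]
    exact (inv_smul_eq_iff.mp h).symm
  obtain ⟨y, hy, hyb⟩ := Cfsg.Agent.Lib.Helper19.exists_Q_smul_b hS hga
  have htinv := Cfsg.Agent.Lib.Helper19.t_inv hS
  refine ⟨(g * y * t, y⁻¹), ⟨?_, inv_mem hy, ?_⟩, ?_⟩
  · rw [MulAction.mem_stabilizer_iff, mul_smul, mul_smul, hyb, smul_inv_smul]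
  · simp only [mul_assoc]
    rw [← mul_assoc t t, hS.mul_self]
    simp
  · rintro ⟨x, z⟩ ⟨hx, hz, hgz⟩
    simp only at hx hz hgz
    have h1 : z⁻¹ • (t • a) = g⁻¹ • a := by
      rw [hgz]
      have hx' : x⁻¹ • a = a := by
        rw [inv_smul_eq_iff]; exact hx.symm
      simp only [mul_inv_rev, mul_smul, hx', htinv]
    have h2 : z⁻¹ = y := Cfsg.Agent.Lib.Helper19.Q_eq_of_smul_eq hS (inv_mem hz) hy
      (Cfsg.Agent.Lib.Helper19.ta_ne hS) (by rw [h1, hyb])
    have h3 : z = y⁻¹ := by rw [← h2, inv_inv]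
    subst h3
    have h4 : x = g * y * t := by
      rw [hgz]
      simp only [mul_assoc, inv_mul_cancel_left, hS.mul_self, mul_one]
    rw [h4]

end Cfsg.Agent.S1119
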