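import Cfsg.Statements.S1120
import Cfsg.Agent.Lib.Helper19.RankOneInvol

set_option autoImplicit false
open Cfsg

namespace Cfsg.Agent.S1120

/-- In the rank-one set-up (`G` finite and doubly transitive on `Ω`, `t` an involution moving `a`, `Q` normal in `G_a` with `G_a = Q D`, `Q ⊓ D = 1` for the two-point stabiliser `D = G_a ⊓ G_{t • a}`, `|Q|` even, `|D|` odd), if `G` has 2-rank at least 2 then `O_{2'}(G)` equals the normal core of `G_a`. -/
theorem result {G Ω : Type*} [Group G] [Finite G] [MulAction G Ω] {a : Ω} {t : G} {Q : Subgroup G}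
    (hS : Cfsg.IsRankOneSetup G Ω a t Q)
    (h2 : ∃ x y : G, x ≠ 1 ∧ y ≠ 1 ∧ x ≠ y ∧ x * x = 1 ∧ y * y = 1 ∧ x * y = y * x) :
    Cfsg.pPrimeCore 2 G = (MulAction.stabilizer G a).normalCore := by
  open Cfsg.Agent.Lib.Helper19 in
  obtain ⟨x, y, hx1, hy1, hxy, hx2, hy2, hcomm⟩ := h2
  apply le_antisymm
  · -- every normal subgroup of odd order fixes every point
    apply sSup_le
    rintro M ⟨hMn, hMc⟩
    -- common fixed point of x and y
    obtain ⟨c, hc, -⟩ := invol_existsUnique_fix hS hx1 hx2
    have hyc : y • c = c := by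
      have h1 : x • (y • c) = y • c := by rw [smul_smul, hcomm, mul_smul, hc]
      exact invol_fix_eq hS hx1 hx2 h1 hc
    have hMc' : ∀ m ∈ M, m • c = c := by
      intro m hm
      by_contra hmc
      -- y' = m y m⁻¹ does not fix c
      have hy'2 : (m * y * m⁻¹) * (m * y * m⁻¹) = 1 := by
        calc (m * y * m⁻¹) * (m * y * m⁻¹) = m * (y * y) * m⁻¹ := by group
          _ = 1 := by rw [hy2]; group
      have hy'1 : m * y * m⁻¹ ≠ 1 := by
        intro h
        apply hy1
        have : y = m⁻¹ * (m * y * m⁻¹) * m := by group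
        rw [this, h]; group
      have hy'fix : (m * y * m⁻¹) • (m • c) = m • c := by simp [mul_smul, hyc]
      have hy'c : (m * y * m⁻¹) • c ≠ c := fun h => hmc (invol_fix_eq hS hy'1 hy'2 hy'fix h)
      have hodd := odd_orderOf_mul_of_fix_ne hS hx1 hx2 hy'2 hc hy'c
      -- modulo M, x * y' = x * y
      have hq : (QuotientGroup.mk' M) (x * (m * y * m⁻¹)) = (QuotientGroup.mk' M) (x * y) := by
        have hm1 : (QuotientGroup.mk' M) m = 1 := (QuotientGroup.eq_one_iff m).mpr hm
        simp only [map_mul, map_inv, hm1, one_mul, inv_one, mul_one]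
      have hpow : (QuotientGroup.mk' M) (x * y) ^ orderOf (x * (m * y * m⁻¹)) = 1 := by
        rw [← hq, ← map_pow, pow_orderOf_eq_one, map_one]
      have hxy2 : (x * y) * (x * y) = 1 := by
        calc (x * y) * (x * y) = x * (y * x) * y := by group
          _ = x * (x * y) * y := by rw [hcomm]
          _ = (x * x) * (y * y) := by group
          _ = 1 := by rw [hx2, hy2, one_mul]
      obtain ⟨k, hk⟩ := hodd
      have hxyM : x * y ∈ M := by
        rw [← QuotientGroup.eq_one_iff, ← QuotientGroup.mk'_apply]
        rw [hk, pow_succ, pow_mul, pow_two, ← map_mul, hxy2, map_one, one_pow, one_mul] at hpow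
        exact hpow
      -- an element of M with square one is trivial
      have hord : orderOf (x * y) ∣ 2 := orderOf_dvd_of_pow_eq_one (by rw [pow_two, hxy2])
      have hord2 : orderOf (x * y) ∣ Nat.card M := by
        have := orderOf_dvd_natCard (⟨x * y, hxyM⟩ : M)
        rwa [Subgroup.orderOf_mk] at this
      have h1 : orderOf (x * y) ∣ 1 := by
        have := Nat.dvd_gcd hord2 hord
        rwa [Nat.Coprime.gcd_eq_one hMc] at this
      have h2 : x * y = 1 := orderOf_eq_one_iff.mp (Nat.dvd_one.mp h1)
      apply hxy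
      calc x = x * (y * y) := by rw [hy2, mul_one]
        _ = (x * y) * y := by group
        _ = y := by rw [h2, one_mul]
    -- M fixes a as well by normality
    apply (Subgroup.normal_le_normalCore (H := MulAction.stabilizer G a) (N := M)).mpr
    intro m hm
    obtain ⟨g, hg⟩ := trans hS c a
    rw [MulAction.mem_stabilizer_iff, ← hg]
    have h1 : g⁻¹ * m * g ∈ M := by
      have := hMn.conj_mem m hm g⁻¹
      simpa using this
    have h2 := hMc' _ h1
    have h3 : g • ((g⁻¹ * m * g) • c) = g • c := by rw [h2]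
    simpa [mul_smul] using h3
  · apply le_sSup
    refine ⟨inferInstance, ?_⟩
    -- the core lies in D, of odd order
    have hle : (MulAction.stabilizer G a).normalCore ≤
        MulAction.stabilizer G a ⊓ MulAction.stabilizer G (t • a) := by
      intro g hg
      refine Subgroup.mem_inf.mpr ⟨Subgroup.normalCore_le _ hg, ?_⟩
      have h1 : t⁻¹ * g * t⁻¹⁻¹ ∈ (MulAction.stabilizer G a).normalCore :=
        (Subgroup.normalCore_normal _).conj_mem g hg t⁻¹
      have h2 : (t⁻¹ * g * t⁻¹⁻¹) • a = a := Subgroup.normalCore_le _ h1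
      rw [MulAction.mem_stabilizer_iff]
      have h3 : t • ((t⁻¹ * g * t⁻¹⁻¹) • a) = t • a := by rw [h2]
      simpa [mul_smul] using h3
    have hdvd := Subgroup.card_dvd_of_le hle
    have hodd : Odd (Nat.card (MulAction.stabilizer G a).normalCore) := hS.odd_card.of_dvd_nat hdvd
    exact Nat.coprime_two_right.mpr hodd

end Cfsg.Agent.S1120
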