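import Cfsg.Statements.S1122
import Cfsg.Agent.Lib.Helper19.RankOneK

set_option autoImplicit false
open Cfsg

namespace Cfsg.Agent.S1122

/-- In the rank-one set-up (`G` finite and doubly transitive on `Ω`, `t` an involution moving `a`, `Q` normal in `G_a` with `G_a = Q D`, `Q ⊓ D = 1` for the two-point stabiliser `D = G_a ⊓ G_{t • a}`, `|Q|` even, `|D|` odd), with `K` the set of elements of `D` inverted by `t`: `|K|` is the number of involutions of `G_a`, and for each involution `s` of `G_a` the `K`-conjugates of `s` are all the involutions of `G_a`. -/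
theorem result {G Ω : Type*} [Group G] [Finite G] [MulAction G Ω] {a : Ω} {t : G} {Q : Subgroup G}
    (hS : Cfsg.IsRankOneSetup G Ω a t Q) :
    Nat.card (Cfsg.invertedBy (MulAction.stabilizer G a ⊓ MulAction.stabilizer G (t • a)) t) = Nat.card (Cfsg.involutionsIn (MulAction.stabilizer G a : Set G)) ∧
      ∀ s ∈ Cfsg.involutionsIn (MulAction.stabilizer G a : Set G), ∀ s' ∈ Cfsg.involutionsIn (MulAction.stabilizer G a : Set G),
        ∃ k ∈ Cfsg.invertedBy (MulAction.stabilizer G a ⊓ MulAction.stabilizer G (t • a)) t, k⁻¹ * s * k = s' := by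
  open Cfsg.Agent.Lib.Helper19 in
  refine ⟨?_, ?_⟩
  · obtain ⟨s₀, hs₀Q, hs₀1, hs₀2⟩ := exists_invol_Q hS
    have hs₀ : s₀ ∈ Cfsg.involutionsIn (MulAction.stabilizer G a : Set G) := ⟨hS.le hs₀Q, hs₀1, hs₀2⟩
    let f : (Cfsg.invertedBy (MulAction.stabilizer G a ⊓ MulAction.stabilizer G (t • a)) t) →
        (Cfsg.involutionsIn (MulAction.stabilizer G a : Set G)) := fun k =>
      ⟨(k : G)⁻¹ * s₀ * (k : G), by
        have hk := ((mem_invertedBy_iff hS).mp k.2).1
        have hka : (k : G) ∈ MulAction.stabilizer G a := (Subgroup.mem_inf.mp hk).1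
        refine ⟨mul_mem (mul_mem (inv_mem hka) (hS.le hs₀Q)) hka, ?_, ?_⟩
        · have := conj_invol_ne_one (g := (k : G)⁻¹) hs₀1
          rwa [inv_inv] at this
        · have := conj_invol_sq (g := (k : G)⁻¹) hs₀2
          rwa [inv_inv] at this⟩
    have hf : Function.Bijective f := by
      constructor
      · intro k k' h
        have h1 : (k : G)⁻¹ * s₀ * (k : G) = (k' : G)⁻¹ * s₀ * (k' : G) := congrArg Subtype.val h
        have := (existsUnique_K_conj hS hs₀ (f k').2).unique ⟨k.2, h1⟩ ⟨k'.2, rfl⟩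
        exact Subtype.ext this
      · intro s'
        obtain ⟨k, ⟨hk, hks⟩, -⟩ := existsUnique_K_conj hS hs₀ s'.2
        exact ⟨⟨k, hk⟩, Subtype.ext hks⟩
    exact Nat.card_congr (Equiv.ofBijective f hf)
  · intro s hs s' hs'
    obtain ⟨k, ⟨hk, hks⟩, -⟩ := existsUnique_K_conj hS hs hs'
    exact ⟨k, hk, hks⟩

end Cfsg.Agent.S1122
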