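import Cfsg.Statements.S1123
import Cfsg.Agent.Lib.Helper19.RankOneK

set_option autoImplicit false
open Cfsg

namespace Cfsg.Agent.S1123

/-- In the rank-one set-up (`G` finite and doubly transitive on `Ω`, `t` an involution moving `a`, `Q` normal in `G_a` with `G_a = Q D`, `Q ⊓ D = 1` for the two-point stabiliser `D = G_a ⊓ G_{t • a}`, `|Q|` even, `|D|` odd), there is a unique pair `(s, r)` with `s` an involution of `G_a`, `r ∈ Q` and `t s t = r⁻¹ t r`. -/
theorem result {G Ω : Type*} [Group G] [Finite G] [MulAction G Ω] {a : Ω} {t : G} {Q : Subgroup G}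
    (hS : Cfsg.IsRankOneSetup G Ω a t Q) :
    ∃! p : G × G, p.1 ∈ Cfsg.involutionsIn (MulAction.stabilizer G a : Set G) ∧ p.2 ∈ Q ∧
      t * p.1 * t = p.2⁻¹ * t * p.2 := by
  open Cfsg.Agent.Lib.Helper19 in
  have htinv := t_inv hS
  have ht2 := hS.mul_self
  obtain ⟨c, hc, hcu⟩ := invol_existsUnique_fix hS hS.ne_one ht2
  have hca : c ≠ a := by
    intro h
    rw [h] at hc
    exact ta_ne hS hc
  obtain ⟨r, hr, hrb⟩ := exists_Q_smul_b hS hca
  have hrinv : r⁻¹ • c = t • a := by rw [← hrb, inv_smul_smul]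
  refine ⟨(t * (r⁻¹ * t * r) * t, r), ⟨⟨?_, ?_, ?_⟩, hr, ?_⟩, ?_⟩
  · change (t * (r⁻¹ * t * r) * t) • a = a
    simp only [mul_smul]
    rw [hrb, hc, hrinv, t_smul_t_smul hS]
  · have h1 : r⁻¹ * t * r ≠ 1 := by
      have := conj_invol_ne_one (g := r⁻¹) hS.ne_one
      rwa [inv_inv] at this
    have := conj_invol_ne_one (g := t) h1
    rwa [htinv] at this
  · have h1 : (r⁻¹ * t * r) * (r⁻¹ * t * r) = 1 := by
      have := conj_invol_sq (g := r⁻¹) ht2
      rwa [inv_inv] at this
    have := conj_invol_sq (g := t) h1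
    rwa [htinv] at this
  · calc t * (t * (r⁻¹ * t * r) * t) * t = (t * t) * (r⁻¹ * t * r) * (t * t) := by simp only [mul_assoc]
      _ = r⁻¹ * t * r := by rw [ht2, one_mul, mul_one]
  · rintro ⟨s', r'⟩ ⟨⟨hs'a, hs'1, hs'2⟩, hr', heq⟩
    simp only at hs'a hs'1 hs'2 hr' heq
    have hs'a : s' • a = a := hs'a
    have h1 : (t * s' * t) • (t • a) = t • a := by
      rw [mul_smul, mul_smul, t_smul_t_smul hS, hs'a]
    rw [heq] at h1
    have h2 : t • (r' • (t • a)) = r' • (t • a) := by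
      have : r' • ((r'⁻¹ * t * r') • (t • a)) = r' • (t • a) := by rw [h1]
      simpa [mul_smul] using this
    have h3 : r' • (t • a) = c := hcu _ h2
    have h4 : r' = r := Q_eq_of_smul_eq hS hr' hr (ta_ne hS) (by rw [h3, hrb])
    subst h4
    have h5 : s' = t * (r'⁻¹ * t * r') * t := by
      rw [← heq]
      calc s' = (t * t) * s' * (t * t) := by rw [ht2, one_mul, mul_one]
        _ = t * (t * s' * t) * t := by simp only [mul_assoc]
    rw [h5]

end Cfsg.Agent.S1123
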