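import Cfsg.Statements.S1126
import Cfsg.Agent.Lib.Helper19.RankOneFix

set_option autoImplicit false
open Cfsg

namespace Cfsg.Agent.S1126

/-- In the rank-one set-up (`G` finite and doubly transitive on `Ω`, `t` an involution moving `a`, `Q` normal in `G_a` with `G_a = Q D`, `Q ⊓ D = 1` for the two-point stabiliser `D = G_a ⊓ G_{t • a}`, `|Q|` even, `|D|` odd), a subset `X ⊆ D` fixing at least three points of `Ω` is conjugate by an element of `D` into `V = C_D(t)`. -/
theorem result {G Ω : Type*} [Group G] [Finite G] [MulAction G Ω] {a : Ω} {t : G} {Q : Subgroup G}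
    (hS : Cfsg.IsRankOneSetup G Ω a t Q)
    (X : Set G) (hX : X ⊆ ((MulAction.stabilizer G a ⊓ MulAction.stabilizer G (t • a)) : Set G))
    (h3 : ∃ b c d : Ω, b ≠ c ∧ b ≠ d ∧ c ≠ d ∧ ∀ x ∈ X, x • b = b ∧ x • c = c ∧ x • d = d) :
    ∃ k ∈ (MulAction.stabilizer G a ⊓ MulAction.stabilizer G (t • a)), ∀ x ∈ X, (k * x * k⁻¹) * t = t * (k * x * k⁻¹) := by
  open Cfsg.Agent.Lib.Helper19 in
  have ht2 := hS.mul_self
  obtain ⟨u, huX, hu2, hua, hub⟩ := exists_centralizer_invol_swap hS hX h3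
  -- k = t u lies in D and is inverted by t
  have hkD : t * u ∈ MulAction.stabilizer G a ⊓ MulAction.stabilizer G (t • a) := by
    refine Subgroup.mem_inf.mpr ⟨?_, ?_⟩
    · rw [MulAction.mem_stabilizer_iff, mul_smul, hua, t_smul_t_smul hS]
    · rw [MulAction.mem_stabilizer_iff, mul_smul, hub]
  obtain ⟨j, hj⟩ := hS.odd_card
  have hpow : (t * u) ^ (2 * j + 1) = 1 := by
    have := pow_card_eq_one' (G := ↥(MulAction.stabilizer G a ⊓ MulAction.stabilizer G (t • a)))
      (x := ⟨t * u, hkD⟩)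
    rw [hj] at this
    exact congrArg Subtype.val this
  have hrr : (t * u) ^ (j + 1) * (t * u) ^ (j + 1) = t * u := by
    rw [← pow_add, show j + 1 + (j + 1) = (2 * j + 1) + 1 by ring, pow_succ, hpow, one_mul]
  have hrt : t * (t * u) ^ (j + 1) * t = ((t * u) ^ (j + 1))⁻¹ := invol_conj_mul_pow ht2 hu2 (j + 1)
  have hrD : (t * u) ^ (j + 1) ∈ MulAction.stabilizer G a ⊓ MulAction.stabilizer G (t • a) :=
    pow_mem hkD _
  generalize (t * u) ^ (j + 1) = r at hrr hrt hrD
  -- r u r⁻¹ = t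
  have hru : r * u * r⁻¹ = t := by
    have h1 : u = t * (r * r) := by rw [hrr, ← mul_assoc, ht2, one_mul]
    have h2 : r * t = t * r⁻¹ := by
      calc r * t = (t * t) * r * t := by rw [ht2, one_mul]
        _ = t * (t * r * t) := by simp only [mul_assoc]
        _ = t * r⁻¹ := by rw [hrt]
    calc r * u * r⁻¹ = (r * t) * (r * r) * r⁻¹ := by rw [h1]; simp only [mul_assoc]
      _ = t := by rw [h2]; group
  refine ⟨r, hrD, ?_⟩
  intro x hx
  have hxu : x * u = u * x := (Subgroup.mem_centralizer_iff.mp huX) x hx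
  rw [← hru]
  calc r * x * r⁻¹ * (r * u * r⁻¹) = r * (x * u) * r⁻¹ := by group
    _ = r * (u * x) * r⁻¹ := by rw [hxu]
    _ = r * u * r⁻¹ * (r * x * r⁻¹) := by group

end Cfsg.Agent.S1126
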