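import Cfsg.Statements.S1127
import Cfsg.Agent.Lib.Helper19.RankOneK
import Cfsg.Agent.S1123

set_option autoImplicit false
open Cfsg

namespace Cfsg.Agent.S1127

/-- In the rank-one set-up (`G` finite and doubly transitive on `Ω`, `t` an involution moving `a`, `Q` normal in `G_a` with `G_a = Q D`, `Q ⊓ D = 1` for the two-point stabiliser `D = G_a ⊓ G_{t • a}`, `|Q|` even, `|D|` odd): if `s` is an involution of `G_a` and `r ∈ Q` satisfy `t s t = r⁻¹ t r`, then `C_D(t) = C_D(s)`; moreover `C_D(t) ⊓ C_D(K) = C_D(I ∩ G_a)`, where `K` is the set of elements of `D` inverted by `t` and `I ∩ G_a` the set of involutions of `G_a`. -/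
theorem result {G Ω : Type*} [Group G] [Finite G] [MulAction G Ω] {a : Ω} {t : G} {Q : Subgroup G}
    (hS : Cfsg.IsRankOneSetup G Ω a t Q) :
    (∀ s r : G, s ∈ Cfsg.involutionsIn (MulAction.stabilizer G a : Set G) → r ∈ Q → t * s * t = r⁻¹ * t * r →
        (MulAction.stabilizer G a ⊓ MulAction.stabilizer G (t • a)) ⊓ Subgroup.centralizer {t} = (MulAction.stabilizer G a ⊓ MulAction.stabilizer G (t • a)) ⊓ Subgroup.centralizer {s}) ∧
      (MulAction.stabilizer G a ⊓ MulAction.stabilizer G (t • a)) ⊓ Subgroup.centralizer {t} ⊓ Subgroup.centralizer (Cfsg.invertedBy (MulAction.stabilizer G a ⊓ MulAction.stabilizer G (t • a)) t) =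
        (MulAction.stabilizer G a ⊓ MulAction.stabilizer G (t • a)) ⊓ Subgroup.centralizer (Cfsg.involutionsIn (MulAction.stabilizer G a : Set G)) := by
  open Cfsg.Agent.Lib.Helper19 in
  have htinv := t_inv hS
  have ht2 := hS.mul_self
  have hsing : ∀ (x d : G), d ∈ Subgroup.centralizer {x} ↔ x * d = d * x := by
    intro x d
    rw [Subgroup.mem_centralizer_iff]
    exact ⟨fun h => h x rfl, fun h y hy => by rw [Set.mem_singleton_iff.mp hy]; exact h⟩
  have part1 : ∀ s r : G, s ∈ Cfsg.involutionsIn (MulAction.stabilizer G a : Set G) → r ∈ Q →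
      t * s * t = r⁻¹ * t * r →
      (MulAction.stabilizer G a ⊓ MulAction.stabilizer G (t • a)) ⊓ Subgroup.centralizer {t} =
        (MulAction.stabilizer G a ⊓ MulAction.stabilizer G (t • a)) ⊓ Subgroup.centralizer {s} := by
    intro s r hs hr heq
    obtain ⟨hsa, hs1, hs2⟩ := hs
    ext d
    have hiff : ∀ x : G, d ∈ (MulAction.stabilizer G a ⊓ MulAction.stabilizer G (t • a)) ⊓
        Subgroup.centralizer {x} ↔ d ∈ (MulAction.stabilizer G a ⊓ MulAction.stabilizer G (t • a)) ∧
          x * d = d * x := fun x => by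
      rw [Subgroup.mem_inf (p' := Subgroup.centralizer {x}), hsing]
    rw [hiff t, hiff s]
    refine and_congr_right (fun hdD => ?_)
    obtain ⟨hda, hdb⟩ := Subgroup.mem_inf.mp hdD
    constructor
    · intro hdt
      have hdt' : d * t * d⁻¹ = t := by rw [← hdt]; group
      have hdt'' : t * d⁻¹ = d⁻¹ * t := by
        calc t * d⁻¹ = d⁻¹ * (d * t) * d⁻¹ := by group
          _ = d⁻¹ * (t * d) * d⁻¹ := by rw [hdt]
          _ = d⁻¹ * t := by group
      have h1 : t * (d * s * d⁻¹) * t = (d * r * d⁻¹)⁻¹ * t * (d * r * d⁻¹) := by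
        calc t * (d * s * d⁻¹) * t = (t * d) * s * (d⁻¹ * t) := by simp only [mul_assoc]
          _ = (d * t) * s * (t * d⁻¹) := by rw [hdt, hdt'']
          _ = d * (t * s * t) * d⁻¹ := by simp only [mul_assoc]
          _ = d * (r⁻¹ * t * r) * d⁻¹ := by rw [heq]
          _ = (d * r * d⁻¹)⁻¹ * (d * t * d⁻¹) * (d * r * d⁻¹) := by group
          _ = (d * r * d⁻¹)⁻¹ * t * (d * r * d⁻¹) := by rw [hdt']
      have h2 := (Cfsg.Agent.S1123.result hS).unique (y₁ := (s, r)) (y₂ := (d * s * d⁻¹, d * r * d⁻¹))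
        ⟨⟨hsa, hs1, hs2⟩, hr, heq⟩
        ⟨⟨mul_mem (mul_mem hda hsa) (inv_mem hda), conj_invol_ne_one hs1, conj_invol_sq hs2⟩,
          hS.conj_mem d hda r hr, h1⟩
      have h3 : s = d * s * d⁻¹ := congrArg Prod.fst h2
      calc s * d = (d * s * d⁻¹) * d := by rw [← h3]
        _ = d * s := by group
    · intro hds
      -- d' = t d t
      have hd'a : (t * d * t) • a = a := by
        have hdb' : d • (t • a) = t • a := hdb
        rw [mul_smul, mul_smul, hdb', t_smul_t_smul hS]
      have hd'b : (t * d * t) • (t • a) = t • a := by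
        have hda' : d • a = a := hda
        rw [mul_smul, mul_smul, t_smul_t_smul hS, hda']
      have hd's : (t * s * t) * (t * d * t) = (t * d * t) * (t * s * t) := by
        calc (t * s * t) * (t * d * t) = t * s * (t * t) * d * t := by simp only [mul_assoc]
          _ = t * (s * d) * t := by rw [ht2, mul_one]; simp only [mul_assoc]
          _ = t * (d * s) * t := by rw [hds]
          _ = t * d * (t * t) * s * t := by rw [ht2, mul_one]; simp only [mul_assoc]
          _ = (t * d * t) * (t * s * t) := by simp only [mul_assoc]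
      rw [heq] at hd's
      generalize hd' : t * d * t = d' at *
      -- e = r d' r⁻¹ commutes with t
      have het : t * (r * d' * r⁻¹) = (r * d' * r⁻¹) * t := by
        calc t * (r * d' * r⁻¹) = r * ((r⁻¹ * t * r) * d') * r⁻¹ := by group
          _ = r * (d' * (r⁻¹ * t * r)) * r⁻¹ := by rw [hd's]
          _ = (r * d' * r⁻¹) * t := by group
      have hra : r • a = a := hS.le hr
      have hrinva : r⁻¹ • a = a := by rw [inv_smul_eq_iff, hra]
      have hea : (r * d' * r⁻¹) • a = a := by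
        rw [mul_smul, mul_smul, hrinva, hd'a, hra]
      have heb : (r * d' * r⁻¹) • (t • a) = t • a := by
        rw [smul_smul, ← het, mul_smul, hea]
      have hd'inv : d'⁻¹ • (t • a) = t • a := by rw [inv_smul_eq_iff, hd'b]
      have h1 : (r * d' * r⁻¹) * d'⁻¹ ∈ Q ⊓ MulAction.stabilizer G (t • a) := by
        refine Subgroup.mem_inf.mpr ⟨?_, ?_⟩
        · have : (r * d' * r⁻¹) * d'⁻¹ = r * (d' * r⁻¹ * d'⁻¹) := by group
          rw [this]
          exact mul_mem hr (hS.conj_mem d' hd'a _ (inv_mem hr))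
        · rw [MulAction.mem_stabilizer_iff, mul_smul, hd'inv, heb]
      rw [hS.inf_eq_bot, Subgroup.mem_bot] at h1
      have h2 : r * d' * r⁻¹ = d' := mul_inv_eq_one.mp h1
      rw [h2, ← hd'] at het
      have h3 : t * (t * d * t) = d * t := by
        simp only [← mul_assoc]; rw [ht2, one_mul]
      have h4 : t * d * t * t = t * d := by rw [mul_assoc, ht2, mul_one]
      rw [h3, h4] at het
      exact het.symm
  refine ⟨part1, ?_⟩
  obtain ⟨⟨s, r⟩, ⟨hs, hr, heq⟩, -⟩ := Cfsg.Agent.S1123.result hS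
  simp only at hs hr heq
  have hp := part1 s r hs hr heq
  ext d
  rw [Subgroup.mem_inf (p' := Subgroup.centralizer (Cfsg.invertedBy _ t)),
    Subgroup.mem_inf (p' := Subgroup.centralizer (Cfsg.involutionsIn _))]
  constructor
  · rintro ⟨hdt, hdK⟩
    have hdD := (Subgroup.mem_inf.mp hdt).1
    refine ⟨hdD, ?_⟩
    rw [hp] at hdt
    have hds : s * d = d * s := (hsing s d).mp (Subgroup.mem_inf.mp hdt).2
    rw [Subgroup.mem_centralizer_iff] at hdK ⊢
    intro s' hs'
    obtain ⟨k, ⟨hk, hks⟩, -⟩ := existsUnique_K_conj hS hs hs'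
    have hkd : k * d = d * k := hdK k hk
    have hkd' : k⁻¹ * d = d * k⁻¹ := by
      calc k⁻¹ * d = k⁻¹ * (d * k) * k⁻¹ := by group
        _ = k⁻¹ * (k * d) * k⁻¹ := by rw [hkd]
        _ = d * k⁻¹ := by group
    rw [← hks]
    calc k⁻¹ * s * k * d = k⁻¹ * s * (k * d) := by simp only [mul_assoc]
      _ = k⁻¹ * (s * d) * k := by rw [hkd]; simp only [mul_assoc]
      _ = (k⁻¹ * d) * s * k := by rw [hds]; simp only [mul_assoc]
      _ = d * (k⁻¹ * s * k) := by rw [hkd']; simp only [mul_assoc]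
  · rintro ⟨hdD, hdI⟩
    rw [Subgroup.mem_centralizer_iff] at hdI
    have hds : s * d = d * s := hdI s hs
    have hdt : d ∈ (MulAction.stabilizer G a ⊓ MulAction.stabilizer G (t • a)) ⊓
        Subgroup.centralizer {t} := by
      rw [hp]
      exact Subgroup.mem_inf.mpr ⟨hdD, (hsing s d).mpr hds⟩
    refine ⟨hdt, ?_⟩
    have hdt' : t * d = d * t := (hsing t d).mp (Subgroup.mem_inf.mp hdt).2
    have hdt'' : t * d⁻¹ = d⁻¹ * t := by
      calc t * d⁻¹ = d⁻¹ * (d * t) * d⁻¹ := by group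
        _ = d⁻¹ * (t * d) * d⁻¹ := by rw [hdt']
        _ = d⁻¹ * t := by group
    rw [Subgroup.mem_centralizer_iff]
    intro k hk
    obtain ⟨hkD, hkt⟩ := (mem_invertedBy_iff hS).mp hk
    have hk' : d * k * d⁻¹ ∈ Cfsg.invertedBy (MulAction.stabilizer G a ⊓ MulAction.stabilizer G (t • a)) t := by
      refine (mem_invertedBy_iff hS).mpr ⟨mul_mem (mul_mem hdD hkD) (inv_mem hdD), ?_⟩
      calc t * (d * k * d⁻¹) * t = (t * d) * k * (d⁻¹ * t) := by simp only [mul_assoc]
        _ = d * (t * k * t) * d⁻¹ := by rw [hdt', ← hdt'']; simp only [mul_assoc]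
        _ = (d * k * d⁻¹)⁻¹ := by rw [hkt]; group
    have hka : k ∈ MulAction.stabilizer G a := (Subgroup.mem_inf.mp hkD).1
    have hs' : k⁻¹ * s * k ∈ Cfsg.involutionsIn (MulAction.stabilizer G a : Set G) := by
      refine ⟨mul_mem (mul_mem (inv_mem hka) hs.1) hka, ?_, ?_⟩
      · have := conj_invol_ne_one (g := k⁻¹) hs.2.1
        rwa [inv_inv] at this
      · have := conj_invol_sq (g := k⁻¹) hs.2.2
        rwa [inv_inv] at this
    have hds' : (k⁻¹ * s * k) * d = d * (k⁻¹ * s * k) := hdI _ hs'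
    have hsd' : d⁻¹ * s * d = s := by rw [mul_assoc, hds]; group
    have h1 : (d * k * d⁻¹)⁻¹ * s * (d * k * d⁻¹) = k⁻¹ * s * k := by
      calc (d * k * d⁻¹)⁻¹ * s * (d * k * d⁻¹) = d * (k⁻¹ * (d⁻¹ * s * d) * k) * d⁻¹ := by group
        _ = (d * (k⁻¹ * s * k)) * d⁻¹ := by rw [hsd']
        _ = ((k⁻¹ * s * k) * d) * d⁻¹ := by rw [hds']
        _ = k⁻¹ * s * k := by group
    have h2 := (existsUnique_K_conj hS hs hs').unique ⟨hk', h1⟩ ⟨hk, rfl⟩
    calc k * d = (d * k * d⁻¹) * d := by rw [h2]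
      _ = d * k := by group

end Cfsg.Agent.S1127
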