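import Cfsg.Statements.S1128
import Cfsg.Agent.Lib.Helper19.RankOneFix
import Cfsg.Agent.S1125

set_option autoImplicit false
open Cfsg

namespace Cfsg.Agent.S1128

/-- In the rank-one set-up (`G` finite and doubly transitive on `Ω`, `t` an involution moving `a`, `Q` normal in `G_a` with `G_a = Q D`, `Q ⊓ D = 1` for the two-point stabiliser `D = G_a ⊓ G_{t • a}`, `|Q|` even, `|D|` odd), with the action faithful and `G` containing two distinct commuting involutions: every non-identity element of `D` inverted by `t` acts fixed-point-freely on `Q`. -/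
theorem result {G Ω : Type*} [Group G] [Finite G] [MulAction G Ω] [FaithfulSMul G Ω] {a : Ω} {t : G} {Q : Subgroup G}
    (hS : Cfsg.IsRankOneSetup G Ω a t Q)
    (h2 : ∃ x y : G, x ≠ 1 ∧ y ≠ 1 ∧ x ≠ y ∧ x * x = 1 ∧ y * y = 1 ∧ x * y = y * x)
    (x : G) (hx : x ∈ Cfsg.invertedBy (MulAction.stabilizer G a ⊓ MulAction.stabilizer G (t • a)) t) (hx1 : x ≠ 1) :
    Q ⊓ Subgroup.centralizer {x} = ⊥ := by
  open Cfsg.Agent.Lib.Helper19 in
  have ht2 := hS.mul_self
  obtain ⟨hxD, hxt⟩ := (mem_invertedBy_iff hS).mp hx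
  have hxa : x • a = a := (Subgroup.mem_inf.mp hxD).1
  have hxb : x • (t • a) = t • a := (Subgroup.mem_inf.mp hxD).2
  rw [Subgroup.eq_bot_iff_forall]
  intro q hq
  by_contra hq1
  obtain ⟨hqQ, hqx⟩ := Subgroup.mem_inf.mp hq
  have hqx : x * q = q * x := (Subgroup.mem_centralizer_iff.mp hqx) x rfl
  have hX : ({x} : Set G) ⊆ ((MulAction.stabilizer G a ⊓ MulAction.stabilizer G (t • a) : Subgroup G) : Set G) := by
    intro y hy; rw [Set.mem_singleton_iff.mp hy]; exact hxD
  have h3 : ∃ b c d : Ω, b ≠ c ∧ b ≠ d ∧ c ≠ d ∧ ∀ y ∈ ({x} : Set G), y • b = b ∧ y • c = c ∧ y • d = d := by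
    refine ⟨a, t • a, q • (t • a), (ta_ne hS).symm, (Q_smul_ne_a hS hqQ (ta_ne hS)).symm, ?_, ?_⟩
    · intro h
      exact hq1 (eq_one_of_Q_fix hS hqQ (ta_ne hS) h.symm)
    · intro y hy
      rw [Set.mem_singleton_iff.mp hy]
      refine ⟨hxa, hxb, ?_⟩
      rw [smul_smul, hqx, mul_smul, hxb]
  have heven := (Cfsg.Agent.S1125.result hS {x} hX h3).2.1
  have : Fact (Nat.Prime 2) := ⟨Nat.prime_two⟩
  obtain ⟨s, hs⟩ := exists_prime_orderOf_dvd_card' (G := ↥(Subgroup.centralizer {x} ⊓ Q)) 2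
    (even_iff_two_dvd.mp heven)
  have hs1 : (s : G) ≠ 1 := by
    intro h
    have : s = 1 := Subtype.ext h
    rw [this, orderOf_one] at hs
    omega
  have hs2 : (s : G) * (s : G) = 1 := by
    have := pow_orderOf_eq_one s
    rw [hs, pow_two] at this
    exact congrArg Subtype.val this
  obtain ⟨hsx, hsQ⟩ := Subgroup.mem_inf.mp s.2
  have hsx : x * (s : G) = (s : G) * x := (Subgroup.mem_centralizer_iff.mp hsx) x rfl
  generalize (s : G) = s' at hs1 hs2 hsx hsQ
  have hodd : Odd (orderOf (s' * t)) :=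
    odd_orderOf_mul_of_fix_ne hS hs1 hs2 ht2 (Q_smul_a hS hsQ) (ta_ne hS)
  -- y = s' t inverts x
  have hy : (s' * t) * x = x⁻¹ * (s' * t) := by
    have h1 : t * x = x⁻¹ * t := by
      calc t * x = (t * x * t) * t := by rw [mul_assoc, mul_assoc, ht2, mul_one]
        _ = x⁻¹ * t := by rw [hxt]
    have h2 : s' * x⁻¹ = x⁻¹ * s' := by
      calc s' * x⁻¹ = x⁻¹ * (x * s') * x⁻¹ := by group
        _ = x⁻¹ * (s' * x) * x⁻¹ := by rw [hsx]
        _ = x⁻¹ * s' := by group
    calc (s' * t) * x = s' * (t * x) := by rw [mul_assoc]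
      _ = (s' * x⁻¹) * t := by rw [h1, mul_assoc]
      _ = x⁻¹ * (s' * t) := by rw [h2, mul_assoc]
  generalize s' * t = y at hodd hy
  have hy' : y * x⁻¹ = x * y := by
    calc y * x⁻¹ = x * (x⁻¹ * y) * x⁻¹ := by group
      _ = x * (y * x) * x⁻¹ := by rw [hy]
      _ = x * y := by group
  have hyy : Commute (y * y) x := by
    change y * y * x = x * (y * y)
    calc y * y * x = y * (y * x) := by rw [mul_assoc]
      _ = (y * x⁻¹) * y := by rw [hy, mul_assoc]
      _ = x * (y * y) := by rw [hy', mul_assoc]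
  obtain ⟨m, hm⟩ := hodd
  have hpow : (y * y) ^ m * y = 1 := by
    have := pow_orderOf_eq_one y
    rwa [hm, pow_succ, pow_mul, pow_two] at this
  have hyc : Commute y x := by
    have h1 : y = ((y * y) ^ m)⁻¹ := by
      rw [eq_inv_iff_mul_eq_one, (Commute.pow_right (Commute.mul_right (Commute.refl y) (Commute.refl y)) m).eq]
      exact hpow
    rw [h1]
    exact (hyy.pow_left m).inv_left
  have hxx : x = x⁻¹ := by
    have : y * x = x * y := hyc
    rw [hy] at this
    exact (mul_right_cancel this).symm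
  have hx2 : x * x = 1 := by
    nth_rewrite 1 [hxx]; exact inv_mul_cancel x
  exact hx1 (eq_one_of_sq_of_odd_card hS.odd_card hxD hx2)

end Cfsg.Agent.S1128
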