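import Cfsg.Statements.S1134
import Cfsg.Agent.Lib.Helper19.RankOneFix

set_option autoImplicit false
open Cfsg

namespace Cfsg.Agent.S1134

/-- In the rank-one set-up (`G` finite and doubly transitive on `Ω`, `t` an involution moving `a`, `Q` normal in `G_a` with `G_a = Q D`, `Q ⊓ D = 1` for the two-point stabiliser `D = G_a ⊓ G_{t • a}`, `|Q|` even, `|D|` odd), with the action faithful and `G` containing two distinct commuting involutions, with `V = C_D(t)`: subsets of `V` conjugate in `G` are conjugate in `V`. -/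
theorem result {G Ω : Type*} [Group G] [Finite G] [MulAction G Ω] [FaithfulSMul G Ω] {a : Ω} {t : G} {Q : Subgroup G}
    (hS : Cfsg.IsRankOneSetup G Ω a t Q)
    (h2 : ∃ x y : G, x ≠ 1 ∧ y ≠ 1 ∧ x ≠ y ∧ x * x = 1 ∧ y * y = 1 ∧ x * y = y * x)
    (X : Set G) (hX : X ⊆ (((MulAction.stabilizer G a ⊓ MulAction.stabilizer G (t • a)) ⊓ Subgroup.centralizer {t} : Subgroup G) : Set G)) (g : G)
    (hY : (fun x => g * x * g⁻¹) '' X ⊆ (((MulAction.stabilizer G a ⊓ MulAction.stabilizer G (t • a)) ⊓ Subgroup.centralizer {t} : Subgroup G) : Set G)) :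
    ∃ v ∈ (MulAction.stabilizer G a ⊓ MulAction.stabilizer G (t • a)) ⊓ Subgroup.centralizer {t}, (fun x => v * x * v⁻¹) '' X = (fun x => g * x * g⁻¹) '' X := by
  open Cfsg.Agent.Lib.Helper19 in
  have ht2 := hS.mul_self
  have hXD : X ⊆ ((MulAction.stabilizer G a ⊓ MulAction.stabilizer G (t • a) : Subgroup G) : Set G) :=
    fun x hx => (Subgroup.mem_inf.mp (hX hx)).1
  have hXt : ∀ x ∈ X, t * x = x * t := fun x hx =>
    (Subgroup.mem_centralizer_iff.mp (Subgroup.mem_inf.mp (hX hx)).2) t rfl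
  have hfa : ∀ x ∈ X, x • a = a := fun x hx => (Subgroup.mem_inf.mp (hXD hx)).1
  have hfb : ∀ x ∈ X, x • (t • a) = t • a := fun x hx => (Subgroup.mem_inf.mp (hXD hx)).2
  -- the fixed point of t
  obtain ⟨c, hc, -⟩ := invol_existsUnique_fix hS hS.ne_one ht2
  have hca : c ≠ a := by
    intro h; rw [h] at hc; exact ta_ne hS hc
  have hcb : c ≠ t • a := by
    intro h
    have h1 : t • (t • a) = t • a := by rw [← h]; exact hc
    rw [t_smul_t_smul hS] at h1
    exact ta_ne hS h1.symm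
  have hfc : ∀ x ∈ X, x • c = c := by
    intro x hx
    have h1 : t • (x • c) = x • c := by rw [smul_smul, hXt x hx, mul_smul, hc]
    exact invol_fix_eq hS hS.ne_one ht2 h1 hc
  have h3 : ∃ b c d : Ω, b ≠ c ∧ b ≠ d ∧ c ≠ d ∧ ∀ x ∈ X, x • b = b ∧ x • c = c ∧ x • d = d :=
    ⟨a, t • a, c, (ta_ne hS).symm, hca.symm, hcb.symm, fun x hx => ⟨hfa x hx, hfb x hx, hfc x hx⟩⟩
  -- g⁻¹ a and g⁻¹ b are fixed by X
  have hYD : ∀ x ∈ X, g * x * g⁻¹ ∈ (MulAction.stabilizer G a ⊓ MulAction.stabilizer G (t • a)) ⊓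
      Subgroup.centralizer {t} := fun x hx => hY ⟨x, hx, rfl⟩
  have hga : ∀ x ∈ X, x • (g⁻¹ • a) = g⁻¹ • a := by
    intro x hx
    have h1 : (g * x * g⁻¹) • a = a := (Subgroup.mem_inf.mp (Subgroup.mem_inf.mp (hYD x hx)).1).1
    have h2 : g⁻¹ • ((g * x * g⁻¹) • a) = g⁻¹ • a := by rw [h1]
    simpa [mul_smul] using h2
  have hgb : ∀ x ∈ X, x • (g⁻¹ • (t • a)) = g⁻¹ • (t • a) := by
    intro x hx
    have h1 : (g * x * g⁻¹) • (t • a) = t • a := (Subgroup.mem_inf.mp (Subgroup.mem_inf.mp (hYD x hx)).1).2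
    have h2 : g⁻¹ • ((g * x * g⁻¹) • (t • a)) = g⁻¹ • (t • a) := by rw [h1]
    simpa [mul_smul] using h2
  have hne : g⁻¹ • a ≠ g⁻¹ • (t • a) := fun h => ta_ne hS (smul_left_cancel _ h).symm
  obtain ⟨h, hhX, hha, hhb⟩ := exists_centralizer_smul_pair hS hXD h3 hne hga hgb
  -- d = g h⁻¹ ∈ D
  have hdD : g * h⁻¹ ∈ MulAction.stabilizer G a ⊓ MulAction.stabilizer G (t • a) := by
    refine Subgroup.mem_inf.mpr ⟨?_, ?_⟩
    · have e1 : h⁻¹ • a = g⁻¹ • a := by rw [inv_smul_eq_iff, hha]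
      rw [MulAction.mem_stabilizer_iff, mul_smul, e1, smul_inv_smul]
    · have e1 : h⁻¹ • (t • a) = g⁻¹ • (t • a) := by rw [inv_smul_eq_iff, hhb]
      rw [MulAction.mem_stabilizer_iff, mul_smul, e1, smul_inv_smul]
  have hdx : ∀ x ∈ X, (g * h⁻¹) * x * (g * h⁻¹)⁻¹ = g * x * g⁻¹ := by
    intro x hx
    have h1 : x * h = h * x := (Subgroup.mem_centralizer_iff.mp hhX) x hx
    have h2 : h⁻¹ * x * h = x := by rw [mul_assoc, h1]; group
    calc (g * h⁻¹) * x * (g * h⁻¹)⁻¹ = g * (h⁻¹ * x * h) * g⁻¹ := by group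
      _ = g * x * g⁻¹ := by rw [h2]
  generalize g * h⁻¹ = d at hdD hdx
  -- t' = d⁻¹ t d is an involution of C(X)
  have hda : d • a = a := (Subgroup.mem_inf.mp hdD).1
  have hdb : d • (t • a) = t • a := (Subgroup.mem_inf.mp hdD).2
  have hdinva : d⁻¹ • a = a := by rw [inv_smul_eq_iff, hda]
  have hdinvb : d⁻¹ • (t • a) = t • a := by rw [inv_smul_eq_iff, hdb]
  have hu2 : (d⁻¹ * t * d) * (d⁻¹ * t * d) = 1 := by
    have := conj_invol_sq (g := d⁻¹) ht2
    rwa [inv_inv] at this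
  have huX : ∀ x ∈ X, x * (d⁻¹ * t * d) = (d⁻¹ * t * d) * x := by
    intro x hx
    have h1 : t * (g * x * g⁻¹) = (g * x * g⁻¹) * t :=
      (Subgroup.mem_centralizer_iff.mp (Subgroup.mem_inf.mp (hYD x hx)).2) t rfl
    rw [← hdx x hx] at h1
    calc x * (d⁻¹ * t * d) = d⁻¹ * ((d * x * d⁻¹) * t) * d := by group
      _ = d⁻¹ * (t * (d * x * d⁻¹)) * d := by rw [h1]
      _ = (d⁻¹ * t * d) * x := by group
  have hkD : t * (d⁻¹ * t * d) ∈ MulAction.stabilizer G a ⊓ MulAction.stabilizer G (t • a) := by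
    refine Subgroup.mem_inf.mpr ⟨?_, ?_⟩
    · rw [MulAction.mem_stabilizer_iff]
      simp only [mul_smul]
      rw [hda, hdinvb, t_smul_t_smul hS]
    · rw [MulAction.mem_stabilizer_iff]
      simp only [mul_smul]
      rw [hdb, t_smul_t_smul hS, hdinva]
  have hkX : ∀ x ∈ X, x * (t * (d⁻¹ * t * d)) = (t * (d⁻¹ * t * d)) * x := by
    intro x hx
    calc x * (t * (d⁻¹ * t * d)) = (x * t) * (d⁻¹ * t * d) := by simp only [mul_assoc]
      _ = (t * x) * (d⁻¹ * t * d) := by rw [← hXt x hx]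
      _ = t * (x * (d⁻¹ * t * d)) := by simp only [mul_assoc]
      _ = t * ((d⁻¹ * t * d) * x) := by rw [huX x hx]
      _ = (t * (d⁻¹ * t * d)) * x := by simp only [mul_assoc]
  generalize hu : d⁻¹ * t * d = u at hu2 huX hkD hkX
  obtain ⟨j, hj⟩ := hS.odd_card
  have hpow : (t * u) ^ (2 * j + 1) = 1 := by
    have := pow_card_eq_one' (G := ↥(MulAction.stabilizer G a ⊓ MulAction.stabilizer G (t • a)))
      (x := ⟨t * u, hkD⟩)
    rw [hj] at this
    exact congrArg Subtype.val this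
  have hrr : (t * u) ^ (j + 1) * (t * u) ^ (j + 1) = t * u := by
    rw [← pow_add, show j + 1 + (j + 1) = (2 * j + 1) + 1 by ring, pow_succ, hpow, one_mul]
  have hrt : t * (t * u) ^ (j + 1) * t = ((t * u) ^ (j + 1))⁻¹ := invol_conj_mul_pow ht2 hu2 (j + 1)
  have hrD : (t * u) ^ (j + 1) ∈ MulAction.stabilizer G a ⊓ MulAction.stabilizer G (t • a) :=
    pow_mem hkD _
  have hrX : ∀ x ∈ X, x * (t * u) ^ (j + 1) = (t * u) ^ (j + 1) * x := by
    intro x hx
    exact ((show Commute x (t * u) from hkX x hx).pow_right (j + 1)).eq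
  generalize (t * u) ^ (j + 1) = r at hrr hrt hrD hrX
  have hru : r * u * r⁻¹ = t := by
    have h1 : u = t * (r * r) := by rw [hrr, ← mul_assoc, ht2, one_mul]
    have h2 : r * t = t * r⁻¹ := by
      calc r * t = (t * t) * r * t := by rw [ht2, one_mul]
        _ = t * (t * r * t) := by simp only [mul_assoc]
        _ = t * r⁻¹ := by rw [hrt]
    calc r * u * r⁻¹ = (r * t) * (r * r) * r⁻¹ := by rw [h1]; simp only [mul_assoc]
      _ = t := by rw [h2]; group
  -- v = d r⁻¹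
  refine ⟨d * r⁻¹, Subgroup.mem_inf.mpr ⟨mul_mem hdD (inv_mem hrD), ?_⟩, ?_⟩
  · rw [Subgroup.mem_centralizer_iff]
    intro y hy
    rw [Set.mem_singleton_iff.mp hy]
    have h1 : t * d = d * u := by rw [← hu]; group
    have h2 : u * r⁻¹ = r⁻¹ * t := by rw [← hru]; group
    calc t * (d * r⁻¹) = (t * d) * r⁻¹ := by rw [mul_assoc]
      _ = d * (u * r⁻¹) := by rw [h1, mul_assoc]
      _ = d * r⁻¹ * t := by rw [h2, mul_assoc]
  · apply Set.image_congr
    intro x hx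
    have h1 : r⁻¹ * x * r = x := by rw [mul_assoc, hrX x hx]; group
    calc d * r⁻¹ * x * (d * r⁻¹)⁻¹ = d * (r⁻¹ * x * r) * d⁻¹ := by group
      _ = d * x * d⁻¹ := by rw [h1]
      _ = g * x * g⁻¹ := hdx x hx

end Cfsg.Agent.S1134
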