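import Cfsg.Statements.S1135
import Cfsg.Agent.Lib.Helper19.RankOneCentral

set_option autoImplicit false
open Cfsg

namespace Cfsg.Agent.S1135

theorem aux_odd_inverter {G : Type*} [Group G] {x y : G} (hy : y * x = x⁻¹ * y) (hodd : Odd (orderOf y)) :
    x * x = 1 := by
  have hy' : y * x⁻¹ = x * y := by
    calc y * x⁻¹ = x * (x⁻¹ * y) * x⁻¹ := by group
      _ = x * (y * x) * x⁻¹ := by rw [hy]
      _ = x * y := by group
  have hyy : Commute (y * y) x := by
    change y * y * x = x * (y * y)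
    calc y * y * x = y * (y * x) := by rw [mul_assoc]
      _ = (y * x⁻¹) * y := by rw [hy, mul_assoc]
      _ = x * (y * y) := by rw [hy', mul_assoc]
  obtain ⟨m, hm⟩ := hodd
  have hpow : (y * y) ^ m * y = 1 := by
    have := pow_orderOf_eq_one y
    rwa [hm, pow_succ, pow_mul, pow_two] at this
  have hyc : Commute y x := by
    have h1 : y = ((y * y) ^ m)⁻¹ := by
      rw [eq_inv_iff_mul_eq_one, (Commute.pow_right (Commute.mul_right (Commute.refl y) (Commute.refl y)) m).eq]
      exact hpow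
    rw [h1]
    exact (hyy.pow_left m).inv_left
  have hxx : x = x⁻¹ := by
    have : y * x = x * y := hyc
    rw [hy] at this
    exact (mul_right_cancel this).symm
  nth_rewrite 1 [hxx]; exact inv_mul_cancel x

/-- In the rank-one set-up (`G` finite and doubly transitive on `Ω`, `t` an involution moving `a`, `Q` normal in `G_a` with `G_a = Q D`, `Q ⊓ D = 1` for the two-point stabiliser `D = G_a ⊓ G_{t • a}`, `|Q|` even, `|D|` odd), with the action faithful and `G` containing two distinct commuting involutions: if `x = u v` with `u, v` involutions and `x² ≠ 1`, then `x` is conjugate to `u' t` for some involution `u'` of `G_a`, and `|C_G(x)|` is odd. -/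
theorem result {G Ω : Type*} [Group G] [Finite G] [MulAction G Ω] [FaithfulSMul G Ω] {a : Ω} {t : G} {Q : Subgroup G}
    (hS : Cfsg.IsRankOneSetup G Ω a t Q)
    (h2 : ∃ x y : G, x ≠ 1 ∧ y ≠ 1 ∧ x ≠ y ∧ x * x = 1 ∧ y * y = 1 ∧ x * y = y * x)
    (u v : G) (hu1 : u ≠ 1) (hu2 : u * u = 1) (hv1 : v ≠ 1) (hv2 : v * v = 1) (hx : (u * v) * (u * v) ≠ 1) :
    (∃ g : G, ∃ u' ∈ Cfsg.involutionsIn (MulAction.stabilizer G a : Set G), g * (u * v) * g⁻¹ = u' * t) ∧
      Odd (Nat.card ↥(Subgroup.centralizer {u * v})) := by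
  open Cfsg.Agent.Lib.Helper19 in
  have ht2 := hS.mul_self
  obtain ⟨e, he, -⟩ := invol_existsUnique_fix hS hu1 hu2
  obtain ⟨f, hf, -⟩ := invol_existsUnique_fix hS hv1 hv2
  have hef : e ≠ f := by
    intro h
    apply hx
    rw [← h] at hf
    have hc := invol_commute_of_fix hS hu1 hu2 hv2 he hf
    calc u * v * (u * v) = u * (v * u) * v := by group
      _ = u * (u * v) * v := by rw [hc]
      _ = (u * u) * (v * v) := by group
      _ = 1 := by rw [hu2, hv2, one_mul]
  refine ⟨?_, ?_⟩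
  · obtain ⟨c, hc, -⟩ := invol_existsUnique_fix hS hS.ne_one ht2
    have hca : c ≠ a := by
      intro h; rw [h] at hc; exact ta_ne hS hc
    obtain ⟨g₁, hg₁e, hg₁f⟩ := two_trans hS hef hca.symm
    -- transport (a, t • a) to (c, a)
    obtain ⟨h, hha, hhb⟩ := two_trans hS (ta_ne hS).symm hca
    have hhinvc : h⁻¹ • c = a := by rw [inv_smul_eq_iff, hha]
    have hhinva : h⁻¹ • a = t • a := by rw [inv_smul_eq_iff, hhb]
    have hw : h⁻¹ * (g₁ * v * g₁⁻¹) * h ∈ Cfsg.involutionsIn (MulAction.stabilizer G a : Set G) := by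
      refine ⟨?_, ?_, ?_⟩
      · change (h⁻¹ * (g₁ * v * g₁⁻¹) * h) • a = a
        have e1 : g₁⁻¹ • c = f := by rw [inv_smul_eq_iff, hg₁f]
        simp only [mul_smul]
        rw [hha, e1, hf, hg₁f, hhinvc]
      · have := conj_invol_ne_one (g := h⁻¹) (conj_invol_ne_one (g := g₁) hv1)
        rwa [inv_inv] at this
      · have := conj_invol_sq (g := h⁻¹) (conj_invol_sq (g := g₁) hv2)
        rwa [inv_inv] at this
    have hw' : h⁻¹ * t * h ∈ Cfsg.involutionsIn (MulAction.stabilizer G a : Set G) := by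
      refine ⟨?_, ?_, ?_⟩
      · change (h⁻¹ * t * h) • a = a
        simp only [mul_smul]
        rw [hha, hc, hhinvc]
      · have := conj_invol_ne_one (g := h⁻¹) hS.ne_one
        rwa [inv_inv] at this
      · have := conj_invol_sq (g := h⁻¹) ht2
        rwa [inv_inv] at this
    obtain ⟨k, ⟨hk, hks⟩, -⟩ := existsUnique_K_conj hS hw hw'
    have hkD := ((mem_invertedBy_iff hS).mp hk).1
    have hka : k • a = a := (Subgroup.mem_inf.mp hkD).1
    have hkb : k • (t • a) = t • a := (Subgroup.mem_inf.mp hkD).2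
    have hkinvb : k⁻¹ • (t • a) = t • a := by rw [inv_smul_eq_iff, hkb]
    -- g₂ = h k⁻¹ h⁻¹
    have hg₂a : (h * k⁻¹ * h⁻¹) • a = a := by
      simp only [mul_smul]
      rw [hhinva, hkinvb, hhb]
    have hg₂v : (h * k⁻¹ * h⁻¹) * (g₁ * v * g₁⁻¹) * (h * k⁻¹ * h⁻¹)⁻¹ = t := by
      calc (h * k⁻¹ * h⁻¹) * (g₁ * v * g₁⁻¹) * (h * k⁻¹ * h⁻¹)⁻¹
          = h * (k⁻¹ * (h⁻¹ * (g₁ * v * g₁⁻¹) * h) * k) * h⁻¹ := by group
        _ = h * (h⁻¹ * t * h) * h⁻¹ := by rw [hks]
        _ = t := by group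
    generalize h * k⁻¹ * h⁻¹ = g₂ at hg₂a hg₂v
    refine ⟨g₂ * g₁, g₂ * (g₁ * u * g₁⁻¹) * g₂⁻¹, ⟨?_, ?_, ?_⟩, ?_⟩
    · change (g₂ * (g₁ * u * g₁⁻¹) * g₂⁻¹) • a = a
      have e1 : g₂⁻¹ • a = a := by rw [inv_smul_eq_iff, hg₂a]
      have e2 : g₁⁻¹ • a = e := by rw [inv_smul_eq_iff, hg₁e]
      simp only [mul_smul]
      rw [e1, e2, he, hg₁e, hg₂a]
    · exact conj_invol_ne_one (conj_invol_ne_one hu1)
    · exact conj_invol_sq (conj_invol_sq hu2)
    · rw [← hg₂v]; group
  · by_contra hodd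
    rw [Nat.not_odd_iff_even] at hodd
    have : Fact (Nat.Prime 2) := ⟨Nat.prime_two⟩
    obtain ⟨z, hz⟩ := exists_prime_orderOf_dvd_card' (G := ↥(Subgroup.centralizer {u * v})) 2
      (even_iff_two_dvd.mp hodd)
    have hz1 : (z : G) ≠ 1 := by
      intro h
      have : z = 1 := Subtype.ext h
      rw [this, orderOf_one] at hz
      omega
    have hz2 : (z : G) * (z : G) = 1 := by
      have := pow_orderOf_eq_one z
      rw [hz, pow_two] at this
      exact congrArg Subtype.val this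
    have hzx : (u * v) * (z : G) = (z : G) * (u * v) := (Subgroup.mem_centralizer_iff.mp z.2) _ rfl
    generalize (z : G) = z' at hz1 hz2 hzx
    have huinv : u⁻¹ = u := invol_inv hu2
    have hvinv : v⁻¹ = v := invol_inv hv2
    have hze : z' • e = e := by
      by_contra hne
      have ho := odd_orderOf_mul_of_fix_ne hS hu1 hu2 hz2 he hne
      apply hx
      apply aux_odd_inverter (y := u * z') _ ho
      calc u * z' * (u * v) = u * (z' * (u * v)) := by rw [mul_assoc]
        _ = u * ((u * v) * z') := by rw [hzx]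
        _ = (u * u) * v * z' := by simp only [mul_assoc]
        _ = v * (u * u) * z' := by rw [hu2, one_mul, mul_one]
        _ = (u * v)⁻¹ * (u * z') := by rw [mul_inv_rev, huinv, hvinv]; simp only [mul_assoc]
    have hzf : z' • f = f := by
      by_contra hne
      have ho := odd_orderOf_mul_of_fix_ne hS hv1 hv2 hz2 hf hne
      apply hx
      apply aux_odd_inverter (y := v * z') _ ho
      calc v * z' * (u * v) = v * (z' * (u * v)) := by rw [mul_assoc]
        _ = v * ((u * v) * z') := by rw [hzx]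
        _ = (u * v)⁻¹ * (v * z') := by rw [mul_inv_rev, huinv, hvinv]; simp only [mul_assoc]
    exact hef (invol_fix_eq hS hz1 hz2 hze hzf)

end Cfsg.Agent.S1135
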