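import Cfsg.Statements.S1141
import Cfsg.Agent.Lib.Helper20.U3Syl2

set_option autoImplicit false
open Cfsg

namespace Cfsg.Agent.S1141

/-- Let `q = 2^n ≥ 4` and `|F| = q²`. A Sylow 2-subgroup `S` of `PSU₃(q)` has order `q³`, its centre has order `q`, and `S` is a Suzuki 2-group. -/
theorem result {F : Type*} [Field F] [Fintype F] {n : ℕ} (hn : 2 ≤ n)
    (hF : Fintype.card F = (2 ^ n) ^ 2) (S : Sylow 2 (Cfsg.PSU 3 F (2 ^ n))) :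
    Nat.card S = (2 ^ n) ^ 3 ∧ Nat.card (Subgroup.center ↥(S : Subgroup (Cfsg.PSU 3 F (2 ^ n)))) = 2 ^ n ∧
      Cfsg.IsSuzukiTwoGroup ↥(S : Subgroup (Cfsg.PSU 3 F (2 ^ n))) := by
  have : Fact (Fintype.card F = (2 ^ n) ^ 2) := ⟨hF⟩
  have : Fact ((2 : F) = 0) :=
    ⟨Cfsg.Agent.Lib.Helper20.U3Syl.two_eq_zero_of_card (m := n * 2) (by rw [hF, pow_mul])⟩
  have hev : Even (2 ^ n) := (Nat.even_pow.mpr ⟨even_two, by omega⟩)
  obtain ⟨e⟩ := Cfsg.Agent.Lib.Helper20.U3Syl.exists_equiv hev S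
  refine ⟨Cfsg.Agent.Lib.Helper20.U3Syl.card_P e, Cfsg.Agent.Lib.Helper20.U3Syl.card_center_P e,
    Cfsg.Agent.Lib.Helper20.U3Syl.isSuzuki_of_mulEquiv e
      (Cfsg.Agent.Lib.Helper20.U3Syl.isSuzuki_UU ?_)⟩
  have : 2 ^ 2 ≤ 2 ^ n := Nat.pow_le_pow_right (by norm_num) hn
  omega

end Cfsg.Agent.S1141
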