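import Cfsg.Statements.S1142
import Cfsg.Agent.Lib.Helper97.FH.Core
import Cfsg.Agent.Lib.Helper59.FHBN0
import Cfsg.Agent.Lib.Helper59.FHBN1
import Cfsg.Agent.Lib.Helper59.FHL1
import Cfsg.Agent.Lib.Helper64.FHL2
import Cfsg.Agent.Lib.Helper64.FHL3
import Cfsg.Agent.Lib.Helper81.FHNT

set_option autoImplicit false
open Cfsg

namespace Cfsg.Agent.S1142

/-- Feit–Higman: if a finite group has a (B,N)-pair of rank 2, its Weyl group `N/(B ⊓ N)` has order 4, 6, 8, 12 or 16. -/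
theorem result {G : Type*} [Group G] [Finite G] (P : Cfsg.BNPair G)
    (h2 : P.rank = 2) :
    ((P.B ⊓ P.N).subgroupOf P.N).index ∈ ({4, 6, 8, 12, 16} : Set ℕ) := by
  classical
  have : Fintype G := Fintype.ofFinite G
  obtain ⟨s, t, m, hD⟩ := Cfsg.Agent.Lib.Helper59.FH.exists_dih P h2
  obtain ⟨u, v, hP⟩ := Cfsg.Agent.Lib.Helper59.FH.exists_par P hD.hs hD.ht
  have L : Cfsg.Agent.Lib.Helper97.FH.Levels (P.parabolic {s}) (P.parabolic {t}) (Nat.card P.B)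
      m u v (fun i => Cfsg.Agent.Lib.Helper97.FH.zz s t (2 * i)) :=
    { y_zero := rfl
      cover := (Cfsg.Agent.Lib.Helper59.FH.lev_cover P hD).1
      disj := (Cfsg.Agent.Lib.Helper59.FH.lev_cover P hD).2.1
      inv := (Cfsg.Agent.Lib.Helper59.FH.lev_cover P hD).2.2
      sum_eq := (Cfsg.Agent.Lib.Helper64.FH.lev_sum P hD hP).2
      ev_zero := fun φ hφ => (Cfsg.Agent.Lib.Helper64.FH.lev_ev P hD hP φ hφ).1
      ev_mid := fun φ hφ => (Cfsg.Agent.Lib.Helper64.FH.lev_ev P hD hP φ hφ).2.1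
      ev_even := fun φ hφ => (Cfsg.Agent.Lib.Helper64.FH.lev_ev P hD hP φ hφ).2.2.1
      ev_odd := fun φ hφ => (Cfsg.Agent.Lib.Helper64.FH.lev_ev P hD hP φ hφ).2.2.2
      odd_eq := (Cfsg.Agent.Lib.Helper64.FH.lev_sum P hD hP).1 }
  have hβ : 0 < Nat.card P.B := Nat.card_pos
  have key := Cfsg.Agent.Lib.Helper81.FH.nt (Nat.card G) (Nat.card P.B) m u v Nat.card_pos hβ
    hD.two_le hP.two_le_u hP.two_le_v L.odd_eq
    (fun j hj => Cfsg.Agent.Lib.Helper97.FH.core L hβ hD.two_le hP.two_le_u hP.two_le_v j hj)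
  rw [hD.index_eq]
  rcases key with h | h | h | h | h <;> subst h <;> simp

end Cfsg.Agent.S1142
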