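import Cfsg.Statements.S1160
import Cfsg.Agent.Lib.Helper38.ConstStab

set_option autoImplicit false
open Cfsg

namespace Cfsg.Agent.S1160

/-- Let `p ≠ 2` be prime and `P` a finite `p`-group acting faithfully by additive automorphisms on a finite elementary abelian `q`-group `E` (`q` prime), such that `|P_a|` is the same for all `a ≠ 0`. Then `P` is cyclic and every non-identity element of `P` fixes only `0`. -/
theorem result {P E : Type*} [Group P] [Finite P]
    [AddCommGroup E] [Finite E] [DistribMulAction P E] [FaithfulSMul P E]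
    {p q : ℕ} [Fact p.Prime] (hp2 : p ≠ 2) (hP : IsPGroup p P) (hq : q.Prime) (hE : ∀ e : E, q • e = 0)
    (hconst : ∀ a b : E, a ≠ 0 → b ≠ 0 →
      Nat.card (MulAction.stabilizer P a) = Nat.card (MulAction.stabilizer P b)) :
    IsCyclic P ∧ ∀ g : P, g ≠ 1 → ∀ a : E, g • a = a → a = 0 := by
  open Cfsg.Agent.Lib.Helper38 in
  have hp : p.Prime := Fact.out
  -- the trivial case
  by_cases htriv : ∀ g : P, g = 1
  · have : Subsingleton P := ⟨fun a b => by rw [htriv a, htriv b]⟩
    exact ⟨inferInstance, fun g hg => absurd (htriv g) hg⟩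
  have hpq : p ≠ q := by
    rintro rfl
    apply htriv
    have hEnt : Nontrivial E := by
      by_contra hE'
      rw [not_nontrivial_iff_subsingleton] at hE'
      apply htriv
      intro g
      exact FaithfulSMul.eq_of_smul_eq_smul (α := E) (fun e => Subsingleton.elim _ _)
    have hEp : IsPGroup p (Multiplicative E) := fun e => ⟨1, by
      rw [pow_one]
      exact congrArg Multiplicative.ofAdd (hE e.toAdd)⟩
    obtain ⟨k, hk⟩ := IsPGroup.iff_card.1 hEp
    have hk' : Nat.card E = p ^ k := hk
    have hk0 : k ≠ 0 := by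
      rintro rfl
      rw [pow_zero] at hk'
      exact (Finite.one_lt_card_iff_nontrivial.2 hEnt).ne' hk'
    have hdvd : p ∣ Nat.card E := hk' ▸ dvd_pow_self p hk0
    have h0 : (0 : E) ∈ MulAction.fixedPoints P E := fun g => smul_zero g
    obtain ⟨b, hb, hb0⟩ := hP.exists_fixed_point_of_prime_dvd_card_of_fixed_point E hdvd h0
    have hbtop : MulAction.stabilizer P b = ⊤ := by
      rw [eq_top_iff]; intro g _; exact hb g
    intro g
    refine FaithfulSMul.eq_of_smul_eq_smul (α := E) (fun e => ?_)
    rw [one_smul]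
    by_cases he : e = 0
    · rw [he, smul_zero]
    · have h1 := hconst e b he (Ne.symm hb0)
      rw [hbtop, Subgroup.card_top] at h1
      have h2 : MulAction.stabilizer P e = ⊤ := Subgroup.eq_top_of_card_eq _ h1
      have : g ∈ MulAction.stabilizer P e := h2 ▸ Subgroup.mem_top g
      exact this
  have hcyc : IsCyclic P := isCyclic_of_const_stab hp2 hP hpq hq hE hconst
  refine ⟨hcyc, ?_⟩
  intro g hg a hga
  have hcomm : ∀ x y : P, x * y = y * x := fun x y => (IsCyclic.commGroup (α := P)).mul_comm x y
  have hnorm : (Subgroup.zpowers g).Normal := ⟨fun n hn x => by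
    rw [hcomm x n, mul_inv_cancel_right]; exact hn⟩
  have hbot : Subgroup.zpowers g ≠ ⊥ := by
    rw [Ne, Subgroup.zpowers_eq_bot]; exact hg
  have hcop : (Nat.card (Subgroup.zpowers g)).Coprime q := by
    obtain ⟨k, hk⟩ := IsPGroup.iff_card.1 (hP.to_subgroup (Subgroup.zpowers g))
    rw [hk]
    exact Nat.Coprime.pow_left k ((Nat.coprime_primes hp hq).2 hpq)
  refine fixed_eq_zero_of_normal hE hconst _ hbot hcop a ?_
  intro n hn
  have : Subgroup.zpowers g ≤ MulAction.stabilizer P a := by
    rw [Subgroup.zpowers_le]; exact hga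
  exact this hn

end Cfsg.Agent.S1160
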