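import Cfsg.Statements.S1165
import Cfsg.Agent.Lib.Helper20.RankOne

set_option autoImplicit false
open Cfsg

namespace Cfsg.Agent.S1165

open Cfsg.Agent.Lib.Helper20

theorem result {G Ω : Type*} [Group G] [Finite G] [MulAction G Ω] {a : Ω} {t : G} {Q : Subgroup G}
    (hS : Cfsg.IsRankOneSetup G Ω a t Q)
    (x g h f : G) (hx : x ∈ Q) (hx1 : x ≠ 1) (hg : g ∈ Q) (hh : h ∈ (MulAction.stabilizer G a ⊓ MulAction.stabilizer G (t • a))) (hf : f ∈ Q)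
    (heq : t * x * t = g * h * t * f) :
    (∀ g₁ h₁ f₁ : G, g₁ ∈ Q → h₁ ∈ (MulAction.stabilizer G a ⊓ MulAction.stabilizer G (t • a)) → f₁ ∈ Q → t * x⁻¹ * t = g₁ * h₁ * t * f₁ →
        f₁ = g⁻¹ ∧ h₁ = t * h⁻¹ * t) ∧
      (∀ g₂ h₂ f₂ : G, g₂ ∈ Q → h₂ ∈ (MulAction.stabilizer G a ⊓ MulAction.stabilizer G (t • a)) → f₂ ∈ Q → t * f * t = g₂ * h₂ * t * f₂ →
        f₂ = x ∧ h₂ = h⁻¹) ∧
      ∀ c ∈ (MulAction.stabilizer G a ⊓ MulAction.stabilizer G (t • a)), ∀ g₃ h₃ f₃ : G, g₃ ∈ Q → h₃ ∈ (MulAction.stabilizer G a ⊓ MulAction.stabilizer G (t • a)) → f₃ ∈ Q →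
        t * (c⁻¹ * x * c) * t = g₃ * h₃ * t * f₃ →
          f₃ = (t * c * t)⁻¹ * f * (t * c * t) ∧ h₃ = (t * c * t)⁻¹ * h * c := by
  have hti := r1_tinv hS
  have htt := r1_tt hS
  have htt0 := hS.mul_self
  have hxe : x = t * (g * h * t * f) * t := by
    rw [← heq]; simp only [mul_assoc, htt, htt0, mul_one]
  refine ⟨?_, ?_, ?_⟩
  · intro g₁ h₁ f₁ hg₁ hh₁ hf₁ e
    have e' : g₁ * h₁ * t * f₁ = f⁻¹ * (t * h⁻¹ * t) * t * g⁻¹ := by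
      rw [← e, hxe]
      simp only [mul_assoc, mul_inv_rev, hti, htt, htt0, mul_one]
    obtain ⟨-, h2, h3⟩ := r1_unique hS hg₁ hh₁ hf₁ (Q.inv_mem hf) (r1_tD hS (Subgroup.inv_mem _ hh)) (Q.inv_mem hg) e'
    exact ⟨h3, h2⟩
  · intro g₂ h₂ f₂ hg₂ hh₂ hf₂ e
    have e' : g₂ * h₂ * t * f₂ = (h⁻¹ * g⁻¹ * h) * h⁻¹ * t * x := by
      rw [← e, hxe]
      simp only [mul_assoc, htt, mul_inv_cancel_left, inv_mul_cancel_left]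
    obtain ⟨-, h2, h3⟩ := r1_unique hS hg₂ hh₂ hf₂ (r1_conj' hS hh (Q.inv_mem hg)) (Subgroup.inv_mem _ hh) hx e'
    exact ⟨h3, h2⟩
  · intro c hc g₃ h₃ f₃ hg₃ hh₃ hf₃ e
    have hc' := r1_tD hS hc
    have e' : g₃ * h₃ * t * f₃ = ((t * c * t)⁻¹ * g * (t * c * t)) * ((t * c * t)⁻¹ * h * c) * t * ((t * c * t)⁻¹ * f * (t * c * t)) := by
      rw [← e, hxe]
      simp only [mul_assoc, mul_inv_rev, hti, htt, mul_inv_cancel_left, inv_mul_cancel_left]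
    obtain ⟨-, h2, h3⟩ := r1_unique hS hg₃ hh₃ hf₃ (r1_conj' hS hc' hg)
      (Subgroup.mul_mem _ (Subgroup.mul_mem _ (Subgroup.inv_mem _ hc') hh) hc) (r1_conj' hS hc' hf) e'
    exact ⟨h3, h2⟩

end Cfsg.Agent.S1165
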