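import Cfsg.Statements.S1166
import Cfsg.Agent.Lib.Helper20.RankOne

set_option autoImplicit false
open Cfsg

namespace Cfsg.Agent.S1166

open Cfsg.Agent.Lib.Helper20

theorem result {G Ω : Type*} [Group G] [Finite G] [MulAction G Ω] {a : Ω} {t : G} {Q : Subgroup G}
    (hS : Cfsg.IsRankOneSetup G Ω a t Q)
    (x y gx hx fx gy hy fy : G) (hxQ : x ∈ Q) (hx1 : x ≠ 1) (hyQ : y ∈ Q) (hy1 : y ≠ 1) (hxy : x * y ≠ 1)
    (hgx : gx ∈ Q) (hhx : hx ∈ (MulAction.stabilizer G a ⊓ MulAction.stabilizer G (t • a))) (hfx : fx ∈ Q) (ex : t * x * t = gx * hx * t * fx)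
    (hgy : gy ∈ Q) (hhy : hy ∈ (MulAction.stabilizer G a ⊓ MulAction.stabilizer G (t • a))) (hfy : fy ∈ Q) (ey : t * y * t = gy * hy * t * fy) :
    fx * gy ≠ 1 ∧
      ∀ gz hz fz g' h' f' : G, gz ∈ Q → hz ∈ (MulAction.stabilizer G a ⊓ MulAction.stabilizer G (t • a)) → fz ∈ Q → t * (fx * gy) * t = gz * hz * t * fz →
        g' ∈ Q → h' ∈ (MulAction.stabilizer G a ⊓ MulAction.stabilizer G (t • a)) → f' ∈ Q → t * (x * y) * t = g' * h' * t * f' →
          f' = (t * hy * t)⁻¹ * fz * (t * hy * t) * fy ∧ h' = hx * hz * hy := by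
  have hti := r1_tinv hS
  have htt := r1_tt hS
  have htt0 := hS.mul_self
  have hxe : x = t * (gx * hx * t * fx) * t := by
    rw [← ex]; simp only [mul_assoc, htt, htt0, mul_one]
  have hye : y = t * (gy * hy * t * fy) * t := by
    rw [← ey]; simp only [mul_assoc, htt, htt0, mul_one]
  constructor
  · intro h1
    apply hxy
    have h1' : ∀ u, fx * (gy * u) = u := by
      intro u; rw [← mul_assoc, h1, one_mul]
    have e1 : t * (x * y) * t = gx * hx * (t * hy * t) * fy := by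
      rw [hxe, hye]
      simp only [mul_assoc, htt, htt0, mul_one, h1']
    have e2 : t * (x * y) * t ∈ MulAction.stabilizer G a := by
      rw [e1]
      exact Subgroup.mul_mem _ (Subgroup.mul_mem _ (Subgroup.mul_mem _ (hS.le hgx) (Subgroup.mem_inf.mp hhx).1)
        (Subgroup.mem_inf.mp (r1_tD hS hhy)).1) (hS.le hfy)
    have e3 : x * y ∈ Q ⊓ MulAction.stabilizer G (t • a) := by
      refine Subgroup.mem_inf.mpr ⟨Q.mul_mem hxQ hyQ, ?_⟩
      rw [MulAction.mem_stabilizer_iff] at e2 ⊢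
      have : t • ((t * (x * y) * t) • a) = t • a := by rw [e2]
      rw [← mul_smul, ← this, ← mul_smul]
      congr 1
      simp only [mul_assoc, htt]
    rwa [hS.inf_eq_bot, Subgroup.mem_bot] at e3
  · intro gz hz fz g' h' f' hgz hhz hfz ez hg' hh' hf' e
    have hze : ∀ u, fx * (gy * u) = t * (gz * (hz * (t * (fz * (t * u))))) := by
      intro u
      have : fx * gy = t * (gz * hz * t * fz) * t := by
        rw [← ez]; simp only [mul_assoc, htt, htt0, mul_one]
      rw [← mul_assoc, this]; simp only [mul_assoc]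
    have hc' := r1_tD hS hhy
    have e' : g' * h' * t * f' = (gx * (hx * gz * hx⁻¹)) * (hx * hz * hy) * t * ((t * hy * t)⁻¹ * fz * (t * hy * t) * fy) := by
      rw [← e, hxe, hye]
      simp only [mul_assoc, mul_inv_rev, hti, htt, mul_inv_cancel_left, inv_mul_cancel_left, hze, htt0, mul_one]
    obtain ⟨-, h2, h3⟩ := r1_unique hS hg' hh' hf' (Q.mul_mem hgx (r1_conj hS hhx hgz))
      (Subgroup.mul_mem _ (Subgroup.mul_mem _ hhx hhz) hhy) (Q.mul_mem (r1_conj' hS hc' hfz) hfy) e'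
    exact ⟨h3, h2⟩

end Cfsg.Agent.S1166
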