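import Cfsg.Statements.S1168
import Cfsg.Agent.Lib.Helper63.FinFieldAdd

set_option autoImplicit false
open Cfsg

namespace Cfsg.Agent.S1168

open Cfsg.Agent.Lib.Helper63.FFAdd

theorem biadd_indep {F : Type*} [Field F] [Fintype F] (c : (F ≃+* F) → (F ≃+* F) → F)
    (h : ∀ x y : F, ∑ σ, ∑ τ, c σ τ * (σ x * τ y) = 0) : ∀ σ τ, c σ τ = 0 := by
  intro σ τ
  have h1 : ∀ y x : F, ∑ σ, (∑ τ, c σ τ * τ y) * σ x = 0 := by
    intro y x
    rw [← h x y]
    apply Finset.sum_congr rfl
    intro σ _
    rw [Finset.sum_mul]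
    apply Finset.sum_congr rfl
    intro τ _
    ring
  have h2 : ∀ y : F, ∑ τ, c σ τ * τ y = 0 := fun y => aut_indep _ (h1 y) σ
  exact aut_indep _ h2 τ

/-- For a finite field `F` of characteristic 2: if `q : F → F` is quadratic over the prime field, i.e. `(x, y) ↦ q (x + y) + q x + q y` is additive in each variable, then `q x = Σ c_{σ,τ} σ(x) τ(x)` for some coefficients indexed by pairs of field automorphisms. -/
theorem result {F : Type*} [Field F] [Fintype F] [CharP F 2]
    (q : F → F)
    (hq : ∀ x y z : F, q (x + y + z) + q (x + y) + q (x + z) + q (y + z) + q x + q y + q z = 0) :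
    ∃ (s : Finset ((F ≃+* F) × (F ≃+* F))) (c : (F ≃+* F) × (F ≃+* F) → F),
      ∀ x : F, q x = ∑ p ∈ s, c p * (p.1 x * p.2 x) := by
  classical
  have h2 : (2 : F) = 0 := CharTwo.two_eq_zero
  have hq0 : q 0 = 0 := by
    have := hq 0 0 0
    simp only [add_zero] at this
    linear_combination this - 3 * q 0 * h2
  have hadd : ∀ X Y Z, q (X + (Y + Z)) + q X + q (Y + Z) =
      (q (X + Y) + q X + q Y) + (q (X + Z) + q X + q Z) := by
    intro X Y Z
    rw [← add_assoc]
    linear_combination hq X Y Z - (q (X + Y) + q (X + Z) + q X + q Y + q Z) * h2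
  let B1 : F → F →+ F := fun X => AddMonoidHom.mk' (fun Y => q (X + Y) + q X + q Y) (hadd X)
  have hB1 : ∀ X Y, B1 X Y = q (X + Y) + q X + q Y := fun _ _ => rfl
  let B : F →+ F →+ F := AddMonoidHom.mk' B1 (by
    intro X X'
    ext Y
    rw [AddMonoidHom.add_apply, hB1, hB1, hB1]
    have := hadd Y X X'
    rw [add_comm Y (X + X'), add_comm Y X, add_comm Y X'] at this
    linear_combination this)
  have hB : ∀ X Y, B X Y = q (X + Y) + q X + q Y := fun _ _ => rfl
  obtain ⟨c, hc⟩ := biadd_repr B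
  -- symmetry
  have hsymm : ∀ σ τ, c σ τ = c τ σ := by
    intro σ τ
    have h1 : ∀ x y : F, ∑ σ, ∑ τ, (c σ τ - c τ σ) * (σ x * τ y) = 0 := by
      intro x y
      have h3 : B x y = B y x := by rw [hB, hB, add_comm x y]; ring
      rw [hc x y, hc y x, Finset.sum_comm (s := Finset.univ) (t := Finset.univ)
        (f := fun σ τ => c σ τ * (σ y * τ x))] at h3
      rw [← sub_eq_zero, ← Finset.sum_sub_distrib] at h3
      rw [← h3]
      apply Finset.sum_congr rfl
      intro σ _
      rw [← Finset.sum_sub_distrib]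
      apply Finset.sum_congr rfl
      intro τ _
      ring
    exact sub_eq_zero.1 (biadd_indep _ h1 σ τ)
  -- an order on the automorphisms
  let e := Fintype.equivFin (F ≃+* F)
  let a : (F ≃+* F) → (F ≃+* F) → F := fun σ τ => if e σ < e τ then c σ τ else 0
  let A : F → F → F := fun x y => ∑ σ, ∑ τ, a σ τ * (σ x * τ y)
  let D : F → F → F := fun x y => ∑ σ, c σ σ * (σ x * σ y)
  have hsplit : ∀ x y, B x y = A x y + A y x + D x y := by
    intro x y
    have hA2 : A y x = ∑ σ, ∑ τ, a τ σ * (σ x * τ y) := by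
      show ∑ σ, ∑ τ, a σ τ * (σ y * τ x) = _
      rw [Finset.sum_comm]
      apply Finset.sum_congr rfl
      intro σ _
      apply Finset.sum_congr rfl
      intro τ _
      ring
    have hD : D x y = ∑ σ, ∑ τ, (if σ = τ then c σ τ else 0) * (σ x * τ y) := by
      show ∑ σ, c σ σ * (σ x * σ y) = _
      apply Finset.sum_congr rfl
      intro σ _
      rw [Finset.sum_eq_single σ]
      · rw [if_pos rfl]
      · intro τ _ hτ
        rw [if_neg (Ne.symm hτ), zero_mul]
      · intro h; exact absurd (Finset.mem_univ σ) h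
    rw [hc, hA2, hD]
    show _ = ∑ σ, ∑ τ, a σ τ * (σ x * τ y) + _ + _
    rw [← Finset.sum_add_distrib, ← Finset.sum_add_distrib]
    apply Finset.sum_congr rfl
    intro σ _
    rw [← Finset.sum_add_distrib, ← Finset.sum_add_distrib]
    apply Finset.sum_congr rfl
    intro τ _
    rw [← add_mul, ← add_mul]
    congr 1
    show c σ τ = (if e σ < e τ then c σ τ else 0) + (if e τ < e σ then c τ σ else 0) +
      (if σ = τ then c σ τ else 0)
    rcases lt_trichotomy (e σ) (e τ) with hlt | heq | hgt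
    · have hne : σ ≠ τ := by rintro rfl; exact lt_irrefl _ hlt
      rw [if_pos hlt, if_neg (not_lt.2 hlt.le), if_neg hne]; ring
    · have heq' : σ = τ := e.injective heq
      subst heq'
      rw [if_neg (lt_irrefl _), if_pos rfl]; ring
    · have hne : σ ≠ τ := by rintro rfl; exact lt_irrefl _ hgt
      rw [if_neg (not_lt.2 hgt.le), if_pos hgt, if_neg hne, hsymm τ σ]; ring
  let fr : F ≃+* F := frobeniusEquiv F 2
  have hfr : ∀ (σ : F ≃+* F) (x : F), (fr * σ) x = σ x * σ x := by
    intro σ x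
    show fr (σ x) = _
    rw [frobeniusEquiv_apply, frobenius_def, pow_two]
  -- the diagonal vanishes
  have hdiag : ∀ σ, c σ σ = 0 := by
    have h1 : ∀ x : F, ∑ ν : F ≃+* F, c (fr⁻¹ * ν) (fr⁻¹ * ν) * ν x = 0 := by
      intro x
      have h3 : B x x = 0 := by
        rw [hB, CharTwo.add_self_eq_zero, hq0]
        linear_combination q x * h2
      rw [hsplit, CharTwo.add_self_eq_zero, zero_add] at h3
      rw [← h3]
      show _ = ∑ σ, c σ σ * (σ x * σ x)
      rw [← Equiv.sum_comp (Equiv.mulLeft fr)]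
      apply Finset.sum_congr rfl
      intro σ _
      rw [Equiv.coe_mulLeft, inv_mul_cancel_left, hfr]
    intro σ
    have := aut_indep _ h1 (fr * σ)
    rwa [inv_mul_cancel_left] at this
  have hD0 : ∀ x y, D x y = 0 := by
    intro x y
    apply Finset.sum_eq_zero
    intro σ _
    rw [hdiag, zero_mul]
  -- `A` is biadditive
  have hAl : ∀ x x' y, A (x + x') y = A x y + A x' y := by
    intro x x' y
    show ∑ σ, ∑ τ, a σ τ * (σ (x + x') * τ y) = ∑ σ, ∑ τ, a σ τ * (σ x * τ y) +
      ∑ σ, ∑ τ, a σ τ * (σ x' * τ y)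
    rw [← Finset.sum_add_distrib]
    apply Finset.sum_congr rfl
    intro σ _
    rw [← Finset.sum_add_distrib]
    apply Finset.sum_congr rfl
    intro τ _
    rw [map_add]; ring
  have hAr : ∀ x y y', A x (y + y') = A x y + A x y' := by
    intro x y y'
    show ∑ σ, ∑ τ, a σ τ * (σ x * τ (y + y')) = ∑ σ, ∑ τ, a σ τ * (σ x * τ y) +
      ∑ σ, ∑ τ, a σ τ * (σ x * τ y')
    rw [← Finset.sum_add_distrib]
    apply Finset.sum_congr rfl
    intro σ _
    rw [← Finset.sum_add_distrib]
    apply Finset.sum_congr rfl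
    intro τ _
    rw [map_add]; ring
  let r : F →+ F := AddMonoidHom.mk' (fun x => q x + A x x) (by
    intro x y
    have h3 := hsplit x y
    rw [hB, hD0, add_zero] at h3
    show q (x + y) + A (x + y) (x + y) = q x + A x x + (q y + A y y)
    rw [hAl, hAr, hAr]
    linear_combination h3 + (A x y + A y x - q x - q y) * h2)
  have hr : ∀ x, r x = q x + A x x := fun _ => rfl
  obtain ⟨d, hd⟩ := add_repr r
  refine ⟨Finset.univ, fun p => a p.1 p.2 + (if p.1 = p.2 then d (fr * p.1) else 0), ?_⟩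
  intro x
  have h4 : q x = A x x + r x := by
    rw [hr]
    linear_combination - A x x * h2
  rw [h4, hd, ← Finset.univ_product_univ, Finset.sum_product]
  have h5 : ∑ ν, d ν * ν x = ∑ σ : F ≃+* F, ∑ τ : F ≃+* F,
      (if σ = τ then d (fr * σ) else 0) * (σ x * τ x) := by
    rw [← Equiv.sum_comp (Equiv.mulLeft fr)]
    apply Finset.sum_congr rfl
    intro σ _
    rw [Finset.sum_eq_single σ]
    · rw [if_pos rfl, Equiv.coe_mulLeft, hfr]
    · intro τ _ hτ
      rw [if_neg (Ne.symm hτ), zero_mul]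
    · intro h; exact absurd (Finset.mem_univ σ) h
  rw [h5]
  show ∑ σ, ∑ τ, a σ τ * (σ x * τ x) + _ = _
  rw [← Finset.sum_add_distrib]
  apply Finset.sum_congr rfl
  intro σ _
  rw [← Finset.sum_add_distrib]
  apply Finset.sum_congr rfl
  intro τ _
  ring

end Cfsg.Agent.S1168
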