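import Cfsg.Statements.S1176
import Cfsg.Agent.Lib.Helper20.Isolated

set_option autoImplicit false
open Cfsg

namespace Cfsg.Agent.S1176

open Cfsg.Agent.Lib.Helper20
open scoped commutatorElement

theorem result {G : Type*} [Group G] [Finite G] (x₀ : G) (hx₀ : orderOf x₀ = 2) (ha : ∀ x : G, IsConj x₀ x → IsPGroup 2 ↥(Subgroup.closure {y : G | IsConj x₀ y ∧ Commute y x}) ∧ ⁅⁅Subgroup.closure {y : G | IsConj x₀ y ∧ Commute y x}, Subgroup.closure {y : G | IsConj x₀ y ∧ Commute y x}⁆, Subgroup.closure {y : G | IsConj x₀ y ∧ Commute y x}⁆ = ⊥) (hb : ∀ x y : G, IsConj x₀ x → IsConj x₀ y → x ≠ y → Commute x y → IsConj x₀ (x * y)) (x y : G) (hx : IsConj x₀ x) (hy : IsConj x₀ y) (heven : Even (orderOf (x * y))) (hgt : 2 < orderOf (x * y)) : orderOf (x * y) = 4 := by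
  have sq : ∀ u : G, IsConj x₀ u → u * u = 1 := by
    intro u hu
    obtain ⟨c, hc⟩ := isConj_iff.mp hu
    have h0 : x₀ * x₀ = 1 := by
      have := pow_orderOf_eq_one x₀
      rwa [hx₀, pow_two] at this
    rw [← hc]
    calc c * x₀ * c⁻¹ * (c * x₀ * c⁻¹) = c * (x₀ * x₀) * c⁻¹ := by group
      _ = 1 := by rw [h0]; group
  have hxx := sq x hx
  have hyy := sq y hy
  obtain ⟨k, hk⟩ := heven
  set r := x * y with hr
  have hrinv : r⁻¹ = y * x := by
    apply inv_eq_of_mul_eq_one_left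
    calc y * x * (x * y) = y * (x * x) * y := by group
      _ = 1 := by rw [hxx, mul_one, hyy]
  have hinvx : x * r = r⁻¹ * x := by
    rw [hrinv, hr]
    calc x * (x * y) = (x * x) * y := by group
      _ = y * (x * x) := by rw [hxx]; simp
      _ = _ := by group
  have hinvy : y * r = r⁻¹ * y := by
    rw [hrinv, hr]; group
  have hk0 : 0 < k := by omega
  have hrk : r ^ k ≠ 1 := by
    intro h
    have := orderOf_le_of_pow_eq_one hk0 h
    omega
  have hrkk : r ^ k * r ^ k = 1 := by rw [← pow_add, ← hk, pow_orderOf_eq_one]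
  have hrkinv : (r ^ k)⁻¹ = r ^ k := inv_eq_of_mul_eq_one_left hrkk
  have hcx : x * r ^ k = r ^ k * x := by rw [inv_pow_comm hinvx, hrkinv]
  have hcy : y * r ^ k = r ^ k * y := by rw [inv_pow_comm hinvy, hrkinv]
  have hconj : IsConj x₀ (x * r ^ k) := by
    rcases Nat.even_or_odd' k with ⟨j, hj | hj⟩
    · have h1 : x * r ^ k = (r ^ j)⁻¹ * x * ((r ^ j)⁻¹)⁻¹ := by
        rw [hj, two_mul, pow_add, ← mul_assoc, inv_pow_comm hinvx, inv_inv]
      rw [h1]
      exact hx.trans (isConj_iff.mpr ⟨_, rfl⟩)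
    · have h1 : x * r ^ k = (r ^ j)⁻¹ * y * ((r ^ j)⁻¹)⁻¹ := by
        have h2 : x * r = y := by rw [hr, ← mul_assoc, hxx, one_mul]
        have h3 : r ^ k = r ^ j * r * r ^ j := by rw [hj, ← pow_succ, ← pow_add]; congr 1; omega
        rw [h3, ← mul_assoc, ← mul_assoc, inv_pow_comm hinvx, mul_assoc _ x r, h2, inv_inv]
      rw [h1]
      exact hy.trans (isConj_iff.mpr ⟨_, rfl⟩)
  have hw : IsConj x₀ (r ^ k) := by
    have h1 := hb x (x * r ^ k) hx hconj (by intro h; exact hrk (by simpa using h.symm)) (by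
      unfold Commute SemiconjBy
      rw [mul_assoc x (r ^ k) x, ← hcx])
    rwa [← mul_assoc, hxx, one_mul] at h1
  obtain ⟨-, h3⟩ := ha _ hw
  set W := Subgroup.closure {y : G | IsConj x₀ y ∧ Commute y (r ^ k)} with hW
  have hxW : x ∈ W := Subgroup.subset_closure ⟨hx, hcx⟩
  have hyW : y ∈ W := Subgroup.subset_closure ⟨hy, hcy⟩
  have h4 : ⁅⁅x, y⁆, x⁆ ∈ ⁅⁅W, W⁆, W⁆ :=
    Subgroup.commutator_mem_commutator (Subgroup.commutator_mem_commutator hxW hyW) hxW
  rw [h3, Subgroup.mem_bot] at h4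
  have hxi : x⁻¹ = x := inv_eq_of_mul_eq_one_left hxx
  have hyi : y⁻¹ = y := inv_eq_of_mul_eq_one_left hyy
  have h5 : r ^ 4 = 1 := by
    rw [← h4]
    simp only [commutatorElement_def, mul_inv_rev, hxi, hyi, hr]
    simp only [pow_succ, pow_zero, one_mul, mul_assoc, hxx, mul_one]
  have h6 : orderOf r ∣ 4 := orderOf_dvd_of_pow_eq_one h5
  have h7 : orderOf r ≤ 4 := Nat.le_of_dvd (by norm_num) h6
  interval_cases h : orderOf r
  · omega
  · rfl

end Cfsg.Agent.S1176
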