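import Cfsg.Statements.S1177
import Mathlib

set_option autoImplicit false
open Cfsg

namespace Cfsg.Agent.S1177

theorem result {G : Type*} [Group G] [Finite G] (A : Subgroup G) (hA : Cfsg.IsElementaryAbelian 2 A) (hA1 : A ≠ ⊥) (hTI : ∀ g : G, A.map (MulAut.conj g).toMonoidHom ⊓ A = ⊥ ∨ A.map (MulAut.conj g).toMonoidHom = A) (hb : ∀ g : G, (∀ a ∈ A, ∀ b ∈ A.map (MulAut.conj g).toMonoidHom, a * b = b * a) → A.map (MulAut.conj g).toMonoidHom = A) (a : G) (ha : a ∈ A) (ha1 : a ≠ 1) (g : G) (hg : A.map (MulAut.conj g).toMonoidHom ≤ Subgroup.centralizer ({a} : Set G)) : A.map (MulAut.conj g).toMonoidHom = A := by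
  obtain ⟨hAc, hA2⟩ := hA
  have hAcomm : ∀ x ∈ A, ∀ y ∈ A, x * y = y * x := by
    intro x hx y hy
    have := hAc.is_comm.comm ⟨x, hx⟩ ⟨y, hy⟩
    exact congrArg Subtype.val this
  set c : G → Subgroup G := fun u => A.map (MulAut.conj u).toMonoidHom with hc
  have mem_c : ∀ u x, x ∈ c u ↔ u⁻¹ * x * u ∈ A := by
    intro u x
    constructor
    · rintro ⟨y, hy, rfl⟩
      have : u⁻¹ * ((MulAut.conj u).toMonoidHom y) * u = y := by
        simp [mul_assoc]
      rw [this]; exact hy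
    · intro h
      exact ⟨_, h, by simp [mul_assoc]⟩
  have c_one : c 1 = A := by
    ext x; rw [mem_c]; simp
  have c_eq : ∀ u v, c (v⁻¹ * u) = A → c u = c v := by
    intro u v h
    ext x
    rw [mem_c, mem_c]
    have := Subgroup.ext_iff.mp h (v⁻¹ * x * v)
    rw [mem_c] at this
    rw [← this]
    have e : (v⁻¹ * u)⁻¹ * (v⁻¹ * x * v) * (v⁻¹ * u) = u⁻¹ * x * u := by group
    rw [e]
  have TI' : ∀ u v c₀, c₀ ≠ 1 → c₀ ∈ c u → c₀ ∈ c v → c u = c v := by
    intro u v c₀ h0 hu hv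
    apply c_eq
    rcases hTI (v⁻¹ * u) with h | h
    · exfalso
      have h1 : v⁻¹ * c₀ * v ∈ c (v⁻¹ * u) ⊓ A := by
        refine Subgroup.mem_inf.mpr ⟨?_, (mem_c v c₀).mp hv⟩
        rw [mem_c]
        have e : (v⁻¹ * u)⁻¹ * (v⁻¹ * c₀ * v) * (v⁻¹ * u) = u⁻¹ * c₀ * u := by group
        rw [e]; exact (mem_c u c₀).mp hu
      rw [h, Subgroup.mem_bot] at h1
      apply h0
      calc c₀ = v * (v⁻¹ * c₀ * v) * v⁻¹ := by group
        _ = 1 := by rw [h1]; group
    · exact h
  have hb' : ∀ u v, (∀ p ∈ c u, ∀ q ∈ c v, p * q = q * p) → c u = c v := by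
    intro u v h
    apply c_eq
    apply hb
    intro x hx y hy
    have hy' : y ∈ c (v⁻¹ * u) := hy
    rw [mem_c] at hy'
    have h1 : v * y * v⁻¹ ∈ c u := by
      rw [mem_c]
      have e : u⁻¹ * (v * y * v⁻¹) * u = (v⁻¹ * u)⁻¹ * y * (v⁻¹ * u) := by group
      rw [e]; exact hy'
    have h2 : v * x * v⁻¹ ∈ c v := by
      rw [mem_c]
      have e : v⁻¹ * (v * x * v⁻¹) * v = x := by group
      rw [e]; exact hx
    have h3 := h _ h1 _ h2
    calc x * y = v⁻¹ * ((v * x * v⁻¹) * (v * y * v⁻¹)) * v := by group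
      _ = v⁻¹ * ((v * y * v⁻¹) * (v * x * v⁻¹)) * v := by rw [h3]
      _ = y * x := by group
  have mutl : ∀ u v, (∀ p ∈ c u, ∀ q ∈ c v, p * q * p⁻¹ ∈ c v) →
      (∀ p ∈ c u, ∀ q ∈ c v, q * p * q⁻¹ ∈ c u) → c u = c v := by
    intro u v h1 h2
    by_contra hne
    apply hne
    apply hb'
    intro p hp q hq
    by_contra hpq
    apply hne
    apply TI' u v (p * q * p⁻¹ * q⁻¹)
    · intro h
      apply hpq
      calc p * q = (p * q * p⁻¹ * q⁻¹) * (q * p) := by group
        _ = q * p := by rw [h, one_mul]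
    · have : p * q * p⁻¹ * q⁻¹ = p * (q * p * q⁻¹)⁻¹ := by group
      rw [this]
      exact (c u).mul_mem hp ((c u).inv_mem (h2 p hp q hq))
    · exact (c v).mul_mem (h1 p hp q hq) ((c v).inv_mem hq)
  -- conjugation moves c
  have conj_c : ∀ w u x, x ∈ c u → w * x * w⁻¹ ∈ c (w * u) := by
    intro w u x hx
    rw [mem_c] at hx ⊢
    have e : (w * u)⁻¹ * (w * x * w⁻¹) * (w * u) = u⁻¹ * x * u := by group
    rw [e]; exact hx
  have sqB : ∀ b ∈ c g, b * b = 1 := by
    intro b hb0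
    rw [mem_c] at hb0
    have := hA2 _ hb0
    rw [pow_two] at this
    calc b * b = g * ((g⁻¹ * b * g) * (g⁻¹ * b * g)) * g⁻¹ := by group
      _ = 1 := by rw [this]; group
  have sqA : ∀ x ∈ A, x * x = 1 := by
    intro x hx
    have := hA2 _ hx
    rwa [pow_two] at this
  -- Step 1
  have step1 : ∀ b ∈ c g, ∀ x ∈ A, b * x * b⁻¹ ∈ A := by
    intro b hb0 x hx
    have hba : b * a = a * b := by
      have := hg hb0
      rw [Subgroup.mem_centralizer_singleton_iff] at this
      exact this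
    have h1 : c b = c 1 := by
      apply TI' b 1 a ha1
      · rw [mem_c]
        have : b⁻¹ * a * b = a := by rw [mul_assoc, ← hba]; group
        rw [this]; exact ha
      · rw [c_one]; exact ha
    have h2 := conj_c b 1 x (by rw [c_one]; exact hx)
    rw [mul_one, h1, c_one] at h2
    exact h2
  -- Step 2
  have step2 : ∀ b ∈ c g, ∀ x ∈ A, b * (x * b * x⁻¹) = (x * b * x⁻¹) * b := by
    intro b hb0 x hx
    have hy := step1 b hb0 x hx
    set y := b * x * b⁻¹ with hy'
    have hbb := sqB b hb0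
    have hbi : b⁻¹ = b := inv_eq_of_mul_eq_one_left hbb
    have hxi : x⁻¹ = x := inv_eq_of_mul_eq_one_left (sqA x hx)
    have e1 : b * (x * b * x⁻¹) = y * x := by
      rw [hy', hxi, hbi]; group
    have e2 : (x * b * x⁻¹) * b = x * y := by
      rw [hy', hxi, hbi]; group
    rw [e1, e2]
    exact hAcomm y hy x hx
  -- Step 3
  have step3 : ∀ x ∈ A, ∀ b ∈ c g, ∀ q ∈ c (x * g), b * q * b⁻¹ ∈ c (x * g) := by
    intro x hx b hb0 q hq
    by_cases hb1 : b = 1
    · subst hb1; simpa using hq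
    have h1 : c (b * (x * g)) = c (x * g) := by
      apply TI' _ _ (x * b * x⁻¹)
      · intro h
        apply hb1
        calc b = x⁻¹ * (x * b * x⁻¹) * x := by group
          _ = 1 := by rw [h]; group
      · have := conj_c b (x * g) (x * b * x⁻¹) (conj_c x g b hb0)
        have e : b * (x * b * x⁻¹) * b⁻¹ = x * b * x⁻¹ := by
          rw [step2 b hb0 x hx]; group
        rwa [e] at this
      · exact conj_c x g b hb0
    rw [← h1]
    exact conj_c b _ q hq
  have step4 : ∀ x ∈ A, c (x * g) = c g := by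
    intro x hx
    apply mutl
    · intro p hp q hq
      -- p ∈ c (x g), q ∈ c g ; p q p⁻¹ ∈ c g
      have hp' : x⁻¹ * p * x ∈ c g := by
        have := conj_c x⁻¹ _ p hp
        simpa [← mul_assoc] using this
      have hq' : x⁻¹ * q * x ∈ c (x⁻¹ * g) := by
        have := conj_c x⁻¹ _ q hq
        simpa using this
      have h3 := step3 x⁻¹ (A.inv_mem hx) _ hp' _ hq'
      have h4 := conj_c x _ _ h3
      have e1 : x * (x⁻¹ * g) = g := by group
      have e2 : x * (x⁻¹ * p * x * (x⁻¹ * q * x) * (x⁻¹ * p * x)⁻¹) * x⁻¹ = p * q * p⁻¹ := by group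
      rwa [e1, e2] at h4
    · intro p hp q hq
      exact step3 x hx q hq p hp
  have step5 : ∀ x ∈ A, ∀ b ∈ c g, x * b * x⁻¹ ∈ c g := by
    intro x hx b hb0
    rw [← step4 x hx]
    exact conj_c x g b hb0
  have : c g = c 1 := by
    apply mutl
    · intro p hp q hq
      rw [c_one] at hq ⊢
      exact step1 p hp q hq
    · intro p hp q hq
      rw [c_one] at hq
      exact step5 q hq p hp
  rw [c_one] at this
  exact this

end Cfsg.Agent.S1177
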