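import Cfsg.Statements.S1178

set_option autoImplicit false
open Cfsg

namespace Cfsg.Agent.S1178

theorem result {G : Type*} [Group G] [Finite G] (S : Sylow 2 G) (A : Subgroup G) (hW : Cfsg.IsWeaklyClosed A (S : Subgroup G)) (g : G) (hc : ∀ a ∈ A, ∀ b ∈ A.map (MulAut.conj g).toMonoidHom, a * b = b * a) : A.map (MulAut.conj g).toMonoidHom = A := by
  obtain ⟨hAS, hcl⟩ := hW
  set B := A.map (MulAut.conj g).toMonoidHom with hB
  have hA2 : IsPGroup 2 A := S.isPGroup'.to_le hAS
  have hB2 : IsPGroup 2 B := hA2.map _
  have hnorm : A ≤ Subgroup.normalizer (B : Set G) := by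
    intro a ha
    rw [Subgroup.mem_normalizer_iff]
    intro b
    constructor
    · intro hb
      have : a * b * a⁻¹ = b := by rw [hc a ha b hb]; group
      rwa [this]
    · intro hb
      have h1 := hc a ha _ hb
      have : a * b * a⁻¹ = b := by
        have h2 : a * (a * b * a⁻¹) = a * b := by rw [h1]; group
        exact mul_left_cancel h2
      rwa [this] at hb
  have hAB : IsPGroup 2 (A ⊔ B : Subgroup G) := hA2.to_sup_of_normal_right' hB2 hnorm
  obtain ⟨P, hP⟩ := hAB.exists_le_sylow
  obtain ⟨h, hh⟩ := MulAction.exists_smul_eq G P S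
  have hPS : (P : Subgroup G).map (MulAut.conj h).toMonoidHom = S := by
    rw [← hh]; rfl
  have h1 : A.map (MulAut.conj h).toMonoidHom = A := by
    apply hcl
    rw [← hPS]
    exact Subgroup.map_mono (le_trans le_sup_left hP)
  have h2 : A.map (MulAut.conj (h * g)).toMonoidHom = A := by
    apply hcl
    rw [← hPS]
    have : A.map (MulAut.conj (h * g)).toMonoidHom = B.map (MulAut.conj h).toMonoidHom := by
      rw [hB, Subgroup.map_map]
      congr 1
      ext x
      simp [mul_assoc]
    rw [this]
    exact Subgroup.map_mono (le_trans le_sup_right hP)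
  have h3 : B.map (MulAut.conj h).toMonoidHom = A.map (MulAut.conj h).toMonoidHom := by
    rw [h1, ← h2, hB, Subgroup.map_map]
    congr 1
    ext x
    simp [mul_assoc]
  exact Subgroup.map_injective (MulAut.conj h).injective h3

end Cfsg.Agent.S1178
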