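import Cfsg.Statements.S1183
import Cfsg.Agent.Lib.Helper20.Isolated2
import Cfsg.Agent.Lib.Helper20.PResidual
import Cfsg.Agent.S1182

set_option autoImplicit false
open Cfsg

namespace Cfsg.Agent.S1183

open Cfsg.Agent.Lib.Helper20

theorem eq_one_of_odd_of_two_pow {G : Type*} [Group G] {r : G} (h : Odd (orderOf r)) {k : ℕ}
    (hk : r ^ 2 ^ k = 1) : r = 1 := by
  have h1 : orderOf r ∣ 2 ^ k := orderOf_dvd_of_pow_eq_one hk
  have h3 : Nat.Coprime (orderOf r) (2 ^ k) := Nat.Coprime.pow_right k h.coprime_two_right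
  exact orderOf_eq_one_iff.mp (Nat.eq_one_of_dvd_coprimes h3 dvd_rfl h1)

theorem odd_index {G : Type*} [Group G] [Finite G] (z : G) (hz : Cfsg.IsIsolatedInvolution z) :
    Odd (Subgroup.centralizer ({z} : Set G)).index := by
  have hz2 : IsPGroup 2 (Subgroup.zpowers z) := by
    apply IsPGroup.of_card (n := 1)
    rw [Nat.card_zpowers, hz.1, pow_one]
  obtain ⟨P, hP⟩ := hz2.exists_le_sylow
  have hzP : z ∈ (P : Subgroup G) := hP (Subgroup.mem_zpowers z)
  have hPC : (P : Subgroup G) ≤ Subgroup.centralizer ({z} : Set G) := by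
    intro p hp
    rw [Subgroup.mem_centralizer_singleton_iff]
    have hodd := iso_odd' hz p
    have hmem : p * z * p⁻¹ * z ∈ (P : Subgroup G) :=
      P.mul_mem (P.mul_mem (P.mul_mem hp hzP) (P.inv_mem hp)) hzP
    obtain ⟨k, hk⟩ := P.isPGroup' ⟨_, hmem⟩
    have hk' : (p * z * p⁻¹ * z) ^ 2 ^ k = 1 := by
      have := congrArg Subtype.val hk
      simpa using this
    have h1 := eq_one_of_odd_of_two_pow hodd hk'
    have hzz := iso_mul_self hz
    calc p * z = (p * z * p⁻¹ * z) * (z⁻¹ * p) := by group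
      _ = z * p := by rw [h1, iso_inv hz, one_mul]
  have h1 : (Subgroup.centralizer ({z} : Set G)).index ∣ (P : Subgroup G).index :=
    Subgroup.index_dvd_of_le hPC
  have h2 : ¬ 2 ∣ (P : Subgroup G).index := P.not_dvd_index
  rw [← Nat.not_even_iff_odd, even_iff_two_dvd]
  exact fun h => h2 (h.trans h1)

theorem result {G : Type*} [Group G] [Finite G] (z : G) (hz : Cfsg.IsIsolatedInvolution z) : Cfsg.pResidual 2 G = ⊤ ↔ Cfsg.pResidual 2 ↥(Subgroup.centralizer ({z} : Set G)) = ⊤ := by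
  set C := Subgroup.centralizer ({z} : Set G) with hC
  constructor
  · intro hG
    by_contra hne
    have := pResidual_normal 2 C
    have hQ : IsPGroup 2 (C ⧸ Cfsg.pResidual 2 C) := pResidual_quotient_isPGroup 2 C
    have : Nontrivial (C ⧸ Cfsg.pResidual 2 C) := by
      rw [QuotientGroup.nontrivial_iff]; exact hne
    have : Group.IsNilpotent (C ⧸ Cfsg.pResidual 2 C) := hQ.isNilpotent
    have hlt := Group.IsSolvable.commutator_lt_top_of_nontrivial (C ⧸ Cfsg.pResidual 2 C)
    have hof : Function.Surjective (Abelianization.of : (C ⧸ Cfsg.pResidual 2 C) →* _) :=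
      QuotientGroup.mk_surjective
    have hA : IsPGroup 2 (Abelianization (C ⧸ Cfsg.pResidual 2 C)) :=
      hQ.of_surjective Abelianization.of hof
    let ϕ : C →* Abelianization (C ⧸ Cfsg.pResidual 2 C) :=
      Abelianization.of.comp (QuotientGroup.mk' _)
    have hϕ : Function.Surjective ϕ :=
      hof.comp (QuotientGroup.mk'_surjective _)
    have : Nontrivial (Abelianization (C ⧸ Cfsg.pResidual 2 C)) := by
      unfold Abelianization
      rw [QuotientGroup.nontrivial_iff]; exact hlt.ne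
    obtain ⟨y, hy⟩ := exists_ne (1 : Abelianization (C ⧸ Cfsg.pResidual 2 C))
    obtain ⟨⟨c, hc⟩, rfl⟩ := hϕ y
    have hker := pResidual_le_ker hA (MonoidHom.transfer ϕ)
    rw [hG] at hker
    have h1 : MonoidHom.transfer ϕ c = 1 := hker (Subgroup.mem_top c)
    have h2 : MonoidHom.transfer ϕ c = ϕ ⟨c, hc⟩ ^ C.index := by
      apply transfer_eq_pow_of_hom
      intro k g₀ hk
      have hck : c ^ k ∈ C := C.pow_mem hc k
      obtain ⟨d, -, hd, hd'⟩ := Cfsg.Agent.S1182.result z hz ⊤ (by rw [Subgroup.mem_normalizer_iff]; simp) (c ^ k) (g₀⁻¹ * c ^ k * g₀)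
        (Subgroup.mem_top _) (Subgroup.mem_top _)
        (Subgroup.mem_centralizer_singleton_iff.mp hck) (Subgroup.mem_centralizer_singleton_iff.mp hk)
        g₀⁻¹ (Subgroup.mem_top _) (by group)
      have hdC : d ∈ C := Subgroup.mem_centralizer_singleton_iff.mpr hd.eq
      have e : (⟨g₀⁻¹ * c ^ k * g₀, hk⟩ : C) = ⟨d, hdC⟩ * ⟨c, hc⟩ ^ k * ⟨d, hdC⟩⁻¹ := by
        apply Subtype.ext
        simp [hd']
      rw [e, map_mul, map_mul, map_inv, map_pow, mul_comm, inv_mul_cancel_left]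
    rw [h1] at h2
    obtain ⟨k, hk⟩ := hA (ϕ ⟨c, hc⟩)
    have h3 : orderOf (ϕ ⟨c, hc⟩) ∣ C.index := orderOf_dvd_of_pow_eq_one h2.symm
    exact hy (eq_one_of_odd_of_two_pow (Odd.of_dvd_nat (odd_index z hz) h3) hk)
  · intro hCt
    rw [eq_top_iff]
    intro g _
    obtain ⟨k, h1, h2, h3⟩ := iso_K_surj hz (isConj_iff.mpr ⟨g, rfl⟩)
    have hkc : k⁻¹ * g ∈ C := by
      rw [hC, Subgroup.mem_centralizer_singleton_iff]
      have : g * z = k * z * k⁻¹ * g := by rw [h3]; group
      rw [mul_assoc, this]; group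
    have hk : k ∈ Cfsg.pResidual 2 G := Subgroup.subset_closure h1.coprime_two_right
    have hc : k⁻¹ * g ∈ Cfsg.pResidual 2 G := by
      apply pResidual_map_subtype_le 2 C
      rw [hCt]
      exact ⟨⟨_, hkc⟩, Subgroup.mem_top _, rfl⟩
    have : g = k * (k⁻¹ * g) := by group
    rw [this]
    exact Subgroup.mul_mem _ hk hc

end Cfsg.Agent.S1183
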