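import Cfsg.Statements.S1184
import Cfsg.Agent.Lib.Helper20.Isolated

set_option autoImplicit false
open Cfsg

namespace Cfsg.Agent.S1184

open Cfsg.Agent.Lib.Helper20

theorem result {G : Type*} [Group G] [Finite G] (z : G) (hz : Cfsg.IsIsolatedInvolution z) (g h : G) (hne : g * z * g⁻¹ ≠ h * z * h⁻¹) : ¬ Commute (g * z * g⁻¹ * (h * z * h⁻¹)) z := by
  intro hC
  set s := g * z * g⁻¹ with hs
  set t := h * z * h⁻¹ with ht
  have hss : s * s = 1 := iso_mul_self (iso_conj hz g)
  have htt : t * t = 1 := iso_mul_self (iso_conj hz h)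
  have hzz := iso_mul_self hz
  have hrodd : Odd (orderOf (s * t)) := iso_odd_conj hz g h
  have huodd : Odd (orderOf (s * z)) := iso_odd' hz g
  set r := s * t with hr
  set u := s * z with hu
  have hrinv : r⁻¹ = t * s := by
    apply inv_eq_of_mul_eq_one_left
    calc t * s * (s * t) = t * (s * s) * t := by group
      _ = 1 := by rw [hss, mul_one, htt]
  -- u inverts r
  have h1 : u * r = r⁻¹ * u := by
    rw [hu, mul_assoc, ← hC.eq, hrinv, hr]
    calc s * (s * t * z) = (s * s) * t * z := by group
      _ = t * (s * s) * z := by rw [hss]; simp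
      _ = _ := by group
  have h2 : Commute (u ^ 2) r := by
    unfold Commute SemiconjBy
    have h1' : u * r⁻¹ = r * u := by
      calc u * r⁻¹ = r * (r⁻¹ * u) * r⁻¹ := by group
        _ = r * (u * r) * r⁻¹ := by rw [h1]
        _ = r * u := by group
    rw [pow_two, mul_assoc, h1, ← mul_assoc, h1', mul_assoc]
  obtain ⟨n, hn⟩ := odd_mem_zpowers_sq huodd
  have h3 : Commute u r := by rw [hn]; exact h2.pow_left n
  have h4 : r = r⁻¹ := by
    have := h3.eq
    rw [h1] at this
    exact (mul_right_cancel this).symm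
  have h5 : r ^ 2 = (1 : G) ^ 2 := by
    rw [pow_two, one_pow]; nth_rewrite 1 [h4]; group
  have h6 : r = 1 := odd_sq_inj hrodd (by simp) h5
  apply hne
  calc s = s * (t * t) := by rw [htt, mul_one]
    _ = r * t := by rw [hr]; group
    _ = t := by rw [h6, one_mul]

end Cfsg.Agent.S1184
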