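import Cfsg.Statements.S1185
import Cfsg.Agent.Lib.Helper20.Isolated

set_option autoImplicit false
open Cfsg

namespace Cfsg.Agent.S1185

open Cfsg.Agent.Lib.Helper20

theorem result {G : Type*} [Group G] [Finite G] (z : G) (hz : Cfsg.IsIsolatedInvolution z) (g : G) : ∃! k : G, (Odd (orderOf k) ∧ z * k * z⁻¹ = k⁻¹) ∧ g⁻¹ * k ∈ Subgroup.centralizer ({z} : Set G) := by
  obtain ⟨n, h1, h2, h3⟩ := iso_sqrt hz g
  have key : ∀ k : G, z * k * z⁻¹ = k⁻¹ → k * z * k⁻¹ = k ^ 2 * z := by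
    intro k hk
    have : z * k⁻¹ = k * z := by
      calc z * k⁻¹ = z * (z * k * z⁻¹) := by rw [hk]
        _ = (z * z) * k * z⁻¹ := by group
        _ = k * z := by rw [iso_mul_self hz, iso_inv hz, one_mul]
    rw [mul_assoc, this, pow_two]; group
  refine ⟨_, ⟨⟨h1, h2⟩, ?_⟩, ?_⟩
  · rw [Subgroup.mem_centralizer_singleton_iff]
    set k := (g * z * g⁻¹ * z) ^ n
    have : k * z = g * z * g⁻¹ * k := by rw [← h3]; group
    calc g⁻¹ * k * z = g⁻¹ * (k * z) := by group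
      _ = g⁻¹ * (g * z * g⁻¹ * k) := by rw [this]
      _ = _ := by group
  · rintro k' ⟨⟨h1', h2'⟩, h3'⟩
    rw [Subgroup.mem_centralizer_singleton_iff] at h3'
    apply odd_sq_inj h1' h1
    have e1 : k' * z * k'⁻¹ = g * z * g⁻¹ := by
      calc k' * z * k'⁻¹ = g * (g⁻¹ * k' * z) * k'⁻¹ := by group
        _ = g * (z * (g⁻¹ * k')) * k'⁻¹ := by rw [h3']
        _ = _ := by group
    rw [key k' h2'] at e1
    rw [key _ h2] at h3
    exact mul_right_cancel (e1.trans h3.symm)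

end Cfsg.Agent.S1185
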