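import Cfsg.Statements.S1186
import Cfsg.Agent.Lib.Helper20.Isolated2

set_option autoImplicit false
open Cfsg

namespace Cfsg.Agent.S1186

open Cfsg.Agent.Lib.Helper20

variable {G : Type*} [Group G]

theorem lemA {z s a b : G} (hsz : Commute s z)
    (ha3 : Commute a s) (hb2 : z * b * z⁻¹ = b⁻¹) (hb3 : Commute b (s * z)) :
    (a * z * a⁻¹) * (a * b * z * b⁻¹ * a⁻¹) * (a * z * a⁻¹)⁻¹ = s * (a * b * z * b⁻¹ * a⁻¹) * s⁻¹ := by
  have hsa : s * a * s⁻¹ = a := by rw [← ha3.eq]; group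
  have hsz' : s * z * s⁻¹ = z := by rw [hsz.eq]; group
  have hsb : s * b * s⁻¹ = b⁻¹ := by
    have h1 : s * b⁻¹ * s⁻¹ = b := by
      rw [← hb2]
      calc s * (z * b * z⁻¹) * s⁻¹ = (s * z * b) * (s * z)⁻¹ := by group
        _ = (b * (s * z)) * (s * z)⁻¹ := by rw [hb3.eq]
        _ = b := by group
    calc s * b * s⁻¹ = (s * b⁻¹ * s⁻¹)⁻¹ := by group
      _ = b⁻¹ := by rw [h1]
  calc (a * z * a⁻¹) * (a * b * z * b⁻¹ * a⁻¹) * (a * z * a⁻¹)⁻¹
      = a * (z * b * z⁻¹) * z * (z * b * z⁻¹)⁻¹ * a⁻¹ := by group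
    _ = a * b⁻¹ * z * (b⁻¹)⁻¹ * a⁻¹ := by rw [hb2]
    _ = (s * a * s⁻¹) * (s * b * s⁻¹) * (s * z * s⁻¹) * (s * b * s⁻¹)⁻¹ * (s * a * s⁻¹)⁻¹ := by
        rw [hsa, hsb, hsz']
    _ = _ := by group

theorem result {G : Type*} [Group G] [Finite G] (z : G) (hz : Cfsg.IsIsolatedInvolution z) (s : G) (hs : orderOf s = 2) (hsz : Commute s z) : Nat.card G = Nat.card (Subgroup.centralizer ({z} : Set G)) * Nat.card {k : G // Odd (orderOf k) ∧ z * k * z⁻¹ = k⁻¹ ∧ Commute k (s * z)} * Nat.card {k : G // Odd (orderOf k) ∧ z * k * z⁻¹ = k⁻¹ ∧ Commute k s} := by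
  have hss : s * s = 1 := by
    have := pow_orderOf_eq_one s
    rwa [hs, pow_two] at this
  have hsi : s⁻¹ = s := inv_eq_of_mul_eq_one_left hss
  -- first bijection
  let f1 : {k : G // Odd (orderOf k) ∧ z * k * z⁻¹ = k⁻¹} × (Subgroup.centralizer ({z} : Set G)) → G :=
    fun p => p.1.1 * p.2.1
  have hf1 : Function.Bijective f1 := by
    constructor
    · rintro ⟨⟨k, hk1, hk2⟩, ⟨c, hc⟩⟩ ⟨⟨k', hk1', hk2'⟩, ⟨c', hc'⟩⟩ h
      simp only [f1] at h
      rw [Subgroup.mem_centralizer_singleton_iff] at hc hc'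
      have hkk : k = k' := by
        apply iso_K_inj hz hk1 hk2 hk1' hk2'
        have e1 : k * z * k⁻¹ = (k * c) * z * (k * c)⁻¹ := by
          calc k * z * k⁻¹ = k * (z * c) * c⁻¹ * k⁻¹ := by group
            _ = k * (c * z) * c⁻¹ * k⁻¹ := by rw [hc]
            _ = _ := by group
        have e2 : k' * z * k'⁻¹ = (k' * c') * z * (k' * c')⁻¹ := by
          calc k' * z * k'⁻¹ = k' * (z * c') * c'⁻¹ * k'⁻¹ := by group
            _ = k' * (c' * z) * c'⁻¹ * k'⁻¹ := by rw [hc']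
            _ = _ := by group
        rw [e1, e2, h]
      subst hkk
      have := mul_left_cancel h
      subst this
      rfl
    · intro g
      obtain ⟨k, h1, h2, h3⟩ := iso_K_surj hz (isConj_iff.mpr ⟨g, rfl⟩)
      refine ⟨⟨⟨k, h1, h2⟩, ⟨k⁻¹ * g, ?_⟩⟩, ?_⟩
      · rw [Subgroup.mem_centralizer_singleton_iff]
        have : g * z = k * z * k⁻¹ * g := by rw [h3]; group
        rw [mul_assoc, this]; group
      · simp [f1]
  let f2 : {k : G // Odd (orderOf k) ∧ z * k * z⁻¹ = k⁻¹} → {w : G // IsConj z w} :=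
    fun k => ⟨k.1 * z * k.1⁻¹, isConj_iff.mpr ⟨k.1, rfl⟩⟩
  have hf2 : Function.Bijective f2 := by
    constructor
    · rintro ⟨k, hk1, hk2⟩ ⟨k', hk1', hk2'⟩ h
      simp only [f2, Subtype.mk.injEq] at h
      exact Subtype.ext (iso_K_inj hz hk1 hk2 hk1' hk2' h)
    · rintro ⟨w, hw⟩
      obtain ⟨k, h1, h2, h3⟩ := iso_K_surj hz hw
      exact ⟨⟨k, h1, h2⟩, Subtype.ext h3⟩
  let f3 : {k : G // Odd (orderOf k) ∧ z * k * z⁻¹ = k⁻¹ ∧ Commute k s} ×
      {k : G // Odd (orderOf k) ∧ z * k * z⁻¹ = k⁻¹ ∧ Commute k (s * z)} → {w : G // IsConj z w} :=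
    fun p => ⟨p.1.1 * p.2.1 * z * p.2.1⁻¹ * p.1.1⁻¹, isConj_iff.mpr ⟨p.1.1 * p.2.1, by group⟩⟩
  have hf3 : Function.Bijective f3 := by
    constructor
    · rintro ⟨⟨a, ha1, ha2, ha3⟩, ⟨b, hb1, hb2, hb3⟩⟩ ⟨⟨a', ha1', ha2', ha3'⟩, ⟨b', hb1', hb2', hb3'⟩⟩ h
      simp only [f3, Subtype.mk.injEq] at h
      have e1 := lemA hsz ha3 hb2 hb3
      have e2 := lemA hsz ha3' hb2' hb3'
      rw [← h] at e2
      have hw : IsConj z (a * b * z * b⁻¹ * a⁻¹) := isConj_iff.mpr ⟨a * b, by group⟩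
      have hm := iso_mid_unique hz hw (isConj_iff.mpr ⟨a, rfl⟩) (isConj_iff.mpr ⟨a', rfl⟩) (e1.trans e2.symm)
      have haa := iso_K_inj hz ha1 ha2 ha1' ha2' hm
      subst haa
      have hbb : b = b' := by
        apply iso_K_inj hz hb1 hb2 hb1' hb2'
        calc b * z * b⁻¹ = a⁻¹ * (a * b * z * b⁻¹ * a⁻¹) * a := by group
          _ = a⁻¹ * (a * b' * z * b'⁻¹ * a⁻¹) * a := by rw [h]
          _ = _ := by group
      subst hbb
      rfl
    · rintro ⟨w, hw⟩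
      have hw' : IsConj z (s * w * s⁻¹) := hw.trans (isConj_iff.mpr ⟨s, rfl⟩)
      obtain ⟨m, hm, hmw⟩ := iso_mid_exists hz hw hw'
      have hmm : m * m = 1 := iso_mul_self (iso_of_isConj hz hm)
      have hmi : m⁻¹ = m := iso_inv (iso_of_isConj hz hm)
      have hsm : s * m * s⁻¹ = m := by
        apply iso_mid_unique hz hw (hm.trans (isConj_iff.mpr ⟨s, rfl⟩)) hm
        rw [hmw]
        have e0 : m * (s * w * s⁻¹) * m⁻¹ = w := by
          rw [← hmw]
          calc m * (m * w * m⁻¹) * m⁻¹ = (m * m) * w * (m * m)⁻¹ := by group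
            _ = w := by rw [hmm]; group
        calc s * m * s⁻¹ * w * (s * m * s⁻¹)⁻¹ = s * (m * (s⁻¹ * w * s) * m⁻¹) * s⁻¹ := by group
          _ = s * (m * (s * w * s⁻¹) * m⁻¹) * s⁻¹ := by rw [hsi]
          _ = s * w * s⁻¹ := by rw [e0]
      obtain ⟨a, ha1, ha2, ha3⟩ := iso_K_surj hz hm
      have hsa : Commute s a := by
        apply iso_K_comm hz ha1 ha2 hsz
        rw [ha3]
        unfold Commute SemiconjBy
        calc s * m = (s * m * s⁻¹) * s := by group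
          _ = m * s := by rw [hsm]
      have hv : IsConj z (a⁻¹ * w * a) := hw.trans (isConj_iff.mpr ⟨a⁻¹, by group⟩)
      obtain ⟨b, hb1, hb2, hb3⟩ := iso_K_surj hz hv
      have hszb : Commute (s * z) b := by
        apply iso_K_comm hz hb1 hb2 (hsz.mul_left (Commute.refl z))
        rw [hb3]
        -- s⁻¹ m commutes with w
        have e1 : (s⁻¹ * m) * w = w * (s⁻¹ * m) := by
          calc (s⁻¹ * m) * w = s⁻¹ * (m * w * m⁻¹) * m := by group
            _ = s⁻¹ * (s * w * s⁻¹) * m := by rw [hmw]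
            _ = _ := by group
        have e2 : s * z = a⁻¹ * (s⁻¹ * m) * a := by
          rw [← ha3, hsi]
          calc s * z = a⁻¹ * (a * s) * z := by group
            _ = a⁻¹ * (s * a) * z := by rw [hsa.eq]
            _ = _ := by group
        unfold Commute SemiconjBy
        rw [e2]
        calc a⁻¹ * (s⁻¹ * m) * a * (a⁻¹ * w * a) = a⁻¹ * ((s⁻¹ * m) * w) * a := by group
          _ = a⁻¹ * (w * (s⁻¹ * m)) * a := by rw [e1]
          _ = _ := by group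
      refine ⟨⟨⟨a, ha1, ha2, hsa.symm⟩, ⟨b, hb1, hb2, hszb.symm⟩⟩, ?_⟩
      apply Subtype.ext
      simp only [f3]
      calc a * b * z * b⁻¹ * a⁻¹ = a * (b * z * b⁻¹) * a⁻¹ := by group
        _ = a * (a⁻¹ * w * a) * a⁻¹ := by rw [hb3]
        _ = w := by group
  rw [← Nat.card_congr (Equiv.ofBijective f1 hf1), Nat.card_prod,
    Nat.card_congr (Equiv.ofBijective f2 hf2), ← Nat.card_congr (Equiv.ofBijective f3 hf3), Nat.card_prod]
  ring

end Cfsg.Agent.S1186
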