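import Cfsg.Statements.S1224
import Cfsg.Agent.Lib.Helper21.StronglyEmbeddedCount

set_option autoImplicit false
open Cfsg

namespace Cfsg.Agent.S1224

/-- Let H be a strongly embedded subgroup of the finite group G and x ≠ y two cosets in G/H. Then the number of involutions i of G with i • x = y equals the number of involutions lying in H. -/
theorem result {G : Type*} [Group G] [Finite G] (H : Subgroup G) (hH : Cfsg.IsStronglyEmbedded H) (x y : G ⧸ H) (hxy : x ≠ y) : Nat.card {i : G // orderOf i = 2 ∧ i • x = y} = Nat.card {t : G // orderOf t = 2 ∧ t ∈ H} := by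
  classical
  have : Fintype G := Fintype.ofFinite G
  rw [Nat.subtype_card (Cfsg.Agent.Lib.Helper21.IsStronglyEmbedded.swapSet H x y)
      (fun i => Cfsg.Agent.Lib.Helper21.IsStronglyEmbedded.mem_swapSet),
    Nat.subtype_card (Cfsg.Agent.Lib.Helper21.IsStronglyEmbedded.swapSet H ((1 : G) : G ⧸ H)
      ((1 : G) : G ⧸ H)) (fun i => by
        rw [Cfsg.Agent.Lib.Helper21.IsStronglyEmbedded.mem_swapSet,
          Cfsg.Agent.Lib.Helper21.smul_mk_eq_iff]
        simp)]
  exact Cfsg.Agent.Lib.Helper21.IsStronglyEmbedded.card_swapSet_eq hH x y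

end Cfsg.Agent.S1224
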