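import Cfsg.Statements.S1228
import Cfsg.Agent.Lib.Helper19.BSW3

set_option autoImplicit false
open Cfsg

namespace Cfsg.Agent.S1228

/-- Let G be a finite group with a Sylow 2-subgroup T that is neither cyclic nor normal, such that the centralizer of every involution is an elementary abelian 2-group; put H = N_G(T), let u be an involution outside H and D = H ∩ uHu⁻¹. Then N_G(D) = D ⊔ ⟨u⟩, and a coset gH is fixed by every element of D exactly when gH = H or gH = uH. -/
theorem result {G : Type*} [Group G] [Finite G] (T : Sylow 2 G) (hnc : ¬ IsCyclic (T : Subgroup G)) (hnn : ¬ (T : Subgroup G).Normal) (hC : ∀ t : G, orderOf t = 2 → IsMulCommutative (Subgroup.centralizer ({t} : Set G)) ∧ ∀ c ∈ Subgroup.centralizer ({t} : Set G), c ^ 2 = 1) (u : G) (hu : orderOf u = 2) (huH : u ∉ Subgroup.normalizer ((T : Subgroup G) : Set G)) : Subgroup.normalizer ((Subgroup.normalizer ((T : Subgroup G) : Set G) ⊓ (Subgroup.normalizer ((T : Subgroup G) : Set G)).map (MulAut.conj u).toMonoidHom : Subgroup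 G) : Set G) = (Subgroup.normalizer ((T : Subgroup G) : Set G) ⊓ (Subgroup.normalizer ((T : Subgroup G) : Set G)).map (MulAut.conj u).toMonoidHom) ⊔ Subgroup.zpowers u ∧ ∀ g : G, ((∀ d ∈ Subgroup.normalizer ((T : Subgroup G) : Set G) ⊓ (Subgroup.normalizer ((T : Subgroup G) : Set G)).map (MulAut.conj u).toMonoidHom, d • (QuotientGroup.mk g : G ⧸ Subgroup.normalizer ((T : Subgroup G) : Set G)) = QuotientGroup.mk g) ↔ (QuotientGroup.mk g : G ⧸ Subgroup.normalizer ((T : Subgroup G) : Set G)) = QuotientGroup.mk 1 ∨ (QuotientGroup.mk g : G ⧸ Subgroup.normalizer ((T : Subgroup G) : Set G)) = QuotientGroup.mk u) := by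
  open Cfsg.Agent.Lib.Helper19 in
  have h : BSW T := ⟨hnc, hnn, hC⟩
  obtain ⟨hu1, hu2⟩ := orderOf_two_iff.mp hu
  have huinv := invol_inv hu2
  refine ⟨?_, ?_⟩
  · apply le_antisymm
    · intro n hn
      rw [Subgroup.mem_normalizer_iff] at hn
      rcases h.normalizer_D_full hu1 hu2 huH hn with h1 | h1
      · exact (le_sup_left : Dn T u ≤ _) h1
      · have h2 : n = u * (n⁻¹ * u)⁻¹ := by group
        rw [h2]
        exact mul_mem ((le_sup_right : Subgroup.zpowers u ≤ _) (Subgroup.mem_zpowers u))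
          ((le_sup_left : Dn T u ≤ _) (inv_mem h1))
    · rw [sup_le_iff]
      refine ⟨Subgroup.le_normalizer, ?_⟩
      rw [Subgroup.zpowers_le, Subgroup.mem_normalizer_iff]
      intro d
      refine ⟨fun hd => h.D_conj_u hu2 hd, fun hd => ?_⟩
      have h1 := h.D_conj_u hu2 hd
      have h2 : u * (u * d * u⁻¹) * u⁻¹ = d := by
        rw [huinv]
        calc u * (u * d * u) * u = (u * u) * d * (u * u) := by simp only [mul_assoc]
          _ = d := by rw [hu2, one_mul, mul_one]
      rwa [h2] at h1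
  · intro g
    have key : ∀ d : G, d • (QuotientGroup.mk g : G ⧸ Hn T) = QuotientGroup.mk g ↔ g⁻¹ * d * g ∈ Hn T := by
      intro d
      rw [MulAction.Quotient.smul_mk, QuotientGroup.eq, smul_eq_mul]
      have e : (d * g)⁻¹ * g = (g⁻¹ * d * g)⁻¹ := by group
      rw [e, inv_mem_iff]
    have k1 : (QuotientGroup.mk g : G ⧸ Hn T) = QuotientGroup.mk 1 ↔ g ∈ Hn T := by
      rw [QuotientGroup.eq, mul_one, inv_mem_iff]
    have k2 : (QuotientGroup.mk g : G ⧸ Hn T) = QuotientGroup.mk u ↔ g⁻¹ * u ∈ Hn T := by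
      rw [QuotientGroup.eq]
    constructor
    · intro hfix
      by_cases hg : g ∈ Hn T
      · exact Or.inl (k1.mpr hg)
      · exact Or.inr (k2.mpr (h.fix_D hu1 hu2 huH hg (fun d hd => (key d).mp (hfix d hd))))
    · rintro (hg | hg) d hd
      · rw [k1] at hg
        exact (key d).mpr (mul_mem (mul_mem (inv_mem hg) (mem_Dn_iff.mp hd).1) hg)
      · rw [k2] at hg
        have : d ∈ Dn T g := by rw [Dn_congr hg]; exact hd
        exact (key d).mpr (mem_Dn_iff.mp this).2

end Cfsg.Agent.S1228
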