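import Cfsg.Statements.S1231
import Cfsg.Agent.Lib.Helper21.SylowLemmas

set_option autoImplicit false
open Cfsg

namespace Cfsg.Agent.S1231

open Cfsg.Agent.Lib.Helper21 in
/-- Under the normaliser hypothesis for subgroups of `P`, the same holds for all `p`-subgroups of
`H` of large rank. -/
theorem normalizer_le_of_pSubgroup {G : Type*} [Group G] [Finite G] {p : ℕ} [Fact p.Prime] (j : ℕ)
    (H : Subgroup G) (P : Sylow p ↥H)
    (hN : ∀ X : Subgroup G, X ≤ (P : Subgroup ↥H).map H.subtype → ¬ Cfsg.PRankLE p j ↥X →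
      Subgroup.normalizer (X : Set G) ≤ H)
    (X : Subgroup G) (hXH : X ≤ H) (hXp : IsPGroup p X) (hXr : ¬ Cfsg.PRankLE p j ↥X) :
    Subgroup.normalizer (X : Set G) ≤ H := by
  have hP' : IsPGroup p ((P : Subgroup ↥H).map H.subtype) := P.2.map _
  have hP'H : (P : Subgroup ↥H).map H.subtype ≤ H := by
    rintro _ ⟨x, _, rfl⟩
    exact x.2
  obtain ⟨c, hc, R, hR, hRH, hPR, hXR⟩ := exists_conj_le_pGroup H _ X hP'H hXH hP' hXp
  have hRP : R = (P : Subgroup ↥H).map H.subtype := by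
    have h1 : IsPGroup p (R.subgroupOf H) := hR.comap_subtype
    have h2 : (P : Subgroup ↥H) ≤ R.subgroupOf H := by
      intro x hx
      rw [Subgroup.mem_subgroupOf]
      exact hPR ⟨x, hx, rfl⟩
    have h3 := P.3 h1 h2
    rw [← h3, Subgroup.map_subgroupOf_eq_of_le hRH]
  have h4 := hN (X.map (MulAut.conj c).toMonoidHom) (hRP ▸ hXR)
    (by rw [pRankLE_map_conj_iff]; exact hXr)
  rw [normalizer_map_conj] at h4
  intro x hx
  have h5 : c * x * c⁻¹ ∈ H := h4 ⟨x, hx, by simp⟩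
  have e : x = c⁻¹ * (c * x * c⁻¹) * c := by group
  rw [e]
  exact mul_mem (mul_mem (inv_mem hc) h5) hc

/-- Let H be a subgroup of the finite group G, p a prime, k ≥ 1, and P a Sylow p-subgroup of H whose p-rank is at least k. Then N_G(X) ≤ H for every subgroup X of P of p-rank at least k if and only if H ∩ gHg⁻¹ has p-rank less than k for every g ∉ H. -/
theorem result {G : Type*} [Group G] [Finite G] {p : ℕ} [Fact p.Prime] (k : ℕ) (hk : 1 ≤ k) (H : Subgroup G) (P : Sylow p ↥H) (hP : ¬ Cfsg.PRankLE p (k - 1) ↥(P : Subgroup ↥H)) : (∀ X : Subgroup G, X ≤ (P : Subgroup ↥H).map H.subtype → ¬ Cfsg.PRankLE p (k - 1) ↥X → Subgroup.normalizer (X : Set G) ≤ H) ↔ (∀ g : G, g ∉ H → Cfsg.PRankLE p (k - 1) ↥(H ⊓ H.map (MulAut.conj g).toMonoidHom)) := by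
  constructor
  · intro hN g hg
    by_contra hr
    obtain ⟨A, hAD, hAc, hAe, hAcard⟩ :=
      (Cfsg.Agent.Lib.Helper21.not_pRankLE_subgroup_iff p (k - 1) _).mp hr
    set D : Subgroup G := H ⊓ H.map (MulAut.conj g).toMonoidHom with hD
    have hAp : IsPGroup p A := by
      intro a
      refine ⟨1, ?_⟩
      apply Subtype.ext
      simpa using hAe a a.2
    obtain ⟨U, hAU, hUD, hUp, hUmax⟩ := Cfsg.Agent.Lib.Helper21.exists_maximal_pSubgroup D A hAD hAp
    have hUr : ¬ Cfsg.PRankLE p (k - 1) ↥U :=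
      (Cfsg.Agent.Lib.Helper21.not_pRankLE_subgroup_iff p (k - 1) _).mpr ⟨A, hAU, hAc, hAe, hAcard⟩
    have hN1 : Subgroup.normalizer (U : Set G) ≤ H :=
      normalizer_le_of_pSubgroup (k - 1) H P hN U (hUD.trans inf_le_left) hUp hUr
    -- the conjugate g⁻¹ U g lies in H
    set U' : Subgroup G := U.map (MulAut.conj g⁻¹).toMonoidHom with hU'
    have hU'H : U' ≤ H := by
      rintro _ ⟨u, hu, rfl⟩
      have := (Cfsg.Agent.Lib.Helper21.mem_map_conj_iff H g u).mp (hUD hu).2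
      simpa using this
    have hU'p : IsPGroup p U' := hUp.map _
    have hU'r : ¬ Cfsg.PRankLE p (k - 1) ↥U' := by
      rw [hU', Cfsg.Agent.Lib.Helper21.pRankLE_map_conj_iff]; exact hUr
    have hN2 : Subgroup.normalizer (U' : Set G) ≤ H :=
      normalizer_le_of_pSubgroup (k - 1) H P hN U' hU'H hU'p hU'r
    have hN3 : Subgroup.normalizer (U : Set G) ≤ H.map (MulAut.conj g).toMonoidHom := by
      intro x hx
      rw [Cfsg.Agent.Lib.Helper21.mem_map_conj_iff]
      apply hN2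
      rw [hU', Cfsg.Agent.Lib.Helper21.normalizer_map_conj,
        Cfsg.Agent.Lib.Helper21.mem_map_conj_iff]
      have e : g⁻¹⁻¹ * (g⁻¹ * x * g) * g⁻¹ = x := by group
      rw [e]; exact hx
    have hUmaxG := Cfsg.Agent.Lib.Helper21.maximal_pSubgroup_of_normalizer_le hUmax
      (le_inf hN1 hN3)
    obtain ⟨c, hc, R, hR, -, hUR, hU'R⟩ := Cfsg.Agent.Lib.Helper21.exists_conj_le_pGroup H U U'
      (hUD.trans inf_le_left) hU'H hUp hU'p
    have hRU := hUmaxG R hR hUR
    -- c g⁻¹ normalises U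
    have h1 : ∀ u ∈ U, (c * g⁻¹) * u * (c * g⁻¹)⁻¹ ∈ U := by
      intro u hu
      rw [← hRU]
      apply hU'R
      refine ⟨g⁻¹ * u * g, ⟨u, hu, by simp⟩, ?_⟩
      simp only [MulEquiv.coe_toMonoidHom, MulAut.conj_apply]
      group
    have h2 := Cfsg.Agent.Lib.Helper21.conj_inv_mem_of_forall_conj_mem U (c * g⁻¹) h1
    have h3 : c * g⁻¹ ∈ Subgroup.normalizer (U : Set G) := by
      rw [Subgroup.mem_normalizer_iff]
      intro u
      refine ⟨h1 u, fun hu => ?_⟩
      have := h2 _ hu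
      have e : (c * g⁻¹)⁻¹ * ((c * g⁻¹) * u * (c * g⁻¹)⁻¹) * (c * g⁻¹) = u := by group
      rwa [e] at this
    have h4 := hN1 h3
    apply hg
    have e : g = (c * g⁻¹)⁻¹ * c := by group
    rw [e]
    exact mul_mem (inv_mem h4) hc
  · intro hI X hXP hXr g hg
    by_contra hgH
    apply hXr
    apply Cfsg.Agent.Lib.Helper21.PRankLE.mono_subgroup _ (hI g hgH)
    have hXH : X ≤ H := by
      intro x hx
      obtain ⟨y, _, rfl⟩ := hXP hx
      exact y.2
    apply le_inf hXH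
    intro x hx
    rw [Cfsg.Agent.Lib.Helper21.mem_map_conj_iff]
    apply hXH
    have h1 := inv_mem hg
    rw [Subgroup.mem_normalizer_iff] at h1
    have := (h1 x).mp hx
    simpa using this

end Cfsg.Agent.S1231
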