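import Cfsg.Statements.S1239
import Cfsg.Agent.Lib.Helper20.QDC
import Cfsg.Agent.Lib.Helper20.WrC
import Cfsg.Agent.S0215
import Cfsg.Agent.Lib.Helper32.ZStarCor

set_option autoImplicit false
open Cfsg

namespace Cfsg.Agent.S1239

open Cfsg.Agent.Lib.Helper20

theorem normal_of_factor {X : Type*} [Group X] (O Z : Subgroup X) [hO : O.Normal]
    (h : ∀ g : X, ∃ o ∈ O, ∃ c ∈ Subgroup.centralizer (Z : Set X), g = o * c) :
    (O ⊔ Z).Normal := by
  constructor
  intro x hx g
  obtain ⟨o, ho, c, hc, rfl⟩ := h g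
  have h1 : O ⊔ Z ≤ (O ⊔ Z).comap (MulAut.conj c).toMonoidHom := by
    rw [sup_le_iff]
    constructor
    · intro y hy
      rw [Subgroup.mem_comap]
      exact Subgroup.mem_sup_left (hO.conj_mem y hy c)
    · intro y hy
      rw [Subgroup.mem_comap]
      have e : (MulAut.conj c).toMonoidHom y = y := by
        have := (Subgroup.mem_centralizer_iff.mp hc) y hy
        change c * y * c⁻¹ = y
        rw [← this]; group
      rw [e]
      exact Subgroup.mem_sup_right hy
  have h2 : c * x * c⁻¹ ∈ O ⊔ Z := h1 hx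
  have h3 : o ∈ O ⊔ Z := Subgroup.mem_sup_left ho
  have e : o * c * x * (o * c)⁻¹ = o * (c * x * c⁻¹) * o⁻¹ := by group
  rw [e]
  exact mul_mem (mul_mem h3 h2) (inv_mem h3)


/-- Let X be a finite group whose Sylow 2-subgroup S is quasi-dihedral or wreathed, and suppose some involution of S is isolated in X. Then the product of the largest normal odd-order subgroup O(X) with the centre of S is normal in X. -/
theorem result {X : Type*} [Group X] [Finite X] (S : Sylow 2 X) (hS : Cfsg.IsQuasiDihedral (S : Subgroup X) ∨ Cfsg.IsWreathed (S : Subgroup X)) (z : X) (hzS : z ∈ S) (hz : Cfsg.IsIsolatedInvolution z) : (Cfsg.oddCore X ⊔ (Subgroup.center (S : Subgroup X)).map (S : Subgroup X).subtype).Normal := by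
  have : Fact (Nat.Prime 2) := ⟨Nat.prime_two⟩
  have hyp : Cfsg.Agent.Lib.Helper32.ZStar.Hyp :=
    fun G _ _ P u hu huP hiso => Cfsg.Agent.S0215.result P u hu huP hiso
  apply normal_of_factor
  rcases hS with hQ | hW
  · obtain ⟨d⟩ := QD.exists_dat hQ
    have hz0 : z = QDF.gX d (QD.hh d.n) := by
      rcases QDF.ginvolution_cases d hzS hz.1 with h | ⟨j, h⟩
      · exact h
      · exfalso
        have e1 := QDF.conj_gX_gY d (QD.qq d.n) (2 * j)
        have e2 : 2 * j + (2 - QD.hh d.n) * QD.qq d.n = 2 * j + QD.hh d.n := by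
          linear_combination QD.two_qq (QD.n2 d) - QD.hh_mul_qq d.hn
        rw [e2] at e1
        have h3 := hz.2 (QDF.gX d (QD.qq d.n))
        rw [h, e1] at h3
        have h4 := h3 (by
          change _ * _ = _ * _
          rw [QDF.gY_mul_gY, QDF.gY_mul_gY, QDF.gX_eq_iff]
          unfold QD.lam
          linear_combination QD.hh_mul_hh (QD.n2 d) - QD.two_hh (QD.n1 d))
        rw [QDF.gY_eq_iff] at h4
        apply QD.hh_ne_zero (QD.n1 d)
        linear_combination h4
    intro g
    obtain ⟨o, ho, c, hc, rfl⟩ := hyp.eq_mul hz g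
    refine ⟨o, ho, c, ?_, rfl⟩
    rw [Subgroup.mem_centralizer_iff]
    intro y hy
    rcases (QDF.mem_gcenter S d y).mp hy with rfl | rfl
    · simp
    · rw [← hz0]
      exact (Subgroup.mem_centralizer_singleton_iff.mp hc).symm
  · obtain ⟨d⟩ := Wr.exists_dat hW
    have hz0 : z = WrF.gA d (QD.hh d.n) (QD.hh d.n) := by
      rcases WrF.ginvolution_cases d hzS hz.1 with h | h | h | ⟨j, h⟩
      · exfalso
        have h3 := hz.2 (WrF.gB d 0 0)
        rw [h, WrF.conj_gB_gA] at h3
        have h4 := h3 (by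
          change _ * _ = _ * _
          rw [WrF.gA_mul_gA, WrF.gA_mul_gA, WrF.gA_eq_iff]
          exact ⟨by ring, by ring⟩)
        rw [WrF.gA_eq_iff] at h4
        exact WrF.h0 d h4.1.symm
      · exfalso
        have h3 := hz.2 (WrF.gB d 0 0)
        rw [h, WrF.conj_gB_gA] at h3
        have h4 := h3 (by
          change _ * _ = _ * _
          rw [WrF.gA_mul_gA, WrF.gA_mul_gA, WrF.gA_eq_iff]
          exact ⟨by ring, by ring⟩)
        rw [WrF.gA_eq_iff] at h4
        exact WrF.h0 d h4.1
      · exact h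
      · exfalso
        have h3 := hz.2 (WrF.gA d (QD.hh d.n) 0)
        rw [h, WrF.conj_gA_gB] at h3
        have h4 := h3 (by
          change _ * _ = _ * _
          rw [WrF.gB_mul_gB, WrF.gB_mul_gB, WrF.gA_eq_iff]
          exact ⟨by linear_combination (-1 : ZMod (2 ^ d.n)) * WrF.h2 d, by linear_combination WrF.h2 d⟩)
        rw [WrF.gB_eq_iff] at h4
        apply WrF.h0 d
        linear_combination h4.1
    have h1 : ¬ IsConj (WrF.gA d (QD.hh d.n) (QD.hh d.n)) (WrF.gA d (QD.hh d.n) 0) := by
      intro hc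
      obtain ⟨g, hg⟩ := isConj_iff.mp hc
      have h3 := hz.2 g
      rw [hz0, hg] at h3
      have h4 := h3 (by
        change _ * _ = _ * _
        rw [WrF.gA_mul_gA, WrF.gA_mul_gA, WrF.gA_eq_iff]
        exact ⟨by ring, by ring⟩)
      rw [WrF.gA_eq_iff] at h4
      exact WrF.h0 d h4.2.symm
    by_cases h2' : IsConj (WrF.gA d (QD.hh d.n) 0) (WrF.gB d 0 0)
    · exact hyp.weaklyClosed_center S (WrF.weaklyClosed S d h1 h2')
    · obtain ⟨P, N, hN, hNP⟩ := WrF.complement_case S d h1 h2'
      have hcardP : Nat.card (P : Subgroup X) = Nat.card (S : Subgroup X) := by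
        rw [P.card_eq_multiplicity, S.card_eq_multiplicity]
      have hNodd : (Nat.card N).Coprime 2 := by
        have h5 : Nat.card N = (P : Subgroup X).index := hNP.index_eq_card.symm
        rw [h5, Nat.coprime_comm, Nat.Prime.coprime_iff_not_dvd Nat.prime_two]
        exact P.not_dvd_index
      have hNS : N.IsComplement' (S : Subgroup X) := by
        apply Subgroup.isComplement'_of_coprime
        · rw [← hcardP]; exact hNP.card_mul_card
        · obtain ⟨k, hk⟩ := S.2.exists_card_eq
          rw [hk]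
          exact Nat.Coprime.pow_right _ hNodd
      intro g
      obtain ⟨⟨n, s⟩, hns⟩ := hNS.2 g
      refine ⟨n, Cfsg.Agent.Lib.Lead.le_pPrimeCore hN hNodd n.2, s, ?_, hns.symm⟩
      rw [Subgroup.mem_centralizer_iff]
      intro y hy
      obtain ⟨a, rfl⟩ := (WrF.mem_gZ d).mp hy
      have := WrF.central_gA d s.2 a
      exact (mul_inv_eq_iff_eq_mul.mp this).symm

end Cfsg.Agent.S1239
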