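import Cfsg.Statements.S1242
import Cfsg.Agent.Lib.Helper21.TransferLemmas
import Cfsg.Agent.Lib.Lead.Residual

set_option autoImplicit false
open Cfsg

namespace Cfsg.Agent.S1242

/-- Let G be a finite group, p a prime and H a subgroup of index prime to p such that any two elements of H of p-power order that are conjugate in G are conjugate in H. Then (O^p(G)·G') ∩ H = O^p(H)·H', where O^p denotes the subgroup generated by the elements of order prime to p. -/
theorem result {G : Type*} [Group G] [Finite G] {p : ℕ} [Fact p.Prime] (H : Subgroup G) (hidx : Nat.Coprime p H.index) (hfus : ∀ g ∈ H, (∃ k : ℕ, orderOf g = p ^ k) → ∀ a : G, a * g * a⁻¹ ∈ H → ∃ h ∈ H, h * g * h⁻¹ = a * g * a⁻¹) : (Cfsg.pResidual p G ⊔ commutator G) ⊓ H = (Cfsg.pResidual p ↥H ⊔ commutator ↥H).map H.subtype := by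
  classical
  have hp : p.Prime := Fact.out
  set K' : Subgroup ↥H := Cfsg.pResidual p ↥H ⊔ commutator ↥H with hK'
  have hK'n : K'.Normal := inferInstance
  set K : Subgroup G := K'.map H.subtype with hK
  have hKH : K ≤ H := by
    rintro _ ⟨x, _, rfl⟩
    exact x.2
  have hKsub : K.subgroupOf H = K' := by
    rw [hK, Subgroup.subgroupOf, Subgroup.comap_map_eq_self_of_injective H.subtype_injective]
  have hmemK : ∀ (x : G) (hx : x ∈ H), x ∈ K ↔ (⟨x, hx⟩ : H) ∈ K' := by
    intro x hx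
    rw [← hKsub, Subgroup.mem_subgroupOf]
  have hKn : (K.subgroupOf H).Normal := hKsub ▸ hK'n
  have hab : ∀ x ∈ H, ∀ y ∈ H, x * y * x⁻¹ * y⁻¹ ∈ K := by
    intro x hx y hy
    rw [hmemK _ (mul_mem (mul_mem (mul_mem hx hy) (inv_mem hx)) (inv_mem hy))]
    apply Subgroup.mem_sup_right
    exact Subgroup.commutator_mem_commutator (Subgroup.mem_top (⟨x, hx⟩ : H))
      (Subgroup.mem_top (⟨y, hy⟩ : H))
  obtain ⟨N, _, hcomm, hres, hN⟩ :=
    Cfsg.Agent.Lib.Helper21.exists_normal_of_controlled_powers H K hKH hKn hab hidx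
  have hpow : ∀ h ∈ H, ∃ k : ℕ, h ^ p ^ k ∈ K := by
    intro h hh
    obtain ⟨k, hk⟩ := (Cfsg.Agent.Lib.Lead.isPGroup_quotient_pResidual (p := p) (G := ↥H))
      (QuotientGroup.mk' _ ⟨h, hh⟩)
    refine ⟨k, ?_⟩
    rw [← map_pow, QuotientGroup.mk'_apply, QuotientGroup.eq_one_iff] at hk
    rw [hmemK _ (pow_mem hh _)]
    exact Subgroup.mem_sup_left hk
  apply le_antisymm
  · rintro x ⟨hx1, hxH⟩
    have hxN : x ∈ N := by
      have : Cfsg.pResidual p G ⊔ commutator G ≤ N := by
        apply sup_le _ hcomm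
        rw [Cfsg.pResidual, Subgroup.closure_le]
        intro y hy
        exact hres hpow y hy
      exact this hx1
    -- decompose the order of x
    obtain ⟨a, m, hm, hn⟩ := Nat.exists_eq_pow_mul_and_not_dvd (orderOf_pos x).ne' p hp.ne_one
    have hcop : Nat.Coprime (p ^ a) m := Nat.Coprime.pow_left a ((Nat.Prime.coprime_iff_not_dvd hp).mpr hm)
    have hmpos : 0 < m := Nat.pos_of_ne_zero (by rintro rfl; simp at hm)
    -- p'-part
    have h1 : x ^ p ^ a ∈ K := by
      rw [hmemK _ (pow_mem hxH _)]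
      apply Subgroup.mem_sup_left
      apply Cfsg.Agent.Lib.Lead.mem_pResidual_of_coprime
      have : orderOf ((⟨x, hxH⟩ : H) ^ p ^ a) = m := by
        rw [orderOf_pow_of_dvd (pow_ne_zero _ hp.ne_zero) (by rw [Subgroup.orderOf_mk, hn]; exact dvd_mul_right _ _),
          Subgroup.orderOf_mk, hn, Nat.mul_div_cancel_left _ (pow_pos hp.pos _)]
      have e : (⟨x ^ p ^ a, pow_mem hxH _⟩ : H) = (⟨x, hxH⟩ : H) ^ p ^ a := rfl
      rw [e, this]
      exact ((Nat.Prime.coprime_iff_not_dvd hp).mpr hm).symm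
    -- p-part
    have h2 : x ^ m ∈ K := by
      by_contra hcon
      have hord : orderOf (x ^ m) = p ^ a := by
        rw [orderOf_pow_of_dvd hmpos.ne' (by rw [hn]; exact dvd_mul_left _ _), hn,
          Nat.mul_div_cancel _ hmpos]
      apply hN (x ^ m) (pow_mem hxH _) hcon ⟨a, hord⟩ _ (pow_mem hxN _)
      intro e b hb
      have hge : (x ^ m) ^ e ∈ H := H.zpow_mem (H.pow_mem hxH _) _
      have hordp : ∃ k : ℕ, orderOf ((x ^ m) ^ e) = p ^ k := by
        have : orderOf ((x ^ m) ^ e) ∣ p ^ a := by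
          rw [← hord]; exact orderOf_dvd_of_pow_eq_one (by rw [← zpow_natCast, ← zpow_mul, mul_comm, zpow_mul, zpow_natCast, pow_orderOf_eq_one, one_zpow])
        obtain ⟨k, _, hk⟩ := (Nat.dvd_prime_pow hp).mp this
        exact ⟨k, hk⟩
      obtain ⟨h, hh, hconj⟩ := hfus _ hge hordp b hb
      rw [← hconj]
      exact hab h hh _ hge
    -- combine
    have hx : x = (x ^ p ^ a) ^ (Nat.gcdA (p ^ a) m) * (x ^ m) ^ (Nat.gcdB (p ^ a) m) := by
      rw [← zpow_natCast x, ← zpow_natCast x, ← zpow_mul, ← zpow_mul, ← zpow_add,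
        ← Nat.gcd_eq_gcd_ab, hcop.gcd_eq_one]
      simp
    rw [hx]
    exact mul_mem (zpow_mem h1 _) (zpow_mem h2 _)
  · apply le_inf _ hKH
    rw [hK, hK', Subgroup.map_sup]
    apply sup_le_sup
    · rw [Cfsg.pResidual, MonoidHom.map_closure, Subgroup.closure_le]
      rintro _ ⟨y, hy, rfl⟩
      apply Cfsg.Agent.Lib.Lead.mem_pResidual_of_coprime
      simpa using hy
    · rw [Subgroup.map_subtype_commutator, commutator_def]
      exact Subgroup.commutator_mono le_top le_top

end Cfsg.Agent.S1242
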