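import Cfsg.Statements.S1244
import Cfsg.Agent.Lib.Helper21.TransferLemmas
import Cfsg.Agent.Lib.Helper21.Rank

set_option autoImplicit false
open Cfsg

namespace Cfsg.Agent.S1244

open scoped IsMulCommutative in
/-- A group without subgroups of index 2 has no nontrivial homomorphism to a finite 2-group. -/
theorem hom_trivial {G A : Type*} [Group G] [Group A] [Finite A]
    (hG : ∀ H : Subgroup G, H.index ≠ 2) (hA : IsPGroup 2 A) (f : G →* A) (g : G) : f g = 1 := by
  by_contra hne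
  have hR : IsPGroup 2 f.range := hA.to_subgroup _
  obtain ⟨n, hn⟩ := hR.exists_card_eq
  have hn0 : n ≠ 0 := by
    rintro rfl
    rw [pow_zero, Subgroup.card_eq_one] at hn
    apply hne
    have : f g ∈ f.range := ⟨g, rfl⟩
    rw [hn] at this
    exact this
  obtain ⟨m, rfl⟩ := Nat.exists_eq_succ_of_ne_zero hn0
  have : Fact (Nat.Prime 2) := ⟨Nat.prime_two⟩
  obtain ⟨K, hK⟩ := Sylow.exists_subgroup_card_pow_prime (G := f.range) 2 (n := m)
    (by rw [hn]; exact pow_dvd_pow 2 (Nat.le_succ m))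
  have hidx : K.index = 2 := by
    have := K.card_mul_index
    rw [hK, hn, pow_succ] at this
    exact Nat.eq_of_mul_eq_mul_left (pow_pos (by norm_num) m) this
  apply hG (K.comap f.rangeRestrict)
  rw [Subgroup.index_comap_of_surjective _ f.rangeRestrict_surjective, hidx]

open scoped IsMulCommutative in
theorem transfer_aux {G : Type*} [Group G] [Finite G] (hG : ∀ H : Subgroup G, H.index ≠ 2)
    (S : Sylow 2 G) (hS : IsMulCommutative (S : Subgroup G)) (R : Subgroup G) (t : G)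
    (ht : orderOf t = 2) (htS : t ∈ S) (htR : t ∉ R)
    (hkey : ∀ g₀ : G, g₀⁻¹ * t * g₀ ∈ (S : Subgroup G) → (g₀⁻¹ * t * g₀)⁻¹ * t ∈ R) : False := by
  have : Fact (Nat.Prime 2) := ⟨Nat.prime_two⟩
  let R' : Subgroup (S : Subgroup G) := R.subgroupOf S
  have hR'n : R'.Normal := Subgroup.normal_of_isMulCommutative _
  have hQc : IsMulCommutative ((S : Subgroup G) ⧸ R') := by
    refine ⟨⟨fun a b => ?_⟩⟩
    obtain ⟨a, rfl⟩ := QuotientGroup.mk'_surjective _ a
    obtain ⟨b, rfl⟩ := QuotientGroup.mk'_surjective _ b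
    rw [← map_mul, ← map_mul, hS.is_comm.comm a b]
  have htr := Cfsg.Agent.Lib.Helper21.transfer_eq_pow_of_conj (QuotientGroup.mk' R') ⟨t, htS⟩ (by
    intro k g₀ hk
    rcases Nat.even_or_odd k with hk2 | hk2
    · obtain ⟨j, rfl⟩ := hk2
      have e1 : t ^ (j + j) = 1 := by
        rw [← two_mul, pow_mul, ← ht, pow_orderOf_eq_one, one_pow]
      have e2 : (⟨g₀⁻¹ * t ^ (j + j) * g₀, hk⟩ : (S : Subgroup G)) = 1 := by
        apply Subtype.ext; simp [e1]
      have e3 : (⟨t, htS⟩ : (S : Subgroup G)) ^ (j + j) = 1 := by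
        apply Subtype.ext; simp [e1]
      rw [e2, ← map_pow, e3]
    · obtain ⟨j, rfl⟩ := hk2
      have e1 : t ^ (2 * j + 1) = t := by
        rw [pow_succ, pow_mul, ← ht, pow_orderOf_eq_one, one_pow, one_mul]
      have e3 : (⟨t, htS⟩ : (S : Subgroup G)) ^ (2 * j + 1) = ⟨t, htS⟩ := by
        apply Subtype.ext; simp [e1]
      rw [← map_pow, e3]
      apply QuotientGroup.eq.mpr
      have hk' : g₀⁻¹ * t * g₀ ∈ (S : Subgroup G) := by rw [e1] at hk; exact hk
      have h3 := hkey g₀ hk'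
      show _ ∈ R.subgroupOf S
      rw [Subgroup.mem_subgroupOf]
      simpa [e1] using h3)
  have hp2 : IsPGroup 2 ((S : Subgroup G) ⧸ R') := S.2.to_quotient R'
  have h0 := hom_trivial hG hp2 (MonoidHom.transfer (QuotientGroup.mk' R')) t
  simp only at htr
  rw [h0] at htr
  -- odd index
  have hodd : Odd (S : Subgroup G).index := by
    rw [← Nat.not_even_iff_odd, even_iff_two_dvd]
    exact S.not_dvd_index
  obtain ⟨j, hj⟩ := hodd
  have e3 : (⟨t, htS⟩ : (S : Subgroup G)) ^ (S : Subgroup G).index = ⟨t, htS⟩ := by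
    apply Subtype.ext
    rw [hj]
    simp only [Subgroup.coe_pow]
    rw [pow_succ, pow_mul, ← ht, pow_orderOf_eq_one, one_pow, one_mul]
  rw [← map_pow, e3] at htr
  have h6 := htr.symm
  rw [QuotientGroup.mk'_apply, QuotientGroup.eq_one_iff] at h6
  exact htR (by simpa [R', Subgroup.mem_subgroupOf] using h6)

/-- Let G be a finite group with no subgroup of index 2 whose Sylow 2-subgroup S is commutative, and let R ≤ S be a subgroup whose 2-rank is exactly one less than the 2-rank r of S. Then every involution of S is conjugate, by an element of N_G(S), to an element of R. -/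
theorem result {G : Type*} [Group G] [Finite G] (hG : ∀ H : Subgroup G, H.index ≠ 2) (S : Sylow 2 G) (hS : IsMulCommutative (S : Subgroup G)) (r : ℕ) (hr1 : 1 ≤ r) (hSr : Cfsg.PRankLE 2 r (S : Subgroup G) ∧ ¬ Cfsg.PRankLE 2 (r - 1) (S : Subgroup G)) (R : Subgroup G) (hRS : R ≤ S) (hRr : Cfsg.PRankLE 2 (r - 1) R ∧ (r = 1 ∨ ¬ Cfsg.PRankLE 2 (r - 2) R)) (t : G) (ht : orderOf t = 2) (htS : t ∈ S) : ∃ n ∈ Subgroup.normalizer ((S : Subgroup G) : Set G), n * t * n⁻¹ ∈ R := by
  classical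
  by_contra hcon
  push Not at hcon
  have : Fact (Nat.Prime 2) := ⟨Nat.prime_two⟩
  have hcommS : ∀ a ∈ (S : Subgroup G), ∀ b ∈ (S : Subgroup G), a * b = b * a := by
    intro a ha b hb
    exact congrArg Subtype.val (hS.is_comm.comm ⟨a, ha⟩ ⟨b, hb⟩)
  -- the subgroup of elements of order dividing 2 in S
  let V : Subgroup G :=
    { carrier := {s | s ∈ (S : Subgroup G) ∧ s ^ 2 = 1}
      one_mem' := ⟨one_mem _, one_pow 2⟩
      mul_mem' := by
        rintro a b ⟨ha, ha2⟩ ⟨hb, hb2⟩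
        refine ⟨mul_mem ha hb, ?_⟩
        rw [(show Commute a b from hcommS a ha b hb).mul_pow, ha2, hb2, one_mul]
      inv_mem' := by
        rintro a ⟨ha, ha2⟩
        exact ⟨inv_mem ha, by rw [inv_pow, ha2, inv_one]⟩ }
  have hVmem : ∀ s, s ∈ V ↔ s ∈ (S : Subgroup G) ∧ s ^ 2 = 1 := fun s => Iff.rfl
  have hVS : V ≤ S := fun s hs => hs.1
  have hVcomm : IsMulCommutative V :=
    ⟨⟨fun a b => Subtype.ext (hcommS a (hVS a.2) b (hVS b.2))⟩⟩
  have hVcard : Nat.card V ≤ 2 ^ r :=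
    (Cfsg.Agent.Lib.Helper21.pRankLE_subgroup_iff 2 r _).mp hSr.1 V hVS hVcomm (fun a ha => ha.2)
  set V₀ : Subgroup G := V ⊓ R with hV₀
  have hV₀p : IsPGroup 2 V₀ := S.2.to_le (inf_le_left.trans hVS)
  have hV₀card : 2 ^ (r - 1) ≤ Nat.card V₀ := by
    rcases hRr.2 with h | h
    · subst h
      exact (Nat.card_pos : 0 < Nat.card V₀)
    · obtain ⟨A, hAR, hAc, hAe, hAcard⟩ :=
        (Cfsg.Agent.Lib.Helper21.not_pRankLE_subgroup_iff 2 (r - 2) R).mp h
      have hAV : A ≤ V₀ := fun a ha => ⟨⟨hRS (hAR ha), hAe a ha⟩, hAR ha⟩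
      have h1 : Nat.card A ≤ Nat.card V₀ := Subgroup.card_le_of_le hAV
      obtain ⟨j, hj⟩ := hV₀p.exists_card_eq
      rw [hj] at h1 ⊢
      have h2 : 2 ^ (r - 2) < 2 ^ j := lt_of_lt_of_le hAcard h1
      have h3 : r - 2 < j := (Nat.pow_lt_pow_iff_right (by norm_num)).mp h2
      exact Nat.pow_le_pow_right (by norm_num) (by omega)
  have htV : t ∈ V := ⟨htS, by rw [← ht, pow_orderOf_eq_one]⟩
  have htR : t ∉ R := by
    have := hcon 1 (one_mem _)
    simpa using this
  -- index two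
  have hidx : (V₀.subgroupOf V).index = 2 := by
    have h1 : (V₀.subgroupOf V).index * Nat.card V₀ = Nat.card V := by
      have := (V₀.subgroupOf V).index_mul_card
      rwa [Nat.card_congr (Subgroup.subgroupOfEquivOfLe (inf_le_left : V₀ ≤ V)).toEquiv] at this
    have h2 : (V₀.subgroupOf V).index ≠ 1 := by
      intro h
      rw [Subgroup.index_eq_one, Subgroup.subgroupOf_eq_top] at h
      exact htR (h htV).2
    have h3 : (V₀.subgroupOf V).index ≠ 0 := Subgroup.index_ne_zero_of_finite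
    have h4 : (V₀.subgroupOf V).index * 2 ^ (r - 1) ≤ 2 * 2 ^ (r - 1) := by
      calc (V₀.subgroupOf V).index * 2 ^ (r - 1) ≤ (V₀.subgroupOf V).index * Nat.card V₀ :=
            Nat.mul_le_mul_left _ hV₀card
        _ = Nat.card V := h1
        _ ≤ 2 ^ r := hVcard
        _ = 2 * 2 ^ (r - 1) := by rw [← pow_succ']; congr 1; omega
    have h5 := Nat.le_of_mul_le_mul_right h4 (pow_pos (by norm_num) _)
    omega
  have hkey : ∀ x ∈ V, x ∉ R → x⁻¹ * t ∈ R := by
    intro x hx hxR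
    have h := (Subgroup.mul_mem_iff_of_index_two hidx (a := (⟨x, hx⟩ : V)⁻¹) (b := ⟨t, htV⟩))
    have h1 : ((⟨x, hx⟩ : V)⁻¹ ∈ V₀.subgroupOf V ↔ (⟨t, htV⟩ : V) ∈ V₀.subgroupOf V) := by
      rw [inv_mem_iff]
      simp only [Subgroup.mem_subgroupOf, hV₀, Subgroup.mem_inf]
      tauto
    have h2 := h.mpr h1
    rw [Subgroup.mem_subgroupOf] at h2
    exact h2.2
  apply transfer_aux hG S hS R t ht htS htR
  intro g₀ hk'
  obtain ⟨n, hn, hn'⟩ := S.conj_eq_normalizer_conj_of_mem t g₀ htS hk'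
  have h1 : g₀⁻¹ * t * g₀ ∉ R := by
    rw [hn']
    have := hcon n⁻¹ (inv_mem hn)
    simpa using this
  have h2 : g₀⁻¹ * t * g₀ ∈ V := by
    refine ⟨hk', ?_⟩
    have : (g₀⁻¹ * t * g₀) ^ 2 = g₀⁻¹ * t ^ 2 * g₀ := by
      rw [pow_two, pow_two]; group
    rw [this, ← ht, pow_orderOf_eq_one]; group
  exact hkey _ h2 h1

end Cfsg.Agent.S1244
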