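import Cfsg.Statements.S1248
import Cfsg.Agent.Lib.Helper20.U3Syl2

set_option autoImplicit false
open Cfsg

namespace Cfsg.Agent.S1248

/-- Let F be a field with 16 elements and S a Sylow 2-subgroup of PSU(3) over F (the unitary group U₃(4)). Then |S| = 64; the centre Z(S) is a Klein four-group and coincides with the subgroup generated by the involutions of S and with the derived subgroup; and every element of S ⧸ Z(S) squares to the identity, S ⧸ Z(S) having order 16. -/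
theorem result {F : Type*} [Field F] [Fintype F] (hF : Fintype.card F = 16) (S : Sylow 2 (Cfsg.PSU 3 F 4)) : Nat.card S = 64 ∧ IsKleinFour (Subgroup.center (S : Subgroup (Cfsg.PSU 3 F 4))) ∧ Subgroup.center (S : Subgroup (Cfsg.PSU 3 F 4)) = Subgroup.closure {x : (S : Subgroup (Cfsg.PSU 3 F 4)) | orderOf x = 2} ∧ Subgroup.center (S : Subgroup (Cfsg.PSU 3 F 4)) = commutator (S : Subgroup (Cfsg.PSU 3 F 4)) ∧ Nat.card ((S : Subgroup (Cfsg.PSU 3 F 4)) ⧸ Subgroup.center (S : Subgroup (Cfsg.PSU 3 F 4))) = 16 ∧ ∀ x : (S : Subgroup (Cfsg.PSU 3 F 4)) ⧸ Subgroup.center (S : Subgroup (Cfsg.PSU 3 F 4)), x ^ 2 = 1 := by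
  have : Fact (Fintype.card F = 4 ^ 2) := ⟨by rw [hF]; norm_num⟩
  have : Fact ((2 : F) = 0) :=
    ⟨Cfsg.Agent.Lib.Helper20.U3Syl.two_eq_zero_of_card (m := 4) (by rw [hF]; norm_num)⟩
  obtain ⟨e⟩ := Cfsg.Agent.Lib.Helper20.U3Syl.exists_equiv (by decide) S
  refine ⟨?_, Cfsg.Agent.Lib.Helper20.U3Syl.isKleinFour_center_P e rfl,
    Cfsg.Agent.Lib.Helper20.U3Syl.center_eq_closure_P e,
    Cfsg.Agent.Lib.Helper20.U3Syl.center_eq_commutator_P e, ?_,
    Cfsg.Agent.Lib.Helper20.U3Syl.sq_quotient_P e⟩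
  · rw [Cfsg.Agent.Lib.Helper20.U3Syl.card_P e]; norm_num
  · rw [Cfsg.Agent.Lib.Helper20.U3Syl.card_quotient_P e]; norm_num

end Cfsg.Agent.S1248
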