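import Cfsg.Statements.S1255
import Cfsg.Agent.Lib.Helper21.DihSylow2

set_option autoImplicit false
open Cfsg

namespace Cfsg.Agent.S1255

/-- Let X be a finite group whose Sylow 2-subgroup S is dihedral of order 2m ≥ 4. Then X has no subgroup of index 2 and no isolated involution if and only if either all involutions of X are conjugate, or for every Klein four-subgroup U ≤ S the index |N_X(U) : C_X(U)| equals 3 when |S| = 4 and equals 6 when |S| > 4. -/
theorem result {X : Type*} [Group X] [Finite X] (S : Sylow 2 X) (m : ℕ) (hm : 2 ≤ m) (eS : (S : Subgroup X) ≃* DihedralGroup m) : ((∀ H : Subgroup X, H.index ≠ 2) ∧ (∀ z : X, ¬ Cfsg.IsIsolatedInvolution z)) ↔ ((∀ a b : X, orderOf a = 2 → orderOf b = 2 → IsConj a b) ∨ (∀ U : Subgroup X, U ≤ S → IsKleinFour U → (Subgroup.centralizer (U : Set X)).relIndex (Subgroup.normalizer (U : Set X)) = (if Nat.card S = 4 then 3 else 6))) := by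
  open Cfsg.Agent.Lib.Helper21.DihSyl in
  obtain ⟨j, hj⟩ := exists_pow_of_sylow S m (by omega) eS
  have hj1 : j ≠ 0 := by rintro rfl; simp at hj; omega
  obtain ⟨k, hk⟩ : ∃ k, m = 2 * k := ⟨2 ^ (j - 1), by
    rw [hj]; obtain ⟨i, rfl⟩ := Nat.exists_eq_succ_of_ne_zero hj1; simp [pow_succ, mul_comm]⟩
  have : NeZero m := ⟨by omega⟩
  have h := pkg (S : Subgroup X) eS k hk
  set z := emb (S : Subgroup X) eS (DihedralGroup.r (k : ZMod m)) with hz
  set s := emb (S : Subgroup X) eS (DihedralGroup.sr 0) with hs
  set t := emb (S : Subgroup X) eS (DihedralGroup.sr 1) with ht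
  constructor
  · rintro ⟨hno, -⟩
    left
    have hsz : IsConj s z := by
      rcases h.transfer_R h.s_mem h.s_nmem_R with ⟨M, -, hM, -⟩ | h1
      · exact absurd hM (hno M)
      · exact h1
    have htz : IsConj t z := by
      rcases h.transfer_R h.t_mem h.t_nmem_R with ⟨M, -, hM, -⟩ | h1
      · exact absurd hM (hno M)
      · exact h1
    have hall : ∀ a : X, orderOf a = 2 → IsConj a z := by
      intro a ha
      rcases h.isConj_cases ha with h1 | h1 | h1
      · exact h1
      · exact h1.trans hsz
      · exact h1.trans htz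
    intro a b ha hb
    exact (hall a ha).trans (hall b hb).symm
  · intro hor
    have hst : IsConj s z ∧ IsConj t z := by
      rcases hor with h1 | h1
      · exact ⟨h1 s z h.os h.oz, h1 t z h.ot h.oz⟩
      · have h3 : ∀ U : Subgroup X, U ≤ S → IsKleinFour U →
            3 ∣ (Subgroup.centralizer (U : Set X)).relIndex (Subgroup.normalizer (U : Set X)) := by
          intro U hU hK
          rw [h1 U hU hK]
          split_ifs
          · exact dvd_rfl
          · exact ⟨2, rfl⟩
        obtain ⟨U1, hU1, hK1, hF1⟩ := h.four_of_nR h.s_mem h.s_nmem_R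
        obtain ⟨U2, hU2, hK2, hF2⟩ := h.four_of_nR h.t_mem h.t_nmem_R
        exact ⟨isConj_of_three_dvd hF1 (h3 U1 hU1 hK1), isConj_of_three_dvd hF2 (h3 U2 hU2 hK2)⟩
    obtain ⟨hsz, htz⟩ := hst
    have hall : ∀ a : X, orderOf a = 2 → IsConj a z := by
      intro a ha
      rcases h.isConj_cases ha with h1 | h1 | h1
      · exact h1
      · exact h1.trans hsz
      · exact h1.trans htz
    constructor
    · intro H hH
      exact h.no_index_two hsz htz H (Subgroup.normal_of_index_eq_two hH) hH
    · rintro y ⟨hy, hiso⟩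
      obtain ⟨c, hc⟩ := isConj_iff.mp (hall y hy).symm
      have h1 : IsConj y (c * s * c⁻¹) :=
        ((hall y hy).trans hsz.symm).trans (isConj_iff.mpr ⟨c, rfl⟩)
      obtain ⟨g, hg⟩ := isConj_iff.mp h1
      have h2 : Commute y (g * y * g⁻¹) := by
        rw [hg, ← hc]
        show c * z * c⁻¹ * (c * s * c⁻¹) = c * s * c⁻¹ * (c * z * c⁻¹)
        have := h.z_comm s h.s_mem
        calc c * z * c⁻¹ * (c * s * c⁻¹) = c * (z * s) * c⁻¹ := by group
          _ = c * (s * z) * c⁻¹ := by rw [this]
          _ = c * s * c⁻¹ * (c * z * c⁻¹) := by group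
      have h3 := hiso g h2
      rw [hg, ← hc] at h3
      have h4 : s = z := by
        have := congrArg (fun w => c⁻¹ * w * c) h3
        simpa [mul_assoc] using this
      exact h.z_ne_s h4.symm

end Cfsg.Agent.S1255
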