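import Cfsg.Statements.S1256
import Cfsg.Agent.Lib.Helper21.DihSylow3
import Cfsg.Agent.Lib.Helper21.Fusion
import Cfsg.Agent.Lib.Helper14.KleinClasses
import Cfsg.Agent.S0514

set_option autoImplicit false
open Cfsg

namespace Cfsg.Agent.S1256

open Cfsg.Agent.Lib.Helper21.DihSyl Cfsg.Agent.Lib.Helper21 in
theorem map_conj_trans {X : Type*} [Group X] {U V W : Subgroup X} {g1 g2 : X}
    (h1 : U.map (MulAut.conj g1).toMonoidHom = W) (h2 : V.map (MulAut.conj g2).toMonoidHom = W) :
    U.map (MulAut.conj (g2⁻¹ * g1)).toMonoidHom = V := by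
  ext x
  rw [mem_map_conj_iff]
  have e1 : g2 * x * g2⁻¹ ∈ W ↔ x ∈ V := by
    rw [← h2, mem_map_conj_iff]
    have : g2⁻¹ * (g2 * x * g2⁻¹) * g2 = x := by group
    rw [this]
  rw [← e1, ← h1, mem_map_conj_iff]
  have : (g2⁻¹ * g1)⁻¹ * x * (g2⁻¹ * g1) = g1⁻¹ * (g2 * x * g2⁻¹) * g1 := by group
  rw [this]

open Cfsg.Agent.Lib.Helper21.DihSyl Cfsg.Agent.Lib.Helper21 in
theorem exists_conj_eq_sylow {X : Type*} [Group X] [Finite X] (S : Sylow 2 X) (U : Subgroup X)
    (hU : IsPGroup 2 U) (hc : Nat.card U = Nat.card S) :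
    ∃ g : X, U.map (MulAut.conj g).toMonoidHom = S := by
  have : Fact (Nat.Prime 2) := ⟨Nat.prime_two⟩
  obtain ⟨g, hg⟩ := Cfsg.Agent.Lib.Helper4.exists_conj_le_sylow S hU
  refine ⟨g, Subgroup.eq_of_le_of_card_ge ?_ ?_⟩
  · rintro _ ⟨u, hu, rfl⟩
    exact hg u hu
  · rw [Subgroup.card_map_of_injective (MulAut.conj g).injective, hc]

theorem isPGroup_of_four {X : Type*} [Group X] {U : Subgroup X} (hU : IsKleinFour U) :
    IsPGroup 2 U := IsPGroup.of_card (n := 2) (by rw [hU.card_four]; norm_num)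

open Cfsg.Agent.Lib.Helper21.DihSyl Cfsg.Agent.Lib.Helper21 Cfsg.Agent.Lib.Helper90 in
theorem four_map_conj_eq {X : Type*} [Group X] {U V : Subgroup X} {z a z' a' u : X}
    (hF : Four V z a) (hF' : Four U z' a') (hz : u * z' * u⁻¹ = z) (ha : u * a' * u⁻¹ = a) :
    U.map (MulAut.conj u).toMonoidHom = V := by
  ext x
  rw [mem_map_conj_iff, hF'.mem, hF.mem, ← hz, ← ha]
  have e : ∀ y : X, u⁻¹ * x * u = y ↔ x = u * y * u⁻¹ := by
    intro y
    constructor
    · intro h; rw [← h]; group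
    · intro h; rw [h]; group
  rw [e, e, e, e]
  have e1 : u * 1 * u⁻¹ = 1 := by group
  have e2 : u * (z' * a') * u⁻¹ = u * z' * u⁻¹ * (u * a' * u⁻¹) := by group
  rw [e1, e2]

open Cfsg.Agent.Lib.Helper21.DihSyl in
/-- fusion in `C(z)` of elements of `S` is controlled by `S`. -/
theorem conj_in_S {X : Type*} [Group X] [Finite X] (S : Sylow 2 X) (m : ℕ) (hm : 2 ≤ m)
    (eS : (S : Subgroup X) ≃* DihedralGroup m) {z : X} (hz : orderOf z = 2)
    (hzc : ∀ x ∈ (S : Subgroup X), x * z = z * x) {a b x : X} (ha : a ∈ (S : Subgroup X))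
    (hb : b ∈ (S : Subgroup X)) (hx : x * z = z * x) (hab : x * a * x⁻¹ = b) :
    ∃ u ∈ (S : Subgroup X), u * a * u⁻¹ = b := by
  have : Fact (Nat.Prime 2) := ⟨Nat.prime_two⟩
  have hSC : (S : Subgroup X) ≤ Subgroup.centralizer ({z} : Set X) := fun y hy =>
    Subgroup.mem_centralizer_singleton_iff.mpr (hzc y hy)
  obtain ⟨N, hN, hodd, k, hidx⟩ := Cfsg.Agent.S0514.result S m hm ⟨eS⟩ z hz
  have hc : N.IsComplement' ((S.subtype hSC : Sylow 2 _) : Subgroup _) :=
    Cfsg.Agent.Lib.Lead.isComplement'_sylow_of_coprime_of_index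
      (Nat.Coprime.symm (Nat.coprime_two_left.mpr hodd)) hidx _
  have hxC : x ∈ Subgroup.centralizer ({z} : Set X) := Subgroup.mem_centralizer_singleton_iff.mpr hx
  obtain ⟨u, hu, hu'⟩ := conj_in_of_complement hc
    (a := ⟨a, hSC ha⟩) (b := ⟨b, hSC hb⟩)
    (by rw [Sylow.coe_subtype, Subgroup.mem_subgroupOf]; exact ha)
    (by rw [Sylow.coe_subtype, Subgroup.mem_subgroupOf]; exact hb)
    (isConj_iff.mpr ⟨⟨x, hxC⟩, Subtype.ext hab⟩)
  rw [Sylow.coe_subtype, Subgroup.mem_subgroupOf] at hu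
  exact ⟨u, hu, congrArg Subtype.val hu'⟩

/-- Let X be a finite group whose Sylow 2-subgroup S is dihedral of order 2m ≥ 4. If |S| = 4, any two Klein four-subgroups of X are conjugate; if |S| > 4, there are Klein four-subgroups U₁, U₂ of X that are not conjugate, and every Klein four-subgroup of X is conjugate to U₁ or to U₂. -/
theorem result {X : Type*} [Group X] [Finite X] (S : Sylow 2 X) (m : ℕ) (hm : 2 ≤ m) (eS : (S : Subgroup X) ≃* DihedralGroup m) : (Nat.card S = 4 → ∀ U V : Subgroup X, IsKleinFour U → IsKleinFour V → (∃ x : X, U.map (MulAut.conj x).toMonoidHom = V)) ∧ (4 < Nat.card S → ∃ U₁ U₂ : Subgroup X, IsKleinFour U₁ ∧ IsKleinFour U₂ ∧ ¬ (∃ x : X, U₁.map (MulAut.conj x).toMonoidHom = U₂) ∧ ∀ V : Subgroup X, IsKleinFour V → (∃ x : X, V.map (MulAut.conj x).toMonoidHom = U₁) ∨ (∃ x : X, V.map (MulAut.conj x).toMonoidHom = U₂)) := by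
  open Cfsg.Agent.Lib.Helper21.DihSyl Cfsg.Agent.Lib.Helper21 Cfsg.Agent.Lib.Helper90 in
  have : Fact (Nat.Prime 2) := ⟨Nat.prime_two⟩
  constructor
  · intro h4 U V hU hV
    obtain ⟨g1, hg1⟩ := exists_conj_eq_sylow S U (isPGroup_of_four hU) (by rw [hU.card_four]; exact h4.symm)
    obtain ⟨g2, hg2⟩ := exists_conj_eq_sylow S V (isPGroup_of_four hV) (by rw [hV.card_four]; exact h4.symm)
    exact ⟨_, map_conj_trans hg1 hg2⟩
  · intro h4
    have hcard : Nat.card (S : Subgroup X) = 2 * m := by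
      rw [Nat.card_congr eS.toEquiv, DihedralGroup.nat_card]
    obtain ⟨j, hj⟩ := exists_pow_of_sylow S m (by omega) eS
    have hm2 : 2 < m := by
      have : 4 < 2 * m := hcard ▸ h4
      omega
    obtain ⟨i, rfl⟩ : ∃ i, j = i + 2 := by
      refine ⟨j - 2, ?_⟩
      rcases j with _ | _ | j
      · simp at hj; omega
      · simp at hj; omega
      · omega
    have hmk : m = 2 * 2 ^ (i + 1) := by rw [hj, pow_succ, mul_comm]
    have hk : 2 ^ (i + 1) = 2 * 2 ^ i := by rw [pow_succ, mul_comm]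
    have : NeZero m := ⟨by omega⟩
    have h := pkg (S : Subgroup X) eS _ hmk
    have h4' := pkg4 (S : Subgroup X) eS _ _ hmk hk
    set z := emb (S : Subgroup X) eS (DihedralGroup.r ((2 ^ (i + 1) : ℕ) : ZMod m)) with hz
    set s := emb (S : Subgroup X) eS (DihedralGroup.sr 0) with hs
    set t := emb (S : Subgroup X) eS (DihedralGroup.sr 1) with ht
    set w := emb (S : Subgroup X) eS (DihedralGroup.r ((2 ^ i : ℕ) : ZMod m)) with hw
    set R := Subgroup.map (emb (S : Subgroup X) eS) (phi ⟨_, hmk⟩ 0 1).ker with hR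
    set Q1 := Subgroup.map (emb (S : Subgroup X) eS) (phi ⟨_, hmk⟩ 1 0).ker with hQ1
    obtain ⟨U1, hU1, hK1, hF1⟩ := h.four_of_nR h.s_mem h.s_nmem_R
    obtain ⟨U2, hU2, hK2, hF2⟩ := h.four_of_nR h.t_mem h.t_nmem_R
    have hzz : z * z = 1 := sq_of_order_two h.oz
    have hwz : w * z * w⁻¹ = z := by rw [h.z_comm w h4'.w_mem]; group
    -- `w` normalizes the four-groups
    have hwU : ∀ (U : Subgroup X) (a : X), a ∈ (S : Subgroup X) → a ∉ R → Four U z a →
        ∀ e ∈ U, w * e * w⁻¹ ∈ U := by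
      intro U a haS haR hF e he
      have hwa := h4'.w_conj a haS haR
      rcases (hF.mem e).mp he with rfl | rfl | rfl | rfl
      · simp
      · rw [hwz]; exact (hF.mem _).mpr (by tauto)
      · rw [hwa]; exact (hF.mem _).mpr (by tauto)
      · have : w * (z * a) * w⁻¹ = a := by
          calc w * (z * a) * w⁻¹ = (w * z * w⁻¹) * (w * a * w⁻¹) := by group
            _ = (z * z) * a := by rw [hwz, hwa]; group
            _ = a := by rw [hzz, one_mul]
        rw [this]; exact (hF.mem _).mpr (by tauto)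
    refine ⟨U1, U2, hK1, hK2, ?_, ?_⟩
    · rintro ⟨x, hx⟩
      have hx1 : ∀ v ∈ U1, x * v * x⁻¹ ∈ U2 := by
        intro v hv
        rw [← hx, mem_map_conj_iff]
        have : x⁻¹ * (x * v * x⁻¹) * x = v := by group
        rw [this]; exact hv
      have hx2 : ∀ e ∈ U2, x⁻¹ * e * x ∈ U1 := by
        intro e he
        rw [← hx, mem_map_conj_iff] at he
        exact he
      have key : ∀ y : X, y * z * y⁻¹ = z → y * s * y⁻¹ ∈ U2 → False := by
        intro y hyz hys
        have hyz' : y * z = z * y := by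
          calc y * z = (y * z * y⁻¹) * y := by group
            _ = z * y := by rw [hyz]
        rcases (hF2.mem _).mp hys with h1 | h1 | h1 | h1
        · apply hF1.s_ne
          have := congrArg (fun v => y⁻¹ * v * y) h1
          simpa [mul_assoc] using this
        · apply hF1.zs_ne
          have := congrArg (fun v => y⁻¹ * v * y) (hyz.trans h1.symm)
          simpa [mul_assoc] using this
        · obtain ⟨u, hu, hut⟩ := conj_in_S S m hm eS h.oz h.z_comm h.s_mem h.t_mem hyz' h1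
          exact h.t_nmem_Q1 (hut ▸ h.Q1_norm u hu s h.s_mem_Q1)
        · obtain ⟨u, hu, hut⟩ := conj_in_S S m hm eS h.oz h.z_comm h.s_mem
            (Subgroup.mul_mem _ h.z_mem h.t_mem) hyz' h1
          have h2 : z * t ∈ Q1 := hut ▸ h.Q1_norm u hu s h.s_mem_Q1
          apply h.t_nmem_Q1
          have := Q1.mul_mem (Q1.inv_mem h4'.z_mem_Q1) h2
          simpa using this
      have hzU1 : z ∈ U1 := (hF1.mem z).mpr (by tauto)
      have hzU2 : z ∈ U2 := (hF2.mem z).mpr (by tauto)
      have hsU1 : s ∈ U1 := (hF1.mem s).mpr (by tauto)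
      -- the general argument
      have gen : x * z * x⁻¹ ∈ (S : Subgroup X) → x * z * x⁻¹ ∉ R → False := by
        intro haS haR
        set a := x * z * x⁻¹ with ha
        have hwa := h4'.w_conj a haS haR
        have hvU : x⁻¹ * z * x ∈ U1 := hx2 z hzU2
        set v := x⁻¹ * z * x with hv
        have hvS : v ∈ (S : Subgroup X) := hU1 hvU
        have hvR : v ∉ R := by
          rcases (hF1.mem _).mp hvU with h1 | h1 | h1 | h1
          · exfalso
            apply hF1.z_ne
            have := congrArg (fun e => x * e * x⁻¹) h1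
            simpa [hv, mul_assoc] using this
          · exfalso
            apply haR
            have : a = z := by
              have h2 : x * v * x⁻¹ = z := by rw [hv]; group
              rw [h1] at h2; exact h2
            rw [this]; exact h.z_mem_R
          · rw [h1]; exact h.s_nmem_R
          · rw [h1]; exact h.zs_nmem_R h.s_nmem_R
        have hwv := h4'.w_conj v hvS hvR
        apply key (x * w * x⁻¹ * w * x)
        · have e1 : x⁻¹ * (z * a) * x = v * z := by rw [hv, ha]; group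
          calc x * w * x⁻¹ * w * x * z * (x * w * x⁻¹ * w * x)⁻¹
              = x * w * x⁻¹ * (w * a * w⁻¹) * x * w⁻¹ * x⁻¹ := by rw [ha]; group
            _ = x * w * (x⁻¹ * (z * a) * x) * w⁻¹ * x⁻¹ := by rw [hwa]; group
            _ = x * ((w * v * w⁻¹) * (w * z * w⁻¹)) * x⁻¹ := by rw [e1]; group
            _ = x * (z * (v * z)) * x⁻¹ := by rw [hwv, hwz]; group
            _ = x * ((z * z) * v) * x⁻¹ := by rw [h.z_comm v hvS]; group
            _ = z := by rw [hzz, hv]; group
        · have e1 := hx1 s hsU1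
          have e2 := hwU U2 t h.t_mem h.t_nmem_R hF2 _ e1
          have e3 := hx2 _ e2
          have e4 := hwU U1 s h.s_mem h.s_nmem_R hF1 _ e3
          have e5 := hx1 _ e4
          have : x * w * x⁻¹ * w * x * s * (x * w * x⁻¹ * w * x)⁻¹
              = x * (w * (x⁻¹ * (w * (x * s * x⁻¹) * w⁻¹) * x) * w⁻¹) * x⁻¹ := by group
          rw [this]; exact e5
      rcases (hF2.mem _).mp (hx1 z hzU1) with h1 | h1 | h1 | h1
      · apply hF1.z_ne
        have := congrArg (fun v => x⁻¹ * v * x) h1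
        simpa [mul_assoc] using this
      · exact key x h1 (hx1 s hsU1)
      · exact gen (h1 ▸ h.t_mem) (h1 ▸ h.t_nmem_R)
      · exact gen (h1 ▸ Subgroup.mul_mem _ h.z_mem h.t_mem) (h1 ▸ h.zs_nmem_R h.t_nmem_R)
    · intro V hV
      obtain ⟨g, hg⟩ := Cfsg.Agent.Lib.Helper4.exists_conj_le_sylow S (isPGroup_of_four hV)
      have hV'S : V.map (MulAut.conj g).toMonoidHom ≤ S := by
        rintro _ ⟨u, hu, rfl⟩
        exact hg u hu
      have hV' : IsKleinFour (V.map (MulAut.conj g).toMonoidHom) :=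
        Cfsg.Agent.Lib.Helper14.isKleinFour_map_conj hV g
      obtain ⟨a, haV, haR, hF⟩ := h.exists_four hV'S hV'
      rcases h.nR_conj (hV'S haV) haR with ⟨u, hu, hua⟩ | ⟨u, hu, hua⟩
      · left
        have huz : u * z * u⁻¹ = z := by rw [h.z_comm u hu]; group
        exact ⟨_, map_conj_trans rfl (four_map_conj_eq hF hF1 huz hua)⟩
      · right
        have huz : u * z * u⁻¹ = z := by rw [h.z_comm u hu]; group
        exact ⟨_, map_conj_trans rfl (four_map_conj_eq hF hF2 huz hua)⟩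

end Cfsg.Agent.S1256
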