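import Cfsg.Statements.S1273
import Cfsg.Agent.Lib.Helper23.PComp2

set_option autoImplicit false
open Cfsg

namespace Cfsg.Agent.S1273

open Cfsg.Agent.Lib.Helper23

/-- Let K be a p-component of the finite group X and N a normal subgroup of K whose index in K is prime to p. Then N = K. -/
theorem result {X : Type*} [Group X] [Finite X] (p : ℕ) [Fact p.Prime] (K : Subgroup X) (hK : Cfsg.IsPComponent p K) (N : Subgroup ↥K) [N.Normal] (hidx : (N.index).Coprime p) : N = ⊤ := by
  have hsn : (N.map K.subtype).IsSubnormal :=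
    Subgroup.IsSubnormal.trans' (Subgroup.Normal.isSubnormal inferInstance) hK.1
  have hle : N.map K.subtype ≤ K := Subgroup.map_subtype_le N
  obtain ⟨P⟩ : Nonempty (Sylow p ↥K) := inferInstance
  have hPN : (P : Subgroup ↥K) ≤ N := by
    intro x hx
    obtain ⟨k, hk⟩ := P.isPGroup' ⟨x, hx⟩
    have hk' : x ^ (p ^ k) = 1 := congrArg Subtype.val hk
    rw [← QuotientGroup.eq_one_iff]
    have h1 : (x : ↥K ⧸ N) ^ (p ^ k) = 1 := by
      rw [← QuotientGroup.mk_pow, hk']; rfl
    have h2 : (x : ↥K ⧸ N) ^ N.index = 1 := by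
      rw [Subgroup.index_eq_card]; exact pow_card_eq_one'
    exact eq_one_of_pow_coprime (Nat.Coprime.pow_right k hidx) h2 h1
  have h3 := map_eq_of_sylow_le p hK.2.1 hsn hle P (Subgroup.map_mono hPN)
  have h4 := hK.2.2 _ hsn hle h3
  rw [eq_top_iff]
  intro x _
  have hx : (x : X) ∈ N.map K.subtype := by rw [h4]; exact x.2
  obtain ⟨y, hy, hyx⟩ := hx
  have : y = x := Subtype.ext hyx
  exact this ▸ hy

end Cfsg.Agent.S1273
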