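import Mathlib
import Cfsg.Statements.S1279
import Cfsg.Agent.Lib.Helper22.CoreOf
import Cfsg.Agent.Lib.Helper22.Signalizer

set_option autoImplicit false
open Cfsg
open Cfsg.Agent.Lib.Helper31 Cfsg.Agent.Lib.Helper22 Cfsg.Agent.Lib.Helper23

namespace Cfsg.Agent.S1279

/-- Let A be a noncyclic elementary abelian p-subgroup of the finite group G such that C_G(a) is solvable for every non-identity a ∈ A. Then a ↦ O_{p'}(C_G(a)) is a solvable A-signalizer functor on G. -/
theorem result {G : Type*} [Group G] [Finite G] (p : ℕ) [Fact p.Prime] (A : Subgroup G) (hA : Cfsg.IsElementaryAbelian p A) (hA2 : p ^ 2 ≤ Nat.card ↥A) (hsolv : ∀ a ∈ A, a ≠ 1 → Group.IsSolvable ↥(Subgroup.centralizer ({a} : Set G))) : Cfsg.IsSolvableSignalizerFunctor p A (fun a => Cfsg.centralizerPPrimeCore p a) := by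
  have hcomm := elemAb_comm hA
  have hθ : ∀ a : G, Cfsg.centralizerPPrimeCore p a = coreOf p (Subgroup.centralizer {a}) := fun a => rfl
  have hnorm : ∀ a : G, Subgroup.centralizer {a} ≤
      Subgroup.normalizer (coreOf p (Subgroup.centralizer ({a} : Set G)) : Set G) := fun a =>
    Subgroup.le_normalizer.trans (normalizer_le_normalizer_coreOf p _)
  have hcop : ∀ a : G, ¬ p ∣ Nat.card (coreOf p (Subgroup.centralizer ({a} : Set G))) := by
    intro a hd
    have h1 := card_coreOf_coprime p (Subgroup.centralizer ({a} : Set G))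
    have := Nat.Coprime.eq_one_of_dvd h1.symm hd
    exact (Fact.out : p.Prime).one_lt.ne' this
  refine ⟨⟨?_, ?_, ?_, ?_⟩, ?_⟩
  · intro a _ _
    exact coreOf_le p _
  · intro a _ _
    exact hcop a
  · intro a ha _ b hb x hx
    have hb' : b ∈ Subgroup.centralizer ({a} : Set G) :=
      Subgroup.mem_centralizer_singleton_iff.mpr (hcomm b hb a ha)
    exact Subgroup.le_normalizer_iff.mp (hnorm a) b hb' x hx
  · intro a ha ha1 b hb hb1
    simp only [hθ]
    haveI := hsolv b hb hb1
    have hY : Cfsg.pLayer p ↥(Subgroup.centralizer ({b} : Set G)) = ⊥ := pLayer_eq_bot_of_isSolvable p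
    have hPY : Subgroup.zpowers a ≤ Subgroup.centralizer ({b} : Set G) := by
      rw [Subgroup.zpowers_le]
      exact Subgroup.mem_centralizer_singleton_iff.mpr (hcomm a ha b hb)
    have h1 := coreOf_inf_centralizer_le p hY hPY (isPGroup_zpowers (hA.2 a ha))
    rw [centralizer_zpowers] at h1
    refine le_trans ?_ h1
    apply le_coreOf p
    · exact le_inf inf_le_right (inf_le_left.trans (coreOf_le p (Subgroup.centralizer ({a} : Set G))))
    · apply le_normalizer_inf
      · exact inf_le_right.trans (hnorm a)
      · exact inf_le_left.trans (Subgroup.le_normalizer (H := Subgroup.centralizer ({b} : Set G)))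
    · exact coprime_of_not_dvd (not_dvd_card_of_le inf_le_left (hcop a))
  · intro a ha ha1
    haveI := hsolv a ha ha1
    exact Group.isSolvable_of_isSolvable_injective
      (f := Subgroup.inclusion (coreOf_le p (Subgroup.centralizer ({a} : Set G))))
      (Subgroup.inclusion_injective _)

end Cfsg.Agent.S1279
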