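import Mathlib
import Cfsg.Statements.S1285
import Cfsg.Agent.Lib.Helper22.Signalizer
import Cfsg.Agent.S1284

set_option autoImplicit false
open Cfsg
open Cfsg.Agent.Lib.Helper22

namespace Cfsg.Agent.S1285

/-- Let θ be a solvable A-signalizer functor on the finite group G with A elementary abelian of rank at least 3, and suppose that for some prime q every θ a (a ∈ A non-identity) is a q-group. Then θ is complete. -/
theorem result {G : Type*} [Group G] [Finite G] (p : ℕ) [Fact p.Prime] (A : Subgroup G) (hA : Cfsg.IsElementaryAbelian p A) (hA3 : p ^ 3 ≤ Nat.card ↥A) (θ : G → Subgroup G) (hθ : Cfsg.IsSolvableSignalizerFunctor p A θ) (q : ℕ) [Fact q.Prime] (hq : ∀ a ∈ A, a ≠ 1 → IsPGroup q ↥(θ a)) : Cfsg.IsCompleteSignalizerFunctor p A θ := by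
  obtain ⟨Q, hQ, -⟩ := exists_maxQFamily_ge (p := p) (A := A) (θ := θ) (q := q) family_bot
    (IsPGroup.of_bot)
  refine ⟨hθ.1, Q, hQ.1.2.2.1, hQ.1.2.1, ?_⟩
  intro a ha ha1
  apply le_antisymm (hQ.1.2.2.2 a ha ha1)
  refine le_inf ?_ (hθ.1.1 a ha ha1)
  obtain ⟨c, hc, hS⟩ := Cfsg.Agent.S1284.partA p A hA hA3 θ hθ q Q hQ (θ a) (family_theta hθ ha ha1)
  have h1 : θ a = conjS c Q ⊓ θ a := hS.eq_of_le (hq a ha ha1) le_rfl inf_le_right
  have h2 : θ a ≤ conjS c Q := by
    rw [h1]; exact inf_le_left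
  have hca : c ∈ θ a := signalizerInf_le ha ha1 hc
  intro x hx
  have h3 : c * x * c⁻¹ ∈ conjS c Q := h2 (mul_mem (mul_mem hca hx) (inv_mem hca))
  rw [mem_conjS] at h3
  convert h3 using 1
  group

end Cfsg.Agent.S1285
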