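import Mathlib
import Cfsg.Statements.S1286

set_option autoImplicit false
open Cfsg

namespace Cfsg.Agent.S1286

abbrev P5 := Equiv.Perm (Fin 5)

def s : P5 := Equiv.swap 0 1
def t : P5 := Equiv.swap 3 4
def ca : P5 := c[0, 1, 2]
def cb : P5 := c[2, 3, 4]

def A : Subgroup P5 where
  carrier := {x | x = 1 ∨ x = s ∨ x = t ∨ x = s * t}
  one_mem' := Or.inl rfl
  mul_mem' := by
    rintro x y (rfl | rfl | rfl | rfl) (rfl | rfl | rfl | rfl) <;>
      simp only [Set.mem_ofPred_eq] <;> decide +kernel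
  inv_mem' := by
    rintro x (rfl | rfl | rfl | rfl) <;>
      simp only [Set.mem_ofPred_eq] <;> decide +kernel

theorem mem_A {x : P5} : x ∈ A ↔ x = 1 ∨ x = s ∨ x = t ∨ x = s * t := Iff.rfl

instance : DecidablePred (· ∈ A) := fun x =>
  decidable_of_iff (x = 1 ∨ x = s ∨ x = t ∨ x = s * t) Iff.rfl

def Ta : Subgroup P5 where
  carrier := {x | x = 1 ∨ x = ca ∨ x = ca⁻¹}
  one_mem' := Or.inl rfl
  mul_mem' := by
    rintro x y (rfl | rfl | rfl) (rfl | rfl | rfl) <;>
      simp only [Set.mem_ofPred_eq] <;> decide +kernel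
  inv_mem' := by
    rintro x (rfl | rfl | rfl) <;>
      simp only [Set.mem_ofPred_eq] <;> decide +kernel

def Tb : Subgroup P5 where
  carrier := {x | x = 1 ∨ x = cb ∨ x = cb⁻¹}
  one_mem' := Or.inl rfl
  mul_mem' := by
    rintro x y (rfl | rfl | rfl) (rfl | rfl | rfl) <;>
      simp only [Set.mem_ofPred_eq] <;> decide +kernel
  inv_mem' := by
    rintro x (rfl | rfl | rfl) <;>
      simp only [Set.mem_ofPred_eq] <;> decide +kernel

instance : DecidablePred (· ∈ Ta) := fun x =>
  decidable_of_iff (x = 1 ∨ x = ca ∨ x = ca⁻¹) Iff.rfl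

instance : DecidablePred (· ∈ Tb) := fun x =>
  decidable_of_iff (x = 1 ∨ x = cb ∨ x = cb⁻¹) Iff.rfl

def θ (a : P5) : Subgroup P5 := if a = s then Tb else if a = t then Ta else ⊥

theorem θ_s : θ s = Tb := by simp [θ]
theorem θ_t : θ t = Ta := by
  have : t ≠ s := by decide +kernel
  simp [θ, this]
theorem θ_st : θ (s * t) = ⊥ := by
  have h1 : s * t ≠ s := by decide +kernel
  have h2 : s * t ≠ t := by decide +kernel
  simp [θ, h1, h2]

theorem card_A : Nat.card A = 4 := by
  rw [Nat.card_eq_fintype_card]; decide +kernel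

theorem card_Ta : Nat.card Ta = 3 := by
  rw [Nat.card_eq_fintype_card]; decide +kernel

theorem card_Tb : Nat.card Tb = 3 := by
  rw [Nat.card_eq_fintype_card]; decide +kernel

theorem comm_Ta : ∀ x ∈ Ta, ∀ y ∈ Ta, x * y = y * x := by decide +kernel
theorem comm_Tb : ∀ x ∈ Tb, ∀ y ∈ Tb, x * y = y * x := by decide +kernel

theorem solv_of_comm (H : Subgroup P5) (h : ∀ x ∈ H, ∀ y ∈ H, x * y = y * x) :
    Group.IsSolvable H :=
  Group.isSolvable_of_comm (fun a b => Subtype.ext (h a a.2 b b.2))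

theorem isSF : IsSignalizerFunctor 2 A θ := by
  refine ⟨?_, ?_, ?_, ?_⟩
  · rintro a (rfl | rfl | rfl | rfl) ha
    · exact absurd rfl ha
    · rw [θ_s]; intro x hx; rw [Subgroup.mem_centralizer_singleton_iff]
      revert x; decide +kernel
    · rw [θ_t]; intro x hx; rw [Subgroup.mem_centralizer_singleton_iff]
      revert x; decide +kernel
    · rw [θ_st]; exact bot_le
  · rintro a (rfl | rfl | rfl | rfl) ha
    · exact absurd rfl ha
    · rw [θ_s, card_Tb]; decide
    · rw [θ_t, card_Ta]; decide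
    · rw [θ_st]; simp
  · rintro a (rfl | rfl | rfl | rfl) ha
    · exact absurd rfl ha
    · rw [θ_s]; decide +kernel
    · rw [θ_t]; decide +kernel
    · rw [θ_st]; intro b _ x hx; rw [Subgroup.mem_bot] at hx ⊢; subst hx; simp
  · have key1 : ∀ x ∈ Tb, x * t = t * x → x = 1 := by decide +kernel
    have key2 : ∀ x ∈ Tb, x * (s * t) = (s * t) * x → x = 1 := by decide +kernel
    have key3 : ∀ x ∈ Ta, x * s = s * x → x = 1 := by decide +kernel
    have key4 : ∀ x ∈ Ta, x * (s * t) = (s * t) * x → x = 1 := by decide +kernel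
    rintro a (rfl | rfl | rfl | rfl) ha b (rfl | rfl | rfl | rfl) hb
    all_goals first
      | exact absurd rfl ha
      | exact absurd rfl hb
      | exact inf_le_left
      | (rw [θ_st]; exact inf_le_left.trans bot_le)
      | skip
    · rintro x hx
      obtain ⟨h1, h2⟩ := Subgroup.mem_inf.mp hx
      rw [θ_s] at h1; rw [Subgroup.mem_centralizer_singleton_iff] at h2
      rw [key1 x h1 h2]; exact one_mem _
    · rintro x hx
      obtain ⟨h1, h2⟩ := Subgroup.mem_inf.mp hx
      rw [θ_s] at h1; rw [Subgroup.mem_centralizer_singleton_iff] at h2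
      rw [key2 x h1 h2]; exact one_mem _
    · rintro x hx
      obtain ⟨h1, h2⟩ := Subgroup.mem_inf.mp hx
      rw [θ_t] at h1; rw [Subgroup.mem_centralizer_singleton_iff] at h2
      rw [key3 x h1 h2]; exact one_mem _
    · rintro x hx
      obtain ⟨h1, h2⟩ := Subgroup.mem_inf.mp hx
      rw [θ_t] at h1; rw [Subgroup.mem_centralizer_singleton_iff] at h2
      rw [key4 x h1 h2]; exact one_mem _

/-- There exist a finite group X, an elementary abelian subgroup A of order 4 and a solvable A-signalizer functor θ on X for the prime 2 which is not complete. -/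
theorem result : ∃ (X : Type) (_ : Group X) (_ : Finite X) (A : Subgroup X) (θ : X → Subgroup X), Cfsg.IsElementaryAbelian 2 A ∧ Nat.card ↥A = 4 ∧ Cfsg.IsSolvableSignalizerFunctor 2 A θ ∧ ¬ Cfsg.IsCompleteSignalizerFunctor 2 A θ := by
  refine ⟨P5, inferInstance, inferInstance, A, θ, ⟨?_, ?_⟩, card_A, ⟨isSF, ?_⟩, ?_⟩
  · have h : ∀ x ∈ A, ∀ y ∈ A, x * y = y * x := by decide +kernel
    exact ⟨⟨fun a b => Subtype.ext (h a a.2 b b.2)⟩⟩
  · decide +kernel
  · rintro a (rfl | rfl | rfl | rfl) ha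
    · exact absurd rfl ha
    · rw [θ_s]; exact solv_of_comm _ comm_Tb
    · rw [θ_t]; exact solv_of_comm _ comm_Ta
    · rw [θ_st]; exact solv_of_comm _ (by
        intro x hx y hy; rw [Subgroup.mem_bot] at hx hy; rw [hx, hy])
  · rintro ⟨-, X, -, hX, hθ⟩
    have hs : s ∈ A := Or.inr (Or.inl rfl)
    have ht : t ∈ A := Or.inr (Or.inr (Or.inl rfl))
    have h1 : cb ∈ X := by
      have : cb ∈ θ s := by rw [θ_s]; exact Or.inr (Or.inl rfl)
      rw [← hθ s hs (by decide +kernel)] at this
      exact (Subgroup.mem_inf.mp this).1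
    have h2 : ca ∈ X := by
      have : ca ∈ θ t := by rw [θ_t]; exact Or.inr (Or.inl rfl)
      rw [← hθ t ht (by decide +kernel)] at this
      exact (Subgroup.mem_inf.mp this).1
    have h3 : ca * cb * ca * cb⁻¹ ∈ X :=
      X.mul_mem (X.mul_mem (X.mul_mem h2 h1) h2) (X.inv_mem h1)
    have h4 : orderOf (ca * cb * ca * cb⁻¹) = 2 :=
      orderOf_eq_prime (by decide +kernel) (by decide +kernel)
    apply hX
    have := Subgroup.orderOf_dvd_natCard X h3
    rwa [h4] at this

end Cfsg.Agent.S1286
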