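import Mathlib
import Cfsg.Statements.S1288
import Cfsg.Agent.Lib.Helper22.Generation2
import Cfsg.Agent.Lib.Helper22.NormalizerQuot
import Cfsg.Agent.Lib.Helper22.CoreOf
import Cfsg.Agent.Lib.Helper23.PConstrained
import Cfsg.Agent.Lib.Helper23.Transport
import Cfsg.Agent.Lib.Helper54.PConstrained

set_option autoImplicit false
open Cfsg
open Cfsg.Agent.Lib.Helper22

namespace Cfsg.Agent.S1288

open scoped commutatorElement

theorem le_pPrimeCore_of_le_pPrimePCore {X : Type*} [Group X] [Finite X] (q : ℕ) [Fact q.Prime]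
    (W : Subgroup X) (hW : W ≤ pPrimePCore q X) (hq : ¬ q ∣ Nat.card W) :
    W ≤ pPrimeCore q X := by
  have h1 : W.map (QuotientGroup.mk' (pPrimeCore q X)) ≤ pCore q (X ⧸ pPrimeCore q X) := by
    rintro _ ⟨w, hw, rfl⟩
    exact hW hw
  have h2 : IsPGroup q (W.map (QuotientGroup.mk' (pPrimeCore q X))) :=
    (Cfsg.Agent.Lib.Lead.pCore_isPGroup q _).to_le h1
  have h3 : ¬ q ∣ Nat.card (W.map (QuotientGroup.mk' (pPrimeCore q X))) :=
    fun h => hq (h.trans (Subgroup.card_map_dvd _ _))
  have h4 := eq_bot_of_isPGroup_of_not_dvd h2 h3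
  rw [Subgroup.map_eq_bot_iff, QuotientGroup.ker_mk'] at h4
  exact h4

theorem normalizer_le_normalizer_map_subtype {H : Type*} [Group H] (K : Subgroup H)
    (C : Subgroup K) (hC : ∀ φ : K ≃* K, C.map φ.toMonoidHom = C) :
    Subgroup.normalizer (K : Set H) ≤ Subgroup.normalizer ((C.map K.subtype : Subgroup H) : Set H) := by
  rw [Subgroup.le_normalizer_iff]
  rintro a ha _ ⟨k, hk, rfl⟩
  have h1 : (K.normalizerMonoidHom ⟨a, ha⟩ : K ≃* K) k ∈ C := by
    have := hC (K.normalizerMonoidHom ⟨a, ha⟩)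
    rw [← this]
    exact ⟨k, hk, rfl⟩
  exact ⟨_, h1, rfl⟩

/-- Let A be a noncyclic elementary abelian p-subgroup of a finite group H normalizing a solvable subgroup K of order prime to p, q a prime dividing |K|, and U ≤ K a subgroup of order prime to q such that ⁅U, C_K(B)⁆ has order prime to q for every subgroup B of index p in A. Then U ≤ O_{q'}(K). -/
theorem result {H : Type*} [Group H] [Finite H] (p : ℕ) [Fact p.Prime] (A K : Subgroup H) (hA : Cfsg.IsElementaryAbelian p A) (hA2 : p ^ 2 ≤ Nat.card ↥A) (hK : ¬ p ∣ Nat.card ↥K) (hKs : Group.IsSolvable ↥K) (hAK : A ≤ Subgroup.normalizer (K : Set H)) (q : ℕ) [Fact q.Prime] (hqK : q ∣ Nat.card ↥K) (U : Subgroup H) (hU : U ≤ K) (hUq : ¬ q ∣ Nat.card ↥U) (hcomm : ∀ B : Subgroup H, B ≤ A → B.relIndex A = p → ¬ q ∣ Nat.card ↥⁅U, K ⊓ Subgroup.centralizer (B : Set H)⁆) : U ≤ (Cfsg.pPrimeCore q ↥K).map K.subtype := by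
  have hp : p.Prime := Fact.out
  have hAc : ∀ x ∈ A, ∀ y ∈ A, x * y = y * x := by
    intro x hx y hy
    have := hA.1.is_comm.comm ⟨x, hx⟩ ⟨y, hy⟩
    exact congrArg Subtype.val this
  have hAp : IsPGroup p A := isPGroup_of_pow_eq_one hA.2
  have hconstr : IsPConstrained q ↥K :=
    Cfsg.Agent.Lib.Helper23.isPConstrained_of_pLayer_eq_bot q (pLayer_eq_bot_of_isSolvable q)
  set R : Subgroup H := (pPrimePCore q ↥K).map K.subtype with hR
  have hRK : R ≤ K := Subgroup.map_subtype_le _
  have hAR : A ≤ Subgroup.normalizer (R : Set H) :=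
    hAK.trans (normalizer_le_normalizer_map_subtype K _
      (fun φ => Cfsg.Agent.Lib.Helper23.pPrimePCore_map q φ))
  obtain ⟨Q, hQ, hAQ⟩ := exists_invariant_isSylowIn A R hAp (not_dvd_card_of_le hRK hK) hAR q
  have hQK : Q ≤ K := hQ.le.trans hRK
  -- the Sylow subgroup inside `↥K`
  have hQ' : IsSylowIn q (Q.subgroupOf K) (pPrimePCore q ↥K) := by
    rw [isSylowIn_iff]
    refine ⟨?_, hQ.isPGroup.comap_of_injective _ K.subtype_injective, ?_⟩
    · intro x hx
      obtain ⟨y, hy, hyx⟩ := hQ.le (Subgroup.mem_subgroupOf.mp hx)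
      have : y = x := Subtype.ext hyx
      rwa [← this]
    · intro T hT hTR hle
      have h1 : T.map K.subtype = Q := by
        apply hQ.eq_of_le (hT.map _) (Subgroup.map_mono hTR)
        intro x hx
        exact ⟨⟨x, hQK hx⟩, hle (Subgroup.mem_subgroupOf.mpr hx), rfl⟩
      rw [← h1]
      ext x
      rw [Subgroup.mem_subgroupOf]
      constructor
      · intro hx; exact ⟨x, hx, rfl⟩
      · rintro ⟨y, hy, hyx⟩
        have : y = x := Subtype.ext hyx
        rwa [← this]
  obtain ⟨S, hS⟩ := hQ'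
  have hC := hconstr S
  rw [hS] at hC
  set N := pPrimeCore q ↥K with hN
  set π := QuotientGroup.mk' N with hπ
  have hNq : ¬ q ∣ Nat.card N := not_dvd_card_pPrimeCore q
  have hcent := centralizer_map_mk'_eq (Q.subgroupOf K) N
    (hQ.isPGroup.comap_of_injective _ K.subtype_injective) hNq
  -- the key claim
  have key : ∀ u : K, (u : H) ∈ U → ∀ x : K, (x : H) ∈ Q → π u * π x = π x * π u := by
    intro u hu
    -- the subgroup of `H` of elements of `K` commuting with `u` modulo `N`
    let Z : Subgroup H := ((Subgroup.centralizer {π u}).comap π).map K.subtype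
    have hZ : Q ≤ Z := by
      refine (le_iSup_centralizer_hyperplane A Q hAc hA.2
        (le_trans (by nlinarith [hp.two_le]) hA2) (not_dvd_card_of_le hQK hK) hAQ).trans
        (iSup_le ?_)
      rintro ⟨B, hB1, hB2⟩ x hx
      obtain ⟨hxQ, hxB⟩ := Subgroup.mem_inf.mp hx
      refine ⟨⟨x, hQK hxQ⟩, ?_, rfl⟩
      rw [SetLike.mem_coe, Subgroup.mem_comap, Subgroup.mem_centralizer_singleton_iff]
      -- the commutator lies in `N`
      set x' : K := ⟨x, hQK hxQ⟩ with hx'
      have hW := hcomm B hB1 hB2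
      have h1 : (⁅u, x'⁆ : K) ∈ (⁅U, K ⊓ Subgroup.centralizer (B : Set H)⁆).subgroupOf K ⊓
          pPrimePCore q ↥K := by
        refine Subgroup.mem_inf.mpr ⟨?_, ?_⟩
        · rw [Subgroup.mem_subgroupOf]
          exact Subgroup.commutator_mem_commutator hu (Subgroup.mem_inf.mpr ⟨hQK hxQ, hxB⟩)
        · have hxR : x' ∈ pPrimePCore q ↥K := by
            obtain ⟨y, hy, hyx⟩ := hQ.le hxQ
            have : y = x' := Subtype.ext hyx
            rwa [← this]
          have := Cfsg.Agent.Lib.Helper23.pPrimePCore_normal q ↥K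
          rw [commutatorElement_def]
          exact mul_mem (Subgroup.Normal.conj_mem inferInstance _ hxR u) (inv_mem hxR)
      have h2 : (⁅U, K ⊓ Subgroup.centralizer (B : Set H)⁆).subgroupOf K ⊓
          pPrimePCore q ↥K ≤ N := by
        apply le_pPrimeCore_of_le_pPrimePCore q _ inf_le_right
        intro hdvd
        apply hW
        refine hdvd.trans ((Subgroup.card_dvd_of_le inf_le_left).trans ?_)
        exact Subgroup.card_dvd_of_injective
          ((Subgroup.subtype _).comp (Subgroup.subtype _) |>.codRestrict _ (fun y => y.2)) (by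
            intro y z hyz
            apply Subtype.ext
            apply Subtype.ext
            exact congrArg (fun t : ↥⁅U, K ⊓ Subgroup.centralizer (B : Set H)⁆ => (t : H)) hyz)
      have h3 : π ⁅u, x'⁆ = 1 := (QuotientGroup.eq_one_iff _).mpr (h2 h1)
      rw [map_commutatorElement, commutatorElement_eq_one_iff_mul_comm] at h3
      exact h3.symm
    intro x hx
    obtain ⟨y, hy, hyx⟩ := hZ hx
    have : y = x := Subtype.ext hyx
    rw [this, SetLike.mem_coe, Subgroup.mem_comap, Subgroup.mem_centralizer_singleton_iff] at hy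
    exact hy.symm
  -- `U ≤ O_{q',q}(K)`
  have hUR : U.subgroupOf K ≤ pPrimePCore q ↥K := by
    intro u hu
    have h1 : π u ∈ Subgroup.centralizer
        (((Q.subgroupOf K).map π : Subgroup (↥K ⧸ N)) : Set (↥K ⧸ N)) := by
      rw [Subgroup.mem_centralizer_iff]
      rintro _ ⟨x, hx, rfl⟩
      exact (key u hu x hx).symm
    rw [hcent] at h1
    obtain ⟨c, hc, hcu⟩ := h1
    have h2 : c⁻¹ * u ∈ N := by
      rw [← QuotientGroup.eq_one_iff]
      show π (c⁻¹ * u) = 1
      rw [map_mul, map_inv, hcu, inv_mul_cancel]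
    have h3 : u = c * (c⁻¹ * u) := by group
    rw [h3]
    exact mul_mem (hC hc) (Cfsg.Agent.Lib.Helper54.pPrimeCore_le_pPrimePCore q ↥K h2)
  have hfin : U.subgroupOf K ≤ N := by
    apply le_pPrimeCore_of_le_pPrimePCore q _ hUR
    rw [Nat.card_congr (Subgroup.subgroupOfEquivOfLe hU).toEquiv]
    exact hUq
  intro u hu
  exact ⟨⟨u, hU hu⟩, hfin (Subgroup.mem_subgroupOf.mpr hu), rfl⟩

end Cfsg.Agent.S1288
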