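import Cfsg.Statements.S1289
import Cfsg.Agent.Lib.Helper23.PComp3

set_option autoImplicit false
open Cfsg

namespace Cfsg.Agent.S1289

open Cfsg.Agent.Lib.Helper23

/-- A p-component K of the finite group X is subnormal, perfect, of order divisible by p, and minimal among the subnormal perfect subgroups of X of order divisible by p. -/
theorem result {X : Type*} [Group X] [Finite X] (p : ℕ) [Fact p.Prime] (K : Subgroup X) (hK : Cfsg.IsPComponent p K) : K.IsSubnormal ∧ ⁅K, K⁆ = K ∧ p ∣ Nat.card ↥K ∧ ∀ H : Subgroup X, H ≤ K → H.IsSubnormal → ⁅H, H⁆ = H → p ∣ Nat.card ↥H → H = K := by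
  refine ⟨hK.1, isPComponent_perfect p hK, isPComponent_dvd_card p hK, ?_⟩
  intro H hHK hH hperf hpH
  set π := QuotientGroup.mk' (Cfsg.pPrimeCore p X) with hπ
  have hsn : ((H.map π).subgroupOf (K.map π)).IsSubnormal :=
    (hH.map (QuotientGroup.mk'_surjective _)).subgroupOf
  rcases Cfsg.Agent.S1259.result hK.2.1.2 _ hsn with h | h
  · apply hK.2.2 H hH hHK
    exact le_antisymm (Subgroup.map_mono hHK) (Subgroup.subgroupOf_eq_top.1 h)
  · exfalso
    -- the image of H is abelian and perfect, hence trivial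
    have hcomm : ⁅H.map π, H.map π⁆ = ⊥ := by
      rw [Subgroup.commutator_eq_bot_iff_le_centralizer]
      intro x hx
      rw [Subgroup.mem_centralizer_iff]
      intro y hy
      have hxK : x ∈ K.map π := Subgroup.map_mono hHK hx
      have hyK : y ∈ K.map π := Subgroup.map_mono hHK hy
      have hxc : (⟨x, hxK⟩ : ↥(K.map π)) ∈ Subgroup.center ↥(K.map π) :=
        h (by rw [Subgroup.mem_subgroupOf]; exact hx)
      have := Subgroup.mem_center_iff.1 hxc ⟨y, hyK⟩
      exact congrArg Subtype.val this
    rw [← Subgroup.map_commutator, hperf] at hcomm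
    have hHO : H ≤ Cfsg.pPrimeCore p X := by
      intro x hx
      rw [← QuotientGroup.eq_one_iff]
      have : π x ∈ H.map π := ⟨x, hx, rfl⟩
      rw [hcomm, Subgroup.mem_bot] at this
      exact this
    have hcop : (Nat.card H).Coprime p := Nat.Coprime.coprime_dvd_left
      (Subgroup.card_dvd_of_le hHO) (Cfsg.Agent.Lib.Lead.card_pPrimeCore_coprime p)
    have hp : p.Prime := Fact.out
    exact (Nat.Prime.coprime_iff_not_dvd hp).1 hcop.symm hpH

end Cfsg.Agent.S1289
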