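import Cfsg.Statements.S1297
import Cfsg.Agent.Lib.Helper31.KBalance4

set_option autoImplicit false
open Cfsg

namespace Cfsg.Agent.S1297

/-- Let G be finite. Suppose that for every involution x, writing C = C_G(x), every component K of C / O(C) has K / Z(K) locally balanced. Then G is balanced. -/
theorem result {G : Type*} [Group G] [Finite G] (h : ∀ x : G, orderOf x = 2 → ∀ K : Subgroup (↥(Subgroup.centralizer ({x} : Set G)) ⧸ Cfsg.oddCore ↥(Subgroup.centralizer ({x} : Set G))), Cfsg.IsComponent K → Cfsg.IsLocallyBalanced (↥K ⧸ Subgroup.center ↥K)) : Cfsg.IsBalanced G := by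
  open Subgroup Cfsg.Agent.Lib.Helper31 in
  have : Fact (Nat.Prime 2) := ⟨Nat.prime_two⟩
  have hbal : Cfsg.IsKBalanced 2 1 G :=
    isKBalanced_of_isLocallyKBalanced_quotient 2 1 le_rfl
      (fun x hx K hK => isLocallyKBalanced_of_isLocallyBalanced (h x hx K hK))
  have key : ∀ x y : G, orderOf x = 2 → orderOf y = 2 → x * y = y * x →
      Cfsg.centralizerPPrimeCore 2 x ⊓ centralizer {y} ≤
        Cfsg.centralizerPPrimeCore 2 y ⊓ centralizer {x} := by
    intro x y hx hy hxy
    have hmem : ∀ a ∈ zpowers x, a = 1 ∨ a = x := by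
      intro a ha
      obtain ⟨n, rfl⟩ := mem_zpowers_iff.mp ha
      have hx2 : x ^ (2 : ℤ) = 1 := by
        rw [show (2 : ℤ) = ((2 : ℕ) : ℤ) from rfl, zpow_natCast, ← hx, pow_orderOf_eq_one]
      rcases Int.even_or_odd' n with ⟨m, hm | hm⟩
      · left; rw [hm, zpow_mul, hx2, one_zpow]
      · right; rw [hm, zpow_add, zpow_mul, hx2, one_zpow, one_mul, zpow_one]
    have hA : Cfsg.IsElementaryAbelian 2 (zpowers x) := by
      refine ⟨inferInstance, ?_⟩
      intro a ha
      rcases hmem a ha with rfl | rfl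
      · simp
      · rw [← hx, pow_orderOf_eq_one]
    have hAk : Nat.card ↥(zpowers x) = 2 ^ 1 := by rw [Nat.card_zpowers, hx, pow_one]
    have h1 := hbal (zpowers x) hA hAk y hy (by
      intro a ha
      rcases hmem a ha with rfl | rfl
      · simp
      · exact hxy)
    have h2 : Cfsg.centralizerPPrimeCore 2 x ≤ Cfsg.signalizerDelta 2 (zpowers x) := by
      apply le_iInf
      rintro ⟨a, ha, ha1⟩
      rcases hmem a ha with rfl | rfl
      · exact absurd rfl ha1
      · exact le_rfl
    exact le_inf ((inf_le_inf_right _ h2).trans h1)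
      (inf_le_left.trans (centralizerPPrimeCore_le_centralizer 2 x))
  intro x y hx hy hxy
  exact le_antisymm (key x y hx hy hxy) (key y x hy hx hxy.symm)

end Cfsg.Agent.S1297
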