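import Mathlib
import Cfsg.Statements.S1304

set_option autoImplicit false
open Cfsg

namespace Cfsg.Agent.S1304

theorem comm_central {X : Type*} [Group X] (a b za zb : X) (c1 : ∀ g, g * za = za * g)
    (c2 : ∀ g, g * zb = zb * g) :
    za * a * (zb * b) * (za * a)⁻¹ * (zb * b)⁻¹ = a * b * a⁻¹ * b⁻¹ := by
  calc za * a * (zb * b) * (za * a)⁻¹ * (zb * b)⁻¹
        = za * (a * zb) * b * a⁻¹ * za⁻¹ * b⁻¹ * zb⁻¹ := by group
      _ = za * (zb * a) * b * a⁻¹ * za⁻¹ * b⁻¹ * zb⁻¹ := by rw [c2 a]
      _ = (za * zb * a * b * a⁻¹) * za⁻¹ * b⁻¹ * zb⁻¹ := by group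
      _ = za⁻¹ * (za * zb * a * b * a⁻¹) * b⁻¹ * zb⁻¹ := by
          have : (za * zb * a * b * a⁻¹) * za⁻¹ = za⁻¹ * (za * zb * a * b * a⁻¹) := by
            calc (za * zb * a * b * a⁻¹) * za⁻¹ = za * (za⁻¹ * (za * zb * a * b * a⁻¹) * za⁻¹) := by group
              _ = (za⁻¹ * (za * zb * a * b * a⁻¹) * za⁻¹) * za := (c1 _).symm
              _ = _ := by group
          rw [this]
      _ = (zb * a * b * a⁻¹ * b⁻¹) * zb⁻¹ := by group
      _ = zb⁻¹ * (zb * a * b * a⁻¹ * b⁻¹) := by
            calc (zb * a * b * a⁻¹ * b⁻¹) * zb⁻¹ = zb * (zb⁻¹ * (zb * a * b * a⁻¹ * b⁻¹) * zb⁻¹) := by group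
              _ = (zb⁻¹ * (zb * a * b * a⁻¹ * b⁻¹) * zb⁻¹) * zb := (c2 _).symm
              _ = _ := by group
      _ = a * b * a⁻¹ * b⁻¹ := by group

/-- Let X be a perfect group and α an automorphism of X with α(x) x⁻¹ central for every x. Then α is the identity. -/
theorem result {X : Type*} [Group X] (hperf : commutator X = ⊤) (α : X ≃* X) (h : ∀ x : X, α x * x⁻¹ ∈ Subgroup.center X) : ∀ x : X, α x = x := by
  -- the set of fixed points of α is a subgroup containing all commutators
  let F : Subgroup X :=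
    { carrier := {x | α x = x}
      one_mem' := by simp
      mul_mem' := by
        intro a b ha hb
        simp only [Set.mem_ofPred_eq] at *
        rw [map_mul, ha, hb]
      inv_mem' := by
        intro a ha
        simp only [Set.mem_ofPred_eq] at *
        rw [map_inv, ha] }
  have hF : commutator X ≤ F := by
    rw [commutator_def, Subgroup.commutator_le]
    intro a _ b _
    show α (a * b * a⁻¹ * b⁻¹) = a * b * a⁻¹ * b⁻¹
    have ha := h a
    have hb := h b
    rw [Subgroup.mem_center_iff] at ha hb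
    have e1 : α a = (α a * a⁻¹) * a := by group
    have e2 : α b = (α b * b⁻¹) * b := by group
    rw [map_mul, map_mul, map_mul, map_inv, map_inv]
    rw [e1, e2]
    exact comm_central a b _ _ ha hb
  intro x
  have : x ∈ commutator X := by rw [hperf]; trivial
  exact hF this

end Cfsg.Agent.S1304
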