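import Cfsg.Statements.S1306
import Cfsg.Agent.Lib.Helper31.Standard

set_option autoImplicit false
open Cfsg

namespace Cfsg.Agent.S1306

/-- Let G be finite, x an involution and L ≤ C_G(x) a component of C_G(x). Suppose L is a component of C_G(y) for every involution y ∈ C_G(L), and ⁅L, g L g⁻¹⁆ ≠ 1 whenever g L g⁻¹ ≠ L. Then L is a standard subgroup of G. -/
theorem result {G : Type*} [Group G] [Finite G] (x : G) (hx : orderOf x = 2) (L : Subgroup G) (hLx : L ≤ Subgroup.centralizer ({x} : Set G)) (hL : Cfsg.IsComponent (L.subgroupOf (Subgroup.centralizer ({x} : Set G)))) (hne : ∀ y : G, orderOf y = 2 → y ∈ Subgroup.centralizer (L : Set G) → L ≤ Subgroup.centralizer ({y} : Set G) ∧ Cfsg.IsComponent (L.subgroupOf (Subgroup.centralizer ({y} : Set G)))) (hnc : ∀ g : G, L.map (MulAut.conj g).toMonoidHom ≠ L → ⁅L, L.map (MulAut.conj g).toMonoidHom⁆ ≠ ⊥) : Cfsg.IsStandardSubgroup L := by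
  open Subgroup Cfsg.Agent.Lib.Helper31 in
  have : Fact (Nat.Prime 2) := ⟨Nat.prime_two⟩
  set K := centralizer (L : Set G) with hK
  have key : ∀ g y : G, orderOf y = 2 → y ∈ K → y ∈ cj g K → g ∈ normalizer (L : Set G) := by
    intro g y hy hyK hyg
    rw [mem_normalizer_iff_cj]
    by_contra hne'
    rcases cj_eq_or_commutator_eq_bot_of_involution hne g y hy hyK hyg with h | h
    · exact hne' h.symm
    · exact hnc g hne' h
  have hxK : x ∈ K := by
    rw [hK, mem_centralizer_iff]
    intro l hl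
    exact mem_centralizer_singleton_iff.mp (hLx hl)
  refine ⟨IsQuasisimple.of_mulEquiv hL.2 (subgroupOfEquivOfLe hLx), ⟨?_, ?_⟩, hnc, ?_⟩
  · rw [even_iff_two_dvd, ← hx]
    have := orderOf_dvd_natCard (⟨x, hxK⟩ : ↥K)
    rwa [Subgroup.orderOf_mk] at this
  · intro g hg
    rw [← Nat.not_even_iff_odd, even_iff_two_dvd]
    intro hdvd
    obtain ⟨y, hy⟩ := exists_prime_orderOf_dvd_card' 2 hdvd
    have hy2 : orderOf (y : G) = 2 := by rw [Subgroup.orderOf_coe]; exact hy
    obtain ⟨h1, h2⟩ := mem_inf.mp y.2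
    exact hg (normalizer_le_normalizer_centralizer L (key g y hy2 h1 h2))
  · apply le_antisymm (normalizer_le_normalizer_centralizer L)
    intro g hg
    apply key g x hx hxK
    rw [mem_normalizer_iff_cj.mp hg]
    exact hxK

end Cfsg.Agent.S1306
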