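import Cfsg.Statements.S1314

set_option autoImplicit false

open Cfsg

namespace Cfsg.Agent.S1314

open scoped commutatorElement

theorem comm_central {G : Type*} [Group G] (a b z w : G) (h2 : z * b = b * z)
    (h3 : w * a = a * w) (h5 : w * z = z * w) : ⁅a * z, b * w⁆ = ⁅a, b⁆ := by
  have huv : a * z * (b * w) = a * b * (z * w) := by
    calc a * z * (b * w) = a * (z * b) * w := by group
      _ = a * (b * z) * w := by rw [h2]
      _ = _ := by group
  have hvu : b * w * (a * z) = b * a * (z * w) := by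
    calc b * w * (a * z) = b * (w * a) * z := by group
      _ = b * (a * w) * z := by rw [h3]
      _ = b * a * (w * z) := by group
      _ = _ := by rw [h5]
  have h : ∀ u v : G, ⁅u, v⁆ = (u * v) * (v * u)⁻¹ := by
    intro u v; rw [commutatorElement_def]; group
  rw [h, h, huv, hvu]; group

/-- Let x be an involution of a group G and L a perfect subgroup with ⁅L, x L x⁻¹⁆ = 1. Then l ↦ l (x l x⁻¹) is a group homomorphism π from L to G whose kernel is central in L and whose image lies in C_G(x); and the commutator subgroup of C_{L ⊔ xLx⁻¹}(x) equals the image of π. -/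
theorem result {G : Type*} [Group G] [Finite G] (x : G) (hx : orderOf x = 2) (L : Subgroup G) (hperf : ⁅L, L⁆ = L) (hcomm : ⁅L, L.map (MulAut.conj x).toMonoidHom⁆ = ⊥) : ∃ π : ↥L →* G, (∀ l : ↥L, π l = (l : G) * (x * (l : G) * x⁻¹)) ∧ π.ker ≤ Subgroup.center ↥L ∧ π.range ≤ Subgroup.centralizer ({x} : Set G) ∧ ⁅(L ⊔ L.map (MulAut.conj x).toMonoidHom) ⊓ Subgroup.centralizer ({x} : Set G), (L ⊔ L.map (MulAut.conj x).toMonoidHom) ⊓ Subgroup.centralizer ({x} : Set G)⁆ = π.range := by
  have hx2 : x * x = 1 := by rw [← pow_two, ← hx, pow_orderOf_eq_one]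
  have hxi : x⁻¹ = x := inv_eq_of_mul_eq_one_left hx2
  set Lx := L.map (MulAut.conj x).toMonoidHom with hLx
  have hmemLx : ∀ b ∈ L, x * b * x⁻¹ ∈ Lx := fun b hb => ⟨b, hb, by simp⟩
  have hcent := Subgroup.commutator_eq_bot_iff_le_centralizer.1 hcomm
  have hc : ∀ a ∈ L, ∀ b ∈ L, a * (x * b * x⁻¹) = (x * b * x⁻¹) * a := by
    intro a ha b hb
    have h1 := hcent ha
    rw [Subgroup.mem_centralizer_iff] at h1
    exact (h1 (x * b * x⁻¹) (hmemLx b hb)).symm
  let π : ↥L →* G :=
    { toFun := fun l => (l : G) * (x * (l : G) * x⁻¹)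
      map_one' := by simp
      map_mul' := by
        intro a b
        have := hc b b.2 a a.2
        calc ((a * b : L) : G) * (x * ((a * b : L) : G) * x⁻¹)
            = a * (b * (x * a * x⁻¹)) * (x * b * x⁻¹) := by push_cast; group
          _ = a * ((x * a * x⁻¹) * b) * (x * b * x⁻¹) := by rw [this]
          _ = _ := by group }
  have hπ : ∀ l : ↥L, π l = (l : G) * (x * (l : G) * x⁻¹) := fun l => rfl
  set M := L ⊔ Lx with hM
  set C := M ⊓ Subgroup.centralizer ({x} : Set G) with hC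
  have hrx : π.range ≤ Subgroup.centralizer ({x} : Set G) := by
    rintro _ ⟨l, rfl⟩
    rw [Subgroup.mem_centralizer_singleton_iff, hπ]
    have h1 := hc l l.2 l l.2
    symm
    calc x * ((l : G) * (x * l * x⁻¹)) = (x * l * x⁻¹) * (x * x) * l * x⁻¹ := by group
      _ = (x * l * x⁻¹) * l * x := by rw [hx2, hxi, mul_one]
      _ = (l : G) * (x * l * x⁻¹) * x := by rw [h1]
  have hrC : ∀ l : L, π l ∈ C := by
    intro l
    refine ⟨?_, hrx ⟨l, rfl⟩⟩
    rw [hπ]
    exact mul_mem (Subgroup.mem_sup_left l.2) (Subgroup.mem_sup_right (hmemLx _ l.2))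
  refine ⟨π, hπ, ?_, hrx, le_antisymm ?_ ?_⟩
  · intro l hl
    rw [MonoidHom.mem_ker, hπ] at hl
    rw [Subgroup.mem_center_iff]
    intro g
    have h1 : (l : G) = x * (l : G)⁻¹ * x⁻¹ := by
      rw [eq_comm, ← inv_inj, ← mul_eq_one_iff_eq_inv']
      rw [← hl]; group
    apply Subtype.ext
    push_cast
    have h2 := hc g g.2 (l : G)⁻¹ (inv_mem l.2)
    rw [← h1] at h2
    exact h2
  · rw [Subgroup.commutator_le]
    have hdec : ∀ c ∈ C, ∃ m : L, ∃ z : G, c = π m * z ∧ z ∈ M ∧ (∀ g ∈ M, z * g = g * z) := by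
      intro c hcC
      have hcM : c ∈ (↑(L ⊔ Lx) : Set G) := hcC.1
      rw [Subgroup.coe_mul_of_left_le_normalizer_right L Lx
        (hcent.trans (Subgroup.centralizer_le_normalizer _))] at hcM
      obtain ⟨l, hl, y, hy, rfl⟩ := Set.mem_mul.1 hcM
      obtain ⟨m, hm, rfl⟩ := hy
      have hcx := (Subgroup.mem_centralizer_singleton_iff.1 hcC.2).symm
      simp only [MulEquiv.coe_toMonoidHom, MulAut.conj_apply] at hcx ⊢
      have e1 : m * (x * l * x⁻¹) = l * (x * m * x⁻¹) := by
        rw [hc m hm l hl]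
        calc x * l * x⁻¹ * m = x * l * x⁻¹ * ((x * x) * m * (x * x)⁻¹) := by rw [hx2]; group
          _ = (x * (l * (x * m * x⁻¹))) * x⁻¹ := by group
          _ = (l * (x * m * x⁻¹) * x) * x⁻¹ := by rw [hcx]
          _ = _ := by group
      have e2 : m⁻¹ * l = x * (l * m⁻¹) * x⁻¹ := by
        calc m⁻¹ * l = m⁻¹ * (l * (x * m * x⁻¹)) * (x * m⁻¹ * x⁻¹) := by group
          _ = m⁻¹ * (m * (x * l * x⁻¹)) * (x * m⁻¹ * x⁻¹) := by rw [e1]
          _ = _ := by group
      have hzL : m⁻¹ * l ∈ L := mul_mem (inv_mem hm) hl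
      refine ⟨⟨m, hm⟩, m⁻¹ * l, ?_, Subgroup.mem_sup_left hzL, ?_⟩
      · rw [hπ]
        show l * (x * m * x⁻¹) = m * (x * m * x⁻¹) * (m⁻¹ * l)
        rw [hc m hm m hm, hc l hl m hm]; group
      · have hle : M ≤ Subgroup.centralizer ({m⁻¹ * l} : Set G) := by
          refine sup_le ?_ ?_
          · intro g hg
            rw [Subgroup.mem_centralizer_singleton_iff, e2]
            exact (hc g hg _ (mul_mem hl (inv_mem hm)))
          · rintro _ ⟨g, hg, rfl⟩
            rw [Subgroup.mem_centralizer_singleton_iff]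
            simp only [MulEquiv.coe_toMonoidHom, MulAut.conj_apply]
            exact (hc _ hzL g hg).symm
        intro g hg
        exact (Subgroup.mem_centralizer_singleton_iff.1 (hle hg)).symm
    intro c1 hc1 c2 hc2
    obtain ⟨m1, z1, rfl, hz1M, hz1⟩ := hdec c1 hc1
    obtain ⟨m2, z2, rfl, hz2M, hz2⟩ := hdec c2 hc2
    refine ⟨⁅m1, m2⁆, ?_⟩
    rw [map_commutatorElement]
    exact (comm_central _ _ _ _ (hz1 _ (hrC m2).1) (hz2 _ (hrC m1).1) (hz2 _ hz1M)).symm
  · have hK : ⁅L, L⁆ ≤ (Subgroup.comap π ⁅C, C⁆).map L.subtype := by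
      rw [Subgroup.commutator_le]
      intro a ha b hb
      refine ⟨⁅(⟨a, ha⟩ : L), ⟨b, hb⟩⁆, ?_, by simp [commutatorElement_def]⟩
      rw [SetLike.mem_coe, Subgroup.mem_comap, map_commutatorElement]
      exact Subgroup.commutator_mem_commutator (hrC _) (hrC _)
    rintro _ ⟨l, rfl⟩
    have hl : (l : G) ∈ ⁅L, L⁆ := by rw [hperf]; exact l.2
    obtain ⟨l', hl', hll⟩ := hK hl
    have : l' = l := Subtype.ext hll
    subst this
    exact hl'

end Cfsg.Agent.S1314
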