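import Mathlib
import Cfsg.Statements.S1316
import Cfsg.Agent.Lib.Helper31.CharP
import Cfsg.Agent.Lib.Helper22.SupLemmas

set_option autoImplicit false
open Cfsg
open Cfsg.Agent.Lib.Helper31 Cfsg.Agent.Lib.Helper22

namespace Cfsg.Agent.S1316

theorem layer_perfect_le {X : Type*} [Group X] : Cfsg.layer X ≤ ⁅Cfsg.layer X, Cfsg.layer X⁆ := by
  conv_lhs => unfold Cfsg.layer
  refine sSup_le ?_
  intro K hK
  have h1 : K ≤ Cfsg.layer X := IsComponent.le_layer hK
  calc K = ⁅K, K⁆ := (IsComponent.perfect hK).symm
    _ ≤ _ := Subgroup.commutator_mono h1 h1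

/-- For a finite group X, E(X) equals the intersection of the derived series of F*(X) (its last term). -/
theorem result {X : Type*} [Group X] [Finite X] : (⨅ n : ℕ, (derivedSeries ↥(Cfsg.generalizedFittingSubgroup X) n).map (Cfsg.generalizedFittingSubgroup X).subtype) = Cfsg.layer X := by
  have hFnil : Group.IsNilpotent (Cfsg.fittingSubgroup X) := Cfsg.Agent.Lib.Helper1.fittingSubgroup_isNilpotent
  have hFs : Group.IsSolvable (Cfsg.fittingSubgroup X) := inferInstance
  have hEn : (Cfsg.layer X).Normal := layer_normal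
  apply le_antisymm
  · have hn : Cfsg.fittingSubgroup X ≤ Subgroup.normalizer (Cfsg.layer X : Set X) :=
      Subgroup.le_normalizer_of_normal
    haveI := normal_subgroupOf_sup hn
    obtain ⟨f, hf⟩ := exists_surjective_to_sup_quotient hn
    have hsol : Group.IsSolvable ((Cfsg.layer X ⊔ Cfsg.fittingSubgroup X : Subgroup X) ⧸
        (Cfsg.layer X).subgroupOf (Cfsg.layer X ⊔ Cfsg.fittingSubgroup X)) :=
      Group.isSolvable_of_surjective hf
    obtain ⟨n, hn'⟩ := (Group.isSolvable_def _).mp hsol
    refine (iInf_le _ n).trans ?_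
    have h1 := map_derivedSeries_le_derivedSeries (QuotientGroup.mk'
      ((Cfsg.layer X).subgroupOf (Cfsg.layer X ⊔ Cfsg.fittingSubgroup X))) n
    rw [hn', Subgroup.map_le_iff_le_comap, MonoidHom.comap_bot, QuotientGroup.ker_mk'] at h1
    rintro _ ⟨x, hx, rfl⟩
    exact h1 hx
  · refine le_iInf ?_
    intro n
    induction n with
    | zero =>
      rw [derivedSeries_zero, ← MonoidHom.range_eq_map, Subgroup.range_subtype]
      exact layer_le_genFitting
    | succ n ih =>
      rw [derivedSeries_succ, Subgroup.map_commutator]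
      refine le_trans ?_ (Subgroup.commutator_mono ih ih)
      exact layer_perfect_le

end Cfsg.Agent.S1316
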