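import Mathlib
import Cfsg.Statements.S1318
import Cfsg.Agent.Lib.Helper22.LayerLemmas

set_option autoImplicit false
open Cfsg
open Cfsg.Agent.Lib.Helper31 Cfsg.Agent.Lib.Helper22

namespace Cfsg.Agent.S1318

/-- Let X be finite and S ≤ F*(X) a subgroup subnormal in F*(X). Then F(S) = F(X) ∩ S (inside X) and S = F(S)E(S). -/
theorem result {X : Type*} [Group X] [Finite X] (S : Subgroup X) (hS : S ≤ Cfsg.generalizedFittingSubgroup X) (hsn : (S.subgroupOf (Cfsg.generalizedFittingSubgroup X)).IsSubnormal) : (Cfsg.fittingSubgroup ↥S).map S.subtype = Cfsg.fittingSubgroup X ⊓ S ∧ Cfsg.fittingSubgroup ↥S ⊔ Cfsg.layer ↥S = ⊤ := by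
  have hSsn : S.IsSubnormal := Subgroup.IsSubnormal.trans hS hsn genFitting_normal.isSubnormal
  refine ⟨fitting_map_subtype hSsn, ?_⟩
  rw [eq_top_iff]
  have h1 := le_fitting_sup_components hSsn hS
  rw [← fitting_map_subtype hSsn, ← layer_map_subtype hSsn, ← Subgroup.map_sup] at h1
  intro x _
  obtain ⟨y, hy, hxy⟩ := h1 x.2
  have : y = x := Subtype.ext hxy
  rwa [this] at hy

end Cfsg.Agent.S1318
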