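import Mathlib
import Cfsg.Statements.S1320
import Cfsg.Agent.Lib.Helper22.LayerLemmas

set_option autoImplicit false
open Cfsg
open Cfsg.Agent.Lib.Helper31 Cfsg.Agent.Lib.Helper22

namespace Cfsg.Agent.S1320

/-- Let B be a normal subgroup of the finite group A. Then F*(A) ∩ B = F*(B). -/
theorem result {A : Type*} [Group A] [Finite A] (B : Subgroup A) [B.Normal] : Cfsg.generalizedFittingSubgroup A ⊓ B = (Cfsg.generalizedFittingSubgroup ↥B).map B.subtype := by
  have hBsn : B.IsSubnormal := Subgroup.Normal.isSubnormal inferInstance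
  have hFsn : (Cfsg.generalizedFittingSubgroup A).Normal := genFitting_normal
  have hmap : (Cfsg.generalizedFittingSubgroup ↥B).map B.subtype =
      (Cfsg.fittingSubgroup A ⊓ B) ⊔ sSup {K : Subgroup A | Cfsg.IsComponent K ∧ K ≤ B} := by
    unfold Cfsg.generalizedFittingSubgroup
    rw [Subgroup.map_sup, fitting_map_subtype hBsn, layer_map_subtype hBsn, sup_comm]
  rw [hmap]
  apply le_antisymm
  · have hS : (Cfsg.generalizedFittingSubgroup A ⊓ B).IsSubnormal :=
      Subgroup.Normal.isSubnormal inferInstance
    refine (le_fitting_sup_components hS inf_le_left).trans ?_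
    apply sup_le_sup
    · exact inf_le_inf_left _ inf_le_right
    · apply sSup_le_sSup
      rintro K ⟨hK, hKS⟩
      exact ⟨hK, hKS.trans inf_le_right⟩
  · apply le_inf
    · apply sup_le
      · exact inf_le_left.trans fitting_le_genFitting
      · exact (sSup_le fun K hK => IsComponent.le_layer hK.1).trans layer_le_genFitting
    · exact sup_le inf_le_right (sSup_le fun K hK => hK.2)

end Cfsg.Agent.S1320
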