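import Mathlib
import Cfsg.Statements.S1321
import Cfsg.Agent.Lib.Helper22.LayerLemmas

set_option autoImplicit false
open Cfsg
open Cfsg.Agent.Lib.Helper31 Cfsg.Agent.Lib.Helper22

namespace Cfsg.Agent.S1321

/-- Let X be finite and U ≤ X. Then E(X) is generated by C_{E(X)}(U) together with ⁅E(X), U⁆ (indeed it is their product, ⁅E(X), U⁆ being normal in E(X)). -/
theorem result {X : Type*} [Group X] [Finite X] (U : Subgroup X) : Cfsg.layer X = (Cfsg.layer X ⊓ Subgroup.centralizer (U : Set X)) ⊔ ⁅Cfsg.layer X, U⁆ ∧ ⁅Cfsg.layer X, U⁆ ≤ Cfsg.layer X := by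
  haveI hEn : (Cfsg.layer X).Normal := layer_normal
  have h2 : ⁅Cfsg.layer X, U⁆ ≤ Cfsg.layer X := Subgroup.commutator_le_left _ _
  refine ⟨?_, h2⟩
  apply le_antisymm
  · have hNsn : (⁅Cfsg.layer X, U⁆ : Subgroup X).IsSubnormal := by
      refine Subgroup.IsSubnormal.step _ (Cfsg.layer X) h2 hEn.isSubnormal ?_
      exact (Subgroup.normal_subgroupOf_iff_le_normalizer h2).mpr
        (Subgroup.normalizer_commutator_ge_left _ _)
    conv_lhs => unfold Cfsg.layer
    refine sSup_le ?_
    intro K hK
    have hKE : K ≤ Cfsg.layer X := IsComponent.le_layer hK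
    rcases IsComponent.le_or_commutator_eq_bot hK hNsn with h | h
    · exact h.trans le_sup_right
    · refine le_trans (le_inf hKE ?_) le_sup_left
      have h3 : ⁅⁅U, K⁆, K⁆ = ⊥ := by
        rw [eq_bot_iff, ← h, Subgroup.commutator_comm K]
        refine Subgroup.commutator_mono ?_ le_rfl
        rw [Subgroup.commutator_comm U]
        exact Subgroup.commutator_mono hKE le_rfl
      have h4 := commutator_eq_bot_of_perfect (IsComponent.perfect hK) h3
      rw [Subgroup.commutator_comm] at h4
      exact Subgroup.commutator_eq_bot_iff_le_centralizer.mp h4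
  · exact sup_le inf_le_left h2

end Cfsg.Agent.S1321
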