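import Mathlib
import Cfsg.Statements.S1326
import Cfsg.Agent.Lib.Helper31.CharP
import Cfsg.Agent.Lib.Helper22.CoprimeP

set_option autoImplicit false
open Cfsg
open Cfsg.Agent.Lib.Helper31 Cfsg.Agent.Lib.Helper22

namespace Cfsg.Agent.S1326

/-- For a finite group X: the Fitting subgroup contains its centralizer if and only if the layer of X is trivial. -/
theorem result {X : Type*} [Group X] [Finite X] : Subgroup.centralizer (Cfsg.fittingSubgroup X : Set X) ≤ Cfsg.fittingSubgroup X ↔ Cfsg.layer X = ⊥ := by
  have hFn : (Cfsg.fittingSubgroup X).Normal := Cfsg.Agent.Lib.Helper1.fittingSubgroup_normal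
  have hFnil : Group.IsNilpotent (Cfsg.fittingSubgroup X) := Cfsg.Agent.Lib.Helper1.fittingSubgroup_isNilpotent
  have hFs : Group.IsSolvable (Cfsg.fittingSubgroup X) := inferInstance
  constructor
  · intro h
    exact layer_eq_bot_of_le_isSolvable hFs ((layer_le_centralizer_of_isSolvable hFn hFs).trans h)
  · intro h
    have h1 := centralizer_genFitting_le (G := X)
    unfold Cfsg.generalizedFittingSubgroup at h1
    rw [h, bot_sup_eq] at h1
    exact h1

end Cfsg.Agent.S1326
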