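import Cfsg.Statements.S1328
import Cfsg.Agent.Lib.Helper31.LocalLayer7

set_option autoImplicit false
open Cfsg

namespace Cfsg.Agent.S1328

/-- Let G be finite, H ≤ G with O(H) = 1, t an involution of G normalizing H, and Y a nontrivial subgroup of O(C_H(t)). Then some component E of H is normalized by t and by Y and centralized by neither t nor Y. -/
theorem result {G : Type*} [Group G] [Finite G] (H : Subgroup G) (hO : Cfsg.oddCore ↥H = ⊥) (t : G) (ht : orderOf t = 2) (htH : t ∈ Subgroup.normalizer (H : Set G)) (Y : Subgroup G) (hY1 : Y ≠ ⊥) (hY : Y ≤ (Cfsg.oddCore ↥(H ⊓ Subgroup.centralizer ({t} : Set G))).map (H ⊓ Subgroup.centralizer ({t} : Set G)).subtype) : ∃ E : Subgroup ↥H, Cfsg.IsComponent E ∧ (E.map H.subtype).map (MulAut.conj t).toMonoidHom = E.map H.subtype ∧ Y ≤ Subgroup.normalizer ((E.map H.subtype : Subgroup G) : Set G) ∧ ¬ (t ∈ Subgroup.centralizer ((E.map H.subtype : Subgroup G) : Set G)) ∧ ¬ (Y ≤ Subgroup.centralizer ((E.map H.subtype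 : Subgroup G) : Set G)) := by
  open Subgroup Cfsg.Agent.Lib.Helper31 Cfsg.Agent.Lib.Helper23 in
  open scoped commutatorElement in
  have : Fact (Nat.Prime 2) := ⟨Nat.prime_two⟩
  set Z := zpowers t with hZ
  set X := H ⊔ Z with hX
  set C := centralizer ({t} : Set G) with hC
  have hHX : H ≤ X := le_sup_left
  have htX : t ∈ X := (le_sup_right : Z ≤ X) (mem_zpowers t)
  have hZH : Z ≤ normalizer (H : Set G) := by rw [hZ, zpowers_le]; exact htH
  have hXH : X ≤ normalizer (H : Set G) := sup_le le_normalizer hZH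
  have hsq : ∀ g ∈ X, g ^ 2 ∈ H := by
    intro g hg
    obtain ⟨h, hh, z, hz, rfl⟩ := (Cfsg.Agent.Lib.Helper22.mem_sup_of_le_normalizer hZH).mp hg
    have hz2 : z ^ 2 = 1 := by
      obtain ⟨n, rfl⟩ := mem_zpowers_iff.mp hz
      rw [← zpow_natCast, ← zpow_mul, mul_comm, zpow_mul, zpow_natCast, ← ht, pow_orderOf_eq_one,
        one_zpow]
    have h1 : (h * z) ^ 2 = h * (z * h * z⁻¹) * z ^ 2 := by
      rw [pow_two, pow_two]; group
    rw [h1, hz2, mul_one]
    exact mul_mem hh ((mem_normalizer_iff.mp (hZH hz) h).mp hh)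
  have hn : (H.subgroupOf X).Normal := (normal_subgroupOf_iff_le_normalizer hHX).mpr hXH
  have hOX : Cfsg.pPrimeCore 2 ↥X = ⊥ := by
    have h1 := Cfsg.Agent.Lib.Lead.pPrimeCore_normal_subgroup_eq (p := 2) (H.subgroupOf X)
    have h2 : Cfsg.pPrimeCore 2 ↥(H.subgroupOf X) = ⊥ := by
      rw [← Cfsg.Agent.Lib.Lead.pPrimeCore_map_equiv (subgroupOfEquivOfLe hHX).symm]
      have hO' : Cfsg.pPrimeCore 2 ↥H = ⊥ := hO
      rw [hO', Subgroup.map_bot]
    rw [h2, Subgroup.map_bot] at h1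
    rw [eq_bot_iff]
    intro o ho
    have ho2 : o ^ 2 ∈ Cfsg.pPrimeCore 2 ↥X ⊓ H.subgroupOf X :=
      mem_inf.mpr ⟨pow_mem ho 2, by rw [mem_subgroupOf]; simpa using hsq o o.2⟩
    rw [← h1, mem_bot] at ho2
    exact mem_bot.mpr (eq_one_of_pow_eq_one_of_mem_coprime (p := 2) (k := 1) (by simpa using ho2) ho
      (Cfsg.Agent.Lib.Lead.card_pPrimeCore_coprime 2))
  set t' : ↥X := ⟨t, htX⟩ with ht'
  have hot' : orderOf t' = 2 := by rw [← ht, ht', Subgroup.orderOf_mk]
  have hYH : Y ≤ H := hY.trans ((map_subtype_le _).trans inf_le_left)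
  have hYX : Y ≤ X := hYH.trans hHX
  set Y' := Y.subgroupOf X with hY'
  have hY'1 : Y' ≠ ⊥ := by
    intro h1
    rw [hY', subgroupOf_eq_bot] at h1
    exact hY1 ((disjoint_of_le_iff_left_eq_bot hYX).mp h1)
  have hY'c : Y' ≤ Cfsg.centralizerPPrimeCore 2 t' := by
    have h1 : coreOf 2 (H ⊓ C) ≤ coreOf 2 (X ⊓ C) :=
      coreOf_le_coreOf_of_normal 2 (inf_le_inf_right _ hHX)
        (le_normalizer_inf' (inf_le_left.trans hXH) (inf_le_right.trans le_normalizer))
    have h2 : (centralizer ({t'} : Set ↥X)).map X.subtype = X ⊓ C := by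
      ext g
      constructor
      · rintro ⟨g', hg', rfl⟩
        refine mem_inf.mpr ⟨g'.2, ?_⟩
        rw [hC, mem_centralizer_singleton_iff]
        exact congrArg Subtype.val (mem_centralizer_singleton_iff.mp hg')
      · intro hg
        obtain ⟨hgX, hgC⟩ := mem_inf.mp hg
        refine ⟨⟨g, hgX⟩, ?_, rfl⟩
        exact mem_centralizer_singleton_iff.mpr (Subtype.ext (mem_centralizer_singleton_iff.mp hgC))
    have h3 := coreOf_map_of_injective 2 X.subtype X.subtype_injective (centralizer ({t'} : Set ↥X))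
    rw [h2] at h3
    intro y hy
    have hy1 : (y : G) ∈ (coreOf 2 (centralizer ({t'} : Set ↥X))).map X.subtype :=
      h3 ▸ h1 (hY hy)
    obtain ⟨y2, hy2, hy3⟩ := hy1
    have hy4 : y2 = y := Subtype.ext hy3
    exact hy4 ▸ hy2
  obtain ⟨E, hE, htE, hYE, htc, hYc⟩ :=
    exists_isComponent_not_centralized 2 hOX t' hot' Y' hY'1 hY'c
  set EG := E.map X.subtype with hEG
  have hEH' : E ≤ H.subgroupOf X := by
    rw [← IsComponent.perfect hE, commutator_le]
    intro a _ b _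
    rw [mem_subgroupOf]
    have h1 : ((⁅a, b⁆ : ↥X) : G) =
        ((a : G) * b) ^ 2 * ((b : G)⁻¹ * ((a : G)⁻¹) ^ 2 * ((b : G)⁻¹)⁻¹) * ((b : G)⁻¹) ^ 2 := by
      rw [commutatorElement_def]
      simp only [Subgroup.coe_mul, InvMemClass.coe_inv]
      rw [pow_two ((a : G) * b)]
      group
    rw [h1]
    refine mul_mem (mul_mem (hsq _ (mul_mem a.2 b.2)) ?_) (hsq _ (inv_mem b.2))
    exact (mem_normalizer_iff.mp (hXH (inv_mem b.2)) _).mp (hsq _ (inv_mem a.2))
  have hEH : EG ≤ H := by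
    rintro _ ⟨e, he, rfl⟩
    exact hEH' he
  have hEX : EG.subgroupOf X = E := comap_map_eq_self_of_injective X.subtype_injective E
  refine ⟨EG.subgroupOf H, IsComponent.subgroupOf_of_le hEH hHX (hEX.symm ▸ hE), ?_⟩
  rw [map_subgroupOf_eq_of_le hEH]
  refine ⟨?_, ?_, ?_, ?_⟩
  · exact mem_normalizer_iff_cj.mp (le_normalizer_map X.subtype (mem_map_of_mem X.subtype htE))
  · intro y hy
    exact le_normalizer_map X.subtype (mem_map_of_mem X.subtype
      (hYE (by simpa [hY', mem_subgroupOf] using hy : (⟨y, hYX hy⟩ : ↥X) ∈ Y')))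
  · intro h1
    apply htc
    rw [mem_centralizer_iff]
    intro e he
    exact Subtype.ext (mem_centralizer_iff.mp h1 e ⟨e, he, rfl⟩)
  · intro h1
    apply hYc
    intro y hy
    rw [mem_centralizer_iff]
    intro e he
    exact Subtype.ext (mem_centralizer_iff.mp (h1 hy) e ⟨e, he, rfl⟩)

end Cfsg.Agent.S1328
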