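import Cfsg.Statements.S1335
import Cfsg.Agent.Lib.Helper23.Rank
-- import your own Cfsg.Agent.* helpers here

set_option autoImplicit false
open Cfsg

namespace Cfsg.Agent.S1335

/-- Let H be a subgroup of the finite group G, p a prime, k ≥ 1, P a Sylow p-subgroup of H of p-rank at least k, and suppose N_G(X) ≤ H for every subgroup X ≤ P of p-rank at least k. Then P is a Sylow p-subgroup of G. -/
theorem result {G : Type*} [Group G] [Finite G] {p : ℕ} [Fact p.Prime] (k : ℕ) (hk : 1 ≤ k) (H : Subgroup G) (P : Sylow p ↥H) (hP : ¬ Cfsg.PRankLE p (k - 1) ↥(P : Subgroup ↥H)) (hΓ : (∀ X : Subgroup G, X ≤ (P : Subgroup ↥H).map H.subtype → ¬ Cfsg.PRankLE p (k - 1) ↥X → Subgroup.normalizer (X : Set G) ≤ H)) : ∃ Q : Sylow p G, (Q : Subgroup G) = (P : Subgroup ↥H).map H.subtype := by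
  set P' : Subgroup G := (P : Subgroup ↥H).map H.subtype with hP'
  have hpP' : IsPGroup p P' := P.isPGroup'.map H.subtype
  obtain ⟨Q, hQ⟩ := hpP'.exists_le_sylow
  refine ⟨Q, ?_⟩
  -- the normalizer of P' lies in H
  have hN : Subgroup.normalizer (P' : Set G) ≤ H := by
    apply hΓ P' le_rfl
    intro h
    apply hP
    exact (Cfsg.Agent.Lib.Helper23.pRankLE_congr p (k - 1)
      ((P : Subgroup ↥H).equivMapOfInjective H.subtype H.subtype_injective)).2 h
  by_contra hne
  have hlt : P' < (Q : Subgroup G) := lt_of_le_of_ne hQ (Ne.symm hne)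
  -- normalizers grow in the p-group Q
  haveI : Group.IsNilpotent (Q : Subgroup G) := Q.isPGroup'.isNilpotent
  have hnc := normalizerCondition_of_isNilpotent (G := (Q : Subgroup G))
  have hlt' : P'.subgroupOf (Q : Subgroup G) < ⊤ := by
    rw [lt_top_iff_ne_top]
    intro h
    rw [Subgroup.subgroupOf_eq_top] at h
    exact absurd h (not_le_of_gt hlt)
  have h1 := hnc _ hlt'
  obtain ⟨x, hxN, hxP⟩ := SetLike.exists_of_lt h1
  -- the element x of Q normalizes P' but is not in P'
  have hxN' : (x : G) ∈ Subgroup.normalizer (P' : Set G) := by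
    rw [Subgroup.mem_normalizer_iff]
    intro y
    constructor
    · intro hy
      have := (Subgroup.mem_normalizer_iff.1 hxN ⟨y, hQ hy⟩).1 (by simpa [Subgroup.mem_subgroupOf] using hy)
      simpa [Subgroup.mem_subgroupOf] using this
    · intro hy
      have hyQ : y ∈ (Q : Subgroup G) := by
        have h2 : (x : G) * y * (x : G)⁻¹ ∈ (Q : Subgroup G) := hQ hy
        have h3 : y = (x : G)⁻¹ * ((x : G) * y * (x : G)⁻¹) * (x : G) := by group
        rw [h3]
        exact mul_mem (mul_mem (inv_mem x.2) h2) x.2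
      have := (Subgroup.mem_normalizer_iff.1 hxN ⟨y, hyQ⟩).2 (by simpa [Subgroup.mem_subgroupOf] using hy)
      simpa [Subgroup.mem_subgroupOf] using this
  have hxH : (x : G) ∈ H := hN hxN'
  -- Q ∩ H is a p-subgroup of H containing P
  have hR : IsPGroup p ((Q : Subgroup G).subgroupOf H) :=
    Q.isPGroup'.comap_of_injective H.subtype H.subtype_injective
  have hPR : (P : Subgroup ↥H) ≤ (Q : Subgroup G).subgroupOf H := by
    intro y hy
    rw [Subgroup.mem_subgroupOf]
    exact hQ ⟨y, hy, rfl⟩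
  have hEq := P.is_maximal' hR hPR
  apply hxP
  rw [Subgroup.mem_subgroupOf]
  have hx2 : (⟨(x : G), hxH⟩ : ↥H) ∈ (Q : Subgroup G).subgroupOf H := by
    rw [Subgroup.mem_subgroupOf]; exact x.2
  rw [hEq] at hx2
  exact ⟨_, hx2, rfl⟩

end Cfsg.Agent.S1335
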