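import Cfsg.Statements.S1336
import Mathlib

set_option autoImplicit false

open Cfsg

namespace Cfsg.Agent.S1336

open Subgroup
open scoped Pointwise

variable {G : Type*} [Group G]

/-- conjugate subgroup -/
abbrev cj (g : G) (A : Subgroup G) : Subgroup G := A.map (MulAut.conj g).toMonoidHom

/-- vertices of the commuting graph -/
def V (p : ℕ) (A : Subgroup G) : Prop := IsElementaryAbelian p A ∧ p ^ 1 ≤ Nat.card ↥A

/-- edges of the commuting graph -/
def R (p : ℕ) (A B : Subgroup G) : Prop :=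
  IsElementaryAbelian p A ∧ p ^ 1 ≤ Nat.card ↥A ∧ IsElementaryAbelian p B ∧
        p ^ 1 ≤ Nat.card ↥B ∧ ∀ a ∈ A, ∀ b ∈ B, a * b = b * a

theorem conj_mem_cj (g : G) {A : Subgroup G} {a : G} (ha : a ∈ A) : g * a * g⁻¹ ∈ cj g A :=
  ⟨a, ha, by simp⟩

theorem cj_one (A : Subgroup G) : cj 1 A = A := by
  ext x
  constructor
  · rintro ⟨a, ha, rfl⟩; simpa using ha
  · intro hx; exact ⟨x, hx, by simp⟩

theorem cj_mul (g h : G) (A : Subgroup G) : cj (g * h) A = cj g (cj h A) := by
  ext x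
  constructor
  · rintro ⟨a, ha, rfl⟩
    exact ⟨h * a * h⁻¹, conj_mem_cj h ha, by simp [mul_assoc]⟩
  · rintro ⟨_, ⟨a, ha, rfl⟩, rfl⟩
    exact ⟨a, ha, by simp [mul_assoc]⟩

theorem cj_self {A : Subgroup G} {e : G} (he : e ∈ A) : cj e A = A := by
  ext x
  constructor
  · rintro ⟨a, ha, rfl⟩
    simp only [MulEquiv.coe_toMonoidHom, MulAut.conj_apply]
    exact mul_mem (mul_mem he ha) (inv_mem he)
  · intro hx
    exact ⟨e⁻¹ * x * e, mul_mem (mul_mem (inv_mem he) hx) he, by simp [mul_assoc]⟩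

theorem V_cj {p : ℕ} (g : G) {A : Subgroup G} (hA : V p A) : V p (cj g A) := by
  obtain ⟨⟨h1, h2⟩, h3⟩ := hA
  refine ⟨⟨inferInstance, ?_⟩, ?_⟩
  · rintro _ ⟨a, ha, rfl⟩
    rw [← map_pow, h2 a ha, map_one]
  · rw [Subgroup.card_map_of_injective (MulAut.conj g).injective]; exact h3

theorem R_cj {p : ℕ} (g : G) {A B : Subgroup G} (h : R p A B) : R p (cj g A) (cj g B) := by
  obtain ⟨h1, h2, h3, h4, h5⟩ := h
  obtain ⟨a1, a2⟩ := V_cj g (⟨h1, h2⟩ : V p A)
  obtain ⟨b1, b2⟩ := V_cj g (⟨h3, h4⟩ : V p B)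
  refine ⟨a1, a2, b1, b2, ?_⟩
  rintro _ ⟨a, ha, rfl⟩ _ ⟨b, hb, rfl⟩
  rw [← map_mul, ← map_mul, h5 a ha b hb]

theorem RTG_cj {p : ℕ} (g : G) {A B : Subgroup G} (h : Relation.ReflTransGen (R p) A B) :
    Relation.ReflTransGen (R p) (cj g A) (cj g B) :=
  Relation.ReflTransGen.lift (cj g) (fun _ _ hab => R_cj g hab) _ _ h

theorem RTG_symm {p : ℕ} {A B : Subgroup G} (h : Relation.ReflTransGen (R p) A B) :
    Relation.ReflTransGen (R p) B A := by
  induction h with
  | refl => exact Relation.ReflTransGen.refl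
  | tail _ hbc ih =>
    obtain ⟨h1, h2, h3, h4, h5⟩ := hbc
    exact Relation.ReflTransGen.head ⟨h3, h4, h1, h2, fun b hb a ha => (h5 a ha b hb).symm⟩ ih

theorem V_isPGroup {p : ℕ} {A : Subgroup G} (hA : V p A) : IsPGroup p A := by
  intro a
  refine ⟨1, ?_⟩
  rw [pow_one]
  exact Subtype.ext (by simpa using hA.1.2 a a.2)

theorem V_zpowers {p : ℕ} {z : G} (hz : orderOf z = p) : V p (zpowers z) := by
  refine ⟨⟨inferInstance, ?_⟩, ?_⟩
  · intro a ha
    obtain ⟨k, rfl⟩ := mem_zpowers_iff.1 ha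
    rw [← zpow_natCast, ← zpow_mul, mul_comm, zpow_mul, zpow_natCast, ← hz, pow_orderOf_eq_one,
      one_zpow]
  · rw [Nat.card_zpowers, hz, pow_one]

theorem exists_orderOf {p : ℕ} [hp : Fact p.Prime] {A : Subgroup G} (hA : V p A) :
    ∃ a ∈ A, orderOf a = p := by
  have h1 : 1 < Nat.card A := lt_of_lt_of_le hp.out.one_lt (by simpa using hA.2)
  haveI : Finite A := Nat.finite_of_card_ne_zero (by omega)
  haveI := Finite.one_lt_card_iff_nontrivial.1 h1
  obtain ⟨a, ha⟩ := exists_ne (1 : A)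
  refine ⟨a, a.2, orderOf_eq_prime (hA.1.2 a a.2) ?_⟩
  intro h
  exact ha (Subtype.ext h)

theorem pgroup_conn [Finite G] {p : ℕ} [hp : Fact p.Prime] {S A B : Subgroup G}
    (hS : IsPGroup p S) (hA : V p A) (hB : V p B) (hAS : A ≤ S) (hBS : B ≤ S) :
    Relation.ReflTransGen (R p) A B := by
  obtain ⟨a, ha, hao⟩ := exists_orderOf hA
  haveI : Nontrivial S := by
    refine ⟨⟨⟨a, hAS ha⟩, 1, ?_⟩⟩
    intro h
    have : a = 1 := congrArg Subtype.val h
    rw [this, orderOf_one] at hao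
    exact hp.out.one_lt.ne hao
  haveI := hS.center_nontrivial
  have hZp : IsPGroup p (center S) := hS.to_subgroup _
  obtain ⟨k, hk⟩ := hZp.exists_card_eq
  have hdvd : p ∣ Nat.card (center S) := by
    rcases Nat.eq_zero_or_pos k with rfl | hk0
    · exfalso
      rw [pow_zero] at hk
      have := Finite.one_lt_card_iff_nontrivial.2 (inferInstance : Nontrivial (center S))
      omega
    · rw [hk]; exact dvd_pow_self p (by omega)
  obtain ⟨z', hz'⟩ := exists_prime_orderOf_dvd_card' (G := center S) p hdvd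
  set z : G := ((z' : S) : G) with hz
  have hzo : orderOf z = p := by rw [hz, Subgroup.orderOf_coe, Subgroup.orderOf_coe, hz']
  have hzc : ∀ s ∈ S, ∀ b ∈ zpowers z, s * b = b * s := by
    intro s hs b hb
    obtain ⟨k, rfl⟩ := mem_zpowers_iff.1 hb
    have h1 : Commute s z := by
      have := mem_center_iff.1 z'.2 ⟨s, hs⟩
      exact congrArg Subtype.val this
    exact (h1.zpow_right k).eq
  have hVz := V_zpowers hzo
  have r1 : R p A (zpowers z) := ⟨hA.1, hA.2, hVz.1, hVz.2, fun a ha b hb => hzc a (hAS ha) b hb⟩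
  have r2 : R p (zpowers z) B :=
    ⟨hVz.1, hVz.2, hB.1, hB.2, fun b hb a ha => (hzc a (hBS ha) b hb).symm⟩
  exact (Relation.ReflTransGen.single r1).trans (Relation.ReflTransGen.single r2)

/-- the stabilizer of the connected component of `E` -/
def Hsub (p : ℕ) (E : Subgroup G) : Subgroup G where
  carrier := {g | Relation.ReflTransGen (R p) E (cj g E)}
  one_mem' := by
    show Relation.ReflTransGen (R p) E (cj 1 E)
    rw [cj_one]
  mul_mem' := by
    intro a b ha hb
    show Relation.ReflTransGen (R p) E (cj (a * b) E)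
    rw [cj_mul]
    exact Relation.ReflTransGen.trans ha (RTG_cj a hb)
  inv_mem' := by
    intro a ha
    show Relation.ReflTransGen (R p) E (cj a⁻¹ E)
    have := RTG_cj a⁻¹ ha
    rw [← cj_mul, inv_mul_cancel, cj_one] at this
    exact RTG_symm this

theorem mem_Hsub {p : ℕ} {E : Subgroup G} {g : G} :
    g ∈ Hsub p E ↔ Relation.ReflTransGen (R p) E (cj g E) := Iff.rfl

theorem vertex_in_H [Finite G] {p : ℕ} [hp : Fact p.Prime] {E X : Subgroup G} (hE : V p E)
    (hX : V p X) (hXH : X ≤ Hsub p E) : Relation.ReflTransGen (R p) E X := by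
  set H := Hsub p E with hH
  have hEH : E ≤ H := by
    intro e he
    rw [hH, mem_Hsub, cj_self he]
  have hX' : IsPGroup p (X.subgroupOf H) := (V_isPGroup hX).comap_subtype
  have hE' : IsPGroup p (E.subgroupOf H) := (V_isPGroup hE).comap_subtype
  obtain ⟨S, hS⟩ := hX'.exists_le_sylow
  obtain ⟨T, hT⟩ := hE'.exists_le_sylow
  obtain ⟨h, hh⟩ := MulAction.exists_smul_eq H T S
  set SG : Subgroup G := (S : Subgroup H).map H.subtype with hSG
  have hSGp : IsPGroup p SG := S.isPGroup'.map _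
  have h1 : X ≤ SG := by
    intro x hx
    exact ⟨⟨x, hXH hx⟩, hS (mem_subgroupOf.2 hx), rfl⟩
  have h2 : cj (h : G) E ≤ SG := by
    rintro _ ⟨e, he, rfl⟩
    refine ⟨h * ⟨e, hEH he⟩ * h⁻¹, ?_, by simp⟩
    have h3 : (⟨e, hEH he⟩ : H) ∈ (T : Subgroup H) := hT (mem_subgroupOf.2 he)
    have h4 : MulAut.conj h • (⟨e, hEH he⟩ : H) ∈ MulAut.conj h • (T : Subgroup H) :=
      Subgroup.smul_mem_pointwise_smul _ _ _ h3
    rw [← hh]
    exact h4
  have h5 : Relation.ReflTransGen (R p) E (cj (h : G) E) := h.2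
  exact h5.trans (pgroup_conn hSGp (V_cj _ hE) hX h2 h1)

/-- Let G be finite and p prime. Then G has a proper subgroup H with p ∣ |H| and p ∤ |H ∩ gHg⁻¹| for every g ∉ H (a strongly p-embedded subgroup) if and only if G is not 1-connected for p. -/
theorem result {G : Type*} [Group G] [Finite G] (p : ℕ) [Fact p.Prime] : (∃ H : Subgroup G, H ≠ ⊤ ∧ p ∣ Nat.card ↥H ∧ ∀ g : G, g ∉ H → ¬ p ∣ Nat.card ↥(H ⊓ H.map (MulAut.conj g).toMonoidHom)) ↔ ¬ Cfsg.IsKConnected p 1 G := by
  have hconn_iff : Cfsg.IsKConnected p 1 G ↔ ∀ E E' : Subgroup G, V p E → V p E' →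
      Relation.ReflTransGen (R p) E E' := by
    constructor
    · intro h E E' hE hE'
      exact h E E' hE.1 hE.2 hE'.1 hE'.2
    · intro h E E' h1 h2 h3 h4
      exact h E E' ⟨h1, h2⟩ ⟨h3, h4⟩
  rw [hconn_iff]
  constructor
  · rintro ⟨H, hHne, hpH, hH⟩ hconn
    obtain ⟨x', hx'⟩ := exists_prime_orderOf_dvd_card' (G := H) p hpH
    set x : G := (x' : G) with hx
    have hxo : orderOf x = p := by rw [hx, Subgroup.orderOf_coe, hx']
    have hxH : x ∈ H := x'.2
    have hVX := V_zpowers hxo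
    have hstep : ∀ A B : Subgroup G, A ≤ H → R p A B → B ≤ H := by
      intro A B hAH hR b hb
      by_contra hbH
      obtain ⟨a, ha, hao⟩ := exists_orderOf (⟨hR.1, hR.2.1⟩ : V p A)
      apply hH b hbH
      have h1 : a ∈ H ⊓ H.map (MulAut.conj b).toMonoidHom := by
        refine mem_inf.2 ⟨hAH ha, ⟨a, hAH ha, ?_⟩⟩
        simp only [MulEquiv.coe_toMonoidHom, MulAut.conj_apply]
        rw [← hR.2.2.2.2 a ha b hb]; group
      rw [← hao]
      exact Subgroup.orderOf_dvd_natCard _ h1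
    have hall : ∀ B : Subgroup G, Relation.ReflTransGen (R p) (zpowers x) B → B ≤ H := by
      intro B hB
      induction hB with
      | refl => exact (zpowers_le).2 hxH
      | tail _ hbc ih => exact hstep _ _ ih hbc
    obtain ⟨g, hg⟩ : ∃ g : G, g ∉ H := by
      by_contra hcon
      push Not at hcon
      exact hHne (eq_top_iff.2 fun g _ => hcon g)
    have h1 := hall _ (hconn _ _ hVX (V_cj g hVX))
    apply hH g hg
    have h2 : g * x * g⁻¹ ∈ H ⊓ H.map (MulAut.conj g).toMonoidHom :=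
      mem_inf.2 ⟨h1 (conj_mem_cj g (mem_zpowers x)), conj_mem_cj g hxH⟩
    have h3 : orderOf (g * x * g⁻¹) = p := by
      rw [← hxo]
      exact orderOf_injective (MulAut.conj g).toMonoidHom (MulAut.conj g).injective x
    rw [← h3]
    exact Subgroup.orderOf_dvd_natCard _ h2
  · intro hcon
    push Not at hcon
    obtain ⟨E, E', hE, hE', hnot⟩ := hcon
    have hEH : E ≤ Hsub p E := by
      intro e he
      rw [mem_Hsub, cj_self he]
    refine ⟨Hsub p E, ?_, ?_, ?_⟩
    · intro htop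
      obtain ⟨P, hP⟩ := (V_isPGroup hE).exists_le_sylow
      obtain ⟨P', hP'⟩ := (V_isPGroup hE').exists_le_sylow
      obtain ⟨g, hg⟩ := MulAction.exists_smul_eq G P P'
      have h1 : cj g E ≤ (P' : Subgroup G) := by
        rintro _ ⟨e, he, rfl⟩
        have h4 : MulAut.conj g • e ∈ MulAut.conj g • (P : Subgroup G) :=
          Subgroup.smul_mem_pointwise_smul _ _ _ (hP he)
        rw [← hg]
        exact h4
      have h2 : g ∈ Hsub p E := htop ▸ mem_top g
      exact hnot ((mem_Hsub.1 h2).trans (pgroup_conn P'.isPGroup' (V_cj g hE) hE' h1 hP'))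
    · obtain ⟨a, ha, hao⟩ := exists_orderOf hE
      have := Subgroup.orderOf_dvd_natCard _ (hEH ha)
      rwa [hao] at this
    · intro g hg hdvd
      obtain ⟨x', hx'⟩ := exists_prime_orderOf_dvd_card'
        (G := ↥(Hsub p E ⊓ (Hsub p E).map (MulAut.conj g).toMonoidHom)) p hdvd
      set x : G := (x' : G) with hx
      have hxo : orderOf x = p := by rw [hx, Subgroup.orderOf_coe, hx']
      obtain ⟨hx1, hx2⟩ := mem_inf.1 x'.2
      have hVX := V_zpowers hxo
      have r1 := vertex_in_H hE hVX ((zpowers_le).2 hx1)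
      have h3 : cj g⁻¹ (zpowers x) ≤ Hsub p E := by
        rintro _ ⟨y, hy, rfl⟩
        have hy2 : y ∈ (Hsub p E).map (MulAut.conj g).toMonoidHom :=
          ((zpowers_le).2 hx2) hy
        obtain ⟨w, hw, rfl⟩ := hy2
        simpa [mul_assoc] using hw
      have r2 := RTG_cj g (vertex_in_H hE (V_cj g⁻¹ hVX) h3)
      rw [← cj_mul, mul_inv_cancel, cj_one] at r2
      exact hg (mem_Hsub.2 (r1.trans (RTG_symm r2)))

end Cfsg.Agent.S1336
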