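import Cfsg.Statements.S1338
import Cfsg.Agent.S0122

set_option autoImplicit false
open Cfsg

namespace Cfsg.Agent.S1338

open Cfsg.Agent.Lib.Helper24 Cfsg.Agent.Lib.Helper29 Cfsg.Agent.S0122
open scoped commutatorElement

theorem card_le_ker_mul_map {A B : Type*} [Group A] [Group B] [Finite A] (f : A →* B)
    (H : Subgroup A) : Nat.card H ≤ Nat.card f.ker * Nat.card (H.map f) := by
  have h1 : Nat.card (f.domRestrict H).ker * Nat.card (f.domRestrict H).range = Nat.card H := by
    rw [← Subgroup.index_ker]; exact Subgroup.card_mul_index _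
  rw [MonoidHom.domRestrict_range] at h1
  have h2 : Nat.card (f.domRestrict H).ker ≤ Nat.card f.ker := by
    have : ((f.domRestrict H).ker).map H.subtype ≤ f.ker := by
      rintro _ ⟨x, hx, rfl⟩
      exact hx
    have h3 := Subgroup.card_le_of_le this
    rwa [Subgroup.card_map_of_injective H.subtype_injective] at h3
  rw [← h1]
  exact Nat.mul_le_mul_right _ h2

/-- an endomorphism of order dividing `3` of an elementary abelian `3`-group: `|A| ≤ |C_A(T)| ^ 3`. -/
theorem card_le_cube {A : Type*} [CommGroup A] [Finite A] (T : A →* A)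
    (hT : ∀ v, T (T (T v)) = v) (h3 : ∀ v : A, v ^ 3 = 1) :
    Nat.card A ≤ Nat.card (T / MonoidHom.id A).ker ^ 3 := by
  set φ := T / MonoidHom.id A with hφ
  have hφv : ∀ v, φ v = T v * v⁻¹ := fun v => by simp [hφ, div_eq_mul_inv]
  have hinv : ∀ x : A, x⁻¹ * x⁻¹ = x := by
    intro x
    have := h3 x
    rw [pow_succ, pow_two] at this
    calc x⁻¹ * x⁻¹ = x⁻¹ * x⁻¹ * (x * x * x) := by rw [this, mul_one]
      _ = x := by group
  have hφφ : ∀ v, φ (φ v) = v * T v * T (T v) := by
    intro v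
    rw [hφv, hφv]
    simp only [map_mul, map_inv, mul_inv_rev, inv_inv]
    calc T (T v) * (T v)⁻¹ * (v * (T v)⁻¹) = v * ((T v)⁻¹ * (T v)⁻¹) * T (T v) := by ac_rfl
      _ = _ := by rw [hinv]
  have key : ∀ v, φ (φ v) ∈ φ.ker := by
    intro v
    rw [MonoidHom.mem_ker, hφφ, hφv]
    simp only [map_mul, map_inv, hT]
    calc T v * v⁻¹ * (T (T v) * (T v)⁻¹) * (v * (T (T v))⁻¹)
        = (T v * (T v)⁻¹) * (v⁻¹ * v) * (T (T v) * (T (T v))⁻¹) := by ac_rfl
      _ = 1 := by simp
  have c1 := card_le_ker_mul_map φ ⊤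
  have c2 := card_le_ker_mul_map φ ((⊤ : Subgroup A).map φ)
  have c3 : Nat.card (((⊤ : Subgroup A).map φ).map φ) ≤ Nat.card φ.ker := by
    apply Subgroup.card_le_of_le
    rintro _ ⟨_, ⟨v, -, rfl⟩, rfl⟩
    exact key v
  rw [Subgroup.card_top] at c1
  calc Nat.card A ≤ Nat.card φ.ker * Nat.card ((⊤ : Subgroup A).map φ) := c1
    _ ≤ Nat.card φ.ker * (Nat.card φ.ker * Nat.card φ.ker) :=
        Nat.mul_le_mul_left _ (c2.trans (Nat.mul_le_mul_left _ c3))
    _ = Nat.card φ.ker ^ 3 := by ring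

/-- an element of order `3` centralizes a subgroup of order at least `9` of a normal `E_81`. -/
theorem nine_le_card_centralizer {P : Type*} [Group P] [Finite P] (hP : IsPGroup 3 P)
    (V : Subgroup P) [hVn : V.Normal] (hV : IsElementaryAbelian 3 V) (hVcard : Nat.card V = 3 ^ 4)
    (a : P) (ha : a ^ 3 = 1) :
    3 ^ 2 ≤ Nat.card (V ⊓ Subgroup.centralizer ({a} : Set P) : Subgroup P) := by
  have : Fact (Nat.Prime 3) := ⟨Nat.prime_three⟩
  let _ : CommGroup V :=
    { (inferInstance : Group V) with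
      mul_comm := fun x y => Subtype.ext (comm_of hV.1 x x.2 y y.2) }
  let T : V →* V := (MulAut.conjNormal a : MulAut V).toMonoidHom
  have hTv : ∀ v : V, ((T v : V) : P) = a * v * a⁻¹ := fun v => MulAut.conjNormal_apply a v
  have hT : ∀ v, T (T (T v)) = v := by
    intro v
    ext
    rw [hTv, hTv, hTv]
    have h1 : a * a * a = 1 := by rw [← ha, pow_succ, pow_two]
    have h2 : a⁻¹ * a⁻¹ * a⁻¹ = 1 := by
      have : (a * a * a)⁻¹ = 1 := by rw [h1, inv_one]
      rw [← this]; group
    calc a * (a * (a * v * a⁻¹) * a⁻¹) * a⁻¹ = (a * a * a) * v * (a⁻¹ * a⁻¹ * a⁻¹) := by group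
      _ = v := by rw [h1, h2]; group
  have h3 : ∀ v : V, v ^ 3 = 1 := fun v => Subtype.ext (hV.2 v v.2)
  have h := card_le_cube T hT h3
  have hker : ((T / MonoidHom.id V).ker).map V.subtype ≤ V ⊓ Subgroup.centralizer ({a} : Set P) := by
    rintro _ ⟨v, hv, rfl⟩
    refine ⟨v.2, ?_⟩
    have h1 : T v = v := by
      have : T v / v = 1 := hv
      exact div_eq_one.1 this
    have h2 : a * v * a⁻¹ = v := by rw [← hTv, h1]
    refine Subgroup.mem_centralizer_singleton_iff.2 ?_
    calc (v : P) * a = (a * v * a⁻¹) * a := by rw [h2]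
      _ = a * v := by group
  have hk := Subgroup.card_le_of_le hker
  rw [Subgroup.card_map_of_injective V.subtype_injective] at hk
  apply pow_le_card_of_lt (k := 1) hP
  by_contra hcon
  have h4 : Nat.card (T / MonoidHom.id V).ker ≤ 3 := by
    have : Nat.card (V ⊓ Subgroup.centralizer ({a} : Set P) : Subgroup P) ≤ 3 := by
      simpa using hcon
    exact hk.trans this
  have h5 : Nat.card (T / MonoidHom.id V).ker ^ 3 ≤ 3 ^ 3 := Nat.pow_le_pow_left h4 3
  rw [hVcard] at h
  omega

/-- A finite 3-group of 3-rank at least 4 is 2-connected for the prime 3: its commuting graph on elementary abelian subgroups of order ≥ 9 is connected. -/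
theorem result {P : Type*} [Group P] [Finite P] (hP : IsPGroup 3 P) (hrk : ¬ Cfsg.PRankLE 3 3 P) : Cfsg.IsKConnected 3 2 P := by
  have : Fact (Nat.Prime 3) := ⟨Nat.prime_three⟩
  unfold Cfsg.PRankLE at hrk
  push Not at hrk
  obtain ⟨F, hFc, hFp, hFcard⟩ := hrk
  obtain ⟨V, hVn, hV, hVcard⟩ := Cfsg.Agent.S0122.aux (p := 3) (by norm_num) _ P rfl hP
    ⟨F, ⟨hFc, hFp⟩, pow_le_card_of_lt hP F hFcard⟩
  obtain ⟨L, hLV, hLn, hLcard⟩ := exists_normal_le_of_card hP 1 _ V hVn rfl
    (by rw [hVcard]; norm_num)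
  have hLne : L ≠ ⊥ := by
    rintro rfl
    rw [Subgroup.card_bot] at hLcard
    norm_num at hLcard
  obtain ⟨L₀, hL₀lt, -, hL₀card, hL₀comm⟩ := exists_normal_index_p hP L hLne
  have hL₀ : L₀ = ⊥ := by
    apply Subgroup.card_eq_one.1
    rw [hLcard] at hL₀card
    omega
  have hcen : ∀ z ∈ L, ∀ g : P, g * z = z * g := by
    intro z hz g
    have h1 : ⁅z, g⁆ ∈ L₀ := hL₀comm (Subgroup.commutator_mem_commutator hz (Subgroup.mem_top g))
    rw [hL₀, Subgroup.mem_bot] at h1
    exact (commutatorElement_eq_one_iff_mul_comm.1 h1).symm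
  have hVge : 3 ^ 2 ≤ Nat.card V := by rw [hVcard]; norm_num
  have hsymm : Std.Symm (fun A B : Subgroup P => IsElementaryAbelian 3 A ∧ 3 ^ 2 ≤ Nat.card ↥A ∧
      IsElementaryAbelian 3 B ∧ 3 ^ 2 ≤ Nat.card ↥B ∧ ∀ a ∈ A, ∀ b ∈ B, a * b = b * a) := by
    constructor
    rintro A B ⟨h1, h2, h3, h4, h5⟩
    exact ⟨h3, h4, h1, h2, fun b hb a ha => (h5 a ha b hb).symm⟩
  have main : ∀ E : Subgroup P, IsElementaryAbelian 3 E → 3 ^ 2 ≤ Nat.card E →
      Relation.ReflTransGen (fun A B : Subgroup P => IsElementaryAbelian 3 A ∧ 3 ^ 2 ≤ Nat.card ↥A ∧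
        IsElementaryAbelian 3 B ∧ 3 ^ 2 ≤ Nat.card ↥B ∧ ∀ a ∈ A, ∀ b ∈ B, a * b = b * a) E V := by
    intro E hE hEc
    by_cases hEV : E ≤ V
    · exact Relation.ReflTransGen.single
        ⟨hE, hEc, hV, hVge, fun a ha b hb => comm_of hV.1 a (hEV ha) b hb⟩
    · obtain ⟨a, haE, haV⟩ := SetLike.not_le_iff_exists.1 hEV
      have ha1 : a ≠ 1 := fun h => haV (h ▸ V.one_mem)
      have hZa : IsElementaryAbelian 3 (Subgroup.zpowers a) :=
        elemAb_of_le hE (Subgroup.zpowers_le.2 haE)
      have hL : IsElementaryAbelian 3 L := elemAb_of_le hV hLV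
      have hX : IsElementaryAbelian 3 (Subgroup.zpowers a ⊔ L) :=
        elemAb_sup hZa hL (fun x _ z hz => hcen z hz x)
      have hZcard : Nat.card (Subgroup.zpowers a) = 3 := by
        rw [Nat.card_zpowers]
        exact orderOf_eq_prime (hE.2 a haE) ha1
      have hXcard : 3 ^ 2 ≤ Nat.card (Subgroup.zpowers a ⊔ L : Subgroup P) := by
        apply pow_le_card_of_lt (k := 1) hP
        have hlt : Subgroup.zpowers a < Subgroup.zpowers a ⊔ L := by
          refine lt_of_le_of_ne le_sup_left ?_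
          intro h
          have hle : L ≤ Subgroup.zpowers a := by rw [h]; exact le_sup_right
          have heq : L = Subgroup.zpowers a :=
            Subgroup.eq_of_le_of_card_ge hle (by rw [hZcard, hLcard]; norm_num)
          apply haV
          apply hLV
          rw [heq]
          exact Subgroup.mem_zpowers a
        have := card_lt_of_lt hlt
        rw [hZcard] at this
        simpa using this
      have hY : IsElementaryAbelian 3 (V ⊓ Subgroup.centralizer ({a} : Set P)) :=
        elemAb_of_le hV inf_le_left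
      have hYcard := nine_le_card_centralizer hP V hV hVcard a (hE.2 a haE)
      have h1 : Subgroup.zpowers a ⊔ L ≤ Subgroup.centralizer (E : Set P) := by
        refine sup_le (Subgroup.zpowers_le.2 ?_) ?_
        · exact Subgroup.mem_centralizer_iff.2 (fun e he => comm_of hE.1 e he a haE)
        · intro z hz
          exact Subgroup.mem_centralizer_iff.2 (fun e _ => hcen z hz e)
      have h2 : Subgroup.zpowers a ⊔ L ≤
          Subgroup.centralizer ((V ⊓ Subgroup.centralizer ({a} : Set P) : Subgroup P) : Set P) := by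
        refine sup_le (Subgroup.zpowers_le.2 ?_) ?_
        · exact Subgroup.mem_centralizer_iff.2
            (fun y hy => Subgroup.mem_centralizer_singleton_iff.1 hy.2)
        · intro z hz
          exact Subgroup.mem_centralizer_iff.2 (fun e _ => hcen z hz e)
      refine ((Relation.ReflTransGen.single (b := Subgroup.zpowers a ⊔ L) ?_).trans
        (Relation.ReflTransGen.single (b := V ⊓ Subgroup.centralizer ({a} : Set P)) ?_)).trans
        (Relation.ReflTransGen.single ?_)
      · exact ⟨hE, hEc, hX, hXcard, fun e he x hx => Subgroup.mem_centralizer_iff.1 (h1 hx) e he⟩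
      · exact ⟨hX, hXcard, hY, hYcard,
          fun x hx y hy => (Subgroup.mem_centralizer_iff.1 (h2 hx) y hy).symm⟩
      · exact ⟨hY, hYcard, hV, hVge, fun y hy v hv => comm_of hV.1 y hy.1 v hv⟩
  intro E E' hE hEc hE' hEc'
  exact (main E hE hEc).trans (Relation.ReflTransGen.stdSymm.symm _ _ (main E' hE' hEc'))

end Cfsg.Agent.S1338
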