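import Cfsg.Statements.S1343
import Cfsg.Agent.Lib.Helper23.ExtLayer2

set_option autoImplicit false
open Cfsg

namespace Cfsg.Agent.S1343

open Cfsg.Agent.Lib.Helper23

/-- Let X be finite. Then L*_{2'}(X) = L_{2'}(X) ⊔ F for some subgroup F of odd order normalized by a Sylow 2-subgroup of X. -/
theorem result {X : Type*} [Group X] [Finite X] : ∃ F : Subgroup X, Odd (Nat.card ↥F) ∧ (∃ S : Sylow 2 X, (S : Subgroup X) ≤ Subgroup.normalizer (F : Set X)) ∧ Cfsg.extendedTwoLayer X = Cfsg.pLayer 2 X ⊔ F := by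
  haveI : Fact (Nat.Prime 2) := ⟨Nat.prime_two⟩
  haveI hNn := extBase_normal X
  obtain ⟨T⟩ : Nonempty (Sylow 2 ↥(extBase X)) := inferInstance
  set TX := (T : Subgroup ↥(extBase X)).map (extBase X).subtype with hTX
  refine ⟨Cfsg.oddCore X ⊔ extTerm TX, ?_, ?_, ?_⟩
  · -- odd order
    have h1 : (Nat.card (Cfsg.oddCore X)).Coprime 2 := pPrimeCore_coprime 2 Nat.prime_two X
    have h2 : (Nat.card (extTerm TX)).Coprime 2 := by
      have : Nat.card (extTerm TX) =
          Nat.card (Cfsg.pPrimeCore 2 ↥(Subgroup.centralizer (TX : Set X))) :=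
        Subgroup.card_map_of_injective (Subgroup.subtype_injective _)
      rw [this]
      exact pPrimeCore_coprime 2 Nat.prime_two _
    have h3 := card_sup_dvd_of_normal (Cfsg.oddCore X) (extTerm TX)
    have h4 : (Nat.card ↥(Cfsg.oddCore X ⊔ extTerm TX)).Coprime 2 :=
      Nat.Coprime.coprime_dvd_left h3 (Nat.Coprime.mul_left h1 h2)
    exact Nat.Coprime.odd_of_right h4
  · -- normalized by a Sylow 2-subgroup
    have hpT : IsPGroup 2 TX := T.isPGroup'.map _
    obtain ⟨S, hS⟩ := hpT.exists_le_sylow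
    refine ⟨S, ?_⟩
    have hTXeq : TX = (S : Subgroup X) ⊓ extBase X := by
      have hR : IsPGroup 2 ((S : Subgroup X).subgroupOf (extBase X)) :=
        S.isPGroup'.comap_of_injective _ (Subgroup.subtype_injective _)
      have hle : (T : Subgroup ↥(extBase X)) ≤ (S : Subgroup X).subgroupOf (extBase X) := by
        intro y hy
        rw [Subgroup.mem_subgroupOf]
        exact hS ⟨y, hy, rfl⟩
      have hEq := T.is_maximal' hR hle
      rw [hTX, ← hEq, Subgroup.subgroupOf_map_subtype]
    intro s hs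
    have h1 : TX.map (MulAut.conj s).toMonoidHom = TX := by
      apply Subgroup.mem_normalizer_iff_map_conj_eq.1
      rw [hTXeq]
      rw [Subgroup.mem_normalizer_iff]
      intro y
      have hsN : ∀ z, z ∈ extBase X ↔ s * z * s⁻¹ ∈ extBase X := fun z =>
        Subgroup.mem_normalizer_iff.1
          (by rw [Subgroup.normalizer_eq_top_iff.2 hNn]; exact Subgroup.mem_top s) z
      have hsS : ∀ z, z ∈ (S : Subgroup X) ↔ s * z * s⁻¹ ∈ (S : Subgroup X) := fun z =>
        Subgroup.mem_normalizer_iff.1 (Subgroup.le_normalizer hs) z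
      rw [Subgroup.mem_inf, Subgroup.mem_inf, ← hsN, ← hsS]
    apply Subgroup.mem_normalizer_iff_map_conj_eq.2
    show (Cfsg.oddCore X ⊔ extTerm TX).map (MulAut.conj s).toMonoidHom = _
    rw [Subgroup.map_sup, pPrimeCore_map, ← extTerm_map, h1]
  · rw [extendedTwoLayer_eq_extOne T]
    unfold extOne
    rw [sup_assoc]

end Cfsg.Agent.S1343
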