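import Cfsg.Statements.S1344
import Cfsg.Agent.Lib.Helper23.PComp2

set_option autoImplicit false
open Cfsg

namespace Cfsg.Agent.S1344

open Cfsg.Agent.Lib.Helper23
open scoped commutatorElement

/-- Let K be a 2-component of the finite group X. Then K ≤ L*_{2'}(X) and K is normal in L*_{2'}(X). -/
theorem result {X : Type*} [Group X] [Finite X] (K : Subgroup X) (hK : Cfsg.IsPComponent 2 K) : K ≤ Cfsg.extendedTwoLayer X ∧ (K.subgroupOf (Cfsg.extendedTwoLayer X)).Normal := by
  haveI : Fact (Nat.Prime 2) := ⟨Nat.prime_two⟩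
  have hKL : K ≤ Cfsg.pLayer 2 X := le_sSup hK
  have hKE : K ≤ Cfsg.extendedTwoLayer X := by
    rw [extendedTwoLayer_eq]
    exact hKL.trans (le_sup_left.trans le_sup_left)
  refine ⟨hKE, ?_⟩
  rw [Subgroup.normal_subgroupOf_iff_le_normalizer hKE]
  have hKN : K ≤ extBase X := hKL.trans le_sup_left
  obtain ⟨P₀⟩ : Nonempty (Sylow 2 ↥K) := inferInstance
  set A : Subgroup X := (P₀ : Subgroup ↥K).map K.subtype with hA
  have hAK : A ≤ K := Subgroup.map_subtype_le _
  have hpA : IsPGroup 2 (A.subgroupOf (extBase X)) :=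
    (P₀.isPGroup'.map K.subtype).comap_of_injective _ (Subgroup.subtype_injective _)
  obtain ⟨T, hT⟩ := hpA.exists_le_sylow
  set TX := (T : Subgroup ↥(extBase X)).map (extBase X).subtype with hTX
  have hATX : A ≤ TX := by
    intro a ha
    exact ⟨⟨a, hKN (hAK ha)⟩, hT (by rw [Subgroup.mem_subgroupOf]; exact ha), rfl⟩
  rw [extendedTwoLayer_eq_extOne T]
  set π := QuotientGroup.mk' (Cfsg.pPrimeCore 2 X) with hπ
  refine sup_le (sup_le (pLayer_le_normalizer 2 hK) ?_) ?_
  · intro o ho
    apply mem_normalizer_of_map_mem_normalizer 2 hK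
    have : QuotientGroup.mk' (Cfsg.pPrimeCore 2 X) o = 1 := (QuotientGroup.eq_one_iff o).2 ho
    rw [this]
    exact one_mem _
  · intro d hd
    have hdc : d ∈ Subgroup.centralizer (TX : Set X) := coreOf_le 2 _ hd
    apply mem_normalizer_of_map_mem_normalizer 2 hK
    have hcomp : Cfsg.IsComponent ((K.map π).map (MulAut.conj (π d)).toMonoidHom) :=
      isComponent_map _ hK.2.1
    rcases Cfsg.Agent.S1261.result _ (K.map π) hcomp hK.2.1.1 with h | h
    · rw [Subgroup.mem_normalizer_iff_map_conj_eq]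
      apply Subgroup.eq_of_le_of_card_ge h
      exact (Subgroup.card_map_of_injective (MulAut.conj (π d)).injective).ge
    · exfalso
      have hsurj : Function.Surjective (π.subgroupMap K) := π.subgroupMap_surjective K
      apply quasisimple_sylow_not_le_center 2 hK.2.1.2
        (dvd_card_of_isComponent_quotient 2 hK.2.1) (P₀.mapSurjective hsurj)
      rintro _ ⟨x, hx, rfl⟩
      rw [Subgroup.mem_center_iff]
      rintro ⟨y, hy⟩
      apply Subtype.ext
      show y * π (x : X) = π (x : X) * y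
      have hxA : (x : X) ∈ A := ⟨x, hx, rfl⟩
      have hdx : (x : X) * d = d * (x : X) := Subgroup.mem_centralizer_iff.1 hdc _ (hATX hxA)
      have hmem : π (x : X) ∈ (K.map π).map (MulAut.conj (π d)).toMonoidHom := by
        refine ⟨π (x : X), ⟨(x : X), x.2, rfl⟩, ?_⟩
        show π d * π (x : X) * (π d)⁻¹ = π (x : X)
        rw [← map_mul, ← hdx, map_mul, mul_inv_cancel_right]
      have hcomm : ⁅π (x : X), y⁆ ∈ (⊥ : Subgroup _) := h ▸ Subgroup.commutator_mem_commutator hmem hy
      rw [Subgroup.mem_bot, commutatorElement_eq_one_iff_mul_comm] at hcomm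
      exact hcomm.symm

end Cfsg.Agent.S1344
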