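import Cfsg.Statements.S1386
import Cfsg.Agent.Lib.Helper23.ComplIn

set_option autoImplicit false
open Cfsg

namespace Cfsg.Agent.S1386

/-- Let G be a finite group, W₁, W₂ subgroups forming a self-normalizing cyclic pair, S a subgroup with W₂ ≤ S and W₁ a complement to S' in S, and (W₁, U, W₂') type-P data for S. Then W₂' = W₂ (that is, C_{S'}(W₁) = W₂). -/
theorem result {G : Type*} [Group G] [Finite G] (W₁ W₂ S U W₂' : Subgroup G) (hW : Cfsg.IsSelfNormalizingCyclic W₁ W₂)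
    (hSW : Cfsg.IsComplIn ⁅S, S⁆ W₁ S) (hW₂S : W₂ ≤ S) (hP : Cfsg.IsTypePWith S W₁ U W₂') :
    W₂' = W₂ := by
  obtain ⟨hW1ne, hW2ne, hdisj, hcomm, hcyc, hnorm⟩ := hW
  obtain ⟨-, hW2'ne, hdisj', hcomm', hcyc', hnorm'⟩ := hP.selfNormalizing
  -- nontrivial elements
  obtain ⟨x, hx, hx1⟩ : ∃ x ∈ W₁, x ≠ 1 := by
    obtain ⟨x, hx⟩ := Subgroup.ne_bot_iff_exists_ne_one.1 hW1ne
    exact ⟨(x : G), x.2, fun h => hx (Subtype.ext h)⟩
  obtain ⟨y, hy, hy1⟩ : ∃ x ∈ W₂, x ≠ 1 := by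
    obtain ⟨x, hx⟩ := Subgroup.ne_bot_iff_exists_ne_one.1 hW2ne
    exact ⟨(x : G), x.2, fun h => hx (Subtype.ext h)⟩
  have hcent := hP.W₂_centralizer x hx hx1
  have hW2'S' : W₂' ≤ ⁅S, S⁆ := hcent ▸ inf_le_left
  -- W₁ is commutative
  have hW1comm : ∀ a ∈ W₁, ∀ b ∈ W₁, a * b = b * a := by
    intro a ha b hb
    haveI := hP.W₁_cyclic
    have := (IsCyclic.commGroup (α := W₁)).mul_comm ⟨a, ha⟩ ⟨b, hb⟩
    exact congrArg Subtype.val this
  -- coprimality of the orders of W₁ and W₂'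
  have hrel' : W₁.relIndex S = Nat.card ↥⁅S, S⁆ :=
    Cfsg.Agent.Lib.Helper23.complIn_relIndex_right hSW
  have hcop : (Nat.card W₁).Coprime (Nat.card W₂') := by
    have h1 := hP.W₁_hall
    rw [hrel'] at h1
    exact Nat.Coprime.coprime_dvd_right (Subgroup.card_dvd_of_le hW2'S') h1
  -- decomposition of elements of W₂
  have hdec : ∀ w ∈ W₂, ∃ a ∈ W₂', ∃ b ∈ W₁, w = a * b := by
    intro w hw
    obtain ⟨a, ha, b, hb, hwab⟩ := hSW.2.2.2 w (hW₂S hw)
    refine ⟨a, ?_, b, hb, hwab⟩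
    rw [← hcent]
    refine Subgroup.mem_inf.2 ⟨ha, ?_⟩
    rw [Subgroup.mem_centralizer_singleton_iff]
    have ha' : a = w * b⁻¹ := by rw [hwab]; group
    have h1 : x * w = w * x := hcomm x hx w hw
    have h2 : x * b⁻¹ = b⁻¹ * x := hW1comm x hx _ (inv_mem hb)
    rw [ha']
    calc w * b⁻¹ * x = w * (b⁻¹ * x) := by group
      _ = w * (x * b⁻¹) := by rw [h2]
      _ = (w * x) * b⁻¹ := by group
      _ = (x * w) * b⁻¹ := by rw [h1]
      _ = x * (w * b⁻¹) := by group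
  -- W₂ ≤ W₂'
  have hle : W₂ ≤ W₂' := by
    intro w hw
    obtain ⟨a, ha, b, hb, hwab⟩ := hdec w hw
    have hab : a * b = b * a := (hcomm' b hb a ha).symm
    have hpow : w ^ (Nat.card W₂') = b ^ (Nat.card W₂') := by
      rw [hwab, (show Commute a b from hab).mul_pow]
      have : a ^ (Nat.card W₂') = 1 := by
        have := pow_card_eq_one' (x := (⟨a, ha⟩ : W₂'))
        exact congrArg Subtype.val this
      rw [this, one_mul]
    have hb1 : b ^ (Nat.card W₂') = 1 := by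
      have hmem : b ^ (Nat.card W₂') ∈ W₁ ⊓ W₂ :=
        Subgroup.mem_inf.2 ⟨pow_mem hb _, hpow ▸ pow_mem hw _⟩
      rwa [hdisj, Subgroup.mem_bot] at hmem
    have hb2 : b ^ (Nat.card W₁) = 1 := by
      have := pow_card_eq_one' (x := (⟨b, hb⟩ : W₁))
      exact congrArg Subtype.val this
    have hb3 : b = 1 := Cfsg.Agent.Lib.Helper23.eq_one_of_pow_coprime hcop hb2 hb1
    rw [hwab, hb3, mul_one]
    exact ha
  -- W₁ ⊔ W₂' normalizes {x * y}
  have hxyW' : x * y ∈ W₁ ⊔ W₂' :=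
    mul_mem (Subgroup.mem_sup_left hx) (Subgroup.mem_sup_right (hle hy))
  have hW'comm : ∀ a ∈ W₁ ⊔ W₂', ∀ b ∈ W₁ ⊔ W₂', a * b = b * a := by
    intro a ha b hb
    haveI := hcyc'
    have := (IsCyclic.commGroup (α := ↥(W₁ ⊔ W₂'))).mul_comm ⟨a, ha⟩ ⟨b, hb⟩
    exact congrArg Subtype.val this
  have hN := hnorm {x * y} (by
    intro z hz
    rw [Set.mem_singleton_iff] at hz
    subst hz
    refine ⟨mul_mem (Subgroup.mem_sup_left hx) (Subgroup.mem_sup_right hy), ?_⟩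
    rintro (h | h)
    · have h1 : y ∈ W₁ := by
        have : y = x⁻¹ * (x * y) := by group
        rw [this]; exact mul_mem (inv_mem hx) h
      have : y ∈ W₁ ⊓ W₂ := Subgroup.mem_inf.2 ⟨h1, hy⟩
      rw [hdisj, Subgroup.mem_bot] at this
      exact hy1 this
    · have h1 : x ∈ W₂ := by
        have : x = (x * y) * y⁻¹ := by group
        rw [this]; exact mul_mem h (inv_mem hy)
      have : x ∈ W₁ ⊓ W₂ := Subgroup.mem_inf.2 ⟨hx, h1⟩
      rw [hdisj, Subgroup.mem_bot] at this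
      exact hx1 this) (Set.singleton_nonempty _)
  have hW'W : W₁ ⊔ W₂' ≤ W₁ ⊔ W₂ := by
    rw [← hN]
    intro w hw
    rw [Subgroup.mem_set_normalizer_iff]
    intro n
    simp only [Set.mem_singleton_iff]
    have hc : w * (x * y) = (x * y) * w := hW'comm w hw _ hxyW'
    constructor
    · intro h
      rw [h, hc]; group
    · intro h
      have : n = w⁻¹ * (w * n * w⁻¹) * w := by group
      rw [this, h]
      calc w⁻¹ * (x * y) * w = w⁻¹ * ((x * y) * w) := by group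
        _ = w⁻¹ * (w * (x * y)) := by rw [hc]
        _ = x * y := by group
  -- W₂' ≤ W₂
  apply le_antisymm _ hle
  intro w hw
  have hwW : w ∈ W₁ ⊔ W₂ := hW'W (Subgroup.mem_sup_right hw)
  -- elements of W₁ ⊔ W₂ are products
  have hprod : ∀ z ∈ W₁ ⊔ W₂, ∃ a ∈ W₁, ∃ b ∈ W₂, z = a * b := by
    intro z hz
    rw [Subgroup.sup_eq_closure_mul] at hz
    induction hz using Subgroup.closure_induction with
    | mem z hz =>
      obtain ⟨a, ha, b, hb, rfl⟩ := hz
      exact ⟨a, ha, b, hb, rfl⟩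
    | one => exact ⟨1, one_mem _, 1, one_mem _, by simp⟩
    | mul z z' _ _ h h' =>
      obtain ⟨a, ha, b, hb, rfl⟩ := h
      obtain ⟨a', ha', b', hb', rfl⟩ := h'
      refine ⟨a * a', mul_mem ha ha', b * b', mul_mem hb hb', ?_⟩
      have := hcomm a' ha' b hb
      calc a * b * (a' * b') = a * (b * a') * b' := by group
        _ = a * (a' * b) * b' := by rw [this]
        _ = a * a' * (b * b') := by group
    | inv z _ h =>
      obtain ⟨a, ha, b, hb, rfl⟩ := h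
      refine ⟨a⁻¹, inv_mem ha, b⁻¹, inv_mem hb, ?_⟩
      have := hcomm a⁻¹ (inv_mem ha) b⁻¹ (inv_mem hb)
      rw [mul_inv_rev, this]
  obtain ⟨a, ha, b, hb, hwab⟩ := hprod w hwW
  have ha1 : a ∈ W₁ ⊓ W₂' := by
    refine Subgroup.mem_inf.2 ⟨ha, ?_⟩
    have : a = w * b⁻¹ := by rw [hwab]; group
    rw [this]
    exact mul_mem hw (inv_mem (hle hb))
  rw [hdisj', Subgroup.mem_bot] at ha1
  rw [hwab, ha1, one_mul]
  exact hb

end Cfsg.Agent.S1386
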