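import Cfsg.Statements.S1388
import Cfsg.Agent.Lib.Helper23.TypeP

set_option autoImplicit false
open Cfsg

namespace Cfsg.Agent.S1388

/-- Let M be a subgroup of a finite group G with type-P data (W₁, U, W₂) and H = M_F. Then the derived subgroup of U centralizes H, and if U ≠ 1 then U does not centralize H. -/
theorem result {G : Type*} [Group G] [Finite G] (M W₁ U W₂ : Subgroup G) (hP : Cfsg.IsTypePWith M W₁ U W₂) :
    ⁅U, U⁆ ≤ Subgroup.centralizer (Cfsg.fittingHallOf M : Set G) ∧ (U ≠ ⊥ → ¬ U ≤ Subgroup.centralizer (Cfsg.fittingHallOf M : Set G)) := by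
  set H := Cfsg.fittingHallOf M with hH
  have hM'M : ⁅M, M⁆ ≤ M := hP.W₁_compl.1
  have hUM' : U ≤ ⁅M, M⁆ := hP.U_compl.2.1
  have hUM : U ≤ M := hUM'.trans hM'M
  constructor
  · intro z hz
    have hzU : z ∈ U := Subgroup.commutator_le_self U hz
    have hz2 : z ∈ H ⊔ (M ⊓ Subgroup.centralizer (H : Set G)) :=
      hP.derived_two_le (Subgroup.commutator_mono hUM' hUM' hz)
    obtain ⟨h, hh, c, hc, hzc⟩ := Cfsg.Agent.Lib.Helper23.exists_mul_of_mem_sup_of_commute
      (A := H) (B := M ⊓ Subgroup.centralizer (H : Set G))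
      (fun a ha b hb => (Subgroup.mem_centralizer_iff.1 (Subgroup.mem_inf.1 hb).2) a ha) hz2
    apply Cfsg.Agent.Lib.Helper23.typeP_mem_centralizer hP (inv_mem hh) hzU
    have : h⁻¹ * z = c := by rw [hzc]; group
    rw [this]
    exact (Subgroup.mem_inf.1 hc).2
  · intro hU1 hUC
    apply hU1
    -- U is a normal nilpotent Hall subgroup of M
    have hnormal : (U.subgroupOf M).Normal := by
      refine ⟨?_⟩
      rintro ⟨u, huM⟩ hu ⟨m, hm⟩
      rw [Subgroup.mem_subgroupOf] at hu ⊢
      change u ∈ U at hu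
      change m * u * m⁻¹ ∈ U
      obtain ⟨a, ha, w, hw, rfl⟩ := hP.W₁_compl.2.2.2 m hm
      obtain ⟨h, hh, v, hv, rfl⟩ := hP.U_compl.2.2.2 a ha
      have h1 : w * u * w⁻¹ ∈ U := (Subgroup.mem_normalizer_iff.1 (hP.U_normal hw) u).1 hu
      have h2 : v * (w * u * w⁻¹) * v⁻¹ ∈ U := mul_mem (mul_mem hv h1) (inv_mem hv)
      have h3 : h * (v * (w * u * w⁻¹) * v⁻¹) = (v * (w * u * w⁻¹) * v⁻¹) * h :=
        (Subgroup.mem_centralizer_iff.1 (hUC h2)) h hh
      have h4 : h * v * w * u * (h * v * w)⁻¹ = h * (v * (w * u * w⁻¹) * v⁻¹) * h⁻¹ := by group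
      rw [h4, h3]
      simpa using h2
    have hnil : Group.IsNilpotent ↥(U.subgroupOf M) := by
      haveI := hP.U_nilpotent
      exact Group.nilpotent_of_mulEquiv (Subgroup.subgroupOfEquivOfLe hUM).symm
    have hcop : (Nat.card ↥(U.subgroupOf M)).Coprime (U.subgroupOf M).index := by
      have e1 : Nat.card ↥(U.subgroupOf M) = Nat.card U :=
        Nat.card_congr (Subgroup.subgroupOfEquivOfLe hUM).toEquiv
      rw [e1]
      change (Nat.card U).Coprime (U.relIndex M)
      have c1 := Cfsg.Agent.Lib.Helper23.complIn_card_mul hP.U_compl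
      have c2 := Cfsg.Agent.Lib.Helper23.complIn_card_mul hP.W₁_compl
      have c3 := Cfsg.Agent.Lib.Helper23.card_mul_relIndex hUM
      have c4 : U.relIndex M = Nat.card H * Nat.card W₁ := by
        have : Nat.card U * U.relIndex M = Nat.card U * (Nat.card H * Nat.card W₁) := by
          rw [c3, ← c2, ← c1]; ring
        exact Nat.eq_of_mul_eq_mul_left Nat.card_pos this
      rw [c4]
      apply Nat.Coprime.mul_right
      · exact (Cfsg.Agent.Lib.Helper23.typeP_coprime_H_U hP).symm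
      · have c5 := hP.W₁_hall
        rw [Cfsg.Agent.Lib.Helper23.complIn_relIndex_right hP.W₁_compl, ← c1] at c5
        exact (Nat.Coprime.coprime_mul_left_right c5).symm
    have hle : U.subgroupOf M ≤ Cfsg.fittingHall M := le_sSup ⟨hnormal, hnil, hcop⟩
    have hUH : U ≤ H := by
      intro u hu
      exact ⟨⟨u, hUM hu⟩, hle (by rw [Subgroup.mem_subgroupOf]; exact hu), rfl⟩
    have := hP.U_compl.2.2.1
    rw [eq_bot_iff, ← this]
    exact le_inf hUH le_rfl

end Cfsg.Agent.S1388
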