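import Cfsg.Statements.S1394
import Cfsg.Agent.Lib.Helper23.Trans3

set_option autoImplicit false
open Cfsg

namespace Cfsg.Agent.S1394

open Cfsg.Agent.Lib.Helper23

/-- Let G be a minimal simple group of odd order, A a subgroup satisfying the transitivity hypothesis whose centre has rank at least 2, K = O_{π(A)'}(C_G(A)), and q a prime dividing the order of C_G(A) but not that of A. Then any two maximal A-invariant q-subgroups of G are conjugate by an element of K. -/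
theorem result {G : Type*} [Group G] [Finite G] (hG : Cfsg.IsMinSimpleOddOrder G)
    (A : Subgroup G) (hA : Cfsg.TransitivityHypothesis A) (hZ : ¬ Cfsg.RankLE 1 ↥(A ⊓ Subgroup.centralizer (A : Set G)))
    (q : ℕ) (hq : q.Prime) (hqA : ¬ q ∣ Nat.card A) (hqC : q ∣ Nat.card (Subgroup.centralizer (A : Set G))) :
    ∀ Q₁ ∈ Cfsg.maxInvSubgroups ⊤ A {q}, ∀ Q₂ ∈ Cfsg.maxInvSubgroups ⊤ A {q}, ∃ k ∈ Cfsg.piCoreOf (Cfsg.primesNotDvd (Nat.card A)) (Subgroup.centralizer (A : Set G)), Q₂ = Q₁.map (MulAut.conj k).toMonoidHom := by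
  haveI : Fact q.Prime := ⟨hq⟩
  intro Q₁ h₁ Q₂ h₂
  obtain ⟨k, hk, e⟩ := TransHyp.conj_of_rank_two hG hA hZ q hqA hqC Q₁ Q₂
    (mem_maxInvSubgroups_top_iff.mp h₁) (mem_maxInvSubgroups_top_iff.mp h₂)
  exact ⟨k, hk, e.symm⟩

end Cfsg.Agent.S1394
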