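import Cfsg.Statements.S1441
-- import your own Cfsg.Agent.* helpers here

set_option autoImplicit false
open Cfsg

namespace Cfsg.Agent.S1441

/-- If `b` commutes with `z = h b h⁻¹ b⁻¹` and `z ^ N = 1` then `b ^ N` commutes with `h`. -/
theorem pow_comm_of_comm {G : Type*} [Group G] (h b : G) (N : ℕ)
    (hz : Commute (h * b * h⁻¹ * b⁻¹) b) (hN : (h * b * h⁻¹ * b⁻¹) ^ N = 1) :
    h * b ^ N = b ^ N * h := by
  have h1 : h * b * h⁻¹ = (h * b * h⁻¹ * b⁻¹) * b := by group
  have h2 : (h * b * h⁻¹) ^ N = b ^ N := by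
    rw [h1, hz.mul_pow, hN, one_mul]
  have h3 : (h * b * h⁻¹) ^ N = h * b ^ N * h⁻¹ := conj_pow
  rw [h3] at h2
  calc h * b ^ N = h * b ^ N * h⁻¹ * h := by group
    _ = b ^ N * h := by rw [h2]

/-- Let G be a finite group, H a solvable subgroup and A a subgroup normalizing H. Suppose there is a chain H = H₀ ≥ H₁ ≥ ⋯ ≥ H_n = 1 of subgroups normal in H and normalized by A such that A acts trivially on each factor H_{i-1}/H_i (that is, [H_{i-1}, A] ≤ H_i). Then every prime dividing the index of C_A(H) in A divides the order of H. -/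
theorem result {G : Type*} [Group G] [Finite G] (H A : Subgroup G) (hH : Group.IsSolvable H) (hA : (A ≤ Subgroup.normalizer (H : Set G)))
    (n : ℕ) (c : Fin (n + 1) → Subgroup G) (hc0 : c 0 = H) (hcn : c (Fin.last n) = ⊥) (hanti : Antitone c)
    (hcN : ∀ i, H ≤ Subgroup.normalizer ((c i : Subgroup G) : Set G)) (hcA : ∀ i, A ≤ Subgroup.normalizer ((c i : Subgroup G) : Set G))
    (htriv : ∀ i : Fin n, ⁅c i.castSucc, A⁆ ≤ c i.succ) :
    ∀ p : ℕ, p.Prime → p ∣ (A ⊓ Subgroup.centralizer (H : Set G)).relIndex A → p ∣ Nat.card H := by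
  intro p hp hdvd
  by_contra hpH
  have hle : ∀ i, c i ≤ H := fun i => hc0 ▸ hanti (Fin.zero_le i)
  have key : ∀ a ∈ A, ∀ i : Fin (n + 1), ∃ j : ℕ,
      a ^ (Nat.card H ^ j) ∈ Subgroup.centralizer ((c i : Subgroup G) : Set G) := by
    intro a ha i
    induction i using Fin.reverseInduction with
    | last =>
      refine ⟨0, ?_⟩
      rw [hcn]
      simp [Subgroup.mem_centralizer_iff]
    | cast i ih =>
      obtain ⟨j, hj⟩ := ih
      refine ⟨j + 1, ?_⟩
      rw [pow_succ, pow_mul]
      set b := a ^ (Nat.card H ^ j) with hb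
      have hbA : b ∈ A := A.pow_mem ha _
      rw [Subgroup.mem_centralizer_iff]
      intro h hh
      have hz : h * b * h⁻¹ * b⁻¹ ∈ c i.succ :=
        htriv i (Subgroup.commutator_mem_commutator hh hbA)
      apply pow_comm_of_comm
      · rw [Subgroup.mem_centralizer_iff] at hj
        exact hj _ hz
      · have hzH : h * b * h⁻¹ * b⁻¹ ∈ H := hle _ hz
        have := pow_card_eq_one' (G := H) (x := ⟨_, hzH⟩)
        exact congrArg Subtype.val this
  have : Fact p.Prime := ⟨hp⟩
  obtain ⟨P⟩ : Nonempty (Sylow p A) := inferInstance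
  have hPle : (P : Subgroup A) ≤ (A ⊓ Subgroup.centralizer (H : Set G)).subgroupOf A := by
    intro x hx
    rw [Subgroup.mem_subgroupOf]
    refine ⟨x.2, ?_⟩
    obtain ⟨j, hj⟩ := key x.1 x.2 0
    rw [hc0] at hj
    obtain ⟨k, hk⟩ := P.2 ⟨x, hx⟩
    have hk' : (x : G) ^ (p ^ k) = 1 := by
      have := congrArg (fun y : (P : Subgroup A) => ((y : A) : G)) hk
      simpa using this
    have hcop : Nat.Coprime (Nat.card H ^ j) (p ^ k) := by
      apply Nat.Coprime.pow
      exact ((Nat.Prime.coprime_iff_not_dvd hp).2 hpH).symm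
    -- x = (x^(N^j))^u for some u
    have hord : Nat.Coprime (orderOf (x : G)) (Nat.card H ^ j) :=
      Nat.Coprime.coprime_dvd_left (orderOf_dvd_of_pow_eq_one hk') hcop.symm
    obtain ⟨u, hu⟩ := exists_pow_eq_self_of_coprime hord.symm
    rw [← hu]
    exact Subgroup.pow_mem _ hj _
  have h1 : ((A ⊓ Subgroup.centralizer (H : Set G)).subgroupOf A).index ∣ (P : Subgroup A).index :=
    Subgroup.index_dvd_of_le hPle
  exact P.not_dvd_index (hdvd.trans h1)

end Cfsg.Agent.S1441
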