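import Cfsg.Statements.S1442
import Cfsg.Agent.Lib.Helper24.Basic

set_option autoImplicit false
open Cfsg

namespace Cfsg.Agent.S1442

/-- Let G be a finite group, H a nilpotent subgroup and A a subgroup normalizing H with the orders of A and H coprime. Put C = H ∩ C_G(A). If H ∩ C_G(C) ≤ C then A centralizes H. -/
theorem result {G : Type*} [Group G] [Finite G] (H A : Subgroup G) (hH : Group.IsNilpotent H) (hA : (A ≤ Subgroup.normalizer (H : Set G))) (hcop : (Nat.card A).Coprime (Nat.card H))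
    (hC : H ⊓ Subgroup.centralizer (((H ⊓ Subgroup.centralizer (A : Set G)) : Subgroup G) : Set G) ≤ (H ⊓ Subgroup.centralizer (A : Set G))) :
    A ≤ Subgroup.centralizer (H : Set G) := by
  classical
  set C := H ⊓ Subgroup.centralizer (A : Set G) with hCdef
  by_cases hCH : C = H
  · have : H ≤ Subgroup.centralizer (A : Set G) := hCH ▸ inf_le_right
    exact Subgroup.le_centralizer_iff.1 this
  exfalso
  have hlt : C < H := lt_of_le_of_ne inf_le_left hCH
  obtain ⟨x, hxH, hxN, hxC⟩ := Lib.Helper24.exists_mem_normalizer_not_mem hH hlt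
  set N := H ⊓ Subgroup.normalizer (C : Set G) with hNdef
  have hCA : ⁅C, A⁆ = ⊥ := Subgroup.commutator_eq_bot_iff_le_centralizer.2 inf_le_right
  have hAC : A ≤ Subgroup.normalizer (C : Set G) := by
    rw [Subgroup.le_normalizer_iff_commutator_le_left, hCA]; exact bot_le
  have hAN : A ≤ Subgroup.normalizer (N : Set G) := by
    refine le_trans ?_ Subgroup.inf_normalizer_le_normalizer_inf
    refine le_inf hA ?_
    exact hAC.trans Subgroup.le_normalizer
  have h1 : ⁅⁅A, C⁆, N⁆ = ⊥ := by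
    rw [Subgroup.commutator_comm A C, hCA, Subgroup.commutator_bot_left]
  have h2 : ⁅⁅C, N⁆, A⁆ = ⊥ := by
    have : ⁅C, N⁆ ≤ C := Subgroup.le_normalizer_iff_commutator_le_left.1 inf_le_right
    rw [eq_bot_iff, ← hCA]
    exact Subgroup.commutator_mono this le_rfl
  have h3 : ⁅⁅N, A⁆, C⁆ = ⊥ := Subgroup.commutator_commutator_eq_bot_of_rotate h1 h2
  have h4 : ⁅N, A⁆ ≤ C := by
    refine le_trans (le_inf ?_ ?_) hC
    · exact (Subgroup.le_normalizer_iff_commutator_le_left.1 hAN).trans inf_le_left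
    · exact Subgroup.commutator_eq_bot_iff_le_centralizer.1 h3
  have h5 : ⁅⁅N, A⁆, A⁆ = ⊥ := by
    rw [eq_bot_iff, ← hCA]
    exact Subgroup.commutator_mono h4 le_rfl
  have hcop' : (Nat.card A).Coprime (Nat.card N) :=
    Nat.Coprime.coprime_dvd_right (Subgroup.card_dvd_of_le inf_le_left) hcop
  have h6 : ⁅N, A⁆ = ⊥ := Lib.Helper24.commutator_eq_bot_of_coprime hAN hcop' h5
  have h7 : N ≤ Subgroup.centralizer (A : Set G) := Subgroup.commutator_eq_bot_iff_le_centralizer.1 h6
  exact hxC ⟨hxH, h7 ⟨hxH, hxN⟩⟩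

end Cfsg.Agent.S1442
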