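import Cfsg.Statements.S1451
import Cfsg.Agent.Lib.Helper24.Rank2Fitting

set_option autoImplicit false
open Cfsg
open Cfsg.Agent.Lib.Helper24

namespace Cfsg.Agent.S1451

/-- Let G be a solvable group of odd order such that G, or its Fitting subgroup, has no elementary abelian subgroup of order q ^ 3 for any prime q. Then G' is nilpotent; for every Sylow subgroup S of G, every characteristic subgroup T of S with T ≤ [S, S] is normal in G; and for every prime p, G has a characteristic subgroup that is a Hall subgroup for the set of primes greater than p. -/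
theorem result {G : Type*} [Group G] [Finite G] [Group.IsSolvable G] (hodd : Odd (Nat.card G)) (hr : Cfsg.RankLE 2 G ∨ Cfsg.RankLE 2 (Cfsg.fittingSubgroup G)) :
    Group.IsNilpotent ↥(commutator G) ∧
      (∀ (q : ℕ) [Fact q.Prime] (S : Sylow q G) (T : Subgroup ↥(S : Subgroup G)), T.Characteristic → T.map (S : Subgroup G).subtype ≤ ⁅(S : Subgroup G), (S : Subgroup G)⁆ →
        (T.map (S : Subgroup G).subtype).Normal) ∧
      ∀ p : ℕ, ∃ N : Subgroup G, N.Characteristic ∧ Cfsg.IsPiHall {q | q.Prime ∧ p < q} N := by
  have hrank : ∀ p : ℕ, p.Prime → ∀ F : Subgroup G, F ≤ Cfsg.pCore p G → IsMulCommutative F →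
      (∀ a ∈ F, a ^ p = 1) → Nat.card F ≤ p ^ 2 := by
    intro p hp F hF
    haveI : Fact p.Prime := ⟨hp⟩
    rcases hr with h | h
    · exact h p hp F
    · exact rank_of_subtype (Cfsg.fittingSubgroup G) (h p hp) F
        (hF.trans (Cfsg.Agent.Lib.Helper1.pCore_le_fittingSubgroup p))
  have hDF := commutator_le_fitting_of_rank2 hodd hrank
  refine ⟨?_, ?_, ?_⟩
  · haveI : Group.IsNilpotent (Cfsg.fittingSubgroup G) :=
      Cfsg.Agent.Lib.Helper1.fittingSubgroup_isNilpotent
    exact Group.nilpotent_of_mulEquiv (Subgroup.subgroupOfEquivOfLe hDF)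
  · intro q _ S T hTc hT
    exact normal_of_char_le_commutator_sylow hDF q S T hT
  · exact exists_char_hall_of_rank2 hodd hrank

end Cfsg.Agent.S1451
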