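import Cfsg.Statements.S1454
import Cfsg.Agent.Lib.Helper24.Rank2Cube
import Cfsg.Agent.Lib.Helper24.NarrowSolv

set_option autoImplicit false
set_option linter.style.haveILetI false
open Cfsg
open Cfsg.Agent.Lib.Helper24

namespace Cfsg.Agent.S1454

/-- Let G be a finite group, p an odd prime, R a narrow p-subgroup and A a solvable subgroup of odd order normalizing R with A ∩ C_G(R) = 1. Then [A, A] ≤ O_p(A) and the index of O_p(A) in A is coprime to p; if R has an elementary abelian subgroup of order p ^ 3 then the order of every element of A of order coprime to p divides p − 1; and if the order of A is a prime not dividing p(p − 1), then 2·#A divides p + 1, and if in addition [R, A] = R and R is non-abelian then #R = p ^ 3. -/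
theorem result {G : Type*} [Group G] [Finite G] (p : ℕ) [Fact p.Prime] (hp : p ≠ 2) (R A : Subgroup G) (hR : IsPGroup p R) (hRn : Cfsg.IsNarrow p R)
    (hA : (A ≤ Subgroup.normalizer (R : Set G))) (hAs : Group.IsSolvable A) (hAodd : Odd (Nat.card A)) (hfaith : A ⊓ Subgroup.centralizer (R : Set G) = ⊥) :
    (commutator ↥A ≤ Cfsg.pCore p ↥A ∧ ((Cfsg.pCore p ↥A).index).Coprime p) ∧
      (¬ Cfsg.PRankLE p 2 R → ∀ a ∈ A, (orderOf a).Coprime p → orderOf a ∣ p - 1) ∧
      ((Nat.card A).Prime → ¬ Nat.card A ∣ p * (p - 1) →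
        2 * Nat.card A ∣ p + 1 ∧ (⁅R, A⁆ = R → ¬ IsMulCommutative R → Nat.card R = p ^ 3)) := by
  have hpp : p.Prime := Fact.out
  have htriv : ∀ x ∈ A, x ∈ Subgroup.centralizer (R : Set G) → x = 1 := by
    intro x hx hxc
    have h1 : x ∈ A ⊓ Subgroup.centralizer (R : Set G) := ⟨hx, hxc⟩
    rw [hfaith] at h1
    exact Subgroup.mem_bot.1 h1
  have hcomm : ∀ x ∈ ⁅A, A⁆, ∃ k : ℕ, x ^ p ^ k = 1 := by
    intro x hx
    have hxA : x ∈ A := commutator_self_le A hx
    by_cases hr : Cfsg.PRankLE p 2 R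
    · obtain ⟨k, hk⟩ := rank2_commutator p hp R A hR (rank_of_subtype _ hr) hA hAodd hAs x hx
      exact ⟨k, htriv _ (A.pow_mem hxA _) hk⟩
    · obtain ⟨k, hk⟩ := (narrow_unipotent p hp R A hR hA
        (exists_narrow_data_of_isNarrow p hp hR hRn hr)).2 x (commutator_le_sharp p A hx)
      exact ⟨k, htriv _ (A.pow_mem hxA _) hk⟩
  have part2 : ¬ Cfsg.PRankLE p 2 R → ∀ a ∈ A, (orderOf a).Coprime p → orderOf a ∣ p - 1 := by
    intro hr a ha hcop
    apply orderOf_dvd_of_pow_eq_one
    apply htriv _ (A.pow_mem ha _)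
    apply (narrow_unipotent p hp R A hR hA
      (exists_narrow_data_of_isNarrow p hp hR hRn hr)).1 _ (pow_mem_sharp p A ha)
    exact Nat.Coprime.coprime_dvd_left (orderOf_pow_dvd _) hcop
  refine ⟨?_, part2, ?_⟩
  · have hPG : IsPGroup p (commutator ↥A) := by
      intro y
      have h1 : ((y : A) : G) ∈ ⁅A, A⁆ := by
        rw [← Subgroup.map_subtype_commutator]
        exact ⟨y, y.2, rfl⟩
      obtain ⟨k, hk⟩ := hcomm _ h1
      exact ⟨k, Subtype.ext (Subtype.ext hk)⟩
    have h1 : commutator ↥A ≤ Cfsg.pCore p ↥A := Cfsg.Agent.Lib.Lead.le_pCore inferInstance hPG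
    refine ⟨h1, ?_⟩
    let P : Sylow p ↥A := default
    have hRP : Cfsg.pCore p ↥A ≤ P := Cfsg.Agent.Lib.Lead.pCore_le_sylow P
    have hPn : (P : Subgroup ↥A).Normal := Subgroup.Normal.of_commutator_le ↥A (h1.trans hRP)
    have hPR : (P : Subgroup ↥A) ≤ Cfsg.pCore p ↥A := Cfsg.Agent.Lib.Lead.le_pCore hPn P.2
    have hEq : Cfsg.pCore p ↥A = P := le_antisymm hRP hPR
    rw [hEq]
    exact ((Nat.Prime.coprime_iff_not_dvd hpp).2 P.not_dvd_index).symm
  · intro hq hqn
    set q := Nat.card A with hqdef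
    have hqp : q ≠ p := by
      intro h
      exact hqn (h ▸ Dvd.intro _ rfl)
    have hqp1 : ¬ q ∣ p - 1 := fun h => hqn (Dvd.dvd.mul_left h p)
    have hcopp : q.Coprime p := (Nat.coprime_primes hq hpp).2 hqp
    have hcopp1 : q.Coprime (p - 1) := (Nat.Prime.coprime_iff_not_dvd hq).2 hqp1
    have hAbot : A ≠ ⊥ := by
      intro h
      have h1 : Nat.card A = 1 := Subgroup.card_eq_one.2 h
      rw [← hqdef] at h1
      exact hq.one_lt.ne' h1
    obtain ⟨a, ha, ha1⟩ := (Subgroup.ne_bot_iff_exists_ne_one).1 hAbot |>.elim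
      (fun a h => (⟨(a : G), a.2, fun h1 => h (Subtype.ext h1)⟩ : ∃ a ∈ A, a ≠ 1))
    have haq : a ^ q = 1 := by
      have h1 : (⟨a, ha⟩ : A) ^ Nat.card A = 1 := pow_card_eq_one'
      exact congrArg Subtype.val h1
    haveI : Fact q.Prime := ⟨hq⟩
    have hord : orderOf a = q := orderOf_eq_prime haq ha1
    have hzA : Subgroup.zpowers a = A :=
      Subgroup.eq_of_le_of_card_ge (Subgroup.zpowers_le.2 ha) (by rw [Nat.card_zpowers, hord])
    have hr : Cfsg.PRankLE p 2 R := by
      by_contra hr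
      have h1 := part2 hr a ha (by rw [hord]; exact hcopp)
      rw [hord] at h1
      exact hqp1 h1
    have hrank := rank_of_subtype _ hr
    have haC : a ∉ Subgroup.centralizer (R : Set G) := fun h => ha1 (htriv a ha h)
    constructor
    · have h1 := rank2_prime p hp R hR hrank a (hA ha) q hq hqp haq haC
      have e1 : p ^ 2 - 1 = (p + 1) * (p - 1) := by
        have := Nat.sq_sub_sq p 1
        rwa [one_pow] at this
      have e2 : p ^ 2 - p = p * (p - 1) := by
        rw [Nat.mul_sub, mul_one, sq]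
      rw [e1, e2] at h1
      have h2 : q ∣ p + 1 := by
        rcases (Nat.Prime.dvd_mul hq).1 h1 with h | h
        · rcases (Nat.Prime.dvd_mul hq).1 h with h | h
          · exact h
          · exact absurd h hqp1
        · exact absurd h hqn
      have h3 : 2 ∣ p + 1 := by
        have := hpp.odd_of_ne_two hp
        obtain ⟨m, hm⟩ := this
        exact ⟨m + 1, by omega⟩
      have h4 : Nat.Coprime 2 q := by
        rw [Nat.coprime_two_left]
        exact hAodd
      exact Nat.Coprime.mul_dvd_of_dvd_of_dvd h4 h3 h2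
    · intro hRA hnc
      apply rank2_coprime_cube p hp R hR hrank a (hA ha) q hcopp1 hcopp haq (by rw [hzA]; exact hRA)
      intro h
      exact hnc (Subgroup.le_centralizer_iff_isMulCommutative.1 h)

end Cfsg.Agent.S1454
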