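import Cfsg.Statements.S1455
import Cfsg.Agent.Lib.Helper24.NarrowSolv
import Cfsg.Agent.S1450

set_option autoImplicit false
set_option linter.style.haveILetI false
open Cfsg
open Cfsg.Agent.Lib.Helper24

namespace Cfsg.Agent.S1455

/-- Let G be a solvable group of odd order, p a prime dividing its order, and S a Sylow p-subgroup of G that is narrow; if S has an elementary abelian subgroup of order p ^ 3 assume also G = O_{p',p,p'}(G). Then every prime dividing the index of O_{p'}(G) is at most p; if p = 3 or p is the smallest prime divisor of #G then G has a normal p-complement; G' has a normal p-complement; every subgroup of G' of order coprime to p lies in O_{p'}(G'); and G' ≤ O_{p',p}(G) with the index of O_{p',p}(G) coprime to p. -/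
theorem result {G : Type*} [Group G] [Finite G] [Group.IsSolvable G] (hodd : Odd (Nat.card G)) (p : ℕ) [Fact p.Prime] (hpG : p ∣ Nat.card G) (S : Sylow p G) (hS : Cfsg.IsNarrow p ↥(S : Subgroup G))
    (hpl : ¬ Cfsg.PRankLE p 2 ↥(S : Subgroup G) → Cfsg.PLengthLE p 1 G) :
    (∀ q : ℕ, q.Prime → q ∣ (Cfsg.pPrimeCore p G).index → q ≤ p) ∧
      ((p = 3 ∨ ∀ q : ℕ, q.Prime → q ∣ Nat.card G → p ≤ q) → Cfsg.HasNormalPComplement p G) ∧
      Cfsg.HasNormalPComplement p ↥(commutator G) ∧
      (∀ L : Subgroup ↥(commutator G), (Nat.card L).Coprime p → L ≤ Cfsg.pPrimeCore p ↥(commutator G)) ∧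
      commutator G ≤ Cfsg.pPrimePCore p G ∧ ((Cfsg.pPrimePCore p G).index).Coprime p := by
  have hp : p.Prime := Fact.out
  have hp2 : p ≠ 2 := by
    rintro rfl
    exact (Nat.not_even_iff_odd.2 hodd) (even_iff_two_dvd.2 hpG)
  by_cases hrS : Cfsg.PRankLE p 2 ↥(S : Subgroup G)
  · exact Cfsg.Agent.S1450.result hodd p hpG (pRankLE_of_sylow p 2 S hrS)
  have hidx := index_pPrimePCore_coprime_of_pLengthLE_one p (hpl hrS)
  set K := Cfsg.pPrimeCore p G with hKdef
  have hKcop : (Nat.card K).Coprime p := Cfsg.Agent.Lib.Lead.card_pPrimeCore_coprime p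
  have hcore : Cfsg.pPrimeCore p (G ⧸ K) = ⊥ := Cfsg.Agent.Lib.Lead.pPrimeCore_quotient_pPrimeCore p G
  haveI hMn : (Cfsg.pPrimePCore p G).Normal := Subgroup.Normal.comap inferInstance _
  have hSM : (S : Subgroup G) ≤ Cfsg.pPrimePCore p G := by
    intro s hs
    apply mem_of_mem_normalizer_of_coprime_index _ s (by rw [Subgroup.normalizer_eq_top]; trivial)
    obtain ⟨k, hk⟩ := S.2 ⟨s, hs⟩
    have h1 : s ^ p ^ k = 1 := congrArg Subtype.val hk
    exact Nat.Coprime.of_dvd_right (orderOf_dvd_of_pow_eq_one h1) (Nat.Coprime.pow_right k hidx)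
  have hReq : Cfsg.pCore p (G ⧸ K) = (S : Subgroup G).map (QuotientGroup.mk' K) := by
    apply le_antisymm
    · have h1 := Cfsg.Agent.Lib.Lead.pCore_le_sylow
        (Sylow.mapSurjective (QuotientGroup.mk'_surjective K) S)
      rwa [Sylow.coe_mapSurjective] at h1
    · rw [Subgroup.map_le_iff_le_comap]; exact hSM
  have hinj : Function.Injective ((QuotientGroup.mk' K).subgroupMap (S : Subgroup G)) := by
    rw [injective_iff_map_eq_one]
    intro s hs
    have h1 : QuotientGroup.mk' K (s : G) = 1 := congrArg Subtype.val hs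
    have h2 : (s : G) ∈ K := (QuotientGroup.eq_one_iff _).1 h1
    have hdisj : Disjoint (S : Subgroup G) K := by
      apply Subgroup.disjoint_of_coprime_natCard
      obtain ⟨i, hi⟩ := IsPGroup.iff_card.1 S.2
      rw [hi]
      exact (Nat.Coprime.pow_right i hKcop).symm
    have h3 : (s : G) ∈ (S : Subgroup G) ⊓ K := ⟨s.2, h2⟩
    rw [hdisj.eq_bot, Subgroup.mem_bot] at h3
    exact Subtype.ext h3
  let e : ↥(S : Subgroup G) ≃* ↥(Cfsg.pCore p (G ⧸ K)) :=
    (MulEquiv.ofBijective _ ⟨hinj, MonoidHom.subgroupMap_surjective _ _⟩).trans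
      (MulEquiv.subgroupCongr hReq.symm)
  have hdata := narrow_data_of_mulEquiv e p (exists_narrow_data_of_isNarrow p hp2 S.2 hS hrS)
  obtain ⟨h1, h2, h3⟩ := narrow_solvable_core p hp2 hcore hdata
  exact pstructure_of_core hodd p h1 h2 h3

end Cfsg.Agent.S1455
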