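import Cfsg.Statements.S1456
import Cfsg.Agent.Lib.Helper24.NarrowData

set_option autoImplicit false
set_option linter.style.haveILetI false
open Cfsg
open Cfsg.Agent.Lib.Helper24

namespace Cfsg.Agent.S1456

/-- Let G be a solvable group of odd order, p a prime, and E an elementary abelian p-subgroup of the Fitting subgroup F(G) such that F(G) ∩ C_G(E) has no elementary abelian subgroup of order q ^ 3 for any prime q. Then the derived subgroup of G is contained in F(G). -/
theorem result {G : Type*} [Group G] [Finite G] [Group.IsSolvable G] (hodd : Odd (Nat.card G)) (p : ℕ) [Fact p.Prime] (E : Subgroup G) (hE : E ≤ Cfsg.fittingSubgroup G) (hEe : Cfsg.IsElementaryAbelian p E)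
    (hr : Cfsg.RankLE 2 ↥(Cfsg.fittingSubgroup G ⊓ Subgroup.centralizer (E : Set G))) :
    commutator G ≤ Cfsg.fittingSubgroup G := by
  have hp : p.Prime := Fact.out
  have hEP : E ≤ Cfsg.pCore p G := fun e he =>
    mem_pCore_of_mem_fitting p e (hE he) 1 (by rw [pow_one]; exact hEe.2 e he)
  have hrk : ∀ q : ℕ, q.Prime → ∀ B : Subgroup G,
      B ≤ Cfsg.fittingSubgroup G ⊓ Subgroup.centralizer (E : Set G) → IsMulCommutative B →
      (∀ a ∈ B, a ^ q = 1) → Nat.card B ≤ q ^ 2 := fun q hq => rank_of_subtype _ (hr q hq)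
  apply commutator_le_fitting_of_unipotent
  intro q hq x hx
  haveI : Fact q.Prime := ⟨hq⟩
  have hPF : Cfsg.pCore q G ≤ Cfsg.fittingSubgroup G := Cfsg.Agent.Lib.Helper1.pCore_le_fittingSubgroup q
  have hPp : IsPGroup q (Cfsg.pCore q G) := Cfsg.Agent.Lib.Lead.pCore_isPGroup q G
  have hNtop : (⊤ : Subgroup G) ≤ Subgroup.normalizer (Cfsg.pCore q G : Set G) := by
    rw [Subgroup.normalizer_eq_top]
  have hoddtop : Odd (Nat.card (⊤ : Subgroup G)) := by
    rw [Nat.card_congr Subgroup.topEquiv.toEquiv]; exact hodd
  by_cases hq2 : q = 2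
  · subst hq2
    refine ⟨0, ?_⟩
    rw [pCore_two_eq_bot hodd, Subgroup.coe_bot, Subgroup.centralizer_eq_top_iff_subset.2]
    · trivial
    · intro y hy
      rw [Set.mem_singleton_iff.1 hy]; exact Subgroup.one_mem _
  by_cases hqp : q = p
  · subst hqp
    by_cases hrP : Cfsg.PRankLE q 2 ↥(Cfsg.pCore q G)
    · exact rank2_commutator q hq2 (Cfsg.pCore q G) ⊤ hPp (rank_of_subtype _ hrP) hNtop hoddtop
        inferInstance x hx
    · have hEc := hEe.1
      have hdata := exists_narrow_data_of_bound q hq2 hPp hrP (E.subgroupOf (Cfsg.pCore q G))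
        ⟨Subgroup.subgroupOf_isMulCommutative _ _, fun a ha => Subtype.ext (hEe.2 a ha)⟩
        (by
          intro B hB hEB
          have hBc := hB.1
          have h1 := hrk q hq (B.map (Cfsg.pCore q G).subtype)
            (by
              rintro _ ⟨b, hb, rfl⟩
              rw [Subgroup.mem_inf]
              refine ⟨hPF b.2, ?_⟩
              rw [Subgroup.mem_centralizer_iff]
              intro e he
              have heB : (⟨e, hEP he⟩ : Cfsg.pCore q G) ∈ B := hEB he
              exact congrArg Subtype.val (congrArg Subtype.val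
                (hB.1.is_comm.comm ⟨_, heB⟩ ⟨b, hb⟩)))
            inferInstance
            (by
              rintro _ ⟨b, hb, rfl⟩
              exact congrArg Subtype.val (hB.2 b hb))
          rwa [Subgroup.card_map_of_injective (Cfsg.pCore q G).subtype_injective] at h1)
      exact (narrow_unipotent q hq2 (Cfsg.pCore q G) ⊤ hPp hNtop hdata).2 x
        (commutator_le_sharp q ⊤ hx)
  · refine rank2_commutator q hq2 (Cfsg.pCore q G) ⊤ hPp ?_ hNtop hoddtop inferInstance x hx
    intro B hB
    apply hrk q hq B
    refine le_inf (hB.trans hPF) (hB.trans ?_)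
    exact (pCore_le_centralizer_pCore hq hp hqp).trans (Subgroup.centralizer_le hEP)

end Cfsg.Agent.S1456
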