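import Cfsg.Statements.S1465
import Cfsg.Agent.S1457

set_option autoImplicit false
open Cfsg

namespace Cfsg.Agent.S1465

open Cfsg.Agent.Lib.Helper34 Cfsg.Agent.Lib.Lead

/-- If `O_{p'}(G) = 1`, `G` solvable and `C_{O_p(G)}(P) ≤ P` for the normal `p`-subgroup `P`, then `C_G(P)` is a `p`-group. -/
theorem isPGroup_centralizer {G : Type*} [Group G] [Finite G] [Group.IsSolvable G] (p : ℕ) [Fact p.Prime]
    (P : Subgroup G) [P.Normal] (hO : pPrimeCore p G = ⊥)
    (hc : pCore p G ⊓ Subgroup.centralizer (P : Set G) ≤ P) :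
    IsPGroup p (Subgroup.centralizer (P : Set G)) := by
  set C := Subgroup.centralizer (P : Set G) with hC
  have hCn : C.Normal := inferInstance
  have h1 : pPrimeCore p ↥C = ⊥ := by
    have h2 := pPrimeCore_normal_subgroup_le (p := p) C
    rw [hO, le_bot_iff, Subgroup.map_eq_bot_iff_of_injective _ C.subtype_injective] at h2
    exact h2
  have h3 := Cfsg.Agent.Lib.Helper24.centralizer_pCore_le_of_solvable (H := ↥C) p h1
  have h4 : Subgroup.centralizer (pCore p ↥C : Set ↥C) = ⊤ := by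
    rw [eq_top_iff]
    intro c _
    rw [Subgroup.mem_centralizer_iff]
    intro x hx
    have hx' : (x : G) ∈ pCore p G ⊓ C := by
      rw [← pCore_normal_subgroup_eq]
      exact ⟨x, hx, rfl⟩
    have hxP : (x : G) ∈ P := hc hx'
    exact Subtype.ext (Subgroup.mem_centralizer_iff.mp c.2 x hxP)
  rw [h4, top_le_iff] at h3
  exact pCore_eq_top_iff.mp h3

/-- For p odd and G solvable of odd order with a normal p-subgroup P: a subgroup X generated by abelian p-subgroups each normalized by P has image in O_p(G/C_G(P)); and if O_{p'}(G) = 1 and C_{O_p(G)}(P) ≤ P then X ≤ O_p(G). -/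
theorem result {G : Type*} [Group G] [Finite G] [Group.IsSolvable G] (hodd : Odd (Nat.card G)) (p : ℕ) [Fact p.Prime] (hp : p ≠ 2) (P : Subgroup G) [P.Normal] (hP : IsPGroup p P)
    (S : Set (Subgroup G)) (hS : ∀ B ∈ S, IsMulCommutative B ∧ IsPGroup p B ∧ P ≤ Subgroup.normalizer (B : Set G)) :
    (sSup S).map (QuotientGroup.mk' (Subgroup.centralizer (P : Set G))) ≤ Cfsg.pCore p (G ⧸ Subgroup.centralizer (P : Set G)) ∧
      (Cfsg.pPrimeCore p G = ⊥ → Cfsg.pCore p G ⊓ Subgroup.centralizer (P : Set G) ≤ P → sSup S ≤ Cfsg.pCore p G) := by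
  have hst : QStable p G := (abSylTwo_of_odd hodd).qStable hp
  have h1 : (sSup S).map (QuotientGroup.mk' (Subgroup.centralizer (P : Set G))) ≤
      Cfsg.pCore p (G ⧸ Subgroup.centralizer (P : Set G)) := by
    rw [Subgroup.map_le_iff_le_comap]
    apply sSup_le
    intro B hB b hb
    obtain ⟨hBc, -, hPB⟩ := hS B hB
    rw [Subgroup.mem_comap]
    refine hst.mk_mem_pCore P hP b (Cfsg.Agent.S1457.quadOn_of_abelian_normal (A := B) ?_ hPB hb)
    intro x hx y hy
    exact congrArg Subtype.val (hBc.is_comm.comm ⟨x, hx⟩ ⟨y, hy⟩)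
  refine ⟨h1, fun hO hc => ?_⟩
  have hCp := isPGroup_centralizer p P hO hc
  rw [Subgroup.map_le_iff_le_comap] at h1
  refine h1.trans ?_
  apply le_pCore (Subgroup.Normal.comap inferInstance _)
  rintro ⟨d, hd⟩
  obtain ⟨k, hk⟩ := pCore_isPGroup p (G ⧸ Subgroup.centralizer (P : Set G)) ⟨_, hd⟩
  have h2 : (QuotientGroup.mk' (Subgroup.centralizer (P : Set G)) d) ^ p ^ k = 1 := congrArg Subtype.val hk
  rw [← map_pow] at h2
  have h3 : d ^ p ^ k ∈ Subgroup.centralizer (P : Set G) := (QuotientGroup.eq_one_iff _).mp h2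
  obtain ⟨j, hj⟩ := hCp ⟨_, h3⟩
  have h4 : (d ^ p ^ k) ^ p ^ j = 1 := congrArg Subtype.val hj
  refine ⟨k + j, Subtype.ext ?_⟩
  change d ^ p ^ (k + j) = 1
  rw [pow_add, pow_mul, h4]

end Cfsg.Agent.S1465
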