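import Cfsg.Statements.S1466
import Cfsg.Agent.S1467
import Cfsg.Agent.Lib.Helper25.SelfCentralizing

set_option autoImplicit false
open Cfsg

namespace Cfsg.Agent.S1466

theorem centralizer_puigStep_le {R : Type*} [Group R] [Finite R] [Group.IsNilpotent R]
    (X : Subgroup R) :
    Subgroup.centralizer ((puigStep X : Subgroup R) : Set R) ≤ puigStep X := by
  obtain ⟨A, hAn, hAc, hA⟩ := Cfsg.Agent.Lib.Helper25.exists_normal_abelian_selfCentralizing (R := R)
  have hAX : A ≤ puigStep X := by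
    unfold puigStep
    apply le_sSup
    refine ⟨hAc, ?_⟩
    rw [Subgroup.normalizer_eq_top_iff.2 hAn]
    exact le_top
  exact (Subgroup.centralizer_le hAX).trans (hA.trans hAX)

theorem result {R : Type*} [Group R] [Finite R] (p : ℕ) [Fact p.Prime] (hR : IsPGroup p R) [Nontrivial R] :
    (∀ i : ℕ, 0 < i → Subgroup.center R ≤ Subgroup.centralizer ((Cfsg.puigSeq R i : Subgroup R) : Set R) ∧
        Subgroup.centralizer ((Cfsg.puigSeq R i : Subgroup R) : Set R) ≤ Cfsg.puigSeq R i) ∧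
      (Subgroup.center R ≤ Subgroup.centralizer ((Cfsg.puigLower R : Subgroup R) : Set R) ∧ Subgroup.centralizer ((Cfsg.puigLower R : Subgroup R) : Set R) ≤ Cfsg.puigLower R) ∧
      (Subgroup.center R ≤ Subgroup.centralizer ((Cfsg.puigSubgroup R : Subgroup R) : Set R) ∧ Subgroup.centralizer ((Cfsg.puigSubgroup R : Subgroup R) : Set R) ≤ Cfsg.puigSubgroup R) ∧
      Cfsg.puigSubgroup R ≠ ⊥ ∧ Cfsg.puigLower R ≠ ⊥ := by
  haveI : Group.IsNilpotent R := hR.isNilpotent
  have hseq : ∀ i : ℕ, 0 < i →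
      Subgroup.centralizer ((Cfsg.puigSeq R i : Subgroup R) : Set R) ≤ Cfsg.puigSeq R i := by
    intro i hi
    obtain ⟨j, rfl⟩ := Nat.exists_eq_succ_of_ne_zero hi.ne'
    exact centralizer_puigStep_le (puigSeq R j)
  obtain ⟨-, -, -, ⟨k, hk⟩, -, -, -⟩ := Cfsg.Agent.S1467.result (G := R)
  have h1 := (hk (k + 1) (Nat.le_succ k)).1
  have h2 := (hk (k + 1) (Nat.le_succ k)).2
  have hlow : Subgroup.centralizer ((Cfsg.puigLower R : Subgroup R) : Set R) ≤ Cfsg.puigLower R := by
    rw [← h1]; exact hseq _ (by omega)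
  have hsub : Subgroup.centralizer ((Cfsg.puigSubgroup R : Subgroup R) : Set R) ≤ Cfsg.puigSubgroup R := by
    rw [← h2]; exact hseq _ (by omega)
  have hne : ∀ L : Subgroup R, Subgroup.centralizer (L : Set R) ≤ L → L ≠ ⊥ := by
    intro L hL h
    rw [h] at hL
    have : (⊤ : Subgroup R) ≤ ⊥ := by
      refine le_trans ?_ hL
      intro x _
      rw [Subgroup.mem_centralizer_iff]
      intro y hy
      rw [SetLike.mem_coe, Subgroup.mem_bot] at hy
      simp [hy]
    exact bot_ne_top (le_antisymm bot_le this)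
  exact ⟨fun i hi => ⟨Subgroup.center_le_centralizer _, hseq i hi⟩,
    ⟨Subgroup.center_le_centralizer _, hlow⟩, ⟨Subgroup.center_le_centralizer _, hsub⟩,
    hne _ hsub, hne _ hlow⟩

end Cfsg.Agent.S1466
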