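import Cfsg.Statements.S1468
import Cfsg.Agent.Lib.Helper34.Puig
import Cfsg.Agent.Lib.Lead.Cores
import Cfsg.Agent.S1465

set_option autoImplicit false
open Cfsg

namespace Cfsg.Agent.S1468

open Cfsg.Agent.Lib.Helper34 Cfsg.Agent.Lib.Lead

theorem lseq_compare {G : Type*} [Group G] [Finite G] [Group.IsSolvable G] (hodd : Odd (Nat.card G))
    (p : ℕ) [Fact p.Prime] (hp : p ≠ 2) (hO : Cfsg.pPrimeCore p G = ⊥) (S : Sylow p G) (n : ℕ) :
    lseq (S : Subgroup G) (2 * n) ≤ lseq (pCore p G) (2 * n) ∧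
      lseq (pCore p G) (2 * n + 1) ≤ lseq (S : Subgroup G) (2 * n + 1) := by
  have hTS : pCore p G ≤ S := pCore_le_sylow S
  have stepA : ∀ n, lseq (S : Subgroup G) (2 * n) ≤ lseq (pCore p G) (2 * n) →
      lseq (pCore p G) (2 * n + 1) ≤ lseq (S : Subgroup G) (2 * n + 1) := by
    intro n h
    exact (lstep_anti _ h).trans (lstep_mono hTS _)
  induction n with
  | zero => exact ⟨le_refl _, stepA 0 (le_refl _)⟩
  | succ n ih =>
    have h1 : lseq (S : Subgroup G) (2 * (n + 1)) ≤ lseq (pCore p G) (2 * (n + 1)) := by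
      have e1 : lseq (S : Subgroup G) (2 * (n + 1)) = lstep S (lseq (S : Subgroup G) (2 * n + 1)) := rfl
      have e2 : lseq (pCore p G) (2 * (n + 1)) = lstep (pCore p G) (lseq (pCore p G) (2 * n + 1)) := rfl
      rw [e1, e2]
      refine (lstep_anti _ ih.2).trans ?_
      set P := lseq (pCore p G) (2 * n + 1) with hPdef
      haveI : P.Normal := lseq_normal (pCore_normal' p G) _
      have hPp : IsPGroup p P := (pCore_isPGroup p G).to_le (lseq_le _ _)
      have key := (Cfsg.Agent.S1465.result hodd p hp P hPp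
        {A : Subgroup G | A ≤ S ∧ IsMulCommutative A ∧ P ≤ Subgroup.normalizer (A : Set G)}
        (fun B hB => ⟨hB.2.1, S.2.to_le hB.1, hB.2.2⟩)).2 hO
        (inf_centralizer_lseq_le (p := p) _ (pCore_isPGroup p G) _ (Nat.succ_pos _))
      refine sSup_le fun B hB => ?_
      exact le_lstep ((le_sSup hB).trans key) hB.2.1 hB.2.2
    exact ⟨h1, stepA _ h1⟩

/-- Let p be an odd prime, G a solvable group of odd order with O_{p'}(G) = 1, S a Sylow p-subgroup and T = O_p(G). Then, viewing the Puig subgroups of S and of T inside G, L_*(S) ≤ L_*(T) ≤ L(T) ≤ L(S). -/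
theorem result {G : Type*} [Group G] [Finite G] [Group.IsSolvable G] (hodd : Odd (Nat.card G)) (p : ℕ) [Fact p.Prime] (hp : p ≠ 2) (hO : Cfsg.pPrimeCore p G = ⊥) (S : Sylow p G) :
    (Cfsg.puigLower ↥(S : Subgroup G)).map (S : Subgroup G).subtype ≤ (Cfsg.puigLower ↥(Cfsg.pCore p G)).map (Cfsg.pCore p G).subtype ∧
      (Cfsg.puigLower ↥(Cfsg.pCore p G)).map (Cfsg.pCore p G).subtype ≤ (Cfsg.puigSubgroup ↥(Cfsg.pCore p G)).map (Cfsg.pCore p G).subtype ∧
      (Cfsg.puigSubgroup ↥(Cfsg.pCore p G)).map (Cfsg.pCore p G).subtype ≤ (Cfsg.puigSubgroup ↥(S : Subgroup G)).map (S : Subgroup G).subtype := by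
  refine ⟨?_, Subgroup.map_mono Cfsg.Agent.S1467.result.2.2.2.2.1, ?_⟩
  · rw [map_puigLower, map_puigLower]
    exact iSup_mono fun n => (lseq_compare hodd p hp hO S n).1
  · rw [map_puigSubgroup, map_puigSubgroup]
    exact iInf_mono fun n => (lseq_compare hodd p hp hO S n).2

end Cfsg.Agent.S1468
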