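import Cfsg.Statements.S1485
import Cfsg.Agent.Lib.Helper15.Clifford

set_option autoImplicit false
open Cfsg

namespace Cfsg.Agent.S1485

open Cfsg.Agent.Lib.Helper15

theorem result {G : Type*} [Group G] [Fintype G] (H : Subgroup G) [hN : H.Normal] (θ : H → ℂ) (hθ : Cfsg.IsIrrCharacter H θ) : (fun h : H => Cfsg.indFun H θ h) = ((Nat.card {g : G // ∀ h : H, θ ⟨g * h * g⁻¹, hN.conj_mem h h.2 g⟩ = θ h} : ℂ) / (Nat.card H : ℂ)) • ∑ᶠ ψ ∈ {ψ : H → ℂ | ∃ g : G, ψ = fun h : H => θ ⟨g * h * g⁻¹, hN.conj_mem h h.2 g⟩}, ψ := by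
  classical
  rw [restrict_indFun_normal]
  have hset : {ψ : H → ℂ | ∃ g : G, ψ = fun h : H => θ ⟨g * h * g⁻¹, hN.conj_mem h h.2 g⟩}
      = ↑(Finset.image (fun g : G => cj H g θ) Finset.univ) := by
    ext ψ
    simp only [Set.mem_setOf_eq, Finset.coe_image, Finset.coe_univ, Set.image_univ, Set.mem_range]
    constructor
    · rintro ⟨g, rfl⟩; exact ⟨g, rfl⟩
    · rintro ⟨g, rfl⟩; exact ⟨g, rfl⟩
  rw [hset, finsum_mem_coe_finset]
  have hcard : Nat.card {g : G // ∀ h : H, θ ⟨g * h * g⁻¹, hN.conj_mem h h.2 g⟩ = θ h}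
      = (Finset.univ.filter (fun x : G => cj H x θ = θ)).card := by
    rw [Nat.card_eq_fintype_card, Fintype.card_subtype]
    congr 1
    ext x
    simp only [Finset.mem_filter, Finset.mem_univ, true_and]
    constructor
    · intro h; funext y; exact h y
    · intro h y; exact congrFun h y
  have hsum : ∑ x : G, cj H x θ = ∑ ψ ∈ Finset.image (fun g : G => cj H g θ) Finset.univ,
      (Finset.univ.filter (fun x : G => cj H x θ = ψ)).card • ψ :=
    Finset.sum_comp (fun ψ : H → ℂ => ψ) (fun g : G => cj H g θ)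
  have hfib : ∀ ψ ∈ Finset.image (fun g : G => cj H g θ) Finset.univ,
      (Finset.univ.filter (fun x : G => cj H x θ = ψ)).card
        = (Finset.univ.filter (fun x : G => cj H x θ = θ)).card := by
    intro ψ hψ
    obtain ⟨g, -, rfl⟩ := Finset.mem_image.1 hψ
    apply Finset.card_bij (fun x _ => x * g⁻¹)
    · intro x hx
      simp only [Finset.mem_filter, Finset.mem_univ, true_and] at hx ⊢
      rw [← cj_cj, hx, cj_inv_cj]
    · intro a _ b _ hab
      exact mul_right_cancel hab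
    · intro b hb
      simp only [Finset.mem_filter, Finset.mem_univ, true_and] at hb
      refine ⟨b * g, ?_, by group⟩
      simp only [Finset.mem_filter, Finset.mem_univ, true_and]
      rw [← cj_cj, hb]
  rw [hsum, Finset.sum_congr rfl (fun ψ hψ => by rw [hfib ψ hψ]), ← Finset.smul_sum, hcard,
    ← Nat.cast_smul_eq_nsmul ℂ, smul_smul]
  congr 1
  rw [div_eq_mul_inv, mul_comm]

end Cfsg.Agent.S1485
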