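import Cfsg.Statements.S1488
import Cfsg.Agent.Lib.Helper15.Ind

set_option autoImplicit false
open Cfsg

namespace Cfsg.Agent.S1488

open Cfsg.Agent.Lib.Helper15

theorem sum_mk {G : Type*} [Group G] [Fintype G] (A : Subgroup G) [A.Normal] [Fintype (G ⧸ A)]
    (F : G ⧸ A → ℂ) : ∑ x : G, F (QuotientGroup.mk' A x) = (Nat.card A : ℂ) * ∑ q : G ⧸ A, F q := by
  classical
  rw [← Finset.sum_fiberwise Finset.univ (fun x : G => QuotientGroup.mk' A x), Finset.mul_sum]
  apply Finset.sum_congr rfl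
  intro q _
  have h1 : ∀ x ∈ Finset.univ.filter (fun x : G => QuotientGroup.mk' A x = q),
      F (QuotientGroup.mk' A x) = F q := by
    intro x hx
    rw [(Finset.mem_filter.1 hx).2]
  rw [Finset.sum_congr rfl h1, Finset.sum_const, nsmul_eq_mul]
  congr 2
  have h2 := QuotientGroup.card_preimage_mk A ({q} : Set (G ⧸ A))
  have h3 : Nat.card (({q} : Set (G ⧸ A)) : Type _) = 1 := by simp
  rw [h3, mul_one] at h2
  rw [← h2, Nat.card_eq_fintype_card, ← Fintype.card_subtype]
  apply Fintype.card_congr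
  exact Equiv.subtypeEquivRight (fun x => by simp)

theorem result {G : Type*} [Group G] [Fintype G] (A H : Subgroup G) [A.Normal] (hAH : A ≤ H) [Fintype (G ⧸ A)] [Fintype ↥(H.map (QuotientGroup.mk' A))] (θ : H → ℂ) (θ₁ : ↥(H.map (QuotientGroup.mk' A)) → ℂ) (hθ : ∀ x : H, θ₁ ⟨QuotientGroup.mk' A x, Subgroup.mem_map_of_mem _ x.2⟩ = θ x) (g : G) : Cfsg.indFun (H.map (QuotientGroup.mk' A)) θ₁ (QuotientGroup.mk' A g) = Cfsg.indFun H θ g := by
  classical
  have hmem : ∀ y : G, QuotientGroup.mk' A y ∈ H.map (QuotientGroup.mk' A) ↔ y ∈ H := by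
    intro y
    constructor
    · rintro ⟨z, hz, hzy⟩
      have h1 : z⁻¹ * y ∈ A := by
        rw [← QuotientGroup.eq]; exact hzy
      have h2 := H.mul_mem hz (hAH h1)
      rwa [mul_inv_cancel_left] at h2
    · intro hy; exact Subgroup.mem_map_of_mem _ hy
  have hext : ∀ y : G, extendByZero H θ y =
      extendByZero (H.map (QuotientGroup.mk' A)) θ₁ (QuotientGroup.mk' A y) := by
    intro y
    by_cases hy : y ∈ H
    · rw [extendByZero_mem H θ hy, extendByZero_mem _ θ₁ ((hmem y).2 hy)]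
      exact (hθ ⟨y, hy⟩).symm
    · rw [extendByZero_not_mem H θ hy, extendByZero_not_mem _ θ₁ (fun h => hy ((hmem y).1 h))]
  have hcard : Nat.card H = Nat.card A * Nat.card ↥(H.map (QuotientGroup.mk' A)) := by
    have h2 := QuotientGroup.card_preimage_mk A ((H.map (QuotientGroup.mk' A) : Subgroup (G ⧸ A)) : Set (G ⧸ A))
    rw [show Nat.card ↥(H.map (QuotientGroup.mk' A)) = Nat.card ((H.map (QuotientGroup.mk' A) : Subgroup (G ⧸ A)) : Set (G ⧸ A)) from rfl, ← h2]
    apply Nat.card_congr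
    exact Equiv.subtypeEquivRight (fun x => ((hmem x).symm))
  rw [indFun_apply, indFun_apply]
  have h1 : ∑ x : G, extendByZero H θ (x⁻¹ * g * x) = ∑ x : G,
      (fun q : G ⧸ A => extendByZero (H.map (QuotientGroup.mk' A)) θ₁
        (q⁻¹ * QuotientGroup.mk' A g * q)) (QuotientGroup.mk' A x) := by
    apply Finset.sum_congr rfl
    intro x _
    rw [hext]
    simp
  rw [h1, sum_mk A (fun q : G ⧸ A => extendByZero (H.map (QuotientGroup.mk' A)) θ₁
        (q⁻¹ * QuotientGroup.mk' A g * q)), hcard]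
  have hA : (Nat.card A : ℂ) ≠ 0 := card_ne_zero A
  have hHb : (Nat.card ↥(H.map (QuotientGroup.mk' A)) : ℂ) ≠ 0 := card_ne_zero _
  push_cast
  field_simp

end Cfsg.Agent.S1488
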