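import Cfsg.Statements.S1489
import Cfsg.Agent.Lib.Helper15.Clifford

set_option autoImplicit false
open Cfsg

namespace Cfsg.Agent.S1489

open Cfsg.Agent.Lib.Helper15

theorem result {G : Type*} [Group G] [Fintype G] (H T : Subgroup G) [hN : H.Normal] [Fintype T] (θ : H → ℂ) (hθ : Cfsg.IsIrrCharacter H θ) (hT : ∀ g : G, g ∈ T ↔ ∀ h : H, θ ⟨g * h * g⁻¹, hN.conj_mem h h.2 g⟩ = θ h) (hHT : H ≤ T) (ψ ψ' : T → ℂ) (hψ : Cfsg.IsIrrCharacter T ψ) (hψ' : Cfsg.IsIrrCharacter T ψ') (hc : Cfsg.classInner (Cfsg.indFun (H.subgroupOf T) (fun x => θ ⟨(x : T), Subgroup.mem_subgroupOf.mp x.2⟩)) ψ ≠ 0) (hc' : Cfsg.classInner (Cfsg.indFun (H.subgroupOf T) (fun x => θ ⟨(x : T), Subgroup.mem_subgroupOf.mp x.2⟩)) ψ' ≠ 0) : Cfsg.IsIrrCharacter G (Cfsg.indFun T ψ) ∧ (Cfsg.indFun T ψ = Cfsg.indFun T ψ' → ψ = ψ') := by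
  classical
  let _ : Fintype H := Fintype.ofFinite H
  have hT' : ∀ g : G, g ∈ T ↔ cj H g θ = θ := by
    intro g
    rw [hT g]
    constructor
    · intro h; funext x; exact h x
    · intro h x; exact congrFun h x
  obtain ⟨h1, h2, -, -⟩ := clifford_correspondence H hθ T hT' hHT
  have key : ∀ φ : T → ℂ, IsIrrCharacter T φ →
      Cfsg.classInner (Cfsg.indFun (H.subgroupOf T) (fun x => θ ⟨(x : T), Subgroup.mem_subgroupOf.mp x.2⟩)) φ ≠ 0 →
      classInner (resFun hHT φ) θ ≠ 0 := by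
    intro φ hφ h
    have e := classInner_indFun_downFun_left hHT θ φ (irr_cf hφ)
    have e2 : classInner (indFun (H.subgroupOf T) (downFun H T θ)) φ ≠ 0 := h
    rw [e, inner_comm_of_char (irr_char hθ) (char_resFun hHT (irr_char hφ))] at e2
    exact e2
  have hirr := h1 ψ hψ (key ψ hψ hc)
  refine ⟨hirr, ?_⟩
  intro heq
  by_contra hne
  have h3 := h2 ψ ψ' hψ hψ' (key ψ hψ hc) (key ψ' hψ' hc') hne
  rw [← heq, irr_inner_self hirr] at h3
  exact one_ne_zero h3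

end Cfsg.Agent.S1489
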