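import Cfsg.Statements.S1490
import Cfsg.Agent.Lib.Helper80.AbelianQuot
import Cfsg.Agent.Lib.Helper15.Clifford

set_option autoImplicit false
open Cfsg

namespace Cfsg.Agent.S1490

open Cfsg.Agent.Lib.Helper80 Cfsg.Agent.Lib.Helper15

/-- Let H be a normal subgroup of the finite group G, θ an irreducible character of H with inertia group T, and suppose the commutator of any two elements of T lies in H (T/H abelian). Then there are a positive integer e and a finite set C of irreducible characters of G with e ^ 2 * |C| * |H| = |T|, such that the function induced from θ is e times the sum of the members of C and every member of C has degree [G:T] * e * θ(1). -/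
theorem result {G : Type*} [Group G] [Fintype G] (H T : Subgroup G) [hN : H.Normal] (θ : H → ℂ) (hθ : Cfsg.IsIrrCharacter H θ) (hT : ∀ g : G, g ∈ T ↔ ∀ h : H, θ ⟨g * h * g⁻¹, hN.conj_mem h h.2 g⟩ = θ h) (hab : ∀ x ∈ T, ∀ y ∈ T, x * y * x⁻¹ * y⁻¹ ∈ H) : ∃ (e : ℕ) (C : Finset (G → ℂ)), 0 < e ∧ (∀ χ ∈ C, Cfsg.IsIrrCharacter G χ) ∧ e ^ 2 * C.card * Nat.card H = Nat.card T ∧ Cfsg.indFun H θ = (e : ℂ) • ∑ χ ∈ C, χ ∧ ∀ χ ∈ C, χ 1 = (T.index : ℂ) * e * θ 1 := by
  classical
  have := Fintype.ofFinite H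
  have := Fintype.ofFinite T
  have hT' : ∀ g : G, g ∈ T ↔ cj H g θ = θ := by
    intro g
    rw [hT, cj_eq_iff]
  have hHT : H ≤ T := by
    intro g hg
    rw [hT']
    exact cj_of_mem H hg (isClassFunction_of_char (isCharacter_of_irr hθ))
  set N' : Subgroup T := H.subgroupOf T with hN'
  have := Fintype.ofFinite N'
  set θ' : N' → ℂ := downFun H T θ with hθ'
  have hθ'irr : IsIrrCharacter N' θ' := irr_downFun hHT hθ
  have hinvT : ∀ t : T, cj N' t θ' = θ' := by
    intro t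
    funext x
    have h1 := congrFun ((hT' t).1 t.2) ⟨((x : T) : G), Subgroup.mem_subgroupOf.mp x.2⟩
    exact h1
  have hab' : commutator T ≤ N' := by
    rw [commutator_def, Subgroup.commutator_le]
    intro a _ b _
    rw [hN', Subgroup.mem_subgroupOf]
    exact hab a a.2 b b.2
  obtain ⟨e, C', he, hcard, hind, hdeg, hover⟩ := ind_invariant_abelian N' hab' hθ'irr hinvT
  obtain ⟨hc1, hc2, -, -⟩ := clifford_correspondence H hθ T hT' hHT
  have hover' : ∀ ψ ∈ C', classInner (resFun hHT (ψ : T → ℂ)) θ ≠ 0 := by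
    intro ψ hψ
    have h1 := hover ψ hψ
    rwa [← downFun_resFun hHT (ψ : T → ℂ), hθ', classInner_downFun hHT] at h1
  have hinj : Set.InjOn (fun ψ : IrrCharacter T => indFun T (ψ : T → ℂ)) C' := by
    intro ψ hψ ψ' hψ' heq
    by_contra hne
    have h1 := hc2 ψ ψ' ψ.2 ψ'.2 (hover' ψ hψ) (hover' ψ' hψ') (fun h => hne (Subtype.ext h))
    have heq' : indFun T (ψ : T → ℂ) = indFun T (ψ' : T → ℂ) := heq
    rw [← heq', Cfsg.Agent.Lib.Helper3.classInner_irr_self (hc1 ψ ψ.2 (hover' ψ hψ))] at h1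
    exact one_ne_zero h1
  refine ⟨e, C'.image (fun ψ : IrrCharacter T => indFun T (ψ : T → ℂ)), he, ?_, ?_, ?_, ?_⟩
  · intro χ hχ
    obtain ⟨ψ, hψ, rfl⟩ := Finset.mem_image.1 hχ
    exact hc1 ψ ψ.2 (hover' ψ hψ)
  · rw [Finset.card_image_of_injOn hinj, ← card_subgroupOf_of_le hHT]
    exact hcard
  · rw [Finset.sum_image hinj, ← indFun_indFun hHT θ]
    have h1 : indFun (H.subgroupOf T) (downFun H T θ) = (e : ℂ) • ∑ ψ ∈ C', (ψ : T → ℂ) := hind
    rw [h1, ← indLin_apply, map_smul, map_sum]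
    rfl
  · intro χ hχ
    obtain ⟨ψ, hψ, rfl⟩ := Finset.mem_image.1 hχ
    rw [Cfsg.Agent.Lib.Helper3.indFun_one, hdeg ψ hψ, mul_assoc]
    rfl

end Cfsg.Agent.S1490
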