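import Cfsg.Statements.S1491
import Cfsg.Agent.S1490
import Cfsg.Agent.S0867
import Cfsg.Agent.Lib.Helper81.Det
import Cfsg.Agent.Lib.Helper80.CoreDvd

set_option autoImplicit false
open Cfsg

namespace Cfsg.Agent.S1491

open Cfsg.Agent.Lib.Helper80 Cfsg.Agent.Lib.Helper15
open scoped ComplexConjugate

/-- The determinantal order divides the group order. -/
theorem detOrder_dvd_card {N : Type*} [Group N] [Finite N] {θ : N → ℂ} (h : IsCharacter N θ) :
    detOrder θ ∣ Nat.card N := by
  obtain ⟨f, hf⟩ := Cfsg.Agent.Lib.Helper81.exists_detHom h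
  unfold detOrder
  apply orderOf_dvd_of_pow_eq_one
  rw [hf]
  funext n
  rw [Pi.pow_apply, toFn_apply, Pi.one_apply, ← Units.val_pow_eq_pow_val, ← map_pow, pow_card_eq_one',
    map_one, Units.val_one]

/-- Let H be a normal subgroup of the finite group G and θ an irreducible character of H with inertia group T, where T/H is abelian (commutators of T lie in H) and the index of H in T is coprime to the order of H. Then the function induced from θ is the sum of a set of exactly [T:H] irreducible characters of G, each of degree [G:T] * θ(1). -/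
theorem result {G : Type*} [Group G] [Fintype G] (H T : Subgroup G) [hN : H.Normal] (θ : H → ℂ) (hθ : Cfsg.IsIrrCharacter H θ) (hT : ∀ g : G, g ∈ T ↔ ∀ h : H, θ ⟨g * h * g⁻¹, hN.conj_mem h h.2 g⟩ = θ h) (hab : ∀ x ∈ T, ∀ y ∈ T, x * y * x⁻¹ * y⁻¹ ∈ H) (hcop : Nat.Coprime (Nat.card H) (H.relIndex T)) : ∃ C : Finset (G → ℂ), (∀ χ ∈ C, Cfsg.IsIrrCharacter G χ) ∧ C.card = H.relIndex T ∧ Cfsg.indFun H θ = ∑ χ ∈ C, χ ∧ ∀ χ ∈ C, χ 1 = (T.index : ℂ) * θ 1 := by
  classical
  have := Fintype.ofFinite H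
  have := Fintype.ofFinite T
  obtain ⟨e, C, he, hirr, hcard, hind, hdeg⟩ := Cfsg.Agent.S1490.result H T θ hθ hT hab
  have hT' : ∀ g : G, g ∈ T ↔ cj H g θ = θ := by
    intro g
    rw [hT, cj_eq_iff]
  have hHT : H ≤ T := by
    intro g hg
    rw [hT']
    exact cj_of_mem H hg (isClassFunction_of_char (isCharacter_of_irr hθ))
  set N' : Subgroup T := H.subgroupOf T with hN'
  set θ' : N' → ℂ := downFun H T θ with hθ'
  have hθ'irr : IsIrrCharacter N' θ' := irr_downFun hHT hθ
  have hcardN' : Nat.card N' = Nat.card H := card_subgroupOf_of_le hHT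
  obtain ⟨d, hd⟩ : ∃ d : ℕ, θ' 1 = d := ⟨_, char_one_eq_charDegree (isCharacter_of_irr hθ'irr)⟩
  have hddvd : d ∣ Nat.card N' := by
    have h1 := charDegree_dvd_card (⟨θ', hθ'irr⟩ : IrrCharacter N')
    have h2 := char_one_eq_charDegree (isCharacter_of_irr hθ'irr)
    rw [hd] at h2
    have h3 : d = charDegree θ' := by exact_mod_cast h2
    rw [h3]
    exact h1
  obtain ⟨χ₀, ⟨hχ₀, hχ₀N, -⟩, -⟩ := Cfsg.Agent.S0867.result N' θ' hθ'irr (by
    intro t x
    have h1 := congrFun ((hT' t).1 t.2) ⟨((x : T) : G), Subgroup.mem_subgroupOf.mp x.2⟩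
    exact h1) d hd (by
    have h1 : Nat.Coprime N'.index (Nat.card N') := by
      rw [hcardN']
      exact hcop.symm
    exact Nat.Coprime.mul_right
      (Nat.Coprime.coprime_dvd_right (detOrder_dvd_card (isCharacter_of_irr hθ'irr)) h1)
      (Nat.Coprime.coprime_dvd_right hddvd h1))
  obtain ⟨hc1, -, hc3, -⟩ := clifford_correspondence H hθ T hT' hHT
  have hres : resFun hHT χ₀ = θ := by
    funext h
    exact hχ₀N ⟨⟨h, hHT h.2⟩, Subgroup.mem_subgroupOf.2 h.2⟩
  have hone : classInner (resFun hHT χ₀) θ = 1 := by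
    rw [hres]
    exact Cfsg.Agent.Lib.Helper3.classInner_irr_self hθ
  have hχ := hc1 χ₀ hχ₀ (by rw [hone]; exact one_ne_zero)
  have h3 := hc3 χ₀ hχ₀ (by rw [hone]; exact one_ne_zero)
  rw [hone] at h3
  have h4 : classInner (indFun H θ) (indFun T χ₀) = 1 := by
    rw [Cfsg.Agent.Lib.Helper3.frobenius_reciprocity _ _
      (isClassFunction_of_char (isCharacter_of_irr hχ)), ← Cfsg.Agent.Lib.Helper74.classInner_conj_symm, h3]
    simp
  have he1 : e = 1 := by
    rw [hind, Cfsg.Agent.Lib.Helper74.classInner_smul_left, Cfsg.Agent.Lib.Helper74.classInner_sum_left] at h4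
    have h5 : ∃ k : ℕ, ∑ χ ∈ C, classInner χ (indFun T χ₀) = k := by
      refine ⟨(C.filter (fun χ => χ = indFun T χ₀)).card, ?_⟩
      rw [Finset.card_filter]
      push_cast
      apply Finset.sum_congr rfl
      intro χ hχC
      rw [Cfsg.Agent.Lib.Helper3.classInner_irr (hirr χ hχC) hχ]
    obtain ⟨k, hk⟩ := h5
    rw [hk] at h4
    have h6 : e * k = 1 := by exact_mod_cast h4
    exact Nat.eq_one_of_mul_eq_one_right h6
  subst he1
  refine ⟨C, hirr, ?_, by simpa using hind, fun χ hχC => by simpa using hdeg χ hχC⟩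
  have h7 : N'.index * Nat.card N' = Nat.card T := by
    rw [mul_comm]
    exact N'.card_mul_index
  rw [hcardN'] at h7
  have h8 : C.card * Nat.card H = N'.index * Nat.card H := by
    rw [h7, ← hcard]
    ring
  exact Nat.eq_of_mul_eq_mul_right Nat.card_pos h8

end Cfsg.Agent.S1491
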