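import Cfsg.Statements.S1493
import Cfsg.Agent.Lib.Helper76.GaloisChar

set_option autoImplicit false
open Cfsg

namespace Cfsg.Agent.S1493

open Cfsg.Agent.Lib.Helper76

/-- Let G be a finite group of order a * b with a and b coprime, let k be coprime to a, and let χ be a character of G. Then there is a character χ' of G such that χ'(g) = χ(g ^ k) whenever the order of g divides a and χ'(g) = χ(g) whenever the order of g is coprime to a; moreover χ' is irreducible if χ is. -/
theorem result {G : Type*} [Group G] [Finite G] (a b k : ℕ) (hab : Nat.card G = a * b) (hcop : Nat.Coprime a b) (hk : Nat.Coprime k a) (χ : G → ℂ) (hχ : Cfsg.IsCharacter G χ) : ∃ χ' : G → ℂ, Cfsg.IsCharacter G χ' ∧ (Cfsg.IsIrrCharacter G χ → Cfsg.IsIrrCharacter G χ') ∧ (∀ g : G, orderOf g ∣ a → χ' g = χ (g ^ k)) ∧ (∀ g : G, Nat.Coprime (orderOf g) a → χ' g = χ g) := by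
  have hpos : 0 < a * b := hab ▸ Nat.card_pos
  have ha : 0 < a := Nat.pos_of_mul_pos_right hpos |> fun _ => by
    rcases Nat.eq_zero_or_pos a with h | h
    · simp [h] at hpos
    · exact h
  obtain ⟨k', hk1, hk2⟩ := Nat.chineseRemainder hcop k 1
  have hc1 : Nat.Coprime k' a := by
    rw [Nat.coprime_iff_gcd_eq_one, hk1.gcd_eq]; exact hk
  have hc2 : Nat.Coprime k' b := by
    rw [Nat.coprime_iff_gcd_eq_one, hk2.gcd_eq]; simp
  have hc : Nat.Coprime k' (Nat.card G) := by
    rw [hab]; exact Nat.Coprime.mul_right hc1 hc2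
  refine ⟨fun g => χ (g ^ k'), isCharacter_pow_coprime hχ hc,
    fun h => isIrrCharacter_pow_coprime h hc, ?_, ?_⟩
  · intro g hg
    have : g ^ k' = g ^ k := by
      rw [pow_eq_pow_iff_modEq]
      exact hk1.of_dvd hg
    simp only [this]
  · intro g hg
    have hgb : orderOf g ∣ b := by
      have h1 : orderOf g ∣ a * b := hab ▸ orderOf_dvd_natCard g
      exact hg.dvd_of_dvd_mul_left h1
    have : g ^ k' = g ^ 1 := by
      rw [pow_eq_pow_iff_modEq]
      exact hk2.of_dvd hgb
    simp only [this, pow_one]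

end Cfsg.Agent.S1493
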