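import Cfsg.Statements.S1494
import Cfsg.Agent.Lib.Helper80.Linear

set_option autoImplicit false
open Cfsg

namespace Cfsg.Agent.S1494

open Cfsg.Agent.Lib.Helper74 Cfsg.Agent.Lib.Helper80

/-- The statement for a linear character of any finite group. -/
theorem linear_case {A : Type*} [Group A] [Finite A] (f : A →* ℂˣ) (p : ℕ) (hp : p.Prime) (x y : A)
    (hx : x ^ p = 1) :
    ∃ ω : ℂ, IsIntegral ℤ ω ∧ ((f (x * y) : ℂ) - (f y : ℂ)) =
      (1 - Complex.exp (2 * Real.pi * Complex.I / p)) * ω := by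
  have hprim : IsPrimitiveRoot (Complex.exp (2 * Real.pi * Complex.I / p)) p :=
    Complex.isPrimitiveRoot_exp p hp.ne_zero
  set ε := Complex.exp (2 * Real.pi * Complex.I / p) with hε
  have : NeZero p := ⟨hp.ne_zero⟩
  have hfx : ((f x : ℂˣ) : ℂ) ^ p = 1 := by
    rw [← Units.val_pow_eq_pow_val, ← map_pow, hx, map_one, Units.val_one]
  obtain ⟨i, -, hi⟩ := hprim.eq_pow_of_pow_eq_one hfx
  have hεint : IsIntegral ℤ ε := hprim.isIntegral hp.pos
  have hfy : IsIntegral ℤ ((f y : ℂˣ) : ℂ) := by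
    apply IsIntegral.of_pow (orderOf_pos y)
    rw [← Units.val_pow_eq_pow_val, ← map_pow, pow_orderOf_eq_one, map_one, Units.val_one]
    exact isIntegral_one
  refine ⟨-(∑ j ∈ Finset.range i, ε ^ j) * (f y : ℂ), ?_, ?_⟩
  · apply IsIntegral.mul _ hfy
    apply IsIntegral.neg
    exact IsIntegral.sum _ (fun j _ => hεint.pow j)
  · rw [map_mul, Units.val_mul, ← hi]
    have := mul_geom_sum ε i
    linear_combination (-(f y : ℂ)) * this

theorem char_case {G : Type*} [Group G] [Finite G] (χ : G → ℂ) (hχ : Cfsg.IsCharacter G χ) (p : ℕ)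
    (hp : p.Prime) (x y : G) (hx : orderOf x = p) (hxy : x * y = y * x) :
    ∃ ω : ℂ, IsIntegral ℤ ω ∧ χ (x * y) - χ y =
      (1 - Complex.exp (2 * Real.pi * Complex.I / p)) * ω := by
  set A : Subgroup G := Subgroup.closure {x, y} with hA
  have hAc : IsMulCommutative A := by
    apply Subgroup.isMulCommutative_closure
    rintro a (rfl | rfl) b (rfl | rfl)
    · rfl
    · exact hxy
    · exact hxy.symm
    · rfl
  have hcomm : ∀ a b : A, a * b = b * a := fun a b => mul_comm' a b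
  have hxA : x ∈ A := Subgroup.subset_closure (by simp)
  have hyA : y ∈ A := Subgroup.subset_closure (by simp)
  have hx' : (⟨x, hxA⟩ : A) ^ p = 1 := by
    apply Subtype.ext
    simp [← hx, pow_orderOf_eq_one]
  have key : ∀ ξ : A → ℂ, IsCharacter A ξ → ∃ ω : ℂ, IsIntegral ℤ ω ∧
      ξ (⟨x, hxA⟩ * ⟨y, hyA⟩) - ξ ⟨y, hyA⟩ =
        (1 - Complex.exp (2 * Real.pi * Complex.I / p)) * ω := by
    apply isCharacter_induction
    · exact ⟨0, isIntegral_zero, by simp⟩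
    · intro ψ ξ hψ _ ⟨ω, hω, he⟩
      have h1 : ψ 1 = 1 := char_one_eq_one_of_comm hcomm ⟨ψ, hψ⟩
      obtain ⟨f, hf⟩ := exists_hom_of_degree_one (IsIrrCharacter.isCharacter hψ) h1
      obtain ⟨ω', hω', he'⟩ := linear_case f p hp ⟨x, hxA⟩ ⟨y, hyA⟩ hx'
      refine ⟨ω' + ω, hω'.add hω, ?_⟩
      simp only [Pi.add_apply, hf]
      linear_combination he + he'
  exact key _ (IsCharacter.restrict hχ A)

theorem result {G : Type*} [Group G] [Finite G] (χ : G → ℂ) (hχ : Cfsg.IsGeneralizedCharacter G χ) (p : ℕ) (hp : p.Prime) (x y : G) (hx : orderOf x = p) (hxy : x * y = y * x) : ∃ ω : ℂ, IsIntegral ℤ ω ∧ χ (x * y) - χ y = (1 - Complex.exp (2 * Real.pi * Complex.I / p)) * ω := by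
  obtain ⟨χ₁, χ₂, h₁, h₂, rfl⟩ := hχ
  obtain ⟨ω₁, hω₁, e₁⟩ := char_case χ₁ h₁ p hp x y hx hxy
  obtain ⟨ω₂, hω₂, e₂⟩ := char_case χ₂ h₂ p hp x y hx hxy
  refine ⟨ω₁ - ω₂, hω₁.sub hω₂, ?_⟩
  simp only [Pi.sub_apply]
  linear_combination e₁ - e₂

end Cfsg.Agent.S1494
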