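import Cfsg.Statements.S1495
import Mathlib

set_option autoImplicit false
open Cfsg

namespace Cfsg.Agent.S1495

open Polynomial in
theorem prod_one_sub (p : ℕ) (hp : p.Prime) (ε : ℂ) (hε : IsPrimitiveRoot ε p) :
    (p : ℂ) = ∏ μ ∈ primitiveRoots p ℂ, (1 - μ) := by
  haveI : Fact p.Prime := ⟨hp⟩
  have h1 : eval 1 (cyclotomic p ℂ) = p := eval_one_cyclotomic_prime
  rw [cyclotomic_eq_prod_X_sub_primitiveRoots hε, eval_prod] at h1
  rw [← h1]
  apply Finset.prod_congr rfl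
  intro μ _
  simp

theorem result (p : ℕ) (hp : p.Prime) (n : ℤ) (ω : ℂ) (hω : IsIntegral ℤ ω) (h : (n : ℂ) = (1 - Complex.exp (2 * Real.pi * Complex.I / p)) * ω) : (p : ℤ) ∣ n := by
  classical
  have hprim : IsPrimitiveRoot (Complex.exp (2 * Real.pi * Complex.I / p)) p :=
    Complex.isPrimitiveRoot_exp p hp.ne_zero
  set ε := Complex.exp (2 * Real.pi * Complex.I / p) with hε
  have : NeZero p := ⟨hp.ne_zero⟩
  by_contra hpn
  have hcop : IsCoprime (p : ℤ) n := (Nat.prime_iff_prime_int.1 hp).coprime_iff_not_dvd.2 hpn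
  obtain ⟨a, b, hab⟩ := hcop
  have hprod := prod_one_sub p hp ε hprim
  have hεmem : ε ∈ primitiveRoots p ℂ := (mem_primitiveRoots hp.pos).2 hprim
  have hint : ∀ μ ∈ primitiveRoots p ℂ, IsIntegral ℤ μ := by
    intro μ hμ
    exact ((mem_primitiveRoots hp.pos).1 hμ).isIntegral hp.pos
  -- 1 = (1 - ε) β
  obtain ⟨β, hβ, hβe⟩ : ∃ β : ℂ, IsIntegral ℤ β ∧ (1 - ε) * β = 1 := by
    refine ⟨(a : ℂ) * ∏ μ ∈ (primitiveRoots p ℂ).erase ε, (1 - μ) + (b : ℂ) * ω, ?_, ?_⟩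
    · apply IsIntegral.add
      · apply IsIntegral.mul isIntegral_algebraMap
        apply IsIntegral.prod
        intro μ hμ
        exact isIntegral_one.sub (hint μ (Finset.mem_of_mem_erase hμ))
      · exact IsIntegral.mul isIntegral_algebraMap hω
    · have h1 : (1 - ε) * ∏ μ ∈ (primitiveRoots p ℂ).erase ε, (1 - μ) = p := by
        rw [hprod, Finset.mul_prod_erase _ _ hεmem]
      have h2 : ((a * p + b * n : ℤ) : ℂ) = 1 := by rw [hab]; simp
      push_cast at h2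
      linear_combination (a : ℂ) * h1 - (b : ℂ) * h + h2
  -- each 1 - μ is invertible in the algebraic integers
  have hinv : ∀ μ ∈ primitiveRoots p ℂ, ∃ γ : ℂ, IsIntegral ℤ γ ∧ (1 - μ) * γ = 1 := by
    intro μ hμ
    have hμp := (mem_primitiveRoots hp.pos).1 hμ
    obtain ⟨j, -, hj⟩ := hμp.eq_pow_of_pow_eq_one hprim.pow_eq_one
    refine ⟨(∑ i ∈ Finset.range j, μ ^ i) * β, ?_, ?_⟩
    · exact IsIntegral.mul (IsIntegral.sum _ (fun i _ => (hint μ hμ).pow i)) hβ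
    · have := mul_geom_sum μ j
      rw [hj] at this
      linear_combination hβe - β * this
  choose! γ hγint hγ using hinv
  have hB : (p : ℂ) * ∏ μ ∈ primitiveRoots p ℂ, γ μ = 1 := by
    rw [hprod, ← Finset.prod_mul_distrib]
    exact Finset.prod_eq_one hγ
  have hBint : IsIntegral ℤ (∏ μ ∈ primitiveRoots p ℂ, γ μ) := IsIntegral.prod _ hγint
  have hpC : (p : ℂ) ≠ 0 := by exact_mod_cast hp.ne_zero
  have hBeq : ∏ μ ∈ primitiveRoots p ℂ, γ μ = algebraMap ℚ ℂ ((p : ℚ)⁻¹) := by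
    rw [map_inv₀, map_natCast]
    exact eq_inv_of_mul_eq_one_right hB
  rw [hBeq, isIntegral_algebraMap_iff (algebraMap ℚ ℂ).injective,
    IsIntegrallyClosed.isIntegral_iff] at hBint
  obtain ⟨m, hm⟩ := hBint
  have hpQ : (p : ℚ) ≠ 0 := by exact_mod_cast hp.ne_zero
  have h3 : (m : ℚ) * p = 1 := by
    have : (algebraMap ℤ ℚ m) = (m : ℚ) := rfl
    rw [← this, hm, inv_mul_cancel₀ hpQ]
  have h4 : m * (p : ℤ) = 1 := by exact_mod_cast h3
  have h5 : (p : ℤ) ∣ 1 := Dvd.intro_left m h4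
  have h6 := Int.natAbs_dvd_natAbs.2 h5
  simp at h6
  exact hp.one_lt.ne' h6

end Cfsg.Agent.S1495
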