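import Cfsg.Statements.S1496
import Cfsg.Agent.Lib.Helper25.SZAmbient

set_option autoImplicit false
open Cfsg

namespace Cfsg.Agent.S1496

variable {G : Type*} [Group G]

theorem conj_mem_of_normalizer (H : Subgroup G) (g : G) (hg : g ∈ Subgroup.normalizer (H : Set G))
    (h : G) (hh : h ∈ H) : g * h * g⁻¹ ∈ H := (Subgroup.mem_normalizer_iff.1 hg h).1 hh

theorem pow_mul_eq (H : Subgroup G) (g : G) (hg : g ∈ Subgroup.normalizer (H : Set G))
    (h : G) (hh : h ∈ H) (j : ℕ) : ∃ h' ∈ H, (h * g) ^ j = h' * g ^ j := by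
  induction j with
  | zero => exact ⟨1, H.one_mem, by simp⟩
  | succ j ih =>
    obtain ⟨h', hh', he⟩ := ih
    refine ⟨h' * (g ^ j * h * (g ^ j)⁻¹), H.mul_mem hh'
      (conj_mem_of_normalizer H _ (pow_mem hg j) h hh), ?_⟩
    rw [pow_succ, he, pow_succ]
    group

theorem result {G : Type*} [Group G] [Finite G] (H : Subgroup G) (g : G) (hg : g ∈ Subgroup.normalizer (H : Set G)) (hcop : Nat.Coprime (orderOf g) (Nat.card H)) (h : G) (hh : h ∈ H) : ∃ x ∈ H, ∃ c ∈ H, c * g = g * c ∧ x * (h * g) * x⁻¹ = c * g := by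
  set n := orderOf g with hn
  set m := Nat.card H with hm
  set A := Subgroup.zpowers g with hA
  have hcardA : Nat.card A = n := Nat.card_zpowers g
  have hdisj : ∀ x, x ∈ H → x ∈ A → x = 1 := by
    intro x hxH hxA
    have hd : Disjoint H A := Subgroup.disjoint_of_coprime_natCard (by rw [hcardA]; exact hcop.symm)
    exact Subgroup.mem_bot.1 (hd.le_bot ⟨hxH, hxA⟩)
  obtain ⟨k, hk1, hk0⟩ := Nat.chineseRemainder hcop 1 0
  have hmk : m ∣ k := (Nat.modEq_zero_iff_dvd).1 hk0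
  have hgk : g ^ k = g := by
    have := (pow_eq_pow_iff_modEq (x := g)).2 hk1
    rwa [pow_one] at this
  set y := h * g with hy
  set z := y ^ k with hz
  obtain ⟨hk, hhk, hzk⟩ := pow_mul_eq H g hg h hh k
  rw [hgk] at hzk
  -- z = hk * g
  have hzn : z ^ n = 1 := by
    obtain ⟨h', hh', he⟩ := pow_mul_eq H g hg h hh n
    rw [hn, pow_orderOf_eq_one, mul_one, ← hn] at he
    obtain ⟨t, ht⟩ := hmk
    have h1 : h' ^ m = 1 := by
      have := pow_card_eq_one' (x := (⟨h', hh'⟩ : H))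
      exact congrArg Subtype.val this
    rw [hz, ← pow_mul, ht, mul_comm, ← mul_assoc, pow_mul, pow_mul]
    rw [← hy] at he
    rw [he, h1, one_pow]
  have hzo : orderOf z = n := by
    apply Nat.dvd_antisymm (orderOf_dvd_of_pow_eq_one hzn)
    obtain ⟨h', hh', he⟩ := pow_mul_eq H g hg hk hhk (orderOf z)
    rw [← hzk, ← hy, ← hz, pow_orderOf_eq_one] at he
    have h1 : g ^ orderOf z = h'⁻¹ := eq_inv_of_mul_eq_one_right he.symm
    have h2 : g ^ orderOf z = 1 :=
      hdisj _ (h1 ▸ H.inv_mem hh') (Subgroup.pow_mem _ (Subgroup.mem_zpowers g) _)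
    exact orderOf_dvd_of_pow_eq_one h2
  have hAN : A ≤ Subgroup.normalizer (H : Set G) := by
    rw [hA, Subgroup.zpowers_le]; exact hg
  have hzmem : z ∈ H ⊔ A := by
    rw [hz, hy, hzk]
    exact Subgroup.mul_mem_sup hhk (Subgroup.mem_zpowers g)
  have hB : Subgroup.zpowers z ≤ H ⊔ A := by
    rw [Subgroup.zpowers_le]; exact hzmem
  obtain ⟨x, hx, hxe⟩ := Cfsg.Agent.Lib.Helper25.sz_conj_ambient H A (Subgroup.zpowers z) hAN hB
    (by rw [hcardA]; exact hcop.symm) (by rw [Nat.card_zpowers, hzo, hcardA])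
    (Or.inr inferInstance)
  have hzx : z ∈ A.map (MulAut.conj x).toMonoidHom := hxe ▸ Subgroup.mem_zpowers z
  obtain ⟨a, ha, hax⟩ := hzx
  simp only [MulEquiv.coe_toMonoidHom, MulAut.conj_apply] at hax
  -- x⁻¹ z x = a ∈ A and also in H g
  have hxinv : x⁻¹ * z * x = a := by rw [← hax]; group
  have hag : a = g := by
    have h1 : a * g⁻¹ ∈ H := by
      rw [← hxinv, hz, hy, hzk]
      have e : x⁻¹ * (hk * g) * x * g⁻¹ = x⁻¹ * hk * (g * x * g⁻¹) := by group
      rw [e]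
      exact H.mul_mem (H.mul_mem (H.inv_mem hx) hhk) (conj_mem_of_normalizer H g hg x hx)
    have h2 : a * g⁻¹ ∈ A := A.mul_mem ha (A.inv_mem (Subgroup.mem_zpowers g))
    have := hdisj _ h1 h2
    exact mul_inv_eq_one.1 this
  rw [hag] at hxinv
  refine ⟨x⁻¹, H.inv_mem hx, x⁻¹ * h * (g * x * g⁻¹),
    H.mul_mem (H.mul_mem (H.inv_mem hx) hh) (conj_mem_of_normalizer H g hg x hx), ?_,
    by rw [hy]; group⟩
  -- commutation
  have hyz : Commute y z := (Commute.refl y).pow_right k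
  have h3 : Commute (x⁻¹ * y * x) (x⁻¹ * z * x) := by
    unfold Commute SemiconjBy
    calc x⁻¹ * y * x * (x⁻¹ * z * x) = x⁻¹ * (y * z) * x := by group
      _ = x⁻¹ * (z * y) * x := by rw [hyz.eq]
      _ = x⁻¹ * z * x * (x⁻¹ * y * x) := by group
  rw [hxinv] at h3
  have h4 : x⁻¹ * y * x = x⁻¹ * h * (g * x * g⁻¹) * g := by rw [hy]; group
  rw [h4] at h3
  have h5 := h3.eq
  -- (c g) g = g (c g)  ⟹ c g = g c
  have h6 := congrArg (· * g⁻¹) h5
  simpa [mul_assoc] using h6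

end Cfsg.Agent.S1496
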