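import Cfsg.Statements.S1497

set_option autoImplicit false
open Cfsg

namespace Cfsg.Agent.S1497

theorem result {G : Type*} [Group G] [Finite G] (A : Set G) (hA : A.Nonempty) (h1 : (1 : G) ∉ A) (L : Subgroup G) : (Cfsg.IsTISubset A ∧ Subgroup.normalizer A = L) ↔ Cfsg.DadeHypothesis A L (fun _ => ⊥) := by
  constructor
  · rintro ⟨hTI, rfl⟩
    have key : ∀ a ∈ A, ∀ g : G, g * a * g⁻¹ ∈ A → g ∈ Subgroup.normalizer A := by
      intro a ha g hg
      by_contra hgn
      exact h1 (hTI g hgn a ha hg ▸ ha)
    refine
      { one_not_mem := h1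
        subset := ?_
        conj_mem := ?_
        fusion := ?_
        le_centralizer := fun a _ => bot_le
        conj_mem_H := ?_
        inf_eq_bot := fun a _ => bot_inf_eq _
        sup_eq := ?_
        coprime := ?_ }
    · intro a ha
      exact key a ha a (by simpa using ha)
    · intro x hx a ha
      exact (Subgroup.mem_set_normalizer_iff.1 hx a).1 ha
    · intro a ha g hg
      exact ⟨g, key a ha g hg, rfl⟩
    · intro a _ c _ u hu
      rw [Subgroup.mem_bot] at hu ⊢
      simp [hu]
    · intro a ha
      rw [bot_sup_eq, inf_eq_right]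
      intro c hc
      rw [Subgroup.mem_centralizer_singleton_iff] at hc
      apply key a ha c
      rw [hc, mul_inv_cancel_right]
      exact ha
    · intro a _ b _
      simp
  · intro hD
    have hLN : L ≤ Subgroup.normalizer A := by
      intro x hx
      rw [Subgroup.mem_set_normalizer_iff]
      intro a
      constructor
      · exact fun ha => hD.conj_mem x hx a ha
      · intro ha
        have := hD.conj_mem x⁻¹ (inv_mem hx) _ ha
        simpa [mul_assoc] using this
    have key : ∀ a ∈ A, ∀ g : G, g * a * g⁻¹ ∈ A → g ∈ L := by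
      intro a ha g hg
      obtain ⟨y, hy, hya⟩ := hD.fusion a ha g hg
      have h2 : y⁻¹ * g ∈ Subgroup.centralizer ({a} : Set G) := by
        rw [Subgroup.mem_centralizer_singleton_iff]
        calc y⁻¹ * g * a = y⁻¹ * (g * a * g⁻¹) * g := by group
          _ = y⁻¹ * (y * a * y⁻¹) * g := by rw [hya]
          _ = a * (y⁻¹ * g) := by group
      have h3 := hD.sup_eq a ha
      simp only [bot_sup_eq] at h3
      rw [← h3] at h2
      have h4 := L.mul_mem hy h2.1
      simpa using h4
    refine ⟨?_, le_antisymm ?_ hLN⟩
    · intro g hg x hx hgx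
      exact absurd (hLN (key x hx g hgx)) hg
    · intro g hg
      obtain ⟨a, ha⟩ := hA
      exact key a ha g ((Subgroup.mem_set_normalizer_iff.1 hg a).1 ha)

end Cfsg.Agent.S1497
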