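import Cfsg.Statements.S1499

set_option autoImplicit false
open Cfsg

namespace Cfsg.Agent.S1499

variable {G : Type*} [Group G]

/-- A common exponent `k` that fixes `a`, `b` and kills `H a`, `H b`. -/
theorem exists_exponent (A : Set G) (L : Subgroup G) (H : G → Subgroup G)
    (hD : Cfsg.DadeHypothesis A L H) (a b : G) (ha : a ∈ A) (hb : b ∈ A) :
    ∃ k : ℕ, a ^ k = a ∧ b ^ k = b ∧ (∀ u ∈ H a, u ^ k = 1) ∧ (∀ v ∈ H b, v ^ k = 1) := by
  set m := Nat.card (H a) * Nat.card (H b) with hm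
  set n := Nat.card ↥(L ⊓ Subgroup.centralizer ({a} : Set G)) *
    Nat.card ↥(L ⊓ Subgroup.centralizer ({b} : Set G)) with hn
  have hcop : Nat.Coprime m n := by
    rw [hm, hn]
    exact Nat.Coprime.mul_left
      (Nat.Coprime.mul_right (hD.coprime a ha a ha) (hD.coprime a ha b hb))
      (Nat.Coprime.mul_right (hD.coprime b hb a ha) (hD.coprime b hb b hb))
  obtain ⟨k, hk0, hk1⟩ := Nat.chineseRemainder hcop 0 1
  have hmk : m ∣ k := (Nat.modEq_zero_iff_dvd).1 hk0
  have key : ∀ c ∈ A, Nat.card ↥(L ⊓ Subgroup.centralizer ({c} : Set G)) ∣ n → c ^ k = c := by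
    intro c hc hdvd
    have hcmem : c ∈ L ⊓ Subgroup.centralizer ({c} : Set G) :=
      ⟨hD.subset hc, Subgroup.mem_centralizer_singleton_iff.2 rfl⟩
    have h1 : orderOf c ∣ Nat.card ↥(L ⊓ Subgroup.centralizer ({c} : Set G)) := by
      have := orderOf_dvd_natCard (⟨c, hcmem⟩ : ↥(L ⊓ Subgroup.centralizer ({c} : Set G)))
      rwa [Subgroup.orderOf_mk] at this
    have h2 : k ≡ 1 [MOD orderOf c] := hk1.of_dvd (h1.trans hdvd)
    have := (pow_eq_pow_iff_modEq (x := c)).2 h2
    rwa [pow_one] at this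
  have key2 : ∀ c : G, Nat.card (H c) ∣ m → ∀ u ∈ H c, u ^ k = 1 := by
    intro c hdvd u hu
    have h1 : orderOf u ∣ Nat.card (H c) := by
      have := orderOf_dvd_natCard (⟨u, hu⟩ : ↥(H c))
      rwa [Subgroup.orderOf_mk] at this
    exact orderOf_dvd_iff_pow_eq_one.1 (h1.trans (hdvd.trans hmk))
  exact ⟨k, key a ha (Dvd.intro _ rfl), key b hb (Dvd.intro_left _ rfl),
    key2 a (Dvd.intro _ rfl), key2 b (Dvd.intro_left _ rfl)⟩

theorem comm_of_mem (A : Set G) (L : Subgroup G) (H : G → Subgroup G)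
    (hD : Cfsg.DadeHypothesis A L H) (a : G) (ha : a ∈ A) (u : G) (hu : u ∈ H a) : Commute a u := by
  have := hD.le_centralizer a ha hu
  rw [Subgroup.mem_centralizer_singleton_iff] at this
  exact this.symm

theorem result {G : Type*} [Group G] [Finite G] (A : Set G) (L : Subgroup G) (H : G → Subgroup G) (hD : Cfsg.DadeHypothesis A L H) (a b : G) (ha : a ∈ A) (hb : b ∈ A) : ((∃ u ∈ H a, ∃ v ∈ H b, ∃ g : G, g * (a * u) * g⁻¹ = b * v) → ∃ x ∈ L, x * a * x⁻¹ = b) ∧ Subgroup.normalizer ((fun u : G => a * u) '' (H a : Set G)) = Subgroup.centralizer ({a} : Set G) := by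
  constructor
  · rintro ⟨u, hu, v, hv, g, hg⟩
    obtain ⟨k, hak, hbk, hHa, hHb⟩ := exists_exponent A L H hD a b ha hb
    have h1 : g * a * g⁻¹ = b := by
      have h2 := congrArg (· ^ k) hg
      simp only [conj_pow] at h2
      rw [(comm_of_mem A L H hD a ha u hu).mul_pow, (comm_of_mem A L H hD b hb v hv).mul_pow,
        hak, hbk, hHa u hu, hHb v hv, mul_one, mul_one] at h2
      exact h2
    obtain ⟨x, hx, hxa⟩ := hD.fusion a ha g (h1 ▸ hb)
    exact ⟨x, hx, hxa.trans h1⟩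
  · ext g
    rw [Subgroup.mem_set_normalizer_iff, Subgroup.mem_centralizer_singleton_iff]
    constructor
    · intro h
      obtain ⟨k, hak, -, hHa, -⟩ := exists_exponent A L H hD a a ha ha
      have h1 : a ∈ (fun u : G => a * u) '' (H a : Set G) := ⟨1, (H a).one_mem, mul_one a⟩
      obtain ⟨u, hu, hu'⟩ := (h a).1 h1
      have h2 := congrArg (· ^ k) hu'
      simp only [conj_pow] at h2
      rw [(comm_of_mem A L H hD a ha u hu).mul_pow, hak, hHa u hu, mul_one] at h2
      calc g * a = (g * a * g⁻¹) * g := by group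
        _ = a * g := by rw [← h2]
    · intro h
      have hgc : g ∈ Subgroup.centralizer ({a} : Set G) := Subgroup.mem_centralizer_singleton_iff.2 h
      have hgc' : g⁻¹ ∈ Subgroup.centralizer ({a} : Set G) := inv_mem hgc
      have h' : g⁻¹ * a = a * g⁻¹ := Subgroup.mem_centralizer_singleton_iff.1 hgc'
      intro n
      constructor
      · rintro ⟨u, hu, rfl⟩
        refine ⟨g * u * g⁻¹, hD.conj_mem_H a ha g hgc u hu, ?_⟩
        simp only [← mul_assoc, h]
      · rintro ⟨u, hu, hu'⟩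
        refine ⟨g⁻¹ * u * g⁻¹⁻¹, hD.conj_mem_H a ha g⁻¹ hgc' u hu, ?_⟩
        simp only at hu' ⊢
        rw [inv_inv, ← mul_assoc, ← mul_assoc, ← h', mul_assoc g⁻¹, hu']
        group

end Cfsg.Agent.S1499
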