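import Cfsg.Statements.S1503
import Cfsg.Agent.Lib.Helper80.CycTI
import Cfsg.Agent.Lib.Helper80.Inflation

set_option autoImplicit false
open Cfsg

namespace Cfsg.Agent.S1503

open Cfsg.Agent.Lib.Helper80 Cfsg.Agent.Lib.Helper25 in
/-- Let W₁, W₂ ≤ G with W = W₁ ⊔ W₂ and let χ an orthonormal family of irreducible characters of G up to sign, indexed by the linear characters ω of W, with χ_1 = 1, χ_ω = ω on W outside W₁ ∪ W₂, and the induction identity for (1 − φ)(1 − ψ). If θ is an irreducible character of G orthogonal to χ ω for every linear character ω of W, then θ vanishes at every element of W lying outside W₁ ∪ W₂. -/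
theorem result {G : Type*} [Group G] [Fintype G] (W₁ W₂ : Subgroup G) (hW : Cfsg.IsSelfNormalizingCyclic W₁ W₂) (χ : (↥(W₁ ⊔ W₂) →* ℂˣ) → (G → ℂ)) (hχ : Cfsg.IsCyclicTIFamily W₁ W₂ χ) (θ : G → ℂ) (hθ : Cfsg.IsIrrCharacter G θ) (horth : ∀ ω, Cfsg.classInner θ (χ ω) = 0) (w : ↥(W₁ ⊔ W₂)) (hw₁ : (w : G) ∉ W₁) (hw₂ : (w : G) ∉ W₂) : θ w = 0 := by
  classical
  let _ : Fintype ↥(W₁ ⊔ W₂) := Fintype.ofFinite _
  have hcl : IsClassFunction G θ := isClassFunction_of_char (isCharacter_of_irr hθ)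
  refine eq_zero_of_orthogonal (comm_of_snc hW) (subA W₁ W₂) (subB W₁ W₂)
    (subA_inf_subB hW.2.2.1) (fun x : ↥(W₁ ⊔ W₂) => θ x) ?_ w hw₁ hw₂
  intro φ hφ ψ hψ
  by_cases h1 : φ = 1
  · subst h1; simp
  by_cases h2 : ψ = 1
  · subst h2; simp
  have h := classInner_induced_family χ hχ θ φ ψ h1 h2 (mem_dualOf_subB.1 hφ) (mem_dualOf_subA.1 hψ)
  rw [horth, horth, horth, horth, Cfsg.Agent.Lib.Helper15.classInner_indFun_right _ _ _ hcl] at h
  unfold classInner at h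
  have hne : (Nat.card ↥(W₁ ⊔ W₂) : ℂ)⁻¹ ≠ 0 := by
    apply inv_ne_zero; exact_mod_cast Nat.card_pos.ne'
  rcases mul_eq_zero.1 (h.trans (by ring)) with h' | h'
  · exact absurd h' hne
  · exact h'

end Cfsg.Agent.S1503
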