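import Cfsg.Statements.S1506
import Cfsg.Agent.Lib.Helper25.CyclicTI

set_option autoImplicit false
open Cfsg

namespace Cfsg.Agent.S1506

open Cfsg.Agent.Lib.Helper25 in
theorem result {G : Type*} [Group G] [Fintype G] (W₁ W₂ : Subgroup G) (hW : Cfsg.IsSelfNormalizingCyclic W₁ W₂) (χ : (↥(W₁ ⊔ W₂) →* ℂˣ) → (G → ℂ)) (hχ : Cfsg.IsCyclicTIFamily W₁ W₂ χ) (θ : G → ℂ) (hθ : Cfsg.IsClassFunction G θ) (hθV : ∀ w : ↥(W₁ ⊔ W₂), (w : G) ∉ W₁ → (w : G) ∉ W₂ → θ w = 0) (φ φ' ψ ψ' : ↥(W₁ ⊔ W₂) →* ℂˣ) (hφ₂ : ∀ w : ↥(W₁ ⊔ W₂), (w : G) ∈ W₂ → φ w = 1 ∧ φ' w = 1) (hψ₁ : ∀ w : ↥(W₁ ⊔ W₂), (w : G) ∈ W₁ → ψ w = 1 ∧ ψ' w = 1) : Cfsg.classInner θ (χ (φ * ψ)) + Cfsg.classInner θ (χ (φ' * ψ')) = Cfsg.classInner θ (χ (φ * ψ')) + Cfsg.classInner θ (χ (φ' * ψ)) := by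
  have h1 := fun w hw => (hφ₂ w hw).1
  have h2 := fun w hw => (hφ₂ w hw).2
  have h3 := fun w hw => (hψ₁ w hw).1
  have h4 := fun w hw => (hψ₁ w hw).2
  rw [coeff_mul χ hχ θ hθ hθV φ ψ h1 h3, coeff_mul χ hχ θ hθ hθV φ' ψ' h2 h4,
    coeff_mul χ hχ θ hθ hθV φ ψ' h1 h4, coeff_mul χ hχ θ hθ hθV φ' ψ h2 h3]
  ring

end Cfsg.Agent.S1506
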