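import Cfsg.Statements.S1507
import Cfsg.Agent.Lib.Helper80.CycTI
import Cfsg.Agent.Lib.Helper80.MatrixTri

set_option autoImplicit false
open Cfsg

namespace Cfsg.Agent.S1507

open Cfsg.Agent.Lib.Helper80 Cfsg.Agent.Lib.Helper25

open Classical in
/-- Let W₁, W₂ ≤ G form a self-normalising cyclic subgroup W = W₁ ⊔ W₂ of odd order with Nat.card W₁ < Nat.card W₂, and χ an orthonormal family of irreducible characters of G up to sign, indexed by the linear characters ω of W, with χ_1 = 1, χ_ω = ω on W outside W₁ ∪ W₂, and the induction identity for (1 − φ)(1 − ψ). Let θ be a class function of G vanishing on W outside W₁ ∪ W₂, and suppose fewer than 2 · Nat.card W₁ linear characters ω of W have ⟨θ, χ ω⟩ ≠ 0. Then one of: all ⟨θ, χ ω⟩ vanish; or there are ψ₀ and a with ⟨θ, χ ω⟩ = a when ω ψ₀⁻¹ is trivial on W₂ and 0 otherwise; or there are φ₀ and a with ⟨θ, χ ω⟩ = a when ω φ₀⁻¹ is trivial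 on W₁ and 0 otherwise. -/
theorem result {G : Type*} [Group G] [Fintype G] (W₁ W₂ : Subgroup G) (hW : Cfsg.IsSelfNormalizingCyclic W₁ W₂) (hodd : Odd (Nat.card ↥(W₁ ⊔ W₂))) (χ : (↥(W₁ ⊔ W₂) →* ℂˣ) → (G → ℂ)) (hχ : Cfsg.IsCyclicTIFamily W₁ W₂ χ) (hlt : Nat.card W₁ < Nat.card W₂) (θ : G → ℂ) (hθ : Cfsg.IsClassFunction G θ) (hθV : ∀ w : ↥(W₁ ⊔ W₂), (w : G) ∉ W₁ → (w : G) ∉ W₂ → θ w = 0) (hfew : Nat.card {ω : ↥(W₁ ⊔ W₂) →* ℂˣ // Cfsg.classInner θ (χ ω) ≠ 0} < 2 * Nat.card W₁) : (∀ ω, Cfsg.classInner θ (χ ω) = 0) ∨ (∃ (ψ₀ : ↥(W₁ ⊔ W₂) →* ℂˣ) (a : ℂ), ∀ ω, Cfsg.classInner θ (χ ω) = if (∀ w : ↥(W₁ ⊔ W₂), (w : G) ∈ W₂ → (ω * ψ₀⁻¹) w = 1) then a else 0) ∨ (∃ (φ₀ : ↥(W₁ ⊔ W₂) →* ℂˣ) (a : ℂ), ∀ ω, Cfsg.classInner θ (χ ω) = if (∀ w : ↥(W₁ ⊔ W₂), (w : G) ∈ W₁ → (ω * φ₀⁻¹) w = 1) then a else 0) := by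
  have hc := comm_of_snc hW
  have hinf : subA W₁ W₂ ⊓ subB W₁ W₂ = ⊥ := subA_inf_subB hW.2.2.1
  have hsup : subA W₁ W₂ ⊔ subB W₁ W₂ = ⊤ := subA_sup_subB
  have hcompl := isComplement'_of_comm hc _ _ hinf hsup
  have cA : Nat.card (subA W₁ W₂) = Nat.card W₁ :=
    Nat.card_congr (Subgroup.subgroupOfEquivOfLe le_sup_left).toEquiv
  have cB : Nat.card (subB W₁ W₂) = Nat.card W₂ :=
    Nat.card_congr (Subgroup.subgroupOfEquivOfLe le_sup_right).toEquiv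
  have cardA : (dualOf (subB W₁ W₂)).card = Nat.card W₁ := by
    rw [card_dualOf hc, ← cA]
    exact hcompl.index_eq_card
  have cardB : (dualOf (subA W₁ W₂)).card = Nat.card W₂ := by
    rw [card_dualOf hc, ← cB]
    exact hcompl.symm.index_eq_card
  have hmul : Nat.card W₁ * Nat.card W₂ = Nat.card ↥(W₁ ⊔ W₂) := by
    rw [← cA, ← cB]; exact hcompl.card_mul_card
  rw [← hmul, Nat.odd_mul] at hodd
  have h2 : Nat.card W₁ + 2 ≤ Nat.card W₂ := by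
    obtain ⟨⟨a, ha⟩, ⟨b, hb⟩⟩ := hodd
    omega
  set a : (↥(W₁ ⊔ W₂) →* ℂˣ) → ℂ := fun ω => classInner θ (χ ω) with ha
  have hcoef : ∀ φ ∈ dualOf (subB W₁ W₂), ∀ ψ ∈ dualOf (subA W₁ W₂),
      a (φ * ψ) = (a φ - a 1) + a ψ := by
    intro φ hφ ψ hψ
    have := coeff_mul χ hχ θ hθ hθV φ ψ (mem_dualOf_subB.1 hφ) (mem_dualOf_subA.1 hψ)
    simp only [ha]
    rw [this]; ring
  have hN : (((dualOf (subB W₁ W₂)) ×ˢ (dualOf (subA W₁ W₂))).filter
      (fun p => (a p.1 - a 1) + a p.2 ≠ 0)).card < 2 * (dualOf (subB W₁ W₂)).card := by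
    rw [cardA]
    refine lt_of_le_of_lt ?_ hfew
    let _ : Fintype (↥(W₁ ⊔ W₂) →* ℂˣ) := Fintype.ofFinite _
    rw [Nat.card_eq_fintype_card, Fintype.card_subtype]
    refine Finset.card_le_card_of_injOn (fun p => p.1 * p.2) ?_ ?_
    · intro p hp
      rw [Finset.mem_coe, Finset.mem_filter, Finset.mem_product] at hp
      rw [Finset.mem_coe, Finset.mem_filter]
      refine ⟨Finset.mem_univ _, ?_⟩
      have := hcoef p.1 hp.1.1 p.2 hp.1.2
      simp only [ha] at this hp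
      rw [this]; exact hp.2
    · intro p hp q hq h
      rw [Finset.mem_coe, Finset.mem_filter, Finset.mem_product] at hp hq
      obtain ⟨h1, h2⟩ := mul_injOn_dualOf _ _ hsup hp.1.1 hq.1.1 hp.1.2 hq.1.2 h
      exact Prod.ext h1 h2
  have hdec := exists_decomp hc _ _ hinf hsup
  rcases matrix_trichotomy _ _ (fun φ => a φ - a 1) a (by rw [cardA, cardB]; exact h2) hN with
    h | ⟨ψ₀, hψ₀, c, h⟩ | ⟨φ₀, hφ₀, c, h⟩
  · left
    intro ω
    obtain ⟨φ, hφ, ψ, hψ, rfl⟩ := hdec ω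
    exact (hcoef φ hφ ψ hψ).trans (h φ hφ ψ hψ)
  · right; left
    refine ⟨ψ₀, c, fun ω => ?_⟩
    obtain ⟨φ, hφ, ψ, hψ, rfl⟩ := hdec ω
    have e1 : classInner θ (χ (φ * ψ)) = if ψ = ψ₀ then c else 0 :=
      (hcoef φ hφ ψ hψ).trans (h φ hφ ψ hψ)
    rw [e1]
    have hiff : ψ = ψ₀ ↔ (∀ w : ↥(W₁ ⊔ W₂), (w : G) ∈ W₂ → (φ * ψ * ψ₀⁻¹) w = 1) := by
      constructor
      · rintro rfl w hw
        rw [MonoidHom.mul_apply, MonoidHom.mul_apply, mem_dualOf_subB.1 hφ w hw, one_mul,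
          MonoidHom.inv_apply, mul_inv_cancel]
      · intro hh
        refine hom_ext_of_sup hsup ψ ψ₀ ?_ ?_
        · intro w hw
          rw [mem_dualOf.1 hψ w hw, mem_dualOf.1 hψ₀ w hw]
        · intro w hw
          have := hh w hw
          rw [MonoidHom.mul_apply, MonoidHom.mul_apply, mem_dualOf.1 hφ w hw, one_mul,
            MonoidHom.inv_apply, mul_inv_eq_one] at this
          exact this
    by_cases hq : ψ = ψ₀
    · rw [if_pos hq, if_pos (hiff.1 hq)]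
    · rw [if_neg hq, if_neg (fun h' => hq (hiff.2 h'))]
  · right; right
    refine ⟨φ₀, c, fun ω => ?_⟩
    obtain ⟨φ, hφ, ψ, hψ, rfl⟩ := hdec ω
    have e1 : classInner θ (χ (φ * ψ)) = if φ = φ₀ then c else 0 :=
      (hcoef φ hφ ψ hψ).trans (h φ hφ ψ hψ)
    rw [e1]
    have hiff : φ = φ₀ ↔ (∀ w : ↥(W₁ ⊔ W₂), (w : G) ∈ W₁ → (φ * ψ * φ₀⁻¹) w = 1) := by
      constructor
      · rintro rfl w hw
        rw [MonoidHom.mul_apply, MonoidHom.mul_apply, mem_dualOf_subA.1 hψ w hw, mul_one,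
          MonoidHom.inv_apply, mul_inv_cancel]
      · intro hh
        refine hom_ext_of_sup hsup φ φ₀ ?_ ?_
        · intro w hw
          have := hh w hw
          rw [MonoidHom.mul_apply, MonoidHom.mul_apply, mem_dualOf.1 hψ w hw, mul_one,
            MonoidHom.inv_apply, mul_inv_eq_one] at this
          exact this
        · intro w hw
          rw [mem_dualOf.1 hφ w hw, mem_dualOf.1 hφ₀ w hw]
    by_cases hq : φ = φ₀
    · rw [if_pos hq, if_pos (hiff.1 hq)]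
    · rw [if_neg hq, if_neg (fun h' => hq (hiff.2 h'))]

end Cfsg.Agent.S1507
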