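import Cfsg.Statements.S1510
import Mathlib

set_option autoImplicit false
open Cfsg

namespace Cfsg.Agent.S1510

open scoped Pointwise

theorem result {L : Type*} [Group L] [Fintype L] (K W₁ W₂ : Subgroup L) [hK : K.Normal] (hKW₁ : K ⊓ W₁ = ⊥) (hKW₁' : K ⊔ W₁ = ⊤) (hW₁ : W₁ ≠ ⊥) (hW₁c : IsCyclic W₁) (hHall : Nat.Coprime (Nat.card W₁) W₁.index) (hW₂ : W₂ ≠ ⊥) (hW₂c : IsCyclic W₂) (hW₂K : W₂ ≤ K) (hC : ∀ x ∈ W₁, x ≠ 1 → K ⊓ Subgroup.centralizer ({x} : Set L) = W₂) (hodd : Odd (Nat.card ↥(W₁ ⊔ W₂))) : Cfsg.IsSelfNormalizingCyclic W₁ W₂ := by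
  have hdisjK : ∀ x, x ∈ K → x ∈ W₁ → x = 1 := by
    intro x h1 h2
    have : x ∈ K ⊓ W₁ := ⟨h1, h2⟩
    rw [hKW₁] at this
    exact Subgroup.mem_bot.1 this
  have hcomm : ∀ a ∈ W₁, ∀ b ∈ W₂, a * b = b * a := by
    intro a ha b hb
    by_cases ha1 : a = 1
    · simp [ha1]
    · have h1 : b ∈ K ⊓ Subgroup.centralizer ({a} : Set L) := by rw [hC a ha ha1]; exact hb
      exact (Subgroup.mem_centralizer_singleton_iff.1 h1.2).symm
  have hcompl : Subgroup.IsComplement' K W₁ := by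
    apply Subgroup.isComplement'_of_disjoint_and_mul_eq_univ (disjoint_iff.2 hKW₁)
    rw [← Subgroup.normal_mul, hKW₁']; rfl
  have hidx : W₁.index = Nat.card K := hcompl.index_eq_card
  have hcop : Nat.Coprime (Nat.card W₁) (Nat.card W₂) :=
    Nat.Coprime.coprime_dvd_right (Subgroup.card_dvd_of_le hW₂K) (hidx ▸ hHall)
  have hmulW : ∀ w ∈ W₁ ⊔ W₂, ∃ a ∈ W₁, ∃ b ∈ W₂, w = a * b := by
    intro w hw
    have hN : W₁ ≤ Subgroup.normalizer (W₂ : Set L) := by
      intro a ha
      rw [Subgroup.mem_normalizer_iff]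
      intro b
      constructor
      · intro hb; rw [hcomm a ha b hb, mul_inv_cancel_right]; exact hb
      · intro hb
        have h1 := hcomm a⁻¹ (W₁.inv_mem ha) _ hb
        have h3 : a⁻¹ * (a * b * a⁻¹) = b * a⁻¹ := by group
        rw [h3] at h1
        have h4 : b = a * b * a⁻¹ := by
          have := congrArg (· * a) h1
          simpa [mul_assoc] using this
        rw [h4]; exact hb
    rw [← SetLike.mem_coe, Subgroup.coe_mul_of_left_le_normalizer_right _ _ hN] at hw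
    obtain ⟨a, ha, b, hb, h⟩ := hw
    exact ⟨a, ha, b, hb, h.symm⟩
  -- an exponent projecting onto W₁
  obtain ⟨j, hj1, hj0⟩ := Nat.chineseRemainder hcop 1 0
  have hpowW₁ : ∀ a ∈ W₁, a ^ j = a := by
    intro a ha
    have h1 : orderOf a ∣ Nat.card W₁ := by
      have := orderOf_dvd_natCard (⟨a, ha⟩ : W₁)
      rwa [Subgroup.orderOf_mk] at this
    have := (pow_eq_pow_iff_modEq (x := a)).2 (hj1.of_dvd h1)
    rwa [pow_one] at this
  have hpowW₂ : ∀ b ∈ W₂, b ^ j = 1 := by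
    intro b hb
    have h1 : orderOf b ∣ Nat.card W₂ := by
      have := orderOf_dvd_natCard (⟨b, hb⟩ : W₂)
      rwa [Subgroup.orderOf_mk] at this
    exact orderOf_dvd_iff_pow_eq_one.1 (h1.trans ((Nat.modEq_zero_iff_dvd).1 hj0))
  have hpow : ∀ a ∈ W₁, ∀ b ∈ W₂, (a * b) ^ j = a := by
    intro a ha b hb
    rw [(show Commute a b from hcomm a ha b hb).mul_pow, hpowW₁ a ha, hpowW₂ b hb, mul_one]
  -- and one projecting onto W₂
  obtain ⟨i, hi0, hi1⟩ := Nat.chineseRemainder hcop 0 1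
  have hpow' : ∀ a ∈ W₁, ∀ b ∈ W₂, (a * b) ^ i = b := by
    intro a ha b hb
    have h1 : orderOf a ∣ Nat.card W₁ := by
      have := orderOf_dvd_natCard (⟨a, ha⟩ : W₁)
      rwa [Subgroup.orderOf_mk] at this
    have h2 : orderOf b ∣ Nat.card W₂ := by
      have := orderOf_dvd_natCard (⟨b, hb⟩ : W₂)
      rwa [Subgroup.orderOf_mk] at this
    have h3 : a ^ i = 1 := orderOf_dvd_iff_pow_eq_one.1 (h1.trans ((Nat.modEq_zero_iff_dvd).1 hi0))
    have h4 : b ^ i = b := by
      have := (pow_eq_pow_iff_modEq (x := b)).2 (hi1.of_dvd h2)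
      rwa [pow_one] at this
    rw [(show Commute a b from hcomm a ha b hb).mul_pow, h3, h4, one_mul]
  -- cyclic
  have hcyc : IsCyclic ↥(W₁ ⊔ W₂) := by
    obtain ⟨⟨a, ha⟩, hagen⟩ := hW₁c.exists_generator
    obtain ⟨⟨b, hb⟩, hbgen⟩ := hW₂c.exists_generator
    have hW₁z : W₁ ≤ Subgroup.zpowers (a * b) := by
      intro x hx
      obtain ⟨n, hn⟩ := Subgroup.mem_zpowers_iff.1 (hagen ⟨x, hx⟩)
      have hn' : a ^ n = x := by simpa using congrArg Subtype.val hn
      have h5 : x = ((a * b) ^ j) ^ n := by rw [hpow a ha b hb, hn']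
      rw [h5]
      exact Subgroup.zpow_mem _ (Subgroup.pow_mem _ (Subgroup.mem_zpowers _) _) _
    have hW₂z : W₂ ≤ Subgroup.zpowers (a * b) := by
      intro x hx
      obtain ⟨n, hn⟩ := Subgroup.mem_zpowers_iff.1 (hbgen ⟨x, hx⟩)
      have hn' : b ^ n = x := by simpa using congrArg Subtype.val hn
      have h5 : x = ((a * b) ^ i) ^ n := by rw [hpow' a ha b hb, hn']
      rw [h5]
      exact Subgroup.zpow_mem _ (Subgroup.pow_mem _ (Subgroup.mem_zpowers _) _) _
    have heq : W₁ ⊔ W₂ = Subgroup.zpowers (a * b) := by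
      apply le_antisymm (sup_le hW₁z hW₂z)
      rw [Subgroup.zpowers_le]
      exact Subgroup.mul_mem_sup ha hb
    rw [heq]
    infer_instance
  have hWcomm : ∀ u ∈ W₁ ⊔ W₂, ∀ v ∈ W₁ ⊔ W₂, u * v = v * u := by
    intro u hu v hv
    have hc := hcyc.isMulCommutative
    exact setLike_mul_comm hu hv
  refine ⟨hW₁, hW₂, ?_, hcomm, hcyc, ?_⟩
  · rw [eq_bot_iff]
    rintro x ⟨h1, h2⟩
    exact Subgroup.mem_bot.2 (hdisjK x (hW₂K h2) h1)
  · intro X hX hXne
    apply le_antisymm
    · intro g hg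
      obtain ⟨w, hw⟩ := hXne
      have hwW := (hX hw).1
      have hwn := (hX hw).2
      obtain ⟨a, ha, b, hb, rfl⟩ := hmulW w hwW
      have ha1 : a ≠ 1 := by
        intro h
        apply hwn
        right
        rw [h, one_mul]; exact hb
      have hgw : g * (a * b) * g⁻¹ ∈ X := (Subgroup.mem_set_normalizer_iff.1 hg _).1 hw
      obtain ⟨a', ha', b', hb', he⟩ := hmulW _ (hX hgw).1
      -- write g = k * c
      have hgtop : g ∈ K ⊔ W₁ := by rw [hKW₁']; exact Subgroup.mem_top g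
      rw [← SetLike.mem_coe, Subgroup.normal_mul] at hgtop
      obtain ⟨k, hk, c, hc, hkc⟩ := hgtop
      simp only at hkc
      rw [SetLike.mem_coe] at hk hc
      have hcW : c ∈ W₁ ⊔ W₂ := (le_sup_left : W₁ ≤ W₁ ⊔ W₂) hc
      have hcw : c * (a * b) * c⁻¹ = a * b := by
        rw [hWcomm c hcW _ hwW, mul_inv_cancel_right]
      have hkw : k * (a * b) * k⁻¹ = a' * b' := by
        rw [← he, ← hkc]
        calc k * (a * b) * k⁻¹ = k * (c * (a * b) * c⁻¹) * k⁻¹ := by rw [hcw]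
          _ = k * c * (a * b) * (k * c)⁻¹ := by group
      have hka : k * a * k⁻¹ = a' := by
        have := congrArg (· ^ j) hkw
        simp only [conj_pow] at this
        rwa [hpow a ha b hb, hpow a' ha' b' hb'] at this
      have haa' : a' = a := by
        have h1 : a' * a⁻¹ ∈ K := by
          rw [← hka]
          have e : k * a * k⁻¹ * a⁻¹ = k * (a * k⁻¹ * a⁻¹) := by group
          rw [e]
          exact K.mul_mem hk (hK.conj_mem _ (K.inv_mem hk) a)
        have h2 : a' * a⁻¹ ∈ W₁ := W₁.mul_mem ha' (W₁.inv_mem ha)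
        exact mul_inv_eq_one.1 (hdisjK _ h1 h2)
      rw [haa'] at hka
      have hkW₂ : k ∈ W₂ := by
        rw [← hC a ha ha1]
        refine ⟨hk, Subgroup.mem_centralizer_singleton_iff.2 ?_⟩
        have := congrArg (· * k) hka
        simpa [mul_assoc] using this
      rw [← hkc, sup_comm]
      exact Subgroup.mul_mem_sup hkW₂ hc
    · intro g hg
      rw [Subgroup.mem_set_normalizer_iff]
      intro w
      constructor
      · intro hw
        rw [hWcomm g hg w (hX hw).1, mul_inv_cancel_right]; exact hw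
      · intro hw
        have h1 := hWcomm g⁻¹ (inv_mem hg) _ (hX hw).1
        have h3 : g⁻¹ * (g * w * g⁻¹) = w * g⁻¹ := by group
        rw [h3] at h1
        have h4 : w = g * w * g⁻¹ := by
          have := congrArg (· * g) h1
          simpa [mul_assoc] using this
        rw [h4]; exact hw

end Cfsg.Agent.S1510
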