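import Cfsg.Statements.S1512
import Cfsg.Agent.S1496

set_option autoImplicit false
open Cfsg

namespace Cfsg.Agent.S1512

theorem result {L : Type*} [Group L] [Finite L] (K W₂ : Subgroup L) [hK : K.Normal] (x : L) (hx1 : x ≠ 1) (hx : Nat.Coprime (orderOf x) (Nat.card K)) (hC : ∀ y ∈ Subgroup.zpowers x, y ≠ 1 → K ⊓ Subgroup.centralizer ({y} : Set L) = W₂) : Nat.card {C : ConjClasses K // ConjClasses.map (MulEquiv.toMonoidHom ((MulAut.conjNormal x : MulAut K))) C = C} ≤ Nat.card W₂ := by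
  have hW : K ⊓ Subgroup.centralizer ({x} : Set L) = W₂ := hC x (Subgroup.mem_zpowers x) hx1
  have hWle : W₂ ≤ K ⊓ Subgroup.centralizer ({x} : Set L) := hW.ge
  have hWK : ∀ w : W₂, (w : L) ∈ K := fun w => (hWle w.2).1
  have hWx : ∀ w : W₂, x * (w : L) * x⁻¹ = w := fun w => by
    have h2 := Subgroup.mem_centralizer_singleton_iff.1 (hWle w.2).2
    rw [← h2, mul_inv_cancel_right]
  have map_mk : ∀ k : K, ConjClasses.map (MulEquiv.toMonoidHom ((MulAut.conjNormal x : MulAut K)))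
      (ConjClasses.mk k) = ConjClasses.mk ((MulAut.conjNormal x : MulAut K) k) := fun k => rfl
  let f : W₂ → {C : ConjClasses K // ConjClasses.map (MulEquiv.toMonoidHom ((MulAut.conjNormal x : MulAut K))) C = C} :=
    fun w => ⟨ConjClasses.mk ⟨w, hWK w⟩, by
      rw [map_mk]
      congr 1
      apply Subtype.ext
      simp only [MulEquiv.coe_toMonoidHom, MulAut.conjNormal_apply]
      exact hWx w⟩
  apply Nat.card_le_card_of_surjective f
  rintro ⟨C, hCinv⟩
  obtain ⟨k, rfl⟩ := ConjClasses.exists_rep C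
  rw [map_mk, ConjClasses.mk_eq_mk_iff_isConj, isConj_iff] at hCinv
  obtain ⟨y, hy⟩ := hCinv
  have hy' : (y : L) * (x * k * x⁻¹) * (y : L)⁻¹ = k := by
    have := congrArg Subtype.val hy
    simpa [MulAut.conjNormal_apply] using this
  obtain ⟨t, ht, c, hc, hcx, htc⟩ := Cfsg.Agent.S1496.result K x
    (by rw [Subgroup.normalizer_eq_top_iff.2 hK]; exact Subgroup.mem_top x) hx (y : L) y.2
  -- c * x centralizes t k t⁻¹
  have h1 : (c * x) * (t * k * t⁻¹) * (c * x)⁻¹ = t * k * t⁻¹ := by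
    rw [← htc]
    calc t * (↑y * x) * t⁻¹ * (t * ↑k * t⁻¹) * (t * (↑y * x) * t⁻¹)⁻¹
        = t * (↑y * (x * ↑k * x⁻¹) * (↑y)⁻¹) * t⁻¹ := by group
      _ = t * k * t⁻¹ := by rw [hy']
  obtain ⟨j, hj1, hj0⟩ := Nat.chineseRemainder hx 1 0
  have hxj : x ^ j = x := by
    have := (pow_eq_pow_iff_modEq (x := x)).2 hj1
    rwa [pow_one] at this
  have hcj : c ^ j = 1 := by
    have h2 : orderOf c ∣ Nat.card K := by
      have := orderOf_dvd_natCard (⟨c, hc⟩ : K)
      rwa [Subgroup.orderOf_mk] at this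
    exact orderOf_dvd_iff_pow_eq_one.1 (h2.trans ((Nat.modEq_zero_iff_dvd).1 hj0))
  have hpow : (c * x) ^ j = x := by
    rw [(show Commute c x from hcx).mul_pow, hcj, hxj, one_mul]
  have h2 : Commute (c * x) (t * k * t⁻¹) := by
    unfold Commute SemiconjBy
    have := congrArg (· * (c * x)) h1
    simpa [mul_assoc] using this
  have h3 : Commute x (t * k * t⁻¹) := hpow ▸ h2.pow_left j
  have hk'K : t * k * t⁻¹ ∈ K := hK.conj_mem k k.2 t
  have hk'W : t * k * t⁻¹ ∈ W₂ := by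
    rw [← hW]
    exact ⟨hk'K, Subgroup.mem_centralizer_singleton_iff.2 h3.eq.symm⟩
  refine ⟨⟨t * k * t⁻¹, hk'W⟩, ?_⟩
  apply Subtype.ext
  simp only [f]
  rw [ConjClasses.mk_eq_mk_iff_isConj, isConj_comm, isConj_iff]
  exact ⟨⟨t, ht⟩, Subtype.ext rfl⟩

end Cfsg.Agent.S1512
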