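import Mathlib
import Cfsg.Agent.Lib.Helper4.DadeV4
import Cfsg.Agent.Lib.Helper3.NormTwo
import Cfsg.Agent.Lib.Helper26.IndIrr
import Cfsg.Statements.S1518

set_option autoImplicit false
open Cfsg

namespace Cfsg.Agent.S1518

/-- Under the Dade hypothesis for (A, L, H): if χ is an irreducible character of L vanishing at every non-identity element of L outside A, then the Dade image of χ − conj χ equals μ − conj μ for some irreducible character μ of G. -/
theorem result {G : Type*} [Group G] [Fintype G] (A : Set G) (L : Subgroup G) [Fintype L] (H : G → Subgroup G) (hD : Cfsg.DadeHypothesis A L H) (χ : L → ℂ) (hχ : Cfsg.IsIrrCharacter L χ) (hsupp : ∀ x : L, x ≠ 1 → (x : G) ∉ A → χ x = 0) : ∃ μ : G → ℂ, Cfsg.IsIrrCharacter G μ ∧ Cfsg.dadeIsometry A L H (χ - Cfsg.conjFun χ) = μ - Cfsg.conjFun μ := by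
  classical
  have hχc := Cfsg.Agent.Lib.Helper3.IsIrrCharacter.isCharacter hχ
  have hχ' : IsIrrCharacter L (conjFun χ) := Cfsg.Agent.Lib.Helper26.IndIrr.irr_conj hχ
  have hβ : IsGeneralizedCharacter L (χ - conjFun χ) :=
    ⟨χ, conjFun χ, hχc, Cfsg.Agent.Lib.Helper3.IsIrrCharacter.isCharacter hχ', rfl⟩
  have hβA : ∀ x : L, (x : G) ∉ A → (χ - conjFun χ) x = 0 := by
    intro x hx
    by_cases h1 : x = 1
    · subst h1
      obtain ⟨n, hn⟩ := Cfsg.Agent.Lib.Helper3.IsCharacter.apply_one_eq_natCast hχc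
      simp [conjFun, hn]
    · simp [conjFun, hsupp x h1 hx]
  have hΦ := Cfsg.Agent.Lib.Helper4.DadeV.dade_isGeneralizedCharacter hD _ hβ hβA
  have : Fintype (IrrCharacter L) := Fintype.ofFinite _
  have hβc : IsClassFunction L (χ - conjFun χ) :=
    (Cfsg.Agent.Lib.Helper3.isGeneralizedCharacter_iff.mp hβ).1
  by_cases hreal : χ = conjFun χ
  · refine ⟨fun _ => 1, Cfsg.Agent.Lib.Helper3.isIrrCharacter_one, ?_⟩
    have h0 : χ - conjFun χ = 0 := sub_eq_zero.mpr hreal
    funext g
    rw [h0]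
    simp [dadeIsometry, conjFun]
  · have hnorm : classInner (dadeIsometry A L H (χ - conjFun χ))
        (dadeIsometry A L H (χ - conjFun χ)) = 2 := by
      rw [(Cfsg.Agent.S1500.result A L H hD _ hβc hβA).1 _ hβc hβA]
      rw [Cfsg.Agent.Lib.Helper3.classInner_sub_left, Cfsg.Agent.Lib.Helper3.classInner_sub_right,
        Cfsg.Agent.Lib.Helper3.classInner_sub_right,
        Cfsg.Agent.Lib.Helper3.classInner_irr_self hχ,
        Cfsg.Agent.Lib.Helper3.classInner_irr_self hχ',
        Cfsg.Agent.Lib.Helper3.classInner_irr_ne hχ hχ' hreal,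
        Cfsg.Agent.Lib.Helper3.classInner_irr_ne hχ' hχ (Ne.symm hreal)]
      norm_num
    have h1 : dadeIsometry A L H (χ - conjFun χ) 1 = 0 := by
      apply Cfsg.Agent.S1500.dade_apply_not
      rintro ⟨a, ha, u, hu, x, hx⟩
      obtain ⟨n1, n2, k, hd⟩ := Cfsg.Agent.Lib.Helper4.DadeV.exists_data hD
      have h2 := hd.pow_of_form hD ha hu hx
      simp at h2
      exact hD.one_not_mem (h2 ▸ ha)
    obtain ⟨μ, ν, hμ, hν, hne, hΦeq⟩ :=
      Cfsg.Agent.Lib.Helper3.exists_irr_sub_irr_of_norm_two hΦ hnorm h1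
    have hconj : ∀ g, (starRingEnd ℂ) (dadeIsometry A L H (χ - conjFun χ) g) =
        - dadeIsometry A L H (χ - conjFun χ) g := by
      intro g
      simp only [dadeIsometry]
      split_ifs
      · simp [conjFun]
      · simp
    refine ⟨μ, hμ, ?_⟩
    rw [hΦeq]
    congr 1
    by_contra hne2
    have hμ' : IsIrrCharacter G (conjFun μ) := Cfsg.Agent.Lib.Helper26.IndIrr.irr_conj hμ
    have hν' : IsIrrCharacter G (conjFun ν) := Cfsg.Agent.Lib.Helper26.IndIrr.irr_conj hν
    have e : conjFun μ + μ = conjFun ν + ν := by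
      funext g
      have := hconj g
      rw [hΦeq] at this
      simp only [Pi.sub_apply, map_sub] at this
      simp only [Pi.add_apply, conjFun]
      linear_combination this
    have e2 := congrArg (fun f => classInner f ν) e
    simp only [Cfsg.Agent.Lib.Helper3.classInner_add_left] at e2
    rw [Cfsg.Agent.Lib.Helper3.classInner_irr_ne hμ' hν (Ne.symm hne2),
      Cfsg.Agent.Lib.Helper3.classInner_irr_ne hμ hν hne,
      Cfsg.Agent.Lib.Helper3.classInner_irr_self hν,
      Cfsg.Agent.Lib.Helper3.classInner_irr hν' hν] at e2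
    split_ifs at e2 <;> norm_num at e2

end Cfsg.Agent.S1518
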