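import Cfsg.Statements.S1527
import Mathlib
set_option autoImplicit false
open Cfsg

namespace Cfsg.Agent.S1527

theorem result {G : Type*} [Group G] [Finite G] {ι : Type*} [Fintype ι] (H : ι → Subgroup G) (hcop : ∀ i j, i ≠ j → Nat.Coprime (Nat.card (H i)) (Nat.card (H j))) (hTI : ∀ i, Cfsg.IsTISubset (H i : Set G)) (hcover : ∀ g : G, g ≠ 1 → ∃ i, ∃ x : G, x * g * x⁻¹ ∈ H i) : Nat.card G - 1 = ∑ i, (Subgroup.normalizer (H i : Set G)).index * (Nat.card (H i) - 1) := by
  classical
  let N : ι → Subgroup G := fun i => Subgroup.normalizer (H i : Set G)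
  let f : (Σ i, (G ⧸ N i) × {h : H i // h ≠ 1}) → {g : G // g ≠ 1} := fun s =>
    ⟨s.2.1.out * (s.2.2.1 : G) * (s.2.1.out)⁻¹, by
      intro h
      apply s.2.2.2
      have : ((s.2.2.1 : H s.1) : G) = 1 := by
        have h2 := congrArg (fun t => (s.2.1.out)⁻¹ * t * s.2.1.out) h
        simpa [mul_assoc] using h2
      exact Subtype.ext this⟩
  have hbij : Function.Bijective f := by
    constructor
    · rintro ⟨i, a, h, hh⟩ ⟨j, b, k, hk⟩ hEq
      have hEq' : a.out * (h : G) * (a.out)⁻¹ = b.out * (k : G) * (b.out)⁻¹ := congrArg Subtype.val hEq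
      have hij : i = j := by
        by_contra hne
        have hc := hcop i j hne
        have ho1 : orderOf (h : G) ∣ Nat.card (H i) := by
          rw [Subgroup.orderOf_coe]; exact orderOf_dvd_natCard h
        have ho2 : orderOf (k : G) ∣ Nat.card (H j) := by
          rw [Subgroup.orderOf_coe]; exact orderOf_dvd_natCard k
        have ho3 : orderOf (h : G) = orderOf (k : G) := by
          have e1 : orderOf (a.out * (h : G) * (a.out)⁻¹) = orderOf (h : G) := by
            have := MulEquiv.orderOf_eq (MulAut.conj a.out) (h : G)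
            simpa using this
          have e2 : orderOf (b.out * (k : G) * (b.out)⁻¹) = orderOf (k : G) := by
            have := MulEquiv.orderOf_eq (MulAut.conj b.out) (k : G)
            simpa using this
          rw [← e1, ← e2, hEq']
        have : orderOf (h : G) ∣ 1 := by
          have := Nat.dvd_gcd ho1 (ho3 ▸ ho2)
          rwa [hc] at this
        have h1 : (h : G) = 1 := orderOf_eq_one_iff.1 (Nat.dvd_one.1 this)
        exact hh (Subtype.ext h1)
      subst hij
      have hconj : ((b.out)⁻¹ * a.out) * (h : G) * ((b.out)⁻¹ * a.out)⁻¹ = (k : G) := by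
        have h2 := congrArg (fun t => (b.out)⁻¹ * t * b.out) hEq'
        simp only [mul_assoc, inv_mul_cancel_left, inv_mul_cancel, mul_one] at h2
        simp only [mul_inv_rev, inv_inv, mul_assoc]
        exact h2
      have hmem : (b.out)⁻¹ * a.out ∈ N i := by
        by_contra hn
        have := hTI i _ hn (h : G) h.2 (by rw [hconj]; exact k.2)
        exact hh (Subtype.ext this)
      have hab : a = b := by
        have : (QuotientGroup.mk b.out : G ⧸ N i) = QuotientGroup.mk a.out := QuotientGroup.eq.2 hmem
        simpa using this.symm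
      subst hab
      have hhk : (h : G) = k := by
        have h2 := congrArg (fun t => (a.out)⁻¹ * t * a.out) hEq'
        simpa [mul_assoc] using h2
      have : h = k := Subtype.ext hhk
      subst this
      rfl
    · rintro ⟨g, hg⟩
      obtain ⟨i, x, hx⟩ := hcover g hg
      -- g = x⁻¹ (x g x⁻¹) x ; coset of x⁻¹
      let a : G ⧸ N i := QuotientGroup.mk x⁻¹
      have ha : (x⁻¹)⁻¹ * a.out ∈ N i := QuotientGroup.eq.1 (by simp [a])
      -- n := x * a.out ∈ N i
      set n := (x⁻¹)⁻¹ * a.out with hn
      have hmem : n⁻¹ * (x * g * x⁻¹) * n ∈ H i := by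
        have := (Subgroup.mem_normalizer_iff.1 (inv_mem ha) (x * g * x⁻¹)).1 hx
        simpa using this
      have hne : (⟨n⁻¹ * (x * g * x⁻¹) * n, hmem⟩ : H i) ≠ 1 := by
        intro h1
        have h2 : n⁻¹ * (x * g * x⁻¹) * n = 1 := congrArg Subtype.val h1
        apply hg
        have h3 : x * g * x⁻¹ = 1 := by
          have := congrArg (fun t => n * t * n⁻¹) h2
          simpa [mul_assoc] using this
        have := congrArg (fun t => x⁻¹ * t * x) h3
        simpa [mul_assoc] using this
      refine ⟨⟨i, a, ⟨⟨_, hmem⟩, hne⟩⟩, ?_⟩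
      apply Subtype.ext
      show a.out * (n⁻¹ * (x * g * x⁻¹) * n) * (a.out)⁻¹ = g
      have : a.out = x⁻¹ * n := by simp [hn]
      rw [this]
      group
  have hcard := Nat.card_congr (Equiv.ofBijective f hbij)
  rw [Nat.card_sigma] at hcard
  have h1 : Nat.card {g : G // g ≠ 1} = Nat.card G - 1 := by
    have := Fintype.ofFinite G
    simp [Nat.card_eq_fintype_card, Fintype.card_subtype_compl]
  rw [← h1, ← hcard]
  apply Finset.sum_congr rfl
  intro i _
  rw [Nat.card_prod]
  congr 1
  have := Fintype.ofFinite (H i)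
  simp [Nat.card_eq_fintype_card, Fintype.card_subtype_compl]

end Cfsg.Agent.S1527
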