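import Cfsg.Statements.S1531
import Cfsg.Agent.Lib.Helper26.Glue
import Cfsg.Agent.S1529
set_option autoImplicit false
open Cfsg

namespace Cfsg.Agent.S1531

open Cfsg.Agent.Lib.Helper26 Cfsg.Agent.Lib.Helper3

theorem exists_sign {N : Type*} [Group N] [Fintype N] {G : Type*} [Group G] [Fintype G]
    (S : Set (N → ℂ)) (hirr : ∀ χ ∈ S, IsIrrCharacter N χ)
    (τ₁ : (N → ℂ) → (G → ℂ)) (hτ₁ : IsLinearIsometryOn (zspan S) τ₁)
    (h0 : ∀ α ∈ zspan S, α 1 = 0 → τ₁ α 1 = 0) (hne : S.Nonempty) :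
    ∃ s : ℤ, (s = 1 ∨ s = -1) ∧ ∀ χ ∈ S, IsIrrCharacter G (s • τ₁ χ) := by
  obtain ⟨hpm, -, hpos, hneg⟩ := Cfsg.Agent.S1529.signs S hirr τ₁ hτ₁ h0
  obtain ⟨χ₀, hχ₀⟩ := hne
  rcases hpm χ₀ hχ₀ with h | h
  · exact ⟨1, Or.inl rfl, fun χ hχ => by simpa using hpos χ₀ hχ₀ χ hχ h⟩
  · exact ⟨-1, Or.inr rfl, fun χ hχ => by simpa using hneg χ₀ hχ₀ χ hχ h⟩

theorem exists_other {α : Type*} {X : Set α} (h : ∃ a ∈ X, ∃ b ∈ X, a ≠ b) (x : α) :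
    ∃ y ∈ X, y ≠ x := by
  obtain ⟨a, ha, b, hb, hab⟩ := h
  by_cases hax : a = x
  · exact ⟨b, hb, fun h => hab (hax.trans h.symm)⟩
  · exact ⟨a, ha, hax⟩

/-- General version for arbitrary finite groups `N`, `G`. -/
theorem general {N : Type*} [Group N] [Fintype N] {G : Type*} [Group G] [Fintype G]
    (S X Y : Set (N → ℂ)) (hirr : ∀ ξ ∈ S, IsIrrCharacter N ξ) (hXS : X ⊆ S) (hYS : Y ⊆ S)
    (hXY : Disjoint X Y) (hX2 : ∃ a ∈ X, ∃ b ∈ X, a ≠ b) (hY2 : ∃ a ∈ Y, ∃ b ∈ Y, a ≠ b)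
    (α : (N → ℂ) → (G → ℂ)) (hα : IsLinearIsometryOn (zspanOn S {1}ᶜ) α)
    (hα1 : ∀ θ ∈ zspanOn S {1}ᶜ, α θ 1 = 0) (σ τ : (N → ℂ) → (G → ℂ))
    (hσ : IsLinearIsometryOn (zspan X) σ) (hσα : ∀ θ ∈ zspanOn X {1}ᶜ, σ θ = α θ)
    (hτ : IsLinearIsometryOn (zspan Y) τ) (hτα : ∀ θ ∈ zspanOn Y {1}ᶜ, τ θ = α θ) :
    (∀ χ ∈ X, ∀ η ∈ Y, classInner (σ χ) (τ η) = 0) ∧
    ((∃ χ₀ ∈ X, ∃ η₀ ∈ Y, α (χ₀ 1 • η₀ - η₀ 1 • χ₀) = χ₀ 1 • τ η₀ - η₀ 1 • σ χ₀) →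
      IsCoherent (X ∪ Y) {1}ᶜ α) := by
  classical
  have hXirr : ∀ χ ∈ X, IsIrrCharacter N χ := fun χ h => hirr χ (hXS h)
  have hYirr : ∀ χ ∈ Y, IsIrrCharacter N χ := fun χ h => hirr χ (hYS h)
  have hXgen : ∀ χ ∈ X, IsGeneralizedCharacter N χ := fun χ h => gen_of_irr (hXirr χ h)
  have hYgen : ∀ χ ∈ Y, IsGeneralizedCharacter N χ := fun χ h => gen_of_irr (hYirr χ h)
  have hXYorth : ∀ χ ∈ X, ∀ η ∈ Y, classInner χ η = 0 := by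
    intro χ hχ η hη
    apply classInner_irr_ne (hXirr χ hχ) (hYirr η hη)
    rintro rfl
    exact (Set.disjoint_left.1 hXY hχ hη)
  have h0σ : ∀ θ ∈ zspan X, θ 1 = 0 → σ θ 1 = 0 := by
    intro θ hθ h1
    have hm : θ ∈ zspanOn X {1}ᶜ := mem_zspanOn_one.2 ⟨hθ, h1⟩
    rw [hσα θ hm]; exact hα1 θ (zspanOn_mono _ hXS hm)
  have h0τ : ∀ θ ∈ zspan Y, θ 1 = 0 → τ θ 1 = 0 := by
    intro θ hθ h1
    have hm : θ ∈ zspanOn Y {1}ᶜ := mem_zspanOn_one.2 ⟨hθ, h1⟩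
    rw [hτα θ hm]; exact hα1 θ (zspanOn_mono _ hYS hm)
  obtain ⟨s, hs, hsirr⟩ := exists_sign X hXirr σ hσ h0σ (by obtain ⟨a, ha, -⟩ := hX2; exact ⟨a, ha⟩)
  obtain ⟨t, ht, htirr⟩ := exists_sign Y hYirr τ hτ h0τ (by obtain ⟨a, ha, -⟩ := hY2; exact ⟨a, ha⟩)
  have hss : (s : ℂ) * s = 1 := by rcases hs with rfl | rfl <;> norm_num
  have htt : (t : ℂ) * t = 1 := by rcases ht with rfl | rfl <;> norm_num
  have hJ : ∀ u v : G → ℂ, classInner (s • u) (t • v) = s * t * classInner u v := by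
    intro u v
    rw [classInner_zsmul_left, classInner_zsmul_right]; ring
  have part1 : ∀ χ ∈ X, ∀ η ∈ Y, classInner (σ χ) (τ η) = 0 := by
    intro χ hχ η hη
    by_contra hne
    obtain ⟨χ', hχ', hχχ'⟩ := exists_other hX2 χ
    obtain ⟨η', hη', hηη'⟩ := exists_other hY2 η
    have heq : s • σ χ = t • τ η := by
      by_contra hne2
      have h1 := classInner_irr_ne (hsirr χ hχ) (htirr η hη) hne2
      rw [hJ] at h1
      apply hne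
      have : (s : ℂ) * s * (t * t) * classInner (σ χ) (τ η) = 0 := by linear_combination (s : ℂ) * t * h1
      rwa [hss, htt, one_mul, one_mul] at this
    have e1 : (s : ℂ) * t * classInner (σ χ) (τ η) = 1 := by
      rw [← hJ, ← heq]; exact classInner_irr_self (hsirr χ hχ)
    have e2 : (s : ℂ) * t * classInner (σ χ) (τ η') = 0 := by
      rw [← hJ, heq, classInner_zsmul_left, classInner_zsmul_right,
        iso_inner hτ (mem_zspan hη) (mem_zspan hη'),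
        classInner_irr_ne (hYirr η hη) (hYirr η' hη') (Ne.symm hηη')]
      ring
    have e3 : (s : ℂ) * t * classInner (σ χ') (τ η) = 0 := by
      rw [← hJ, ← heq, classInner_zsmul_left, classInner_zsmul_right,
        iso_inner hσ (mem_zspan hχ') (mem_zspan hχ),
        classInner_irr_ne (hXirr χ' hχ') (hXirr χ hχ) hχχ']
      ring
    obtain ⟨k, e4⟩ : ∃ k : ℕ, (s : ℂ) * t * classInner (σ χ') (τ η') = k := by
      rw [← hJ, classInner_irr (hsirr χ' hχ') (htirr η' hη')]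
      split_ifs
      · exact ⟨1, by simp⟩
      · exact ⟨0, by simp⟩
    obtain ⟨m, hm0, hm⟩ := irr_degree (hXirr χ hχ)
    obtain ⟨m', hm0', hm'⟩ := irr_degree (hXirr χ' hχ')
    obtain ⟨n, hn0, hn⟩ := irr_degree (hYirr η hη)
    obtain ⟨n', hn0', hn'⟩ := irr_degree (hYirr η' hη')
    have ha1 : ((m' : ℤ) • χ) ∈ zspan X := zspan_zsmul _ (mem_zspan hχ)
    have ha2 : ((m : ℤ) • χ') ∈ zspan X := zspan_zsmul _ (mem_zspan hχ')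
    have hb1 : ((n' : ℤ) • η) ∈ zspan Y := zspan_zsmul _ (mem_zspan hη)
    have hb2 : ((n : ℤ) • η') ∈ zspan Y := zspan_zsmul _ (mem_zspan hη')
    have ha : ((m' : ℤ) • χ - (m : ℤ) • χ') ∈ zspanOn X {1}ᶜ :=
      mem_zspanOn_one.2 ⟨zspan_sub ha1 ha2, by simp [hm, hm', mul_comm]⟩
    have hb : ((n' : ℤ) • η - (n : ℤ) • η') ∈ zspanOn Y {1}ᶜ :=
      mem_zspanOn_one.2 ⟨zspan_sub hb1 hb2, by simp [hn, hn', mul_comm]⟩
    have hE : classInner (σ ((m' : ℤ) • χ - (m : ℤ) • χ')) (τ ((n' : ℤ) • η - (n : ℤ) • η')) = 0 := by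
      rw [hσα _ ha, hτα _ hb, iso_inner hα (zspanOn_mono _ hXS ha) (zspanOn_mono _ hYS hb)]
      exact inner_zero_of_spans (iso_id hXgen) (iso_id hYgen) hXYorth _ ha.1 _ hb.1
    rw [iso_sub hσ (isZMod_zspan X) ha1 ha2, iso_sub hτ (isZMod_zspan Y) hb1 hb2,
      iso_zsmul hσ _ (mem_zspan hχ), iso_zsmul hσ _ (mem_zspan hχ'),
      iso_zsmul hτ _ (mem_zspan hη), iso_zsmul hτ _ (mem_zspan hη')] at hE
    simp only [classInner_sub_left, classInner_sub_right, classInner_zsmul_left,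
      classInner_zsmul_right, Int.cast_natCast] at hE
    have hfin : ((m' * n' + m * n * k : ℕ) : ℂ) = 0 := by
      push_cast
      linear_combination (s : ℂ) * t * hE - (m' : ℂ) * n' * e1 + (m' : ℂ) * n * e2 + (m : ℂ) * n' * e3
        - (m : ℂ) * n * e4
    have hfin' : m' * n' + m * n * k = 0 := by exact_mod_cast hfin
    have : 0 < m' * n' := Nat.mul_pos hm0' hn0'
    omega
  refine ⟨part1, ?_⟩
  rintro ⟨χ₀, hχ₀, η₀, hη₀, h00⟩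
  obtain ⟨τ₁, hτ₁, key⟩ := glue hXgen hYgen hXYorth hσ hτ part1
  have keyX : ∀ a ∈ zspan X, τ₁ a = σ a := by
    intro a ha
    have := key a ha 0 (zspan_zero Y)
    rwa [add_zero, iso_zero hτ (isZMod_zspan Y), add_zero] at this
  have keyY : ∀ b ∈ zspan Y, τ₁ b = τ b := by
    intro b hb
    have := key 0 (zspan_zero X) b hb
    rwa [zero_add, iso_zero hσ (isZMod_zspan X), zero_add] at this
  have hsubS : X ∪ Y ⊆ S := Set.union_subset hXS hYS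
  refine ⟨?_, τ₁, hτ₁, ?_⟩
  · obtain ⟨a, ha, b, hb, hab⟩ := hX2
    obtain ⟨m, hm0, hm⟩ := irr_degree (hXirr a ha)
    obtain ⟨m', hm0', hm'⟩ := irr_degree (hXirr b hb)
    refine ⟨(m' : ℤ) • a - (m : ℤ) • b, zspanOn_mono _ Set.subset_union_left
      (mem_zspanOn_one.2 ⟨zspan_sub (zspan_zsmul _ (mem_zspan ha)) (zspan_zsmul _ (mem_zspan hb)),
        by simp [hm, hm', mul_comm]⟩), ?_⟩
    intro h0
    have h1 : classInner ((m' : ℤ) • a - (m : ℤ) • b) a = 0 := by rw [h0, classInner_zero_left]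
    rw [classInner_sub_left, classInner_zsmul_left, classInner_zsmul_left,
      classInner_irr_self (hXirr a ha), classInner_irr_ne (hXirr b hb) (hXirr a ha) (Ne.symm hab)] at h1
    simp only [Int.cast_natCast, mul_one, mul_zero, sub_zero] at h1
    have : m' = 0 := by exact_mod_cast h1
    omega
  · intro θ hθ
    obtain ⟨hθs, hθ1⟩ := mem_zspanOn_one.1 hθ
    obtain ⟨a, ha, b, hb, rfl⟩ := mem_zspan_union.1 hθs
    obtain ⟨c, hc0, hc⟩ := irr_degree (hXirr χ₀ hχ₀)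
    obtain ⟨e, he0, he⟩ := irr_degree (hYirr η₀ hη₀)
    obtain ⟨m, hm⟩ := gen_apply_one (zspan_gen hXgen a ha)
    have hb1 : b 1 = -(m : ℂ) := by
      have : a 1 + b 1 = 0 := hθ1
      rw [hm] at this
      linear_combination this
    -- the three pieces
    have hA1 : ((c : ℤ) • a) ∈ zspan X := zspan_zsmul _ ha
    have hA2 : (m • χ₀) ∈ zspan X := zspan_zsmul _ (mem_zspan hχ₀)
    have hB1 : ((e : ℤ) • b) ∈ zspan Y := zspan_zsmul _ hb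
    have hB2 : (m • η₀) ∈ zspan Y := zspan_zsmul _ (mem_zspan hη₀)
    have hA : ((c : ℤ) • a - m • χ₀) ∈ zspanOn X {1}ᶜ :=
      mem_zspanOn_one.2 ⟨zspan_sub hA1 hA2, by simp [hm, hc, mul_comm]⟩
    have hB : ((e : ℤ) • b + m • η₀) ∈ zspanOn Y {1}ᶜ :=
      mem_zspanOn_one.2 ⟨zspan_add hB1 hB2, by simp [hb1, he, mul_comm]⟩
    have hD1 : ((c : ℤ) • η₀) ∈ zspan Y := zspan_zsmul _ (mem_zspan hη₀)
    have hD2 : ((e : ℤ) • χ₀) ∈ zspan X := zspan_zsmul _ (mem_zspan hχ₀)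
    have hDu : ((c : ℤ) • η₀ - (e : ℤ) • χ₀) ∈ zspan (X ∪ Y) :=
      zspan_sub (zspan_mono Set.subset_union_right hD1) (zspan_mono Set.subset_union_left hD2)
    have hD : ((c : ℤ) • η₀ - (e : ℤ) • χ₀) ∈ zspanOn (X ∪ Y) {1}ᶜ :=
      mem_zspanOn_one.2 ⟨hDu, by simp [hc, he, mul_comm]⟩
    have h00' : α ((c : ℤ) • η₀ - (e : ℤ) • χ₀) = (c : ℤ) • τ η₀ - (e : ℤ) • σ χ₀ := by
      rw [hc, he, natCast_smul_eq, natCast_smul_eq, natCast_smul_eq, natCast_smul_eq] at h00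
      exact h00
    have hdecomp : ((c : ℤ) * (e : ℤ)) • (a + b) =
        (e : ℤ) • ((c : ℤ) • a - m • χ₀) + (c : ℤ) • ((e : ℤ) • b + m • η₀)
          - m • ((c : ℤ) • η₀ - (e : ℤ) • χ₀) := by
      module
    have hZS := isZMod_zspanOn S ({1}ᶜ : Set N)
    have hZU := isZMod_zspan (X ∪ Y)
    have hAS := zspanOn_mono ({1}ᶜ : Set N) hXS hA
    have hBS := zspanOn_mono ({1}ᶜ : Set N) hYS hB
    have hDS := zspanOn_mono ({1}ᶜ : Set N) hsubS hD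
    have hAU := zspan_mono (Set.subset_union_left (t := Y)) hA.1
    have hBU := zspan_mono (Set.subset_union_right (s := X)) hB.1
    have hce : ((c : ℤ) * (e : ℤ)) ≠ 0 := by positivity
    apply zsmul_cancel hce
    rw [← iso_zsmul hτ₁ _ hθs, ← iso_zsmul hα _ (zspanOn_mono _ hsubS hθ), hdecomp]
    rw [iso_sub hτ₁ hZU (hZU.add (hZU.zsmul _ hAU) (hZU.zsmul _ hBU)) (hZU.zsmul _ hDu),
      iso_add hτ₁ (hZU.zsmul _ hAU) (hZU.zsmul _ hBU), iso_zsmul hτ₁ _ hAU, iso_zsmul hτ₁ _ hBU,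
      iso_zsmul hτ₁ _ hDu]
    rw [iso_sub hα hZS (hZS.add (hZS.zsmul _ hAS) (hZS.zsmul _ hBS)) (hZS.zsmul _ hDS),
      iso_add hα (hZS.zsmul _ hAS) (hZS.zsmul _ hBS), iso_zsmul hα _ hAS, iso_zsmul hα _ hBS,
      iso_zsmul hα _ hDS]
    rw [keyX _ hA.1, keyY _ hB.1, hσα _ hA, hτα _ hB, h00']
    congr 2
    have : (c : ℤ) • η₀ - (e : ℤ) • χ₀ = (-((e : ℤ) • χ₀)) + (c : ℤ) • η₀ := by abel
    rw [this, key _ (zspan_neg hD2) _ hD1, iso_neg hσ hD2, iso_zsmul hσ _ (mem_zspan hχ₀),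
      iso_zsmul hτ _ (mem_zspan hη₀)]
    abel

theorem result {G : Type*} [Group G] [Fintype G] (N : Subgroup G) [Fintype N] (S X Y : Set (N → ℂ)) (hirr : ∀ ξ ∈ S, Cfsg.IsIrrCharacter N ξ) (hXS : X ⊆ S) (hYS : Y ⊆ S) (hXY : Disjoint X Y) (hX2 : ∃ a ∈ X, ∃ b ∈ X, a ≠ b) (hY2 : ∃ a ∈ Y, ∃ b ∈ Y, a ≠ b) (α : (N → ℂ) → (G → ℂ)) (hα : Cfsg.IsLinearIsometryOn (Cfsg.zspanOn S {1}ᶜ) α) (hα1 : ∀ θ ∈ Cfsg.zspanOn S {1}ᶜ, α θ 1 = 0) (σ τ : (N → ℂ) → (G → ℂ)) (hσ : Cfsg.IsLinearIsometryOn (Cfsg.zspan X) σ) (hσα : ∀ θ ∈ Cfsg.zspanOn X {1}ᶜ, σ θ = α θ) (hτ : Cfsg.IsLinearIsometryOn (Cfsg.zspan Y) τ) (hτα : ∀ θ ∈ Cfsg.zspanOn Y {1}ᶜ, τ θ = α θ) : (∀ χ ∈ X, ∀ η ∈ Y, Cfsg.classInner (σ χ) (τ η) = 0) ∧ ((∃ χ₀ ∈ X, ∃ η₀ ∈ Y, α (χ₀ 1 • η₀ - η₀ 1 • χ₀) = χ₀ 1 • τ η₀ - η₀ 1 • σ χ₀) → Cfsg.IsCoherent (X ∪ Y) {1}ᶜ α) :=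
  general S X Y hirr hXS hYS hXY hX2 hY2 α hα hα1 σ τ hσ hσα hτ hτα

end Cfsg.Agent.S1531
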