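import Cfsg.Statements.S1532
import Cfsg.Agent.Lib.Helper26.SibleyCore

set_option autoImplicit false
open Cfsg

namespace Cfsg.Agent.S1532

open Cfsg.Agent.Lib Cfsg.Agent.Lib.Helper26 Cfsg.Agent.Lib.Helper15
open scoped commutatorElement

theorem aux {G : Type*} [Group G] [Fintype G] (p : ℕ) [Fact p.Prime] (hp : p ≠ 2)
    (H L : Subgroup G) [Fintype L] (hN : Subgroup.normalizer (H : Set G) = L) (hpH : IsPGroup p H)
    (hna : ¬ IsMulCommutative H) (hTI : IsTISubset (H : Set G)) (hlt : H < L)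
    (hC : ∀ k ∈ H, k ≠ 1 → Subgroup.centralizer ({k} : Set G) ≤ H) (Z : Subgroup G) (hZ1 : Z ≠ ⊥)
    (hZP : ∀ z ∈ Z, z ∈ H ∧ ∀ y ∈ H, z * y = y * z) (hZn : ∀ x ∈ L, ∀ z ∈ Z, x * z * x⁻¹ ∈ Z) :
    IsCoherent {χ : L → ℂ | IsIrrCharacter L χ ∧ ∃ z : L, (z : G) ∈ Z ∧ χ z ≠ χ 1} {1}ᶜ
      (fun α => indFun L α) := by
  classical
  have hHL : H ≤ L := hlt.le
  have hKn := SibleyCore.normal_of_normalizer H L hN
  set K := H.subgroupOf L with hKdef
  have hC' := SibleyCore.hC_of H L hC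
  have hcardK : Nat.card K = Nat.card H :=
    Nat.card_congr (Subgroup.subgroupOfEquivOfLe hHL).toEquiv
  obtain ⟨n, hn⟩ := IsPGroup.iff_card.1 hpH
  have hpodd : Odd p := (Fact.out : p.Prime).odd_of_ne_two hp
  have hKodd : Odd (Nat.card K) := by
    rw [hcardK, hn]
    exact hpodd.pow
  have hna' : ¬ ∀ x ∈ K, ∀ y ∈ K, x * y = y * x := by
    intro h
    apply hna
    apply isMulCommutative_iff.2
    intro a b
    have := h ⟨a, hHL a.2⟩ (Subgroup.mem_subgroupOf.2 a.2) ⟨b, hHL b.2⟩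
      (Subgroup.mem_subgroupOf.2 b.2)
    exact Subtype.ext (congrArg (fun w : L => (w : G)) this)
  have hodd : Odd (Nat.card L) := SibleyCore.odd_of_nonabelian K hC' hKodd hna'
  have hpK : IsPGroup p K := IsPGroup.of_card (hcardK.trans hn)
  have hnilK : Group.IsNilpotent K := hpK.isNilpotent
  have hsolv : Group.IsSolvable K := IsNilpotent.to_isSolvable
  have hKbot : K ≠ ⊥ := by
    intro h
    apply hna'
    intro x hx y hy
    rw [h, Subgroup.mem_bot] at hx hy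
    rw [hx, hy]
  have hKtop : K < ⊤ := by
    rw [lt_top_iff_ne_top]
    intro h
    rw [hKdef, Subgroup.subgroupOf_eq_top] at h
    exact absurd h (not_le_of_gt hlt)
  have hK'K : ⁅K, K⁆ < K := FrobKer.comm_lt K hnilK hKbot
  obtain ⟨hirr, R, hS⟩ := SibleyCore.setup H L hodd hTI hN hsolv hKbot hKtop hC'
  have hfrob := FrobKer.frob_quot K ⁅K, K⁆ hK'K.le hC'
  have hZL : Z ≤ L := fun z hz => hHL (hZP z hz).1
  have hZ'n : (Z.subgroupOf L).Normal := ⟨fun z hz g => by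
    rw [Subgroup.mem_subgroupOf] at hz ⊢
    exact hZn g g.2 z hz⟩
  have hZ'1 : Z.subgroupOf L ≠ ⊥ := by
    intro h
    apply hZ1
    rw [eq_bot_iff]
    intro x hx
    have hm : (⟨x, hZL hx⟩ : L) ∈ Z.subgroupOf L := Subgroup.mem_subgroupOf.2 hx
    rw [h, Subgroup.mem_bot] at hm
    exact Subgroup.mem_bot.2 (congrArg Subtype.val hm)
  obtain ⟨heq, hcoh⟩ := Cfsg.Agent.S1522.result K hsolv _ R hS hodd hnilK hK'K hKtop hfrob
    (Z.subgroupOf L) hZ'1
    (fun z hz => Subgroup.mem_subgroupOf.2 (hZP z (Subgroup.mem_subgroupOf.1 hz)).1)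
    (fun z hz k hk => Subtype.ext
      ((hZP z (Subgroup.mem_subgroupOf.1 hz)).2 k (Subgroup.mem_subgroupOf.1 hk)))
    (fun χ hχ => hirr χ hχ.1)
  rw [heq] at hcoh
  exact hcoh

/-- Let G be a finite group, p an odd prime and P a Sylow p-subgroup that is non-abelian, whose underlying set is a TI-subset of G, with P properly contained in its set normaliser N and C_G(x) ≤ P for every non-identity x ∈ P. Let Z be a nontrivial subgroup of the centre of P normalised by N. Then the set of irreducible characters χ of N with χ z ≠ χ 1 for some z ∈ Z is coherent for the map induced by induction from N to G. -/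
theorem result {G : Type*} [Group G] [Fintype G] (p : ℕ) [Fact p.Prime] (hp : p ≠ 2) (P : Sylow p G) (hna : ¬ IsMulCommutative (P : Subgroup G)) (hTI : Cfsg.IsTISubset ((P : Subgroup G) : Set G)) (hlt : (P : Subgroup G) < Subgroup.normalizer ((P : Subgroup G) : Set G)) (hC : ∀ k ∈ (P : Subgroup G), k ≠ 1 → Subgroup.centralizer ({k} : Set G) ≤ (P : Subgroup G)) [Fintype ↥(Subgroup.normalizer ((P : Subgroup G) : Set G))] (Z : Subgroup G) (hZ1 : Z ≠ ⊥) (hZP : ∀ z ∈ Z, z ∈ (P : Subgroup G) ∧ ∀ y ∈ (P : Subgroup G), z * y = y * z) (hZn : ∀ x ∈ Subgroup.normalizer ((P : Subgroup G) : Set G), ∀ z ∈ Z, x * z * x⁻¹ ∈ Z) : Cfsg.IsCoherent {χ : ↥(Subgroup.normalizer ((P : Subgroup G) : Set G)) → ℂ | Cfsg.IsIrrCharacter ↥(Subgroup.normalizer ((P : Subgroup G) : Set G)) χ ∧ ∃ z : ↥(Subgroup.normalizer ((P : Subgroup G) : Set G)), (z : G) ∈ Z ∧ χ z ≠ χ 1} {1}ᶜ (fun α => Cfsg.indFun (Subgroup.normalizer ((P : Subgroup G) : Set G)) α) := by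
  exact aux p hp (P : Subgroup G) _ rfl P.2 hna hTI hlt hC Z hZ1 hZP hZn

end Cfsg.Agent.S1532
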