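import Cfsg.Statements.S1533
import Cfsg.Agent.Lib.Helper26.FeitSibley

set_option autoImplicit false
open Cfsg

namespace Cfsg.Agent.S1533

open Cfsg.Agent.Lib Cfsg.Agent.Lib.Helper26 Cfsg.Agent.Lib.Helper15
open scoped commutatorElement

theorem aux {G : Type*} [Group G] [Fintype G] (p : ℕ) [Fact p.Prime] (hp : p ≠ 2)
    (H L : Subgroup G) [Fintype L] (hN : Subgroup.normalizer (H : Set G) = L) (hpH : IsPGroup p H)
    (hH1 : H ≠ ⊥) (hTI : IsTISubset (H : Set G)) (hlt : H < L)
    (hC : ∀ k ∈ H, k ≠ 1 → Subgroup.centralizer ({k} : Set G) ≤ H) :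
    (Nat.card {χ : L → ℂ // IsIrrCharacter L χ ∧ ∃ x : L, (x : G) ∈ H ∧ χ x ≠ χ 1} = 1 ∧
      IsElementaryAbelian p H ∧ Nat.card H = (H.subgroupOf L).index + 1) ∨
    IsCoherent {χ : L → ℂ | IsIrrCharacter L χ ∧ ∃ x : L, (x : G) ∈ H ∧ χ x ≠ χ 1} {1}ᶜ
      (fun α => indFun L α) := by
  classical
  have hHL : H ≤ L := hlt.le
  have hKn := SibleyCore.normal_of_normalizer H L hN
  set K := H.subgroupOf L with hKdef
  have hC' := SibleyCore.hC_of H L hC
  have hSeq : {χ : L → ℂ | IsIrrCharacter L χ ∧ ∃ x : L, (x : G) ∈ H ∧ χ x ≠ χ 1} =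
      inducedIrrAbove K ⊥ := (SibleyCore.S_eq K hC').symm
  have hcardK : Nat.card K = Nat.card H :=
    Nat.card_congr (Subgroup.subgroupOfEquivOfLe hHL).toEquiv
  obtain ⟨n, hn⟩ := IsPGroup.iff_card.1 hpH
  have hKbot : K ≠ ⊥ := by
    intro h
    apply hH1
    rw [eq_bot_iff]
    intro x hx
    have hm : (⟨x, hHL hx⟩ : L) ∈ K := Subgroup.mem_subgroupOf.2 hx
    rw [h, Subgroup.mem_bot] at hm
    exact Subgroup.mem_bot.2 (congrArg Subtype.val hm)
  obtain ⟨hiso, hone⟩ := Cfsg.Agent.S1524.ti_isometry H L hTI hN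
  by_cases hab : ∀ x ∈ K, ∀ y ∈ K, x * y = y * x
  · rcases FeitSibley.abelian_case K hKbot hC' hab _ hiso hone with ⟨h1, h2⟩ | h
    · left
      refine ⟨?_, ⟨?_, ?_⟩, ?_⟩
      · rw [← h1]
        exact Nat.card_congr (Equiv.subtypeEquivRight (fun χ => by
          rw [← hSeq]; rfl))
      · apply isMulCommutative_iff.2
        intro a b
        have := hab ⟨a, hHL a.2⟩ (Subgroup.mem_subgroupOf.2 a.2) ⟨b, hHL b.2⟩
          (Subgroup.mem_subgroupOf.2 b.2)
        exact Subtype.ext (congrArg (fun w : L => (w : G)) this)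
      · intro a ha
        have hpd : p ∣ Nat.card K := by
          rw [hcardK, hn]
          have hn0 : n ≠ 0 := by
            rintro rfl
            rw [pow_zero] at hn
            exact hH1 ((Subgroup.card_eq_one).1 hn)
          exact dvd_pow_self p hn0
        have := FeitSibley.pow_eq_one_of_card K hC' hab h2 p Fact.out hpd ⟨a, hHL ha⟩
          (Subgroup.mem_subgroupOf.2 ha)
        have h3 := congrArg (fun w : L => (w : G)) this
        simpa using h3
      · rw [← hcardK]; exact h2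
    · right
      rw [hSeq]
      exact h
  · right
    rw [hSeq]
    have hpodd : Odd p := (Fact.out : p.Prime).odd_of_ne_two hp
    have hKodd : Odd (Nat.card K) := by
      rw [hcardK, hn]
      exact hpodd.pow
    have hodd : Odd (Nat.card L) := SibleyCore.odd_of_nonabelian K hC' hKodd hab
    exact SibleyCore.core H L hodd hHL hH1 hlt.ne hpH.isNilpotent hC' hTI hN

/-- Let G be a finite group, p an odd prime, and P a nontrivial Sylow p-subgroup whose underlying set is a TI-subset of G, with P properly contained in its set normaliser N and C_G(x) ≤ P for every non-identity x ∈ P. Let S be the set of irreducible characters χ of N with χ x ≠ χ 1 for some x ∈ P. Then either S has exactly one member, P is elementary abelian and Nat.card P = [N:P] + 1; or (S, N minus 1, induction to G) is coherent. -/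
theorem result {G : Type*} [Group G] [Fintype G] (p : ℕ) [Fact p.Prime] (hp : p ≠ 2) (P : Sylow p G) (hP1 : (P : Subgroup G) ≠ ⊥) (hTI : Cfsg.IsTISubset ((P : Subgroup G) : Set G)) (hlt : (P : Subgroup G) < Subgroup.normalizer ((P : Subgroup G) : Set G)) (hC : ∀ k ∈ (P : Subgroup G), k ≠ 1 → Subgroup.centralizer ({k} : Set G) ≤ (P : Subgroup G)) [Fintype ↥(Subgroup.normalizer ((P : Subgroup G) : Set G))] : (Nat.card {χ : ↥(Subgroup.normalizer ((P : Subgroup G) : Set G)) → ℂ // Cfsg.IsIrrCharacter ↥(Subgroup.normalizer ((P : Subgroup G) : Set G)) χ ∧ ∃ x : ↥(Subgroup.normalizer ((P : Subgroup G) : Set G)), (x : G) ∈ (P : Subgroup G) ∧ χ x ≠ χ 1} = 1 ∧ Cfsg.IsElementaryAbelian p (P : Subgroup G) ∧ Nat.card (P : Subgroup G) = ((P : Subgroup G).subgroupOf (Subgroup.normalizer ((P : Subgroup G) : Set G))).index + 1) ∨ Cfsg.IsCoherent {χ : ↥(Subgroup.normalizer ((P : Subgroup G) : Set G)) → ℂ | Cfsg.IsIrrCharacter ↥(Subgroup.normalizer ((P : Subgroup G) : Set G)) χ ∧ ∃ x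 : ↥(Subgroup.normalizer ((P : Subgroup G) : Set G)), (x : G) ∈ (P : Subgroup G) ∧ χ x ≠ χ 1} {1}ᶜ (fun α => Cfsg.indFun (Subgroup.normalizer ((P : Subgroup G) : Set G)) α) := by
  exact aux p hp (P : Subgroup G) _ rfl P.2 hP1 hTI hlt hC

end Cfsg.Agent.S1533
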