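import Cfsg.Statements.S1536
import Cfsg.Agent.Lib.Helper26.ConjFix
import Cfsg.Agent.S1496
set_option autoImplicit false
open Cfsg

namespace Cfsg.Agent.S1536

open Cfsg.Agent.Lib.Helper26 Cfsg.Agent.Lib.Helper15

theorem eq_zpow_of_coprime {G : Type*} [Group G] {c : G} {m n : ℕ} (hmn : Nat.Coprime m n)
    (hc : c ^ n = 1) : c = (c ^ m) ^ (Nat.gcdA m n) := by
  have h1 : ((Nat.gcd m n : ℕ) : ℤ) = m * Nat.gcdA m n + n * Nat.gcdB m n := Nat.gcd_eq_gcd_ab m n
  rw [hmn] at h1
  have h2 : c = c ^ ((1 : ℕ) : ℤ) := by simp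
  rw [h1, zpow_add, zpow_mul, zpow_mul, zpow_natCast, zpow_natCast, hc, one_zpow, mul_one] at h2
  exact h2

theorem result {M : Type*} [Group M] [Finite M] (H : Subgroup M) [hN : H.Normal] (hHall : Nat.Coprime (Nat.card H) H.index) (x : M) : (∃ θ : H → ℂ, Cfsg.IsIrrCharacter H θ ∧ θ ≠ (fun _ => 1) ∧ (fun h : H => θ ⟨x * h * x⁻¹, hN.conj_mem h h.2 x⟩) = θ) ↔ ∃ h ∈ H, h ≠ 1 ∧ x * h = h * x := by
  have hiff := exists_fixed_irr_iff H x
  have hL : (∃ θ : H → ℂ, Cfsg.IsIrrCharacter H θ ∧ θ ≠ (fun _ => 1) ∧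
      (fun h : H => θ ⟨x * h * x⁻¹, hN.conj_mem h h.2 x⟩) = θ) ↔
      (∃ θ : H → ℂ, IsIrrCharacter H θ ∧ θ ≠ (fun _ => 1) ∧ cj H x θ = θ) := Iff.rfl
  rw [hL, hiff]
  constructor
  · rintro ⟨n, hn, m, hm⟩
    have hxidx : x ^ H.index ∈ H := by
      have h1 : ((x : M ⧸ H)) ^ H.index = 1 := by
        have := pow_card_eq_one' (G := M ⧸ H) (x := (x : M ⧸ H))
        rwa [← Subgroup.index_eq_card] at this
      rw [← QuotientGroup.mk_pow] at h1
      exact (QuotientGroup.eq_one_iff _).1 h1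
    by_cases hx1 : x ^ H.index = 1
    · -- order of x coprime to |H|
      have hord : Nat.Coprime (orderOf x) (Nat.card H) :=
        Nat.Coprime.coprime_dvd_left (orderOf_dvd_of_pow_eq_one hx1) hHall.symm
      have hnorm : x ∈ Subgroup.normalizer (H : Set M) := by
        have : Subgroup.normalizer (H : Set M) = ⊤ := Subgroup.normalizer_eq_top_iff.2 hN
        rw [this]; trivial
      obtain ⟨z, hz, c, hc, hcx, hzc⟩ := Cfsg.Agent.S1496.result H x hnorm hord (m : M)⁻¹ (inv_mem m.2)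
      -- y = m⁻¹ x centralizes n
      have hy : (m : M)⁻¹ * x * n = n * ((m : M)⁻¹ * x) := by
        calc (m : M)⁻¹ * x * n = (m : M)⁻¹ * (x * n * x⁻¹) * x := by group
          _ = (m : M)⁻¹ * ((m : M) * n * (m : M)⁻¹) * x := by rw [hm]
          _ = _ := by group
      set n' := z * n * z⁻¹ with hn'
      have hn'H : n' ∈ H := hN.conj_mem n n.2 z
      have hn'1 : n' ≠ 1 := by
        intro h
        apply hn
        apply Subtype.ext
        have := congrArg (fun t => z⁻¹ * t * z) h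
        simpa [hn', mul_assoc] using this
      have hcxC : c * x ∈ Subgroup.centralizer ({n'} : Set M) := by
        rw [Subgroup.mem_centralizer_singleton_iff, ← hzc, hn']
        calc z * ((m : M)⁻¹ * x) * z⁻¹ * (z * n * z⁻¹) = z * ((m : M)⁻¹ * x * n) * z⁻¹ := by group
          _ = z * (n * ((m : M)⁻¹ * x)) * z⁻¹ := by rw [hy]
          _ = _ := by group
      have hcpow : c ^ Nat.card H = 1 := by
        have := pow_card_eq_one' (G := H) (x := ⟨c, hc⟩)
        exact congrArg Subtype.val this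
      have hpow : (c * x) ^ Nat.card H = x ^ Nat.card H := by
        rw [(show Commute c x from hcx).mul_pow, hcpow, one_mul]
      have hxC : x ∈ Subgroup.centralizer ({n'} : Set M) := by
        rw [eq_zpow_of_coprime hHall hx1, ← hpow]
        exact zpow_mem (pow_mem hcxC _) _
      rw [Subgroup.mem_centralizer_singleton_iff] at hxC
      exact ⟨n', hn'H, hn'1, hxC⟩
    · refine ⟨x ^ H.index, hxidx, hx1, ?_⟩
      rw [← pow_succ', ← pow_succ]
  · rintro ⟨h, hh, h1, hx⟩
    refine ⟨⟨h, hh⟩, fun hc => h1 (congrArg Subtype.val hc), 1, ?_⟩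
    simp only [OneMemClass.coe_one, one_mul, inv_one, mul_one]
    rw [hx]; group

end Cfsg.Agent.S1536
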