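import Cfsg.Statements.S1546
import Mathlib
set_option autoImplicit false
open Cfsg

namespace Cfsg.Agent.S1546

theorem geom_modEq (p q m : ℕ) (h : p ≡ 1 [MOD m]) : (∑ i ∈ Finset.range q, p ^ i) ≡ q [MOD m] := by
  induction q with
  | zero => simp; rfl
  | succ n ih =>
    rw [Finset.sum_range_succ]
    have : p ^ n ≡ 1 [MOD m] := by simpa using h.pow n
    exact ih.add this

theorem result (p q : ℕ) (hp : p.Prime) (hq : q.Prime) (hp2 : p ≠ 2) (hq2 : q ≠ 2) : Odd ((p ^ q - 1) / (p - 1)) ∧ (p % q = 1 → q ∣ (p ^ q - 1) / (p - 1)) ∧ (p % q ≠ 1 → Nat.Coprime ((p ^ q - 1) / (p - 1)) (p - 1) ∧ ∀ x : ℕ, x ∣ (p ^ q - 1) / (p - 1) → x % q = 1) := by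
  have hp2' : 2 ≤ p := hp.two_le
  rw [← Nat.geomSum_eq hp2' q]
  set N := ∑ i ∈ Finset.range q, p ^ i with hN
  have hpodd : Odd p := hp.odd_of_ne_two hp2
  have hqodd : Odd q := hq.odd_of_ne_two hq2
  have hq1 : 1 < q := hq.one_lt
  have hmul : N * (p - 1) = p ^ q - 1 := by
    have := Nat.geomSum_eq hp2' q
    have hd : (p - 1) ∣ p ^ q - 1 := by
      simpa using Nat.sub_dvd_pow_sub_pow p 1 q
    rw [hN, this, Nat.div_mul_cancel hd]
  have hNpos : 0 < N := by
    rcases Nat.eq_zero_or_pos N with h | h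
    · rw [h] at hmul
      have : 1 < p ^ q := Nat.one_lt_pow (by omega) (by omega)
      omega
    · exact h
  refine ⟨?_, ?_, ?_⟩
  · have h1 : p ≡ 1 [MOD 2] := by
      rcases hpodd with ⟨k, rfl⟩
      simp [Nat.ModEq, Nat.add_mod]
    have h2 := geom_modEq p q 2 h1
    rw [Nat.odd_iff] at hqodd ⊢
    rw [← hqodd]; exact h2
  · intro h
    have h1 : p ≡ 1 [MOD q] := by
      simp [Nat.ModEq, h, Nat.mod_eq_of_lt hq1]
    have h2 := geom_modEq p q q h1
    exact (Nat.modEq_zero_iff_dvd).1 (h2.trans (by simp [Nat.ModEq]))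
  · intro h
    have hnd : ¬ q ∣ p - 1 := by
      intro hd
      apply h
      obtain ⟨k, hk⟩ := hd
      have : p = q * k + 1 := by omega
      rw [this]
      simp [Nat.add_mod, Nat.mod_eq_of_lt hq1]
    have hcop : Nat.Coprime N (p - 1) := by
      have h1 : p ≡ 1 [MOD (p - 1)] := by
        have : p = 1 + (p - 1) := by omega
        conv_lhs => rw [this]
        simp [Nat.ModEq]
      have h2 := geom_modEq p q (p - 1) h1
      have h3 : Nat.gcd N (p - 1) = Nat.gcd q (p - 1) := h2.gcd_eq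
      rw [Nat.Coprime, h3]
      exact (Nat.Prime.coprime_iff_not_dvd hq).2 hnd
    refine ⟨hcop, ?_⟩
    intro x
    induction x using Nat.recOnMul with
    | zero => intro h0; exact absurd (Nat.eq_zero_of_zero_dvd h0) hNpos.ne'
    | one => intro _; exact Nat.mod_eq_of_lt hq1
    | prime r hr =>
      intro hrN
      have := Fact.mk hr
      have := Fact.mk hq
      have hr1 : r ∣ p ^ q - 1 := by rw [← hmul]; exact Dvd.dvd.mul_right hrN _
      have hpq : ((p : ZMod r)) ^ q = 1 := by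
        have h1 : ((p ^ q - 1 : ℕ) : ZMod r) = 0 := (ZMod.natCast_eq_zero_iff _ _).2 hr1
        have h2 : 1 ≤ p ^ q := Nat.one_le_pow _ _ (by omega)
        rw [Nat.cast_sub h2] at h1
        push_cast at h1
        exact sub_eq_zero.1 h1
      have hp1 : (p : ZMod r) ≠ 1 := by
        intro h1
        have h2 : ((p - 1 : ℕ) : ZMod r) = 0 := by
          rw [Nat.cast_sub (by omega)]; simp [h1]
        have h3 : r ∣ p - 1 := (ZMod.natCast_eq_zero_iff _ _).1 h2
        have h4 : r ∣ Nat.gcd N (p - 1) := Nat.dvd_gcd hrN h3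
        rw [hcop] at h4
        exact hr.one_lt.ne' (Nat.dvd_one.1 h4)
      have hord : orderOf (p : ZMod r) = q := orderOf_eq_prime hpq hp1
      have hp0 : (p : ZMod r) ≠ 0 := by
        intro h0
        rw [h0, zero_pow (by omega)] at hpq
        exact zero_ne_one hpq
      have hdvd : q ∣ r - 1 := by
        rw [← hord]
        exact ZMod.orderOf_dvd_card_sub_one hp0
      obtain ⟨k, hk⟩ := hdvd
      have : r = q * k + 1 := by have := hr.one_lt; omega
      rw [this]
      simp [Nat.add_mod, Nat.mod_eq_of_lt hq1]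
    | mul a b iha ihb =>
      intro hab
      have ha := iha (Dvd.dvd.trans (Dvd.intro _ rfl) hab)
      have hb := ihb (Dvd.dvd.trans (Dvd.intro_left _ rfl) hab)
      rw [Nat.mul_mod, ha, hb]
      simp [Nat.mod_eq_of_lt hq1]

end Cfsg.Agent.S1546
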