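import Cfsg.Statements.S1551
import Cfsg.Agent.Lib.Helper30.SextetKer

set_option autoImplicit false
open scoped Pointwise
open Cfsg

namespace Cfsg.Agent.S1551

open Cfsg.Agent.Lib.Helper27 Cfsg.Agent.Lib.Helper30

/-- the inclusion of the stabiliser into the symmetric group. -/
def incl (S : Finset (Finset GolayPt)) : ↥(MulAction.stabilizer M24 S) →* Equiv.Perm GolayPt :=
  M24.subtype.comp (MulAction.stabilizer M24 S).subtype

theorem incl_apply (S : Finset (Finset GolayPt)) (g : ↥(MulAction.stabilizer M24 S)) :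
    incl S g = ((g : M24) : Equiv.Perm GolayPt) := rfl

theorem incl_smul (S : Finset (Finset GolayPt)) (g : ↥(MulAction.stabilizer M24 S)) :
    incl S g • S = S := g.2

theorem incl_injective (S : Finset (Finset GolayPt)) : Function.Injective (incl S) :=
  fun _ _ h => Subtype.ext (Subtype.ext h)

/-- Structure of a sextet stabiliser: it induces every permutation of the six tetrads, the subgroup fixing each tetrad setwise has order 192, and there is a normal subgroup of order 64 consisting of elements squaring to the identity. -/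
theorem result (S : Finset (Finset Cfsg.GolayPt)) (hS : S ∈ Cfsg.sextets) : (∀ e : Equiv.Perm ↥S, ∃ g ∈ MulAction.stabilizer Cfsg.M24 S, ∀ t : ↥S, (g : Equiv.Perm Cfsg.GolayPt) • (t : Finset Cfsg.GolayPt) = ((e t : ↥S) : Finset Cfsg.GolayPt)) ∧ Nat.card {g : ↥(MulAction.stabilizer Cfsg.M24 S) // ∀ t ∈ S, ((g : Cfsg.M24) : Equiv.Perm Cfsg.GolayPt) • t = t} = 192 ∧ ∃ N : Subgroup ↥(MulAction.stabilizer Cfsg.M24 S), N.Normal ∧ Nat.card N = 64 ∧ ∀ x ∈ N, x * x = 1 := by
  refine ⟨?_, ?_, (sexSq hS).comap (incl S), ?_, ?_, ?_⟩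
  · intro e
    obtain ⟨g, rfl⟩ := sexRes_surjective hS e
    exact ⟨⟨g.1, g.2.1⟩, g.2.2, fun t => rfl⟩
  · rw [← card_sexKer hS]
    apply Nat.card_congr
    exact ⟨fun g => ⟨g.1.1.1, g.1.1.2, g.2⟩,
      fun k => ⟨⟨⟨k.1, k.2.1⟩, smul_eq_of_mem_sexKer k.2⟩, k.2.2⟩,
      fun g => rfl, fun g => rfl⟩
  · constructor
    intro n hn g
    rw [Subgroup.mem_comap, mem_sexSq] at hn ⊢
    rw [map_mul, map_mul, map_inv]
    constructor
    · have := conj_mem_sexKer (g := incl S g) g.1.2 hn.1
      rwa [incl_smul] at this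
    · calc incl S g * incl S n * (incl S g)⁻¹ * (incl S g * incl S n * (incl S g)⁻¹)
          = incl S g * (incl S n * incl S n) * (incl S g)⁻¹ := by group
        _ = 1 := by rw [hn.2]; group
  · rw [← card_sexSq hS]
    apply Nat.card_congr
    exact ⟨fun x => ⟨incl S x.1, x.2⟩,
      fun k => ⟨⟨⟨k.1, k.2.1.1⟩, smul_eq_of_mem_sexKer k.2.1⟩, k.2⟩,
      fun g => rfl, fun g => rfl⟩
  · intro x hx
    apply incl_injective S
    rw [map_mul, map_one]
    exact hx.2

end Cfsg.Agent.S1551
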