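import Cfsg.Statements.S1555
import Cfsg.Agent.Lib.Helper27.Steiner
import Cfsg.Agent.Lib.Helper93.Steiner

set_option autoImplicit false
open Cfsg

namespace Cfsg.Agent.S1555

open Cfsg.Agent.Lib.Helper27 Cfsg.Agent.Lib.Helper93.St

theorem count (o : Finset GolayPt) (ho : o ∈ octads) (s : Finset GolayPt) (hs : s ⊆ o) :
    ({o' : Finset GolayPt | o' ∈ octads ∧ o ∩ o' = s}.ncard : ℤ) = tri n24 (8 - s.card) s.card := by
  classical
  rw [ncard_eq_card_filter]
  have h := card_inter_eq (blocks octads) o n24
    (fun J hJ => through_eq_of_block steiner_octads (by norm_num) n24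
      (by simpa using small24) big24 ho J hJ) hs
  rw [ho.2] at h
  rw [← h]
  congr 2
  apply Finset.filter_congr
  intro b _
  rw [Finset.inter_comm]

/-- Bottom row of the Leech triangle: an octad is met in a prescribed pair of its points by exactly 16 octads and in a prescribed 4-subset by exactly 4 octads. -/
theorem result (o : Finset Cfsg.GolayPt) (ho : o ∈ Cfsg.octads) (s : Finset Cfsg.GolayPt) (hs : s ⊆ o) : (s.card = 2 → {o' : Finset Cfsg.GolayPt | o' ∈ Cfsg.octads ∧ o ∩ o' = s}.ncard = 16) ∧ (s.card = 4 → {o' : Finset Cfsg.GolayPt | o' ∈ Cfsg.octads ∧ o ∩ o' = s}.ncard = 4) := by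
  have h := count o ho s hs
  constructor
  · intro h2
    rw [h2] at h
    have : tri n24 (8 - 2) 2 = 16 := by decide
    rw [this] at h
    exact_mod_cast h
  · intro h4
    rw [h4] at h
    have : tri n24 (8 - 4) 4 = 4 := by decide
    rw [this] at h
    exact_mod_cast h

end Cfsg.Agent.S1555
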