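import Cfsg.Statements.S1557
import Cfsg.Agent.S1555

set_option autoImplicit false
open scoped Pointwise
open Cfsg

namespace Cfsg.Agent.S1557

open Cfsg.Agent.Lib.Helper27 Cfsg.Agent.Lib.Helper93.St

theorem third (o o' : Finset GolayPt) (ho : o ∈ octads) (ho' : o' ∈ octads) (hd : Disjoint o o') :
    (o ∪ o')ᶜ ∈ octads := by
  have h1 := (mem_octads_iff o).1 ho
  have h2 := (mem_octads_iff o').1 ho'
  have hu : o ∪ o' = symmDiff o o' := by
    exact hd.symmDiff_eq_sup.symm
  refine ⟨?_, ?_⟩
  · rw [mem_supports_iff, mask_compl, hu, mask_symmDiff]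
    exact isCode_xor (isCode_xor h1.1 h2.1) (by decide +kernel)
  · rw [Finset.card_compl, Finset.card_union_of_disjoint hd, ho.2, ho'.2]
    decide

theorem card_octads : (blocks octads).card = 759 := by
  have h := through_eq steiner_octads (by norm_num) n24 (by simpa using small24) ∅ (by simp)
  simp only [Finset.empty_subset, Finset.filter_true, Finset.card_empty] at h
  have : n24 0 = 759 := by decide
  rw [this] at h
  exact_mod_cast h

theorem card_disj (o : Finset GolayPt) (ho : o ∈ octads) :
    ((blocks octads).filter (fun o' => Disjoint o o')).card = 30 := by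
  have h := Cfsg.Agent.S1555.count o ho ∅ (by simp)
  rw [ncard_eq_card_filter] at h
  have : tri n24 (8 - (∅ : Finset GolayPt).card) (∅ : Finset GolayPt).card = 30 := by decide
  rw [this] at h
  have h' : ((blocks octads).filter (fun o' => o ∩ o' = ∅)).card = 30 := by exact_mod_cast h
  rw [← h']
  congr 1
  apply Finset.filter_congr
  intro b _
  exact Finset.disjoint_iff_inter_eq_empty

/-- ordered pairs of disjoint octads -/
noncomputable def P : Finset (Finset GolayPt × Finset GolayPt) :=
  ((blocks octads) ×ˢ (blocks octads)).filter (fun p => Disjoint p.1 p.2)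

/-- the trio of a pair -/
def f : Finset GolayPt × Finset GolayPt → Finset (Finset GolayPt) :=
  fun p => {p.1, p.2, (p.1 ∪ p.2)ᶜ}

theorem card_P : P.card = 759 * 30 := by
  rw [P, Finset.card_filter, Finset.sum_product]
  have : ∀ o ∈ blocks octads, (∑ o' ∈ blocks octads, if Disjoint (o, o').1 (o, o').2 then 1 else 0) = 30 := by
    intro o ho
    rw [← Finset.card_filter]
    exact card_disj o (mem_blocks.1 ho)
  rw [Finset.sum_congr rfl this, Finset.sum_const, card_octads, smul_eq_mul]

theorem hne : ∀ o o' : Finset GolayPt, o ∈ octads → Disjoint o o' → o ≠ o' := by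
  intro o o' ho hd h
  subst h
  rw [disjoint_self] at hd
  have := ho.2
  rw [hd] at this
  simp at this

theorem hmaps : (P : Set (Finset GolayPt × Finset GolayPt)).MapsTo f (blocks trios) := by
  rintro ⟨o, o'⟩ hp
  simp only [P, Finset.coe_filter, Finset.mem_product, mem_blocks, Set.mem_ofPred_eq] at hp
  obtain ⟨⟨ho, ho'⟩, hd⟩ := hp
  have h3 := third o o' ho ho' hd
  have hd1 : Disjoint o (o ∪ o')ᶜ := by
    rw [Finset.disjoint_left]; intro x hx; simp [hx]
  have hd2 : Disjoint o' (o ∪ o')ᶜ := by
    rw [Finset.disjoint_left]; intro x hx; simp [hx]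
  simp only [Finset.mem_coe, mem_blocks, f]
  refine ⟨?_, ?_, ?_⟩
  · rw [Finset.card_eq_three]
    exact ⟨o, o', _, hne _ _ ho hd, hne _ _ ho hd1, hne _ _ ho' hd2, rfl⟩
  · intro x hx
    simp only [Finset.mem_insert, Finset.mem_singleton] at hx
    rcases hx with rfl | rfl | rfl <;> assumption
  · intro x hx y hy hxy
    simp only [Finset.mem_insert, Finset.mem_singleton] at hx hy
    rcases hx with rfl | rfl | rfl <;> rcases hy with rfl | rfl | rfl <;>
      first
        | exact absurd rfl hxy
        | assumption
        | (apply Disjoint.symm; assumption)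

theorem hfib : ∀ T ∈ blocks trios, (P.filter (fun p => f p = T)).card = 6 := by
  intro T hT
  rw [mem_blocks] at hT
  obtain ⟨hc, hoct, hdis⟩ := hT
  have : P.filter (fun p => f p = T) = T.offDiag := by
    ext ⟨o, o'⟩
    rw [Finset.mem_filter, P, Finset.mem_filter]
    simp only [Finset.mem_product, mem_blocks, Finset.mem_offDiag, f]
    constructor
    · rintro ⟨⟨⟨ho, ho'⟩, hd⟩, rfl⟩
      exact ⟨by simp, by simp, hne _ _ ho hd⟩
    · rintro ⟨ho, ho', hn⟩
      have hd := hdis o ho o' ho' hn
      refine ⟨⟨⟨hoct o ho, hoct o' ho'⟩, hd⟩, ?_⟩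
      -- the third member
      obtain ⟨a, b, c, hab, hac, hbc, rfl⟩ := Finset.card_eq_three.1 hc
      have key : ∀ x y z : Finset GolayPt, x ∈ octads → y ∈ octads → z ∈ octads →
          Disjoint x y → Disjoint x z → Disjoint y z → (x ∪ y)ᶜ = z := by
        intro x y z hx hy hz hxy hxz hyz
        symm
        apply Finset.eq_of_subset_of_card_le
        · intro t ht
          simp only [Finset.mem_compl, Finset.mem_union, not_or]
          exact ⟨fun h => (Finset.disjoint_left.1 hxz h ht), fun h => (Finset.disjoint_left.1 hyz h ht)⟩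
        · rw [(third x y hx hy hxy).2, hz.2]
      have ha := hoct a (by simp)
      have hb := hoct b (by simp)
      have hcc := hoct c (by simp)
      have dab := hdis a (by simp) b (by simp) hab
      have dac := hdis a (by simp) c (by simp) hac
      have dbc := hdis b (by simp) c (by simp) hbc
      simp only [Finset.mem_insert, Finset.mem_singleton] at ho ho'
      rcases ho with rfl | rfl | rfl <;> rcases ho' with rfl | rfl | rfl
      · exact absurd rfl hn
      · rw [key _ _ _ ha hb hcc dab dac dbc]
      · rw [key _ _ _ ha hcc hb dac dab dbc.symm]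
        ext t; simp only [Finset.mem_insert, Finset.mem_singleton]; tauto
      · rw [key _ _ _ hb ha hcc dab.symm dbc dac]
        ext t; simp only [Finset.mem_insert, Finset.mem_singleton]; tauto
      · exact absurd rfl hn
      · rw [key _ _ _ hb hcc ha dbc dab.symm dac.symm]
        ext t; simp only [Finset.mem_insert, Finset.mem_singleton]; tauto
      · rw [key _ _ _ hcc ha hb dac.symm dbc.symm dab]
        ext t; simp only [Finset.mem_insert, Finset.mem_singleton]; tauto
      · rw [key _ _ _ hcc hb ha dbc.symm dac.symm dab.symm]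
        ext t; simp only [Finset.mem_insert, Finset.mem_singleton]; tauto
      · exact absurd rfl hn
  rw [this, Finset.offDiag_card, hc]

theorem fiber_count {α β : Type*} [DecidableEq β] (s : Finset α) (t : Finset β) (g : α → β)
    (hm : (s : Set α).MapsTo g t) (k : ℕ) (hk : ∀ b ∈ t, (s.filter (fun a => g a = b)).card = k) :
    s.card = t.card * k := by
  rw [Finset.card_eq_sum_card_fiberwise hm, Finset.sum_congr rfl hk, Finset.sum_const, smul_eq_mul]

theorem aux (n : ℕ) (h : 759 * 30 = n * 6) : n = 3795 := by omega

theorem card_trios : (blocks trios).card = 3795 :=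
  aux _ (card_P.symm.trans (fiber_count P (blocks trios) f hmaps 6 hfib))

/-- The complement of the union of two disjoint octads is an octad, and the code has exactly 3795 trios of pairwise disjoint octads. -/
theorem result : (∀ o o' : Finset Cfsg.GolayPt, o ∈ Cfsg.octads → o' ∈ Cfsg.octads → Disjoint o o' → (o ∪ o')ᶜ ∈ Cfsg.octads) ∧ Cfsg.trios.ncard = 3795 := by
  refine ⟨third, ?_⟩
  rw [ncard_eq_card_blocks]
  exact card_trios

end Cfsg.Agent.S1557
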