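import Cfsg.Statements.S1558
import Cfsg.Agent.Lib.Helper56.Trio.M6
import Cfsg.Agent.Lib.Helper56.Trio.TR
import Cfsg.Agent.Lib.Helper56.Trio.D1

set_option autoImplicit false
open scoped Pointwise
open Cfsg

namespace Cfsg.Agent.S1558

/-- Structure of a trio stabiliser: every permutation of the three octads is induced, and there is a normal subgroup of order 64 of elements squaring to the identity whose quotient is isomorphic to the product of GL(3, 2) with the symmetric group of degree 3. -/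
theorem result (T : Finset (Finset Cfsg.GolayPt)) (hT : T ∈ Cfsg.trios) : (∀ e : Equiv.Perm ↥T, ∃ g ∈ MulAction.stabilizer Cfsg.M24 T, ∀ o : ↥T, (g : Equiv.Perm Cfsg.GolayPt) • (o : Finset Cfsg.GolayPt) = ((e o : ↥T) : Finset Cfsg.GolayPt)) ∧ ∃ (N : Subgroup ↥(MulAction.stabilizer Cfsg.M24 T)) (_ : N.Normal), Nat.card N = 64 ∧ (∀ x ∈ N, x * x = 1) ∧ Nonempty (↥(MulAction.stabilizer Cfsg.M24 T) ⧸ N ≃* GL (Fin 3) (ZMod 2) × Equiv.Perm (Fin 3)) := by
  obtain ⟨k, hk, rfl⟩ := Cfsg.Agent.Lib.Helper93.Eng.trios_transitive Cfsg.Agent.Lib.Helper56.Trio.T0_mem hT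
  exact Cfsg.Agent.Lib.Helper56.Trio.stmt_smul Cfsg.Agent.Lib.Helper56.Trio.T0 ⟨k, hk⟩
    Cfsg.Agent.Lib.Helper56.Trio.stmt_T0

end Cfsg.Agent.S1558
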