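import Cfsg.Statements.S1560
import Cfsg.Agent.Lib.Helper27.Dodecad
import Cfsg.Agent.Lib.Helper92.GolayCount

set_option autoImplicit false
open Cfsg

namespace Cfsg.Agent.S1560

open Cfsg.Agent.Lib.Helper27 Cfsg.Agent.Lib.Helper92
open scoped Pointwise

theorem ncard_transport {g : Equiv.Perm GolayPt} (hg : g ∈ M24) (d : Finset GolayPt) (k : ℕ) :
    {d' : Finset GolayPt | d' ∈ dodecads ∧ (d ∩ d').card = k}.ncard =
      {e : Finset GolayPt | e ∈ dodecads ∧ ((g • d) ∩ e).card = k}.ncard := by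
  have : {e : Finset GolayPt | e ∈ dodecads ∧ ((g • d) ∩ e).card = k} =
      (fun s : Finset GolayPt => g • s) '' {d' : Finset GolayPt | d' ∈ dodecads ∧ (d ∩ d').card = k} := by
    ext e
    constructor
    · rintro ⟨h1, h2⟩
      refine ⟨g⁻¹ • e, ⟨smul_mem_dodecads (M24.inv_mem hg) h1, ?_⟩, smul_inv_smul g e⟩
      rw [← h2, ← Finset.card_smul_finset g (d ∩ g⁻¹ • e), Finset.smul_finset_inter, smul_inv_smul]
    · rintro ⟨d', ⟨h1, h2⟩, rfl⟩
      refine ⟨smul_mem_dodecads hg h1, ?_⟩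
      show (g • d ∩ g • d').card = k
      rw [← Finset.smul_finset_inter, Finset.card_smul_finset, h2]
  rw [this, Set.ncard_image_of_injective _ (MulAction.injective g)]

theorem count_std (k : ℕ) :
    {e : Finset GolayPt | e ∈ dodecads ∧ (unmask stdDodecad ∩ e).card = k}.ncard =
      countBelow (fun j => band (Nat.beq (pc (enc j)) 12)
        (Nat.beq (pc (Nat.land stdDodecad (enc j))) k)) 4096 := by
  rw [← ncard_codeSet (fun m => band (Nat.beq (pc m) 12) (Nat.beq (pc (Nat.land stdDodecad m)) k))]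
  congr 1
  ext s
  simp only [Set.mem_ofPred_eq, band_eq, Bool.and_eq_true, Nat.beq_eq]
  rw [mem_dodecads_iff, mem_supports_iff, card_eq_pc, mask_inter,
    mask_unmask (show stdDodecad < 2 ^ 24 by decide +kernel)]
  exact and_assoc

/-- Let d be a dodecad. -/
theorem result (d : Finset Cfsg.GolayPt) (hd : d ∈ Cfsg.dodecads) : (∀ d' ∈ Cfsg.dodecads, d' ≠ d → (d ∩ d').card = 0 ∨ (d ∩ d').card = 4 ∨ (d ∩ d').card = 6 ∨ (d ∩ d').card = 8) ∧ {d' : Finset Cfsg.GolayPt | d' ∈ Cfsg.dodecads ∧ (d ∩ d').card = 4}.ncard = 495 ∧ {d' : Finset Cfsg.GolayPt | d' ∈ Cfsg.dodecads ∧ (d ∩ d').card = 6}.ncard = 1584 ∧ {d' : Finset Cfsg.GolayPt | d' ∈ Cfsg.dodecads ∧ (d ∩ d').card = 8}.ncard = 495 := by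
  obtain ⟨g, hg, hgd⟩ := dodecad_to_std hd
  refine ⟨?_, ?_, ?_, ?_⟩
  · intro d' hd' hne
    have h1 := (mem_dodecads_iff d).1 hd
    have h2 := (mem_dodecads_iff d').1 hd'
    have hx := isCode_xor h1.1 h2.1
    have hadd := pc_xor_add (mask_lt d) (mask_lt d')
    rw [card_eq_pc, mask_inter]
    rcases pc_of_isCode hx with h0 | h0 | h0 | h0 | h0
    · exfalso
      apply hne
      have := eq_zero_of_pc_eq_zero (isCode_lt hx) h0
      exact (mask_injective (Nat.xor_eq_zero_iff.1 this)).symm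
    · right; right; right; omega
    · right; right; left; omega
    · right; left; omega
    · left; omega
  · rw [ncard_transport hg, hgd, count_std]; decide +kernel
  · rw [ncard_transport hg, hgd, count_std]; decide +kernel
  · rw [ncard_transport hg, hgd, count_std]; decide +kernel

end Cfsg.Agent.S1560
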