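import Cfsg.Statements.S1562
import Cfsg.Agent.Lib.Helper30.M24Six
import Cfsg.Agent.Lib.Helper93.Steiner

set_option autoImplicit false
open scoped Pointwise
open Cfsg

namespace Cfsg.Agent.S1562

open Cfsg.Agent.Lib.Helper27 Cfsg.Agent.Lib.Helper30 Cfsg.Agent.Lib.Helper93.St

/-- the triads disjoint from `T` lying with `T` in a common octad, as a finset. -/
noncomputable def specialTriads (T : Finset GolayPt) : Finset (Finset GolayPt) :=
  ((blocks octads).filter (T ⊆ ·)).biUnion (fun o => (o \ T).powersetCard 3)

theorem mem_specialTriads (T U : Finset GolayPt) :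
    U ∈ specialTriads T ↔ U.card = 3 ∧ Disjoint T U ∧ ∃ o ∈ octads, T ∪ U ⊆ o := by
  simp only [specialTriads, Finset.mem_biUnion, Finset.mem_filter, mem_blocks,
    Finset.mem_powersetCard]
  constructor
  · rintro ⟨o, ⟨ho, hTo⟩, hU, hc⟩
    refine ⟨hc, ?_, o, ho, Finset.union_subset hTo (hU.trans Finset.sdiff_subset)⟩
    rw [Finset.disjoint_right]
    intro x hx
    exact (Finset.mem_sdiff.mp (hU hx)).2
  · rintro ⟨hc, hd, o, ho, hTU⟩
    refine ⟨o, ⟨ho, Finset.union_subset_left hTU⟩, ?_, hc⟩
    intro x hx
    rw [Finset.mem_sdiff]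
    exact ⟨hTU (Finset.mem_union_right _ hx), Finset.disjoint_right.mp hd hx⟩

theorem card_specialTriads (T : Finset GolayPt) (hT : T.card = 3) : (specialTriads T).card = 210 := by
  unfold specialTriads
  rw [Finset.card_biUnion]
  · have h1 : ∀ o ∈ (blocks octads).filter (T ⊆ ·), ((o \ T).powersetCard 3).card = 10 := by
      intro o ho
      rw [Finset.mem_filter, mem_blocks] at ho
      rw [Finset.card_powersetCard, Finset.card_sdiff_of_subset ho.2, ho.1.2, hT]
      decide
    rw [Finset.sum_congr rfl h1, Finset.sum_const, smul_eq_mul]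
    have h2 := card_through steiner_octads T (by rw [hT]; norm_num)
    rw [hT] at h2
    have h3 : Fintype.card GolayPt = 24 := by decide
    rw [h3] at h2
    have h4 : Nat.choose (8 - 3) (5 - 3) = 10 := by decide
    have h5 : Nat.choose (24 - 3) (5 - 3) = 210 := by decide
    rw [h4, h5] at h2
    exact h2
  · intro o ho o' ho' hne
    rw [Finset.mem_coe, Finset.mem_filter, mem_blocks] at ho ho'
    rw [Function.onFun, Finset.disjoint_left]
    intro U hU hU'
    rw [Finset.mem_powersetCard] at hU hU'
    apply hne
    apply octads_eq_of_inter ho.1 ho'.1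
    have hd : Disjoint T U := by
      rw [Finset.disjoint_right]
      intro x hx
      exact (Finset.mem_sdiff.mp (hU.1 hx)).2
    have hsub : T ∪ U ⊆ o ∩ o' := by
      apply Finset.subset_inter
      · exact Finset.union_subset ho.2 (hU.1.trans Finset.sdiff_subset)
      · exact Finset.union_subset ho'.2 (hU'.1.trans Finset.sdiff_subset)
    have := Finset.card_le_card hsub
    rw [Finset.card_union_of_disjoint hd, hT, hU.2] at this
    omega

theorem special_iff {A o : Finset GolayPt} {f : GolayPt} (hA : A.card = 5) (ho : o ∈ octads)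
    (hAo : A ⊆ o) : (∃ o' ∈ octads, insert f A ⊆ o') ↔ f ∈ o := by
  constructor
  · rintro ⟨o', ho', hsub⟩
    have : o' = o := by
      apply octads_eq_of_inter ho' ho
      rw [← hA]
      apply Finset.card_le_card
      exact Finset.subset_inter ((Finset.subset_insert f A).trans hsub) hAo
    rw [← this]
    exact hsub (Finset.mem_insert_self f A)
  · intro hf
    exact ⟨o, ho, Finset.insert_subset hf hAo⟩

/-- Orbits of a triad stabiliser on the triads disjoint from it: the 210 triads inside a common octad with it form one orbit and the remaining 1120 another. -/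
theorem result (T : Finset Cfsg.GolayPt) (hT : T.card = 3) : {U : Finset Cfsg.GolayPt | U.card = 3 ∧ Disjoint T U ∧ (∃ o ∈ Cfsg.octads, T ∪ U ⊆ o)}.ncard = 210 ∧ {U : Finset Cfsg.GolayPt | U.card = 3 ∧ Disjoint T U ∧ ¬ (∃ o ∈ Cfsg.octads, T ∪ U ⊆ o)}.ncard = 1120 ∧ ∀ U U' : Finset Cfsg.GolayPt, U.card = 3 → U'.card = 3 → Disjoint T U → Disjoint T U' → ((∃ o ∈ Cfsg.octads, T ∪ U ⊆ o) ↔ (∃ o ∈ Cfsg.octads, T ∪ U' ⊆ o)) → ∃ g : Equiv.Perm Cfsg.GolayPt, g ∈ Cfsg.M24 ∧ g • T = T ∧ g • U = U' := by
  refine ⟨?_, ?_, ?_⟩
  · have : {U : Finset GolayPt | U.card = 3 ∧ Disjoint T U ∧ (∃ o ∈ octads, T ∪ U ⊆ o)} =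
        (specialTriads T : Set (Finset GolayPt)) := by
      ext U
      rw [Finset.mem_coe, mem_specialTriads]; rfl
    rw [this, Set.ncard_coe_finset, card_specialTriads T hT]
  · have : {U : Finset GolayPt | U.card = 3 ∧ Disjoint T U ∧ ¬ (∃ o ∈ octads, T ∪ U ⊆ o)} =
        ((Tᶜ.powersetCard 3 \ specialTriads T : Finset (Finset GolayPt)) : Set (Finset GolayPt)) := by
      ext U
      rw [Finset.mem_coe, Finset.mem_sdiff, mem_specialTriads, Finset.mem_powersetCard]
      constructor
      · rintro ⟨h1, h2, h3⟩
        refine ⟨⟨?_, h1⟩, fun h => h3 h.2.2⟩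
        intro x hx
        rw [Finset.mem_compl]
        exact Finset.disjoint_right.mp h2 hx
      · rintro ⟨⟨h1, h2⟩, h3⟩
        have hd : Disjoint T U := by
          rw [Finset.disjoint_right]
          intro x hx
          exact Finset.mem_compl.mp (h1 hx)
        exact ⟨h2, hd, fun h => h3 ⟨h2, hd, h⟩⟩
    rw [this, Set.ncard_coe_finset, Finset.card_sdiff_of_subset, card_specialTriads T hT,
      Finset.card_powersetCard, Finset.card_compl, hT]
    · decide
    · intro U hU
      rw [mem_specialTriads] at hU
      rw [Finset.mem_powersetCard]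
      refine ⟨?_, hU.1⟩
      intro x hx
      rw [Finset.mem_compl]
      exact Finset.disjoint_right.mp hU.2.1 hx
  · intro U U' hU hU' hd hd' hiff
    obtain ⟨d, e, f, hde, hdf, hef, rfl⟩ := Finset.card_eq_three.mp hU
    obtain ⟨d', e', f', hde', hdf', hef', rfl⟩ := Finset.card_eq_three.mp hU'
    simp only [Finset.disjoint_insert_right, Finset.disjoint_singleton_right] at hd hd'
    obtain ⟨hdT, heT, hfT⟩ := hd
    obtain ⟨hdT', heT', hfT'⟩ := hd'
    -- the 5-sets
    set A : Finset GolayPt := insert d (insert e T) with hA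
    set A' : Finset GolayPt := insert d' (insert e' T) with hA'
    have hAc : A.card = 5 := by
      rw [hA, Finset.card_insert_of_notMem, Finset.card_insert_of_notMem heT, hT]
      rw [Finset.mem_insert]; push Not; exact ⟨hde, hdT⟩
    have hAc' : A'.card = 5 := by
      rw [hA', Finset.card_insert_of_notMem, Finset.card_insert_of_notMem heT', hT]
      rw [Finset.mem_insert]; push Not; exact ⟨hde', hdT'⟩
    have hfA : f ∉ A := by
      rw [hA, Finset.mem_insert, Finset.mem_insert]; push Not
      exact ⟨hdf.symm, hef.symm, hfT⟩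
    have hfA' : f' ∉ A' := by
      rw [hA', Finset.mem_insert, Finset.mem_insert]; push Not
      exact ⟨hdf'.symm, hef'.symm, hfT'⟩
    have e1 : T ∪ {d, e, f} = insert f A := by
      ext x; simp only [hA, Finset.mem_union, Finset.mem_insert, Finset.mem_singleton]; tauto
    have e2 : T ∪ {d', e', f'} = insert f' A' := by
      ext x; simp only [hA', Finset.mem_union, Finset.mem_insert, Finset.mem_singleton]; tauto
    rw [e1, e2] at hiff
    obtain ⟨o, ho, hAo⟩ := exists_octad A hAc
    -- first element
    obtain ⟨g, hg, hgA⟩ := exists_M24_of_injOn A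
      (fun z => if z = d then d' else if z = e then e' else z) hAc.le (by
        intro u hu v hv huv
        simp only at huv
        have hmem : ∀ w ∈ A, w ≠ d → w ≠ e → w ∈ T := by
          intro w hw h1 h2
          rw [hA, Finset.mem_insert, Finset.mem_insert] at hw
          tauto
        by_cases hu1 : u = d <;> by_cases hv1 : v = d
        · rw [hu1, hv1]
        · exfalso
          rw [if_pos hu1, if_neg hv1] at huv
          by_cases hv2 : v = e
          · rw [if_pos hv2] at huv; exact hde' huv
          · rw [if_neg hv2] at huv; exact hdT' (huv ▸ hmem v hv hv1 hv2)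
        · exfalso
          rw [if_neg hu1, if_pos hv1] at huv
          by_cases hu2 : u = e
          · rw [if_pos hu2] at huv; exact hde' huv.symm
          · rw [if_neg hu2] at huv; exact hdT' (huv ▸ hmem u hu hu1 hu2)
        · rw [if_neg hu1, if_neg hv1] at huv
          by_cases hu2 : u = e <;> by_cases hv2 : v = e
          · rw [hu2, hv2]
          · exfalso
            rw [if_pos hu2, if_neg hv2] at huv
            exact heT' (huv ▸ hmem v hv hv1 hv2)
          · exfalso
            rw [if_neg hu2, if_pos hv2] at huv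
            exact heT' (huv ▸ hmem u hu hu1 hu2)
          · rwa [if_neg hu2, if_neg hv2] at huv)
    have hgd : g d = d' := by
      rw [hgA d (by rw [hA]; exact Finset.mem_insert_self _ _), if_pos rfl]
    have hge : g e = e' := by
      rw [hgA e (by rw [hA]; exact Finset.mem_insert_of_mem (Finset.mem_insert_self _ _)),
        if_neg hde.symm, if_pos rfl]
    have hgT : ∀ x ∈ T, g x = x := by
      intro x hx
      rw [hgA x (by rw [hA]; exact Finset.mem_insert_of_mem (Finset.mem_insert_of_mem hx)),
        if_neg (by rintro rfl; exact hdT hx), if_neg (by rintro rfl; exact heT hx)]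
    have hgTs : g • T = T := smul_eq_of_fixes hgT
    have hgAs : g • A = A' := by
      rw [hA, hA', Finset.smul_finset_insert, Finset.smul_finset_insert, hgTs]
      change insert (g d) (insert (g e) T) = _
      rw [hgd, hge]
    have ho' : g • o ∈ octads := smul_mem_octads hg ho
    have hAo' : A' ⊆ g • o := by
      rw [← hgAs]; exact Finset.smul_finset_subset_smul_finset hAo
    have hgf : g f ∉ A' := by
      rw [← hgAs]
      intro hc
      exact hfA ((Finset.smul_mem_smul_finset_iff g).mp hc)
    have hiff' : g f ∈ g • o ↔ f' ∈ g • o := by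
      rw [← special_iff (f := f') hAc' ho' hAo', ← hiff, special_iff hAc ho hAo]
      exact Finset.smul_mem_smul_finset_iff g
    obtain ⟨k, hk, hkA, hkf⟩ := exists_fix_five hAc' ho' hAo' hgf hfA' hiff'
    have hkT : ∀ x ∈ T, k x = x := fun x hx =>
      hkA x (by rw [hA']; exact Finset.mem_insert_of_mem (Finset.mem_insert_of_mem hx))
    refine ⟨k * g, M24.mul_mem hk hg, ?_, ?_⟩
    · rw [mul_smul, hgTs]; exact smul_eq_of_fixes hkT
    · rw [Finset.smul_finset_insert, Finset.smul_finset_insert, Finset.smul_finset_singleton]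
      change insert (k (g d)) (insert (k (g e)) {k (g f)}) = _
      rw [hgd, hge, hkf, hkA d' (by rw [hA']; exact Finset.mem_insert_self _ _),
        hkA e' (by rw [hA']; exact Finset.mem_insert_of_mem (Finset.mem_insert_self _ _))]

end Cfsg.Agent.S1562
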