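import Cfsg.Statements.S1564
import Cfsg.Agent.S0366
import Cfsg.Agent.Lib.Helper30.SetStabMax

set_option autoImplicit false
open scoped Pointwise
open Cfsg

namespace Cfsg.Agent.S1564

/-- The stabiliser of a set of three points (setwise) is a maximal proper subgroup of the group of the length-24 code. -/
theorem result (s : Finset Cfsg.GolayPt) (hs : s.card = 3) : IsCoatom (MulAction.stabilizer Cfsg.M24 s) := by
  have h5 : MulAction.IsMultiplyPretransitive Cfsg.M24 Cfsg.GolayPt 5 := Cfsg.Agent.S0366.result
  have hc : Fintype.card Cfsg.GolayPt = 24 := by decide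
  have hG := Cfsg.Agent.Lib.Helper30.extendsInj_of_isMultiplyPretransitive (G := Cfsg.M24)
    (Ω := Cfsg.GolayPt) 5 (by rw [Nat.card_eq_fintype_card, hc]; norm_num)
  apply Cfsg.Agent.Lib.Helper30.isCoatom_stabilizer_finset 5 hG s
  · rw [← Finset.card_pos, hs]; norm_num
  · rw [hs]
  · rw [hs, hc]; norm_num

end Cfsg.Agent.S1564
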