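import Cfsg.Statements.S1565
import Cfsg.Agent.S1556
import Cfsg.Agent.Lib.Helper26.Coatom
import Cfsg.Agent.Lib.Helper27.OctadFlags
import Cfsg.Agent.Lib.Helper92.GolayCount

set_option autoImplicit false
open scoped Pointwise
open Cfsg

namespace Cfsg.Agent.S1565

open Cfsg.Agent.Lib.Helper27 Cfsg.Agent.Lib.Helper92
open scoped Pointwise

theorem ncard_transport {g : Equiv.Perm GolayPt} (hg : g ∈ M24) (d : Finset GolayPt) (k : ℕ) :
    {d' : Finset GolayPt | d' ∈ octads ∧ (d ∩ d').card = k}.ncard =
      {e : Finset GolayPt | e ∈ octads ∧ ((g • d) ∩ e).card = k}.ncard := by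
  have : {e : Finset GolayPt | e ∈ octads ∧ ((g • d) ∩ e).card = k} =
      (fun s : Finset GolayPt => g • s) '' {d' : Finset GolayPt | d' ∈ octads ∧ (d ∩ d').card = k} := by
    ext e
    constructor
    · rintro ⟨h1, h2⟩
      refine ⟨g⁻¹ • e, ⟨smul_mem_octads (M24.inv_mem hg) h1, ?_⟩, smul_inv_smul g e⟩
      rw [← h2, ← Finset.card_smul_finset g (d ∩ g⁻¹ • e), Finset.smul_finset_inter, smul_inv_smul]
    · rintro ⟨d', ⟨h1, h2⟩, rfl⟩
      refine ⟨smul_mem_octads hg h1, ?_⟩
      show (g • d ∩ g • d').card = k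
      rw [← Finset.smul_finset_inter, Finset.card_smul_finset, h2]
  rw [this, Set.ncard_image_of_injective _ (MulAction.injective g)]

theorem count_std (k : ℕ) :
    {e : Finset GolayPt | e ∈ octads ∧ (unmask stdOctad ∩ e).card = k}.ncard =
      countBelow (fun j => band (Nat.beq (pc (enc j)) 8)
        (Nat.beq (pc (Nat.land stdOctad (enc j))) k)) 4096 := by
  rw [← ncard_codeSet (fun m => band (Nat.beq (pc m) 8) (Nat.beq (pc (Nat.land stdOctad m)) k))]
  congr 1
  ext s
  simp only [Set.mem_ofPred_eq, band_eq, Bool.and_eq_true, Nat.beq_eq]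
  rw [mem_octads_iff, mem_supports_iff, card_eq_pc, mask_inter,
    mask_unmask (show stdOctad < 2 ^ 24 by decide +kernel)]
  exact and_assoc

/-- suborbit lengths -/
def subLen (i : ℕ) : ℕ := if i = 0 then 30 else if i = 2 then 448 else if i = 4 then 280 else 1

theorem orbit_eq {o : Finset GolayPt} (ho : o ∈ octads) (y : Finset GolayPt) :
    y ∈ MulAction.orbit M24 o ↔ y ∈ octads := by
  constructor
  · rintro ⟨g, rfl⟩
    exact smul_mem_octads g.2 ho
  · intro hy
    obtain ⟨g, hg, h⟩ := octads_transitive ho hy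
    exact ⟨⟨g, hg⟩, h⟩

/-- The stabiliser of an octad is a maximal proper subgroup of the group of the length-24 code. -/
theorem result (o : Finset Cfsg.GolayPt) (ho : o ∈ Cfsg.octads) : IsCoatom (MulAction.stabilizer Cfsg.M24 o) := by
  obtain ⟨g, hg, hgo⟩ := octad_to_std ho
  apply Cfsg.Agent.Lib.Helper26.isCoatom_of_suborbits o (MulAction.stabilizer Cfsg.M24 o) le_rfl
    (fun y => (o ∩ y).card) {0, 2, 4, 8} subLen
  · intro y hy
    rw [orbit_eq ho] at hy
    have := octad_inter_card ho hy
    simp only [Finset.mem_insert, Finset.mem_singleton]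
    exact this
  · intro i hi
    have e : {y | y ∈ MulAction.orbit M24 o ∧ (o ∩ y).card = i}
        = {d' : Finset GolayPt | d' ∈ octads ∧ (o ∩ d').card = i} := by
      ext y
      simp only [Set.mem_ofPred_eq, orbit_eq ho]
    rw [e, ncard_transport hg, hgo, count_std]
    simp only [Finset.mem_insert, Finset.mem_singleton] at hi
    rcases hi with rfl | rfl | rfl | rfl <;> decide +kernel
  · intro y hy z hz hyz
    rw [orbit_eq ho] at hy hz
    obtain ⟨k, hk, hko, hky⟩ := Cfsg.Agent.S1556.result o y z ho hy hz hyz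
    exact ⟨⟨k, hk⟩, hko, hky⟩
  · intro h hh
    rw [MulAction.mem_stabilizer_iff.1 hh]
  · intro i hi
    simp only [Finset.mem_insert, Finset.mem_singleton] at hi
    rcases hi with rfl | rfl | rfl | rfl <;> decide
  · show (o ∩ o).card = 8
    rw [Finset.inter_self]; exact ho.2
  · decide
  · decide

end Cfsg.Agent.S1565
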