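import Cfsg.Statements.S1566
import Cfsg.Agent.S1561
import Cfsg.Agent.S1560
import Cfsg.Agent.Lib.Helper26.Coatom
import Cfsg.Agent.Lib.Helper27.Dodecad
import Cfsg.Agent.Lib.Helper92.GolayCount
import Cfsg.Agent.Lib.Helper7.LeechBasic

set_option autoImplicit false
open scoped Pointwise
open Cfsg

namespace Cfsg.Agent.S1566

open Cfsg.Agent.Lib.Helper27 Cfsg.Agent.Lib.Helper92
open scoped Pointwise

/-- the type of a dodecad relative to a fixed one, from the size of the intersection -/
def typ (k : ℕ) : ℕ := k * (12 - k)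

theorem ncard_transport {g : Equiv.Perm GolayPt} (hg : g ∈ M24) (d : Finset GolayPt) (k : ℕ) :
    {d' : Finset GolayPt | d' ∈ dodecads ∧ typ (d ∩ d').card = k}.ncard =
      {e : Finset GolayPt | e ∈ dodecads ∧ typ ((g • d) ∩ e).card = k}.ncard := by
  have : {e : Finset GolayPt | e ∈ dodecads ∧ typ ((g • d) ∩ e).card = k} =
      (fun s : Finset GolayPt => g • s) ''
        {d' : Finset GolayPt | d' ∈ dodecads ∧ typ (d ∩ d').card = k} := by
    ext e
    constructor
    · rintro ⟨h1, h2⟩
      refine ⟨g⁻¹ • e, ⟨smul_mem_dodecads (M24.inv_mem hg) h1, ?_⟩, smul_inv_smul g e⟩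
      rw [← h2, ← Finset.card_smul_finset g (d ∩ g⁻¹ • e), Finset.smul_finset_inter, smul_inv_smul]
    · rintro ⟨d', ⟨h1, h2⟩, rfl⟩
      refine ⟨smul_mem_dodecads hg h1, ?_⟩
      show typ (g • d ∩ g • d').card = k
      rw [← Finset.smul_finset_inter, Finset.card_smul_finset, h2]
  rw [this, Set.ncard_image_of_injective _ (MulAction.injective g)]

theorem count_std (k : ℕ) :
    {e : Finset GolayPt | e ∈ dodecads ∧ typ (unmask stdDodecad ∩ e).card = k}.ncard =
      countBelow (fun j => band (Nat.beq (pc (enc j)) 12)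
        (Nat.beq (typ (pc (Nat.land stdDodecad (enc j)))) k)) 4096 := by
  rw [← ncard_codeSet (fun m => band (Nat.beq (pc m) 12)
    (Nat.beq (typ (pc (Nat.land stdDodecad m))) k))]
  congr 1
  ext s
  simp only [Set.mem_ofPred_eq, band_eq, Bool.and_eq_true, Nat.beq_eq]
  rw [mem_dodecads_iff, mem_supports_iff, card_eq_pc, mask_inter,
    mask_unmask (show stdDodecad < 2 ^ 24 by decide +kernel)]
  exact and_assoc

/-- suborbit lengths -/
def subLen (i : ℕ) : ℕ := if i = 0 then 2 else if i = 32 then 990 else 1584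

theorem orbit_eq {o : Finset GolayPt} (ho : o ∈ dodecads) (y : Finset GolayPt) :
    y ∈ MulAction.orbit M24 o ↔ y ∈ dodecads := by
  constructor
  · rintro ⟨g, rfl⟩
    exact smul_mem_dodecads g.2 ho
  · intro hy
    obtain ⟨g, hg, h⟩ := dodecads_transitive ho hy
    exact ⟨⟨g, hg⟩, h⟩

theorem smul_compl (k : Equiv.Perm GolayPt) (s : Finset GolayPt) : k • sᶜ = (k • s)ᶜ := by
  rw [Finset.compl_eq_univ_sdiff, Finset.smul_finset_sdiff, Finset.smul_finset_univ,
    Finset.compl_eq_univ_sdiff]

theorem compl_mem_dodecads {d : Finset GolayPt} (hd : d ∈ dodecads) : dᶜ ∈ dodecads := by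
  refine ⟨Cfsg.Agent.Lib.Helper7.GC_compl hd.1, ?_⟩
  rw [Finset.card_compl, hd.2]
  simp [ZMod.card]

theorem card_compl_inter {d y : Finset GolayPt} (hy : y ∈ dodecads) :
    (dᶜ ∩ y).card = 12 - (d ∩ y).card := by
  have h1 : (y ∩ d).card + (y \ d).card = y.card := Finset.card_inter_add_card_sdiff y d
  have h2 : dᶜ ∩ y = y \ d := by
    ext p; simp [and_comm]
  rw [h2, Finset.inter_comm d y]
  have := hy.2
  omega

theorem inter_cases {d y : Finset GolayPt} (hd : d ∈ dodecads) (hy : y ∈ dodecads) :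
    (d ∩ y).card = 0 ∨ (d ∩ y).card = 4 ∨ (d ∩ y).card = 6 ∨ (d ∩ y).card = 8 ∨
      (d ∩ y).card = 12 := by
  by_cases h : y = d
  · subst h
    rw [Finset.inter_self, hd.2]; simp
  · rcases (Cfsg.Agent.S1560.result d hd).1 y hy h with h | h | h | h <;> simp [h]

/-- The setwise stabiliser of a dodecad together with its complement is a maximal proper subgroup of the group of the length-24 code. -/
theorem result (d : Finset Cfsg.GolayPt) (hd : d ∈ Cfsg.dodecads) : IsCoatom (MulAction.stabilizer Cfsg.M24 ({d, dᶜ} : Finset (Finset Cfsg.GolayPt))) := by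
  obtain ⟨g, hg, hgd⟩ := dodecad_to_std hd
  have hdc := compl_mem_dodecads hd
  -- an element swapping `d` and its complement
  obtain ⟨w, hw, hwd⟩ := dodecads_transitive hd hdc
  have hwdc : w • dᶜ = d := by
    rw [smul_compl, hwd, compl_compl]
  have memH : ∀ k : Equiv.Perm GolayPt, ∀ hk : k ∈ M24, (k • d = d ∨ k • d = dᶜ) →
      (⟨k, hk⟩ : M24) ∈ MulAction.stabilizer Cfsg.M24 ({d, dᶜ} : Finset (Finset Cfsg.GolayPt)) := by
    intro k hk h
    rw [MulAction.mem_stabilizer_iff]
    show k • ({d, dᶜ} : Finset (Finset Cfsg.GolayPt)) = {d, dᶜ}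
    rw [Finset.smul_finset_insert, Finset.smul_finset_singleton, smul_compl]
    rcases h with h | h
    · rw [h]
    · rw [h, compl_compl, Finset.pair_comm]
  apply Cfsg.Agent.Lib.Helper26.isCoatom_of_suborbits d
    (MulAction.stabilizer Cfsg.M24 ({d, dᶜ} : Finset (Finset Cfsg.GolayPt))) ?_
    (fun y => typ (d ∩ y).card) {0, 32, 36} subLen
  · intro y hy
    rw [orbit_eq hd] at hy
    simp only [Finset.mem_insert, Finset.mem_singleton]
    rcases inter_cases hd hy with h | h | h | h | h <;> rw [h] <;> decide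
  · intro i hi
    have e : {y | y ∈ MulAction.orbit M24 d ∧ typ (d ∩ y).card = i}
        = {d' : Finset GolayPt | d' ∈ dodecads ∧ typ (d ∩ d').card = i} := by
      ext y
      simp only [Set.mem_ofPred_eq, orbit_eq hd]
    rw [e, ncard_transport hg, hgd, count_std]
    simp only [Finset.mem_insert, Finset.mem_singleton] at hi
    rcases hi with rfl | rfl | rfl <;> decide +kernel
  · intro y hy z hz hyz
    rw [orbit_eq hd] at hy hz
    by_cases heq : (d ∩ y).card = (d ∩ z).card
    · obtain ⟨k, hk, hkd, hky⟩ := Cfsg.Agent.S1561.result d y z hd hy hz heq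
      exact ⟨⟨k, hk⟩, memH k hk (Or.inl hkd), hky⟩
    · have hwy : w • y ∈ dodecads := smul_mem_dodecads hw hy
      have h1 : (d ∩ w • y).card = 12 - (d ∩ y).card := by
        rw [← card_compl_inter hy, ← Finset.card_smul_finset w (dᶜ ∩ y), Finset.smul_finset_inter,
          hwdc]
      have h2 : (d ∩ w • y).card = (d ∩ z).card := by
        rw [h1]
        have hyz' : typ (d ∩ y).card = typ (d ∩ z).card := hyz
        rcases inter_cases hd hy with h | h | h | h | h <;>
          rcases inter_cases hd hz with h' | h' | h' | h' | h' <;>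
          rw [h, h'] at hyz' heq <;> first
            | (exfalso; revert hyz'; decide)
            | (exfalso; exact heq rfl)
            | (rw [h, h'])
      obtain ⟨k, hk, hkd, hky⟩ := Cfsg.Agent.S1561.result d (w • y) z hd hwy hz h2
      refine ⟨⟨k * w, M24.mul_mem hk hw⟩, memH (k * w) _ (Or.inr ?_), ?_⟩
      · rw [mul_smul, hwd, smul_compl, hkd]
      · show (k * w) • y = z
        rw [mul_smul, hky]
  · intro h hh
    rw [MulAction.mem_stabilizer_iff] at hh
    have h1 : h • d ∈ h • ({d, dᶜ} : Finset (Finset Cfsg.GolayPt)) :=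
      Finset.smul_mem_smul_finset (by simp)
    rw [hh] at h1
    simp only [Finset.mem_insert, Finset.mem_singleton] at h1
    show typ (d ∩ h • d).card = typ (d ∩ d).card
    rcases h1 with h1 | h1
    · rw [h1]
    · rw [h1, Finset.inter_self, hd.2]
      have : d ∩ dᶜ = ∅ := by simp
      rw [this]; decide
  · intro i hi
    simp only [Finset.mem_insert, Finset.mem_singleton] at hi
    rcases hi with rfl | rfl | rfl <;> decide
  · show typ (d ∩ d).card = 0
    rw [Finset.inter_self, hd.2]; decide
  · decide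
  · decide
  · intro k hk
    exact memH k.1 k.2 (Or.inl (MulAction.mem_stabilizer_iff.1 hk))

end Cfsg.Agent.S1566
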