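import Cfsg.Statements.S1567
import Cfsg.Agent.Lib.Helper7.LeechBasic
import Cfsg.Agent.Lib.Helper27.OctadSpan

set_option autoImplicit false
open Cfsg

namespace Cfsg.Agent.S1567

open Cfsg.Agent.Lib.Helper7 Cfsg.Agent.Lib.Helper27

/-- the subgroup generated by the minimal vectors -/
def M : AddSubgroup (GolayPt → ℤ) :=
  AddSubgroup.closure {x : GolayPt → ℤ | x ∈ leechLattice ∧ sqNorm x = 32}

theorem M_le : M ≤ leechLattice := by
  rw [M, AddSubgroup.closure_le]
  exact fun x hx => hx.1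

theorem mem_M {x : GolayPt → ℤ} (h1 : x ∈ leechSet) (h2 : sqNorm x = 32) : x ∈ M :=
  AddSubgroup.subset_closure ⟨(mem_leechLattice_iff x).2 h1, h2⟩

theorem four_mem_leechSet {x : GolayPt → ℤ} (h4 : ∀ i, (4 : ℤ) ∣ x i) (h8 : (8 : ℤ) ∣ ∑ i, x i) :
    x ∈ leechSet := by
  rw [mem_leechSet_iff]
  refine ⟨0, fun i => ?_, ?_, ?_⟩
  · have := h4 i
    simp only [Int.ModEq]; omega
  · simp only [Int.ModEq]; omega
  · have : (Finset.univ.filter fun i => x i ≡ 0 + 2 [ZMOD 4]) = ∅ := by
      ext i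
      have := h4 i
      simp only [Finset.mem_filter, Finset.mem_univ, true_and, Finset.notMem_empty, iff_false]
      simp only [Int.ModEq]
      omega
    rw [this]; exact GC_empty

/-- `4 (e_i - e_∞)` -/
def dd (i : GolayPt) : GolayPt → ℤ := Pi.single i 4 - Pi.single none 4
/-- `4 (e_∞ + e_0)` -/
def sp : GolayPt → ℤ := Pi.single none 4 + Pi.single (some 0) 4
/-- `4 (e_∞ - e_0)` -/
def sm : GolayPt → ℤ := Pi.single none 4 - Pi.single (some 0) 4

theorem dd_facts : ∀ i : GolayPt, (∀ j, (4 : ℤ) ∣ dd i j) ∧ (∑ j, dd i j = 0) ∧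
    (i ≠ none → sqNorm (dd i) = 32) := by
  decide +kernel

theorem sp_facts : (∀ j, (4 : ℤ) ∣ sp j) ∧ (∑ j, sp j = 8) ∧ sqNorm sp = 32 := by
  decide +kernel

theorem sm_facts : (∀ j, (4 : ℤ) ∣ sm j) ∧ (∑ j, sm j = 0) ∧ sqNorm sm = 32 := by
  decide +kernel

theorem dd_mem (i : GolayPt) : dd i ∈ M := by
  by_cases hi : i = none
  · subst hi
    have : dd none = 0 := by unfold dd; simp
    rw [this]; exact M.zero_mem
  · obtain ⟨h1, h2, h3⟩ := dd_facts i
    exact mem_M (four_mem_leechSet h1 (by rw [h2]; exact dvd_zero _)) (h3 hi)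

theorem eight_mem : (Pi.single none 8 : GolayPt → ℤ) ∈ M := by
  have h1 : sp ∈ M := mem_M (four_mem_leechSet sp_facts.1 (by rw [sp_facts.2.1])) sp_facts.2.2
  have h2 : sm ∈ M :=
    mem_M (four_mem_leechSet sm_facts.1 (by rw [sm_facts.2.1]; exact dvd_zero _)) sm_facts.2.2
  have : (Pi.single none 8 : GolayPt → ℤ) = sp + sm := by
    unfold sp sm
    rw [add_add_sub_cancel, ← Pi.single_add]
    norm_num
  rw [this]; exact M.add_mem h1 h2

theorem lemA (z : GolayPt → ℤ) (h4 : ∀ i, (4 : ℤ) ∣ z i) (h8 : (8 : ℤ) ∣ ∑ i, z i) : z ∈ M := by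
  choose a ha using h4
  obtain ⟨k, hk⟩ := h8
  have hsum : ∑ i, a i = 2 * k := by
    have : ∑ i, z i = 4 * ∑ i, a i := by
      rw [Finset.mul_sum]; exact Finset.sum_congr rfl (fun i _ => ha i)
    omega
  have hz : z = ∑ i, a i • dd i + k • (Pi.single none 8 : GolayPt → ℤ) := by
    funext j
    rw [Pi.add_apply, Finset.sum_apply, Pi.smul_apply]
    simp only [Pi.smul_apply, dd, Pi.sub_apply, smul_eq_mul, mul_sub, Finset.sum_sub_distrib]
    simp only [Pi.single_apply, mul_ite, mul_zero, Finset.sum_ite_eq, Finset.mem_univ, if_true]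
    by_cases hj : j = none
    · subst hj
      simp only [if_true]
      rw [← Finset.sum_mul, hsum, ha]
      ring
    · simp only [hj, if_false, Finset.sum_const_zero]
      rw [ha]; ring
  rw [hz]
  exact M.add_mem (AddSubgroup.sum_mem _ (fun i _ => M.zsmul_mem (dd_mem i) _))
    (M.zsmul_mem eight_mem _)

theorem lemB {m : ℕ} (hm : isCode m = true) :
    ∃ y ∈ M, ∀ i, y i % 4 = if m.testBit (idx i) = true then 2 else 0 := by
  refine isCode_induction
    (fun m => ∃ y ∈ M, ∀ i, y i % 4 = if m.testBit (idx i) = true then 2 else 0) ?_ ?_ ?_ hm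
  · exact ⟨0, M.zero_mem, fun i => by simp⟩
  · rintro a b _ _ ⟨y, hy, hy'⟩ ⟨w, hw, hw'⟩
    refine ⟨y + w, M.add_mem hy hw, fun i => ?_⟩
    have h1 := hy' i
    have h2 := hw' i
    rw [Nat.testBit_xor, Pi.add_apply]
    cases ha : a.testBit (idx i) <;> cases hb : b.testBit (idx i) <;>
      simp only [ha, hb, if_true, if_false, Bool.false_eq_true, Bool.xor_false, Bool.xor_true,
        Bool.not_false, Bool.not_true] at h1 h2 ⊢ <;> omega
  · intro o ho h8
    have hlt := isCode_lt ho
    have hoct : unmask o ∈ octads := by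
      rw [mem_octads_iff, mask_unmask hlt]; exact ⟨ho, h8⟩
    refine ⟨fun i => if i ∈ unmask o then 2 else 0, mem_M ?_ ?_, fun i => ?_⟩
    · rw [mem_leechSet_iff]
      refine ⟨0, fun i => ?_, ?_, ?_⟩
      · simp only [Int.ModEq]; split_ifs <;> rfl
      · rw [Finset.sum_ite_mem, Finset.univ_inter, Finset.sum_const, hoct.2]
        rfl
      · have : (Finset.univ.filter fun i => (if i ∈ unmask o then (2 : ℤ) else 0) ≡ 0 + 2 [ZMOD 4])
            = unmask o := by
          ext i
          simp only [Finset.mem_filter, Finset.mem_univ, true_and]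
          simp only [Int.ModEq]
          split_ifs with h
          · simp [h]
          · simp [h]
        rw [this]; exact hoct.1
    · unfold sqNorm
      have : ∀ i : GolayPt, (if i ∈ unmask o then (2 : ℤ) else 0) ^ 2 = if i ∈ unmask o then 4 else 0 := by
        intro i; split_ifs <;> norm_num
      rw [Finset.sum_congr rfl (fun i _ => this i), Finset.sum_ite_mem, Finset.univ_inter,
        Finset.sum_const, hoct.2]
      rfl
    · simp only [mem_unmask]
      split_ifs <;> rfl

theorem sum_of_even {w : GolayPt → ℤ} (hw : w ∈ leechLattice) (he : (2 : ℤ) ∣ w none) :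
    (∀ i, (2 : ℤ) ∣ w i) ∧ (8 : ℤ) ∣ ∑ i, w i := by
  rw [mem_leechLattice_iff] at hw
  obtain ⟨m, h1, h2, _⟩ := hw
  have h0 := h1 none
  simp only [Int.ModEq] at h0 h1 h2
  refine ⟨fun i => ?_, ?_⟩
  · have := h1 i; omega
  · omega

theorem even_case {x : GolayPt → ℤ} (hx : x ∈ leechLattice) (he : (2 : ℤ) ∣ x none) : x ∈ M := by
  have hx' := (mem_leechLattice_iff x).1 hx
  obtain ⟨m, _, _, h3⟩ := hx'
  have hC := h3 2
  rw [mem_supports_iff] at hC
  obtain ⟨y, hy, hy'⟩ := lemB hC
  have hev := (sum_of_even hx he).1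
  have hz4 : ∀ i, (4 : ℤ) ∣ (x - y) i := by
    intro i
    have h1 := hy' i
    have h2 := hev i
    rw [Pi.sub_apply]
    by_cases h : i ∈ (Finset.univ.filter fun i => x i ≡ 2 [ZMOD 4])
    · rw [if_pos ((mem_iff_testBit _ _).1 h)] at h1
      rw [Finset.mem_filter] at h
      have h3 := h.2
      simp only [Int.ModEq] at h3
      omega
    · rw [if_neg (fun hh => h ((mem_iff_testBit _ _).2 hh))] at h1
      rw [Finset.mem_filter] at h
      simp only [Finset.mem_univ, true_and] at h
      simp only [Int.ModEq] at h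
      omega
  have hz : x - y ∈ leechLattice := leechLattice.sub_mem hx (M_le hy)
  have h8 := (sum_of_even hz (Dvd.dvd.trans (by norm_num) (hz4 none))).2
  have := M.add_mem (lemA _ hz4 h8) hy
  rwa [sub_add_cancel] at this

/-- `(-3, 1^23)` -/
def u0 : GolayPt → ℤ := fun i => if i = none then -3 else 1

theorem u0_facts : (∀ i, u0 i % 4 = 1) ∧ (∑ i, u0 i = 20) ∧ sqNorm u0 = 32 := by
  decide +kernel

theorem u0_mem : u0 ∈ M := by
  apply mem_M _ u0_facts.2.2
  rw [mem_leechSet_iff]
  refine ⟨1, fun i => ?_, ?_, ?_⟩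
  · have := u0_facts.1 i
    simp only [Int.ModEq]; omega
  · rw [u0_facts.2.1]; rfl
  · have : (Finset.univ.filter fun i => u0 i ≡ 1 + 2 [ZMOD 4]) = ∅ := by
      ext i
      have := u0_facts.1 i
      simp only [Finset.mem_filter, Finset.mem_univ, true_and, Finset.notMem_empty, iff_false]
      simp only [Int.ModEq]
      omega
    rw [this]; exact GC_empty

/-- The rank-24 lattice is the additive subgroup generated by its 196560 minimal vectors. -/
theorem result : AddSubgroup.closure {x : Cfsg.GolayPt → ℤ | x ∈ Cfsg.leechLattice ∧ Cfsg.sqNorm x = 32} = Cfsg.leechLattice := by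
  apply le_antisymm M_le
  intro x hx
  change x ∈ M
  by_cases he : (2 : ℤ) ∣ x none
  · exact even_case hx he
  · have h1 : x - u0 ∈ leechLattice := leechLattice.sub_mem hx (M_le u0_mem)
    have h2 : (2 : ℤ) ∣ (x - u0) none := by
      rw [Pi.sub_apply]
      have : u0 none = -3 := rfl
      rw [this]; omega
    have := M.add_mem (even_case h1 h2) u0_mem
    rwa [sub_add_cancel] at this

end Cfsg.Agent.S1567
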