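import Cfsg.Statements.S1568
import Cfsg.Agent.Lib.Helper26.LeechShape
import Cfsg.Agent.S0395

set_option autoImplicit false
open Cfsg

namespace Cfsg.Agent.S1568

open Cfsg.Agent.Lib.Helper7 Cfsg.Agent.Lib.Helper26.LeechShape

/-- square, capped at 49 -/
def cap (v : ℤ) : ℕ := if v.natAbs ≤ 6 then v.natAbs ^ 2 else 49
def φa (v : ℤ) : ℕ := if v = 0 then 0 else if v.natAbs = 2 then 4 else 49
def φc (v : ℤ) : ℕ := if v.natAbs = 4 then 49 else cap v
def φd (v : ℤ) : ℕ := if v.natAbs = 5 then 49 else cap v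
def φb (v : ℤ) : ℕ := 25 * cap v + (if v.natAbs = 3 then 1 else 0)

theorem natAbs_le_six (x : GolayPt → ℤ) (h : sqNorm x = 48) (i : GolayPt) : (x i).natAbs ≤ 6 := by
  have h3 : (x i) ^ 2 ≤ 48 := by
    calc (x i) ^ 2 ≤ ∑ i, x i ^ 2 :=
          Finset.single_le_sum (f := fun i => x i ^ 2) (fun i _ => sq_nonneg _) (Finset.mem_univ i)
      _ = sqNorm x := rfl
      _ = 48 := h
  have h4 : ((x i).natAbs : ℤ) ^ 2 ≤ 48 := by rw [Int.natCast_natAbs, sq_abs]; exact h3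
  have h5 : (x i).natAbs ^ 2 ≤ 48 := by exact_mod_cast h4
  by_contra hc
  push Not at hc
  have : 7 ^ 2 ≤ (x i).natAbs ^ 2 := Nat.pow_le_pow_left hc 2
  omega

theorem eeg_iff (φ : ℤ → ℕ) (g : ℤ → Prop) (h1 : ∀ v, g v → φ v = v.natAbs ^ 2)
    (h2 : ∀ v, ¬ g v → 49 ≤ φ v) (x : GolayPt → ℤ) :
    eeg φ x = 48 ↔ sqNorm x = 48 ∧ ∀ i, g (x i) := by
  constructor
  · intro h
    have hg : ∀ i, g (x i) := by
      intro i
      by_contra hc
      have := h2 _ hc
      have h3 : φ (x i) ≤ eeg φ x :=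
        Finset.single_le_sum (f := fun i => φ (x i)) (fun i _ => Nat.zero_le _) (Finset.mem_univ i)
      omega
    refine ⟨?_, hg⟩
    rw [← ee_cast]
    have : ee x = eeg φ x := Finset.sum_congr rfl (fun i _ => (h1 _ (hg i)).symm)
    rw [this, h]; rfl
  · rintro ⟨h, hg⟩
    have : ee x = eeg φ x := Finset.sum_congr rfl (fun i _ => (h1 _ (hg i)).symm)
    rw [← this]
    rw [← ee_cast] at h
    exact_mod_cast h

theorem finite48 (p : (GolayPt → ℤ) → Prop) :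
    {x : GolayPt → ℤ | x ∈ leechLattice ∧ sqNorm x = 48 ∧ p x}.Finite := by
  have h := leech_norm_set_eq 48 (by norm_num)
  apply Set.Finite.subset (Finset.finite_toSet (LL.filter (fun x => ee x = 48)))
  rw [← h]
  rintro x ⟨h1, h2, _⟩
  exact ⟨h1, by exact_mod_cast h2⟩

theorem compl_count (p : (GolayPt → ℤ) → Prop) :
    {x : GolayPt → ℤ | x ∈ leechLattice ∧ sqNorm x = 48 ∧ p x}.ncard +
      {x : GolayPt → ℤ | x ∈ leechLattice ∧ sqNorm x = 48 ∧ ¬ p x}.ncard = 16773120 := by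
  rw [← Cfsg.Agent.S0395.result, ← Set.ncard_union_eq _ (finite48 _) (finite48 _)]
  · congr 1
    ext x
    simp only [Set.mem_union, Set.mem_ofPred_eq]
    tauto
  · rw [Set.disjoint_left]
    rintro x ⟨_, _, h1⟩ ⟨_, _, h2⟩
    exact h2 h1

set_option maxRecDepth 100000 in
theorem da : (thetag φa (2 ^ 100)).toNat / 2 / (2 ^ 100) ^ 48 % 2 ^ 100 = 5275648 := by
  decide +kernel
set_option maxRecDepth 100000 in
theorem dc : (thetag φc (2 ^ 100)).toNat / 2 / (2 ^ 100) ^ 48 % 2 ^ 100 = 13664256 := by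
  decide +kernel
set_option maxRecDepth 100000 in
theorem dd : (thetag φd (2 ^ 100)).toNat / 2 / (2 ^ 100) ^ 48 % 2 ^ 100 = 16674816 := by
  decide +kernel
set_option maxRecDepth 100000 in
theorem db0 : (thetag φb (2 ^ 100)).toNat / 2 / (2 ^ 100) ^ 1200 % 2 ^ 100 = 8482816 := by
  decide +kernel
set_option maxRecDepth 100000 in
theorem db1 : (thetag φb (2 ^ 100)).toNat / 2 / (2 ^ 100) ^ 1201 % 2 ^ 100 = 0 := by
  decide +kernel
set_option maxRecDepth 100000 in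
theorem db2 : (thetag φb (2 ^ 100)).toNat / 2 / (2 ^ 100) ^ 1202 % 2 ^ 100 = 0 := by
  decide +kernel

theorem cap_good (v : ℤ) (h : v.natAbs ≤ 6) : cap v = v.natAbs ^ 2 := by
  rw [cap, if_pos h]

theorem cap_bad (v : ℤ) (h : ¬ v.natAbs ≤ 6) : cap v = 49 := by
  rw [cap, if_neg h]

theorem part_a : {x : GolayPt → ℤ | x ∈ leechLattice ∧ sqNorm x = 48 ∧
    ∀ i, x i = 0 ∨ x i = 2 ∨ x i = -2}.ncard = 5275648 := by
  rw [← da]
  apply ncard_eq_count φa _ 48 48 (by norm_num)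
  intro x _
  rw [eeg_iff φa (fun v => v = 0 ∨ v = 2 ∨ v = -2)]
  · norm_num
  · rintro v (rfl | rfl | rfl) <;> decide
  · intro v hv
    push Not at hv
    rw [φa, if_neg hv.1, if_neg (by omega)]

theorem part_no (k : ℕ) (φ : ℤ → ℕ) (hφ : ∀ v, φ v = if v.natAbs = k then 49 else cap v) :
    {x : GolayPt → ℤ | x ∈ leechLattice ∧ sqNorm x = 48 ∧ ¬ ∃ i, |x i| = k}.ncard =
      (thetag φ (2 ^ 100)).toNat / 2 / (2 ^ 100) ^ 48 % 2 ^ 100 := by
  apply ncard_eq_count φ _ 48 48 (by norm_num)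
  intro x _
  rw [eeg_iff φ (fun v => v.natAbs ≠ k ∧ v.natAbs ≤ 6)]
  · constructor
    · rintro ⟨h1, h2⟩
      refine ⟨by exact_mod_cast h1, fun i => ⟨?_, natAbs_le_six x (by exact_mod_cast h1) i⟩⟩
      intro h
      apply h2
      refine ⟨i, ?_⟩
      rw [← h, Int.natCast_natAbs]
    · rintro ⟨h1, h2⟩
      refine ⟨by exact_mod_cast h1, ?_⟩
      rintro ⟨i, hi⟩
      apply (h2 i).1
      have : ((x i).natAbs : ℤ) = k := by rw [Int.natCast_natAbs, hi]
      exact_mod_cast this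
  · rintro v ⟨h1, h2⟩
    rw [hφ, if_neg h1, cap_good v h2]
  · intro v hv
    rw [hφ]
    split_ifs with h
    · exact le_rfl
    · rw [cap_bad v (fun h6 => hv ⟨h, h6⟩)]

/-- number of coordinates `±3` -/
def n3 (x : GolayPt → ℤ) : ℕ := (Finset.univ.filter (fun i => (x i).natAbs = 3)).card

theorem eeg_b (x : GolayPt → ℤ) : eeg φb x = 25 * eeg cap x + n3 x := by
  unfold eeg φb n3
  rw [Finset.sum_add_distrib, ← Finset.mul_sum, Finset.card_filter]

theorem n3_le (x : GolayPt → ℤ) : n3 x ≤ 24 := by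
  unfold n3
  calc _ ≤ (Finset.univ : Finset GolayPt).card := Finset.card_filter_le _ _
    _ = 24 := by rw [Finset.card_univ, card_golayPt]

theorem part_n3 (k N : ℕ) (hk : k ≤ 24) (hN : N = 1200 + k) :
    {x : GolayPt → ℤ | x ∈ leechLattice ∧ sqNorm x = 48 ∧ n3 x = k}.ncard =
      (thetag φb (2 ^ 100)).toNat / 2 / (2 ^ 100) ^ N % 2 ^ 100 := by
  apply ncard_eq_count φb _ N 48 (by norm_num)
  intro x _
  subst hN
  rw [eeg_b]
  have h := eeg_iff cap (fun v => v.natAbs ≤ 6) cap_good (fun v hv => by rw [cap_bad v hv]) x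
  have h24 := n3_le x
  constructor
  · rintro ⟨h1, h2⟩
    have : eeg cap x = 48 := h.2 ⟨by exact_mod_cast h1, natAbs_le_six x (by exact_mod_cast h1)⟩
    rw [this, h2]
  · intro h1
    have h48 : eeg cap x = 48 := by omega
    exact ⟨by exact_mod_cast (h.1 h48).1, by omega⟩

theorem part_b_compl : {x : GolayPt → ℤ | x ∈ leechLattice ∧ sqNorm x = 48 ∧
    ¬ ∃ i j k, i ≠ j ∧ j ≠ k ∧ i ≠ k ∧ |x i| = 3 ∧ |x j| = 3 ∧ |x k| = 3}.ncard = 8482816 := by
  have h0 := (part_n3 0 1200 (by norm_num) rfl).trans db0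
  have h1 := (part_n3 1 1201 (by norm_num) rfl).trans db1
  have h2 := (part_n3 2 1202 (by norm_num) rfl).trans db2
  rw [Set.ncard_eq_zero (finite48 _)] at h1
  rw [Set.ncard_eq_zero (finite48 _)] at h2
  rw [← h0]
  congr 1
  ext x
  simp only [Set.mem_ofPred_eq]
  constructor
  · rintro ⟨hx, hn, hp⟩
    refine ⟨hx, hn, ?_⟩
    by_contra h3
    have hle : n3 x ≤ 2 := by
      by_contra hc
      push Not at hc
      obtain ⟨i, hi, j, hj, k, hk, hij, hik, hjk⟩ := Finset.two_lt_card.1 hc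
      rw [Finset.mem_filter] at hi hj hk
      apply hp
      refine ⟨i, j, k, hij, hjk, hik, ?_, ?_, ?_⟩
      · rw [← Int.natCast_natAbs, hi.2]; rfl
      · rw [← Int.natCast_natAbs, hj.2]; rfl
      · rw [← Int.natCast_natAbs, hk.2]; rfl
    have : n3 x = 1 ∨ n3 x = 2 := by omega
    rcases this with h | h
    · have : x ∈ ({x : GolayPt → ℤ | x ∈ leechLattice ∧ sqNorm x = 48 ∧ n3 x = 1}) := ⟨hx, hn, h⟩
      rw [h1] at this
      exact this
    · have : x ∈ ({x : GolayPt → ℤ | x ∈ leechLattice ∧ sqNorm x = 48 ∧ n3 x = 2}) := ⟨hx, hn, h⟩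
      rw [h2] at this
      exact this
  · rintro ⟨hx, hn, h3⟩
    refine ⟨hx, hn, ?_⟩
    rintro ⟨i, j, k, -, -, -, hi, -, -⟩
    have : i ∈ Finset.univ.filter (fun i => (x i).natAbs = 3) := by
      rw [Finset.mem_filter]
      refine ⟨Finset.mem_univ _, ?_⟩
      have : ((x i).natAbs : ℤ) = 3 := by rw [Int.natCast_natAbs, hi]
      exact_mod_cast this
    unfold n3 at h3
    rw [Finset.card_eq_zero] at h3
    rw [h3] at this
    simp at this

/-- Shape census of the lattice vectors of sum of squares 48 (customary norm 6): the four families (2^12, 0^12), (±3^3, ±1^21), (±4, ±2^8, 0^15) and (±5, ±1^23) have 5275648, 8290304, 3108864 and 98304 members. -/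
theorem result : {x : Cfsg.GolayPt → ℤ | x ∈ Cfsg.leechLattice ∧ Cfsg.sqNorm x = 48 ∧ ∀ i, x i = 0 ∨ x i = 2 ∨ x i = -2}.ncard = 5275648 ∧ {x : Cfsg.GolayPt → ℤ | x ∈ Cfsg.leechLattice ∧ Cfsg.sqNorm x = 48 ∧ ∃ i j k, i ≠ j ∧ j ≠ k ∧ i ≠ k ∧ |x i| = 3 ∧ |x j| = 3 ∧ |x k| = 3}.ncard = 8290304 ∧ {x : Cfsg.GolayPt → ℤ | x ∈ Cfsg.leechLattice ∧ Cfsg.sqNorm x = 48 ∧ ∃ i, |x i| = 4}.ncard = 3108864 ∧ {x : Cfsg.GolayPt → ℤ | x ∈ Cfsg.leechLattice ∧ Cfsg.sqNorm x = 48 ∧ ∃ i, |x i| = 5}.ncard = 98304 := by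
  refine ⟨part_a, ?_, ?_, ?_⟩
  · have h := compl_count (fun x => ∃ i j k, i ≠ j ∧ j ≠ k ∧ i ≠ k ∧ |x i| = 3 ∧ |x j| = 3 ∧ |x k| = 3)
    rw [part_b_compl] at h
    exact Nat.add_right_cancel (h.trans (by norm_num : 16773120 = 8290304 + 8482816))
  · have h := compl_count (fun x => ∃ i, |x i| = 4)
    have h2 := part_no 4 φc (fun _ => rfl)
    rw [dc] at h2
    simp only [Nat.cast_ofNat] at h2
    rw [h2] at h
    exact Nat.add_right_cancel (h.trans (by norm_num : 16773120 = 3108864 + 13664256))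
  · have h := compl_count (fun x => ∃ i, |x i| = 5)
    have h2 := part_no 5 φd (fun _ => rfl)
    rw [dd] at h2
    simp only [Nat.cast_ofNat] at h2
    rw [h2] at h
    exact Nat.add_right_cancel (h.trans (by norm_num : 16773120 = 98304 + 16674816))

end Cfsg.Agent.S1568
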