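import Cfsg.Statements.S1579
import Cfsg.Agent.Lib.Helper54.Co2Pairs

set_option autoImplicit false
open Cfsg

namespace Cfsg.Agent.S1579

/-- The stabiliser of a vector of customary norm 6 is transitive on the 552 minimal vectors that complete it to a sum of two minimal vectors. -/
theorem result (u v v' : ↥Cfsg.leechLattice) (hu : Cfsg.sqNorm (u : Cfsg.GolayPt → ℤ) = 48) (hv : Cfsg.sqNorm (v : Cfsg.GolayPt → ℤ) = 32 ∧ Cfsg.sqNorm ((u - v) : Cfsg.GolayPt → ℤ) = 32) (hv' : Cfsg.sqNorm (v' : Cfsg.GolayPt → ℤ) = 32 ∧ Cfsg.sqNorm ((u - v') : Cfsg.GolayPt → ℤ) = 32) : ∃ g : ↥Cfsg.Co0, g • u = u ∧ g • v = v' := by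
  obtain ⟨hv1, hv2⟩ := hv
  obtain ⟨hv1', hv2'⟩ := hv'
  have e1 := Cfsg.Agent.Lib.Helper54.sqNorm_sub (u : Cfsg.GolayPt → ℤ) (v : Cfsg.GolayPt → ℤ)
  have e2 := Cfsg.Agent.Lib.Helper54.sqNorm_sub (u : Cfsg.GolayPt → ℤ) (v' : Cfsg.GolayPt → ℤ)
  have d1 := Cfsg.Agent.Lib.Helper54.dotInt_sub_right' (v : Cfsg.GolayPt → ℤ) (u : Cfsg.GolayPt → ℤ) (v : Cfsg.GolayPt → ℤ)
  have d2 := Cfsg.Agent.Lib.Helper54.dotInt_sub_right' (v' : Cfsg.GolayPt → ℤ) (u : Cfsg.GolayPt → ℤ) (v' : Cfsg.GolayPt → ℤ)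
  have c1 := Cfsg.Agent.Lib.Helper54.dotInt_comm' (u : Cfsg.GolayPt → ℤ) (v : Cfsg.GolayPt → ℤ)
  have c2 := Cfsg.Agent.Lib.Helper54.dotInt_comm' (u : Cfsg.GolayPt → ℤ) (v' : Cfsg.GolayPt → ℤ)
  have s1 := Cfsg.Agent.Lib.Helper54.sqNorm_eq_dotInt (v : Cfsg.GolayPt → ℤ)
  have s2 := Cfsg.Agent.Lib.Helper54.sqNorm_eq_dotInt (v' : Cfsg.GolayPt → ℤ)
  obtain ⟨g, h1, h2⟩ := Cfsg.Agent.Lib.Helper54.co0_trans_pairs v (u - v) v' (u - v') hv1 hv2 hv1' hv2'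
    (by
      show Cfsg.dotInt (v : Cfsg.GolayPt → ℤ) ((u : Cfsg.GolayPt → ℤ) - v)
        = Cfsg.dotInt (v' : Cfsg.GolayPt → ℤ) ((u : Cfsg.GolayPt → ℤ) - v')
      omega)
  refine ⟨g, ?_, h1⟩
  have : u = v + (u - v) := by abel
  rw [this, Cfsg.Agent.Lib.Helper54.co0_add, h1, h2]
  abel

end Cfsg.Agent.S1579
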