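import Cfsg.Statements.S1581
import Cfsg.Agent.Lib.Helper54.McLMain

set_option autoImplicit false
open Cfsg

namespace Cfsg.Agent.S1581

/-- The McLaughlin group acts with rank 3 and subdegrees 1, 112, 162 on its 275 points: the point stabiliser has two orbits on the remaining points, distinguished by customary inner product 1 or 2 with the fixed point. -/
theorem result (u v x : ↥Cfsg.leechLattice) (hu : Cfsg.sqNorm (u : Cfsg.GolayPt → ℤ) = 48) (hv : Cfsg.sqNorm (v : Cfsg.GolayPt → ℤ) = 32 ∧ Cfsg.sqNorm ((u - v) : Cfsg.GolayPt → ℤ) = 32) (hx : x ∈ {x : ↥Cfsg.leechLattice | Cfsg.sqNorm (x : Cfsg.GolayPt → ℤ) = 32 ∧ Cfsg.sqNorm ((u - x) : Cfsg.GolayPt → ℤ) = 32 ∧ Cfsg.dotInt (v : Cfsg.GolayPt → ℤ) (x : Cfsg.GolayPt → ℤ) = 16}) : {y : ↥Cfsg.leechLattice | y ∈ {x : ↥Cfsg.leechLattice | Cfsg.sqNorm (x : Cfsg.GolayPt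 → ℤ) = 32 ∧ Cfsg.sqNorm ((u - x) : Cfsg.GolayPt → ℤ) = 32 ∧ Cfsg.dotInt (v : Cfsg.GolayPt → ℤ) (x : Cfsg.GolayPt → ℤ) = 16} ∧ Cfsg.dotInt (x : Cfsg.GolayPt → ℤ) (y : Cfsg.GolayPt → ℤ) = 8}.ncard = 112 ∧ {y : ↥Cfsg.leechLattice | y ∈ {x : ↥Cfsg.leechLattice | Cfsg.sqNorm (x : Cfsg.GolayPt → ℤ) = 32 ∧ Cfsg.sqNorm ((u - x) : Cfsg.GolayPt → ℤ) = 32 ∧ Cfsg.dotInt (v : Cfsg.GolayPt → ℤ) (x : Cfsg.GolayPt → ℤ) = 16} ∧ y ≠ x ∧ Cfsg.dotInt (x : Cfsg.GolayPt → ℤ) (y : Cfsg.GolayPt → ℤ) = 16}.ncard = 162 ∧ ∀ y ∈ {x : ↥Cfsg.leechLattice | Cfsg.sqNorm (x : Cfsg.GolayPt → ℤ) = 32 ∧ Cfsg.sqNorm ((u - x) : Cfsg.GolayPt → ℤ) = 32 ∧ Cfsg.dotInt (v : Cfsg.GolayPt → ℤ) (x : Cfsg.GolayPt → ℤ) = 16}, ∀ y' ∈ {x : ↥Cfsg.leechLattice | Cfsg.sqNorm (x : Cfsg.GolayPt → ℤ) = 32 ∧ Cfsg.sqNorm ((u - x) : Cfsg.GolayPt → ℤ) = 32 ∧ Cfsg.dotInt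 (v : Cfsg.GolayPt → ℤ) (x : Cfsg.GolayPt → ℤ) = 16}, y ≠ x → y' ≠ x → Cfsg.dotInt (x : Cfsg.GolayPt → ℤ) (y : Cfsg.GolayPt → ℤ) = Cfsg.dotInt (x : Cfsg.GolayPt → ℤ) (y' : Cfsg.GolayPt → ℤ) → ∃ g : ↥Cfsg.Co0, g • u = u ∧ g • v = v ∧ g • x = x ∧ g • y = y' := by
  have hc := Cfsg.Agent.Lib.Helper54.conj_of_decomp u v hu hv.1 hv.2
  have hmem : ∀ y : ↥Cfsg.leechLattice, y ∈ {x : ↥Cfsg.leechLattice | Cfsg.sqNorm (x : Cfsg.GolayPt → ℤ) = 32 ∧ Cfsg.sqNorm ((u - x) : Cfsg.GolayPt → ℤ) = 32 ∧ Cfsg.dotInt (v : Cfsg.GolayPt → ℤ) (x : Cfsg.GolayPt → ℤ) = 16}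
      ↔ Cfsg.Agent.Lib.Helper54.ClsL [u - v, v] 32 [8, 16] y :=
    fun y => Cfsg.Agent.Lib.Helper54.mem_275_iff u v y hu
  have hx' := (hmem x).1 hx
  have hc3 : Cfsg.Agent.Lib.Helper54.ConjL [Cfsg.Agent.Lib.Helper54.xx0, Cfsg.Agent.Lib.Helper54.wB, Cfsg.Agent.Lib.Helper54.v0] [x, u - v, v] :=
    hc.cons Cfsg.Agent.Lib.Helper54.trans275 Cfsg.Agent.Lib.Helper54.xx0_cls hx'
  have hvals : ∀ y : ↥Cfsg.leechLattice, Cfsg.Agent.Lib.Helper54.ClsL [u - v, v] 32 [8, 16] y →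
      Cfsg.dotInt (x : Cfsg.GolayPt → ℤ) (y : Cfsg.GolayPt → ℤ) ∈ ([8, 16, 32] : List ℤ) := by
    intro y hy
    obtain ⟨a, ha⟩ := hc3
    rw [List.map_cons, List.cons.injEq] at ha
    have hy' : Cfsg.Agent.Lib.Helper54.ClsL [Cfsg.Agent.Lib.Helper54.wB, Cfsg.Agent.Lib.Helper54.v0] 32 [8, 16] (a⁻¹ • y) := by
      rw [← Cfsg.Agent.Lib.Helper54.clsL_smul a, smul_inv_smul, ← ha.2]
      exact hy
    have h1 := Cfsg.Agent.Lib.Helper54.vals275 _ hy'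
    have h2 := Cfsg.Agent.Lib.Helper54.co0_dotInt a Cfsg.Agent.Lib.Helper54.xx0 (a⁻¹ • y)
    rw [smul_inv_smul, ← ha.1] at h2
    rw [h2]
    exact h1
  refine ⟨?_, ?_, ?_⟩
  · have e : {y : ↥Cfsg.leechLattice | y ∈ {x : ↥Cfsg.leechLattice | Cfsg.sqNorm (x : Cfsg.GolayPt → ℤ) = 32 ∧ Cfsg.sqNorm ((u - x) : Cfsg.GolayPt → ℤ) = 32 ∧ Cfsg.dotInt (v : Cfsg.GolayPt → ℤ) (x : Cfsg.GolayPt → ℤ) = 16} ∧ Cfsg.dotInt (x : Cfsg.GolayPt → ℤ) (y : Cfsg.GolayPt → ℤ) = 8}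
        = {y | Cfsg.Agent.Lib.Helper54.ClsL [x, u - v, v] 32 [8, 8, 16] y} := by
      ext y
      show (y ∈ _ ∧ _) ↔ Cfsg.Agent.Lib.Helper54.ClsL [x, u - v, v] 32 [8, 8, 16] y
      rw [hmem y, Cfsg.Agent.Lib.Helper54.clsL_cons (b := x)]
      tauto
    rw [e]
    exact Cfsg.Agent.Lib.Helper54.count112.conj hc3
  · have e : {y : ↥Cfsg.leechLattice | y ∈ {x : ↥Cfsg.leechLattice | Cfsg.sqNorm (x : Cfsg.GolayPt → ℤ) = 32 ∧ Cfsg.sqNorm ((u - x) : Cfsg.GolayPt → ℤ) = 32 ∧ Cfsg.dotInt (v : Cfsg.GolayPt → ℤ) (x : Cfsg.GolayPt → ℤ) = 16} ∧ y ≠ x ∧ Cfsg.dotInt (x : Cfsg.GolayPt → ℤ) (y : Cfsg.GolayPt → ℤ) = 16}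
        = {y | Cfsg.Agent.Lib.Helper54.ClsL [x, u - v, v] 32 [16, 8, 16] y} := by
      ext y
      show (y ∈ _ ∧ _ ∧ _) ↔ Cfsg.Agent.Lib.Helper54.ClsL [x, u - v, v] 32 [16, 8, 16] y
      rw [hmem y, Cfsg.Agent.Lib.Helper54.clsL_cons (b := x)]
      constructor
      · rintro ⟨h1, -, h3⟩
        exact ⟨h3, h1⟩
      · rintro ⟨h1, h2⟩
        refine ⟨h2, ?_, h1⟩
        rintro rfl
        rw [← Cfsg.Agent.Lib.Helper54.sqNorm_eq_dotInt, hx'.1] at h1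
        norm_num at h1
    rw [e]
    exact Cfsg.Agent.Lib.Helper54.count162.conj hc3
  · intro y hy y' hy' hne hne' hd
    rw [hmem] at hy hy'
    have hfin : ∀ g : ↥Cfsg.Co0, (∀ b ∈ [x, u - v, v], g • b = b) → g • y = y' →
        ∃ g : ↥Cfsg.Co0, g • u = u ∧ g • v = v ∧ g • x = x ∧ g • y = y' := by
      intro g hg hgy
      have h0 := hg x (by simp)
      have h1 := hg (u - v) (by simp)
      have h2 := hg v (by simp)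
      exact ⟨g, Cfsg.Agent.Lib.Helper54.fix_u_of_fix g u v h1 h2, h2, h0, hgy⟩
    have hv1 := hvals y hy
    simp only [List.mem_cons, List.not_mem_nil, or_false] at hv1
    rcases hv1 with h8 | h16 | h32
    · obtain ⟨g, hg, hgy⟩ := Cfsg.Agent.Lib.Helper54.trans112.conj hc3 y y'
        (Cfsg.Agent.Lib.Helper54.clsL_cons.2 ⟨h8, hy⟩)
        (Cfsg.Agent.Lib.Helper54.clsL_cons.2 ⟨hd ▸ h8, hy'⟩)
      exact hfin g hg hgy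
    · obtain ⟨g, hg, hgy⟩ := Cfsg.Agent.Lib.Helper54.trans162.conj hc3 y y'
        (Cfsg.Agent.Lib.Helper54.clsL_cons.2 ⟨h16, hy⟩)
        (Cfsg.Agent.Lib.Helper54.clsL_cons.2 ⟨hd ▸ h16, hy'⟩)
      exact hfin g hg hgy
    · exact absurd (Cfsg.Agent.Lib.Helper54.eq_of_dot_eq x y hx'.1 hy.1 h32) hne

end Cfsg.Agent.S1581
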