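import Cfsg.Statements.S1584
import Cfsg.Agent.Lib.Helper54.HSMain

set_option autoImplicit false
open Cfsg

namespace Cfsg.Agent.S1584

/-- The Higman–Sims group acts with rank 3 and subdegrees 1, 22, 77 on its 100 points, the orbits of a point stabiliser being distinguished by customary inner product 1 with the fixed point. -/
theorem result (v w x : ↥Cfsg.leechLattice) (hv : Cfsg.sqNorm (v : Cfsg.GolayPt → ℤ) = 48) (hw : Cfsg.sqNorm (w : Cfsg.GolayPt → ℤ) = 48) (hvw : Cfsg.dotInt (v : Cfsg.GolayPt → ℤ) (w : Cfsg.GolayPt → ℤ) = -32) (hx : x ∈ {x : ↥Cfsg.leechLattice | Cfsg.sqNorm (x : Cfsg.GolayPt → ℤ) = 32 ∧ Cfsg.dotInt (v : Cfsg.GolayPt → ℤ) (x : Cfsg.GolayPt → ℤ) = 24 ∧ Cfsg.dotInt (w : Cfsg.GolayPt → ℤ) (x : Cfsg.GolayPt → ℤ) = -24}) : {y : ↥Cfsg.leechLattice | y ∈ {x : ↥Cfsg.leechLattice | Cfsg.sqNorm (x : Cfsg.GolayPt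 → ℤ) = 32 ∧ Cfsg.dotInt (v : Cfsg.GolayPt → ℤ) (x : Cfsg.GolayPt → ℤ) = 24 ∧ Cfsg.dotInt (w : Cfsg.GolayPt → ℤ) (x : Cfsg.GolayPt → ℤ) = -24} ∧ Cfsg.dotInt (x : Cfsg.GolayPt → ℤ) (y : Cfsg.GolayPt → ℤ) = 8}.ncard = 22 ∧ {y : ↥Cfsg.leechLattice | y ∈ {x : ↥Cfsg.leechLattice | Cfsg.sqNorm (x : Cfsg.GolayPt → ℤ) = 32 ∧ Cfsg.dotInt (v : Cfsg.GolayPt → ℤ) (x : Cfsg.GolayPt → ℤ) = 24 ∧ Cfsg.dotInt (w : Cfsg.GolayPt → ℤ) (x : Cfsg.GolayPt → ℤ) = -24} ∧ y ≠ x ∧ Cfsg.dotInt (x : Cfsg.GolayPt → ℤ) (y : Cfsg.GolayPt → ℤ) ≠ 8}.ncard = 77 ∧ ∀ y ∈ {x : ↥Cfsg.leechLattice | Cfsg.sqNorm (x : Cfsg.GolayPt → ℤ) = 32 ∧ Cfsg.dotInt (v : Cfsg.GolayPt → ℤ) (x : Cfsg.GolayPt → ℤ) = 24 ∧ Cfsg.dotInt (w : Cfsg.GolayPt → ℤ) (x : Cfsg.GolayPt → ℤ) = -24}, ∀ y' ∈ {x : ↥Cfsg.leechLattice | Cfsg.sqNorm (x : Cfsg.GolayPt → ℤ) = 32 ∧ Cfsg.dotInt (v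 : Cfsg.GolayPt → ℤ) (x : Cfsg.GolayPt → ℤ) = 24 ∧ Cfsg.dotInt (w : Cfsg.GolayPt → ℤ) (x : Cfsg.GolayPt → ℤ) = -24}, y ≠ x → y' ≠ x → (Cfsg.dotInt (x : Cfsg.GolayPt → ℤ) (y : Cfsg.GolayPt → ℤ) = 8 ↔ Cfsg.dotInt (x : Cfsg.GolayPt → ℤ) (y' : Cfsg.GolayPt → ℤ) = 8) → ∃ g : ↥Cfsg.Co0, g • v = v ∧ g • w = w ∧ g • x = x ∧ g • y = y' := by
  have hc := Cfsg.Agent.Lib.Helper54.conj_hs v w hv hw hvw
  have hmem : ∀ y : ↥Cfsg.leechLattice, y ∈ {x : ↥Cfsg.leechLattice | Cfsg.sqNorm (x : Cfsg.GolayPt → ℤ) = 32 ∧ Cfsg.dotInt (v : Cfsg.GolayPt → ℤ) (x : Cfsg.GolayPt → ℤ) = 24 ∧ Cfsg.dotInt (w : Cfsg.GolayPt → ℤ) (x : Cfsg.GolayPt → ℤ) = -24}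
      ↔ Cfsg.Agent.Lib.Helper54.ClsL [-v - w, v] 32 [0, 24] y :=
    fun y => Cfsg.Agent.Lib.Helper54.mem_hs_iff v w y 24 (-24)
  have hx' := (hmem x).1 hx
  have hc3 : Cfsg.Agent.Lib.Helper54.ConjL [Cfsg.Agent.Lib.Helper54.wB, Cfsg.Agent.Lib.Helper54.tt0, Cfsg.Agent.Lib.Helper54.u3] [x, -v - w, v] :=
    hc.cons Cfsg.Agent.Lib.Helper54.trans100 Cfsg.Agent.Lib.Helper54.wB_cls100 hx'
  have hvals := Cfsg.Agent.Lib.Helper54.vals_conj Cfsg.Agent.Lib.Helper54.vals100 hc3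
  have hself : Cfsg.dotInt (x : Cfsg.GolayPt → ℤ) (x : Cfsg.GolayPt → ℤ) = 32 := by
    rw [← Cfsg.Agent.Lib.Helper54.sqNorm_eq_dotInt]; exact hx'.1
  refine ⟨?_, ?_, ?_⟩
  · have e : {y : ↥Cfsg.leechLattice | y ∈ {x : ↥Cfsg.leechLattice | Cfsg.sqNorm (x : Cfsg.GolayPt → ℤ) = 32 ∧ Cfsg.dotInt (v : Cfsg.GolayPt → ℤ) (x : Cfsg.GolayPt → ℤ) = 24 ∧ Cfsg.dotInt (w : Cfsg.GolayPt → ℤ) (x : Cfsg.GolayPt → ℤ) = -24} ∧ Cfsg.dotInt (x : Cfsg.GolayPt → ℤ) (y : Cfsg.GolayPt → ℤ) = 8}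
        = {y | Cfsg.Agent.Lib.Helper54.ClsL [x, -v - w, v] 32 [8, 0, 24] y} := by
      ext y
      show (y ∈ _ ∧ _) ↔ Cfsg.Agent.Lib.Helper54.ClsL [x, -v - w, v] 32 [8, 0, 24] y
      rw [hmem y, Cfsg.Agent.Lib.Helper54.clsL_cons (b := x)]
      tauto
    rw [e]
    exact Cfsg.Agent.Lib.Helper54.count22.conj hc3
  · have e : {y : ↥Cfsg.leechLattice | y ∈ {x : ↥Cfsg.leechLattice | Cfsg.sqNorm (x : Cfsg.GolayPt → ℤ) = 32 ∧ Cfsg.dotInt (v : Cfsg.GolayPt → ℤ) (x : Cfsg.GolayPt → ℤ) = 24 ∧ Cfsg.dotInt (w : Cfsg.GolayPt → ℤ) (x : Cfsg.GolayPt → ℤ) = -24} ∧ y ≠ x ∧ Cfsg.dotInt (x : Cfsg.GolayPt → ℤ) (y : Cfsg.GolayPt → ℤ) ≠ 8}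
        = {y | Cfsg.Agent.Lib.Helper54.ClsL [x, -v - w, v] 32 [16, 0, 24] y} := by
      ext y
      show (y ∈ _ ∧ _ ∧ _) ↔ Cfsg.Agent.Lib.Helper54.ClsL [x, -v - w, v] 32 [16, 0, 24] y
      rw [hmem y, Cfsg.Agent.Lib.Helper54.clsL_cons (b := x)]
      constructor
      · rintro ⟨h1, h2, h3⟩
        refine ⟨?_, h1⟩
        have hv1 := hvals y h1
        simp only [List.mem_cons, List.not_mem_nil, or_false] at hv1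
        rcases hv1 with h8 | h16 | h32
        · exact absurd h8 h3
        · exact h16
        · exact absurd (Cfsg.Agent.Lib.Helper54.eq_of_dot_eq x y hx'.1 h1.1 h32) h2
      · rintro ⟨h1, h2⟩
        refine ⟨h2, ?_, by rw [h1]; norm_num⟩
        rintro rfl
        rw [hself] at h1
        norm_num at h1
    rw [e]
    exact Cfsg.Agent.Lib.Helper54.count77.conj hc3
  · intro y hy y' hy' hne hne' hd
    rw [hmem] at hy hy'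
    have hfin : ∀ g : ↥Cfsg.Co0, (∀ b ∈ [x, -v - w, v], g • b = b) → g • y = y' →
        ∃ g : ↥Cfsg.Co0, g • v = v ∧ g • w = w ∧ g • x = x ∧ g • y = y' := by
      intro g hg hgy
      have h0 := hg x (by simp)
      have h1 := hg (-v - w) (by simp)
      have h2 := hg v (by simp)
      exact ⟨g, h2, Cfsg.Agent.Lib.Helper54.fix_w_of_fix g v w h1 h2, h0, hgy⟩
    have hv1 := hvals y hy
    have hv2 := hvals y' hy'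
    simp only [List.mem_cons, List.not_mem_nil, or_false] at hv1 hv2
    rcases hv1 with h8 | h16 | h32
    · obtain ⟨g, hg, hgy⟩ := Cfsg.Agent.Lib.Helper54.trans22.conj hc3 y y'
        (Cfsg.Agent.Lib.Helper54.clsL_cons.2 ⟨h8, hy⟩) (Cfsg.Agent.Lib.Helper54.clsL_cons.2 ⟨hd.1 h8, hy'⟩)
      exact hfin g hg hgy
    · have h16' : Cfsg.dotInt (x : Cfsg.GolayPt → ℤ) (y' : Cfsg.GolayPt → ℤ) = 16 := by
        rcases hv2 with k8 | k16 | k32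
        · have := hd.2 k8
          rw [h16] at this
          norm_num at this
        · exact k16
        · exact absurd (Cfsg.Agent.Lib.Helper54.eq_of_dot_eq x y' hx'.1 hy'.1 k32) hne'
      obtain ⟨g, hg, hgy⟩ := Cfsg.Agent.Lib.Helper54.trans77.conj hc3 y y'
        (Cfsg.Agent.Lib.Helper54.clsL_cons.2 ⟨h16, hy⟩) (Cfsg.Agent.Lib.Helper54.clsL_cons.2 ⟨h16', hy'⟩)
      exact hfin g hg hgy
    · exact absurd (Cfsg.Agent.Lib.Helper54.eq_of_dot_eq x y hx'.1 hy.1 h32) hne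

end Cfsg.Agent.S1584
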