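import Cfsg.Statements.S1585
import Cfsg.Agent.Lib.Helper54.Co3Main

set_option autoImplicit false
open Cfsg

namespace Cfsg.Agent.S1585

/-- Two vectors of customary norm 6 with inner product −4 are exchanged by some automorphism of the lattice. -/
theorem result (v w : ↥Cfsg.leechLattice) (hv : Cfsg.sqNorm (v : Cfsg.GolayPt → ℤ) = 48) (hw : Cfsg.sqNorm (w : Cfsg.GolayPt → ℤ) = 48) (hvw : Cfsg.dotInt (v : Cfsg.GolayPt → ℤ) (w : Cfsg.GolayPt → ℤ) = -32) : ∃ g : ↥Cfsg.Co0, g • v = w ∧ g • w = v := by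
  obtain ⟨a, ha⟩ := Cfsg.Agent.Lib.Helper54.co0_trans_48 v w hv hw
  have hwv : Cfsg.dotInt (w : Cfsg.GolayPt → ℤ) (v : Cfsg.GolayPt → ℤ) = -32 := by
    rw [Cfsg.Agent.Lib.Helper54.dotInt_comm']; exact hvw
  -- the third side of the triangle
  have ht : Cfsg.Agent.Lib.Helper54.ClsL [w] 32 [-16] (-v - w) := by
    rw [Cfsg.Agent.Lib.Helper54.clsL_cons, Cfsg.Agent.Lib.Helper54.clsL_nil]
    constructor
    · show Cfsg.dotInt (w : Cfsg.GolayPt → ℤ) (-(v : Cfsg.GolayPt → ℤ) - (w : Cfsg.GolayPt → ℤ)) = -16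
      rw [Cfsg.Agent.Lib.Helper54.dotInt_sub_right', Cfsg.Agent.Lib.Helper54.dotInt_neg_right', hwv,
        ← Cfsg.Agent.Lib.Helper54.sqNorm_eq_dotInt, hw]
      norm_num
    · show Cfsg.sqNorm (-(v : Cfsg.GolayPt → ℤ) - (w : Cfsg.GolayPt → ℤ)) = 32
      rw [Cfsg.Agent.Lib.Helper54.sqNorm_sub, Cfsg.Agent.Lib.Helper54.sqNorm_neg',
        Cfsg.Agent.Lib.Helper54.dotInt_neg_left', hv, hw, hvw]
      norm_num
  have ht' : Cfsg.Agent.Lib.Helper54.ClsL [w] 32 [-16] (a • (-v - w)) := by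
    rw [Cfsg.Agent.Lib.Helper54.clsL_cons, Cfsg.Agent.Lib.Helper54.clsL_nil]
    constructor
    · have e := Cfsg.Agent.Lib.Helper54.co0_dotInt a v (-v - w)
      rw [ha] at e
      rw [e]
      show Cfsg.dotInt (v : Cfsg.GolayPt → ℤ) (-(v : Cfsg.GolayPt → ℤ) - (w : Cfsg.GolayPt → ℤ)) = -16
      rw [Cfsg.Agent.Lib.Helper54.dotInt_sub_right', Cfsg.Agent.Lib.Helper54.dotInt_neg_right', hvw,
        ← Cfsg.Agent.Lib.Helper54.sqNorm_eq_dotInt, hv]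
      norm_num
    · rw [Cfsg.Agent.Lib.Helper54.co0_sqNorm]
      exact ht.1
  obtain ⟨h, hh, hht⟩ := Cfsg.Agent.Lib.Helper54.transY.conj (Cfsg.Agent.Lib.Helper54.conj_u3 w hw) _ _ ht' ht
  have hw' := hh w (by simp)
  have e1 : (h * a) • v = w := by rw [mul_smul, ha, hw']
  have e2 : (h * a) • (-v - w) = -v - w := by rw [mul_smul, hht]
  refine ⟨h * a, e1, ?_⟩
  rw [Cfsg.Agent.Lib.Helper54.co0_sub, Cfsg.Agent.Lib.Helper54.co0_neg, e1] at e2
  have e3 : (h * a) • w = -w - (-v - w) := by rw [← e2]; abel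
  rw [e3]
  abel

end Cfsg.Agent.S1585
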