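import Cfsg.Statements.S1588
import Cfsg.Agent.Lib.Helper54.EvenLattice

set_option autoImplicit false
open Matrix
open Cfsg

namespace Cfsg.Agent.S1588

/-- Second step of the characterisation: under the vector counts of the rank-24 lattice, the norm-8 vectors fall into congruence classes of exactly 48 modulo twice the lattice. -/
theorem result (B : Matrix (Fin 24) (Fin 24) ℤ) (hsymm : B.IsSymm) (hpos : ∀ x : Fin 24 → ℤ, x ≠ 0 → 0 < x ⬝ᵥ (B *ᵥ x)) (heven : ∀ x : Fin 24 → ℤ, (2 : ℤ) ∣ x ⬝ᵥ (B *ᵥ x)) (h2 : ∀ x : Fin 24 → ℤ, x ⬝ᵥ (B *ᵥ x) ≠ 2) (h4 : {x : Fin 24 → ℤ | x ⬝ᵥ (B *ᵥ x) = 4}.ncard = 196560) (h6 : {x : Fin 24 → ℤ | x ⬝ᵥ (B *ᵥ x) = 6}.ncard = 16773120) (h8 : {x : Fin 24 → ℤ | x ⬝ᵥ (B *ᵥ x) = 8}.ncard = 398034000) (x : Fin 24 → ℤ) (hx : x ⬝ᵥ (B *ᵥ x) = 8) : {y : Fin 24 → ℤ | y ⬝ᵥ (B *ᵥ y) = 8 ∧ ∀ i, (2 : ℤ) ∣ (x - y) i}.ncard = 48 := by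
  classical
  set N : (Fin 24 → ℤ) → ℤ := fun x => x ⬝ᵥ (B *ᵥ x) with hN
  have fin4 : {x : Fin 24 → ℤ | x ⬝ᵥ (B *ᵥ x) = 4}.Finite :=
    Set.finite_of_ncard_ne_zero (by rw [h4]; norm_num)
  have fin6 : {x : Fin 24 → ℤ | x ⬝ᵥ (B *ᵥ x) = 6}.Finite :=
    Set.finite_of_ncard_ne_zero (by rw [h6]; norm_num)
  have fin8 : {x : Fin 24 → ℤ | x ⬝ᵥ (B *ᵥ x) = 8}.Finite :=
    Set.finite_of_ncard_ne_zero (by rw [h8]; norm_num)
  let π : (Fin 24 → ℤ) → (Fin 24 → ZMod 2) := fun x i => (x i : ZMod 2)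
  have hπ : ∀ x y : Fin 24 → ℤ, π x = π y ↔ ∀ i, (2 : ℤ) ∣ (x - y) i := by
    intro x y
    rw [funext_iff]
    apply forall_congr'
    intro i
    simp only [π, Pi.sub_apply]
    rw [← sub_eq_zero, ← Int.cast_sub]
    exact ZMod.intCast_zmod_eq_zero_iff_dvd (x i - y i) 2
  have short := Cfsg.Agent.Lib.Helper54.gram_short B hsymm hpos heven h2
  have hneg := Cfsg.Agent.Lib.Helper54.gram_neg B
  have hzero : (0 : Fin 24 → ℤ) ⬝ᵥ (B *ᵥ (0 : Fin 24 → ℤ)) = 0 := by simp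
  have sep : ∀ {a b : ℤ}, a ≤ 8 → b ≤ 8 → a ≠ b → ∀ x y : Fin 24 → ℤ, x ⬝ᵥ (B *ᵥ x) = a →
      y ⬝ᵥ (B *ᵥ y) = b → π x ≠ π y := by
    intro a b ha hb hab x y hx hy hc
    rcases short x y (hx ▸ ha) (hy ▸ hb) ((hπ x y).1 hc) with h | h | h
    · rw [h, hx] at hy; exact hab hy
    · rw [h, hneg, hx] at hy; exact hab hy
    · rw [hx] at h; rw [hy] at h; exact hab (h.1.trans h.2.1.symm)
  have fib2 : ∀ {a : ℤ} (fin : {x : Fin 24 → ℤ | x ⬝ᵥ (B *ᵥ x) = a}.Finite), a < 8 → ∀ x ∈ fin.toFinset,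
      (fin.toFinset.filter fun y => π y = π x).card ≤ 2 := by
    intro a fin ha x hx
    rw [Set.Finite.mem_toFinset] at hx
    have hx' : x ⬝ᵥ (B *ᵥ x) = a := hx
    have hsub : (fin.toFinset.filter fun y => π y = π x) ⊆ {x, -x} := by
      intro y hy
      rw [Finset.mem_filter, Set.Finite.mem_toFinset] at hy
      have hy' : y ⬝ᵥ (B *ᵥ y) = a := hy.1
      rcases short x y (by omega) (by omega) ((hπ x y).1 hy.2.symm) with h | h | h
      · simp [h]
      · simp [h]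
      · omega
    exact (Finset.card_le_card hsub).trans Finset.card_le_two
  have fib48 : ∀ x ∈ fin8.toFinset, (fin8.toFinset.filter fun y => π y = π x).card ≤ 48 := by
    intro x _
    have := Cfsg.Agent.Lib.Helper54.card_le_of_ortho_or_neg_gen (fun y => B *ᵥ y)
      (fin8.toFinset.filter fun y => π y = π x) ?_ ?_
    · simpa using this
    · intro y hy
      rw [Finset.mem_filter, Set.Finite.mem_toFinset] at hy
      have hy' : y ⬝ᵥ (B *ᵥ y) = 8 := hy.1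
      rw [hy']; norm_num
    · intro y hy w hw hyw
      rw [Finset.mem_filter, Set.Finite.mem_toFinset] at hy hw
      have hy' : y ⬝ᵥ (B *ᵥ y) = 8 := hy.1
      have hw' : w ⬝ᵥ (B *ᵥ w) = 8 := hw.1
      rcases short y w hy'.le hw'.le ((hπ y w).1 (hy.2.trans hw.2.symm)) with h | h | h
      · exact absurd h.symm hyw
      · left; rw [h, neg_neg]
      · exact Or.inr h.2.2
  have main := Cfsg.Agent.Lib.Helper54.counting_short π Finset.univ {0} fin4.toFinset fin6.toFinset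
    fin8.toFinset (by simp [ZMod.card]) (by simp)
    (by rw [← Set.ncard_eq_toFinset_card _ fin4, h4])
    (by rw [← Set.ncard_eq_toFinset_card _ fin6, h6])
    (by rw [← Set.ncard_eq_toFinset_card _ fin8, h8])
    (fun _ _ => Finset.mem_univ _) (fun _ _ => Finset.mem_univ _) (fun _ _ => Finset.mem_univ _)
    (fun _ _ => Finset.mem_univ _)
    (fun x hx y hy => sep (a := 0) (b := 4) (by norm_num) (by norm_num) (by norm_num) x y
      (by rw [Finset.mem_singleton.1 hx]; exact hzero) ((Set.Finite.mem_toFinset fin4).1 hy))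
    (fun x hx y hy => sep (a := 0) (b := 6) (by norm_num) (by norm_num) (by norm_num) x y
      (by rw [Finset.mem_singleton.1 hx]; exact hzero) ((Set.Finite.mem_toFinset fin6).1 hy))
    (fun x hx y hy => sep (a := 0) (b := 8) (by norm_num) (by norm_num) (by norm_num) x y
      (by rw [Finset.mem_singleton.1 hx]; exact hzero) ((Set.Finite.mem_toFinset fin8).1 hy))
    (fun x hx y hy => sep (a := 4) (b := 6) (by norm_num) (by norm_num) (by norm_num) x y
      ((Set.Finite.mem_toFinset fin4).1 hx) ((Set.Finite.mem_toFinset fin6).1 hy))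
    (fun x hx y hy => sep (a := 4) (b := 8) (by norm_num) (by norm_num) (by norm_num) x y
      ((Set.Finite.mem_toFinset fin4).1 hx) ((Set.Finite.mem_toFinset fin8).1 hy))
    (fun x hx y hy => sep (a := 6) (b := 8) (by norm_num) (by norm_num) (by norm_num) x y
      ((Set.Finite.mem_toFinset fin6).1 hx) ((Set.Finite.mem_toFinset fin8).1 hy))
    (fib2 fin4 (by norm_num)) (fib2 fin6 (by norm_num)) fib48
  have h1 := main.2 x ((Set.Finite.mem_toFinset fin8).2 hx)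
  have h3 : {y : Fin 24 → ℤ | y ⬝ᵥ (B *ᵥ y) = 8 ∧ ∀ i, (2 : ℤ) ∣ (x - y) i}
      = ((fin8.toFinset.filter fun y => π y = π x : Finset (Fin 24 → ℤ)) : Set (Fin 24 → ℤ)) := by
    ext y
    rw [Finset.mem_coe, Finset.mem_filter, Set.Finite.mem_toFinset, eq_comm (a := π y), hπ]
    rfl
  rw [h3, Set.ncard_coe_finset, h1]

end Cfsg.Agent.S1588
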