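import Mathlib
import Cfsg.Statements.S1590
import Cfsg.Agent.Lib.Helper56.TGCode

set_option autoImplicit false
open Cfsg

namespace Cfsg.Agent.S1590

open Cfsg.Agent.Lib.Helper56.TG
open Cfsg.Agent.Lib.Helper27 (pc)

theorem count (k : ℕ) :
    {x : Cfsg.ArrayPt → ZMod 3 | x ∈ Cfsg.ternaryGolayCode ∧ (Cfsg.ternarySupport x).card = k}.ncard =
      (Finset.univ.filter (fun a : A => pc (S (index a)) = k)).card := by
  have h : {x : Cfsg.ArrayPt → ZMod 3 | x ∈ Cfsg.ternaryGolayCode ∧ (Cfsg.ternarySupport x).card = k} =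
      enc '' (↑(Finset.univ.filter (fun a : A => pc (S (index a)) = k)) : Set A) := by
    ext x
    constructor
    · rintro ⟨hx, hk⟩
      refine ⟨info x, ?_, (eq_enc hx).symm⟩
      simp only [Finset.coe_filter, Finset.mem_univ, true_and, Set.mem_ofPred_eq]
      rw [← card_support_enc, ← eq_enc hx]
      exact hk
    · rintro ⟨a, ha, rfl⟩
      refine ⟨enc_mem a, ?_⟩
      rw [card_support_enc]
      simpa using ha
  rw [h, Set.ncard_image_of_injective _ enc_injective, Set.ncard_coe_finset]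

theorem weights : ∀ a : A, a = 0 ∨ pc (S (index a)) = 6 ∨ pc (S (index a)) = 9 ∨
    pc (S (index a)) = 12 := by decide +kernel

theorem c6 : (Finset.univ.filter (fun a : A => pc (S (index a)) = 6)).card = 264 := by
  decide +kernel

theorem c9 : (Finset.univ.filter (fun a : A => pc (S (index a)) = 9)).card = 440 := by
  decide +kernel

theorem c12 : (Finset.univ.filter (fun a : A => pc (S (index a)) = 12)).card = 24 := by
  decide +kernel

/-- The length-12 ternary code has 729 words with weight distribution 0^1 6^264 9^440 12^24. -/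
theorem result : Nat.card ↥Cfsg.ternaryGolayCode = 729 ∧ (∀ x ∈ Cfsg.ternaryGolayCode, x ≠ 0 → (Cfsg.ternarySupport x).card = 6 ∨ (Cfsg.ternarySupport x).card = 9 ∨ (Cfsg.ternarySupport x).card = 12) ∧ {x : Cfsg.ArrayPt → ZMod 3 | x ∈ Cfsg.ternaryGolayCode ∧ (Cfsg.ternarySupport x).card = 6}.ncard = 264 ∧ {x : Cfsg.ArrayPt → ZMod 3 | x ∈ Cfsg.ternaryGolayCode ∧ (Cfsg.ternarySupport x).card = 9}.ncard = 440 ∧ {x : Cfsg.ArrayPt → ZMod 3 | x ∈ Cfsg.ternaryGolayCode ∧ (Cfsg.ternarySupport x).card = 12}.ncard = 24 := by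
  refine ⟨?_, ?_, ?_, ?_, ?_⟩
  · rw [← Nat.card_congr encEquiv, Nat.card_eq_fintype_card]
    simp [Fintype.card_prod, ZMod.card]
  · intro x hx hx0
    rw [eq_enc hx, card_support_enc]
    rcases weights (info x) with h | h
    · exfalso
      apply hx0
      rw [eq_enc hx, h]
      simp [enc]
    · exact h
  · rw [count, c6]
  · rw [count, c9]
  · rw [count, c12]

end Cfsg.Agent.S1590
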