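import Mathlib
import Cfsg.Statements.S1591
import Cfsg.Agent.Lib.Helper56.TGCode

set_option autoImplicit false
open Cfsg

namespace Cfsg.Agent.S1591

open Cfsg.Agent.Lib.Helper56.TG

theorem gg : ∀ i < 6, ∀ j < 6, g i ⬝ᵥ g j = 0 := by decide +kernel

theorem gg' (i j : ℕ) (hi : i < 6) (hj : j < 6) : g i ⬝ᵥ g j = 0 := gg i hi j hj

/-- Any two words of the length-12 ternary code have dot product zero. -/
theorem result (x y : Cfsg.ArrayPt → ZMod 3) (hx : x ∈ Cfsg.ternaryGolayCode) (hy : y ∈ Cfsg.ternaryGolayCode) : ∑ p, x p * y p = 0 := by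
  show x ⬝ᵥ y = 0
  rw [eq_enc hx, eq_enc hy]
  simp [enc, add_dotProduct, dotProduct_add, smul_dotProduct, dotProduct_smul, gg']

end Cfsg.Agent.S1591
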