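import Cfsg.Statements.S1595
import Cfsg.Agent.Lib.Helper93.Steiner

set_option autoImplicit false
open Cfsg

namespace Cfsg.Agent.S1595

open Cfsg.Agent.Lib.Helper93.St

/-- Leech triangle of S(5, 6, 12): blocks meet in 0, 2, 3 or 4 points, and a block is met exactly in a given 2-, 3- or 4-subset by 3, 2, 3 blocks respectively. -/
theorem result {α : Type*} [Fintype α] [DecidableEq α] (hα : Fintype.card α = 12) {B : Set (Finset α)} (hB : Cfsg.IsSteinerSystem 5 6 B) (b : Finset α) (hb : b ∈ B) : (∀ c ∈ B, c ≠ b → (b ∩ c).card = 0 ∨ (b ∩ c).card = 2 ∨ (b ∩ c).card = 3 ∨ (b ∩ c).card = 4) ∧ ∀ s ⊆ b, (s.card = 2 → {c : Finset α | c ∈ B ∧ b ∩ c = s}.ncard = 3) ∧ (s.card = 3 → {c : Finset α | c ∈ B ∧ b ∩ c = s}.ncard = 2) ∧ (s.card = 4 → {c : Finset α | c ∈ B ∧ b ∩ c = s}.ncard = 3) := by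
  have hs : ∀ i ≤ 5, n12 i * (Nat.choose (6 - i) (5 - i) : ℤ) =
      (Nat.choose (Fintype.card α - i) (5 - i) : ℤ) := by rw [hα]; exact small12
  constructor
  · intro c hc hcb
    have key := fun j hj => inter_card_ne hB (by norm_num) n12 hs big12 hc hb j hj
    have hle : (b ∩ c).card ≤ 6 := by
      rw [← hB.1 b hb]; exact Finset.card_le_card Finset.inter_subset_left
    have h8 : (b ∩ c).card ≠ 6 := fun h => hcb (eq_of_inter_card hB hc hb h)
    have h1 := key 1 (by decide)
    have h5 := key 5 (by decide)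
    omega
  · intro s hsb
    have h := card_inter_eq (blocks B) b n12
      (through_eq_of_block hB (by norm_num) n12 hs big12 hb) hsb
    rw [hB.1 b hb] at h
    have hset : {c : Finset α | c ∈ B ∧ b ∩ c = s}.ncard =
        ((blocks B).filter (fun c => c ∩ b = s)).card := by
      rw [ncard_eq_card_filter]
      congr 1
      ext c
      simp only [Finset.mem_filter, Finset.inter_comm]
    rw [hset]
    refine ⟨fun h2 => ?_, fun h2 => ?_, fun h2 => ?_⟩ <;> rw [h2] at h
    · have e : tri n12 (6 - 2) 2 = 3 := by decide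
      rw [e] at h; exact_mod_cast h
    · have e : tri n12 (6 - 3) 3 = 2 := by decide
      rw [e] at h; exact_mod_cast h
    · have e : tri n12 (6 - 4) 4 = 3 := by decide
      rw [e] at h; exact_mod_cast h

end Cfsg.Agent.S1595
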