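import Cfsg.Statements.S1600
import Cfsg.Agent.Lib.Helper27.FlagStab

set_option autoImplicit false
open scoped Pointwise
open Cfsg

namespace Cfsg.Agent.S1600

/-- The pointwise stabiliser of three points of a dodecad inside the dodecad stabiliser (order 72) is transitive on the complementary dodecad. -/
theorem result (d : Finset Cfsg.GolayPt) (hd : d ∈ Cfsg.dodecads) (p q r : Cfsg.GolayPt) (hp : p ∈ d) (hq : q ∈ d) (hr : r ∈ d) (hpq : p ≠ q) (hpr : p ≠ r) (hqr : q ≠ r) : Nat.card ↥(MulAction.stabilizer Cfsg.M24 d ⊓ MulAction.stabilizer Cfsg.M24 p ⊓ MulAction.stabilizer Cfsg.M24 q ⊓ MulAction.stabilizer Cfsg.M24 r) = 72 ∧ ∀ x ∉ d, ∀ y ∉ d, ∃ g ∈ (MulAction.stabilizer Cfsg.M24 d ⊓ MulAction.stabilizer Cfsg.M24 p ⊓ MulAction.stabilizer Cfsg.M24 q ⊓ MulAction.stabilizer Cfsg.M24 r), ((g : ↥Cfsg.M24) : Equiv.Perm Cfsg.GolayPt) x = y := by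
  open Cfsg.Agent.Lib.Helper27 in
  have hS : MulAction.stabilizer Cfsg.M24 d ⊓ MulAction.stabilizer Cfsg.M24 p ⊓
      MulAction.stabilizer Cfsg.M24 q ⊓ MulAction.stabilizer Cfsg.M24 r = flagStab [{r}, {q}, {p}, d] := by
    rw [flagStab_cons_pt, flagStab_cons_pt, flagStab_cons_pt, flagStab_singleton_set]
  open Cfsg.Agent.Lib.Helper27 in
  obtain ⟨t, ht, h⟩ := dflag3 hd hp hq hr hpq hpr hqr
  refine ⟨?_, ?_⟩
  · rw [hS, Cfsg.Agent.Lib.Helper27.card_flagStab ht h]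
    exact Cfsg.Agent.Lib.Helper27.card_fixer_D3
  · intro x hx y hy
    have hm : ∀ z : Cfsg.GolayPt, z ∉ Cfsg.Agent.Lib.Helper27.unmask 340831 →
        z ∈ Cfsg.Agent.Lib.Helper27.unmask 16436384 := by decide +kernel
    have h' := h
    simp only [Cfsg.Agent.Lib.Helper27.D3, Cfsg.Agent.Lib.Helper27.maps_cons] at h'
    obtain ⟨_, _, _, ed, _⟩ := h'
    obtain ⟨g1, hg1, m1⟩ := h.extend_pt ht (by norm_num) Cfsg.Agent.Lib.Helper27.d3ctrans
      (hm _ (Cfsg.Agent.Lib.Helper27.Maps.apply_not_mem ed hx))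
    obtain ⟨g2, hg2, m2⟩ := h.extend_pt ht (by norm_num) Cfsg.Agent.Lib.Helper27.d3ctrans
      (hm _ (Cfsg.Agent.Lib.Helper27.Maps.apply_not_mem ed hy))
    have := m1.trans_inv m2
    simp only [List.forall₂_cons, Cfsg.Agent.Lib.Helper27.smul_singleton_iff] at this
    obtain ⟨e1, er, eq, ep, ed', _⟩ := this
    exact ⟨⟨g2⁻¹ * g1, Cfsg.M24.mul_mem (Cfsg.M24.inv_mem hg2) hg1⟩, ⟨⟨⟨ed', ep⟩, eq⟩, er⟩, e1⟩

end Cfsg.Agent.S1600
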