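import Cfsg.Statements.S1601
import Cfsg.Agent.Lib.Helper30.DodecadExt
import Cfsg.Agent.Lib.Helper7.SimpleCrit
import Cfsg.Agent.Lib.Helper7.LeechBasic
import Cfsg.Agent.Lib.Helper27.Flag
import Cfsg.Agent.S0387
import Cfsg.Agent.S0389
import Cfsg.Agent.S0498

set_option autoImplicit false
open scoped Pointwise
open Cfsg

namespace Cfsg.Agent.S1601

open Cfsg.Agent.Lib.Helper27 Cfsg.Agent.Lib.Helper30

theorem compl_mem_dodecads' {d : Finset GolayPt} (hd : d ∈ dodecads) : dᶜ ∈ dodecads := by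
  refine ⟨Cfsg.Agent.Lib.Helper7.GC_compl hd.1, ?_⟩
  rw [Finset.card_compl, hd.2]
  simp [ZMod.card]

theorem smul_compl' (k : Equiv.Perm GolayPt) (s : Finset GolayPt) : k • sᶜ = (k • s)ᶜ := by
  rw [Finset.compl_eq_univ_sdiff, Finset.smul_finset_sdiff, Finset.smul_finset_univ,
    Finset.compl_eq_univ_sdiff]

/-- three distinct points as an embedding -/
def emb3 (a b c : GolayPt) (hab : a ≠ b) (hac : a ≠ c) (hbc : b ≠ c) : Fin 3 ↪ GolayPt :=
  ⟨![a, b, c], by
    intro i j h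
    fin_cases i <;> fin_cases j <;> simp_all⟩

/-- 3-transitivity in a convenient form -/
theorem trans3 {d : Finset GolayPt} (hd : d ∈ dodecads) {p : GolayPt} (hp : p ∈ d)
    {a b c a' b' c' : GolayPt} (hab : a ≠ b) (hac : a ≠ c) (hbc : b ≠ c)
    (hab' : a' ≠ b') (hac' : a' ≠ c') (hbc' : b' ≠ c')
    (ha : a ∉ d) (hb : b ∉ d) (hc : c ∉ d) (ha' : a' ∉ d) (hb' : b' ∉ d) (hc' : c' ∉ d) :
    ∃ g ∈ MulAction.stabilizer M24 d ⊓ MulAction.stabilizer M24 p,
      (g : Equiv.Perm GolayPt) a = a' ∧ (g : Equiv.Perm GolayPt) b = b' ∧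
        (g : Equiv.Perm GolayPt) c = c' := by
  obtain ⟨g, hg, h⟩ := Cfsg.Agent.S0389.result d hd p hp (emb3 a b c hab hac hbc)
    (emb3 a' b' c' hab' hac' hbc')
    (by intro i; fin_cases i <;> first | exact ha | exact hb | exact hc)
    (by intro i; fin_cases i <;> first | exact ha' | exact hb' | exact hc')
  exact ⟨g, hg, h 0, h 1, h 2⟩

/-- In the 3-transitive action of the smallest Mathieu group on the complementary dodecad, a point stabiliser is isomorphic to PSL(2, 11). -/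
theorem result (d : Finset Cfsg.GolayPt) (hd : d ∈ Cfsg.dodecads) (p q : Cfsg.GolayPt) (hp : p ∈ d) (hq : q ∉ d) : Nonempty (↥(MulAction.stabilizer Cfsg.M24 d ⊓ MulAction.stabilizer Cfsg.M24 p ⊓ MulAction.stabilizer Cfsg.M24 q) ≃* Matrix.ProjectiveSpecialLinearGroup (Fin 2) (ZMod 11)) := by
  have hdc : dᶜ.card = 12 := (compl_mem_dodecads' hd).2
  -- a third point
  have third : ∀ a b : GolayPt, ∃ w, w ∉ d ∧ w ≠ a ∧ w ≠ b := by
    intro a b
    have h1 : 0 < ((dᶜ.erase a).erase b).card := by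
      have := Finset.pred_card_le_card_erase (s := dᶜ) (a := a)
      have := Finset.pred_card_le_card_erase (s := dᶜ.erase a) (a := b)
      omega
    obtain ⟨w, hw⟩ := Finset.card_pos.mp h1
    simp only [Finset.mem_erase, Finset.mem_compl] at hw
    exact ⟨w, hw.2.2, hw.2.1, hw.1⟩
  have hmem : ∀ g : ↥M24, g ∈ MulAction.stabilizer M24 d → ∀ z : GolayPt,
      ((g : Equiv.Perm GolayPt) z ∈ d ↔ z ∈ d) := by
    intro g hg z
    have h : (g : Equiv.Perm GolayPt) • d = d := hg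
    constructor
    · intro hz
      rw [← h] at hz
      obtain ⟨w, hw, e⟩ := Finset.mem_smul_finset.mp hz
      have : w = z := (g : Equiv.Perm GolayPt).injective e
      exact this ▸ hw
    · intro hz
      rw [← h]
      exact Finset.mem_smul_finset.mpr ⟨z, hz, rfl⟩
  -- the order
  have hcard : Nat.card ↥(MulAction.stabilizer M24 d ⊓ MulAction.stabilizer M24 p ⊓
      MulAction.stabilizer M24 q) = 660 := by
    have h := card_step (MulAction.stabilizer M24 d ⊓ MulAction.stabilizer M24 p) q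
      {y : GolayPt | y ∉ d} (by
        intro y hy
        by_cases hyq : y = q
        · exact ⟨1, one_mem _, by rw [hyq]; rfl⟩
        · obtain ⟨w, hw, hw1, hw2⟩ := third q y
          obtain ⟨g, hg, h1, _, _⟩ := trans3 hd hp (a := q) (b := y) (c := w) (a' := y) (b' := q)
            (c' := w) (Ne.symm hyq) (Ne.symm hw1) (Ne.symm hw2) hyq (Ne.symm hw2) (Ne.symm hw1)
            hq hy hw hy hq hw
          exact ⟨g, hg, h1⟩) (by
        intro g hg
        show ¬ ((g : Equiv.Perm GolayPt) q ∈ d)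
        rw [hmem g hg.1]; exact hq)
    have h12 : {y : GolayPt | y ∉ d}.ncard = 12 := by
      have : {y : GolayPt | y ∉ d} = ↑(dᶜ) := by ext y; simp
      rw [this, Set.ncard_coe_finset, hdc]
    rw [Cfsg.Agent.S0387.result d hd p hp, h12] at h
    omega
  obtain ⟨y0, hy0, hy0q, _⟩ := third q q
  have hfin : Finite ↥(MulAction.stabilizer M24 d ⊓ MulAction.stabilizer M24 p ⊓
      MulAction.stabilizer M24 q) := Nat.finite_of_card_ne_zero (by rw [hcard]; norm_num)
  have : Fact (Nat.Prime 11) := ⟨by norm_num⟩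
  have hsimple : IsSimpleGroup ↥(MulAction.stabilizer M24 d ⊓ MulAction.stabilizer M24 p ⊓
      MulAction.stabilizer M24 q) := by
    refine Cfsg.Agent.Lib.Helper7.isSimpleGroup_of_prime_degree
      (Y := GolayPt) {y : GolayPt | y ∉ d ∧ y ≠ q} y0 ⟨hy0, hy0q⟩ ?_ ?_ ?_ ?_ 11 5 660
      (by norm_num) ?_ hcard (by norm_num) (by norm_num) (by norm_num) (by decide)
    · rintro ⟨g, hg⟩ z ⟨hz, hzq⟩
      refine ⟨?_, ?_⟩
      · show ¬ ((g : Equiv.Perm GolayPt) z ∈ d)
        rw [hmem g hg.1.1]; exact hz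
      · intro e
        have hgq : (g : Equiv.Perm GolayPt) q = q := hg.2
        exact hzq ((g : Equiv.Perm GolayPt).injective (Eq.trans e hgq.symm))
    · rintro z ⟨hz, hzq⟩
      by_cases hzy : z = y0
      · exact ⟨1, by rw [hzy]; rfl⟩
      · obtain ⟨g, hg, h1, h2, _⟩ := trans3 hd hp (a := q) (b := y0) (c := z) (a' := q) (b' := z)
          (c' := y0) (Ne.symm hy0q) (Ne.symm hzq) (Ne.symm hzy) (Ne.symm hzq) (Ne.symm hy0q) hzy
          hq hy0 hz hq hz hy0
        exact ⟨⟨g, hg, h1⟩, h2⟩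
    · rintro z ⟨hz, hzq⟩ hzy z' ⟨hz', hzq'⟩ hzy'
      obtain ⟨g, hg, h1, h2, h3⟩ := trans3 hd hp (a := q) (b := y0) (c := z) (a' := q) (b' := y0)
        (c' := z') (Ne.symm hy0q) (Ne.symm hzq) (Ne.symm hzy) (Ne.symm hy0q) (Ne.symm hzq')
        (Ne.symm hzy') hq hy0 hz hq hy0 hz'
      exact ⟨⟨g, hg, h1⟩, h2, h3⟩
    · rintro ⟨g, hg⟩ hfix
      apply Subtype.ext
      apply Subtype.ext
      show (g : Equiv.Perm GolayPt) = 1
      have hgd : (g : Equiv.Perm GolayPt) • d = d := hg.1.1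
      refine dodecad_eq_one (compl_mem_dodecads' hd) dᶜ (by rw [hdc]; norm_num) (Finset.Subset.refl _)
        g.2 (by rw [smul_compl', hgd]) ?_
      intro a ha
      by_cases haq : a = q
      · rw [haq]; exact hg.2
      · exact hfix a ⟨Finset.mem_compl.mp ha, haq⟩
    · have : {y : GolayPt | y ∉ d ∧ y ≠ q} = ↑(dᶜ.erase q) := by
        ext y; simp [and_comm]
      rw [this, Set.ncard_coe_finset, Finset.card_erase_of_mem (Finset.mem_compl.mpr hq), hdc]
  exact Cfsg.Agent.S0498.result 11 (Or.inl rfl) (by rw [hcard]; norm_num) (by simp [ZMod.card])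

end Cfsg.Agent.S1601
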