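import Cfsg.Statements.S1604
import Cfsg.Agent.Lib.Helper27.OctadFlags

set_option autoImplicit false
open scoped Pointwise
open Cfsg

namespace Cfsg.Agent.S1604

/-- A hexad stabiliser in the two-point stabiliser has orbits of sizes 1, 16, 60 on the 77 hexads: the 16 hexads disjoint from it and the 60 meeting it in two points. -/
theorem result (p q : Cfsg.GolayPt) (hpq : p ≠ q) (o o' o'' : Finset Cfsg.GolayPt) (ho : o ∈ Cfsg.octads) (ho' : o' ∈ Cfsg.octads) (ho'' : o'' ∈ Cfsg.octads) (hp : p ∈ o ∧ p ∈ o' ∧ p ∈ o'') (hq : q ∈ o ∧ q ∈ o' ∧ q ∈ o'') (h : (o ∩ o').card = (o ∩ o'').card) : {x : Finset Cfsg.GolayPt | x ∈ Cfsg.octads ∧ p ∈ x ∧ q ∈ x ∧ (o ∩ x).card = 2}.ncard = 16 ∧ {x : Finset Cfsg.GolayPt | x ∈ Cfsg.octads ∧ p ∈ x ∧ q ∈ x ∧ (o ∩ x).card = 4}.ncard = 60 ∧ ∃ g : Equiv.Perm Cfsg.GolayPt, g ∈ Cfsg.M24 ∧ g p = p ∧ g q = q ∧ g • o = o ∧ g • o' =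 o'' := by
  open Cfsg.Agent.Lib.Helper27 in
  obtain ⟨t, ht, hM⟩ := oflag_in2 ho hp.1 hq.1 hpq
  have h' := hM
  simp only [Cfsg.Agent.Lib.Helper27.maps_cons] at h'
  obtain ⟨eq, ep, eo, _⟩ := h'
  have ep' : t p = Cfsg.Agent.Lib.Helper27.pt 23 :=
    (Cfsg.Agent.Lib.Helper27.smul_singleton_eq (by norm_num)).1 ep
  have eq' : t q = Cfsg.Agent.Lib.Helper27.pt 0 :=
    (Cfsg.Agent.Lib.Helper27.smul_singleton_eq (by norm_num)).1 eq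
  open Cfsg.Agent.Lib.Helper27 in
  have hiff : ∀ (c : ℕ) (s : Finset Cfsg.GolayPt),
      (s ∈ Cfsg.octads ∧ p ∈ s ∧ q ∈ s ∧ (o ∩ s).card = c) ↔
      (s ∈ Cfsg.supports (Cfsg.golayCode : Set (Cfsg.GolayPt → ZMod 2)) ∧
        (fun m => band (tb m 23) (band (tb m 0) (octTest 8536111 c m))) (mask (t • s)) = true) := by
    intro c s
    simp only [octTest, band_eq, Bool.and_eq_true, Nat.beq_eq, tb_mask_smul (by norm_num) ep',
      tb_mask_smul (by norm_num) eq', pc_mask_smul, pc_land_mask_smul (by norm_num) eo]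
    unfold Cfsg.octads Cfsg.wordsOfWeight
    simp only [Set.mem_ofPred_eq]
    tauto
  refine ⟨?_, ?_, ?_⟩
  · rw [Cfsg.Agent.Lib.Helper27.ncard_eq_count ht
      {x : Finset Cfsg.GolayPt | x ∈ Cfsg.octads ∧ p ∈ x ∧ q ∈ x ∧ (o ∩ x).card = 2}
      (fun m => Cfsg.Agent.Lib.Helper27.band (Cfsg.Agent.Lib.Helper27.tb m 23)
        (Cfsg.Agent.Lib.Helper27.band (Cfsg.Agent.Lib.Helper27.tb m 0)
        (Cfsg.Agent.Lib.Helper27.octTest 8536111 2 m))) (hiff 2)]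
    decide +kernel
  · rw [Cfsg.Agent.Lib.Helper27.ncard_eq_count ht
      {x : Finset Cfsg.GolayPt | x ∈ Cfsg.octads ∧ p ∈ x ∧ q ∈ x ∧ (o ∩ x).card = 4}
      (fun m => Cfsg.Agent.Lib.Helper27.band (Cfsg.Agent.Lib.Helper27.tb m 23)
        (Cfsg.Agent.Lib.Helper27.band (Cfsg.Agent.Lib.Helper27.tb m 0)
        (Cfsg.Agent.Lib.Helper27.octTest 8536111 4 m))) (hiff 4)]
    decide +kernel
  · have fin : ∀ g : Equiv.Perm Cfsg.GolayPt, g ∈ Cfsg.M24 → g • o' = o'' →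
        (∀ u ∈ [{q}, {p}, o], g • u = u) →
        ∃ g : Equiv.Perm Cfsg.GolayPt, g ∈ Cfsg.M24 ∧ g p = p ∧ g q = q ∧ g • o = o ∧ g • o' = o'' := by
      intro g hg h1 h2
      exact ⟨g, hg, Cfsg.Agent.Lib.Helper27.smul_singleton_iff.1 (h2 _ (by simp)),
        Cfsg.Agent.Lib.Helper27.smul_singleton_iff.1 (h2 _ (by simp)), h2 _ (by simp), h1⟩
    have hpos : (o ∩ o').card ≠ 0 := by
      rw [Finset.card_ne_zero]; exact ⟨p, Finset.mem_inter.2 ⟨hp.1, hp.2.1⟩⟩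
    rcases Cfsg.Agent.Lib.Helper27.octad_inter_card ho ho' with h0 | h2 | h4 | h8
    · exact absurd h0 hpos
    · obtain ⟨g, hg, h1, h2'⟩ := hM.two_ext ht Cfsg.Agent.Lib.Helper27.orb_in2_2 ho'.1 ho''.1
        ((hiff 2 o').1 ⟨ho', hp.2.1, hq.2.1, h2⟩).2 ((hiff 2 o'').1 ⟨ho'', hp.2.2, hq.2.2, h ▸ h2⟩).2
      exact fin g hg h1 h2'
    · obtain ⟨g, hg, h1, h2'⟩ := hM.two_ext ht Cfsg.Agent.Lib.Helper27.orb_in2_4 ho'.1 ho''.1
        ((hiff 4 o').1 ⟨ho', hp.2.1, hq.2.1, h4⟩).2 ((hiff 4 o'').1 ⟨ho'', hp.2.2, hq.2.2, h ▸ h4⟩).2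
      exact fin g hg h1 h2'
    · have e1 := Cfsg.Agent.Lib.Helper27.octad_eq_of_inter_card ho ho' h8
      have e2 := Cfsg.Agent.Lib.Helper27.octad_eq_of_inter_card ho ho'' (h ▸ h8)
      exact ⟨1, Cfsg.M24.one_mem, rfl, rfl, one_smul _ _, by rw [one_smul, e1, e2]⟩

end Cfsg.Agent.S1604
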