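import Cfsg.Statements.S1605
import Cfsg.Agent.Lib.Helper27.OctadFlags

set_option autoImplicit false
open scoped Pointwise
open Cfsg

namespace Cfsg.Agent.S1605

/-- The two-point stabiliser acts on the 176 octads through the first point avoiding the second with rank 3 and subdegrees 1, 70, 105 (intersections 8, 2, 4). -/
theorem result (p q : Cfsg.GolayPt) (hpq : p ≠ q) : {x : Finset Cfsg.GolayPt | (x ∈ Cfsg.octads ∧ p ∈ x ∧ q ∉ x)}.ncard = 176 ∧ (∀ o o' : Finset Cfsg.GolayPt, (o ∈ Cfsg.octads ∧ p ∈ o ∧ q ∉ o) → (o' ∈ Cfsg.octads ∧ p ∈ o' ∧ q ∉ o') → ∃ g : Equiv.Perm Cfsg.GolayPt, g ∈ Cfsg.M24 ∧ g p = p ∧ g q = q ∧ g • o = o') ∧ ∀ o : Finset Cfsg.GolayPt, (o ∈ Cfsg.octads ∧ p ∈ o ∧ q ∉ o) → {x : Finset Cfsg.GolayPt | (x ∈ Cfsg.octads ∧ p ∈ x ∧ q ∉ x) ∧ (o ∩ x).card = 2}.ncard = 70 ∧ {x : Finset Cfsg.GolayPt | (x ∈ Cfsg.octads ∧ p ∈ x ∧ q ∉ x) ∧ (o ∩ x).card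 = 4}.ncard = 105 ∧ ∀ o' o'' : Finset Cfsg.GolayPt, (o' ∈ Cfsg.octads ∧ p ∈ o' ∧ q ∉ o') → (o'' ∈ Cfsg.octads ∧ p ∈ o'' ∧ q ∉ o'') → (o ∩ o').card = (o ∩ o'').card → ∃ g : Equiv.Perm Cfsg.GolayPt, g ∈ Cfsg.M24 ∧ g p = p ∧ g q = q ∧ g • o = o ∧ g • o' = o'' := by
  open Cfsg.Agent.Lib.Helper27 in
  obtain ⟨t, ht, hM⟩ := pflag2 hpq
  have h' := hM
  simp only [Cfsg.Agent.Lib.Helper27.maps_cons] at h'
  obtain ⟨eq, ep, _⟩ := h'
  have ep' : t p = Cfsg.Agent.Lib.Helper27.pt 23 :=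
    (Cfsg.Agent.Lib.Helper27.smul_singleton_eq (by norm_num)).1 ep
  have eq' : t q = Cfsg.Agent.Lib.Helper27.pt 0 :=
    (Cfsg.Agent.Lib.Helper27.smul_singleton_eq (by norm_num)).1 eq
  open Cfsg.Agent.Lib.Helper27 in
  have hiff0 : ∀ (s : Finset Cfsg.GolayPt), (s ∈ Cfsg.octads ∧ p ∈ s ∧ q ∉ s) ↔
      (s ∈ Cfsg.supports (Cfsg.golayCode : Set (Cfsg.GolayPt → ZMod 2)) ∧
        (fun m => band (tb m 23) (band (bnot (tb m 0)) (Nat.beq (pc m) 8))) (mask (t • s)) = true) := by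
    intro s
    simp only [band_eq, Bool.and_eq_true, Nat.beq_eq, tb_mask_smul (by norm_num) ep',
      bnot_tb_mask_smul (by norm_num) eq', pc_mask_smul]
    unfold Cfsg.octads Cfsg.wordsOfWeight
    simp only [Set.mem_ofPred_eq]
    tauto
  refine ⟨?_, ?_, ?_⟩
  · rw [Cfsg.Agent.Lib.Helper27.ncard_eq_count ht
      {x : Finset Cfsg.GolayPt | (x ∈ Cfsg.octads ∧ p ∈ x ∧ q ∉ x)}
      (fun m => Cfsg.Agent.Lib.Helper27.band (Cfsg.Agent.Lib.Helper27.tb m 23)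
        (Cfsg.Agent.Lib.Helper27.band (Cfsg.Agent.Lib.Helper27.bnot (Cfsg.Agent.Lib.Helper27.tb m 0))
        (Nat.beq (Cfsg.Agent.Lib.Helper27.pc m) 8))) hiff0]
    decide +kernel
  · intro o o' ho ho'
    obtain ⟨g, hg, h1, h2⟩ := hM.two_ext ht Cfsg.Agent.Lib.Helper27.orb_hept ho.1.1 ho'.1.1
      ((hiff0 o).1 ho).2 ((hiff0 o').1 ho').2
    exact ⟨g, hg, Cfsg.Agent.Lib.Helper27.smul_singleton_iff.1 (h2 _ (by simp)),
      Cfsg.Agent.Lib.Helper27.smul_singleton_iff.1 (h2 _ (by simp)), h1⟩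
  · intro o ho
    obtain ⟨t, ht, hM⟩ := hM.extend_code ht Cfsg.Agent.Lib.Helper27.orb_hept ho.1.1 ((hiff0 o).1 ho).2
    have h' := hM
    simp only [Cfsg.Agent.Lib.Helper27.maps_cons] at h'
    obtain ⟨eo, eq, ep, _⟩ := h'
    have ep' : t p = Cfsg.Agent.Lib.Helper27.pt 23 :=
      (Cfsg.Agent.Lib.Helper27.smul_singleton_eq (by norm_num)).1 ep
    have eq' : t q = Cfsg.Agent.Lib.Helper27.pt 0 :=
      (Cfsg.Agent.Lib.Helper27.smul_singleton_eq (by norm_num)).1 eq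
    open Cfsg.Agent.Lib.Helper27 in
    have hiff : ∀ (c : ℕ) (s : Finset Cfsg.GolayPt),
        ((s ∈ Cfsg.octads ∧ p ∈ s ∧ q ∉ s) ∧ (o ∩ s).card = c) ↔
        (s ∈ Cfsg.supports (Cfsg.golayCode : Set (Cfsg.GolayPt → ZMod 2)) ∧
          (fun m => band (tb m 23) (band (bnot (tb m 0)) (octTest 8394986 c m))) (mask (t • s)) = true) := by
      intro c s
      simp only [octTest, band_eq, Bool.and_eq_true, Nat.beq_eq, tb_mask_smul (by norm_num) ep',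
        bnot_tb_mask_smul (by norm_num) eq', pc_mask_smul, pc_land_mask_smul (by norm_num) eo]
      unfold Cfsg.octads Cfsg.wordsOfWeight
      simp only [Set.mem_ofPred_eq]
      tauto
    refine ⟨?_, ?_, ?_⟩
    · rw [Cfsg.Agent.Lib.Helper27.ncard_eq_count ht
        {x : Finset Cfsg.GolayPt | (x ∈ Cfsg.octads ∧ p ∈ x ∧ q ∉ x) ∧ (o ∩ x).card = 2}
        (fun m => Cfsg.Agent.Lib.Helper27.band (Cfsg.Agent.Lib.Helper27.tb m 23)
          (Cfsg.Agent.Lib.Helper27.band (Cfsg.Agent.Lib.Helper27.bnot (Cfsg.Agent.Lib.Helper27.tb m 0))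
          (Cfsg.Agent.Lib.Helper27.octTest 8394986 2 m))) (hiff 2)]
      decide +kernel
    · rw [Cfsg.Agent.Lib.Helper27.ncard_eq_count ht
        {x : Finset Cfsg.GolayPt | (x ∈ Cfsg.octads ∧ p ∈ x ∧ q ∉ x) ∧ (o ∩ x).card = 4}
        (fun m => Cfsg.Agent.Lib.Helper27.band (Cfsg.Agent.Lib.Helper27.tb m 23)
          (Cfsg.Agent.Lib.Helper27.band (Cfsg.Agent.Lib.Helper27.bnot (Cfsg.Agent.Lib.Helper27.tb m 0))
          (Cfsg.Agent.Lib.Helper27.octTest 8394986 4 m))) (hiff 4)]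
      decide +kernel
    · intro o' o'' ho' ho'' hc
      have fin : ∀ g : Equiv.Perm Cfsg.GolayPt, g ∈ Cfsg.M24 → g • o' = o'' →
          (∀ u ∈ [o, {q}, {p}], g • u = u) →
          ∃ g : Equiv.Perm Cfsg.GolayPt, g ∈ Cfsg.M24 ∧ g p = p ∧ g q = q ∧ g • o = o ∧ g • o' = o'' := by
        intro g hg h1 h2
        exact ⟨g, hg, Cfsg.Agent.Lib.Helper27.smul_singleton_iff.1 (h2 _ (by simp)),
          Cfsg.Agent.Lib.Helper27.smul_singleton_iff.1 (h2 _ (by simp)), h2 _ (by simp), h1⟩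
      have hpos : (o ∩ o').card ≠ 0 := by
        rw [Finset.card_ne_zero]; exact ⟨p, Finset.mem_inter.2 ⟨ho.2.1, ho'.2.1⟩⟩
      rcases Cfsg.Agent.Lib.Helper27.octad_inter_card ho.1 ho'.1 with h0 | h2 | h4 | h8
      · exact absurd h0 hpos
      · obtain ⟨g, hg, h1, h2'⟩ := hM.two_ext ht Cfsg.Agent.Lib.Helper27.orb_hept_2 ho'.1.1 ho''.1.1
          ((hiff 2 o').1 ⟨ho', h2⟩).2 ((hiff 2 o'').1 ⟨ho'', hc ▸ h2⟩).2
        exact fin g hg h1 h2'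
      · obtain ⟨g, hg, h1, h2'⟩ := hM.two_ext ht Cfsg.Agent.Lib.Helper27.orb_hept_4 ho'.1.1 ho''.1.1
          ((hiff 4 o').1 ⟨ho', h4⟩).2 ((hiff 4 o'').1 ⟨ho'', hc ▸ h4⟩).2
        exact fin g hg h1 h2'
      · have e1 := Cfsg.Agent.Lib.Helper27.octad_eq_of_inter_card ho.1 ho'.1 h8
        have e2 := Cfsg.Agent.Lib.Helper27.octad_eq_of_inter_card ho.1 ho''.1 (hc ▸ h8)
        exact ⟨1, Cfsg.M24.one_mem, rfl, rfl, one_smul _ _, by rw [one_smul, e1, e2]⟩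

end Cfsg.Agent.S1605
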