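import Cfsg.Statements.S1606
import Cfsg.Agent.Lib.Helper92.M22.XX
import Cfsg.Agent.Lib.Helper92.M22.RED
import Cfsg.Agent.Lib.Helper92.M22.APP
import Cfsg.Agent.Lib.Helper92.M22.K210

set_option autoImplicit false
open Cfsg

namespace Cfsg.Agent.S1606

/-- The stabiliser of two points in the group of the length-24 code has no subgroups of index 56 or 210. -/
theorem result (p q : Cfsg.GolayPt) (hpq : p ≠ q) (H : Subgroup ↥(MulAction.stabilizer Cfsg.M24 p ⊓ MulAction.stabilizer Cfsg.M24 q)) : H.index ≠ 56 ∧ H.index ≠ 210 := by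
  obtain ⟨K, hK, hc⟩ := Cfsg.Agent.Lib.Helper92.M22.red p q hpq H
  constructor
  · intro h
    rw [h] at hc
    have h1 : Nat.card K = 7920 := by omega
    obtain ⟨X, _, _, hyp⟩ := Cfsg.Agent.Lib.Helper92.M22.exists_hyp K hK h1
    exact Cfsg.Agent.Lib.Helper92.M22.hyp_false hyp
  · intro h
    rw [h] at hc
    exact Cfsg.Agent.Lib.Helper92.M22.no_2112 K hK (by omega)

end Cfsg.Agent.S1606
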