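import Cfsg.Statements.S1608
import Cfsg.Agent.Lib.Helper27.OctadFlags

set_option autoImplicit false
open scoped Pointwise
open Cfsg

namespace Cfsg.Agent.S1608

/-- The point stabiliser acts on the 506 octads avoiding the point with rank 4 and subdegrees 1, 15, 210, 280, the suborbits being given by intersection size with the fixed octad. -/
theorem result (x : Cfsg.GolayPt) (o : Finset Cfsg.GolayPt) (ho : o ∈ Cfsg.octads) (hx : x ∉ o) : {o' : Finset Cfsg.GolayPt | o' ∈ Cfsg.octads ∧ x ∉ o' ∧ (o ∩ o').card = 0}.ncard = 15 ∧ {o' : Finset Cfsg.GolayPt | o' ∈ Cfsg.octads ∧ x ∉ o' ∧ (o ∩ o').card = 4}.ncard = 210 ∧ {o' : Finset Cfsg.GolayPt | o' ∈ Cfsg.octads ∧ x ∉ o' ∧ (o ∩ o').card = 2}.ncard = 280 ∧ ∀ o' o'' : Finset Cfsg.GolayPt, o' ∈ Cfsg.octads → o'' ∈ Cfsg.octads → x ∉ o' → x ∉ o'' → (o ∩ o').card = (o ∩ o'').card → ∃ g : Equiv.Perm Cfsg.GolayPt, g ∈ Cfsg.M24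 ∧ g x = x ∧ g • o = o ∧ g • o' = o'' := by
  open Cfsg.Agent.Lib.Helper27 in
  obtain ⟨t, ht, h⟩ := oflag_out ho hx
  have h' := h
  simp only [Cfsg.Agent.Lib.Helper27.maps_cons] at h'
  obtain ⟨ex, eo, _⟩ := h'
  have ex' : t x = Cfsg.Agent.Lib.Helper27.pt 4 :=
    (Cfsg.Agent.Lib.Helper27.smul_singleton_eq (by norm_num)).1 ex
  open Cfsg.Agent.Lib.Helper27 in
  have hiff : ∀ (c : ℕ) (s : Finset Cfsg.GolayPt), (s ∈ Cfsg.octads ∧ x ∉ s ∧ (o ∩ s).card = c) ↔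
      (s ∈ Cfsg.supports (Cfsg.golayCode : Set (Cfsg.GolayPt → ZMod 2)) ∧
        (fun m => band (bnot (tb m 4)) (octTest 8536111 c m)) (mask (t • s)) = true) := by
    intro c s
    simp only [octTest, band_eq, Bool.and_eq_true, Nat.beq_eq, bnot_tb_mask_smul (by norm_num) ex',
      pc_mask_smul, pc_land_mask_smul (by norm_num) eo]
    unfold Cfsg.octads Cfsg.wordsOfWeight
    simp only [Set.mem_ofPred_eq]
    tauto
  refine ⟨?_, ?_, ?_, ?_⟩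
  · rw [Cfsg.Agent.Lib.Helper27.ncard_eq_count ht
      {o' : Finset Cfsg.GolayPt | o' ∈ Cfsg.octads ∧ x ∉ o' ∧ (o ∩ o').card = 0}
      (fun m => Cfsg.Agent.Lib.Helper27.band (Cfsg.Agent.Lib.Helper27.bnot (Cfsg.Agent.Lib.Helper27.tb m 4))
        (Cfsg.Agent.Lib.Helper27.octTest 8536111 0 m)) (hiff 0)]
    decide +kernel
  · rw [Cfsg.Agent.Lib.Helper27.ncard_eq_count ht
      {o' : Finset Cfsg.GolayPt | o' ∈ Cfsg.octads ∧ x ∉ o' ∧ (o ∩ o').card = 4}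
      (fun m => Cfsg.Agent.Lib.Helper27.band (Cfsg.Agent.Lib.Helper27.bnot (Cfsg.Agent.Lib.Helper27.tb m 4))
        (Cfsg.Agent.Lib.Helper27.octTest 8536111 4 m)) (hiff 4)]
    decide +kernel
  · rw [Cfsg.Agent.Lib.Helper27.ncard_eq_count ht
      {o' : Finset Cfsg.GolayPt | o' ∈ Cfsg.octads ∧ x ∉ o' ∧ (o ∩ o').card = 2}
      (fun m => Cfsg.Agent.Lib.Helper27.band (Cfsg.Agent.Lib.Helper27.bnot (Cfsg.Agent.Lib.Helper27.tb m 4))
        (Cfsg.Agent.Lib.Helper27.octTest 8536111 2 m)) (hiff 2)]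
    decide +kernel
  · intro o' o'' ho' ho'' hx' hx'' hc
    have fin : ∀ g : Equiv.Perm Cfsg.GolayPt, g ∈ Cfsg.M24 → g • o' = o'' →
        (∀ u ∈ [{x}, o], g • u = u) →
        ∃ g : Equiv.Perm Cfsg.GolayPt, g ∈ Cfsg.M24 ∧ g x = x ∧ g • o = o ∧ g • o' = o'' := by
      intro g hg h1 h2
      exact ⟨g, hg, Cfsg.Agent.Lib.Helper27.smul_singleton_iff.1 (h2 _ (by simp)), h2 _ (by simp), h1⟩
    rcases Cfsg.Agent.Lib.Helper27.octad_inter_card ho ho' with h0 | h2 | h4 | h8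
    · obtain ⟨g, hg, h1, h2'⟩ := h.two_ext ht Cfsg.Agent.Lib.Helper27.orb_out_0 ho'.1 ho''.1
        ((hiff 0 o').1 ⟨ho', hx', h0⟩).2 ((hiff 0 o'').1 ⟨ho'', hx'', hc ▸ h0⟩).2
      exact fin g hg h1 h2'
    · obtain ⟨g, hg, h1, h2'⟩ := h.two_ext ht Cfsg.Agent.Lib.Helper27.orb_out_2 ho'.1 ho''.1
        ((hiff 2 o').1 ⟨ho', hx', h2⟩).2 ((hiff 2 o'').1 ⟨ho'', hx'', hc ▸ h2⟩).2
      exact fin g hg h1 h2'
    · obtain ⟨g, hg, h1, h2'⟩ := h.two_ext ht Cfsg.Agent.Lib.Helper27.orb_out_4 ho'.1 ho''.1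
        ((hiff 4 o').1 ⟨ho', hx', h4⟩).2 ((hiff 4 o'').1 ⟨ho'', hx'', hc ▸ h4⟩).2
      exact fin g hg h1 h2'
    · have e1 := Cfsg.Agent.Lib.Helper27.octad_eq_of_inter_card ho ho' h8
      have e2 := Cfsg.Agent.Lib.Helper27.octad_eq_of_inter_card ho ho'' (hc ▸ h8)
      exact ⟨1, Cfsg.M24.one_mem, rfl, one_smul _ _, by rw [one_smul, e1, e2]⟩

end Cfsg.Agent.S1608
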