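import Cfsg.Statements.S1610
import Cfsg.Agent.Lib.Helper27.Hexa

set_option autoImplicit false
open Cfsg

namespace Cfsg.Agent.S1610

/-- The hexacode has 64 words, minimum weight 4, and weight distribution 0^1 4^45 6^18. -/
theorem result (F : Type*) [Field F] [Fintype F] [DecidableEq F] (hF : Fintype.card F = 4) (ω : F) (hω : ω ^ 2 + ω + 1 = 0) : Nat.card ↥(Cfsg.hexacode F ω) = 64 ∧ (∀ x ∈ Cfsg.hexacode F ω, x ≠ 0 → (Finset.univ.filter fun i => x i ≠ 0).card = 4 ∨ (Finset.univ.filter fun i => x i ≠ 0).card = 6) ∧ {x : Fin 6 → F | x ∈ Cfsg.hexacode F ω ∧ (Finset.univ.filter fun i => x i ≠ 0).card = 4}.ncard = 45 ∧ {x : Fin 6 → F | x ∈ Cfsg.hexacode F ω ∧ (Finset.univ.filter fun i => x i ≠ 0).card = 6}.ncard = 18 := by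
  open Cfsg.Agent.Lib.Helper27 in
  have hcount : ∀ n : ℕ, {x : Fin 6 → F | x ∈ Cfsg.hexacode F ω ∧ (Finset.univ.filter fun i => x i ≠ 0).card = n}.ncard
      = (Finset.univ.filter fun y : Fin 6 → H4 =>
          isHex y ∧ (Finset.univ.filter fun i => y i ≠ 0).card = n).card := by
    intro n
    rw [← Set.ncard_image_of_injective _ (wordEquiv hF ω hω).injective, ← Set.ncard_coe_finset]
    congr 1
    ext y
    simp only [Set.mem_image, Set.mem_ofPred_eq, Finset.coe_filter, Finset.mem_univ, true_and]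
    constructor
    · rintro ⟨x, ⟨h1, h2⟩, rfl⟩
      exact ⟨(mem_hexacode_iff' hF ω hω x).1 h1, by rw [weight_wordEquiv]; exact h2⟩
    · rintro ⟨h1, h2⟩
      refine ⟨(wordEquiv hF ω hω).symm y, ⟨?_, ?_⟩, Equiv.apply_symm_apply _ _⟩
      · rw [mem_hexacode_iff' hF ω hω, Equiv.apply_symm_apply]; exact h1
      · rw [← weight_wordEquiv hF ω hω, Equiv.apply_symm_apply]; exact h2
  refine ⟨?_, ?_, ?_, ?_⟩
  · rw [← Cfsg.Agent.Lib.Helper27.card_isHex, ← Nat.card_eq_fintype_card]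
    exact Nat.card_congr ((Cfsg.Agent.Lib.Helper27.wordEquiv hF ω hω).subtypeEquiv
      (fun x => Cfsg.Agent.Lib.Helper27.mem_hexacode_iff' hF ω hω x))
  · intro x hx hx0
    rw [← Cfsg.Agent.Lib.Helper27.weight_wordEquiv hF ω hω]
    apply Cfsg.Agent.Lib.Helper27.weight_isHex _
      ((Cfsg.Agent.Lib.Helper27.mem_hexacode_iff' hF ω hω x).1 hx)
    intro h0
    apply hx0
    apply (Cfsg.Agent.Lib.Helper27.wordEquiv hF ω hω).injective
    rw [h0]
    funext i
    rw [Cfsg.Agent.Lib.Helper27.wordEquiv_apply]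
    simp
  · rw [hcount 4]; exact Cfsg.Agent.Lib.Helper27.count_isHex_four
  · rw [hcount 6]; exact Cfsg.Agent.Lib.Helper27.count_isHex_six

end Cfsg.Agent.S1610
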