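import Cfsg.Statements.S1620
import Cfsg.Agent.Lib.Helper56.J2.Main

set_option autoImplicit false
open Quaternion
open Cfsg

namespace Cfsg.Agent.S1620

/-- The Hall–Janko group is simple and non-abelian. -/
theorem result : IsSimpleGroup Cfsg.Spor.J2 ∧ ∃ a b : Cfsg.Spor.J2, a * b ≠ b * a := by
  have hs := Cfsg.Agent.Lib.Helper56.J2.simple_G1
  refine ⟨Cfsg.Agent.Lib.Helper56.J2.J2_equiv.isSimpleGroup, ?_⟩
  by_contra hcon
  push Not at hcon
  apply Cfsg.Agent.Lib.Helper56.J2.not_comm_G1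
  intro a b
  have := hcon (Cfsg.Agent.Lib.Helper56.J2.J2_equiv.symm a) (Cfsg.Agent.Lib.Helper56.J2.J2_equiv.symm b)
  rw [← map_mul, ← map_mul] at this
  exact Cfsg.Agent.Lib.Helper56.J2.J2_equiv.symm.injective this

end Cfsg.Agent.S1620
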