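import Cfsg.Statements.S1622
import Cfsg.Agent.Lib.Helper56.J2.Main

set_option autoImplicit false
open Quaternion
open Cfsg

namespace Cfsg.Agent.S1622

/-- The reflection group is transitive on its 315 reflections by conjugation. -/
theorem result (f f' : Equiv.Perm ↥Cfsg.Spor.icoLeech) (hf : Cfsg.Spor.IsIcoReflection f) (hf' : Cfsg.Spor.IsIcoReflection f') : ∃ g ∈ Cfsg.Spor.twoJ2, g * f * g⁻¹ = f' := by
  obtain ⟨i, hi, rfl⟩ := Cfsg.Agent.Lib.Helper56.J2.refl_eq_rho hf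
  obtain ⟨j, hj, rfl⟩ := Cfsg.Agent.Lib.Helper56.J2.refl_eq_rho hf'
  obtain ⟨g, hg, eg⟩ := Cfsg.Agent.Lib.Helper56.J2.rho_conj0 i hi
  obtain ⟨k, hk, ek⟩ := Cfsg.Agent.Lib.Helper56.J2.rho_conj0 j hj
  refine ⟨k * g⁻¹, mul_mem hk (inv_mem hg), ?_⟩
  rw [← eg, ← ek]
  group

end Cfsg.Agent.S1622
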