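import Cfsg.Statements.S1629
import Cfsg.Agent.Lib.Helper57.OrthTransp

set_option autoImplicit false
open scoped MatrixGroups
open Cfsg

namespace Cfsg.Agent.S1629

/-- The orthogonal transvections of the plus-type orthogonal group in dimension 2m ≥ 6 over the field with two elements form a generating conjugacy class of 3-transpositions. -/
theorem result (m : ℕ) (hm : 3 ≤ m) : Cfsg.IsThreeTranspositionClass {g : ↥(Cfsg.isometryGroup (ZMod 2) (Cfsg.quadFormPlus m (ZMod 2))) | (((g : GL (Fin m ⊕ Fin m) (ZMod 2)) : Matrix (Fin m ⊕ Fin m) (Fin m ⊕ Fin m) (ZMod 2)) - 1).rank = 1} := by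
  have h := Cfsg.Agent.Lib.Helper57.isThreeTranspositionClass_orth
    (Cfsg.Agent.Lib.Helper44.plusQF m (ZMod 2)) (Cfsg.Agent.Lib.Helper44.plusQF_nondeg m (ZMod 2))
    (by simp; omega)
    ⟨Pi.single (Sum.inl ⟨0, by omega⟩) 1 + Pi.single (Sum.inr ⟨0, by omega⟩) 1, by
      rw [Cfsg.Agent.Lib.Helper44.plusQF_apply]
      rw [Finset.sum_eq_single (⟨0, by omega⟩ : Fin m)]
      · simp
      · intro b _ hb
        simp [Pi.single_apply, hb]
      · simp⟩
  rw [Cfsg.Agent.Lib.Helper44.plusQF_coe] at h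
  exact h

end Cfsg.Agent.S1629
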