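import Cfsg.Statements.S1631
import Cfsg.Agent.Lib.Helper5.SUTorus
import Cfsg.Agent.S0780

set_option autoImplicit false
open scoped MatrixGroups
open Cfsg

namespace Cfsg.Agent.S1631

open Matrix Module Cfsg.Agent.Lib.Helper5 Cfsg.Agent.Lib.Helper13 Cfsg.Agent.Lib.Helper94 Cfsg.Agent.Lib.Helper94.U
  Cfsg.Agent.Lib.Helper45.SUGen

lemma isTransvection_of_rank_one {n : ℕ} {F : Type*} [Field F] (S : Matrix (Fin n) (Fin n) F)
    (hdet : S.det = 1) (h : (S - 1).rank = 1) : Cfsg.IsTransvection S := by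
  refine ⟨h, ?_⟩
  obtain ⟨φ, a, ha, hφ, hu⟩ := Cfsg.Agent.Lib.Helper43.rank_one_decomp_matrix (S - 1) h
  set r : Fin n → F := fun j => φ (Pi.single j 1) with hr
  have hφr : ∀ x, φ x = r ⬝ᵥ x := by
    intro x
    rw [LinearMap.pi_apply_eq_sum_univ φ x]
    simp only [dotProduct, hr, smul_eq_mul]
    refine Finset.sum_congr rfl (fun i _ => ?_)
    rw [mul_comm]
    congr 2
    ext j
    simp [Pi.single_apply, eq_comm]
  have hS : S = 1 + vecMulVec a r := by
    apply mat_ext_mulVec
    intro x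
    have := hu x
    rw [Matrix.sub_mulVec, Matrix.one_mulVec] at this
    rw [Matrix.add_mulVec, Matrix.one_mulVec, Matrix.vecMulVec_mulVec, ← hφr]
    have e : MulOpposite.op (φ x) • a = φ x • a := by
      ext i; simp [mul_comm]
    rw [e, ← this]; abel
  have hφa : φ a = 0 := by
    rw [hS, Matrix.vecMulVec_eq Unit, Matrix.det_one_add_replicateCol_mul_replicateRow, ← hφr] at hdet
    simpa using hdet
  apply mat_ext_mulVec
  intro x
  rw [← Matrix.mulVec_mulVec, hu, hu, map_smul, hφa]
  simp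

section
variable {F : Type} [Field F] [Fintype F] {n : ℕ}

local notation "H" => Cfsg.hermForm n F 2
local notation "V" => (Fin n → F)
local notation "G" => Cfsg.SU n F 2

lemma hF' (hF : Fintype.card F = 4) : Fintype.card F = 2 ^ 2 := by rw [hF]; norm_num

lemma two_eq_zero (hF : Fintype.card F = 4) : (2 : F) = 0 := by
  haveI : CharP F 2 := by
    obtain ⟨p, hp⟩ := CharP.exists F
    haveI := hp
    obtain ⟨k, hpp, hk⟩ := FiniteField.card F p
    rw [hF] at hk
    have h2 : p ∣ 4 := by rw [hk]; exact dvd_pow_self _ k.ne_zero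
    have : p ∣ 2 := by
      have : p ∣ 2 * 2 := by simpa using h2
      rcases (Nat.Prime.dvd_mul hpp).1 this with h | h <;> exact h
    have : p = 2 := (Nat.prime_dvd_prime_iff_eq hpp Nat.prime_two).1 this
    subst this
    exact hp
  exact_mod_cast CharP.cast_eq_zero F 2

lemma cube_eq_one (hF : Fintype.card F = 4) {a : F} (ha : a ≠ 0) : a ^ 3 = 1 := by
  have := FiniteField.pow_card_sub_one_eq_one a ha
  rwa [hF] at this

lemma one_skew (hF : Fintype.card F = 4) : (1 : F) + 1 ^ 2 = 0 := by
  have := two_eq_zero hF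
  linear_combination this

/-- the transvection with centre `v`. -/
noncomputable def T (hF : Fintype.card F = 4) (v : V) (hv : H v v = 0) : G :=
  tSU (hF' hF) v 1 hv (one_skew hF)

lemma T_mulVec (hF : Fintype.card F = 4) (v : V) (hv : H v v = 0) (x : V) :
    (T hF v hv).1.1 *ᵥ x = x + H x v • v := by
  rw [T, tSU_mulVec, one_mul]

lemma T_sq (hF : Fintype.card F = 4) (v : V) (hv : H v v = 0) : T hF v hv * T hF v hv = 1 := by
  apply SU_ext_mulVec
  intro x
  rw [SU_mul_mulVec, T_mulVec, T_mulVec, SU_one_mulVec, hermForm_add_left, hermForm_smul_left, hv]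
  have := two_eq_zero hF
  rw [mul_zero, add_zero, add_assoc, ← add_smul]
  have e : H x v + H x v = 0 := by linear_combination (H x v) * this
  rw [e, zero_smul, add_zero]

lemma T_inv (hF : Fintype.card F = 4) (v : V) (hv : H v v = 0) : (T hF v hv)⁻¹ = T hF v hv :=
  inv_eq_of_mul_eq_one_left (T_sq hF v hv)

lemma exists_T (hF : Fintype.card F = 4) (g : G) (hg : (g.1.1 - 1).rank = 1) :
    ∃ (v : V) (hv : H v v = 0), v ≠ 0 ∧ g = T hF v hv := by
  obtain ⟨v, c, hv0, hv, hc, hc0, rfl⟩ := exists_tSU_of_isTransvection (hF' hF) g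
    (isTransvection_of_rank_one _ g.1.2 hg)
  refine ⟨v, hv, hv0, ?_⟩
  apply tSU_congr (hF' hF) rfl
  have h2 := two_eq_zero hF
  have : c * (1 + c) = 0 := by linear_combination hc
  have := (mul_eq_zero.1 this).resolve_left hc0
  linear_combination this - h2

lemma T_rank (hF : Fintype.card F = 4) (v : V) (hv : H v v = 0) (hv0 : v ≠ 0) :
    ((T hF v hv).1.1 - 1).rank = 1 := by
  have e : (T hF v hv).1.1 - 1 = vecMulVec v (fun j => v j ^ 2) := by
    apply mat_ext_mulVec
    intro x
    rw [Matrix.sub_mulVec, T_mulVec, Matrix.one_mulVec, vecMulVec_pow_mulVec]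
    abel
  rw [e]
  apply le_antisymm (Matrix.rank_vecMulVec_le _ _)
  rw [Nat.one_le_iff_ne_zero]
  intro h0
  have h1 : LinearMap.range (vecMulVec v (fun j => v j ^ 2)).mulVecLin = ⊥ :=
    Submodule.finrank_eq_zero.1 h0
  obtain ⟨x, hx⟩ := exists_hermForm_ne_zero (hF' hF) hv0
  have h2 : (vecMulVec v (fun j => v j ^ 2)) *ᵥ x ∈
      LinearMap.range (vecMulVec v (fun j => v j ^ 2)).mulVecLin := ⟨x, rfl⟩
  rw [h1, Submodule.mem_bot, vecMulVec_pow_mulVec] at h2
  exact (smul_ne_zero hx hv0) h2

lemma T_congr (hF : Fintype.card F = 4) {v v' : V} (h : v = v') (hv : H v v = 0) :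
    T hF v hv = T hF v' (h ▸ hv) := by
  subst h; rfl

lemma T_conj (hF : Fintype.card F = 4) (g : G) (v : V) (hv : H v v = 0) :
    g * T hF v hv * g⁻¹ = T hF (g.1.1 *ᵥ v) (by rw [SU_preserves, hv]) :=
  tSU_conj (hF' hF) g v 1 hv (one_skew hF)

lemma T_smul (hF : Fintype.card F = 4) (v : V) (hv : H v v = 0) {a : F} (ha : a ≠ 0) :
    T hF (a • v) (by rw [hermForm_smul_left, hermForm_smul_right, hv]; simp) = T hF v hv := by
  apply SU_ext_mulVec
  intro x
  rw [T_mulVec, T_mulVec, hermForm_smul_right, smul_smul]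
  have := cube_eq_one hF ha
  congr 2
  linear_combination (H x v) * this

lemma grp_aux {G₀ : Type*} [Group G₀] {d e : G₀} (hd : d * d = 1) (he : e * e = 1)
    (h : d * e * d = e * d * e) : (d * e) ^ 3 = 1 := by
  have : (d * e) ^ 3 = (d * e * d) * (e * d * e) := by
    simp only [pow_succ, pow_zero, one_mul, mul_assoc]
  rw [this, ← h]
  calc d * e * d * (d * e * d) = d * e * (d * d) * e * d := by simp only [mul_assoc]
    _ = d * (e * e) * d := by rw [hd]; simp only [mul_assoc, mul_one]
    _ = 1 := by rw [he, mul_one, hd]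

lemma T_prod (hF : Fintype.card F = 4) (v w : V) (hv : H v v = 0) (hw : H w w = 0) :
    (T hF v hv * T hF w hw) ^ 2 = 1 ∨ (T hF v hv * T hF w hw) ^ 3 = 1 := by
  by_cases h : H v w = 0
  · left
    have h' : H w v = 0 := hermForm_eq_zero_comm (hF' hF) h
    have hc : T hF v hv * T hF w hw * (T hF v hv)⁻¹ = T hF w hw := by
      rw [T_conj]
      apply T_congr
      rw [T_mulVec, h', zero_smul, add_zero]
    rw [T_inv] at hc
    rw [pow_two, ← mul_assoc, hc, T_sq]
  · right
    apply grp_aux (T_sq hF v hv) (T_sq hF w hw)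
    have h1 := T_conj hF (T hF v hv) w hw
    have h2 := T_conj hF (T hF w hw) v hv
    rw [T_inv] at h1 h2
    rw [h1, h2]
    have h3 := cube_eq_one hF h
    have e : (T hF v hv).1.1 *ᵥ w = (H v w ^ 2) • ((T hF w hw).1.1 *ᵥ v) := by
      rw [T_mulVec, T_mulVec, ← hermForm_swap (hF' hF) v w, smul_add, smul_smul,
        ← pow_succ, h3, one_smul, add_comm]
    rw [T_congr hF e]
    exact T_smul hF _ _ (pow_ne_zero 2 h)

end

/-- The unitary transvections of SU(n, 2), n ≥ 4, form a generating conjugacy class of 3-transpositions. -/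
theorem result (F : Type) [Field F] [Fintype F] [DecidableEq F] (hF : Fintype.card F = 4) (n : ℕ) (hn : 4 ≤ n) : Cfsg.IsThreeTranspositionClass {g : ↥(Cfsg.SU n F 2) | (((g : Matrix.SpecialLinearGroup (Fin n) F) : Matrix (Fin n) (Fin n) F) - 1).rank = 1} := by
  refine ⟨⟨?_, ?_⟩, ?_, ?_⟩
  · intro d hd
    obtain ⟨v, hv, hv0, rfl⟩ := exists_T hF d hd
    apply orderOf_eq_prime
    · rw [pow_two, T_sq]
    · intro h1
      rw [Set.mem_setOf_eq, h1] at hd
      simp at hd
  · intro d hd e he
    obtain ⟨v, hv, hv0, rfl⟩ := exists_T hF d hd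
    obtain ⟨w, hw, hw0, rfl⟩ := exists_T hF e he
    exact T_prod hF v w hv hw
  · obtain ⟨v, hv0, hv⟩ := exists_isotropic_ne_zero (n := n) (hF' hF) (by omega)
    refine ⟨T hF v hv, T_rank hF v hv hv0, ?_⟩
    ext g
    change _ ↔ IsConj _ _
    rw [Set.mem_setOf_eq]
    constructor
    · intro hg
      exact su_transvections_conj (hF' hF) (by omega) _ _
        (isTransvection_of_rank_one _ (T hF v hv).1.2 (T_rank hF v hv hv0))
        (isTransvection_of_rank_one _ g.1.2 hg)
    · intro hg
      rw [isConj_iff] at hg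
      obtain ⟨c, rfl⟩ := hg
      rw [T_conj]
      apply T_rank
      exact su_mulVec_ne_zero c hv0
  · rw [eq_top_iff, ← Cfsg.Agent.S0780.result (hF' hF) n (by omega) (by omega), Subgroup.closure_le]
    rintro A ⟨v, c, hv, hA⟩
    by_cases hv0 : v = 0
    · have : A = 1 := by
        apply SU_ext_mulVec
        intro x
        rw [hA, unitaryTransvection_mulVec, hv0, SU_one_mulVec]; simp
      rw [this]
      exact one_mem _
    have hc := skew_of_ut_mem (hF' hF) A hv0 hv hA
    by_cases hc0 : c = 0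
    · have : A = 1 := by
        apply SU_ext_mulVec
        intro x
        rw [hA, unitaryTransvection_mulVec, hc0, SU_one_mulVec]; simp
      rw [this]
      exact one_mem _
    apply Subgroup.subset_closure
    have h2 := two_eq_zero hF
    have h3 : c * (1 + c) = 0 := by linear_combination hc
    have h4 := (mul_eq_zero.1 h3).resolve_left hc0
    have h5 : c = 1 := by linear_combination h4 - h2
    have : A = T hF v hv := by
      apply SU_ext_mulVec
      intro x
      rw [hA, unitaryTransvection_mulVec, T_mulVec, h5, one_mul]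
    rw [this]
    exact T_rank hF v hv hv0

end Cfsg.Agent.S1631
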