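import Cfsg.Statements.S1634
import Cfsg.Agent.Lib.Helper54.McLMain2

set_option autoImplicit false
open Cfsg

namespace Cfsg.Agent.S1634

/-- The McLaughlin group acts on 2025 points (minimal vectors orthogonal to v with customary inner product 2 with w) transitively with rank 4 and subdegrees 1, 330, 462, 1232. -/
theorem result (v w : ↥Cfsg.leechLattice) (hv : Cfsg.sqNorm (v : Cfsg.GolayPt → ℤ) = 32) (hw : Cfsg.sqNorm (w : Cfsg.GolayPt → ℤ) = 32) (hvw : Cfsg.dotInt (v : Cfsg.GolayPt → ℤ) (w : Cfsg.GolayPt → ℤ) = -8) : {x : ↥Cfsg.leechLattice | Cfsg.sqNorm (x : Cfsg.GolayPt → ℤ) = 32 ∧ Cfsg.dotInt (v : Cfsg.GolayPt → ℤ) (x : Cfsg.GolayPt → ℤ) = 0 ∧ Cfsg.dotInt (w : Cfsg.GolayPt → ℤ) (x : Cfsg.GolayPt → ℤ) = 16}.ncard = 2025 ∧ (∀ x ∈ {x : ↥Cfsg.leechLattice | Cfsg.sqNorm (x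 : Cfsg.GolayPt → ℤ) = 32 ∧ Cfsg.dotInt (v : Cfsg.GolayPt → ℤ) (x : Cfsg.GolayPt → ℤ) = 0 ∧ Cfsg.dotInt (w : Cfsg.GolayPt → ℤ) (x : Cfsg.GolayPt → ℤ) = 16}, ∀ x' ∈ {x : ↥Cfsg.leechLattice | Cfsg.sqNorm (x : Cfsg.GolayPt → ℤ) = 32 ∧ Cfsg.dotInt (v : Cfsg.GolayPt → ℤ) (x : Cfsg.GolayPt → ℤ) = 0 ∧ Cfsg.dotInt (w : Cfsg.GolayPt → ℤ) (x : Cfsg.GolayPt → ℤ) = 16}, ∃ g : ↥Cfsg.Co0, g • v = v ∧ g • w = w ∧ g • x = x') ∧ ∀ x ∈ {x : ↥Cfsg.leechLattice | Cfsg.sqNorm (x : Cfsg.GolayPt → ℤ) = 32 ∧ Cfsg.dotInt (v : Cfsg.GolayPt → ℤ) (x : Cfsg.GolayPt → ℤ) = 0 ∧ Cfsg.dotInt (w : Cfsg.GolayPt → ℤ) (x : Cfsg.GolayPt → ℤ) = 16}, ∃ y₁ ∈ {x : ↥Cfsg.leechLattice | Cfsg.sqNorm (x : Cfsg.GolayPt → ℤ) = 32 ∧ Cfsg.dotInt (v : Cfsg.GolayPt → ℤ) (x : Cfsg.GolayPt → ℤ) = 0 ∧ Cfsg.dotInt (w : Cfsg.GolayPt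 → ℤ) (x : Cfsg.GolayPt → ℤ) = 16}, ∃ y₂ ∈ {x : ↥Cfsg.leechLattice | Cfsg.sqNorm (x : Cfsg.GolayPt → ℤ) = 32 ∧ Cfsg.dotInt (v : Cfsg.GolayPt → ℤ) (x : Cfsg.GolayPt → ℤ) = 0 ∧ Cfsg.dotInt (w : Cfsg.GolayPt → ℤ) (x : Cfsg.GolayPt → ℤ) = 16}, ∃ y₃ ∈ {x : ↥Cfsg.leechLattice | Cfsg.sqNorm (x : Cfsg.GolayPt → ℤ) = 32 ∧ Cfsg.dotInt (v : Cfsg.GolayPt → ℤ) (x : Cfsg.GolayPt → ℤ) = 0 ∧ Cfsg.dotInt (w : Cfsg.GolayPt → ℤ) (x : Cfsg.GolayPt → ℤ) = 16}, (MulAction.orbit ↥(MulAction.stabilizer ↥Cfsg.Co0 v ⊓ MulAction.stabilizer ↥Cfsg.Co0 w ⊓ MulAction.stabilizer ↥Cfsg.Co0 x) y₁).ncard = 330 ∧ (MulAction.orbit ↥(MulAction.stabilizer ↥Cfsg.Co0 v ⊓ MulAction.stabilizer ↥Cfsg.Co0 w ⊓ MulAction.stabilizer ↥Cfsg.Co0 x) y₂).ncard = 462 ∧ (MulAction.orbit ↥(MulAction.stabilizer ↥Cfsg.Co0 v ⊓ MulAction.stabilizer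 ↥Cfsg.Co0 w ⊓ MulAction.stabilizer ↥Cfsg.Co0 x) y₃).ncard = 1232 := by
  have hwv : Cfsg.dotInt (w : Cfsg.GolayPt → ℤ) (v : Cfsg.GolayPt → ℤ) = -8 := by
    rw [Cfsg.Agent.Lib.Helper54.dotInt_comm']; exact hvw
  have hc : Cfsg.Agent.Lib.Helper54.ConjL [Cfsg.Agent.Lib.Helper54.wB, Cfsg.Agent.Lib.Helper54.v0] [v, w] := Cfsg.Agent.Lib.Helper54.conj_pair8 w v hw hv hwv
  have hmem : ∀ y : ↥Cfsg.leechLattice, y ∈ {x : ↥Cfsg.leechLattice | Cfsg.sqNorm (x : Cfsg.GolayPt → ℤ) = 32 ∧ Cfsg.dotInt (v : Cfsg.GolayPt → ℤ) (x : Cfsg.GolayPt → ℤ) = 0 ∧ Cfsg.dotInt (w : Cfsg.GolayPt → ℤ) (x : Cfsg.GolayPt → ℤ) = 16}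
      ↔ Cfsg.Agent.Lib.Helper54.ClsL [v, w] 32 [0, 16] y := by
    intro y
    show _ ↔ Cfsg.Agent.Lib.Helper54.ClsL [v, w] 32 [0, 16] y
    rw [Cfsg.Agent.Lib.Helper54.clsL_cons, Cfsg.Agent.Lib.Helper54.clsL_cons, Cfsg.Agent.Lib.Helper54.clsL_nil]
    constructor
    · rintro ⟨h1, h2, h3⟩
      exact ⟨h2, h3, h1⟩
    · rintro ⟨h2, h3, h1⟩
      exact ⟨h1, h2, h3⟩
  have hset : {x : ↥Cfsg.leechLattice | Cfsg.sqNorm (x : Cfsg.GolayPt → ℤ) = 32 ∧ Cfsg.dotInt (v : Cfsg.GolayPt → ℤ) (x : Cfsg.GolayPt → ℤ) = 0 ∧ Cfsg.dotInt (w : Cfsg.GolayPt → ℤ) (x : Cfsg.GolayPt → ℤ) = 16} = {x | Cfsg.Agent.Lib.Helper54.ClsL [v, w] 32 [0, 16] x} := by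
    ext y
    exact hmem y
  rw [hset]
  refine ⟨Cfsg.Agent.Lib.Helper54.count2025.conj hc, fun x hx x' hx' => ?_, fun x hx => ?_⟩
  · obtain ⟨g, hg, hgx⟩ := Cfsg.Agent.Lib.Helper54.trans2025.conj hc x x' hx hx'
    exact ⟨g, hg v (by simp), hg w (by simp), hgx⟩
  · have hc3 : Cfsg.Agent.Lib.Helper54.ConjL [Cfsg.Agent.Lib.Helper54.xx1, Cfsg.Agent.Lib.Helper54.wB, Cfsg.Agent.Lib.Helper54.v0] [x, v, w] :=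
      hc.cons Cfsg.Agent.Lib.Helper54.trans2025 Cfsg.Agent.Lib.Helper54.xx1_cls hx
    obtain ⟨y₁, hy₁⟩ := Cfsg.Agent.Lib.Helper54.exists_of_countL' (Cfsg.Agent.Lib.Helper54.count330.conj hc3) (by norm_num)
    obtain ⟨y₂, hy₂⟩ := Cfsg.Agent.Lib.Helper54.exists_of_countL' (Cfsg.Agent.Lib.Helper54.count462.conj hc3) (by norm_num)
    obtain ⟨y₃, hy₃⟩ := Cfsg.Agent.Lib.Helper54.exists_of_countL' (Cfsg.Agent.Lib.Helper54.count1232.conj hc3) (by norm_num)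
    refine ⟨y₁, (Cfsg.Agent.Lib.Helper54.clsL_cons.1 hy₁).2, y₂, (Cfsg.Agent.Lib.Helper54.clsL_cons.1 hy₂).2, y₃, (Cfsg.Agent.Lib.Helper54.clsL_cons.1 hy₃).2, ?_, ?_, ?_⟩
    · rw [Cfsg.Agent.Lib.Helper54.orbit_eq_cls3 (Cfsg.Agent.Lib.Helper54.trans330.conj hc3) hy₁]; exact Cfsg.Agent.Lib.Helper54.count330.conj hc3
    · rw [Cfsg.Agent.Lib.Helper54.orbit_eq_cls3 (Cfsg.Agent.Lib.Helper54.trans462.conj hc3) hy₂]; exact Cfsg.Agent.Lib.Helper54.count462.conj hc3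
    · rw [Cfsg.Agent.Lib.Helper54.orbit_eq_cls3 (Cfsg.Agent.Lib.Helper54.trans1232.conj hc3) hy₃]; exact Cfsg.Agent.Lib.Helper54.count1232.conj hc3

end Cfsg.Agent.S1634
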