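import Cfsg.Statements.S1635
import Cfsg.Agent.Lib.Helper57.Golay23

set_option autoImplicit false
open Cfsg

namespace Cfsg.Agent.S1635

/-- Coset leaders of the length-24 code: a coset contains a unique word of weight ≤ 3, or else exactly six words of weight 4 and none lighter. -/
theorem result (w : Cfsg.GolayPt → ZMod 2) : ({v : Cfsg.GolayPt → ZMod 2 | hammingNorm v ≤ 4 ∧ w - v ∈ Cfsg.golayCode}.ncard = 1 ∧ ∃ v : Cfsg.GolayPt → ZMod 2, hammingNorm v ≤ 3 ∧ w - v ∈ Cfsg.golayCode) ∨ ({v : Cfsg.GolayPt → ZMod 2 | hammingNorm v ≤ 4 ∧ w - v ∈ Cfsg.golayCode}.ncard = 6 ∧ ∀ v : Cfsg.GolayPt → ZMod 2, w - v ∈ Cfsg.golayCode → hammingNorm v ≤ 4 → hammingNorm v = 4) := by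
  rcases Cfsg.Agent.Lib.Helper57.golay_leaders w with ⟨u, hu, hu3⟩ | ⟨h6, h4, _⟩
  · left
    refine ⟨by rw [hu, Set.ncard_singleton], u, hu3, ?_⟩
    have : u ∈ {v : Cfsg.GolayPt → ZMod 2 | hammingNorm v ≤ 4 ∧ w - v ∈ Cfsg.golayCode} := by
      rw [hu]; rfl
    exact this.2
  · right
    exact ⟨h6, fun v hv hv4 => h4 v hv4 hv⟩

end Cfsg.Agent.S1635
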