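import Cfsg.Statements.S1636
import Cfsg.Agent.Lib.Helper57.Golay23

set_option autoImplicit false
open Cfsg Cfsg.Agent.Lib.Helper57

namespace Cfsg.Agent.S1636

/-- The punctured length-23 code has weight distribution 0^1 7^253 8^506 11^1288 12^1288 15^506 16^253 23^1. -/
theorem result : {u : ZMod 23 → ZMod 2 | ∃ w ∈ Cfsg.golayCode, ∀ x : ZMod 23, u x = w (some x)}.ncard = 4096 ∧ {u : ZMod 23 → ZMod 2 | u ∈ {u : ZMod 23 → ZMod 2 | ∃ w ∈ Cfsg.golayCode, ∀ x : ZMod 23, u x = w (some x)} ∧ hammingNorm u = 7}.ncard = 253 ∧ {u : ZMod 23 → ZMod 2 | u ∈ {u : ZMod 23 → ZMod 2 | ∃ w ∈ Cfsg.golayCode, ∀ x : ZMod 23, u x = w (some x)} ∧ hammingNorm u = 8}.ncard = 506 ∧ {u : ZMod 23 → ZMod 2 | u ∈ {u : ZMod 23 → ZMod 2 | ∃ w ∈ Cfsg.golayCode, ∀ x : ZMod 23, u x = w (some x)} ∧ hammingNorm u = 11}.ncard = 1288 ∧ {u : ZMod 23 → ZMod 2 | u ∈ {u : ZMod 23 → ZMod 2 | ∃ w ∈ Cfsg.golayCode,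 ∀ x : ZMod 23, u x = w (some x)} ∧ hammingNorm u = 12}.ncard = 1288 ∧ {u : ZMod 23 → ZMod 2 | u ∈ {u : ZMod 23 → ZMod 2 | ∃ w ∈ Cfsg.golayCode, ∀ x : ZMod 23, u x = w (some x)} ∧ hammingNorm u = 15}.ncard = 506 ∧ {u : ZMod 23 → ZMod 2 | u ∈ {u : ZMod 23 → ZMod 2 | ∃ w ∈ Cfsg.golayCode, ∀ x : ZMod 23, u x = w (some x)} ∧ hammingNorm u = 16}.ncard = 253 ∧ ∀ u ∈ {u : ZMod 23 → ZMod 2 | ∃ w ∈ Cfsg.golayCode, ∀ x : ZMod 23, u x = w (some x)}, u ≠ 0 → 7 ≤ hammingNorm u := by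
  refine ⟨ncard_punct_all, ?_, ?_, ?_, ?_, ?_, ?_, ?_⟩
  · rw [ncard_punct]; decide +kernel
  · rw [ncard_punct]; decide +kernel
  · rw [ncard_punct]; decide +kernel
  · rw [ncard_punct]; decide +kernel
  · rw [ncard_punct]; decide +kernel
  · rw [ncard_punct]; decide +kernel
  · rintro u ⟨w, hw, hu⟩ h0
    have hw0 : w ≠ 0 := by
      rintro rfl
      apply h0
      funext x
      rw [hu x]; rfl
    have h1 := golay_min_weight hw hw0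
    have h2 := hammingNorm_le_punct w
    have h3 : u = fun x : ZMod 23 => w (some x) := by funext x; exact hu x
    rw [h3]
    omega

end Cfsg.Agent.S1636
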