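import Cfsg.Statements.S1637
import Cfsg.Agent.Lib.Helper57.Golay23

set_option autoImplicit false
open Cfsg Cfsg.Agent.Lib.Helper57

namespace Cfsg.Agent.S1637

/-- The punctured length-23 code is a perfect 3-error-correcting code: each word of length 23 is within distance 3 of exactly one codeword. -/
theorem result (u : ZMod 23 → ZMod 2) : ∃! c : ZMod 23 → ZMod 2, c ∈ {u : ZMod 23 → ZMod 2 | ∃ w ∈ Cfsg.golayCode, ∀ x : ZMod 23, u x = w (some x)} ∧ hammingDist u c ≤ 3 := by
  set w0 : Cfsg.GolayPt → ZMod 2 := fun p => match p with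
    | none => 0
    | some x => u x with hw0
  have key : ∃ v : Cfsg.GolayPt → ZMod 2, w0 - v ∈ Cfsg.golayCode ∧
      hammingNorm (fun x : ZMod 23 => v (some x)) ≤ 3 := by
    rcases golay_leaders w0 with ⟨v, hv, hv3⟩ | ⟨_, _, hcov⟩
    · have : v ∈ {v : Cfsg.GolayPt → ZMod 2 | hammingNorm v ≤ 4 ∧ w0 - v ∈ Cfsg.golayCode} := by
        rw [hv]; rfl
      exact ⟨v, this.2, le_trans (hammingNorm_punct_le v) hv3⟩
    · obtain ⟨v, hv4, hvw, hvn⟩ := hcov none
      refine ⟨v, hvw, ?_⟩
      have := hammingNorm_punct v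
      rw [if_pos hvn] at this
      omega
  obtain ⟨v, hvw, hv3⟩ := key
  refine ⟨fun x => (w0 - v) (some x), ⟨⟨w0 - v, hvw, fun x => rfl⟩, ?_⟩, ?_⟩
  · rw [hammingDist_eq_norm_sub]
    have : u - (fun x => (w0 - v) (some x)) = fun x : ZMod 23 => v (some x) := by
      funext x
      simp [hw0]
    rw [this]; exact hv3
  · rintro c ⟨⟨a, ha, hac⟩, hc3⟩
    have hab : a = w0 - v := by
      apply punct_injOn ha hvw
      have h1 : (fun x : ZMod 23 => (a - (w0 - v)) (some x)) = c - (fun x => (w0 - v) (some x)) := by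
        funext x
        simp [hac x]
      rw [h1, ← hammingDist_eq_norm_sub]
      have h2 : hammingDist u (fun x => (w0 - v) (some x)) ≤ 3 := by
        rw [hammingDist_eq_norm_sub]
        have : u - (fun x => (w0 - v) (some x)) = fun x : ZMod 23 => v (some x) := by
          funext x
          simp [hw0]
        rw [this]; exact hv3
      have h3 := hammingDist_triangle c u (fun x => (w0 - v) (some x))
      rw [hammingDist_comm c u] at h3
      omega
    funext x
    rw [hac x, hab]

end Cfsg.Agent.S1637
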