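import Cfsg.Statements.S1638
import Cfsg.Agent.Lib.Helper26.M24Sets
import Cfsg.Agent.S1562

set_option autoImplicit false
open Cfsg

namespace Cfsg.Agent.S1638

open Cfsg.Agent.Lib.Helper27 Cfsg.Agent.Lib.Helper26 Cfsg.Agent.Lib.Helper30
open Cfsg.Agent.Lib.Helper93.St
open scoped Pointwise

/-- the `j`-sets disjoint from `F` lying with `F` in a common octad, as a finset. -/
noncomputable def special (F : Finset GolayPt) (j : ℕ) : Finset (Finset GolayPt) :=
  ((blocks octads).filter (F ⊆ ·)).biUnion (fun o => (o \ F).powersetCard j)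

theorem mem_special (F U : Finset GolayPt) (j : ℕ) :
    U ∈ special F j ↔ U.card = j ∧ Disjoint F U ∧ ∃ o ∈ octads, F ∪ U ⊆ o := by
  simp only [special, Finset.mem_biUnion, Finset.mem_filter, mem_blocks,
    Finset.mem_powersetCard]
  constructor
  · rintro ⟨o, ⟨ho, hTo⟩, hU, hc⟩
    refine ⟨hc, ?_, o, ho, Finset.union_subset hTo (hU.trans Finset.sdiff_subset)⟩
    rw [Finset.disjoint_right]
    intro x hx
    exact (Finset.mem_sdiff.mp (hU hx)).2
  · rintro ⟨hc, hd, o, ho, hTU⟩
    refine ⟨o, ⟨ho, Finset.union_subset_left hTU⟩, ?_, hc⟩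
    intro x hx
    rw [Finset.mem_sdiff]
    exact ⟨hTU (Finset.mem_union_right _ hx), Finset.disjoint_right.mp hd hx⟩

theorem card_special (F : Finset GolayPt) (hF : F.card = 4) : (special F 2).card = 30 := by
  unfold special
  rw [Finset.card_biUnion]
  · have h1 : ∀ o ∈ (blocks octads).filter (F ⊆ ·), ((o \ F).powersetCard 2).card = 6 := by
      intro o ho
      rw [Finset.mem_filter, mem_blocks] at ho
      rw [Finset.card_powersetCard, Finset.card_sdiff_of_subset ho.2, ho.1.2, hF]
      decide
    rw [Finset.sum_congr rfl h1, Finset.sum_const, smul_eq_mul]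
    have h2 := card_through steiner_octads F (by rw [hF]; norm_num)
    rw [hF] at h2
    have h3 : Fintype.card GolayPt = 24 := by decide
    rw [h3] at h2
    have h4 : Nat.choose (8 - 4) (5 - 4) = 4 := by decide
    have h5 : Nat.choose (24 - 4) (5 - 4) = 20 := by decide
    rw [h4, h5] at h2
    omega
  · intro o ho o' ho' hne
    rw [Finset.mem_coe, Finset.mem_filter, mem_blocks] at ho ho'
    rw [Function.onFun, Finset.disjoint_left]
    intro U hU hU'
    rw [Finset.mem_powersetCard] at hU hU'
    apply hne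
    apply octads_eq_of_inter ho.1 ho'.1
    have hd : Disjoint F U := by
      rw [Finset.disjoint_right]
      intro x hx
      exact (Finset.mem_sdiff.mp (hU.1 hx)).2
    have hsub : F ∪ U ⊆ o ∩ o' := by
      apply Finset.subset_inter
      · exact Finset.union_subset ho.2 (hU.1.trans Finset.sdiff_subset)
      · exact Finset.union_subset ho'.2 (hU'.1.trans Finset.sdiff_subset)
    have := Finset.card_le_card hsub
    rw [Finset.card_union_of_disjoint hd, hF, hU.2] at this
    omega

theorem cells5 {α : Type*} [DecidableEq α] {p q : α} {s t : Finset α} (hpq : p ≠ q) (hps : p ∉ s)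
    (hpt : p ∉ t) (hqs : q ∉ s) (hqt : q ∉ t) :
    [{p}, {q}, s ∩ t, s \ t, t \ s].Pairwise Disjoint := by
  simp only [List.pairwise_cons, List.mem_cons, List.not_mem_nil, or_false, forall_eq_or_imp,
    forall_eq, Finset.disjoint_singleton_left, Finset.mem_singleton, Finset.mem_inter,
    Finset.mem_sdiff, List.Pairwise.nil, and_true, IsEmpty.forall_iff, implies_true]
  refine ⟨⟨hpq, fun h => hps h.1, fun h => hps h.1, fun h => hpt h.1⟩,
    ⟨fun h => hqs h.1, fun h => hqs h.1, fun h => hqt h.1⟩, ⟨?_, ?_⟩, ?_⟩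
  · rw [Finset.disjoint_left]; intro x hx hx'
    exact (Finset.mem_sdiff.1 hx').2 (Finset.mem_inter.1 hx).2
  · rw [Finset.disjoint_left]; intro x hx hx'
    exact (Finset.mem_sdiff.1 hx').2 (Finset.mem_inter.1 hx).1
  · rw [Finset.disjoint_left]; intro x hx hx'
    exact (Finset.mem_sdiff.1 hx').2 (Finset.mem_sdiff.1 hx).1

theorem cells4 {α : Type*} [DecidableEq α] {p q c : α} {s : Finset α} (hpq : p ≠ q) (hps : p ∉ s)
    (hqs : q ∉ s) (hpc : p ≠ c) (hqc : q ≠ c) (hcs : c ∉ s) :
    [{p}, {q}, s, {c}].Pairwise Disjoint := by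
  simp only [List.pairwise_cons, List.mem_cons, List.not_mem_nil, or_false, forall_eq_or_imp,
    forall_eq, Finset.disjoint_singleton_left, Finset.disjoint_singleton_right,
    Finset.mem_singleton, List.Pairwise.nil, and_true, IsEmpty.forall_iff, implies_true]
  exact ⟨⟨hpq, hps, hpc⟩, ⟨hqs, hqc⟩, hcs⟩

theorem union_pair {α : Type*} [DecidableEq α] (F : Finset α) (c d : α) :
    F ∪ {c, d} = insert d (insert c F) := by
  ext x; simp only [Finset.mem_union, Finset.mem_insert, Finset.mem_singleton]; tauto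

theorem exists_octad_smul {g : Equiv.Perm GolayPt} (hg : g ∈ M24) (X : Finset GolayPt) :
    (∃ o ∈ octads, g • X ⊆ o) ↔ ∃ o ∈ octads, X ⊆ o := by
  constructor
  · rintro ⟨o, ho, h⟩
    refine ⟨g⁻¹ • o, smul_mem_octads (M24.inv_mem hg) ho, ?_⟩
    rw [← Finset.smul_finset_subset_iff]
    exact h
  · rintro ⟨o, ho, h⟩
    exact ⟨g • o, smul_mem_octads hg ho, Finset.smul_finset_subset_smul_finset h⟩

theorem singleton_smul {g : Equiv.Perm GolayPt} {a b : GolayPt}
    (h : g • ({a} : Finset GolayPt) = {b}) : g a = b := by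
  rw [Finset.smul_finset_singleton, Finset.singleton_inj] at h
  exact h

/-- Fix two points p ≠ q and a pair s of two further points. Among the pairs avoiding p, q and disjoint from s, exactly 30 lie in an octad together with p, q and s and exactly 160 do not; and any two pairs other than s that meet s in equally many points and agree on that octad property are carried to one another by an element of the group of the length-24 code fixing p, q and s. -/
theorem result (p q : Cfsg.GolayPt) (hpq : p ≠ q) (s : Finset Cfsg.GolayPt) (hs : (s.card = 2 ∧ p ∉ s ∧ q ∉ s)) : {t : Finset Cfsg.GolayPt | (t.card = 2 ∧ p ∉ t ∧ q ∉ t) ∧ Disjoint s t ∧ (∃ o ∈ Cfsg.octads, p ∈ o ∧ q ∈ o ∧ s ∪ t ⊆ o)}.ncard = 30 ∧ {t : Finset Cfsg.GolayPt | (t.card = 2 ∧ p ∉ t ∧ q ∉ t) ∧ Disjoint s t ∧ ¬ (∃ o ∈ Cfsg.octads, p ∈ o ∧ q ∈ o ∧ s ∪ t ⊆ o)}.ncard = 160 ∧ ∀ t t' : Finset Cfsg.GolayPt, (t.card = 2 ∧ p ∉ t ∧ q ∉ t) → (t'.card = 2 ∧ p ∉ t' ∧ q ∉ t') → t ≠ s → t' ≠ s → (s ∩ t).card = (s ∩ t').card → ((∃ o ∈ Cfsg.octads, p ∈ o ∧ q ∈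 o ∧ s ∪ t ⊆ o) ↔ (∃ o ∈ Cfsg.octads, p ∈ o ∧ q ∈ o ∧ s ∪ t' ⊆ o)) → ∃ g : Equiv.Perm Cfsg.GolayPt, g ∈ Cfsg.M24 ∧ g p = p ∧ g q = q ∧ g • s = s ∧ g • t = t' := by
  obtain ⟨hs2, hps, hqs⟩ := hs
  set F : Finset GolayPt := insert p (insert q s) with hF
  have hFc : F.card = 4 := by
    rw [hF, Finset.card_insert_of_notMem, Finset.card_insert_of_notMem hqs, hs2]
    rw [Finset.mem_insert]; push Not; exact ⟨hpq, hps⟩
  have hC : ∀ t : Finset GolayPt, (∃ o ∈ octads, p ∈ o ∧ q ∈ o ∧ s ∪ t ⊆ o) ↔
      ∃ o ∈ octads, F ∪ t ⊆ o := by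
    intro t
    apply exists_congr; intro o
    apply and_congr_right; intro _
    rw [hF, Finset.union_subset_iff, Finset.union_subset_iff, Finset.insert_subset_iff,
      Finset.insert_subset_iff]
    tauto
  have hD : ∀ t : Finset GolayPt, ((p ∉ t ∧ q ∉ t) ∧ Disjoint s t) ↔ Disjoint F t := by
    intro t
    rw [hF, Finset.disjoint_insert_left, Finset.disjoint_insert_left]
    tauto
  refine ⟨?_, ?_, ?_⟩
  · have : {t : Finset GolayPt | (t.card = 2 ∧ p ∉ t ∧ q ∉ t) ∧ Disjoint s t ∧
        (∃ o ∈ octads, p ∈ o ∧ q ∈ o ∧ s ∪ t ⊆ o)} = (special F 2 : Set (Finset GolayPt)) := by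
      ext t
      rw [Finset.mem_coe, mem_special, ← hD, ← hC]
      simp only [Set.mem_ofPred_eq]
      tauto
    rw [this, Set.ncard_coe_finset, card_special F hFc]
  · have : {t : Finset GolayPt | (t.card = 2 ∧ p ∉ t ∧ q ∉ t) ∧ Disjoint s t ∧
        ¬ (∃ o ∈ octads, p ∈ o ∧ q ∈ o ∧ s ∪ t ⊆ o)} =
        ((Fᶜ.powersetCard 2 \ special F 2 : Finset (Finset GolayPt)) : Set (Finset GolayPt)) := by
      ext t
      have hsub : t ⊆ Fᶜ ↔ Disjoint F t := by
        rw [Finset.subset_compl_iff_disjoint_left]
      rw [Finset.mem_coe, Finset.mem_sdiff, mem_special, Finset.mem_powersetCard, hsub, ← hD, ← hC]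
      simp only [Set.mem_ofPred_eq]
      generalize (∃ o ∈ octads, p ∈ o ∧ q ∈ o ∧ s ∪ t ⊆ o) = X
      generalize Disjoint s t = Y
      tauto
    rw [this, Set.ncard_coe_finset, Finset.card_sdiff_of_subset, card_special F hFc,
      Finset.card_powersetCard, Finset.card_compl, hFc]
    · decide
    · intro U hU
      rw [mem_special] at hU
      rw [Finset.mem_powersetCard, Finset.subset_compl_iff_disjoint_left]
      exact ⟨hU.2.1, hU.1⟩
  · rintro t t' ⟨ht2, hpt, hqt⟩ ⟨ht2', hpt', hqt'⟩ hts hts' hcard hiff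
    have a1 := Finset.card_sdiff_add_card_inter s t
    have a2 := Finset.card_sdiff_add_card_inter s t'
    have a3 := Finset.card_sdiff_add_card_inter t s
    have a4 := Finset.card_sdiff_add_card_inter t' s
    rw [Finset.inter_comm t s] at a3
    rw [Finset.inter_comm t' s] at a4
    have hle : (s ∩ t).card ≤ 1 := by
      by_contra hcon
      have h2 : (s \ t).card = 0 := by omega
      have h3 : (t \ s).card = 0 := by omega
      rw [Finset.card_eq_zero, Finset.sdiff_eq_empty_iff_subset] at h2 h3
      exact hts (Finset.Subset.antisymm h3 h2)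
    rcases Nat.lt_or_ge (s ∩ t).card 1 with h0 | h1
    · -- disjoint case
      have h00 : (s ∩ t).card = 0 := by omega
      have h00' : (s ∩ t').card = 0 := by omega
      rw [Finset.card_eq_zero, ← Finset.disjoint_iff_inter_eq_empty] at h00 h00'
      obtain ⟨c, d, hcd, rfl⟩ := Finset.card_eq_two.1 ht2
      obtain ⟨c', d', hcd', rfl⟩ := Finset.card_eq_two.1 ht2'
      simp only [Finset.mem_insert, Finset.mem_singleton, not_or] at hpt hqt hpt' hqt'
      simp only [Finset.disjoint_insert_right, Finset.disjoint_singleton_right] at h00 h00'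
      obtain ⟨g, hg, hmap⟩ := exists_map_cellList
        (cells4 hpq hps hqs hpt.1 hqt.1 h00.1) (cells4 hpq hps hqs hpt'.1 hqt'.1 h00'.1)
        (List.Forall₂.cons rfl (List.Forall₂.cons rfl (List.Forall₂.cons rfl
          (List.Forall₂.cons rfl List.Forall₂.nil)))) (by simp [hs2])
      simp only [List.forall₂_cons, List.forall₂_nil_right_iff, and_true] at hmap
      obtain ⟨e1, e2, e3, e4⟩ := hmap
      have gp := singleton_smul e1
      have gq := singleton_smul e2
      have gc := singleton_smul e4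
      set A : Finset GolayPt := insert c F with hA
      set A' : Finset GolayPt := insert c' F with hA'
      have hcF : c ∉ F := by
        rw [hF, Finset.mem_insert, Finset.mem_insert]; push Not
        exact ⟨Ne.symm hpt.1, Ne.symm hqt.1, h00.1⟩
      have hcF' : c' ∉ F := by
        rw [hF, Finset.mem_insert, Finset.mem_insert]; push Not
        exact ⟨Ne.symm hpt'.1, Ne.symm hqt'.1, h00'.1⟩
      have hdA : d ∉ A := by
        rw [hA, hF, Finset.mem_insert, Finset.mem_insert, Finset.mem_insert]; push Not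
        exact ⟨hcd.symm, Ne.symm hpt.2, Ne.symm hqt.2, h00.2⟩
      have hdA' : d' ∉ A' := by
        rw [hA', hF, Finset.mem_insert, Finset.mem_insert, Finset.mem_insert]; push Not
        exact ⟨hcd'.symm, Ne.symm hpt'.2, Ne.symm hqt'.2, h00'.2⟩
      have hAc' : A'.card = 5 := by rw [hA', Finset.card_insert_of_notMem hcF', hFc]
      have hgF : g • F = F := by
        rw [hF, Finset.smul_finset_insert, Finset.smul_finset_insert, e3]
        change insert (g p) (insert (g q) s) = _
        rw [gp, gq]
      have hgA : g • A = A' := by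
        rw [hA, Finset.smul_finset_insert, hgF]
        change insert (g c) F = _
        rw [gc]
      obtain ⟨o', ho', hAo'⟩ := exists_octad A' hAc'
      have hgd : g d ∉ A' := by
        rw [← hgA]
        intro hc
        exact hdA ((Finset.smul_mem_smul_finset_iff g).mp hc)
      have e5 : F ∪ {c, d} = insert d A := union_pair F c d
      have e6 : F ∪ {c', d'} = insert d' A' := union_pair F c' d'
      have e7 : g • insert d A = insert (g d) A' := by
        rw [Finset.smul_finset_insert, hgA]; rfl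
      have hiff' : g d ∈ o' ↔ d' ∈ o' := by
        rw [← S1562.special_iff (f := d') hAc' ho' hAo', ← S1562.special_iff (f := g d) hAc' ho' hAo',
          ← e7, exists_octad_smul hg, ← e5, ← e6, ← hC, ← hC]
        exact hiff
      obtain ⟨k, hk, hkA, hkd⟩ := exists_fix_five hAc' ho' hAo' hgd hdA' hiff'
      have hFA' : F ⊆ A' := Finset.subset_insert _ _
      refine ⟨k * g, M24.mul_mem hk hg, ?_, ?_, ?_, ?_⟩
      · rw [Equiv.Perm.mul_apply, gp]
        exact hkA p (hFA' (by rw [hF]; exact Finset.mem_insert_self _ _))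
      · rw [Equiv.Perm.mul_apply, gq]
        exact hkA q (hFA' (by rw [hF]; exact Finset.mem_insert_of_mem (Finset.mem_insert_self _ _)))
      · rw [mul_smul, e3]
        apply smul_eq_of_fixes
        intro x hx
        exact hkA x (hFA' (by
          rw [hF]; exact Finset.mem_insert_of_mem (Finset.mem_insert_of_mem hx)))
      · rw [mul_smul, Finset.smul_finset_insert, Finset.smul_finset_singleton,
          Finset.smul_finset_insert, Finset.smul_finset_singleton]
        change {k (g c), k (g d)} = _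
        rw [gc, hkd, hkA c' (Finset.mem_insert_self _ _)]
    · obtain ⟨g, hg, hmap⟩ := exists_map_cellList
        (cells5 hpq hps hpt hqs hqt) (cells5 hpq hps hpt' hqs hqt')
        (List.Forall₂.cons rfl (List.Forall₂.cons rfl (List.Forall₂.cons hcard
          (List.Forall₂.cons (by omega) (List.Forall₂.cons (by omega) List.Forall₂.nil)))))
        (by simp; omega)
      simp only [List.forall₂_cons, List.forall₂_nil_right_iff, and_true] at hmap
      obtain ⟨e1, e2, e3, e4, e5⟩ := hmap
      refine ⟨g, hg, singleton_smul e1, singleton_smul e2, ?_, ?_⟩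
      · have hs : ∀ a b : Finset GolayPt, a = (a ∩ b) ∪ (a \ b) := fun a b => by
          rw [Finset.union_comm, Finset.sdiff_union_inter]
        conv_lhs => rw [hs s t]
        rw [Finset.smul_finset_union, e3, e4, ← hs s t']
      · have hs : ∀ a b : Finset GolayPt, b = (a ∩ b) ∪ (b \ a) := fun a b => by
          rw [Finset.union_comm, Finset.inter_comm, Finset.sdiff_union_inter]
        conv_lhs => rw [hs s t]
        rw [Finset.smul_finset_union, e3, e5, ← hs s t']

end Cfsg.Agent.S1638
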