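import Cfsg.Statements.S1640
import Cfsg.Agent.Lib.Helper54.Co3Main

set_option autoImplicit false
open Cfsg

namespace Cfsg.Agent.S1640

/-- The stabiliser of a vector of customary norm 6 is transitive on the 11178 minimal vectors of customary inner product −2 with it. -/
theorem result (u : ↥Cfsg.leechLattice) (hu : Cfsg.sqNorm (u : Cfsg.GolayPt → ℤ) = 48) : {x : ↥Cfsg.leechLattice | Cfsg.sqNorm (x : Cfsg.GolayPt → ℤ) = 32 ∧ Cfsg.dotInt (u : Cfsg.GolayPt → ℤ) (x : Cfsg.GolayPt → ℤ) = -16}.ncard = 11178 ∧ ∀ x ∈ {x : ↥Cfsg.leechLattice | Cfsg.sqNorm (x : Cfsg.GolayPt → ℤ) = 32 ∧ Cfsg.dotInt (u : Cfsg.GolayPt → ℤ) (x : Cfsg.GolayPt → ℤ) = -16}, ∀ x' ∈ {x : ↥Cfsg.leechLattice | Cfsg.sqNorm (x : Cfsg.GolayPt → ℤ) = 32 ∧ Cfsg.dotInt (u : Cfsg.GolayPt → ℤ) (x : Cfsg.GolayPt → ℤ) = -16}, ∃ g : ↥Cfsg.Co0, g • u = u ∧ g • x = x' := by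
  have hc := Cfsg.Agent.Lib.Helper54.conj_u3 u hu
  have hset : {x : ↥Cfsg.leechLattice | Cfsg.sqNorm (x : Cfsg.GolayPt → ℤ) = 32 ∧ Cfsg.dotInt (u : Cfsg.GolayPt → ℤ) (x : Cfsg.GolayPt → ℤ) = -16}
      = {x | Cfsg.Agent.Lib.Helper54.ClsL [u] 32 [-16] x} := by
    ext x
    show _ ↔ Cfsg.Agent.Lib.Helper54.ClsL [u] 32 [-16] x
    rw [Cfsg.Agent.Lib.Helper54.clsL_cons, Cfsg.Agent.Lib.Helper54.clsL_nil]
    exact And.comm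
  rw [hset]
  refine ⟨Cfsg.Agent.Lib.Helper54.countY.conj hc, fun x hx x' hx' => ?_⟩
  obtain ⟨g, hg, hgx⟩ := Cfsg.Agent.Lib.Helper54.transY.conj hc x x' hx hx'
  exact ⟨g, hg u (by simp), hgx⟩

end Cfsg.Agent.S1640
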