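import Cfsg.Statements.S1641
import Cfsg.Agent.Lib.Helper54.HSMain2

set_option autoImplicit false
open Cfsg

namespace Cfsg.Agent.S1641

/-- The third Conway group acts on the 11178 cosets of the Higman–Sims group with rank 5 and subdegrees 1, 352, 1100, 4125, 5600. -/
theorem result (u x : ↥Cfsg.leechLattice) (hu : Cfsg.sqNorm (u : Cfsg.GolayPt → ℤ) = 48) (hx : x ∈ {x : ↥Cfsg.leechLattice | Cfsg.sqNorm (x : Cfsg.GolayPt → ℤ) = 32 ∧ Cfsg.dotInt (u : Cfsg.GolayPt → ℤ) (x : Cfsg.GolayPt → ℤ) = -16}) : ∃ y₁ ∈ {x : ↥Cfsg.leechLattice | Cfsg.sqNorm (x : Cfsg.GolayPt → ℤ) = 32 ∧ Cfsg.dotInt (u : Cfsg.GolayPt → ℤ) (x : Cfsg.GolayPt → ℤ) = -16}, ∃ y₂ ∈ {x : ↥Cfsg.leechLattice | Cfsg.sqNorm (x : Cfsg.GolayPt → ℤ) = 32 ∧ Cfsg.dotInt (u : Cfsg.GolayPt → ℤ) (x : Cfsg.GolayPt → ℤ) = -16}, ∃ y₃ ∈ {x : ↥Cfsg.leechLattice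 | Cfsg.sqNorm (x : Cfsg.GolayPt → ℤ) = 32 ∧ Cfsg.dotInt (u : Cfsg.GolayPt → ℤ) (x : Cfsg.GolayPt → ℤ) = -16}, ∃ y₄ ∈ {x : ↥Cfsg.leechLattice | Cfsg.sqNorm (x : Cfsg.GolayPt → ℤ) = 32 ∧ Cfsg.dotInt (u : Cfsg.GolayPt → ℤ) (x : Cfsg.GolayPt → ℤ) = -16}, (MulAction.orbit ↥(MulAction.stabilizer ↥Cfsg.Co0 u ⊓ MulAction.stabilizer ↥Cfsg.Co0 x) y₁).ncard = 352 ∧ (MulAction.orbit ↥(MulAction.stabilizer ↥Cfsg.Co0 u ⊓ MulAction.stabilizer ↥Cfsg.Co0 x) y₂).ncard = 1100 ∧ (MulAction.orbit ↥(MulAction.stabilizer ↥Cfsg.Co0 u ⊓ MulAction.stabilizer ↥Cfsg.Co0 x) y₃).ncard = 4125 ∧ (MulAction.orbit ↥(MulAction.stabilizer ↥Cfsg.Co0 u ⊓ MulAction.stabilizer ↥Cfsg.Co0 x) y₄).ncard = 5600 ∧ {x : ↥Cfsg.leechLattice | Cfsg.sqNorm (x : Cfsg.GolayPt → ℤ) = 32 ∧ Cfsg.dotInt (u : Cfsg.GolayPt → ℤ) (x : Cfsg.GolayPt → ℤ) = -16} = {x}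 ∪ MulAction.orbit ↥(MulAction.stabilizer ↥Cfsg.Co0 u ⊓ MulAction.stabilizer ↥Cfsg.Co0 x) y₁ ∪ MulAction.orbit ↥(MulAction.stabilizer ↥Cfsg.Co0 u ⊓ MulAction.stabilizer ↥Cfsg.Co0 x) y₂ ∪ MulAction.orbit ↥(MulAction.stabilizer ↥Cfsg.Co0 u ⊓ MulAction.stabilizer ↥Cfsg.Co0 x) y₃ ∪ MulAction.orbit ↥(MulAction.stabilizer ↥Cfsg.Co0 u ⊓ MulAction.stabilizer ↥Cfsg.Co0 x) y₄ := by
  have hmem : ∀ y : ↥Cfsg.leechLattice, y ∈ {x : ↥Cfsg.leechLattice | Cfsg.sqNorm (x : Cfsg.GolayPt → ℤ) = 32 ∧ Cfsg.dotInt (u : Cfsg.GolayPt → ℤ) (x : Cfsg.GolayPt → ℤ) = -16}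
      ↔ Cfsg.Agent.Lib.Helper54.ClsL [u] 32 [-16] y := by
    intro y
    show _ ↔ Cfsg.Agent.Lib.Helper54.ClsL [u] 32 [-16] y
    rw [Cfsg.Agent.Lib.Helper54.clsL_cons, Cfsg.Agent.Lib.Helper54.clsL_nil]
    exact And.comm
  have hx' := (hmem x).1 hx
  have hc : Cfsg.Agent.Lib.Helper54.ConjL [Cfsg.Agent.Lib.Helper54.tt0, Cfsg.Agent.Lib.Helper54.u3] [x, u] :=
    (Cfsg.Agent.Lib.Helper54.conj_u3 u hu).cons Cfsg.Agent.Lib.Helper54.transY Cfsg.Agent.Lib.Helper54.tt0_cls hx'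
  have hvals := Cfsg.Agent.Lib.Helper54.vals_conj Cfsg.Agent.Lib.Helper54.valsY hc
  obtain ⟨y₁, hy₁⟩ := Cfsg.Agent.Lib.Helper54.exists_of_countL (Cfsg.Agent.Lib.Helper54.countYm8.conj hc) (by norm_num)
  obtain ⟨y₂, hy₂⟩ := Cfsg.Agent.Lib.Helper54.exists_of_countL (Cfsg.Agent.Lib.Helper54.countY16.conj hc) (by norm_num)
  obtain ⟨y₃, hy₃⟩ := Cfsg.Agent.Lib.Helper54.exists_of_countL (Cfsg.Agent.Lib.Helper54.countY0.conj hc) (by norm_num)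
  obtain ⟨y₄, hy₄⟩ := Cfsg.Agent.Lib.Helper54.exists_of_countL (Cfsg.Agent.Lib.Helper54.countY8.conj hc) (by norm_num)
  have o₁ := Cfsg.Agent.Lib.Helper54.orbit_eq_cls2 (Cfsg.Agent.Lib.Helper54.transYm8.conj hc) hy₁
  have o₂ := Cfsg.Agent.Lib.Helper54.orbit_eq_cls2 (Cfsg.Agent.Lib.Helper54.transY16.conj hc) hy₂
  have o₃ := Cfsg.Agent.Lib.Helper54.orbit_eq_cls2 (Cfsg.Agent.Lib.Helper54.transY0.conj hc) hy₃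
  have o₄ := Cfsg.Agent.Lib.Helper54.orbit_eq_cls2 (Cfsg.Agent.Lib.Helper54.transY8.conj hc) hy₄
  refine ⟨y₁, (hmem y₁).2 (Cfsg.Agent.Lib.Helper54.clsL_cons.1 hy₁).2, y₂, (hmem y₂).2 (Cfsg.Agent.Lib.Helper54.clsL_cons.1 hy₂).2,
    y₃, (hmem y₃).2 (Cfsg.Agent.Lib.Helper54.clsL_cons.1 hy₃).2, y₄, (hmem y₄).2 (Cfsg.Agent.Lib.Helper54.clsL_cons.1 hy₄).2, ?_, ?_, ?_, ?_, ?_⟩
  · rw [o₁]; exact Cfsg.Agent.Lib.Helper54.countYm8.conj hc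
  · rw [o₂]; exact Cfsg.Agent.Lib.Helper54.countY16.conj hc
  · rw [o₃]; exact Cfsg.Agent.Lib.Helper54.countY0.conj hc
  · rw [o₄]; exact Cfsg.Agent.Lib.Helper54.countY8.conj hc
  · rw [o₁, o₂, o₃, o₄]
    ext z
    rw [hmem z]
    constructor
    · intro hz
      have hv1 := hvals z hz
      simp only [List.mem_cons, List.not_mem_nil, or_false] at hv1
      rcases hv1 with h | h | h | h | h
      · exact Or.inl (Or.inl (Or.inl (Or.inr (Cfsg.Agent.Lib.Helper54.clsL_cons.2 ⟨h, hz⟩))))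
      · exact Or.inl (Or.inr (Cfsg.Agent.Lib.Helper54.clsL_cons.2 ⟨h, hz⟩))
      · exact Or.inr (Cfsg.Agent.Lib.Helper54.clsL_cons.2 ⟨h, hz⟩)
      · exact Or.inl (Or.inl (Or.inr (Cfsg.Agent.Lib.Helper54.clsL_cons.2 ⟨h, hz⟩)))
      · exact Or.inl (Or.inl (Or.inl (Or.inl (Cfsg.Agent.Lib.Helper54.eq_of_dot_eq x z hx'.1 hz.1 h))))
    · rintro ((((h | h) | h) | h) | h)
      · rw [Set.mem_singleton_iff.1 h]; exact hx'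
      · exact (Cfsg.Agent.Lib.Helper54.clsL_cons.1 h).2
      · exact (Cfsg.Agent.Lib.Helper54.clsL_cons.1 h).2
      · exact (Cfsg.Agent.Lib.Helper54.clsL_cons.1 h).2
      · exact (Cfsg.Agent.Lib.Helper54.clsL_cons.1 h).2

end Cfsg.Agent.S1641
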