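import Cfsg.Statements.S1643
import Cfsg.Agent.Lib.Helper92.L223Data

set_option autoImplicit false
open scoped Pointwise
open Cfsg

namespace Cfsg.Agent.S1643

open Cfsg.Agent.Lib.Helper27 hiding bor bor_eq
open Cfsg.Agent.Lib.Helper92 Cfsg.Agent.Lib.Helper7 Cfsg.Agent.Lib.Helper86
open Cfsg.Agent.Lib.Helper92.L223

abbrev PG := Equiv.Perm GolayPt

/-- the multiplications by squares. -/
def SQ : Set PG := {g | ∃ u : (ZMod 23)ˣ, IsSquare u ∧ g = Equiv.optionCongr (Units.mulLeft u)}

noncomputable def tt : PG := permOf tC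
noncomputable def uu : PG := permOf uC
noncomputable def vv : PG := permOf vC
noncomputable def ww : PG := permOf wC

theorem alpha_eq' : Equiv.optionCongr (Equiv.addRight (1 : ZMod 23)) = tt := alpha_eq
theorem gamma_eq' : projInv = ww := gamma_eq

theorem sq_key : ∀ x : ZMod 23, x ≠ 0 → ∃ k < 11, ∀ p : GolayPt,
    Option.map (fun y => x * x * y) p = pt (ent (powU uC k) (idx p)) := by decide +kernel

theorem SQ_sub {g : PG} (hg : g ∈ SQ) : g ∈ Subgroup.zpowers uu := by
  obtain ⟨u, ⟨r, rfl⟩, rfl⟩ := hg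
  obtain ⟨k, _, hk⟩ := sq_key (r : ZMod 23) r.ne_zero
  have : Equiv.optionCongr (Units.mulLeft (r * r)) = uu ^ k := by
    unfold uu
    rw [← permOf_powU uC_valid]
    ext1 p
    rw [permOf_apply (validCode_powU uC_valid k), ← hk p]
    cases p <;> simp
  rw [this]; exact Subgroup.pow_mem _ (Subgroup.mem_zpowers _) k

theorem uu_mem_SQ : uu ∈ SQ := by
  refine ⟨Units.mk0 (5 : ZMod 23) (by decide) * Units.mk0 (5 : ZMod 23) (by decide), ⟨_, rfl⟩, ?_⟩
  ext1 p
  unfold uu
  rw [permOf_apply uC_valid]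
  revert p
  decide +kernel


/-! ### the subgroups -/

def FF : Subgroup PG := Subgroup.closure ({Equiv.optionCongr (Equiv.addRight (1 : ZMod 23))} ∪ SQ)
def LL : Subgroup PG :=
  Subgroup.closure ({Equiv.optionCongr (Equiv.addRight (1 : ZMod 23)), projInv} ∪ SQ)

noncomputable def PP : Subgroup PG := Subgroup.zpowers tt
noncomputable def UU : Subgroup PG := Subgroup.zpowers uu

/-- the normaliser of `PP` in `M24`. -/
noncomputable def NP : Subgroup PG := Subgroup.normalizer (PP : Set PG) ⊓ M24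

theorem card_PP : Nat.card PP = 23 := by
  unfold PP tt; rw [Nat.card_zpowers, orderOf_t]
theorem card_UU : Nat.card UU = 11 := by
  unfold UU uu; rw [Nat.card_zpowers, orderOf_u]

theorem tt_mem_M24 : tt ∈ M24 := permOf_mem_M24 tC_check
theorem uu_mem_M24 : uu ∈ M24 := permOf_mem_M24 uC_check
theorem vv_mem_M24 : vv ∈ M24 := permOf_mem_M24 vC_check
theorem ww_mem_M24 : ww ∈ M24 := permOf_mem_M24 wC_check

theorem card_NP_le : Nat.card NP ≤ 253 := by
  have := card_le_of_list (H := NP) (l := NPL) (fun g hg =>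
    norm_sub (Q0 := fun _ => True) tC_check orderOf_t t_ne_one chainT chkT g hg.2 trivial hg.1)
  have h253 : NPL.length = 253 := by decide +kernel
  rwa [h253] at this

theorem conj_of_inter {g s : PG} {j : ℕ} (h : g * s = s ^ j * g) :
    g ∈ Subgroup.normalizer ((Subgroup.zpowers s : Subgroup PG) : Set PG) := by
  apply mem_normalizer_zpowers
  rw [h, mul_inv_cancel_right]
  exact Subgroup.pow_mem _ (Subgroup.mem_zpowers _) j

theorem inter_of_codes {a s : ℕ} (ha : validCode a = true) (hs : validCode s = true) (j : ℕ)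
    (h : mulU a s = mulU (powU s j) a) : permOf a * permOf s = permOf s ^ j * permOf a := by
  rw [← permOf_powU hs, ← permOf_mulU ha hs, ← permOf_mulU (validCode_powU hs j) ha, h]

theorem uu_norm_PP : uu ∈ Subgroup.normalizer (PP : Set PG) :=
  conj_of_inter (j := 2) (inter_of_codes uC_valid tC_valid 2 (by decide +kernel))

theorem tt_mem_NP : tt ∈ NP :=
  ⟨Subgroup.le_normalizer (Subgroup.mem_zpowers tt), tt_mem_M24⟩
theorem uu_mem_NP : uu ∈ NP := ⟨uu_norm_PP, uu_mem_M24⟩

theorem FF_le_NP : FF ≤ NP := by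
  unfold FF
  rw [Subgroup.closure_le]
  rintro g (hg | hg)
  · rw [Set.mem_singleton_iff.1 hg, alpha_eq']; exact tt_mem_NP
  · exact (Subgroup.zpowers_le.2 uu_mem_NP) (SQ_sub hg)

theorem tt_mem_FF : tt ∈ FF :=
  Subgroup.subset_closure (Or.inl (by rw [alpha_eq']; rfl))
theorem uu_mem_FF : uu ∈ FF := Subgroup.subset_closure (Or.inr uu_mem_SQ)

theorem PP_le_FF : PP ≤ FF := Subgroup.zpowers_le.2 tt_mem_FF
theorem UU_le_FF : UU ≤ FF := Subgroup.zpowers_le.2 uu_mem_FF

theorem card_FF : Nat.card FF = 253 := by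
  have h1 : 23 ∣ Nat.card FF := card_PP ▸ Subgroup.card_dvd_of_le PP_le_FF
  have h2 : 11 ∣ Nat.card FF := card_UU ▸ Subgroup.card_dvd_of_le UU_le_FF
  have h3 : Nat.card FF ≤ 253 := (Subgroup.card_le_of_le FF_le_NP).trans card_NP_le
  have h4 : 0 < Nat.card FF := Nat.card_pos
  have h5 : 23 * 11 ∣ Nat.card FF := Nat.Coprime.mul_dvd_of_dvd_of_dvd (by norm_num) h1 h2
  obtain ⟨k, hk⟩ := h5
  have : k = 1 := by nlinarith
  omega

theorem FF_eq_NP : FF = NP :=
  Subgroup.eq_of_le_of_card_ge FF_le_NP (by rw [card_FF]; exact card_NP_le)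


/-! ### the normaliser of `UU` in the stabiliser of two points -/

theorem pt23 : pt 23 = (none : GolayPt) := by decide
theorem pt0 : pt 0 = (some 0 : GolayPt) := by decide

theorem mem_M23 {g : PG} : g ∈ Spor.M23 ↔ g ∈ M24 ∧ g none = none := by
  rw [Spor.M23, Subgroup.mem_inf]
  exact Iff.rfl

theorem mem_M22 {g : PG} : g ∈ Spor.M22 ↔ g ∈ M24 ∧ g none = none ∧ g (some 0) = some 0 := by
  rw [Spor.M22, Subgroup.mem_inf, mem_M23, and_assoc]
  exact Iff.rfl

theorem code_mem_M22 {c : ℕ} (hc : checkM24 c = true) (h23 : ent c 23 = 23) (h0 : ent c 0 = 0) :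
    permOf c ∈ Spor.M22 := by
  rw [mem_M22, ← pt23, ← pt0, permOf_pt (valid_of_check hc) (by norm_num),
    permOf_pt (valid_of_check hc) (by norm_num), h23, h0]
  exact ⟨permOf_mem_M24 hc, rfl, rfl⟩

noncomputable def N0 : Subgroup PG := Subgroup.normalizer (UU : Set PG) ⊓ Spor.M22

theorem card_N0_le : Nat.card N0 ≤ 55 := by
  have := card_le_of_list (H := N0) (l := N0L) (fun g hg => by
    have h := mem_M22.1 hg.2
    exact norm_sub (Q0 := fun g => g (pt 23) = pt 23 ∧ g (pt 0) = pt 0) uC_check orderOf_u u_ne_one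
      chainU chkU g h.1 (by rw [pt23, pt0]; exact h.2) hg.1)
  have h55 : N0L.length = 55 := by decide +kernel
  rwa [h55] at this

theorem uu_mem_M22 : uu ∈ Spor.M22 := code_mem_M22 uC_check (by decide +kernel) (by decide +kernel)

theorem uu_mem_N0 : uu ∈ N0 := ⟨Subgroup.le_normalizer (Subgroup.mem_zpowers uu), uu_mem_M22⟩

theorem vv_mem_N0 : vv ∈ N0 :=
  ⟨conj_of_inter (j := 3) (inter_of_codes vC_valid uC_valid 3 (by decide +kernel)),
    code_mem_M22 vC_check (by decide +kernel) (by decide +kernel)⟩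

theorem card_N0 : Nat.card N0 = 55 := by
  have h1 : 11 ∣ Nat.card N0 := card_UU ▸ Subgroup.card_dvd_of_le (Subgroup.zpowers_le.2 uu_mem_N0)
  have h2 : 5 ∣ Nat.card N0 := by
    have := Subgroup.card_dvd_of_le (Subgroup.zpowers_le.2 vv_mem_N0)
    rwa [Nat.card_zpowers, vv, orderOf_v] at this
  have h3 := card_N0_le
  have h4 : 0 < Nat.card N0 := Nat.card_pos
  have h5 : 11 * 5 ∣ Nat.card N0 := Nat.Coprime.mul_dvd_of_dvd_of_dvd (by norm_num) h1 h2
  obtain ⟨k, hk⟩ := h5
  have : k = 1 := by nlinarith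
  omega

/-! ### maximality of `FF` in `M23` -/

theorem card_M23 : Nat.card Spor.M23 = 10200960 := by rw [M23_eq, card_fixer_L1]

theorem arith_key : ∀ q < 1754, 40320 % (23 * q + 1) = 0 →
    ((23 * q + 1) % 11 = 1 ∨ ((23 * q + 1) % 5 = 0 ∧ ((23 * q + 1) / 5) % 11 = 1)) →
    q = 0 ∨ q = 1753 := by decide +kernel

theorem arith {n m k : ℕ} (hn : n ∣ 40320) (h23 : n % 23 = 1) (hk : k = 1 ∨ k = 5)
    (hnm : n = k * m) (hm : m % 11 = 1) : n = 1 ∨ n = 40320 := by
  have hle : n ≤ 40320 := Nat.le_of_dvd (by norm_num) hn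
  have hq : n = 23 * (n / 23) + 1 := by omega
  have h1 := arith_key (n / 23) (by omega) (by rw [← hq]; exact Nat.mod_eq_zero_of_dvd hn)
    (by
      rw [← hq]
      rcases hk with rfl | rfl
      · left; omega
      · right; omega)
  omega

theorem tt_pow_zero (y : ZMod 23) : ∃ k : ℕ, (tt ^ k) (some 0) = some y := by
  refine ⟨y.val, ?_⟩
  have h : ∀ (k : ℕ) (x : ZMod 23), (tt ^ k) (some x) = some (x + k) := by
    intro k
    induction k with
    | zero => intro x; simp
    | succ k ih =>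
      intro x
      rw [pow_succ, Equiv.Perm.mul_apply, ← alpha_eq']
      have : (Equiv.optionCongr (Equiv.addRight (1 : ZMod 23))) (some x) = some (x + 1) := rfl
      rw [this, alpha_eq', ih]
      push_cast; ring_nf
  rw [h]; simp

theorem FF_le_M23 : FF ≤ Spor.M23 := by
  intro g hg
  rw [mem_M23]
  refine ⟨(FF_le_NP hg).2, ?_⟩
  revert g
  show FF ≤ MulAction.stabilizer PG (none : GolayPt)
  unfold FF
  rw [Subgroup.closure_le]
  rintro g (hg | ⟨u, _, rfl⟩)
  · rw [Set.mem_singleton_iff.1 hg]; rfl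
  · rfl

theorem maxF (Y : Subgroup PG) (h1 : FF ≤ Y) (h2 : Y ≤ Spor.M23) : Y = FF ∨ Y = Spor.M23 := by
  have hdvd : Nat.card Y ∣ 10200960 := card_M23 ▸ Subgroup.card_dvd_of_le h2
  obtain ⟨n, hn23, hYn⟩ := sylow_count (p := 23) Y PP (PP_le_FF.trans h1) card_PP (by
    intro h; have := h.trans hdvd; revert this; decide +kernel)
  have hNY : Subgroup.normalizer (PP : Set PG) ⊓ Y = FF := by
    apply le_antisymm
    · rw [FF_eq_NP]
      exact inf_le_inf_left _ (h2.trans inf_le_left)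
    · exact le_inf (FF_le_NP.trans inf_le_left) h1
  rw [hNY, card_FF] at hYn
  have hn : n ∣ 40320 := by
    rw [hYn] at hdvd
    exact Nat.dvd_of_mul_dvd_mul_left (k := 253) (by norm_num) (by simpa using hdvd)
  -- the stabiliser of `0`
  have hstep := card_step Y (some 0 : GolayPt) {y | y ≠ none} (by
      intro y hy
      cases y with
      | none => exact absurd rfl hy
      | some y =>
        obtain ⟨k, hk⟩ := tt_pow_zero y
        exact ⟨tt ^ k, Y.pow_mem (h1 tt_mem_FF) k, hk⟩) (by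
      intro g hg he
      have hg' := (mem_M23.1 (h2 hg)).2
      have : g (some 0) = g none := by rw [hg']; exact he
      exact absurd (g.injective this) (by simp))
  rw [ncard_ne] at hstep
  set Y0 : Subgroup PG := Y ⊓ MulAction.stabilizer PG (some 0 : GolayPt) with hY0
  have hUY0 : UU ≤ Y0 := by
    apply Subgroup.zpowers_le.2
    exact ⟨h1 uu_mem_FF, (mem_M22.1 uu_mem_M22).2.2⟩
  have hY0dvd : Nat.card Y0 ∣ 10200960 := (Subgroup.card_dvd_of_le inf_le_left).trans hdvd
  obtain ⟨m, hm11, hY0m⟩ := sylow_count (p := 11) Y0 UU hUY0 card_UU (by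
    intro h; have := h.trans hY0dvd; revert this; decide +kernel)
  set D : Subgroup PG := Subgroup.normalizer (UU : Set PG) ⊓ Y0 with hD
  have hD1 : 11 ∣ Nat.card D :=
    card_UU ▸ Subgroup.card_dvd_of_le (le_inf Subgroup.le_normalizer hUY0)
  have hD2 : Nat.card D ∣ 55 := by
    rw [← card_N0]
    apply Subgroup.card_dvd_of_le
    apply inf_le_inf_left
    intro g hg
    exact ⟨h2 hg.1, hg.2⟩
  obtain ⟨k, hk⟩ := hD1
  have hk5 : k = 1 ∨ k = 5 := by
    rw [hk] at hD2
    have : k ∣ 5 := Nat.dvd_of_mul_dvd_mul_left (k := 11) (by norm_num) (by simpa using hD2)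
    exact (Nat.dvd_prime (by norm_num)).1 this
  have hnkm : n = k * m := by
    rw [hk] at hY0m
    rw [hY0m] at hstep
    have : 253 * n = 253 * (k * m) := by rw [← hYn, hstep]; ring
    omega
  rcases arith hn hn23 hk5 hnkm hm11 with rfl | rfl
  · left
    exact (Subgroup.eq_of_le_of_card_ge h1 (by rw [hYn, card_FF])).symm
  · right
    exact Subgroup.eq_of_le_of_card_ge h2 (by rw [hYn, card_M23])


/-! ### `LL` consists of Möbius transformations -/

/-- the action of `GL(2, 23)` on the projective line. -/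
noncomputable def mob : GL (Fin 2) (ZMod 23) →* PG :=
  MulAction.toPermHom (GL (Fin 2) (ZMod 23)) (OnePoint (ZMod 23))

theorem mob_none (A : GL (Fin 2) (ZMod 23)) :
    mob A none = if A 1 0 = 0 then none else some (A 0 0 / A 1 0) :=
  OnePoint.smul_infty_eq_ite A

theorem mob_some (A : GL (Fin 2) (ZMod 23)) (k : ZMod 23) :
    mob A (some k) = if A 1 0 * k + A 1 1 = 0 then none
      else some ((A 0 0 * k + A 0 1) / (A 1 0 * k + A 1 1)) :=
  OnePoint.smul_some_eq_ite

theorem card_GL223 : Nat.card (GL (Fin 2) (ZMod 23)) = 267168 := by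
  rw [Matrix.card_GL_field, ZMod.card]
  simp [Fin.prod_univ_two]

theorem inv_key : ∀ k : ZMod 23, (-1) / k = -(k ^ 21) := by decide +kernel

theorem LL_le_range : LL ≤ mob.range := by
  unfold LL
  rw [Subgroup.closure_le]
  rintro g ((hg | hg) | ⟨u, _, rfl⟩)
  · refine ⟨Matrix.GeneralLinearGroup.mkOfDetNeZero !![1, 1; 0, 1] (by simp [Matrix.det_fin_two]), ?_⟩
    rw [hg]
    ext1 p
    cases p with
    | none => rw [mob_none]; simp [Matrix.GeneralLinearGroup.mkOfDetNeZero]
    | some k => rw [mob_some]; simp [Matrix.GeneralLinearGroup.mkOfDetNeZero]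
  · refine ⟨Matrix.GeneralLinearGroup.mkOfDetNeZero !![0, -1; 1, 0] (by simp [Matrix.det_fin_two]), ?_⟩
    rw [Set.mem_singleton_iff.1 hg]
    ext1 p
    cases p with
    | none =>
      rw [mob_none]; simp [Matrix.GeneralLinearGroup.mkOfDetNeZero]; rfl
    | some k =>
      rw [mob_some]
      show _ = projInvFun (some k)
      simp [Matrix.GeneralLinearGroup.mkOfDetNeZero, projInvFun, inv_key]
  · refine ⟨Matrix.GeneralLinearGroup.mkOfDetNeZero !![(u : ZMod 23), 0; 0, 1]
      (by simp [Matrix.det_fin_two]), ?_⟩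
    ext1 p
    cases p with
    | none => rw [mob_none]; simp [Matrix.GeneralLinearGroup.mkOfDetNeZero]
    | some k => rw [mob_some]; simp [Matrix.GeneralLinearGroup.mkOfDetNeZero]

theorem card_LL_dvd : Nat.card LL ∣ 267168 := by
  rw [← card_GL223]
  exact (Subgroup.card_dvd_of_le LL_le_range).trans (Subgroup.card_range_dvd mob)


/-! ### maximality of `LL` in `M24` -/

theorem FF_le_LL : FF ≤ LL := by
  unfold FF LL
  apply Subgroup.closure_mono
  rintro g (hg | hg)
  · exact Or.inl (Or.inl hg)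
  · exact Or.inr hg

theorem ww_mem_LL : ww ∈ LL :=
  Subgroup.subset_closure (Or.inl (Or.inr (by rw [gamma_eq']; rfl)))

theorem LL_le_M24 : LL ≤ M24 := by
  unfold LL
  rw [Subgroup.closure_le]
  rintro g ((hg | hg) | hg)
  · rw [hg, alpha_eq']; exact tt_mem_M24
  · rw [Set.mem_singleton_iff.1 hg, gamma_eq']; exact ww_mem_M24
  · exact (Subgroup.zpowers_le.2 uu_mem_M24) (SQ_sub hg)

theorem ww_none : ww none = some 0 := by rw [← gamma_eq']; rfl

theorem card_of_ge (X : Subgroup PG) (h1 : LL ≤ X) (h2 : X ≤ M24) :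
    Nat.card X = 6072 ∨ Nat.card X = 244823040 := by
  have hstep := card_step X (none : GolayPt) Set.univ (by
      intro y _
      cases y with
      | none => exact ⟨1, X.one_mem, rfl⟩
      | some y =>
        obtain ⟨k, hk⟩ := tt_pow_zero y
        refine ⟨tt ^ k * ww, X.mul_mem (X.pow_mem (h1 (FF_le_LL tt_mem_FF)) k) (h1 ww_mem_LL), ?_⟩
        rw [Equiv.Perm.smul_def, Equiv.Perm.mul_apply, ww_none, hk]) (fun _ _ => Set.mem_univ _)
  rw [Set.ncard_univ, card_GolayPt] at hstep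
  rcases maxF (X ⊓ MulAction.stabilizer PG (none : GolayPt))
    (le_inf (FF_le_LL.trans h1) (FF_le_M23.trans inf_le_right))
    (inf_le_inf_right _ h2) with h | h
  · left; rw [hstep, h, card_FF]
  · right; rw [hstep, h, card_M23]

theorem card_LL : Nat.card LL = 6072 := by
  rcases card_of_ge LL le_rfl LL_le_M24 with h | h
  · exact h
  · have := card_LL_dvd
    rw [h] at this
    revert this
    decide +kernel

theorem maxL (X : Subgroup PG) (h1 : LL ≤ X) (h2 : X ≤ M24) : X = LL ∨ X = M24 := by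
  rcases card_of_ge X h1 h2 with h | h
  · left
    exact (Subgroup.eq_of_le_of_card_ge h1 (by rw [h, card_LL])).symm
  · right
    exact Subgroup.eq_of_le_of_card_ge h2 (by rw [h, card_M24])

theorem stab_eq : MulAction.stabilizer M24 (none : GolayPt) = Spor.M23.subgroupOf M24 := by
  ext g
  rw [Subgroup.mem_subgroupOf, mem_M23, MulAction.mem_stabilizer_iff]
  exact ⟨fun h => ⟨g.2, h⟩, fun h => h.2⟩

theorem M23_le_M24 : Spor.M23 ≤ M24 := inf_le_left

/-- PSL(2, 23) = ⟨t ↦ t+1, t ↦ u t (u square), t ↦ −1/t⟩ is maximal of order 6072 in the group of the length-24 code, and its point stabiliser 23:11 (order 253) is maximal in the Mathieu group of degree 23. -/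
theorem result : (Subgroup.closure ({Equiv.optionCongr (Equiv.addRight (1 : ZMod 23)), Cfsg.projInv} ∪ {g : Equiv.Perm Cfsg.GolayPt | ∃ u : (ZMod 23)ˣ, IsSquare u ∧ g = Equiv.optionCongr (Units.mulLeft u)}) ≤ Cfsg.M24 ∧ Nat.card ↥(Subgroup.closure ({Equiv.optionCongr (Equiv.addRight (1 : ZMod 23)), Cfsg.projInv} ∪ {g : Equiv.Perm Cfsg.GolayPt | ∃ u : (ZMod 23)ˣ, IsSquare u ∧ g = Equiv.optionCongr (Units.mulLeft u)})) = 6072 ∧ IsCoatom ((Subgroup.closure ({Equiv.optionCongr (Equiv.addRight (1 : ZMod 23)), Cfsg.projInv} ∪ {g : Equiv.Perm Cfsg.GolayPt | ∃ u : (ZMod 23)ˣ, IsSquare u ∧ g = Equiv.optionCongr (Units.mulLeft u)})).subgroupOf Cfsg.M24)) ∧ (Subgroup.closure ({Equiv.optionCongr (Equiv.addRight (1 : ZMod 23))} ∪ {g : Equiv.Perm Cfsg.GolayPt | ∃ u : (ZMod 23)ˣ, IsSquare u ∧ g = Equiv.optionCongr (Units.mulLeft u)}) ≤ Cfsg.M24 ⊓ MulAction.stabilizer (Equiv.Perm Cfsg.GolayPt) (none : Cfsg.GolayPt) ∧ Nat.card ↥(Subgroup.closure ({Equiv.optionCongr (Equiv.addRight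 (1 : ZMod 23))} ∪ {g : Equiv.Perm Cfsg.GolayPt | ∃ u : (ZMod 23)ˣ, IsSquare u ∧ g = Equiv.optionCongr (Units.mulLeft u)})) = 253 ∧ IsCoatom (((Subgroup.closure ({Equiv.optionCongr (Equiv.addRight (1 : ZMod 23))} ∪ {g : Equiv.Perm Cfsg.GolayPt | ∃ u : (ZMod 23)ˣ, IsSquare u ∧ g = Equiv.optionCongr (Units.mulLeft u)})).subgroupOf Cfsg.M24).subgroupOf (MulAction.stabilizer Cfsg.M24 (none : Cfsg.GolayPt)))) := by
  refine ⟨⟨LL_le_M24, card_LL, ?_⟩, FF_le_M23, card_FF, ?_⟩
  · refine isCoatom_subgroupOf LL_le_M24 ?_ maxL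
    intro h
    have h' : LL = M24 := h
    have := card_LL
    rw [h', card_M24] at this
    omega
  · rw [stab_eq]
    refine isCoatom_subgroupOf (A := FF.subgroupOf M24) (B := Spor.M23.subgroupOf M24) ?_ ?_
      (interval_subgroupOf FF_le_M23 M23_le_M24 maxF)
    · intro g hg
      exact FF_le_M23 hg
    · intro h
      have h1 := congrArg (fun K : Subgroup ↥M24 => Nat.card K) h
      simp only [card_subgroupOf_eq_inf] at h1
      rw [inf_eq_left.2 (FF_le_M23.trans M23_le_M24), inf_eq_left.2 M23_le_M24, card_FF,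
        card_M23] at h1
      omega

end Cfsg.Agent.S1643
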