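import Cfsg.Statements.S1666
import Cfsg.Agent.Lib.Helper7.HSRGraph
import Cfsg.Agent.Lib.Helper7.HSRSpec
import Cfsg.Agent.Lib.Helper7.HSRMain
import Cfsg.Agent.Lib.Helper7.OutM22a
import Cfsg.Agent.Lib.Helper92.HS.Link
import Cfsg.Agent.S0430

set_option autoImplicit false
open Cfsg

namespace Cfsg.Agent.S1666

open Cfsg.Agent.Lib.Helper7.HSR Cfsg.Agent.Lib.Helper92.HS Cfsg.Agent.Lib.Helper92.PC

/-- Recognition of the Higman–Sims group as a rank 3 permutation group: a transitive permutation group on 100 points in which the stabiliser of a point is isomorphic to the Mathieu group M₂₂ and has two further orbits, of sizes 22 and 77, is isomorphic to the Higman–Sims group. -/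
theorem result {Ω : Type*} [Fintype Ω] [DecidableEq Ω] (hΩ : Fintype.card Ω = 100) (G : Subgroup (Equiv.Perm Ω)) [MulAction.IsPretransitive G Ω] (a : Ω)  (e : MulAction.stabilizer G a ≃* Cfsg.Spor.M22) (b c : Ω) (hb : (MulAction.orbit (MulAction.stabilizer G a) b).ncard = 22) (hc : (MulAction.orbit (MulAction.stabilizer G a) c).ncard = 77) : Cfsg.Spor.IsoHS G := by
  classical
  have cM : Nat.card Cfsg.Spor.M22 = 443520 := by
    rw [Cfsg.Agent.Lib.Helper7.M22_eq_fixer]; exact Cfsg.Agent.Lib.Helper27.card_fixer_L2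
  have cS : Nat.card (MulAction.stabilizer G a) = 443520 := by
    rw [Nat.card_congr e.toEquiv, cM]
  have cG : Nat.card G = 44352000 := card_of_stab hΩ G a cS
  obtain ⟨Γ, hdec, l, m, hsrg, hG⟩ := exists_srg hΩ G a b c hb hc
  obtain ⟨rfl, rfl⟩ := srg_params Γ hsrg
  obtain ⟨φ⟩ := Cfsg.Agent.S0430.result hsrg gr_srg
  obtain ⟨⟨e1⟩, cP⟩ := iso_fix
  obtain ⟨e2⟩ := nonempty_FixL_congr conj_std
  obtain ⟨e3⟩ := iso_of_index_two φ 44352000 (by norm_num) (by rw [card_autSub gr gr_srg]) G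
    (PG Cfsg.Agent.Lib.Helper92.HS.a z) hG PG_le_autSub cG cP PG_no_index_two
  exact ⟨e3.trans ((hsEquiv.trans e2.symm).trans e1).symm⟩

end Cfsg.Agent.S1666
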