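import Cfsg.Statements.S1683
import Cfsg.Agent.Lib.Helper28.He2058Orb

set_option autoImplicit false
open Cfsg

namespace Cfsg.Agent.S1683

/-- In the presented Held group, let H be the subgroup generated by the images of a, c, d, e, f, (ab)^2 and (bcde)^7. Then H has index 2058, there are four distinct H-orbits on the cosets of H other than H itself, of sizes 136, 136, 425 and 1360. -/
theorem result : (((Subgroup.closure ({Cfsg.Spor.He.a, Cfsg.Spor.He.c, Cfsg.Spor.He.d, Cfsg.Spor.He.e, Cfsg.Spor.He.f, (Cfsg.Spor.He.a * Cfsg.Spor.He.b) ^ 2, (Cfsg.Spor.He.b * Cfsg.Spor.He.c * Cfsg.Spor.He.d * Cfsg.Spor.He.e) ^ 7} : Set (FreeGroup Cfsg.Spor.He.Gen))).map (PresentedGroup.mk (Cfsg.Spor.coxRelators Cfsg.Spor.He.edges ∪ {r | r ∈ Cfsg.Spor.He.extra})))).index = 2058 ∧ ∃ q₁ q₂ q₃ q₄ : Cfsg.Spor.He ⧸ (((Subgroup.closure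 ({Cfsg.Spor.He.a, Cfsg.Spor.He.c, Cfsg.Spor.He.d, Cfsg.Spor.He.e, Cfsg.Spor.He.f, (Cfsg.Spor.He.a * Cfsg.Spor.He.b) ^ 2, (Cfsg.Spor.He.b * Cfsg.Spor.He.c * Cfsg.Spor.He.d * Cfsg.Spor.He.e) ^ 7} : Set (FreeGroup Cfsg.Spor.He.Gen))).map (PresentedGroup.mk (Cfsg.Spor.coxRelators Cfsg.Spor.He.edges ∪ {r | r ∈ Cfsg.Spor.He.extra})))), MulAction.orbit (((Subgroup.closure ({Cfsg.Spor.He.a, Cfsg.Spor.He.c, Cfsg.Spor.He.d, Cfsg.Spor.He.e, Cfsg.Spor.He.f, (Cfsg.Spor.He.a * Cfsg.Spor.He.b) ^ 2, (Cfsg.Spor.He.b * Cfsg.Spor.He.c * Cfsg.Spor.He.d * Cfsg.Spor.He.e) ^ 7} : Set (FreeGroup Cfsg.Spor.He.Gen))).map (PresentedGroup.mk (Cfsg.Spor.coxRelators Cfsg.Spor.He.edges ∪ {r | r ∈ Cfsg.Spor.He.extra})))) q₁ ≠ MulAction.orbit (((Subgroup.closure ({Cfsg.Spor.He.a, Cfsg.Spor.He.c, Cfsg.Spor.He.d, Cfsg.Spor.He.e, Cfsg.Spor.He.f,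 (Cfsg.Spor.He.a * Cfsg.Spor.He.b) ^ 2, (Cfsg.Spor.He.b * Cfsg.Spor.He.c * Cfsg.Spor.He.d * Cfsg.Spor.He.e) ^ 7} : Set (FreeGroup Cfsg.Spor.He.Gen))).map (PresentedGroup.mk (Cfsg.Spor.coxRelators Cfsg.Spor.He.edges ∪ {r | r ∈ Cfsg.Spor.He.extra})))) q₂ ∧ (MulAction.orbit (((Subgroup.closure ({Cfsg.Spor.He.a, Cfsg.Spor.He.c, Cfsg.Spor.He.d, Cfsg.Spor.He.e, Cfsg.Spor.He.f, (Cfsg.Spor.He.a * Cfsg.Spor.He.b) ^ 2, (Cfsg.Spor.He.b * Cfsg.Spor.He.c * Cfsg.Spor.He.d * Cfsg.Spor.He.e) ^ 7} : Set (FreeGroup Cfsg.Spor.He.Gen))).map (PresentedGroup.mk (Cfsg.Spor.coxRelators Cfsg.Spor.He.edges ∪ {r | r ∈ Cfsg.Spor.He.extra})))) q₁).ncard = 136 ∧ (MulAction.orbit (((Subgroup.closure ({Cfsg.Spor.He.a, Cfsg.Spor.He.c, Cfsg.Spor.He.d, Cfsg.Spor.He.e, Cfsg.Spor.He.f, (Cfsg.Spor.He.a * Cfsg.Spor.He.b) ^ 2, (Cfsg.Spor.He.b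 * Cfsg.Spor.He.c * Cfsg.Spor.He.d * Cfsg.Spor.He.e) ^ 7} : Set (FreeGroup Cfsg.Spor.He.Gen))).map (PresentedGroup.mk (Cfsg.Spor.coxRelators Cfsg.Spor.He.edges ∪ {r | r ∈ Cfsg.Spor.He.extra})))) q₂).ncard = 136 ∧ (MulAction.orbit (((Subgroup.closure ({Cfsg.Spor.He.a, Cfsg.Spor.He.c, Cfsg.Spor.He.d, Cfsg.Spor.He.e, Cfsg.Spor.He.f, (Cfsg.Spor.He.a * Cfsg.Spor.He.b) ^ 2, (Cfsg.Spor.He.b * Cfsg.Spor.He.c * Cfsg.Spor.He.d * Cfsg.Spor.He.e) ^ 7} : Set (FreeGroup Cfsg.Spor.He.Gen))).map (PresentedGroup.mk (Cfsg.Spor.coxRelators Cfsg.Spor.He.edges ∪ {r | r ∈ Cfsg.Spor.He.extra})))) q₃).ncard = 425 ∧ (MulAction.orbit (((Subgroup.closure ({Cfsg.Spor.He.a, Cfsg.Spor.He.c, Cfsg.Spor.He.d, Cfsg.Spor.He.e, Cfsg.Spor.He.f, (Cfsg.Spor.He.a * Cfsg.Spor.He.b) ^ 2, (Cfsg.Spor.He.b * Cfsg.Spor.He.c * Cfsg.Spor.He.d * Cfsg.Spor.He.e)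 ^ 7} : Set (FreeGroup Cfsg.Spor.He.Gen))).map (PresentedGroup.mk (Cfsg.Spor.coxRelators Cfsg.Spor.He.edges ∪ {r | r ∈ Cfsg.Spor.He.extra})))) q₄).ncard = 1360 := by
  obtain ⟨q1, h1, i1⟩ := Cfsg.Agent.Lib.Helper28.Prob.OK.suborbit Cfsg.Agent.Lib.Helper28.He2058.O
    Cfsg.Agent.Lib.Helper28.He2058.ok Cfsg.Agent.Lib.Helper28.He2058.O_ok Cfsg.Agent.Lib.Helper28.He2058.hS1 3 Cfsg.Agent.Lib.Helper28.He2058.root_3.1 Cfsg.Agent.Lib.Helper28.He2058.root_3.2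
  rw [Cfsg.Agent.Lib.Helper28.He2058.count_3] at h1
  obtain ⟨q2, h2, i2⟩ := Cfsg.Agent.Lib.Helper28.Prob.OK.suborbit Cfsg.Agent.Lib.Helper28.He2058.O
    Cfsg.Agent.Lib.Helper28.He2058.ok Cfsg.Agent.Lib.Helper28.He2058.O_ok Cfsg.Agent.Lib.Helper28.He2058.hS1 4 Cfsg.Agent.Lib.Helper28.He2058.root_4.1 Cfsg.Agent.Lib.Helper28.He2058.root_4.2
  rw [Cfsg.Agent.Lib.Helper28.He2058.count_4] at h2
  obtain ⟨q3, h3, _⟩ := Cfsg.Agent.Lib.Helper28.Prob.OK.suborbit Cfsg.Agent.Lib.Helper28.He2058.O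
    Cfsg.Agent.Lib.Helper28.He2058.ok Cfsg.Agent.Lib.Helper28.He2058.O_ok Cfsg.Agent.Lib.Helper28.He2058.hS1 2 Cfsg.Agent.Lib.Helper28.He2058.root_2.1 Cfsg.Agent.Lib.Helper28.He2058.root_2.2
  rw [Cfsg.Agent.Lib.Helper28.He2058.count_2] at h3
  obtain ⟨q4, h4, _⟩ := Cfsg.Agent.Lib.Helper28.Prob.OK.suborbit Cfsg.Agent.Lib.Helper28.He2058.O
    Cfsg.Agent.Lib.Helper28.He2058.ok Cfsg.Agent.Lib.Helper28.He2058.O_ok Cfsg.Agent.Lib.Helper28.He2058.hS1 1 Cfsg.Agent.Lib.Helper28.He2058.root_1.1 Cfsg.Agent.Lib.Helper28.He2058.root_1.2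
  rw [Cfsg.Agent.Lib.Helper28.He2058.count_1] at h4
  refine ⟨Cfsg.Agent.Lib.Helper28.He2058.index_eq, q1, q2, q3, q4, ?_, h1, h2, h3, h4⟩
  intro he
  have he' : MulAction.orbit (Cfsg.Agent.Lib.Helper28.Prob.HS Cfsg.Agent.Lib.Helper28.He2058.Q Cfsg.Agent.Lib.Helper28.He2058.S) q1 =
      MulAction.orbit (Cfsg.Agent.Lib.Helper28.Prob.HS Cfsg.Agent.Lib.Helper28.He2058.Q Cfsg.Agent.Lib.Helper28.He2058.S) q2 := he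
  rw [he', i2] at i1
  have hm : Cfsg.Agent.Lib.Helper28.nth Cfsg.Agent.Lib.Helper28.He2058.O.roots Cfsg.Agent.Lib.Helper28.He2058.Q.n 4 ∈
      {c | c < Cfsg.Agent.Lib.Helper28.He2058.Q.n ∧ Cfsg.Agent.Lib.Helper28.He2058.O.oid c = 4} := Cfsg.Agent.Lib.Helper28.He2058.root_4
  rw [i1] at hm
  have h34 := hm.2
  rw [Cfsg.Agent.Lib.Helper28.He2058.root_4.2] at h34
  exact absurd h34 (by decide)

end Cfsg.Agent.S1683
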