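import Cfsg.Statements.S1687
import Cfsg.Agent.Lib.Helper40.Fi.F22C3510
import Cfsg.Agent.Lib.Helper40.Fi.F22P3510
import Cfsg.Agent.Lib.Helper40.PresRank3

set_option autoImplicit false
open Cfsg

namespace Cfsg.Agent.S1687

open Cfsg.Agent.Lib.Helper40.PE in
theorem H_eq : ((Subgroup.closure ({Cfsg.Spor.Fi22.a, Cfsg.Spor.Fi22.c, Cfsg.Spor.Fi22.d, Cfsg.Spor.Fi22.e, Cfsg.Spor.Fi22.f, Cfsg.Spor.Fi22.g, Cfsg.Spor.Fi22.h, Cfsg.Spor.Fi22.i, (Cfsg.Spor.Fi22.a * Cfsg.Spor.Fi22.b * Cfsg.Spor.Fi22.c * Cfsg.Spor.Fi22.d * Cfsg.Spor.Fi22.e * Cfsg.Spor.Fi22.h) ^ 5} : Set (FreeGroup Cfsg.Spor.Fi22.Gen))).map (PresentedGroup.mk (Cfsg.Spor.coxRelators Cfsg.Spor.Fi22.edges ∪ {r | r ∈ Cfsg.Spor.Fi22.extra}))) = Hs F22.s F22P3510.Sw := by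
  rw [MonoidHom.map_closure]
  apply le_antisymm
  · rw [Subgroup.closure_le]
    rintro _ ⟨x, hx, rfl⟩
    simp only [Set.mem_insert_iff, Set.mem_singleton_iff] at hx
    rcases hx with rfl | rfl | rfl | rfl | rfl | rfl | rfl | rfl | rfl
    · exact Subgroup.subset_closure ⟨[8], by simp [F22P3510.Sw], by simp; rfl⟩
    · exact Subgroup.subset_closure ⟨[0], by simp [F22P3510.Sw], by simp; rfl⟩
    · exact Subgroup.subset_closure ⟨[1], by simp [F22P3510.Sw], by simp; rfl⟩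
    · exact Subgroup.subset_closure ⟨[2], by simp [F22P3510.Sw], by simp; rfl⟩
    · exact Subgroup.subset_closure ⟨[4], by simp [F22P3510.Sw], by simp; rfl⟩
    · exact Subgroup.subset_closure ⟨[7], by simp [F22P3510.Sw], by simp; rfl⟩
    · exact Subgroup.subset_closure ⟨[3], by simp [F22P3510.Sw], by simp; rfl⟩
    · exact Subgroup.subset_closure ⟨[6], by simp [F22P3510.Sw], by simp; rfl⟩
    · refine Subgroup.subset_closure ⟨(List.replicate 5 [8, 5, 0, 1, 2, 3]).flatten, by simp [F22P3510.Sw], ?_⟩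
      rw [wp_flatten_replicate]
      simp only [wp_cons, wp_nil, mul_one, map_pow, map_mul, mul_assoc]
      rfl
  · unfold Hs
    rw [Subgroup.closure_le]
    rintro _ ⟨w, hw, rfl⟩
    simp only [F22P3510.Sw, List.mem_cons, List.not_mem_nil, or_false] at hw
    rcases hw with rfl | rfl | rfl | rfl | rfl | rfl | rfl | rfl | rfl
    · exact Subgroup.subset_closure ⟨Cfsg.Spor.Fi22.a, by simp, by simp; rfl⟩
    · exact Subgroup.subset_closure ⟨Cfsg.Spor.Fi22.c, by simp, by simp; rfl⟩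
    · exact Subgroup.subset_closure ⟨Cfsg.Spor.Fi22.d, by simp, by simp; rfl⟩
    · exact Subgroup.subset_closure ⟨Cfsg.Spor.Fi22.e, by simp, by simp; rfl⟩
    · exact Subgroup.subset_closure ⟨Cfsg.Spor.Fi22.f, by simp, by simp; rfl⟩
    · exact Subgroup.subset_closure ⟨Cfsg.Spor.Fi22.g, by simp, by simp; rfl⟩
    · exact Subgroup.subset_closure ⟨Cfsg.Spor.Fi22.h, by simp, by simp; rfl⟩
    · exact Subgroup.subset_closure ⟨Cfsg.Spor.Fi22.i, by simp, by simp; rfl⟩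
    · refine Subgroup.subset_closure ⟨(Cfsg.Spor.Fi22.a * Cfsg.Spor.Fi22.b * Cfsg.Spor.Fi22.c * Cfsg.Spor.Fi22.d * Cfsg.Spor.Fi22.e * Cfsg.Spor.Fi22.h) ^ 5, by simp, ?_⟩
      have e : ([8, 5, 0, 1, 2, 3, 8, 5, 0, 1, 2, 3, 8, 5, 0, 1, 2, 3, 8, 5, 0, 1, 2, 3, 8, 5, 0, 1, 2, 3] : List ℕ) = (List.replicate 5 [8, 5, 0, 1, 2, 3]).flatten := by decide
      rw [e, wp_flatten_replicate]
      simp only [wp_cons, wp_nil, mul_one, map_pow, map_mul, mul_assoc]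
      rfl

open Cfsg.Agent.Lib.Helper40.PE in
theorem good : F22P3510.P.Good F22.B :=
  ⟨fun x hx => F22P3510.pt x (Nat.zero_le _) hx, F22.B_letters, F22.B_kk⟩

open Cfsg.Agent.Lib.Helper40.PE in
theorem main : (Hs F22.s F22P3510.Sw).index = 3510 ∧ ∃ q1 q2 : Cfsg.Spor.Fi22 ⧸ Hs F22.s F22P3510.Sw,
      (MulAction.orbit (Hs F22.s F22P3510.Sw) q1).ncard = 2816 ∧
      (MulAction.orbit (Hs F22.s F22P3510.Sw) q2).ncard = 693 := by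
  obtain ⟨ρ, hρ⟩ := F22.exists_rho (p := F22P3510.P) rfl good
  have hcov := cover' (c := F22C3510.cert) (s := F22.s) (H := Hs F22.s F22P3510.Sw) (B := F22C3510.B)
    (Sw := F22C3510.Sw) rfl rfl (by decide) (by decide) (by decide) F22C3510.chk F22.s_inv F22.s_B
    (fun w hw => wp_mem_Hs _ hw)
  have hub := card_quot_le_of_cover (H := Hs F22.s F22P3510.Sw) (N := 3510) _
    (fun g => hcov g (by
      have : pre F22.s F22C3510.cert.A = ⊤ := F22.pre_top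
      rw [this]; trivial))
  exact rank3 (n1 := 2817) good hρ (by decide +kernel) hub (by decide) (by decide) F22P3510.orb0 F22P3510.orb1
    F22P3510.orb2 [5] [5, 0, 8, 5] (by decide) (by decide) F22P3510.root1 F22P3510.root2

/-- In the presented Fischer group Fi₂₂, let H be the subgroup generated by the images of a, c, d, e, f, g, h, i and (abcdeh)^5. Then H has index 3510, H has orbits of sizes 693 and 2816 on the cosets of H other than H itself. -/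
theorem result : (((Subgroup.closure ({Cfsg.Spor.Fi22.a, Cfsg.Spor.Fi22.c, Cfsg.Spor.Fi22.d, Cfsg.Spor.Fi22.e, Cfsg.Spor.Fi22.f, Cfsg.Spor.Fi22.g, Cfsg.Spor.Fi22.h, Cfsg.Spor.Fi22.i, (Cfsg.Spor.Fi22.a * Cfsg.Spor.Fi22.b * Cfsg.Spor.Fi22.c * Cfsg.Spor.Fi22.d * Cfsg.Spor.Fi22.e * Cfsg.Spor.Fi22.h) ^ 5} : Set (FreeGroup Cfsg.Spor.Fi22.Gen))).map (PresentedGroup.mk (Cfsg.Spor.coxRelators Cfsg.Spor.Fi22.edges ∪ {r | r ∈ Cfsg.Spor.Fi22.extra})))).index = 3510 ∧ ∃ q₁ q₂ : Cfsg.Spor.Fi22 ⧸ (((Subgroup.closure ({Cfsg.Spor.Fi22.a, Cfsg.Spor.Fi22.c, Cfsg.Spor.Fi22.d, Cfsg.Spor.Fi22.e, Cfsg.Spor.Fi22.f, Cfsg.Spor.Fi22.g, Cfsg.Spor.Fi22.h, Cfsg.Spor.Fi22.i, (Cfsg.Spor.Fi22.a * Cfsg.Spor.Fi22.b * Cfsg.Spor.Fi22.c * Cfsg.Spor.Fi22.d * Cfsg.Spor.Fi22.e * Cfsg.Spor.Fi22.h) ^ 5} : Set (FreeGroup Cfsg.Spor.Fi22.Gen))).map (PresentedGroup.mk (Cfsg.Spor.coxRelators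 Cfsg.Spor.Fi22.edges ∪ {r | r ∈ Cfsg.Spor.Fi22.extra})))), (MulAction.orbit (((Subgroup.closure ({Cfsg.Spor.Fi22.a, Cfsg.Spor.Fi22.c, Cfsg.Spor.Fi22.d, Cfsg.Spor.Fi22.e, Cfsg.Spor.Fi22.f, Cfsg.Spor.Fi22.g, Cfsg.Spor.Fi22.h, Cfsg.Spor.Fi22.i, (Cfsg.Spor.Fi22.a * Cfsg.Spor.Fi22.b * Cfsg.Spor.Fi22.c * Cfsg.Spor.Fi22.d * Cfsg.Spor.Fi22.e * Cfsg.Spor.Fi22.h) ^ 5} : Set (FreeGroup Cfsg.Spor.Fi22.Gen))).map (PresentedGroup.mk (Cfsg.Spor.coxRelators Cfsg.Spor.Fi22.edges ∪ {r | r ∈ Cfsg.Spor.Fi22.extra})))) q₁).ncard = 693 ∧ (MulAction.orbit (((Subgroup.closure ({Cfsg.Spor.Fi22.a, Cfsg.Spor.Fi22.c, Cfsg.Spor.Fi22.d, Cfsg.Spor.Fi22.e, Cfsg.Spor.Fi22.f, Cfsg.Spor.Fi22.g, Cfsg.Spor.Fi22.h, Cfsg.Spor.Fi22.i, (Cfsg.Spor.Fi22.a * Cfsg.Spor.Fi22.b * Cfsg.Spor.Fi22.c * Cfsg.Spor.Fi22.d * Cfsg.Spor.Fi22.e * Cfsg.Spor.Fi22.h) ^ 5} : Set (FreeGroup Cfsg.Spor.Fi22.Gen))).map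 (PresentedGroup.mk (Cfsg.Spor.coxRelators Cfsg.Spor.Fi22.edges ∪ {r | r ∈ Cfsg.Spor.Fi22.extra})))) q₂).ncard = 2816 := by
  rw [H_eq]
  obtain ⟨h1, q1, q2, h2, h3⟩ := main
  exact ⟨h1, q2, q1, h3, h2⟩

end Cfsg.Agent.S1687
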