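import Cfsg.Statements.S1699
import Cfsg.Agent.Lib.Helper28.V2.ON122760Simple

set_option autoImplicit false
open Cfsg

namespace Cfsg.Agent.S1699

/-- The presented O'Nan group is simple of the expected order (that is, it is a simple group of the order of the O'Nan group). -/
theorem result : Cfsg.IsON Cfsg.Spor.ON := by
  exact ⟨Cfsg.Agent.Lib.Helper28.V2.ON122760.main.1, Cfsg.Agent.Lib.Helper28.V2.ON122760.main.2.1⟩

end Cfsg.Agent.S1699
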