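import Cfsg.Statements.S1754
import Cfsg.Agent.Lib.Helper29.Basic

set_option autoImplicit false
open Cfsg

namespace Cfsg.Agent.S1754

/-- Let A be a standard subgroup of the finite group G (A quasisimple, C_G(A) tightly embedded of even order, A commuting elementwise with no other conjugate of itself, and N_G(A) = N_G(C_G(A))), and let t be an involution of G centralizing A. Then the centralizer of t lies in the normalizer of A; in particular A, viewed inside C_G(t), is a component of C_G(t). -/
theorem result {G : Type*} [Group G] [Finite G]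
    (A : Subgroup G) (hA : Cfsg.IsStandardSubgroup A) (t : G) (ht : orderOf t = 2) (htA : t ∈ Subgroup.centralizer (A : Set G)) :
    Subgroup.centralizer ({t} : Set G) ≤ Subgroup.normalizer (A : Set G) ∧
      Cfsg.IsComponent (A.subgroupOf (Subgroup.centralizer ({t} : Set G))) := by
  obtain ⟨hqs, ⟨_, hte⟩, _, hNN⟩ := hA
  have hle : Subgroup.centralizer ({t} : Set G) ≤ Subgroup.normalizer (A : Set G) := by
    intro g hg
    rw [hNN]
    by_contra hgn
    have hodd := hte g hgn
    have hgt : g * t = t * g := by
      have := Subgroup.mem_centralizer_iff.mp hg t (Set.mem_singleton t)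
      exact this.symm
    have htmem : t ∈ Subgroup.centralizer (A : Set G) ⊓
        (Subgroup.centralizer (A : Set G)).map (MulAut.conj g).toMonoidHom := by
      refine ⟨htA, t, htA, ?_⟩
      change g * t * g⁻¹ = t
      rw [hgt, mul_inv_cancel_right]
    have hdvd : 2 ∣ Nat.card ↥(Subgroup.centralizer (A : Set G) ⊓
        (Subgroup.centralizer (A : Set G)).map (MulAut.conj g).toMonoidHom) := by
      have h1 := orderOf_dvd_natCard (⟨t, htmem⟩ : ↥(Subgroup.centralizer (A : Set G) ⊓
        (Subgroup.centralizer (A : Set G)).map (MulAut.conj g).toMonoidHom))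
      rwa [Subgroup.orderOf_mk, ht] at h1
    exact (Nat.not_even_iff_odd.mpr hodd) (even_iff_two_dvd.mpr hdvd)
  refine ⟨hle, ?_, ?_⟩
  · have hAle : A ≤ Subgroup.centralizer ({t} : Set G) := by
      intro a ha
      rw [Subgroup.mem_centralizer_iff]
      intro x hx
      rw [Set.mem_singleton_iff] at hx
      subst hx
      exact (Subgroup.mem_centralizer_iff.mp htA a ha).symm
    exact ((Subgroup.normal_subgroupOf_iff_le_normalizer hAle).mpr hle).isSubnormal
  · have hAle : A ≤ Subgroup.centralizer ({t} : Set G) := by
      intro a ha
      rw [Subgroup.mem_centralizer_iff]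
      intro x hx
      rw [Set.mem_singleton_iff] at hx
      subst hx
      exact (Subgroup.mem_centralizer_iff.mp htA a ha).symm
    exact Cfsg.Agent.Lib.Helper29.isQuasisimple_of_mulEquiv
      (Subgroup.subgroupOfEquivOfLe hAle).symm hqs

end Cfsg.Agent.S1754
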