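import Cfsg.Statements.S1755
import Cfsg.Agent.Lib.Helper29.FStar

set_option autoImplicit false
open Cfsg Cfsg.Agent.Lib.Helper29

namespace Cfsg.Agent.S1755

theorem aux {G : Type*} [Group G] [Finite G] (z : G) (hz : orderOf z = 2) (C : Subgroup G)
    (hC : C = Subgroup.centralizer ({z} : Set G)) (Q : Subgroup C)
    (hQdef : Q = Cfsg.generalizedFittingSubgroup ↥C) (hQ : Cfsg.IsOfSymplecticType ↥Q)
    (B : Subgroup ↥Q) (hBc : B.Characteristic) (hBa : IsMulCommutative ↥B) (g : G) :
    ((B.map Q.subtype).map C.subtype).map (MulAut.conj g).toMonoidHom =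
        (B.map Q.subtype).map C.subtype ∨
      ((B.map Q.subtype).map C.subtype).map (MulAut.conj g).toMonoidHom ⊓
        (B.map Q.subtype).map C.subtype = ⊥ := by
  classical
  set B' := (B.map Q.subtype).map C.subtype with hB'
  have hQn : Q.Normal := hQdef ▸ generalizedFittingSubgroup_normal C
  have hzC : z ∈ C := by simp [hC, Subgroup.mem_centralizer_iff]
  have hzCcenter : (⟨z, hzC⟩ : C) ∈ Subgroup.center C := by
    rw [Subgroup.mem_center_iff]
    intro c
    apply Subtype.ext
    have hc : (c : G) ∈ Subgroup.centralizer ({z} : Set G) := by rw [← hC]; exact c.2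
    have := Subgroup.mem_centralizer_iff.mp hc z rfl
    exact this.symm
  have hzQ : (⟨z, hzC⟩ : C) ∈ Q :=
    hQdef ▸ fittingSubgroup_le_generalizedFittingSubgroup _ (center_le_fittingSubgroup _ hzCcenter)
  have hzQord : orderOf (⟨⟨z, hzC⟩, hzQ⟩ : Q) = 2 := by
    rw [Subgroup.orderOf_mk, Subgroup.orderOf_mk, hz]
  have hzQcenter : (⟨⟨z, hzC⟩, hzQ⟩ : Q) ∈ Subgroup.center Q := by
    rw [Subgroup.mem_center_iff]
    intro q
    apply Subtype.ext
    exact Subgroup.mem_center_iff.mp hzCcenter q.1
  have hcycB : IsCyclic B := hQ.2 B hBc hBa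
  have hcycZ : IsCyclic (Subgroup.center Q) := hQ.2 _ inferInstance inferInstance
  have huniq : ∀ b : Q, b ∈ B → orderOf b = 2 → b = ⟨⟨z, hzC⟩, hzQ⟩ := by
    intro b hb hbo
    have hbc : b ∈ Subgroup.center Q := by
      rw [Subgroup.mem_center_iff]
      intro q
      have hBn : B.Normal := inferInstance
      have h1 : q * b * q⁻¹ ∈ B := hBn.conj_mem b hb q
      have h2 : orderOf (q * b * q⁻¹) = 2 := by
        rw [← hbo]
        exact orderOf_injective (MulAut.conj q).toMonoidHom (MulAut.conj q).injective b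
      have h3 : (⟨q * b * q⁻¹, h1⟩ : B) = ⟨b, hb⟩ :=
        involution_unique_of_isCyclic (by rw [Subgroup.orderOf_mk]; exact h2)
          (by rw [Subgroup.orderOf_mk]; exact hbo)
      have h4 : q * b * q⁻¹ = b := congrArg Subtype.val h3
      calc q * b = q * b * q⁻¹ * q := by group
        _ = b * q := by rw [h4]
    have h5 : (⟨b, hbc⟩ : Subgroup.center Q) = ⟨_, hzQcenter⟩ :=
      involution_unique_of_isCyclic (by rw [Subgroup.orderOf_mk]; exact hbo)
          (by rw [Subgroup.orderOf_mk]; exact hzQord)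
    exact congrArg Subtype.val h5
  have huniq' : ∀ u ∈ B', orderOf u = 2 → u = z := by
    rintro u ⟨c, ⟨b, hb, rfl⟩, rfl⟩ hu
    have hbo : orderOf b = 2 := by
      rw [← hu]
      change orderOf b = orderOf ((b : C) : G)
      rw [Subgroup.orderOf_coe, Subgroup.orderOf_coe]
    rw [huniq b hb hbo]
    rfl
  have hBQn : (B.map Q.subtype).Normal := ConjAct.normal_of_characteristic_of_normal
  have hnorm : ∀ c ∈ C, B'.map (MulAut.conj c).toMonoidHom = B' := by
    intro c hc
    ext x
    constructor
    · rintro ⟨y, ⟨y', hy', rfl⟩, rfl⟩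
      exact ⟨⟨c, hc⟩ * y' * ⟨c, hc⟩⁻¹, hBQn.conj_mem y' hy' ⟨c, hc⟩, rfl⟩
    · rintro ⟨y', hy', rfl⟩
      refine ⟨c⁻¹ * y' * c, ⟨⟨c, hc⟩⁻¹ * y' * ⟨c, hc⟩, ?_, rfl⟩, ?_⟩
      · have := hBQn.conj_mem y' hy' (⟨c, hc⟩⁻¹)
        simpa using this
      · change c * (c⁻¹ * y' * c) * c⁻¹ = y'
        group
  by_cases hbot : B'.map (MulAut.conj g).toMonoidHom ⊓ B' = ⊥
  · right; exact hbot
  · left
    have hpB' : IsPGroup 2 B' := ((hQ.1.to_subgroup B).map Q.subtype).map C.subtype
    have hp : IsPGroup 2 ↥(B'.map (MulAut.conj g).toMonoidHom ⊓ B') := hpB'.to_le inf_le_right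
    have hdvd : 2 ∣ Nat.card ↥(B'.map (MulAut.conj g).toMonoidHom ⊓ B') := by
      rcases hp.card_eq_or_dvd with h | h
      · exact absurd (Subgroup.card_eq_one.mp h) hbot
      · exact h
    have : Fact (Nat.Prime 2) := ⟨Nat.prime_two⟩
    obtain ⟨u, hu⟩ := exists_prime_orderOf_dvd_card' 2 hdvd
    have hu' : orderOf (u : G) = 2 := by rw [Subgroup.orderOf_coe]; exact hu
    have h1 : (u : G) = z := huniq' _ u.2.2 hu'
    obtain ⟨v, hv, hvu⟩ := u.2.1
    have hvo : orderOf v = 2 := by
      rw [← hu', ← hvu]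
      exact (orderOf_injective (MulAut.conj g).toMonoidHom (MulAut.conj g).injective v).symm
    have h2 : v = z := huniq' v hv hvo
    have h3 : g * z * g⁻¹ = z := by
      rw [h2, h1] at hvu
      exact hvu
    apply hnorm
    rw [hC, Subgroup.mem_centralizer_iff]
    intro x hx
    rw [Set.mem_singleton_iff] at hx
    subst hx
    calc x * g = g * x * g⁻¹ * g := by rw [h3]
      _ = g * x := by group


/-- Let G be a finite group and let z be an involution of G such that Q, the generalized Fitting subgroup of the centralizer C of z, is a 2-group of symplectic type (every characteristic abelian subgroup of Q is cyclic). Let B be a characteristic abelian subgroup of Q, viewed as a subgroup of G. Then for every g in G, the conjugate of B by g either equals B or meets B trivially. -/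
theorem result {G : Type*} [Group G] [Finite G] (z : G) (hz : orderOf z = 2) (hQ : Cfsg.IsOfSymplecticType ↥(Cfsg.generalizedFittingSubgroup ↥(Subgroup.centralizer ({z} : Set G))))
    (B : Subgroup ↥(Cfsg.generalizedFittingSubgroup ↥(Subgroup.centralizer ({z} : Set G)))) (hBc : B.Characteristic) (hBa : IsMulCommutative ↥B) (g : G) :
    ((B.map (Cfsg.generalizedFittingSubgroup ↥(Subgroup.centralizer ({z} : Set G))).subtype).map (Subgroup.centralizer ({z} : Set G)).subtype).map (MulAut.conj g).toMonoidHom =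
        (B.map (Cfsg.generalizedFittingSubgroup ↥(Subgroup.centralizer ({z} : Set G))).subtype).map (Subgroup.centralizer ({z} : Set G)).subtype ∨
      ((B.map (Cfsg.generalizedFittingSubgroup ↥(Subgroup.centralizer ({z} : Set G))).subtype).map (Subgroup.centralizer ({z} : Set G)).subtype).map (MulAut.conj g).toMonoidHom ⊓
        (B.map (Cfsg.generalizedFittingSubgroup ↥(Subgroup.centralizer ({z} : Set G))).subtype).map (Subgroup.centralizer ({z} : Set G)).subtype = ⊥ := by
  exact aux z hz _ rfl _ rfl hQ B hBc hBa g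

end Cfsg.Agent.S1755
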