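import Cfsg.Statements.S1756
import Cfsg.Agent.Lib.Helper29.Extraspecial

set_option autoImplicit false
open Cfsg Cfsg.Agent.Lib.Helper29

namespace Cfsg.Agent.S1756

/-- Let Q be an extraspecial 2-subgroup of the finite group G (special with centre of order 2) and t an involution of G normalizing Q such that the centralizer of t in Q has index at most 2 in Q. Then t lies in the product of Q with the centralizer of Q. -/
theorem result {G : Type*} [Group G] [Finite G] (Q : Subgroup G)
    (hQ : Cfsg.IsExtraspecial 2 ↥Q) (t : G) (ht : orderOf t = 2) (htN : t ∈ Subgroup.normalizer (Q : Set G))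
    (hi : (Subgroup.centralizer ({t} : Set G) ⊓ Q).relIndex Q ≤ 2) :
    t ∈ Q ⊔ Subgroup.centralizer (Q : Set G) := by
  classical
  have htt : t * t = 1 := by
    have := pow_orderOf_eq_one t
    rwa [ht, pow_two] at this
  have htinv : t⁻¹ = t := inv_eq_of_mul_eq_one_left htt
  let α : ↥Q →* ↥Q :=
    { toFun := fun y => ⟨t * y * t⁻¹, (Subgroup.mem_normalizer_iff.mp htN y).mp y.2⟩
      map_one' := by
        apply Subtype.ext
        simp
      map_mul' := by
        intro y y'
        apply Subtype.ext
        simp }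
  have hαval : ∀ y : ↥Q, ((α y : ↥Q) : G) = t * y * t⁻¹ := fun y => rfl
  have hα : ∀ y, α (α y) = y := by
    intro y
    apply Subtype.ext
    rw [hαval, hαval, htinv]
    calc t * (t * ↑y * t) * t = (t * t) * y * (t * t) := by group
      _ = y := by rw [htt]; simp
  have hD : ∀ y : ↥Q, y ∈ (Subgroup.centralizer ({t} : Set G) ⊓ Q).subgroupOf Q ↔ α y = y := by
    intro y
    rw [Subgroup.mem_subgroupOf, Subgroup.mem_inf, Subgroup.mem_centralizer_iff]
    constructor
    · rintro ⟨h, _⟩
      apply Subtype.ext
      rw [hαval, h t rfl]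
      group
    · intro h
      refine ⟨?_, y.2⟩
      intro x hx
      rw [Set.mem_singleton_iff] at hx
      subst hx
      have h' := congrArg Subtype.val h
      rw [hαval] at h'
      calc x * ↑y = x * ↑y * x⁻¹ * x := by group
        _ = ↑y * x := by rw [h']
  obtain ⟨u, hu⟩ := IsExtraspecial.inner_of_fix_index_le_two hQ α hα _ hD hi
  have hmem : (u : G)⁻¹ * t ∈ Subgroup.centralizer (Q : Set G) := by
    rw [Subgroup.mem_centralizer_iff]
    intro y hy
    have h := congrArg Subtype.val (hu ⟨y, hy⟩)
    rw [hαval] at h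
    simp only [Subgroup.coe_mul, Subgroup.coe_inv] at h
    -- t y t⁻¹ = u y u⁻¹
    calc y * ((u : G)⁻¹ * t) = (u : G)⁻¹ * ((u : G) * y * (u : G)⁻¹) * t := by group
      _ = (u : G)⁻¹ * (t * y * t⁻¹) * t := by rw [h]
      _ = (u : G)⁻¹ * t * y := by group
  have : t = (u : G) * ((u : G)⁻¹ * t) := by group
  rw [this]
  exact Subgroup.mul_mem_sup u.2 hmem

end Cfsg.Agent.S1756
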