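import Cfsg.Statements.S1757
-- import your own Cfsg.Agent.* helpers here

set_option autoImplicit false
open Cfsg

namespace Cfsg.Agent.S1757

/-- Let p be a prime and A, B p-subgroups of the finite group G, each of which meets every conjugate of itself other than itself trivially. Suppose the order of A is at most that of B, A and B intersect trivially, and B normalizes A. Then A and B commute elementwise. -/
theorem result {G : Type*} [Group G] [Finite G] (p : ℕ) [Fact p.Prime] (A B : Subgroup G)
    (hA : IsPGroup p ↥A) (hB : IsPGroup p ↥B)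
    (hAti : ∀ g : G, A.map (MulAut.conj g).toMonoidHom = A ∨ A.map (MulAut.conj g).toMonoidHom ⊓ A = ⊥)
    (hBti : ∀ g : G, B.map (MulAut.conj g).toMonoidHom = B ∨ B.map (MulAut.conj g).toMonoidHom ⊓ B = ⊥)
    (hle : Nat.card ↥A ≤ Nat.card ↥B) (hAB : A ⊓ B = ⊥) (hN : B ≤ Subgroup.normalizer (A : Set G)) : ⁅A, B⁆ = ⊥ := by
  classical
  have hNA : ∀ b ∈ B, ∀ x ∈ A, b * x * b⁻¹ ∈ A := Subgroup.le_normalizer_iff.mp hN
  -- every element of `A` normalizes `B`
  have hnorm : ∀ a ∈ A, B.map (MulAut.conj a).toMonoidHom = B := by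
    intro a ha
    rcases hBti a with h | h
    · exact h
    · -- the map B × B → A × B
      let f : B × B → A × B := fun x =>
        (⟨(x.1 : G) * (a * ((x.2 : G) * a⁻¹ * (x.2 : G)⁻¹)) * (x.1 : G)⁻¹,
          hNA _ x.1.2 _ (A.mul_mem ha (hNA _ x.2.2 _ (A.inv_mem ha)))⟩, x.1 * x.2)
      have hprod : ∀ x : B × B, (((f x).1 : G) * ((f x).2 : G)) = x.1 * a * x.2 * a⁻¹ := by
        intro x
        simp only [f, Subgroup.coe_mul]
        group
      have hinj : Function.Injective f := by
        intro x y hxy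
        have h1 : (x.1 : G) * a * x.2 * a⁻¹ = y.1 * a * y.2 * a⁻¹ := by
          rw [← hprod, ← hprod, hxy]
        have h2 : ((y.1 : G))⁻¹ * x.1 = a * (y.2 * (x.2 : G)⁻¹) * a⁻¹ := by
          have : (x.1 : G) = y.1 * a * y.2 * a⁻¹ * (a * (x.2 : G)⁻¹ * a⁻¹) := by
            rw [← h1]; group
          rw [this]; group
        have h3 : ((y.1 : G))⁻¹ * x.1 ∈ B.map (MulAut.conj a).toMonoidHom ⊓ B := by
          refine ⟨?_, B.mul_mem (B.inv_mem y.1.2) x.1.2⟩
          rw [h2]
          exact ⟨y.2 * (x.2 : G)⁻¹, B.mul_mem y.2.2 (B.inv_mem x.2.2), rfl⟩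
        rw [h, Subgroup.mem_bot] at h3
        have h4 : (x.1 : G) = y.1 := by
          have := congrArg (fun t => (y.1 : G) * t) h3
          simpa using this
        have h5 : (x.2 : G) = y.2 := by
          rw [h4] at h1
          have := mul_right_cancel h1
          exact mul_left_cancel this
        exact Prod.ext (Subtype.ext h4) (Subtype.ext h5)
      have hcard : Nat.card (B × B) = Nat.card (A × B) := by
        apply le_antisymm (Nat.card_le_card_of_injective f hinj)
        rw [Nat.card_prod, Nat.card_prod]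
        exact Nat.mul_le_mul_right _ hle
      have hsurj : Function.Surjective f :=
        (Function.Injective.bijective_of_nat_card_le hinj hcard.ge).2
      obtain ⟨x, hx⟩ := hsurj (⟨a⁻¹, A.inv_mem ha⟩, 1)
      have h6 := hprod x
      rw [hx] at h6
      simp only [Subgroup.coe_one, mul_one] at h6
      have h7 : a = (x.1 : G)⁻¹ * (x.2 : G)⁻¹ := by
        have h8 : (x.1 : G) * a * x.2 = 1 := by
          have := congrArg (fun t => t * a) h6
          simpa using this.symm
        have : a = (x.1 : G)⁻¹ * ((x.1 : G) * a * x.2) * (x.2 : G)⁻¹ := by group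
        rw [this, h8]; group
      have h9 : a ∈ A ⊓ B := ⟨ha, h7 ▸ B.mul_mem (B.inv_mem x.1.2) (B.inv_mem x.2.2)⟩
      rw [hAB, Subgroup.mem_bot] at h9
      subst h9
      ext y
      simp
  rw [eq_bot_iff, ← hAB]
  apply le_inf
  · rw [Subgroup.commutator_le]
    intro a ha b hb
    have : a * b * a⁻¹ * b⁻¹ = a * (b * a⁻¹ * b⁻¹) := by group
    rw [commutatorElement_def, this]
    exact A.mul_mem ha (hNA b hb _ (A.inv_mem ha))
  · rw [Subgroup.commutator_le]
    intro a ha b hb
    have h1 : a * b * a⁻¹ ∈ B := by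
      rw [← hnorm a ha]
      exact ⟨b, hb, rfl⟩
    rw [commutatorElement_def]
    exact B.mul_mem h1 (B.inv_mem hb)

end Cfsg.Agent.S1757
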