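import Cfsg.Statements.S1780

set_option autoImplicit false
open Cfsg

namespace Cfsg.Agent.S1780

/-- An automorphism of 2-power order of a finite 2-group fixes a non-identity element of every
nontrivial invariant subgroup. -/
theorem exists_fixed {A : Type*} [Group A] [Finite A] (hA : IsPGroup 2 A) (t : MulAut A)
    (k : ℕ) (ht : t ^ 2 ^ k = 1) (D : Subgroup A) (hD : ∀ x, t x ∈ D ↔ x ∈ D) (hne : D ≠ ⊥) :
    ∃ c ∈ D, c ≠ 1 ∧ t c = c := by
  classical
  haveI : Fact (Nat.Prime 2) := ⟨Nat.prime_two⟩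
  haveI : Fintype ↥D := Fintype.ofFinite _
  let σ : Equiv.Perm ↥D := Equiv.Perm.subtypePerm (t.toEquiv) hD
  have hpow : ∀ n : ℕ, ∀ x : ↥D, ((σ ^ n) x : A) = (t ^ n) x := by
    intro n
    induction n with
    | zero => intro x; simp
    | succ n ih =>
      intro x
      rw [pow_succ, pow_succ, Equiv.Perm.mul_apply, ih, MulAut.mul_apply]
      rfl
  have hσ : σ ^ 2 ^ k = 1 := by
    ext x
    rw [hpow, ht]
    simp
  have hcard : 2 ∣ Fintype.card ↥D := by
    have hDp : IsPGroup 2 ↥D := hA.to_subgroup D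
    obtain ⟨n, hn⟩ := IsPGroup.iff_card.mp hDp
    rw [← Nat.card_eq_fintype_card, hn]
    have : n ≠ 0 := by
      rintro rfl
      apply hne
      rw [pow_zero] at hn
      exact Subgroup.card_eq_one.mp hn
    exact dvd_pow_self 2 this
  have h1 : σ 1 = 1 := by
    apply Subtype.ext
    change t 1 = 1
    simp
  obtain ⟨b, hb1, hb2⟩ := Equiv.Perm.exists_fixed_point_of_prime' hcard hσ h1
  refine ⟨b, b.2, ?_, ?_⟩
  · intro h
    exact hb2 (Subtype.ext h)
  · exact congrArg Subtype.val hb1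

/-- Let A be a finite abelian 2-group and t an automorphism of A whose order is a power of 2. If every element of A fixed by t² is fixed by t, then t fixes every element of A. -/
theorem result {A : Type*} [CommGroup A] [Finite A]
    (hA : IsPGroup 2 A) (t : MulAut A) (ht : ∃ k : ℕ, orderOf t = 2 ^ k) (hC : ∀ a : A, t (t a) = a → t a = a) :
    ∀ a : A, t a = a := by
  obtain ⟨k, hk⟩ := ht
  have htk : t ^ 2 ^ k = 1 := by rw [← hk]; exact pow_orderOf_eq_one t
  by_contra hcon
  push_neg at hcon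
  obtain ⟨a₀, ha₀⟩ := hcon
  -- the homomorphism δ a = t a * a⁻¹
  let δ : A →* A :=
    { toFun := fun a => t a * a⁻¹
      map_one' := by simp
      map_mul' := by
        intro a b
        simp only [map_mul, mul_inv]
        exact mul_mul_mul_comm _ _ _ _ }
  have hδ : ∀ a, δ a = t a * a⁻¹ := fun _ => rfl
  have hD : ∀ x, t x ∈ δ.range ↔ x ∈ δ.range := by
    intro x
    constructor
    · rintro ⟨a, ha⟩
      refine ⟨t⁻¹ a, ?_⟩
      apply t.injective
      rw [← ha, hδ, hδ, map_mul, map_inv]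
      simp
    · rintro ⟨a, rfl⟩
      exact ⟨t a, by rw [hδ, hδ, map_mul, map_inv]⟩
  have hne : δ.range ≠ ⊥ := by
    intro h
    have : δ a₀ ∈ δ.range := ⟨a₀, rfl⟩
    rw [h, Subgroup.mem_bot, hδ, mul_inv_eq_one] at this
    exact ha₀ this
  obtain ⟨c, ⟨a, rfl⟩, hc1, hc⟩ := exists_fixed hA t k htk δ.range hD hne
  -- t a = a * c with c fixed, c ≠ 1
  set c := δ a with hcdef
  have hta : t a = a * c := by rw [hcdef, hδ]; simp [mul_comm]
  have hpow : ∀ n : ℕ, t (a ^ n) = a ^ n * c ^ n := by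
    intro n
    rw [map_pow, hta, mul_pow]
  -- order of c is 2 ^ (m+1)
  obtain ⟨m, hm⟩ := hA.exists_orderOf_eq_pow c |>.imp fun _ h => h
  cases m with
  | zero =>
    rw [pow_zero, orderOf_eq_one_iff] at hm
    exact hc1 hm
  | succ m =>
    have hc' : (c ^ 2 ^ m) ^ 2 = 1 := by
      rw [← pow_mul, ← pow_succ, ← hm]
      exact pow_orderOf_eq_one c
    have hc'' : c ^ 2 ^ m ≠ 1 := by
      intro h
      have := orderOf_dvd_of_pow_eq_one h
      rw [hm] at this
      have h2 := Nat.le_of_dvd (by positivity) this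
      have : 2 ^ m < 2 ^ (m + 1) := Nat.pow_lt_pow_right (by norm_num) (by omega)
      omega
    have hfix : t (c ^ 2 ^ m) = c ^ 2 ^ m := by rw [map_pow, hc]
    have h1 := hC (a ^ 2 ^ m) (by
      rw [hpow, map_mul, hpow, hfix, mul_assoc, ← pow_two, hc', mul_one])
    rw [hpow] at h1
    exact hc'' (by simpa using h1)

end Cfsg.Agent.S1780
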