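import Cfsg.Statements.S1781
import Cfsg.Agent.S1780

set_option autoImplicit false
open Cfsg

namespace Cfsg.Agent.S1781

open scoped commutatorElement

open scoped IsMulCommutative in
/-- Element form of S1780: an element `a` of 2-power order normalizing the abelian 2-subgroup `B`
such that `C_B(a²) ≤ C_B(a)` centralizes `B`. -/
theorem centralizes_of_sq {G : Type*} [Group G] [Finite G] (B : Subgroup G) (hB2 : IsPGroup 2 ↥B)
    (hBa : IsMulCommutative ↥B) (a : G) (haN : a ∈ Subgroup.normalizer (B : Set G))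
    (k : ℕ) (ha2 : a ^ 2 ^ k = 1) (h : ∀ b ∈ B, a ^ 2 * b = b * a ^ 2 → a * b = b * a) :
    ∀ b ∈ B, a * b = b * a := by
  let t : MulAut ↥B := B.normalizerMonoidHom ⟨a, haN⟩
  have ht : ∀ b : ↥B, ((t b : ↥B) : G) = a * b * a⁻¹ := fun b => rfl
  have htk : t ^ 2 ^ k = 1 := by
    change (B.normalizerMonoidHom ⟨a, haN⟩) ^ 2 ^ k = 1
    rw [← map_pow]
    have : (⟨a, haN⟩ : ↥(Subgroup.normalizer (B : Set G))) ^ 2 ^ k = 1 := by
      apply Subtype.ext
      simpa using ha2
    rw [this, map_one]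
  have hord : ∃ j : ℕ, orderOf t = 2 ^ j := by
    obtain ⟨j, _, hj⟩ := (Nat.dvd_prime_pow Nat.prime_two).mp (orderOf_dvd_of_pow_eq_one htk)
    exact ⟨j, hj⟩
  have key := Cfsg.Agent.S1780.result (A := ↥B) hB2 t hord (by
    intro b hb
    have h1 : a * (a * b * a⁻¹) * a⁻¹ = (b : G) := by
      have := congrArg Subtype.val hb
      rwa [ht, ht] at this
    have h2 : a ^ 2 * (b : G) = b * a ^ 2 := by
      have : a ^ 2 * (b : G) = (a * (a * b * a⁻¹) * a⁻¹) * a ^ 2 := by
        rw [pow_two]; group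
      rw [this, h1]
    have h3 := h b b.2 h2
    apply Subtype.ext
    rw [ht, h3]
    group)
  intro b hb
  have := congrArg Subtype.val (key ⟨b, hb⟩)
  rw [ht] at this
  simp only at this
  calc a * b = (a * b * a⁻¹) * a := by group
    _ = b * a := by rw [this]

theorem mem_conj_map {G : Type*} [Group G] (A : Subgroup G) (h x : G) :
    x ∈ A.map (MulAut.conj h).toMonoidHom ↔ h⁻¹ * x * h ∈ A := by
  constructor
  · rintro ⟨a, ha, rfl⟩
    have : h⁻¹ * ((MulAut.conj h).toMonoidHom a) * h = a := by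
      simp [MulAut.conj_apply, mul_assoc]
    rw [this]; exact ha
  · intro hx
    refine ⟨h⁻¹ * x * h, hx, ?_⟩
    simp [MulAut.conj_apply, mul_assoc]

/-- One half of the argument. -/
theorem step {G : Type*} [Group G] [Finite G] (A B : Subgroup G)
    (hA2 : IsPGroup 2 ↥A) (hB2 : IsPGroup 2 ↥B) (hBa : IsMulCommutative ↥B)
    (hti : ∀ h : G, A.map (MulAut.conj h).toMonoidHom = A ∨ A.map (MulAut.conj h).toMonoidHom ⊓ A = ⊥)
    (hAB : A ⊓ B = ⊥) (a : G) (haA : a ∈ A) (haN : a ∈ Subgroup.normalizer (B : Set G))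
    (ha : a ^ 2 ≠ 1) : ∀ b ∈ B, A.map (MulAut.conj b).toMonoidHom = A := by
  obtain ⟨k, hk⟩ := hA2 ⟨a, haA⟩
  have hk' : a ^ 2 ^ k = 1 := by simpa using congrArg Subtype.val hk
  -- if `x ∈ A`, `x ≠ 1` commutes with `b` then `b` normalizes `A`
  have hnorm : ∀ x ∈ A, x ≠ 1 → ∀ b : G, x * b = b * x → A.map (MulAut.conj b).toMonoidHom = A := by
    intro x hx hx1 b hxb
    rcases hti b with h | h
    · exact h
    · exfalso
      have : x ∈ A.map (MulAut.conj b).toMonoidHom ⊓ A := by
        refine ⟨?_, hx⟩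
        change x ∈ A.map (MulAut.conj b).toMonoidHom
        rw [mem_conj_map]
        have : b⁻¹ * x * b = x := by rw [mul_assoc, hxb]; group
        rw [this]; exact hx
      rw [h, Subgroup.mem_bot] at this
      exact hx1 this
  have hcent : ∀ b ∈ B, a * b = b * a := by
    apply centralizes_of_sq B hB2 hBa a haN k hk'
    intro b hb hcomm
    have hbA := hnorm (a ^ 2) (A.pow_mem haA 2) ha b hcomm
    -- commutator lies in A ⊓ B
    have h1 : a * b * a⁻¹ * b⁻¹ ∈ B := by
      have := (Subgroup.mem_normalizer_iff.mp haN b).mp hb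
      exact B.mul_mem this (B.inv_mem hb)
    have h2 : a * b * a⁻¹ * b⁻¹ ∈ A := by
      have : b * a⁻¹ * b⁻¹ ∈ A := by
        rw [← hbA]
        exact ⟨a⁻¹, A.inv_mem haA, by simp [MulAut.conj_apply]⟩
      have h3 := A.mul_mem haA this
      have : a * (b * a⁻¹ * b⁻¹) = a * b * a⁻¹ * b⁻¹ := by group
      rwa [this] at h3
    have h3 : a * b * a⁻¹ * b⁻¹ ∈ A ⊓ B := ⟨h2, h1⟩
    rw [hAB, Subgroup.mem_bot] at h3
    calc a * b = (a * b * a⁻¹ * b⁻¹) * (b * a) := by group
      _ = b * a := by rw [h3, one_mul]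
  intro b hb
  apply hnorm a haA _ b (hcent b hb)
  rintro rfl
  exact ha (by simp)

/-- Let A be an abelian 2-subgroup of the finite group G such that every conjugate of A equals A or meets A trivially, and let g ∈ G with g A g⁻¹ ≠ A. Then either the subgroup of those elements of A that normalize g A g⁻¹ is an elementary abelian 2-group, or A and g A g⁻¹ commute elementwise. -/
theorem result {G : Type*} [Group G] [Finite G] (A : Subgroup G)
    (hA2 : IsPGroup 2 ↥A) (hAa : IsMulCommutative ↥A)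
    (hti : ∀ h : G, A.map (MulAut.conj h).toMonoidHom = A ∨ A.map (MulAut.conj h).toMonoidHom ⊓ A = ⊥)
    (g : G) (hg : A.map (MulAut.conj g).toMonoidHom ≠ A) :
    Cfsg.IsElementaryAbelian 2 (A ⊓ Subgroup.normalizer ((A.map (MulAut.conj g).toMonoidHom : Subgroup G) : Set G)) ∨
      ⁅A, A.map (MulAut.conj g).toMonoidHom⁆ = ⊥ := by
  set B := A.map (MulAut.conj g).toMonoidHom with hB
  by_cases hel : ∀ a ∈ A ⊓ Subgroup.normalizer (B : Set G), a ^ 2 = 1
  · left
    refine ⟨⟨⟨?_⟩⟩, hel⟩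
    rintro ⟨x, hx⟩ ⟨y, hy⟩
    apply Subtype.ext
    have := hAa.is_comm.comm ⟨x, hx.1⟩ ⟨y, hy.1⟩
    simpa using congrArg Subtype.val this
  · right
    push Not at hel
    obtain ⟨a, ⟨haA, haN⟩, ha⟩ := hel
    have hAB : A ⊓ B = ⊥ := by
      rcases hti g with h | h
      · exact (hg h).elim
      · rw [inf_comm]; exact h
    have hB2 : IsPGroup 2 ↥B := hA2.map _
    have hBa : IsMulCommutative ↥B := Subgroup.map_isMulCommutative A _
    have htiB : ∀ h : G, B.map (MulAut.conj h).toMonoidHom = B ∨ B.map (MulAut.conj h).toMonoidHom ⊓ B = ⊥ := by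
      intro h
      have hconj : ∀ C : Subgroup G, (C.map (MulAut.conj (g⁻¹ * h * g)).toMonoidHom).map (MulAut.conj g).toMonoidHom
          = (C.map (MulAut.conj g).toMonoidHom).map (MulAut.conj h).toMonoidHom := by
        intro C
        rw [Subgroup.map_map, Subgroup.map_map]
        congr 1
        ext x
        simp [MulAut.conj_apply, mul_assoc]
      rcases hti (g⁻¹ * h * g) with h1 | h1
      · left
        rw [hB, ← hconj, h1]
      · right
        rw [hB, ← hconj, ← Subgroup.map_inf_eq _ _ _ (MulAut.conj g).injective, h1, Subgroup.map_bot]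
    have hBN := step A B hA2 hB2 hBa hti hAB a haA haN ha
    -- the conjugate element
    have hbB : g * a * g⁻¹ ∈ B := ⟨a, haA, by simp [MulAut.conj_apply]⟩
    have hbN : g * a * g⁻¹ ∈ Subgroup.normalizer (A : Set G) :=
      Subgroup.mem_normalizer_iff_map_conj_eq.mpr (hBN _ hbB)
    have hb2 : (g * a * g⁻¹) ^ 2 ≠ 1 := by
      intro h
      apply ha
      have : (g * a * g⁻¹) ^ 2 = g * a ^ 2 * g⁻¹ := by rw [pow_two, pow_two]; group
      rw [this] at h
      have : a ^ 2 = g⁻¹ * (g * a ^ 2 * g⁻¹) * g := by group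
      rw [this, h]; group
    have hAN := step B A hB2 hA2 hAa htiB (by rw [inf_comm]; exact hAB) _ hbB hbN hb2
    rw [eq_bot_iff, ← hAB]
    apply Subgroup.commutator_le.mpr
    intro x hx y hy
    refine ⟨?_, ?_⟩
    · have : y * x⁻¹ * y⁻¹ ∈ A := by
        rw [← hBN y hy]
        exact ⟨x⁻¹, A.inv_mem hx, by simp [MulAut.conj_apply]⟩
      have h3 := A.mul_mem hx this
      have h4 : x * (y * x⁻¹ * y⁻¹) = ⁅x, y⁆ := by rw [commutatorElement_def]; group
      rwa [h4] at h3
    · have : x * y * x⁻¹ ∈ B := by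
        rw [← hAN x hx]
        exact ⟨y, hy, by simp [MulAut.conj_apply]⟩
      have h3 := B.mul_mem this (B.inv_mem hy)
      rwa [← commutatorElement_def] at h3

end Cfsg.Agent.S1781
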