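import Cfsg.Statements.S1782
import Cfsg.Agent.S1781

set_option autoImplicit false
open Cfsg

namespace Cfsg.Agent.S1782

open Cfsg.Agent.S1781 (mem_conj_map centralizes_of_sq)
open Cfsg.Agent.S1780 (exists_fixed)

section frattini

/-- A finite group of exponent 2 has trivial Frattini subgroup. -/
theorem frattini_eq_bot_of_sq {R : Type*} [Group R] [Finite R] (h : ∀ v : R, v ^ 2 = 1) :
    frattini R = ⊥ := by
  have hinv : ∀ v : R, v⁻¹ = v := by
    intro v
    rw [inv_eq_iff_mul_eq_one, ← pow_two]; exact h v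
  have hcomm : ∀ a b : R, a * b = b * a := by
    intro a b
    have h1 := hinv (a * b)
    rw [mul_inv_rev, hinv, hinv] at h1
    exact h1.symm
  rw [eq_bot_iff]
  intro x hx
  rw [Subgroup.mem_bot]
  by_contra hx1
  -- a subgroup maximal subject to not containing `x`
  obtain ⟨K, hK⟩ := Set.Finite.exists_maximal (s := {K : Subgroup R | x ∉ K}) (Set.toFinite _)
    ⟨⊥, by simpa using hx1⟩
  have hKx : x ∉ K := hK.1
  have hcover : ∀ y : R, y ∉ K → y * x ∈ K := by
    intro y hy
    -- `K ⊔ zpowers y` contains `x`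
    have h1 : x ∈ K ⊔ Subgroup.zpowers y := by
      by_contra hcon
      have h2 : K ⊔ Subgroup.zpowers y ≤ K := hK.2 (y := K ⊔ Subgroup.zpowers y) hcon le_sup_left
      exact hy (h2 (Subgroup.mem_sup_right (Subgroup.mem_zpowers y)))
    have hnorm : (Subgroup.zpowers y).Normal := ⟨fun n hn g => by
      rw [hcomm g n, mul_assoc, mul_inv_cancel, mul_one]; exact hn⟩
    obtain ⟨k, hk, z, hz, hkz⟩ := Subgroup.mem_sup_of_normal_right.mp h1
    obtain ⟨n, rfl⟩ := Subgroup.mem_zpowers_iff.mp hz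
    rcases Int.even_or_odd' n with ⟨m, rfl | rfl⟩
    · exfalso
      have : y ^ (2 * m) = 1 := by
        rw [zpow_mul]
        have : y ^ (2 : ℤ) = 1 := by exact_mod_cast h y
        rw [this, one_zpow]
      rw [this, mul_one] at hkz
      exact hKx (hkz ▸ hk)
    · have : y ^ (2 * m + 1) = y := by
        rw [zpow_add, zpow_mul]
        have : y ^ (2 : ℤ) = 1 := by exact_mod_cast h y
        rw [this, one_zpow, one_mul, zpow_one]
      rw [this] at hkz
      rw [← hkz, hcomm k y, ← mul_assoc, ← pow_two, h y, one_mul]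
      exact hk
  have hco : IsCoatom K := by
    refine ⟨?_, ?_⟩
    · intro h; rw [h] at hKx; exact hKx (Subgroup.mem_top x)
    · intro L hL
      obtain ⟨y, hyL, hyK⟩ := SetLike.exists_of_lt hL
      have hxL : x ∈ L := by
        have h1 := hL.le (hcover y hyK)
        have : x = y⁻¹ * (y * x) := by group
        rw [this]; exact L.mul_mem (L.inv_mem hyL) h1
      rw [eq_top_iff]
      intro w _
      by_cases hw : w ∈ K
      · exact hL.le hw
      · have h1 := hL.le (hcover w hw)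
        have : w = (w * x) * x⁻¹ := by group
        rw [this]; exact L.mul_mem h1 (L.inv_mem hxL)
  exact hKx (frattini_le_coatom hco hx)

end frattini

section main

variable {S : Type*} [Group S] [Finite S]

omit [Finite S] in
theorem conj_mem {R : Subgroup S} {b : S} (h : R.map (MulAut.conj b).toMonoidHom = R) {y : S}
    (hy : y ∈ R) : b * y * b⁻¹ ∈ R := by
  rw [← h]; exact ⟨y, hy, by simp [MulAut.conj_apply]⟩

omit [Finite S] in
theorem conj_mem' {R : Subgroup S} {b : S} (h : R.map (MulAut.conj b).toMonoidHom = R) {y : S}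
    (hy : y ∈ R) : b⁻¹ * y * b ∈ R := by
  rw [← h] at hy; exact (mem_conj_map R b y).mp hy

variable (Δ : Set (Subgroup S)) (hinv : ∀ s : S, ∀ R ∈ Δ, R.map (MulAut.conj s).toMonoidHom ∈ Δ)
    (hord : ∀ R ∈ Δ, ∀ T ∈ Δ, Nat.card ↥R = Nat.card ↥T)
    (hti : ∀ R ∈ Δ, ∀ T ∈ Δ, R = T ∨ R ⊓ T = ⊥)

omit [Finite S] in
include hinv hti in
theorem tin {R : Subgroup S} (hR : R ∈ Δ) {x : S} (hx : x ∈ R) (hx1 : x ≠ 1) {b : S}
    (hxb : x * b = b * x) : R.map (MulAut.conj b).toMonoidHom = R := by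
  rcases hti _ (hinv b R hR) R hR with h | h
  · exact h
  · exfalso
    have : x ∈ R.map (MulAut.conj b).toMonoidHom ⊓ R := by
      refine ⟨?_, hx⟩
      change x ∈ R.map (MulAut.conj b).toMonoidHom
      rw [mem_conj_map]
      have : b⁻¹ * x * b = x := by rw [mul_assoc, hxb]; group
      rw [this]; exact hx
    rw [h, Subgroup.mem_bot] at this
    exact hx1 this

include hinv hord hti in
/-- If `T` normalizes `R` then they commute. -/
theorem star {R T : Subgroup S} (hR : R ∈ Δ) (hT : T ∈ Δ) (hne : R ≠ T)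
    (hN : ∀ t ∈ T, R.map (MulAut.conj t).toMonoidHom = R) : ∀ a ∈ R, ∀ b ∈ T, a * b = b * a := by
  have hRT : R ⊓ T = ⊥ := (hti R hR T hT).resolve_left hne
  have hN' : ∀ r ∈ R, T.map (MulAut.conj r).toMonoidHom = T := by
    intro r hr
    let f : ↥T → ↥R := fun t => ⟨t * r * t⁻¹, conj_mem (hN t t.2) hr⟩
    by_cases hf : Function.Injective f
    · have hbij : Function.Bijective f :=
        (Nat.bijective_iff_injective_and_card f).mpr ⟨hf, hord T hT R hR⟩
      obtain ⟨t, ht⟩ := hbij.2 1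
      have h1 : (t : S) * r * (t : S)⁻¹ = 1 := congrArg Subtype.val ht
      have h2 : r = 1 := by
        have : r = (t : S)⁻¹ * ((t : S) * r * (t : S)⁻¹) * t := by group
        rw [this, h1]; group
      subst h2
      ext y
      rw [mem_conj_map]; simp
    · rw [Function.Injective] at hf
      push Not at hf
      obtain ⟨t₁, t₂, h12, hne12⟩ := hf
      have h1 : (t₁ : S) * r * (t₁ : S)⁻¹ = t₂ * r * (t₂ : S)⁻¹ := congrArg Subtype.val h12
      apply tin Δ hinv hti hT (x := (t₂ : S)⁻¹ * t₁) (T.mul_mem (T.inv_mem t₂.2) t₁.2)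
      · intro h
        apply hne12
        apply Subtype.ext
        have : (t₁ : S) = t₂ * ((t₂ : S)⁻¹ * t₁) := by group
        rw [this, h, mul_one]
      · calc (t₂ : S)⁻¹ * t₁ * r = (t₂ : S)⁻¹ * (t₁ * r * (t₁ : S)⁻¹) * t₁ := by group
          _ = (t₂ : S)⁻¹ * (t₂ * r * (t₂ : S)⁻¹) * t₁ := by rw [h1]
          _ = r * ((t₂ : S)⁻¹ * t₁) := by group
  intro a ha b hb
  have h1 : a * b * a⁻¹ * b⁻¹ ∈ R ⊓ T := by
    refine ⟨?_, ?_⟩
    · have := R.mul_mem ha (conj_mem (hN b hb) (R.inv_mem ha))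
      have e : a * (b * a⁻¹ * b⁻¹) = a * b * a⁻¹ * b⁻¹ := by group
      rwa [e] at this
    · exact T.mul_mem (conj_mem (hN' a ha) hb) (T.inv_mem hb)
  rw [hRT, Subgroup.mem_bot] at h1
  calc a * b = (a * b * a⁻¹ * b⁻¹) * (b * a) := by group
    _ = b * a := by rw [h1, one_mul]


omit [Finite S] in
theorem cj_inv {R : Subgroup S} {b : S} (h : R.map (MulAut.conj b).toMonoidHom = R) :
    R.map (MulAut.conj b⁻¹).toMonoidHom = R := by
  ext y
  rw [mem_conj_map, inv_inv]
  constructor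
  · intro hy
    have := conj_mem' h hy
    have e : b⁻¹ * (b * y * b⁻¹) * b = y := by group
    rwa [e] at this
  · intro hy; exact conj_mem h hy

omit [Finite S] in
theorem cj_of_mem {T : Subgroup S} {y : S} (hy : y ∈ T) : T.map (MulAut.conj y).toMonoidHom = T := by
  ext w
  rw [mem_conj_map]
  constructor
  · intro h
    have := T.mul_mem (T.mul_mem hy h) (T.inv_mem hy)
    have e : y * (y⁻¹ * w * y) * y⁻¹ = w := by group
    rwa [e] at this
  · intro h; exact T.mul_mem (T.mul_mem (T.inv_mem hy) h) hy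

omit [Finite S] in
theorem cj_of_comm {T : Subgroup S} {y : S} (hy : ∀ b ∈ T, b * y = y * b) :
    T.map (MulAut.conj y).toMonoidHom = T := by
  ext w
  rw [mem_conj_map]
  constructor
  · intro h
    have h2 := hy _ h
    have e : w = y * (y⁻¹ * w * y) * y⁻¹ := by group
    rw [e, ← h2]
    simpa using h
  · intro h
    have h2 := hy _ h
    rw [mul_assoc, h2]
    simpa using h

include hinv hord hti in
theorem main (hS : IsPGroup 2 S) (hsq : ∀ R ∈ Δ, ∃ v ∈ R, v ^ 2 ≠ 1) :
    ∀ n : ℕ, ∀ U : Subgroup S, Nat.card ↥U ≤ n → ∀ R ∈ Δ, ∀ T ∈ Δ, R ≤ U → T ≤ U → R ≠ T →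
      ∀ a ∈ R, ∀ b ∈ T, a * b = b * a := by
  have : Fact (Nat.Prime 2) := ⟨Nat.prime_two⟩
  intro n
  induction n with
  | zero =>
    intro U hU
    exact absurd hU (by have := Nat.card_pos (α := ↥U); omega)
  | succ n ih =>
    intro U hU R hR T hT hRU hTU hne
    by_contra hcon
    have hRT : R ⊓ T = ⊥ := (hti R hR T hT).resolve_left hne
    -- (i) conjugates of `T` under `U` commute with `T`
    have hi : ∀ x ∈ U, T.map (MulAut.conj x).toMonoidHom = T ∨
        ∀ a ∈ T, ∀ b ∈ T.map (MulAut.conj x).toMonoidHom, a * b = b * a := by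
      intro x hxU
      by_cases hxT : T.map (MulAut.conj x).toMonoidHom = T
      · exact Or.inl hxT
      right
      have hT' : T.subgroupOf U ≠ ⊤ := by
        intro h
        rw [Subgroup.subgroupOf_eq_top] at h
        apply hne
        exact Subgroup.eq_of_le_of_card_ge (hRU.trans h) (hord T hT R hR).le
      obtain ⟨K, hK, hTK⟩ := (eq_top_or_exists_le_coatom (T.subgroupOf U)).resolve_left hT'
      have hnil : Group.IsNilpotent ↥U := (hS.to_subgroup U).isNilpotent
      have hKn : K.Normal :=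
        Subgroup.NormalizerCondition.normal_of_coatom K Group.normalizerCondition_of_isNilpotent hK
      have hcard : Nat.card ↥(K.map U.subtype) ≤ n := by
        rw [Subgroup.card_map_of_injective U.subtype_injective]
        have h1 : Nat.card ↥K < Nat.card ↥U := by
          refine lt_of_le_of_ne (Subgroup.card_le_card_group K) ?_
          intro h
          exact hK.1 (Subgroup.eq_top_of_card_eq K h)
        omega
      have h1 : T ≤ K.map U.subtype := by
        intro t ht
        exact ⟨⟨t, hTU ht⟩, hTK (by simpa [Subgroup.mem_subgroupOf] using ht), rfl⟩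
      have h2 : T.map (MulAut.conj x).toMonoidHom ≤ K.map U.subtype := by
        rintro _ ⟨t, ht, rfl⟩
        have h3 : (⟨t, hTU ht⟩ : ↥U) ∈ K := hTK (by simpa [Subgroup.mem_subgroupOf] using ht)
        exact ⟨_, hKn.conj_mem _ h3 ⟨x, hxU⟩, by simp [MulAut.conj_apply]⟩
      exact ih (K.map U.subtype) hcard T hT _ (hinv x T hT) h1 h2 (Ne.symm hxT)
    have hTN : ¬ ∀ t ∈ T, R.map (MulAut.conj t).toMonoidHom = R :=
      fun h => hcon (star Δ hinv hord hti hR hT hne h)
    have hRN : ¬ ∀ r ∈ R, T.map (MulAut.conj r).toMonoidHom = T :=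
      fun h => hcon (fun a ha b hb => (star Δ hinv hord hti hT hR hne.symm h b hb a ha).symm)
    push Not at hRN
    obtain ⟨x, hxR, hxT⟩ := hRN
    obtain ⟨v, hvR, hv2⟩ := hsq R hR
    obtain ⟨v', hv'T, hv'2⟩ := hsq T hT
    -- the centre of `T`
    let Z : Subgroup S := T ⊓ Subgroup.centralizer (T : Set S)
    have hZT : ∀ z ∈ Z, z ∈ T := fun z hz => hz.1
    have hZc : ∀ z ∈ Z, ∀ b ∈ T, b * z = z * b := fun z hz b hb =>
      Subgroup.mem_centralizer_iff.mp hz.2 b hb
    obtain ⟨z₀, hz₀Z, hz₀1⟩ : ∃ z ∈ Z, z ≠ 1 := by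
      have hnt : Nontrivial ↥T := ⟨⟨⟨v', hv'T⟩, 1, fun h => hv'2 (by
        have : v' = 1 := congrArg Subtype.val h
        rw [this, one_pow])⟩⟩
      have hc := (hS.to_subgroup T).center_nontrivial
      obtain ⟨⟨z, hz⟩, hz1⟩ := exists_ne (1 : ↥(Subgroup.center ↥T))
      refine ⟨z, ⟨z.2, ?_⟩, ?_⟩
      · change (z : S) ∈ Subgroup.centralizer (T : Set S)
        rw [Subgroup.mem_centralizer_iff]
        intro b hb
        have := Subgroup.mem_center_iff.mp hz ⟨b, hb⟩
        simpa using congrArg Subtype.val this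
      · intro h
        apply hz1
        apply Subtype.ext
        apply Subtype.ext
        exact h
    have hZ1 : Z ≠ ⊥ := by
      intro h
      rw [h, Subgroup.mem_bot] at hz₀Z
      exact hz₀1 hz₀Z
    have hZconj : ∀ r : S, T.map (MulAut.conj r).toMonoidHom = T → ∀ z ∈ Z, r * z * r⁻¹ ∈ Z := by
      intro r hr z hz
      refine ⟨conj_mem hr (hZT z hz), ?_⟩
      change r * z * r⁻¹ ∈ Subgroup.centralizer (T : Set S)
      rw [Subgroup.mem_centralizer_iff]
      intro b hb
      have h1 := hZc z hz _ (conj_mem' hr hb)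
      calc b * (r * z * r⁻¹) = r * ((r⁻¹ * b * r) * z) * r⁻¹ := by group
        _ = r * (z * (r⁻¹ * b * r)) * r⁻¹ := by rw [h1]
        _ = r * z * r⁻¹ * b := by group
    -- Case B is impossible
    have hR0 : ∀ r ∈ R, T.map (MulAut.conj r).toMonoidHom = T → r = 1 := by
      intro r₀ hr₀ hr₀T
      by_contra hr₀1
      obtain ⟨k, hk⟩ := hS r₀
      obtain ⟨a, haZ, ha1, hfix⟩ := exists_fixed hS (MulAut.conj r₀) k
        (by rw [← map_pow, hk, map_one]) Z (by
          intro y
          constructor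
          · intro hy
            have := hZconj r₀⁻¹ (cj_inv hr₀T) _ hy
            simpa [MulAut.conj_apply, mul_assoc] using this
          · intro hy
            simpa [MulAut.conj_apply] using hZconj r₀ hr₀T y hy) hZ1
      have hcomm : r₀ * a = a * r₀ := by
        rw [MulAut.conj_apply] at hfix
        calc r₀ * a = (r₀ * a * r₀⁻¹) * r₀ := by group
          _ = a * r₀ := by rw [hfix]
      have haN := tin Δ hinv hti hR hr₀ hr₀1 hcomm
      have hcx := (hi x (hRU hxR)).resolve_left hxT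
      have hxa : x * a * x⁻¹ ∈ T.map (MulAut.conj x).toMonoidHom :=
        ⟨a, hZT a haZ, by simp [MulAut.conj_apply]⟩
      have hrR : a⁻¹ * (x * a * x⁻¹) ∈ R := by
        have := R.mul_mem (conj_mem' haN hxR) (R.inv_mem hxR)
        have e : a⁻¹ * x * a * x⁻¹ = a⁻¹ * (x * a * x⁻¹) := by group
        rwa [e] at this
      have hr1 : a⁻¹ * (x * a * x⁻¹) ≠ 1 := by
        intro h
        have h1 : x * a * x⁻¹ = a := by
          calc x * a * x⁻¹ = a * (a⁻¹ * (x * a * x⁻¹)) := by group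
            _ = a := by rw [h, mul_one]
        have h2 : a ∈ T.map (MulAut.conj x).toMonoidHom ⊓ T := ⟨h1 ▸ hxa, hZT a haZ⟩
        rw [(hti _ (hinv x T hT) T hT).resolve_left hxT, Subgroup.mem_bot] at h2
        exact ha1 h2
      apply hTN
      intro b hb
      apply tin Δ hinv hti hR hrR hr1
      have h1 := hZc a haZ b hb
      have h2 := hcx b hb _ hxa
      have h3 : b * a⁻¹ = a⁻¹ * b := by
        calc b * a⁻¹ = a⁻¹ * (a * b) * a⁻¹ := by group
          _ = a⁻¹ * (b * a) * a⁻¹ := by rw [h1]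
          _ = a⁻¹ * b := by group
      rw [mul_assoc, ← h2, ← mul_assoc, ← h3, mul_assoc]
    -- Case A
    let X : Set S := {y | ∃ p ∈ Subgroup.zpowers v, ∃ z ∈ Z, y = p * z * p⁻¹}
    have hzp : ∀ p ∈ Subgroup.zpowers v, p ∈ R := by
      intro p hp
      exact (Subgroup.zpowers_le.mpr hvR) hp
    have hXcomm : ∀ y₁ ∈ X, ∀ y₂ ∈ X, y₁ * y₂ = y₂ * y₁ := by
      rintro _ ⟨p, hp, z₁, hz₁, rfl⟩ _ ⟨q, hq, z₂, hz₂, rfl⟩
      have hw : p⁻¹ * q ∈ U := hRU (R.mul_mem (R.inv_mem (hzp p hp)) (hzp q hq))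
      have key : z₁ * ((p⁻¹ * q) * z₂ * (p⁻¹ * q)⁻¹) = ((p⁻¹ * q) * z₂ * (p⁻¹ * q)⁻¹) * z₁ := by
        rcases hi _ hw with h | h
        · exact (hZc z₁ hz₁ _ (conj_mem h (hZT z₂ hz₂))).symm
        · exact h z₁ (hZT z₁ hz₁) _ ⟨z₂, hZT z₂ hz₂, rfl⟩
      calc p * z₁ * p⁻¹ * (q * z₂ * q⁻¹)
          = p * (z₁ * ((p⁻¹ * q) * z₂ * (p⁻¹ * q)⁻¹)) * p⁻¹ := by group
        _ = p * (((p⁻¹ * q) * z₂ * (p⁻¹ * q)⁻¹) * z₁) * p⁻¹ := by rw [key]
        _ = q * z₂ * q⁻¹ * (p * z₁ * p⁻¹) := by group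
    have hBT : Subgroup.closure X ≤ Subgroup.normalizer (T : Set S) := by
      rw [Subgroup.closure_le]
      rintro _ ⟨p, hp, z, hz, rfl⟩
      rw [SetLike.mem_coe, Subgroup.mem_normalizer_iff_map_conj_eq]
      rcases hi p (hRU (hzp p hp)) with h | h
      · exact cj_of_mem (conj_mem h (hZT z hz))
      · apply cj_of_comm
        intro b hb
        exact h b hb _ ⟨z, hZT z hz, by simp [MulAut.conj_apply]⟩
    have hvX : v ∈ Subgroup.normalizer X := by
      rw [Subgroup.mem_set_normalizer_iff]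
      intro h
      constructor
      · rintro ⟨p, hp, z, hz, rfl⟩
        exact ⟨v * p, (Subgroup.zpowers v).mul_mem (Subgroup.mem_zpowers v) hp, z, hz, by group⟩
      · rintro ⟨p, hp, z, hz, he⟩
        refine ⟨v⁻¹ * p, (Subgroup.zpowers v).mul_mem ((Subgroup.zpowers v).inv_mem
          (Subgroup.mem_zpowers v)) hp, z, hz, ?_⟩
        calc h = v⁻¹ * (v * h * v⁻¹) * v := by group
          _ = v⁻¹ * (p * z * p⁻¹) * v := by rw [he]
          _ = v⁻¹ * p * z * (v⁻¹ * p)⁻¹ := by group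
    have hvB : v ∈ Subgroup.normalizer ((Subgroup.closure X : Subgroup S) : Set S) :=
      Subgroup.normalizer_le_normalizer_closure X hvX
    obtain ⟨k, hk⟩ := hS v
    have hcent := centralizes_of_sq (Subgroup.closure X) (hS.to_subgroup _)
      (Subgroup.isMulCommutative_closure hXcomm) v hvB k hk (by
        intro b hb hcomm
        have hbN := tin Δ hinv hti hR (R.pow_mem hvR 2) hv2 hcomm
        have h1 : v * b * v⁻¹ * b⁻¹ ∈ R := by
          have := R.mul_mem hvR (conj_mem hbN (R.inv_mem hvR))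
          have e : v * (b * v⁻¹ * b⁻¹) = v * b * v⁻¹ * b⁻¹ := by group
          rwa [e] at this
        have h2 : v * b * v⁻¹ * b⁻¹ ∈ Subgroup.closure X :=
          (Subgroup.closure X).mul_mem ((Subgroup.mem_normalizer_iff.mp hvB b).mp hb)
            ((Subgroup.closure X).inv_mem hb)
        have h3 := hR0 _ h1 (Subgroup.mem_normalizer_iff_map_conj_eq.mp (hBT h2))
        calc v * b = (v * b * v⁻¹ * b⁻¹) * (b * v) := by group
          _ = b * v := by rw [h3, one_mul])
    have hz₀B : z₀ ∈ Subgroup.closure X :=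
      Subgroup.subset_closure ⟨1, Subgroup.one_mem _, z₀, hz₀Z, by simp⟩
    have hvT := tin Δ hinv hti hT (hZT z₀ hz₀Z) hz₀1 (hcent z₀ hz₀B).symm
    have := hR0 v hvR hvT
    exact hv2 (by rw [this, one_pow])

end main

/-- Let S be a finite 2-group and Δ a set of subgroups of S closed under conjugation by S, all of the same order, each with nontrivial Frattini subgroup, and such that two distinct members of Δ meet trivially. Then any two distinct members of Δ commute elementwise. -/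
theorem result {S : Type*} [Group S] [Finite S] (hS : IsPGroup 2 S)
    (Δ : Set (Subgroup S)) (hinv : ∀ s : S, ∀ R ∈ Δ, R.map (MulAut.conj s).toMonoidHom ∈ Δ)
    (hΦ : ∀ R ∈ Δ, frattini ↥R ≠ ⊥) (hord : ∀ R ∈ Δ, ∀ T ∈ Δ, Nat.card ↥R = Nat.card ↥T)
    (hti : ∀ R ∈ Δ, ∀ T ∈ Δ, R = T ∨ R ⊓ T = ⊥) :
    ∀ R ∈ Δ, ∀ T ∈ Δ, R ≠ T → ⁅R, T⁆ = ⊥ := by
  have hsq : ∀ R ∈ Δ, ∃ v ∈ R, v ^ 2 ≠ 1 := by
    intro R hR
    by_contra hcon
    push Not at hcon
    apply hΦ R hR
    apply frattini_eq_bot_of_sq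
    rintro ⟨v, hv⟩
    apply Subtype.ext
    simpa using hcon v hv
  intro R hR T hT hne
  rw [Subgroup.commutator_eq_bot_iff_le_centralizer]
  intro a ha
  rw [Subgroup.mem_centralizer_iff]
  intro b hb
  exact (main Δ hinv hord hti hS hsq (Nat.card ↥(⊤ : Subgroup S)) ⊤ le_rfl R hR T hT le_top le_top hne
    a ha b hb).symm

end Cfsg.Agent.S1782
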