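import Cfsg.Statements.S1783
import Cfsg.Agent.S1782
import Cfsg.Agent.S0012
import Cfsg.Agent.Lib.Helper30.FrattiniCentral
import Cfsg.Agent.Lib.Helper31.CharP

set_option autoImplicit false
open Cfsg

namespace Cfsg.Agent.S1783

open Subgroup
open Cfsg.Agent.S1781 (mem_conj_map)

/-- Ambient version of S1782: `U` a 2-subgroup of `G`, `Δ` a `U`-invariant set of TI subgroups of `G`
of the same order and not of exponent 2; distinct members inside `U` commute. -/
theorem ambient {G : Type*} [Group G] [Finite G] (U : Subgroup G) (hU : IsPGroup 2 ↥U)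
    (Δ : Set (Subgroup G)) (hinv : ∀ s ∈ U, ∀ R ∈ Δ, R.map (MulAut.conj s).toMonoidHom ∈ Δ)
    (hord : ∀ R ∈ Δ, ∀ T ∈ Δ, Nat.card ↥R = Nat.card ↥T)
    (hti : ∀ R ∈ Δ, ∀ T ∈ Δ, R = T ∨ R ⊓ T = ⊥)
    (hsq : ∀ R ∈ Δ, ∃ v ∈ R, v ^ 2 ≠ 1) :
    ∀ R ∈ Δ, ∀ T ∈ Δ, R ≤ U → T ≤ U → R ≠ T → ∀ a ∈ R, ∀ b ∈ T, a * b = b * a := by
  intro R hR T hT hRU hTU hne a ha b hb
  let Δ' : Set (Subgroup ↥U) := {R' | R'.map U.subtype ∈ Δ}
  have hinj := U.subtype_injective
  have hmap : ∀ R : Subgroup G, R ≤ U → (R.subgroupOf U).map U.subtype = R := by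
    intro R hRU
    rw [map_subgroupOf_eq_of_le hRU]
  have key := Cfsg.Agent.S1782.main (S := ↥U) Δ' (by
      intro s R' hR'
      have h1 := hinv s s.2 _ hR'
      have h2 : (R'.map (MulAut.conj s).toMonoidHom).map U.subtype =
          (R'.map U.subtype).map (MulAut.conj (s : G)).toMonoidHom := by
        rw [map_map, map_map]
        congr 1
      change (R'.map (MulAut.conj s).toMonoidHom).map U.subtype ∈ Δ
      rw [h2]; exact h1) (by
      intro R' hR' T' hT'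
      have := hord _ hR' _ hT'
      rwa [card_map_of_injective hinj, card_map_of_injective hinj] at this) (by
      intro R' hR' T' hT'
      rcases hti _ hR' _ hT' with h | h
      · exact Or.inl (map_injective hinj h)
      · right
        rw [← map_inf _ _ _ hinj, map_eq_bot_iff_of_injective _ hinj] at h
        exact h) hU (by
      intro R' hR'
      obtain ⟨v, ⟨v', hv', rfl⟩, hv2⟩ := hsq _ hR'
      refine ⟨v', hv', ?_⟩
      intro h
      apply hv2
      have := congrArg Subtype.val h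
      simpa using this) (Nat.card ↥(⊤ : Subgroup ↥U)) ⊤ le_rfl (R.subgroupOf U)
      (by change (R.subgroupOf U).map U.subtype ∈ Δ; rw [hmap R hRU]; exact hR)
      (T.subgroupOf U)
      (by change (T.subgroupOf U).map U.subtype ∈ Δ; rw [hmap T hTU]; exact hT) le_top le_top (by
        intro h
        apply hne
        rw [← hmap R hRU, ← hmap T hTU, h]) ⟨a, hRU ha⟩ (by rw [mem_subgroupOf]; exact ha)
        ⟨b, hTU hb⟩ (by rw [mem_subgroupOf]; exact hb)
  exact congrArg Subtype.val key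

theorem map_conj_mul {G : Type*} [Group G] (A : Subgroup G) (g h : G) :
    (A.map (MulAut.conj h).toMonoidHom).map (MulAut.conj g).toMonoidHom =
      A.map (MulAut.conj (g * h)).toMonoidHom := by
  rw [map_map]
  congr 1
  ext x
  simp [MulAut.conj_apply, mul_assoc]

theorem map_conj_one {G : Type*} [Group G] (A : Subgroup G) :
    A.map (MulAut.conj (1 : G)).toMonoidHom = A := by
  ext x
  rw [mem_conj_map]; simp

/-- TI for all pairs of conjugates. -/
theorem ti_conj {G : Type*} [Group G] (A : Subgroup G)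
    (hti : ∀ h : G, A.map (MulAut.conj h).toMonoidHom = A ∨ A.map (MulAut.conj h).toMonoidHom ⊓ A = ⊥)
    (g h : G) : A.map (MulAut.conj g).toMonoidHom = A.map (MulAut.conj h).toMonoidHom ∨
      A.map (MulAut.conj g).toMonoidHom ⊓ A.map (MulAut.conj h).toMonoidHom = ⊥ := by
  have hinj : Function.Injective (MulAut.conj h).toMonoidHom := (MulAut.conj h).injective
  have e : A.map (MulAut.conj g).toMonoidHom =
      (A.map (MulAut.conj (h⁻¹ * g)).toMonoidHom).map (MulAut.conj h).toMonoidHom := by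
    rw [map_conj_mul]; congr 3; group
  rcases hti (h⁻¹ * g) with h1 | h1
  · left; rw [e, h1]
  · right
    rw [e, ← map_inf _ _ _ hinj, h1, Subgroup.map_bot]

/-- Let X be a finite group whose generalized Fitting subgroup equals its largest normal 2-subgroup Q, and let A be an abelian 2-subgroup of X such that every conjugate of A equals A or meets A trivially. Let B be the subgroup generated by the squares of the elements of A. Then B lies in Q, and if B is not an elementary abelian 2-group then the normal closure of B in X is commutative. -/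
theorem result {X : Type*} [Group X] [Finite X]
    (hX : Cfsg.generalizedFittingSubgroup X = Cfsg.pCore 2 X) (A : Subgroup X) (hA2 : IsPGroup 2 ↥A) (hAa : IsMulCommutative ↥A)
    (hti : ∀ h : X, A.map (MulAut.conj h).toMonoidHom = A ∨ A.map (MulAut.conj h).toMonoidHom ⊓ A = ⊥) :
    Subgroup.closure ((fun a : X => a ^ 2) '' (A : Set X)) ≤ Cfsg.pCore 2 X ∧
      (¬ Cfsg.IsElementaryAbelian 2 (Subgroup.closure ((fun a : X => a ^ 2) '' (A : Set X))) →
        IsMulCommutative ↥(Subgroup.normalClosure ((fun a : X => a ^ 2) '' (A : Set X)))) := by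
  have : Fact (Nat.Prime 2) := ⟨Nat.prime_two⟩
  set Q := Cfsg.pCore 2 X with hQ
  have hQ2 : IsPGroup 2 ↥Q := Cfsg.Agent.Lib.Lead.pCore_isPGroup 2 X
  have hQn : Q.Normal := inferInstance
  have hcen : centralizer (Q : Set X) ≤ Q :=
    (Cfsg.Agent.Lib.Helper31.genFitting_eq_pCore_iff_centralizer 2).mp hX
  have hAc : ∀ a ∈ A, ∀ b ∈ A, a * b = b * a := by
    intro a ha b hb
    have := hAa.is_comm.comm ⟨a, ha⟩ ⟨b, hb⟩
    exact congrArg Subtype.val this
  set B := Subgroup.closure ((fun a : X => a ^ 2) '' (A : Set X)) with hB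
  have hBA : B ≤ A := by
    rw [hB, closure_le]
    rintro _ ⟨a, ha, rfl⟩
    exact A.pow_mem ha 2
  have hcardconj : ∀ (R : Subgroup X) (g : X),
      Nat.card ↥(R.map (MulAut.conj g).toMonoidHom) = Nat.card ↥R := by
    intro R g
    exact card_map_of_injective (MulAut.conj g).injective
  -- Part 1
  have part1 : B ≤ Q := by
    rw [hB, closure_le]
    rintro _ ⟨a, ha, rfl⟩
    change a ^ 2 ∈ Q
    by_cases hexp : ∀ v ∈ A, v ^ 2 = 1
    · rw [hexp a ha]; exact Q.one_mem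
    push Not at hexp
    obtain ⟨v, hvA, hv2⟩ := hexp
    have hU : IsPGroup 2 ↥(A ⊔ Q) := IsPGroup.to_sup_of_normal_right hA2 hQ2
    let Δ : Set (Subgroup X) := {R | ∃ g : X, R = A.map (MulAut.conj g).toMonoidHom}
    have key := ambient (A ⊔ Q) hU Δ (by
        rintro s - _ ⟨g, rfl⟩
        exact ⟨s * g, map_conj_mul A s g⟩) (by
        rintro _ ⟨g, rfl⟩ _ ⟨h, rfl⟩
        rw [hcardconj, hcardconj]) (by
        rintro _ ⟨g, rfl⟩ _ ⟨h, rfl⟩
        exact ti_conj A hti g h) (by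
        rintro _ ⟨g, rfl⟩
        refine ⟨g * v * g⁻¹, ⟨v, hvA, by simp [MulAut.conj_apply]⟩, ?_⟩
        intro h
        apply hv2
        have e : (g * v * g⁻¹) ^ 2 = g * v ^ 2 * g⁻¹ := by rw [conj_pow]
        rw [e] at h
        calc v ^ 2 = g⁻¹ * (g * v ^ 2 * g⁻¹) * g := by group
          _ = 1 := by rw [h]; group)
    -- conjugates of `a⁻¹` under `Q` commute with `a`
    have hcomm : ∀ q ∈ Q, a * (q * a⁻¹ * q⁻¹) = (q * a⁻¹ * q⁻¹) * a := by
      intro q hq
      have hmem : q * a⁻¹ * q⁻¹ ∈ A.map (MulAut.conj q).toMonoidHom :=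
        ⟨a⁻¹, A.inv_mem ha, by simp [MulAut.conj_apply]⟩
      by_cases hAq : A = A.map (MulAut.conj q).toMonoidHom
      · rw [← hAq] at hmem
        exact hAc _ ha _ hmem
      · refine key A ⟨1, (map_conj_one A).symm⟩ _ ⟨q, rfl⟩ le_sup_left ?_ hAq a ha _ hmem
        rintro _ ⟨y, hy, rfl⟩
        have hq' : q ∈ A ⊔ Q := mem_sup_right hq
        have hy' : y ∈ A ⊔ Q := mem_sup_left hy
        simpa [MulAut.conj_apply] using (A ⊔ Q).mul_mem ((A ⊔ Q).mul_mem hq' hy') ((A ⊔ Q).inv_mem hq')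
    apply Cfsg.Agent.Lib.Helper30.mem_pCore_of_commutator_mem_frattini 2 hcen
    intro q hq
    have hc : a * q * a⁻¹ * q⁻¹ ∈ Q := Q.mul_mem (hQn.conj_mem q hq a) (Q.inv_mem hq)
    have h1 := (Cfsg.Agent.S0012.result 2 hQ2).2 ⟨a * q * a⁻¹ * q⁻¹, hc⟩
    refine ⟨_, h1, ?_⟩
    have h2 := hcomm q hq
    simp only [Subgroup.coe_subtype, Subgroup.coe_pow]
    calc (a * q * a⁻¹ * q⁻¹) ^ 2 = a * (q * a⁻¹ * q⁻¹) * a * (q * a⁻¹ * q⁻¹) := by
          rw [pow_two]; group
      _ = a * (a * (q * a⁻¹ * q⁻¹)) * (q * a⁻¹ * q⁻¹) := by rw [mul_assoc a _ a, ← h2]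
      _ = a ^ 2 * q * (a ^ 2)⁻¹ * q⁻¹ := by rw [pow_two]; group
  refine ⟨part1, ?_⟩
  -- Part 2
  intro hne
  have hBc : ∀ a ∈ B, ∀ b ∈ B, a * b = b * a := fun a ha b hb => hAc a (hBA ha) b (hBA hb)
  have hexp : ∃ v ∈ B, v ^ 2 ≠ 1 := by
    by_contra hcon
    push Not at hcon
    apply hne
    refine ⟨⟨⟨?_⟩⟩, hcon⟩
    rintro ⟨a, ha⟩ ⟨b, hb⟩
    exact Subtype.ext (hBc a ha b hb)
  obtain ⟨v, hvB, hv2⟩ := hexp
  let Δ : Set (Subgroup X) := {R | ∃ g : X, R = B.map (MulAut.conj g).toMonoidHom}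
  have hBconj : ∀ g : X, A.map (MulAut.conj g).toMonoidHom = A → B.map (MulAut.conj g).toMonoidHom = B := by
    intro g hg
    rw [hB, MonoidHom.map_closure]
    congr 1
    ext y
    constructor
    · rintro ⟨_, ⟨a, ha, rfl⟩, rfl⟩
      refine ⟨g * a * g⁻¹, Cfsg.Agent.S1782.conj_mem hg ha, ?_⟩
      simp [MulAut.conj_apply, conj_pow]
    · rintro ⟨a, ha, rfl⟩
      refine ⟨(g⁻¹ * a * g) ^ 2, ⟨g⁻¹ * a * g, Cfsg.Agent.S1782.conj_mem' hg ha, rfl⟩, ?_⟩
      simp only [MulEquiv.coe_toMonoidHom, MulAut.conj_apply, pow_two]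
      group
  have hBti : ∀ h : X, B.map (MulAut.conj h).toMonoidHom = B ∨ B.map (MulAut.conj h).toMonoidHom ⊓ B = ⊥ := by
    intro h
    rcases hti h with h1 | h1
    · exact Or.inl (hBconj h h1)
    · right
      rw [eq_bot_iff, ← h1]
      exact inf_le_inf (map_mono hBA) hBA
  have hBQ : ∀ g : X, B.map (MulAut.conj g).toMonoidHom ≤ Q := by
    rintro g _ ⟨y, hy, rfl⟩
    simpa [MulAut.conj_apply] using hQn.conj_mem y (part1 hy) g
  have key := ambient Q hQ2 Δ (by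
      rintro s - _ ⟨g, rfl⟩
      exact ⟨s * g, map_conj_mul B s g⟩) (by
      rintro _ ⟨g, rfl⟩ _ ⟨h, rfl⟩
      rw [hcardconj, hcardconj]) (by
      rintro _ ⟨g, rfl⟩ _ ⟨h, rfl⟩
      exact ti_conj B hBti g h) (by
      rintro _ ⟨g, rfl⟩
      refine ⟨g * v * g⁻¹, ⟨v, hvB, by simp [MulAut.conj_apply]⟩, ?_⟩
      intro h
      apply hv2
      have e : (g * v * g⁻¹) ^ 2 = g * v ^ 2 * g⁻¹ := by rw [conj_pow]
      rw [e] at h
      calc v ^ 2 = g⁻¹ * (g * v ^ 2 * g⁻¹) * g := by group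
        _ = 1 := by rw [h]; group)
  rw [normalClosure]
  apply isMulCommutative_closure
  intro x hx y hy
  rw [Group.mem_conjugatesOfSet_iff] at hx hy
  obtain ⟨_, ⟨a, ha, rfl⟩, hx⟩ := hx
  obtain ⟨_, ⟨b, hb, rfl⟩, hy⟩ := hy
  obtain ⟨g, rfl⟩ := isConj_iff.mp hx
  obtain ⟨h, rfl⟩ := isConj_iff.mp hy
  have ha' : a ^ 2 ∈ B := subset_closure ⟨a, ha, rfl⟩
  have hb' : b ^ 2 ∈ B := subset_closure ⟨b, hb, rfl⟩
  have hx' : g * a ^ 2 * g⁻¹ ∈ B.map (MulAut.conj g).toMonoidHom := ⟨_, ha', by simp [MulAut.conj_apply]⟩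
  have hy' : h * b ^ 2 * h⁻¹ ∈ B.map (MulAut.conj h).toMonoidHom := ⟨_, hb', by simp [MulAut.conj_apply]⟩
  by_cases hgh : B.map (MulAut.conj g).toMonoidHom = B.map (MulAut.conj h).toMonoidHom
  · rw [hgh] at hx'
    obtain ⟨c, hc, hc'⟩ := hx'
    simp only [MulEquiv.coe_toMonoidHom, MulAut.conj_apply] at hc'
    change g * a ^ 2 * g⁻¹ * (h * b ^ 2 * h⁻¹) = h * b ^ 2 * h⁻¹ * (g * a ^ 2 * g⁻¹)
    rw [← hc']
    have := hBc c hc _ hb'
    calc h * c * h⁻¹ * (h * b ^ 2 * h⁻¹) = h * (c * b ^ 2) * h⁻¹ := by group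
      _ = h * (b ^ 2 * c) * h⁻¹ := by rw [this]
      _ = h * b ^ 2 * h⁻¹ * (h * c * h⁻¹) := by group
  · exact key _ ⟨g, rfl⟩ _ ⟨h, rfl⟩ (hBQ g) (hBQ h) hgh _ hx' _ hy'

end Cfsg.Agent.S1783
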