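import Cfsg.Statements.S1784
import Cfsg.Agent.S0012
import Cfsg.Agent.S1265
import Cfsg.Agent.Lib.Helper29.Extraspecial
import Cfsg.Agent.Lib.Helper29.FStar

set_option autoImplicit false
open Cfsg

namespace Cfsg.Agent.S1784

open Subgroup Cfsg.Agent.Lib.Helper29
open scoped commutatorElement

/-- An involutory nontrivial automorphism `a` of an extraspecial 2-group `P`: the subgroup `[a, P]` is the
centre of the preimage `P₀` of the fixed points of `a` on `P / Z(P)`. -/
theorem commutator_eq_center {P : Type*} [Group P] [Finite P] (hP : Cfsg.IsExtraspecial 2 P)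
    (a : P ≃* P) (ha : ∀ y, a (a y) = y) (hne : ∃ y, a y ≠ y)
    (P₀ : Subgroup P) (hP₀ : ∀ y, y ∈ P₀ ↔ a y * y⁻¹ ∈ center P) :
    closure (Set.range fun q : P => a q * q⁻¹) = P₀ ⊓ centralizer (P₀ : Set P) := by
  classical
  have : Fact (Nat.Prime 2) := ⟨Nat.prime_two⟩
  have h2 : Nat.card (Subgroup.center P) = 2 := hP.2
  have hcomm := IsExtraspecial.commutator_mem_center hP
  have hcen : ∀ {c : P}, c ∈ Subgroup.center P → ∀ g : P, g * c = c * g :=
    fun hc g => Subgroup.mem_center_iff.mp hc g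
  have hb1 : ∀ u y y' : P, ⁅u, y * y'⁆ = ⁅u, y⁆ * ⁅u, y'⁆ := by
    intro u y y'
    have h := hcen (hcomm u y') y
    calc ⁅u, y * y'⁆ = ⁅u, y⁆ * (y * ⁅u, y'⁆) * y⁻¹ := by
          simp only [commutatorElement_def]; group
      _ = ⁅u, y⁆ * ⁅u, y'⁆ := by rw [h]; group
  have hb2 : ∀ u u' y : P, ⁅u * u', y⁆ = ⁅u, y⁆ * ⁅u', y⁆ := by
    intro u u' y
    have h := hcen (hcomm u' y) u
    calc ⁅u * u', y⁆ = (u * ⁅u', y⁆) * u⁻¹ * ⁅u, y⁆ := by
          simp only [commutatorElement_def]; group
      _ = ⁅u', y⁆ * ⁅u, y⁆ := by rw [h]; group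
      _ = ⁅u, y⁆ * ⁅u', y⁆ := (hcen (hcomm u' y) _).symm
  have hsq : ∀ x : P, x * x ∈ center P := by
    intro x
    rw [← hP.1.2.1, ← pow_two]
    exact (Cfsg.Agent.S0012.result 2 hP.1.1).2 x
  have hcc : ∀ {c : P}, c ∈ center P → c * c = 1 := fun hc => center_sq_eq_one h2 hc
  have hmulone : ∀ {c c' : P}, c ∈ center P → c' ∈ center P → (c * c' = 1 ↔ c = c') := by
    intro c c' hc hc'
    constructor
    · intro h
      calc c = c * (c' * c') := by rw [hcc hc', mul_one]
        _ = (c * c') * c' := by group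
        _ = c' := by rw [h, one_mul]
    · rintro rfl; exact hcc hc
  have hacen : ∀ c ∈ center P, a c ∈ center P := by
    intro c hc
    rw [mem_center_iff]
    intro g
    rw [← ha g, ← map_mul, ← map_mul, hcen hc]
  have hfix : ∀ c ∈ center P, a c = c := by
    intro c hc
    by_cases h1 : c = 1
    · simp [h1]
    · exact center_eq_of_ne_one h2 (hacen c hc) hc (by simpa using h1) h1
  have hca : ∀ x y : P, ⁅a x, a y⁆ = ⁅x, y⁆ := by
    intro x y
    rw [← map_commutatorElement, hfix _ (hcomm x y)]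
  have hinv2 : ∀ u y : P, ⁅u⁻¹, y⁆ = ⁅u, y⁆ := by
    intro u y
    have h := hb2 u u⁻¹ y
    rw [mul_inv_cancel, commutatorElement_one_left] at h
    exact ((hmulone (hcomm _ _) (hcomm _ _)).mp h.symm).symm
  have hinv1 : ∀ u y : P, ⁅u, y⁻¹⁆ = ⁅u, y⁆ := by
    intro u y
    have h := hb1 u y y⁻¹
    rw [mul_inv_cancel, commutatorElement_one_right] at h
    exact ((hmulone (hcomm _ _) (hcomm _ _)).mp h.symm).symm
  have hcl : ∀ {c : P}, c ∈ center P → ∀ y : P, ⁅c, y⁆ = 1 := by
    intro c hc y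
    rw [commutatorElement_eq_one_iff_mul_comm]; exact (hcen hc y).symm
  have hcr : ∀ {c : P}, c ∈ center P → ∀ y : P, ⁅y, c⁆ = 1 := by
    intro c hc y
    rw [commutatorElement_eq_one_iff_mul_comm]; exact hcen hc y
  have hδ : ∀ u y : P, ⁅a u * u⁻¹, y⁆ = 1 ↔ ⁅a u, y⁆ = ⁅u, y⁆ := by
    intro u y
    rw [hb2, hinv2, hmulone (hcomm _ _) (hcomm _ _)]
  set D := closure (Set.range fun q : P => a q * q⁻¹) with hD
  have hmemD : ∀ q : P, a q * q⁻¹ ∈ D := fun q => subset_closure ⟨q, rfl⟩
  -- conjugates of generators lie in `D`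
  have hconj : ∀ x q : P, x * (a q * q⁻¹) * x⁻¹ ∈ D := by
    intro x q
    have h := D.mul_mem (D.inv_mem (hmemD x)) (hmemD (x * q))
    have e : (a x * x⁻¹)⁻¹ * (a (x * q) * (x * q)⁻¹) = x * (a q * q⁻¹) * x⁻¹ := by
      rw [map_mul]; group
    rwa [e] at h
  -- the centre lies in `D`
  have hZD : center P ≤ D := by
    obtain ⟨q, hq⟩ := hne
    have hq1 : a q * q⁻¹ ≠ 1 := by
      intro h; exact hq (mul_inv_eq_one.mp h)
    obtain ⟨c, hcD, hcZ, hc1⟩ : ∃ c ∈ D, c ∈ center P ∧ c ≠ 1 := by
      by_cases hz : a q * q⁻¹ ∈ center P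
      · exact ⟨_, hmemD q, hz, hq1⟩
      · rw [mem_center_iff] at hz
        push Not at hz
        obtain ⟨x, hx⟩ := hz
        refine ⟨⁅x, a q * q⁻¹⁆, ?_, hcomm _ _, ?_⟩
        · rw [commutatorElement_def]
          exact D.mul_mem (hconj x q) (D.inv_mem (hmemD q))
        · intro h
          rw [commutatorElement_eq_one_iff_mul_comm] at h
          exact hx h
    intro c' hc'
    by_cases h1 : c' = 1
    · rw [h1]; exact D.one_mem
    · rw [center_eq_of_ne_one h2 hc' hcZ h1 hc1]; exact hcD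
  apply le_antisymm
  · rw [hD, closure_le]
    rintro _ ⟨q, rfl⟩
    refine ⟨?_, ?_⟩
    · change a q * q⁻¹ ∈ P₀
      rw [hP₀]
      have e : a (a q * q⁻¹) * (a q * q⁻¹)⁻¹ = (q * (a q)⁻¹) * (q * (a q)⁻¹) := by
        rw [map_mul, map_inv, ha]; group
      rw [e]; exact hsq _
    · change a q * q⁻¹ ∈ centralizer (P₀ : Set P)
      rw [mem_centralizer_iff]
      intro y hy
      have hy' := (hP₀ y).mp hy
      have h1 : ⁅a q * q⁻¹, y⁆ = 1 := by
        rw [hδ, ← hca q y]
        have e : a y = (a y * y⁻¹) * y := by group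
        rw [e, hb1, hcr hy', one_mul]
      rw [commutatorElement_eq_one_iff_mul_comm] at h1
      exact h1.symm
  · rintro w ⟨hw0, hwc⟩
    change w ∈ centralizer (P₀ : Set P) at hwc
    rw [mem_centralizer_iff] at hwc
    let σ : P → ℤ := fun c => if c = 1 then 1 else -1
    have hσ : ∀ c ∈ Subgroup.center P, ∀ c' ∈ Subgroup.center P, σ (c * c') = σ c * σ c' := by
      intro c hc c' hc'
      by_cases h1 : c = 1
      · subst h1; simp [σ]
      · by_cases h1' : c' = 1
        · subst h1'; simp [σ]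
        · have := center_eq_of_ne_one h2 hc hc' h1 h1'
          subst this
          simp [σ, h1, center_sq_eq_one h2 hc]
    have hσ1 : ∀ c, σ c = 1 ↔ c = 1 := by
      intro c
      by_cases h : c = 1 <;> simp [σ, h]
    have hδmul : ∀ u u' y : P, ⁅a (u * u') * (u * u')⁻¹, y⁆ = ⁅a u * u⁻¹, y⁆ * ⁅a u' * u'⁻¹, y⁆ := by
      intro u u' y
      have e : a (u * u') * (u * u')⁻¹ = (a u * u⁻¹) * (⁅u, a u' * u'⁻¹⁆ * (a u' * u'⁻¹)) := by
        rw [map_mul, commutatorElement_def]; group
      rw [e, hb2 (a u * u⁻¹), hb2 ⁅u, a u' * u'⁻¹⁆, hcl (hcomm _ _), one_mul]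
    obtain ⟨u, hu⟩ := exists_pairing_eq (fun u y => σ ⁅a u * u⁻¹, y⁆)
      (fun u y y' => by
        rw [hb1, hσ _ (hcomm _ _) _ (hcomm _ _)])
      (fun u u' y => by
        rw [hδmul, hσ _ (hcomm _ _) _ (hcomm _ _)])
      (fun u => by simp [σ]) (fun y => by simp [σ])
      (fun y => σ ⁅w, y⁆)
      (fun y y' => by
        rw [hb1, hσ _ (hcomm _ _) _ (hcomm _ _)])
      (by simp [σ])
      (fun y hy => by
        have hy0 : y ∈ P₀ := by
          rw [hP₀, mem_center_iff]
          intro g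
          have h1 : ⁅a g, y⁆ = ⁅g, y⁆ := (hδ g y).mp ((hσ1 _).mp (hy g))
          have h3 : ⁅g, a y⁆ = ⁅g, y⁆ := by
            rw [← h1, ← hca (a g) y, ha]
          have h4 : ⁅g, a y * y⁻¹⁆ = 1 := by
            rw [hb1, hinv1, hmulone (hcomm _ _) (hcomm _ _)]; exact h3
          rw [commutatorElement_eq_one_iff_mul_comm] at h4
          exact h4
        rw [hσ1, commutatorElement_eq_one_iff_mul_comm]
        exact (hwc y hy0).symm)
    have hkey : ∀ y : P, ⁅w, y⁆ = ⁅a u * u⁻¹, y⁆ := by
      intro y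
      have h := hu y
      by_cases h1 : ⁅w, y⁆ = 1
      · have h3 : σ ⁅a u * u⁻¹, y⁆ = 1 := by
          have : σ ⁅w, y⁆ = 1 := (hσ1 _).mpr h1
          rw [this, one_mul] at h
          exact h
        rw [h1, (hσ1 _).mp h3]
      · by_cases h1' : ⁅a u * u⁻¹, y⁆ = 1
        · exfalso
          simp [σ, h1, h1'] at h
        · exact center_eq_of_ne_one h2 (hcomm _ _) (hcomm _ _) h1 h1'
    have hwz : w * (a u * u⁻¹)⁻¹ ∈ center P := by
      rw [mem_center_iff]
      intro g
      have h1 : ⁅w * (a u * u⁻¹)⁻¹, g⁆ = 1 := by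
        rw [hb2, hinv2, hmulone (hcomm _ _) (hcomm _ _)]; exact hkey g
      rw [commutatorElement_eq_one_iff_mul_comm] at h1
      exact h1.symm
    have := D.mul_mem (hZD hwz) (hmemD u)
    rwa [inv_mul_cancel_right] at this

/-- Let G be a finite group and let z be an involution of G such that Q, the generalized Fitting subgroup of the centralizer C of z, is a 2-group of symplectic type (every characteristic abelian subgroup of Q is cyclic); suppose Q is extraspecial, and view Q inside G. Let α be an involution of C that is not in Q, and let Q₀ be the subgroup of those q ∈ Q whose commutator with α lies in the subgroup generated by z. Then (a) the subgroup generated by the commutators α q α⁻¹ q⁻¹, q ∈ Q, equals the centre of Q₀; and (b) if Q₀ is not contained in the product of the centralizer of α in Q with the subgroup generated by z, then some element of Q conjugates α to α z. -/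
theorem result {G : Type*} [Group G] [Finite G] (z : G) (hz : orderOf z = 2) (hQ : Cfsg.IsOfSymplecticType ↥(Cfsg.generalizedFittingSubgroup ↥(Subgroup.centralizer ({z} : Set G)))) (hE : Cfsg.IsExtraspecial 2 ↥(Cfsg.generalizedFittingSubgroup ↥(Subgroup.centralizer ({z} : Set G))))
    (α : G) (hα : orderOf α = 2) (hαC : α ∈ Subgroup.centralizer ({z} : Set G)) (hαQ : α ∉ (Cfsg.generalizedFittingSubgroup ↥(Subgroup.centralizer ({z} : Set G))).map (Subgroup.centralizer ({z} : Set G)).subtype)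
    (Q₀ : Subgroup G) (hQ₀ : ∀ q : G, q ∈ Q₀ ↔ (q ∈ (Cfsg.generalizedFittingSubgroup ↥(Subgroup.centralizer ({z} : Set G))).map (Subgroup.centralizer ({z} : Set G)).subtype ∧ α * q * α⁻¹ * q⁻¹ ∈ Subgroup.zpowers z)) :
    Subgroup.closure ((fun q : G => α * q * α⁻¹ * q⁻¹) '' ((Cfsg.generalizedFittingSubgroup ↥(Subgroup.centralizer ({z} : Set G))).map (Subgroup.centralizer ({z} : Set G)).subtype : Set G)) = (Subgroup.center ↥Q₀).map Q₀.subtype ∧
      (¬ Q₀ ≤ ((Cfsg.generalizedFittingSubgroup ↥(Subgroup.centralizer ({z} : Set G))).map (Subgroup.centralizer ({z} : Set G)).subtype ⊓ Subgroup.centralizer ({α} : Set G)) ⊔ Subgroup.zpowers z →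
        ∃ q ∈ (Cfsg.generalizedFittingSubgroup ↥(Subgroup.centralizer ({z} : Set G))).map (Subgroup.centralizer ({z} : Set G)).subtype, q * α * q⁻¹ = α * z) := by
  set C := Subgroup.centralizer ({z} : Set G) with hC
  set F := Cfsg.generalizedFittingSubgroup ↥C with hF
  have hFn : F.Normal := generalizedFittingSubgroup_normal ↥C
  have hz1 : z ≠ 1 := by
    intro h; rw [h, orderOf_one] at hz; omega
  have hzz : z * z = 1 := by
    rw [← pow_two, ← hz, pow_orderOf_eq_one]
  have hzp : ∀ x : G, x ∈ zpowers z ↔ x = 1 ∨ x = z := by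
    intro x
    constructor
    · intro hx
      obtain ⟨n, rfl⟩ := mem_zpowers_iff.mp hx
      rcases Int.even_or_odd' n with ⟨m, rfl | rfl⟩
      · left
        rw [zpow_mul, zpow_two, hzz, one_zpow]
      · right
        rw [zpow_add, zpow_mul, zpow_two, hzz, one_zpow, one_mul, zpow_one]
    · rintro (rfl | rfl)
      · exact one_mem _
      · exact mem_zpowers _
  have hαα : α * α = 1 := by
    rw [← pow_two, ← hα, pow_orderOf_eq_one]
  have hαinv : α⁻¹ = α := inv_eq_of_mul_eq_one_left hαα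
  refine ⟨?_, ?_⟩
  · -- part (a)
    let ι : ↥F →* G := C.subtype.comp F.subtype
    have hι : Function.Injective ι := C.subtype_injective.comp F.subtype_injective
    have hιr : ∀ q : G, q ∈ F.map C.subtype ↔ ∃ x : ↥F, ι x = q := by
      intro q
      constructor
      · rintro ⟨c, hc, rfl⟩
        exact ⟨⟨c, hc⟩, rfl⟩
      · rintro ⟨x, rfl⟩
        exact ⟨x.1, x.2, rfl⟩
    let α' : ↥C := ⟨α, hαC⟩
    let a : ↥F ≃* ↥F := MulAut.conjNormal α'
    have hιa : ∀ x : ↥F, ι (a x) = α * ι x * α⁻¹ := by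
      intro x
      change (((MulAut.conjNormal α' x : ↥F) : ↥C) : G) = _
      rw [MulAut.conjNormal_apply]
      rfl
    have ha : ∀ y, a (a y) = y := by
      intro y
      apply hι
      rw [hιa, hιa, hαinv]
      calc α * (α * ι y * α) * α = (α * α) * ι y * (α * α) := by group
        _ = ι y := by rw [hαα]; group
    have hne : ∃ y, a y ≠ y := by
      by_contra hcon
      push Not at hcon
      apply hαQ
      refine ⟨α', ?_, rfl⟩
      apply Cfsg.Agent.S1265.result
      rw [mem_centralizer_iff]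
      intro y hy
      have h1 := congrArg ι (hcon ⟨y, hy⟩)
      rw [hιa] at h1
      apply Subtype.ext
      change (y : G) * α = α * (y : G)
      change α * (y : G) * α⁻¹ = (y : G) at h1
      calc (y : G) * α = (α * (y : G) * α⁻¹) * α := by rw [h1]
        _ = α * (y : G) := by group
    -- the central involution
    have hzC : z ∈ C := by
      rw [hC, mem_centralizer_singleton_iff]
    have hzF : (⟨z, hzC⟩ : ↥C) ∈ F := by
      apply fittingSubgroup_le_generalizedFittingSubgroup
      apply center_le_fittingSubgroup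
      rw [mem_center_iff]
      rintro ⟨g, hg⟩
      apply Subtype.ext
      rw [hC, mem_centralizer_singleton_iff] at hg
      exact hg
    let z' : ↥F := ⟨⟨z, hzC⟩, hzF⟩
    have hz'ι : ι z' = z := rfl
    have hz'c : z' ∈ center ↥F := by
      rw [mem_center_iff]
      rintro ⟨⟨g, hg⟩, hgF⟩
      apply hι
      rw [hC, mem_centralizer_singleton_iff] at hg
      exact hg
    have hz'1 : z' ≠ 1 := by
      intro h
      apply hz1
      rw [← hz'ι, h, map_one]
    have hcenter : ∀ x : ↥F, x ∈ center ↥F ↔ ι x ∈ zpowers z := by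
      intro x
      rw [hzp]
      constructor
      · intro hx
        by_cases h1 : x = 1
        · left; rw [h1, map_one]
        · right
          rw [center_eq_of_ne_one hE.2 hx hz'c h1 hz'1, hz'ι]
      · rintro (h | h)
        · have : x = 1 := hι (by rw [h, map_one])
          rw [this]; exact one_mem _
        · have : x = z' := hι (by rw [h, hz'ι])
          rw [this]; exact hz'c
    have hP₀ : ∀ y : ↥F, y ∈ Q₀.comap ι ↔ a y * y⁻¹ ∈ center ↥F := by
      intro y
      rw [mem_comap, hQ₀, hcenter, map_mul, map_inv, hιa]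
      constructor
      · intro h; exact h.2
      · intro h; exact ⟨(hιr _).mpr ⟨y, rfl⟩, h⟩
    have key := commutator_eq_center hE a ha hne (Q₀.comap ι) hP₀
    have h1 : Subgroup.closure ((fun q : G => α * q * α⁻¹ * q⁻¹) '' (F.map C.subtype : Set G)) =
        (closure (Set.range fun q : ↥F => a q * q⁻¹)).map ι := by
      rw [MonoidHom.map_closure]
      congr 1
      ext g
      constructor
      · rintro ⟨q, hq, rfl⟩
        obtain ⟨x, rfl⟩ := (hιr q).mp hq
        refine ⟨_, ⟨x, rfl⟩, ?_⟩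
        change ι (a x * x⁻¹) = _
        rw [map_mul, map_inv, hιa]
      · rintro ⟨_, ⟨x, rfl⟩, rfl⟩
        refine ⟨ι x, (hιr _).mpr ⟨x, rfl⟩, ?_⟩
        change _ = ι (a x * x⁻¹)
        rw [map_mul, map_inv, hιa]
    rw [h1, key]
    ext g
    constructor
    · rintro ⟨x, ⟨hx0, hxc⟩, rfl⟩
      change x ∈ centralizer ((Q₀.comap ι : Subgroup ↥F) : Set ↥F) at hxc
      rw [mem_centralizer_iff] at hxc
      have hx0' : ι x ∈ Q₀ := hx0
      refine ⟨⟨ι x, hx0'⟩, ?_, rfl⟩
      change (⟨ι x, hx0'⟩ : ↥Q₀) ∈ center ↥Q₀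
      rw [mem_center_iff]
      rintro ⟨h, hh⟩
      apply Subtype.ext
      obtain ⟨y, rfl⟩ := (hιr h).mp ((hQ₀ h).mp hh).1
      change ι y * ι x = ι x * ι y
      rw [← map_mul, ← map_mul, hxc y hh]
    · rintro ⟨⟨q, hq⟩, hqc, rfl⟩
      obtain ⟨x, rfl⟩ := (hιr q).mp ((hQ₀ q).mp hq).1
      refine ⟨x, ⟨hq, ?_⟩, rfl⟩
      change x ∈ centralizer ((Q₀.comap ι : Subgroup ↥F) : Set ↥F)
      rw [mem_centralizer_iff]
      intro y hy
      apply hι
      rw [map_mul, map_mul]
      have := mem_center_iff.mp hqc ⟨ι y, hy⟩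
      exact congrArg Subtype.val this
  · -- part (b)
    intro hnle
    obtain ⟨q, hq0, hq⟩ := SetLike.not_le_iff_exists.mp hnle
    obtain ⟨hqQ, hqz⟩ := (hQ₀ q).mp hq0
    refine ⟨q, hqQ, ?_⟩
    rcases (hzp _).mp hqz with h | h
    · exfalso
      apply hq
      apply mem_sup_left
      refine ⟨hqQ, ?_⟩
      change q ∈ centralizer ({α} : Set G)
      rw [mem_centralizer_singleton_iff]
      calc q * α = (α * q * α⁻¹ * q⁻¹)⁻¹ * (α * q) := by group
        _ = α * q := by rw [h]; group
    · rw [hαinv] at h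
      calc q * α * q⁻¹ = α * α * q * α * q⁻¹ := by rw [hαα]; group
        _ = α * (α * q * α * q⁻¹) := by group
        _ = α * z := by rw [h]

end Cfsg.Agent.S1784
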