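import Cfsg.Statements.S1785

set_option autoImplicit false
open Cfsg

namespace Cfsg.Agent.S1785

variable {X : Type*} [Group X]

/-- elementwise form of `IsElementaryAbelian 2` -/
theorem ea_iff (A : Subgroup X) : IsElementaryAbelian 2 A ↔
    (∀ x ∈ A, ∀ y ∈ A, x * y = y * x) ∧ ∀ a ∈ A, a * a = 1 := by
  constructor
  · rintro ⟨h1, h2⟩
    refine ⟨fun x hx y hy => ?_, fun a ha => by rw [← pow_two]; exact h2 a ha⟩
    have := h1.is_comm.comm ⟨x, hx⟩ ⟨y, hy⟩
    simpa using congrArg Subtype.val this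
  · rintro ⟨h1, h2⟩
    refine ⟨⟨⟨?_⟩⟩, fun a ha => by rw [pow_two]; exact h2 a ha⟩
    rintro ⟨x, hx⟩ ⟨y, hy⟩
    exact Subtype.ext (h1 x hx y hy)

/-- `B` together with a commuting involution `a`. -/
def adjoin (B : Subgroup X) (a : X) (ha : a * a = 1) (hc : ∀ b ∈ B, a * b = b * a) : Subgroup X where
  carrier := {x | x ∈ B ∨ x * a ∈ B}
  one_mem' := Or.inl B.one_mem
  mul_mem' := by
    rintro x y (hx | hx) (hy | hy)
    · exact Or.inl (B.mul_mem hx hy)
    · right
      rw [mul_assoc]; exact B.mul_mem hx hy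
    · right
      have : x * y * a = (x * a) * y := by rw [mul_assoc, ← hc y hy, mul_assoc]
      rw [this]; exact B.mul_mem hx hy
    · left
      have : x * y = (x * a) * (y * a) := by
        rw [mul_assoc x a, hc _ hy, mul_assoc y, ha, mul_one]
      rw [this]; exact B.mul_mem hx hy
  inv_mem' := by
    rintro x (hx | hx)
    · exact Or.inl (B.inv_mem hx)
    · right
      have h1 := hc _ hx
      have : x⁻¹ * a = (x * a)⁻¹ := by
        have h2 : a⁻¹ = a := inv_eq_of_mul_eq_one_left ha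
        have h3 : a * x = x * a := by
          have : a * (x * a) * a = x * a * a * a := by rw [h1]
          simpa [mul_assoc, ha] using this
        rw [mul_inv_rev, h2]
        calc x⁻¹ * a = x⁻¹ * (a * x) * x⁻¹ := by group
          _ = x⁻¹ * (x * a) * x⁻¹ := by rw [h3]
          _ = a * x⁻¹ := by group
      rw [this]; exact B.inv_mem hx

section adjoin
variable {B : Subgroup X} {a : X} {ha : a * a = 1} {hc : ∀ b ∈ B, a * b = b * a}

theorem mem_adjoin {x : X} : x ∈ adjoin B a ha hc ↔ x ∈ B ∨ x * a ∈ B := Iff.rfl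

theorem le_adjoin : B ≤ adjoin B a ha hc := fun _ hx => Or.inl hx

theorem self_mem_adjoin : a ∈ adjoin B a ha hc := Or.inr (by rw [ha]; exact B.one_mem)

theorem adjoin_le {K : Subgroup X} (hB : B ≤ K) (haK : a ∈ K) : adjoin B a ha hc ≤ K := by
  rintro x (hx | hx)
  · exact hB hx
  · have : x = (x * a) * a := by rw [mul_assoc, ha, mul_one]
    rw [this]; exact K.mul_mem (hB hx) haK

theorem card_adjoin (haB : a ∉ B) : Nat.card ↥(adjoin B a ha hc) = 2 * Nat.card ↥B := by
  have hidx : (B.subgroupOf (adjoin B a ha hc)).index = 2 := by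
    rw [Subgroup.index_eq_two_iff_exists_notMem_and]
    refine ⟨⟨a, self_mem_adjoin⟩, ?_, ?_⟩
    · simpa [Subgroup.mem_subgroupOf] using haB
    · rintro ⟨x, hx⟩
      simp only [Subgroup.mem_subgroupOf]
      exact hx.symm
  have h1 := Subgroup.card_mul_index (B.subgroupOf (adjoin B a ha hc))
  rw [hidx, Nat.card_congr (Subgroup.subgroupOfEquivOfLe (le_adjoin (ha := ha) (hc := hc))).toEquiv] at h1
  omega

/-- anything commuting with `B` and `a` commutes with `adjoin B a`. -/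
theorem comm_adjoin {y : X} (hy : ∀ b ∈ B, y * b = b * y) (hya : y * a = a * y) :
    ∀ x ∈ adjoin B a ha hc, y * x = x * y := by
  rintro x (hx | hx)
  · exact hy x hx
  · have e : x = (x * a) * a := by rw [mul_assoc, ha, mul_one]
    have h1 := hy _ hx
    calc y * x = y * ((x * a) * a) := by rw [← e]
      _ = (y * (x * a)) * a := by simp only [mul_assoc]
      _ = (x * a) * (y * a) := by rw [h1]; simp only [mul_assoc]
      _ = (x * a) * a * y := by rw [hya]; simp only [mul_assoc]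
      _ = x * y := by rw [← e]

theorem ea_adjoin (hB : IsElementaryAbelian 2 B) : IsElementaryAbelian 2 (adjoin B a ha hc) := by
  rw [ea_iff] at hB ⊢
  obtain ⟨h1, h2⟩ := hB
  have hcomm : ∀ x ∈ adjoin B a ha hc, ∀ y ∈ adjoin B a ha hc, x * y = y * x := by
    intro x hx y hy
    apply comm_adjoin (ha := ha) (hc := hc) _ _ y hy
    · intro b hb
      exact (comm_adjoin (ha := ha) (hc := hc) (fun b' hb' => h1 b hb b' hb') (hc b hb).symm x hx).symm
    · exact (comm_adjoin (ha := ha) (hc := hc) hc rfl x hx).symm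
  refine ⟨hcomm, ?_⟩
  rintro x (hx | hx)
  · exact h2 x hx
  · have h3 := h2 _ hx
    have h4 : a * x = x * a := comm_adjoin (ha := ha) (hc := hc) hc rfl x (Or.inr hx)
    calc x * x = x * x * (a * a) := by rw [ha, mul_one]
      _ = x * (x * a) * a := by simp only [mul_assoc]
      _ = x * (a * x) * a := by rw [h4]
      _ = (x * a) * (x * a) := by simp only [mul_assoc]
      _ = 1 := h3

end adjoin


theorem ea_of_le {A B : Subgroup X} (hB : IsElementaryAbelian 2 B) (h : A ≤ B) :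
    IsElementaryAbelian 2 A := by
  rw [ea_iff] at hB ⊢
  exact ⟨fun x hx y hy => hB.1 x (h hx) y (h hy), fun a ha => hB.2 a (h ha)⟩

/-- An involution `a` normalizing the elementary abelian 2-group `F`: `|F| ≤ |C_F(a)|²`. -/
theorem card_le_sq [Finite X] (F : Subgroup X) (hF : IsElementaryAbelian 2 F) (a : X) (ha : a * a = 1)
    (hN : ∀ f ∈ F, a * f * a⁻¹ ∈ F) :
    Nat.card ↥F ≤ (Nat.card ↥(F ⊓ Subgroup.centralizer ({a} : Set X))) ^ 2 := by
  rw [ea_iff] at hF
  obtain ⟨hc, h2⟩ := hF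
  have hainv : a⁻¹ = a := inv_eq_of_mul_eq_one_left ha
  let δ : ↥F →* ↥F :=
    { toFun := fun f => ⟨f * (a * f * a⁻¹), F.mul_mem f.2 (hN f f.2)⟩
      map_one' := by
        apply Subtype.ext
        simp
      map_mul' := by
        rintro ⟨f, hf⟩ ⟨g, hg⟩
        apply Subtype.ext
        change f * g * (a * (f * g) * a⁻¹) = f * (a * f * a⁻¹) * (g * (a * g * a⁻¹))
        have h1 := hc g hg _ (hN f hf)
        calc f * g * (a * (f * g) * a⁻¹) = f * (g * (a * f * a⁻¹)) * (a * g * a⁻¹) := by group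
          _ = f * ((a * f * a⁻¹) * g) * (a * g * a⁻¹) := by rw [h1]
          _ = f * (a * f * a⁻¹) * (g * (a * g * a⁻¹)) := by group }
  have hδ : ∀ f : ↥F, ((δ f : ↥F) : X) = f * (a * f * a⁻¹) := fun _ => rfl
  set Fa := (F ⊓ Subgroup.centralizer ({a} : Set X)).subgroupOf F with hFa
  have hker : δ.ker ≤ Fa := by
    intro f hf
    rw [MonoidHom.mem_ker] at hf
    have h1 : (f : X) * (a * f * a⁻¹) = 1 := by rw [← hδ, hf]; rfl
    rw [hFa, Subgroup.mem_subgroupOf]
    refine ⟨f.2, ?_⟩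
    change (f : X) ∈ Subgroup.centralizer ({a} : Set X)
    rw [Subgroup.mem_centralizer_singleton_iff]
    have h3 : a * f * a⁻¹ = (f : X) := by
      calc a * f * a⁻¹ = ((f : X) * f) * (a * f * a⁻¹) := by rw [h2 f f.2, one_mul]
        _ = (f : X) * (f * (a * f * a⁻¹)) := by rw [mul_assoc]
        _ = f := by rw [h1, mul_one]
    calc (f : X) * a = (a * f * a⁻¹) * a := by rw [h3]
      _ = a * f := by group
  have hrange : δ.range ≤ Fa := by
    rintro _ ⟨f, rfl⟩
    rw [hFa, Subgroup.mem_subgroupOf]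
    refine ⟨(δ f).2, ?_⟩
    change ((δ f : ↥F) : X) ∈ Subgroup.centralizer ({a} : Set X)
    rw [Subgroup.mem_centralizer_singleton_iff, hδ]
    have h1 := hc f f.2 _ (hN f f.2)
    calc (f : X) * (a * f * a⁻¹) * a = (a * f * a⁻¹) * f * a := by rw [h1]
      _ = a * f * (a⁻¹ * f * a) := by group
      _ = a * f * (a * f * a⁻¹) := by rw [hainv]
      _ = a * (f * (a * f * a⁻¹)) := by group
  have h1 := Subgroup.card_mul_index δ.ker
  rw [Subgroup.index_ker] at h1
  have h3 : Nat.card ↥Fa = Nat.card ↥(F ⊓ Subgroup.centralizer ({a} : Set X)) :=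
    Nat.card_congr (Subgroup.subgroupOfEquivOfLe inf_le_left).toEquiv
  rw [← h1, ← h3, pow_two]
  exact Nat.mul_le_mul (Subgroup.card_le_of_le hker) (Subgroup.card_le_of_le hrange)

theorem arith (d k n : ℕ) (hn : n = 4 ∨ n = 8) (h1 : n = d * 2 ^ k) (h2 : 32 ≤ d ^ (2 ^ k)) : False := by
  have hd0 : 0 < d := by
    rcases Nat.eq_zero_or_pos d with h | h
    · subst h; omega
    · exact h
  have hk3 : k ≤ 3 := by
    by_contra hk
    have h3 : 2 ^ 4 ≤ 2 ^ k := Nat.pow_le_pow_right (by norm_num) (by omega)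
    have h4 : d * 2 ^ 4 ≤ d * 2 ^ k := Nat.mul_le_mul_left d h3
    omega
  interval_cases k
  · have : d ≤ 8 := by omega
    interval_cases d <;> omega
  · have : d ≤ 4 := by omega
    interval_cases d <;> omega
  · have : d ≤ 2 := by omega
    interval_cases d <;> omega
  · have : d ≤ 1 := by omega
    interval_cases d; omega

theorem exists_centralizing [Finite X] (E : Subgroup X) [hEn : E.Normal] (hE : IsElementaryAbelian 2 E)
    (h32 : 32 ≤ Nat.card ↥E) (A : Subgroup X) (hA : IsElementaryAbelian 2 A)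
    (hcard : Nat.card ↥A = 4 ∨ Nat.card ↥A = 8) :
    ∃ f ∈ E, (∀ x ∈ A, f * x = x * f) ∧ f ∉ A := by
  have hE' := (ea_iff E).mp hE
  have hA' := (ea_iff A).mp hA
  let P : Subgroup X → Prop := fun B => A ⊓ E ≤ B ∧ B ≤ A ∧ ∃ k : ℕ, Nat.card ↥B = Nat.card ↥(A ⊓ E : Subgroup X) * 2 ^ k ∧
    Nat.card ↥E ≤ (Nat.card ↥(E ⊓ Subgroup.centralizer (B : Set X))) ^ (2 ^ k)
  have hP0 : P (A ⊓ E) := by
    refine ⟨le_rfl, inf_le_left, 0, by simp, ?_⟩
    have : E ⊓ Subgroup.centralizer ((A ⊓ E : Subgroup X) : Set X) = E := by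
      apply inf_eq_left.mpr
      intro e he
      rw [Subgroup.mem_centralizer_iff]
      intro d hd
      exact hE'.1 d hd.2 e he
    rw [this]; simp
  obtain ⟨B, hB⟩ := Set.Finite.exists_maximal (s := {B : Subgroup X | P B}) (Set.toFinite _) ⟨_, hP0⟩
  obtain ⟨hDB, hBA, k, hk1, hk2⟩ : P B := hB.1
  have hBeq : B = A := by
    by_contra hne
    obtain ⟨a, haA, haB⟩ := SetLike.exists_of_lt (lt_of_le_of_ne hBA hne)
    have ha : a * a = 1 := hA'.2 a haA
    have hc : ∀ b ∈ B, a * b = b * a := fun b hb => hA'.1 a haA b (hBA hb)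
    have hP' : P (adjoin B a ha hc) := by
      refine ⟨hDB.trans le_adjoin, adjoin_le hBA haA, k + 1, ?_, ?_⟩
      · rw [card_adjoin haB, hk1, pow_succ]; ring
      · set F := E ⊓ Subgroup.centralizer (B : Set X) with hF
        have hFea : IsElementaryAbelian 2 F := ea_of_le hE inf_le_left
        have hFN : ∀ f ∈ F, a * f * a⁻¹ ∈ F := by
          rintro f ⟨hfE, hfB⟩
          refine ⟨hEn.conj_mem f hfE a, ?_⟩
          change a * f * a⁻¹ ∈ Subgroup.centralizer (B : Set X)
          rw [Subgroup.mem_centralizer_iff]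
          intro b hb
          have h1 : b * f = f * b := Subgroup.mem_centralizer_iff.mp hfB b hb
          have h2 := hc b hb
          have h3 : a⁻¹ * b = b * a⁻¹ := by
            calc a⁻¹ * b = a⁻¹ * (b * a) * a⁻¹ := by group
              _ = a⁻¹ * (a * b) * a⁻¹ := by rw [h2]
              _ = b * a⁻¹ := by group
          calc b * (a * f * a⁻¹) = (b * a) * f * a⁻¹ := by group
            _ = (a * b) * f * a⁻¹ := by rw [h2]
            _ = a * (b * f) * a⁻¹ := by group
            _ = a * (f * b) * a⁻¹ := by rw [h1]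
            _ = a * f * (b * a⁻¹) := by group
            _ = a * f * (a⁻¹ * b) := by rw [h3]
            _ = a * f * a⁻¹ * b := by group
        have h1 := card_le_sq F hFea a ha hFN
        have h2 : F ⊓ Subgroup.centralizer ({a} : Set X) ≤
            E ⊓ Subgroup.centralizer ((adjoin B a ha hc : Subgroup X) : Set X) := by
          rintro f ⟨⟨hfE, hfB⟩, hfa⟩
          refine ⟨hfE, ?_⟩
          change f ∈ Subgroup.centralizer ((adjoin B a ha hc : Subgroup X) : Set X)
          rw [Subgroup.mem_centralizer_iff]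
          intro x hx
          refine (comm_adjoin (ha := ha) (hc := hc) (y := f) ?_ ?_ x hx).symm
          · intro b hb
            exact (Subgroup.mem_centralizer_iff.mp hfB b hb).symm
          · exact Subgroup.mem_centralizer_singleton_iff.mp hfa
        have h3 := Subgroup.card_le_of_le h2
        calc Nat.card ↥E ≤ (Nat.card ↥F) ^ (2 ^ k) := hk2
          _ ≤ ((Nat.card ↥(F ⊓ Subgroup.centralizer ({a} : Set X))) ^ 2) ^ (2 ^ k) :=
              Nat.pow_le_pow_left h1 _
          _ ≤ ((Nat.card ↥(E ⊓ Subgroup.centralizer ((adjoin B a ha hc : Subgroup X) : Set X))) ^ 2) ^ (2 ^ k) :=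
              Nat.pow_le_pow_left (Nat.pow_le_pow_left h3 _) _
          _ = _ := by rw [← pow_mul, pow_succ, mul_comm]
    exact haB (hB.2 hP' le_adjoin self_mem_adjoin)
  subst hBeq
  by_contra hcon
  push Not at hcon
  have hle : E ⊓ Subgroup.centralizer (B : Set X) ≤ B ⊓ E := by
    rintro f ⟨hfE, hfB⟩
    refine ⟨hcon f hfE ?_, hfE⟩
    intro x hx
    exact (Subgroup.mem_centralizer_iff.mp hfB x hx).symm
  have h1 := Subgroup.card_le_of_le hle
  set d := Nat.card ↥(B ⊓ E : Subgroup X) with hd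
  have h2 : 32 ≤ d ^ (2 ^ k) := le_trans h32 (le_trans hk2 (Nat.pow_le_pow_left h1 _))
  exact arith d k _ hcard hk1 h2

theorem comm_eq_bot {C D : Subgroup X} (h : ∀ x ∈ C, ∀ y ∈ D, x * y = y * x) : ⁅C, D⁆ = ⊥ := by
  rw [Subgroup.commutator_eq_bot_iff_le_centralizer]
  intro x hx
  rw [Subgroup.mem_centralizer_iff]
  intro y hy
  exact (h x hx y hy).symm

theorem step [Finite X] (E : Subgroup X) [hEn : E.Normal] (hE : IsElementaryAbelian 2 E)
    (h32 : 32 ≤ Nat.card ↥E) (A : Subgroup X) (hA : IsElementaryAbelian 2 A)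
    (hcard : Nat.card ↥A = 8) (hAE : ¬ A ≤ E) :
    ∃ A₁ : Subgroup X, IsElementaryAbelian 2 A₁ ∧ Nat.card ↥A₁ = 8 ∧ (∀ x ∈ A, ∀ y ∈ A₁, x * y = y * x) ∧
      Nat.card ↥(A ⊓ E : Subgroup X) < Nat.card ↥(A₁ ⊓ E : Subgroup X) := by
  have hE' := (ea_iff E).mp hE
  have hA' := (ea_iff A).mp hA
  obtain ⟨f, hfE, hfA, hfnA⟩ := exists_centralizing E hE h32 A hA (Or.inr hcard)
  have hff : f * f = 1 := hE'.2 f hfE
  have hD : A ⊓ E ≠ A := fun h => hAE (inf_eq_left.mp h)
  obtain ⟨B, hB⟩ := Set.Finite.exists_maximal (s := {B : Subgroup X | A ⊓ E ≤ B ∧ B ≤ A ∧ B ≠ A})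
    (Set.toFinite _) ⟨A ⊓ E, le_rfl, inf_le_left, hD⟩
  obtain ⟨hDB, hBA, hBne⟩ := hB.1
  obtain ⟨a, haA, haB⟩ := SetLike.exists_of_lt (lt_of_le_of_ne hBA hBne)
  have ha : a * a = 1 := hA'.2 a haA
  have hc : ∀ b ∈ B, a * b = b * a := fun b hb => hA'.1 a haA b (hBA hb)
  have hadj : adjoin B a ha hc = A := by
    by_contra hne
    exact haB (hB.2 (y := adjoin B a ha hc) ⟨hDB.trans le_adjoin, adjoin_le hBA haA, hne⟩ le_adjoin
      self_mem_adjoin)
  have hB4 : Nat.card ↥B = 4 := by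
    have := card_adjoin (ha := ha) (hc := hc) haB
    rw [hadj, hcard] at this
    omega
  have hcf : ∀ b ∈ B, f * b = b * f := fun b hb => hfA b (hBA hb)
  have hfB : f ∉ B := fun h => hfnA (hBA h)
  refine ⟨adjoin B f hff hcf, ea_adjoin (ea_of_le hA hBA), ?_, ?_, ?_⟩
  · rw [card_adjoin hfB, hB4]
  · intro x hx
    exact comm_adjoin (fun b hb => hA'.1 x hx b (hBA hb)) (hfA x hx).symm
  · have hcD : ∀ b ∈ (A ⊓ E : Subgroup X), f * b = b * f := fun b hb => hfA b hb.1
    have hfD : f ∉ (A ⊓ E : Subgroup X) := fun h => hfnA h.1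
    have h1 : adjoin (A ⊓ E) f hff hcD ≤ adjoin B f hff hcf ⊓ E :=
      adjoin_le (le_inf (hDB.trans le_adjoin) inf_le_right) ⟨self_mem_adjoin, hfE⟩
    have h2 := Subgroup.card_le_of_le h1
    rw [card_adjoin hfD] at h2
    have : 0 < Nat.card ↥(A ⊓ E : Subgroup X) := Nat.card_pos
    omega

/-- the edge relation of the statement -/
abbrev rel (C D : Subgroup X) : Prop :=
  Cfsg.IsElementaryAbelian 2 C ∧ Nat.card ↥C = 8 ∧ Cfsg.IsElementaryAbelian 2 D ∧ Nat.card ↥D = 8 ∧ ⁅C, D⁆ = ⊥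

theorem reach [Finite X] (E : Subgroup X) [hEn : E.Normal] (hE : IsElementaryAbelian 2 E)
    (h32 : 32 ≤ Nat.card ↥E) : ∀ n : ℕ, ∀ A : Subgroup X, IsElementaryAbelian 2 A → Nat.card ↥A = 8 →
      8 - Nat.card ↥(A ⊓ E : Subgroup X) ≤ n →
      ∃ A' : Subgroup X, A' ≤ E ∧ IsElementaryAbelian 2 A' ∧ Nat.card ↥A' = 8 ∧
        Relation.ReflTransGen rel A A' := by
  intro n
  induction n with
  | zero =>
    intro A hA hcard hn
    refine ⟨A, ?_, hA, hcard, Relation.ReflTransGen.refl⟩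
    have : A ⊓ E = A := Subgroup.eq_of_le_of_card_ge inf_le_left (by omega)
    exact inf_eq_left.mp this
  | succ n ih =>
    intro A hA hcard hn
    by_cases hAE : A ≤ E
    · exact ⟨A, hAE, hA, hcard, Relation.ReflTransGen.refl⟩
    · obtain ⟨A₁, hA₁, hcard₁, hcomm, hlt⟩ := step E hE h32 A hA hcard hAE
      obtain ⟨A', h1, h2, h3, h4⟩ := ih A₁ hA₁ hcard₁ (by omega)
      exact ⟨A', h1, h2, h3, Relation.ReflTransGen.head ⟨hA, hcard, hA₁, hcard₁, comm_eq_bot hcomm⟩ h4⟩

/-- Let X be a finite 2-group having a normal elementary abelian subgroup of order at least 32. Then (a) for any two elementary abelian subgroups A, B of X of order 8 there is a chain A = A₁, A₂, …, Aₙ = B of elementary abelian subgroups of order 8 in which consecutive members commute elementwise; and (b) every elementary abelian subgroup of X of order 4 is contained in an elementary abelian subgroup of order 8. -/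
theorem result {X : Type*} [Group X] [Finite X]
    (hX : IsPGroup 2 X) (E : Subgroup X) [E.Normal] (hE : Cfsg.IsElementaryAbelian 2 E) (hE32 : 32 ≤ Nat.card ↥E) :
    (∀ A B : Subgroup X, Cfsg.IsElementaryAbelian 2 A → Nat.card ↥A = 8 → Cfsg.IsElementaryAbelian 2 B → Nat.card ↥B = 8 →
        Relation.ReflTransGen
          (fun C D : Subgroup X => Cfsg.IsElementaryAbelian 2 C ∧ Nat.card ↥C = 8 ∧ Cfsg.IsElementaryAbelian 2 D ∧ Nat.card ↥D = 8 ∧ ⁅C, D⁆ = ⊥)
          A B) ∧
      (∀ V : Subgroup X, Cfsg.IsElementaryAbelian 2 V → Nat.card ↥V = 4 →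
        ∃ A : Subgroup X, V ≤ A ∧ Cfsg.IsElementaryAbelian 2 A ∧ Nat.card ↥A = 8) := by
  have hE' := (ea_iff E).mp hE
  refine ⟨?_, ?_⟩
  · intro A B hA hA8 hB hB8
    obtain ⟨A', hA'E, hA', hA'8, hAA'⟩ := reach E hE hE32 _ A hA hA8 le_rfl
    obtain ⟨B', hB'E, hB', hB'8, hBB'⟩ := reach E hE hE32 _ B hB hB8 le_rfl
    have hsymm : Std.Symm (rel (X := X)) := ⟨by
      rintro C D ⟨h1, h2, h3, h4, h5⟩
      exact ⟨h3, h4, h1, h2, by rw [Subgroup.commutator_comm]; exact h5⟩⟩
    have hedge : rel A' B' :=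
      ⟨hA', hA'8, hB', hB'8, comm_eq_bot fun x hx y hy => hE'.1 x (hA'E hx) y (hB'E hy)⟩
    exact (hAA'.trans (Relation.ReflTransGen.single hedge)).trans
      (Relation.ReflTransGen.stdSymm.symm _ _ hBB')
  · intro V hV hV4
    obtain ⟨f, hfE, hfV, hfnV⟩ := exists_centralizing E hE hE32 V hV (Or.inl hV4)
    refine ⟨adjoin V f (hE'.2 f hfE) hfV, le_adjoin, ea_adjoin hV, ?_⟩
    rw [card_adjoin hfnV, hV4]

end Cfsg.Agent.S1785
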