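import Cfsg.Statements.S1962
import Cfsg.Agent.Lib.Helper33.Transfer

set_option autoImplicit false
open Cfsg

namespace Cfsg.Agent.S1962

open Cfsg.Agent.Lib.Helper33
open scoped Pointwise

/-- Local-to-global control of transfer through well-placed subgroups. Let p be a prime, G a finite group with Sylow p-subgroup S, and W a conjugacy functor for p on G. If W controls transfer in N_G(T) for every nonidentity subgroup T of S that is well placed in S with respect to W, then W controls transfer in G: S ∩ G' = S ∩ (N_G(W(S)))'. -/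
theorem result {G : Type*} [Group G] [Finite G] {p : ℕ} [Fact p.Prime] (S : Sylow p G) (W : Subgroup G → Subgroup G) (hW : Cfsg.IsConjugacyFunctor p W) (hloc : ∀ T : Subgroup G, T ≠ ⊥ → Cfsg.IsWellPlaced p W (S : Subgroup G) T → Cfsg.ControlsTransferIn p W (Subgroup.normalizer ((T : Subgroup G) : Set G))) : Cfsg.ControlsTransferIn p W ⊤ := by
  have h𝓦 : ∀ W' ∈ ({W} : Set (Subgroup G → Subgroup G)), Cfsg.IsConjugacyFunctor p W' := by
    rintro _ rfl; exact hW
  rw [controlsTransferIn_iff_family, familyControlsTransferIn_iff]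
  refine ⟨S, relSyl_top S, le_antisymm ?_ (FD_le _ _ _)⟩
  refine (relSyl_top S).inf_commutator_le ?_
  intro x hx u _ hux
  refine local_to_global_wellPlaced S hW (fusionRel_goodD (FD {W} ⊤ S)) ?_ ?_ {x}
    (Set.singleton_subset_iff.2 hx) u ?_ x rfl
  · intro y hy A hA hyA
    exact goodD_FD_of_mem h𝓦 le_top S.2 rfl ⟨Subgroup.mem_top y, hy⟩ hA hyA
  · intro T hT hwp Hy A hA h hh hhA
    refine goodD_local h𝓦 (controlsTransferIn_iff_family.1 (hloc T hT hwp))
      (IsWellPlaced.relSyl S.2 hwp) ?_ A hA h hh hhA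
    rintro _ rfl
    exact Hy
  · rintro _ ⟨_, rfl, rfl⟩
    exact hux

end Cfsg.Agent.S1962
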