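import Cfsg.Statements.S1964
import Cfsg.Agent.Lib.Helper33.WellPlaced

set_option autoImplicit false
open Cfsg

namespace Cfsg.Agent.S1964

open Cfsg.Agent.Lib.Helper33
open scoped Pointwise

/-- Let p be a prime, G a finite group with Sylow p-subgroup S and W a conjugacy functor for p on G. Then the subgroups of S that are well placed in S with respect to W form a conjugation family for S in G. -/
theorem result {G : Type*} [Group G] [Finite G] {p : ℕ} [Fact p.Prime] (S : Sylow p G) (W : Subgroup G → Subgroup G) (hW : Cfsg.IsConjugacyFunctor p W) : Cfsg.IsConjugationFamily {T : Subgroup G | Cfsg.IsWellPlaced p W (S : Subgroup G) T} (S : Subgroup G) := by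
  rw [isConjugationFamily_iff_stepChain]
  refine ⟨fun T hT => hT.1, fun A g _ hA hg => ?_⟩
  refine alperin_set S _ (fun T hT => hT.1) ?_ A hA g hg
  intro T hT
  obtain ⟨g, -, hg⟩ := exists_wellPlaced_conj hW S T hT
  exact ⟨_, hg, ⟨g, rfl⟩, IsWellPlaced.relSyl S.2 hg⟩

end Cfsg.Agent.S1964
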