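import Cfsg.Statements.S1966
import Cfsg.Agent.Lib.Helper33.ConjFamily
import Cfsg.Agent.Lib.Helper33.PCore

set_option autoImplicit false
open Cfsg

namespace Cfsg.Agent.S1966

open Cfsg.Agent.Lib.Helper33
open scoped Pointwise

/-- Let p be a prime, G a finite group with Sylow p-subgroup S and 𝓕 a conjugation family for S in G. Then the members of 𝓕 containing O_p(G) still form a conjugation family for S in G. -/
theorem result {G : Type*} [Group G] [Finite G] {p : ℕ} [Fact p.Prime] (S : Sylow p G) (𝓕 : Set (Subgroup G)) (h : Cfsg.IsConjugationFamily 𝓕 (S : Subgroup G)) : Cfsg.IsConjugationFamily {T : Subgroup G | T ∈ 𝓕 ∧ Cfsg.pCore p G ≤ T} (S : Subgroup G) := by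
  rw [isConjugationFamily_iff_stepChain] at h ⊢
  obtain ⟨h1, h2⟩ := h
  refine ⟨fun T hT => h1 T hT.1, fun A g hne hA hg => ?_⟩
  have hR : ((pCore p G : Subgroup G) : Set G) ⊆ (S : Subgroup G) := pCore_le_sylow S
  have hRg : ∀ k : G, MulAut.conj k • ((pCore p G : Subgroup G) : Set G) = (pCore p G : Subgroup G) := by
    intro k
    rw [← Subgroup.coe_pointwise_smul, conj_smul_pCore]
  have hc := h2 (A ∪ (pCore p G : Subgroup G)) g (hne.mono Set.subset_union_left)
    (Set.union_subset hA hR) (by
      rw [Set.smul_set_union, hRg]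
      exact Set.union_subset hg hR)
  clear hg
  induction hc with
  | nil => exact StepChain.nil
  | snoc k x _ hx ih =>
    refine StepChain.snoc _ _ ih ?_
    obtain ⟨T, hT, hxT, hsub⟩ := hx
    rw [Set.smul_set_union, hRg] at hsub
    exact ⟨T, ⟨hT, fun y hy => hsub (Or.inr hy)⟩, hxT, fun y hy => hsub (Or.inl hy)⟩

end Cfsg.Agent.S1966
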