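import Cfsg.Statements.S1968
import Cfsg.Agent.Lib.Helper33.WellPlaced

set_option autoImplicit false
open Cfsg

namespace Cfsg.Agent.S1968

open Cfsg.Agent.Lib.Helper33
open scoped Pointwise

/-- Let p be a prime, G a finite group with Sylow p-subgroup S and W a conjugacy functor for p on G with Z(P) ≤ W(P) for every p-subgroup P. Let A be a subgroup of Z(S) normalized by N_G(W(S)) that is not weakly closed in S with respect to G. Then there is a subgroup T of S, well placed in S with respect to W, such that: A ≤ T; N_G(W(N_S(T))) normalizes A; N_S(T) is a Sylow p-subgroup of N_G(T); A ≤ Z(N_S(T)); and A is not weakly closed in N_S(T) with respect to N_G(T), that is, some N_G(T)-conjugate of A other than A lies in N_S(T). -/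
theorem result {G : Type*} [Group G] [Finite G] {p : ℕ} [Fact p.Prime] (S : Sylow p G) (W : Subgroup G → Subgroup G) (hW : Cfsg.IsConjugacyFunctor p W) (hWZ : ∀ P : Subgroup G, IsPGroup p ↥P → P ⊓ Subgroup.centralizer (P : Set G) ≤ W P) (A : Subgroup G) (hAZ : A ≤ (S : Subgroup G) ⊓ Subgroup.centralizer ((S : Subgroup G) : Set G)) (hAN : Subgroup.normalizer ((W (S : Subgroup G) : Subgroup G) : Set G) ≤ Subgroup.normalizer ((A : Subgroup G) : Set G)) (hnwc : ¬ Cfsg.IsWeaklyClosed A (S : Subgroup G)) : ∃ T : Subgroup G, Cfsg.IsWellPlaced p W (S : Subgroup G) T ∧ A ≤ T ∧ Subgroup.normalizer ((W ((S : Subgroup G) ⊓ Subgroup.normalizer ((T : Subgroup G) : Set G)) : Subgroup G) : Set G) ≤ Subgroup.normalizer ((A : Subgroup G) : Set G) ∧ ¬ p ∣ ((S : Subgroup G) ⊓ Subgroup.normalizer ((T : Subgroup G) : Set G)).relIndex (Subgroup.normalizer ((T : Subgroup G) : Set G)) ∧ A ≤ Subgroup.centralizer (((S : Subgroup G) ⊓ Subgroup.normalizer ((T : Subgroup G) : Set G) : Subgroup G) : Set G) ∧ ∃ g ∈ Subgroup.normalizer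 ((T : Subgroup G) : Set G), A.map (MulAut.conj g).toMonoidHom ≤ (S : Subgroup G) ⊓ Subgroup.normalizer ((T : Subgroup G) : Set G) ∧ A.map (MulAut.conj g).toMonoidHom ≠ A := by
  classical
  -- the set of candidates
  let 𝒯 : Subgroup G → Prop := fun T => Cfsg.IsWellPlaced p W (S : Subgroup G) T ∧ A ≤ T ∧
    ¬ Subgroup.normalizer (T : Set G) ≤ Subgroup.normalizer (A : Set G)
  have hAS : A ≤ (S : Subgroup G) := hAZ.trans inf_le_left
  -- nonempty
  have hne : ∃ T, 𝒯 T := by
    by_contra hcon
    apply hnwc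
    refine ⟨hAS, fun g hg => ?_⟩
    have hch : StepChain (stepF {T : Subgroup G | Cfsg.IsWellPlaced p W (S : Subgroup G) T})
        (A : Set G) g := by
      refine alperin_set S _ (fun T hT => hT.1) ?_ A hAS g hg
      intro T hT
      obtain ⟨g, -, hg⟩ := exists_wellPlaced_conj hW S T hT
      exact ⟨_, hg, ⟨g, rfl⟩, IsWellPlaced.relSyl S.2 hg⟩
    rw [map_conj]
    clear hg
    induction hch with
    | nil => exact conj_one_smul' A
    | snoc k x _ hx ih =>
      obtain ⟨T, hT, hxT, hsub⟩ := hx
      rw [← Subgroup.coe_pointwise_smul, ih] at hsub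
      have hle : Subgroup.normalizer (T : Set G) ≤ Subgroup.normalizer (A : Set G) := by
        by_contra hnle
        exact hcon ⟨T, hT, hsub, hnle⟩
      rw [← conj_smul_smul', ih]
      exact mem_normalizer_iff_smul.1 (hle hxT)
  -- choose one with the extra property
  have key : ∀ T, 𝒯 T → ∃ T', 𝒯 T' ∧ Subgroup.normalizer
      ((W ((S : Subgroup G) ⊓ Subgroup.normalizer (T' : Set G)) : Subgroup G) : Set G) ≤
        Subgroup.normalizer (A : Set G) := by
    intro T
    induction hn : Nat.card (S : Subgroup G) -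
      Nat.card ↥((S : Subgroup G) ⊓ Subgroup.normalizer (T : Set G)) using Nat.strong_induction_on
      generalizing T with
    | _ n ih =>
    intro hT
    by_cases hle : Subgroup.normalizer
      ((W ((S : Subgroup G) ⊓ Subgroup.normalizer (T : Set G)) : Subgroup G) : Set G) ≤
        Subgroup.normalizer (A : Set G)
    · exact ⟨T, hT, hle⟩
    · have hS₁p : IsPGroup p ↥((S : Subgroup G) ⊓ Subgroup.normalizer (T : Set G)) :=
        isPGroup_of_le S.2 inf_le_left
      have hAT₁ : A ≤ W ((S : Subgroup G) ⊓ Subgroup.normalizer (T : Set G)) := by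
        refine le_trans ?_ (hWZ _ hS₁p)
        refine le_inf (le_inf hAS (hT.2.1.trans Subgroup.le_normalizer)) ?_
        exact (hAZ.trans inf_le_right).trans (Subgroup.centralizer_le inf_le_left)
      have hT₁ : 𝒯 (W ((S : Subgroup G) ⊓ Subgroup.normalizer (T : Set G))) :=
        ⟨IsWellPlaced.next hW S.2 hT.1, hAT₁, hle⟩
      rcases eq_or_lt_of_le (inf_le_left :
        (S : Subgroup G) ⊓ Subgroup.normalizer (T : Set G) ≤ (S : Subgroup G)) with hEq | hlt
      · rw [hEq] at hle
        exact absurd hAN hle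
      · have h1 : (S : Subgroup G) ⊓ Subgroup.normalizer (T : Set G) < (S : Subgroup G) ⊓
            Subgroup.normalizer
              ((W ((S : Subgroup G) ⊓ Subgroup.normalizer (T : Set G)) : Subgroup G) : Set G) :=
          lt_of_lt_of_le (lt_inf_normalizer S.2 hlt)
            (inf_le_inf_left _ (IsConjugacyFunctor.normalizer_le hW hS₁p))
        have c1 := card_lt_of_lt h1
        have c3 : Nat.card ↥((S : Subgroup G) ⊓ Subgroup.normalizer
              ((W ((S : Subgroup G) ⊓ Subgroup.normalizer (T : Set G)) : Subgroup G) : Set G)) ≤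
            Nat.card (S : Subgroup G) := card_le_of_le inf_le_left
        exact ih _ (by omega) _ rfl hT₁
  obtain ⟨T₀, hT₀⟩ := hne
  obtain ⟨T, ⟨hwp, hAT, hnle⟩, hN⟩ := key T₀ hT₀
  obtain ⟨g, hgT, hgA⟩ := SetLike.not_le_iff_exists.1 hnle
  refine ⟨T, hwp, hAT, hN, hwp.2 0, ?_, g, hgT, ?_, ?_⟩
  · exact (hAZ.trans inf_le_right).trans (Subgroup.centralizer_le inf_le_left)
  · rw [map_conj]
    have : MulAut.conj g • A ≤ T := by
      rw [← mem_normalizer_iff_smul.1 hgT]
      exact Subgroup.pointwise_smul_le_pointwise_smul_iff.2 hAT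
    exact this.trans (le_inf hwp.1 Subgroup.le_normalizer)
  · rw [map_conj]
    intro h
    exact hgA (mem_normalizer_iff_smul.2 h)

end Cfsg.Agent.S1968
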