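import Cfsg.Statements.S1969
import Cfsg.Agent.Lib.Helper9.SectionFusion5

set_option autoImplicit false
universe u
open Cfsg

namespace Cfsg.Agent.S1969


open Cfsg.Agent.Lib.Helper9 Cfsg.Agent.Lib.Helper33
open scoped Pointwise

/-- Let p be a prime, G a finite group and W an isomorphism-invariant p-group functor (W assigns to every group Q a subgroup W(Q), nontrivial whenever Q is a nontrivial finite p-group, and every isomorphism from a finite p-group Q onto a group R carries W(Q) onto W(R)). Suppose that W(S*) is normal in G* whenever G* = K/R is a section of G with C_{G*}(O_p(G*)) ≤ O_p(G*) and S* is a Sylow p-subgroup of G*. Then W controls strong fusion in every section of G: for every section K/R and every Sylow p-subgroup T of K/R, the subgroup W(T) controls strong fusion in K/R. -/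
theorem result {G : Type u} [Group G] [Finite G] {p : ℕ} [Fact p.Prime] (W : ∀ (Q : Type u) [Group Q], Subgroup Q) (hW : Cfsg.IsCharPFunctor.{u} p W) (hloc : ∀ (K R : Subgroup G) [hR : (R.subgroupOf K).Normal], Subgroup.centralizer ((Cfsg.pCore p (↥K ⧸ R.subgroupOf K) : Subgroup (↥K ⧸ R.subgroupOf K)) : Set (↥K ⧸ R.subgroupOf K)) ≤ Cfsg.pCore p (↥K ⧸ R.subgroupOf K) → ∀ T : Sylow p (↥K ⧸ R.subgroupOf K), (Cfsg.inducedFunctor (G := (↥K ⧸ R.subgroupOf K)) W ((T : Subgroup (↥K ⧸ R.subgroupOf K)))).Normal) : ∀ (K R : Subgroup G) [hR : (R.subgroupOf K).Normal], ∀ T : Sylow p (↥K ⧸ R.subgroupOf K), Cfsg.ControlsStrongFusion p (Cfsg.inducedFunctor (G := (↥K ⧸ R.subgroupOf K)) W ((T : Subgroup (↥K ⧸ R.subgroupOf K)))) := by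
  have h𝓦 : ∀ W' ∈ ({W} : Set (∀ (Q : Type u) [Group Q], Subgroup Q)), IsCharPFunctor.{u} p W' := by
    intro W' hW'
    rw [Set.mem_singleton_iff] at hW'
    subst hW'
    exact hW
  have hall := CS_of_involves (G := G) h𝓦 (by
    intro K R _ hC
    obtain ⟨T⟩ : Nonempty (Sylow p (↥K ⧸ R.subgroupOf K)) := Sylow.nonempty
    rw [CS_iff h𝓦 T]
    intro A h _ hA hhA
    have hN := hloc K R hC T
    refine ⟨h, StepChain.single ⟨hA, hhA, _, ⟨W, rfl, rfl⟩, ⟨Subgroup.mem_top _, ?_⟩⟩, fun _ _ => rfl⟩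
    show h ∈ Subgroup.normalizer ((inducedFunctor W (T : Subgroup (↥K ⧸ R.subgroupOf K)) :
      Subgroup (↥K ⧸ R.subgroupOf K)) : Set (↥K ⧸ R.subgroupOf K))
    rw [Subgroup.normalizer_eq_top]
    exact Subgroup.mem_top _)
  intro K R _ T
  have h1 := (CS_iff h𝓦 T).1 (hall _ (involves_section K R))
  have hcf := isConjugacyFunctor_induced (G := ↥K ⧸ R.subgroupOf K) hW
  refine ⟨T, IsConjugacyFunctor.le hcf T.2, fun A hA => ⟨hA, fun g hgA => ?_⟩⟩
  obtain ⟨x, hx, hx'⟩ := h1 A g (Subgroup.mem_top _) hA hgA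
  have e : ind (↥K ⧸ R.subgroupOf K) {W} = {inducedFunctor W} := Set.image_singleton
  rw [e] at hx
  exact ⟨x, (mem_normalizer_of_stepChain hx).2, fun a ha => (hx' a ha).symm⟩

end Cfsg.Agent.S1969
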