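import Cfsg.Statements.S1989
import Mathlib
import Cfsg.Agent.Lib.Helper1.QdFree
import Cfsg.Agent.Lib.Helper9.KInfChar
import Cfsg.Agent.S1987
import Cfsg.Agent.S0274

set_option autoImplicit false
universe u
open Cfsg

namespace Cfsg.Agent.S1989


/-- Let p be an odd prime and G a finite group. Then Qd(p) (the natural semidirect product of an elementary abelian group of order p² by SL₂(p)) is not involved in G if and only if, in every section K/R of G and for every Sylow p-subgroup T of K/R, the lower K-infinity subgroup of T controls strong fusion in K/R. -/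
theorem result {G : Type u} [Group G] [Finite G] {p : ℕ} [Fact p.Prime] (hp : p ≠ 2) : ¬ Cfsg.Involves ↥(Cfsg.qd p) G ↔ ∀ (K R : Subgroup G) [hR : (R.subgroupOf K).Normal], ∀ T : Sylow p (↥K ⧸ R.subgroupOf K), Cfsg.ControlsStrongFusion p (Cfsg.inducedFunctor (G := (↥K ⧸ R.subgroupOf K)) Cfsg.kInfLower (T : Subgroup (↥K ⧸ R.subgroupOf K))) := by
  have hD : Cfsg.Agent.Lib.Helper1.QuadSL2.DicksonHyp.{u} p := fun F _ _ _ H h => Cfsg.Agent.S0274.result p hp H h
  constructor
  · intro h K R hR T
    apply Cfsg.Agent.S1987.result hp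
    intro K' R' hR'
    exact Cfsg.Agent.Lib.Helper1.QdFree.isNormalizerPStable_of_qd_free hD hp
      (fun hc => h (Cfsg.Agent.Lib.Helper33.involves_trans
        (Cfsg.Agent.Lib.Helper33.involves_trans hc (Cfsg.Agent.Lib.Helper33.involves_section K' R'))
        (Cfsg.Agent.Lib.Helper33.involves_section K R)))
  · intro hctl hinv
    obtain ⟨K, R, hR, ⟨e⟩⟩ := hinv
    obtain ⟨T⟩ : Nonempty (Sylow p (↥K ⧸ R.subgroupOf K)) := inferInstance
    exact Cfsg.Agent.Lib.Helper1.QdFree.not_controlsStrongFusion_inducedFunctor Cfsg.kInfLower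
      (Cfsg.Agent.Lib.Helper9.isCharPFunctor_kInfLower.{u} p) e T (hctl K R T)

end Cfsg.Agent.S1989
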