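import Cfsg.Statements.S1990
import Cfsg.Agent.S2005
import Cfsg.Agent.Lib.Helper34.PStable
import Cfsg.Agent.Lib.Helper34.PComp
import Cfsg.Agent.Lib.Helper22.CoprimeP
import Cfsg.Agent.Lib.Helper84.ChainStab

set_option autoImplicit false
open Cfsg

universe u

namespace Cfsg.Agent.S1990

open Cfsg.Agent.Lib.Helper34 Cfsg.Agent.Lib.Lead

/-- In the final configuration of Thompson's argument the group has a normal series
`p`-group / abelian `p'`-group / `p`-group. -/
theorem isPAP_of_isCoatom {Y : Type*} [Group Y] [Finite Y] {p : ℕ} [hp : Fact p.Prime]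
    (hnpc : HasNormalPComplement p (Y ⧸ pCore p Y)) (T : Sylow p Y)
    (hT : IsCoatom (T : Subgroup Y)) : IsPAP p Y := by
  set H := pCore p Y with hH
  have hHp : IsPGroup p H := Cfsg.Agent.Lib.Helper1.pCore_isPGroup p
  obtain ⟨Kb, hKbn, hKbc, k, hKbk⟩ := hasNormalPComplement_iff.mp hnpc
  have hKbp : ¬ p ∣ Nat.card Kb := fun h =>
    hp.out.one_lt.ne' (Nat.Coprime.eq_one_of_dvd hKbc.symm h)
  have hone : ∀ x ∈ Kb, (∃ n : ℕ, x ^ (p ^ n) = 1) → x = 1 := by
    rintro x hx ⟨n, hn⟩
    have h1 : (orderOf x).Coprime p := orderOf_coprime_of_mem hKbc hx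
    have h2 : orderOf x ∣ p ^ n := orderOf_dvd_of_pow_eq_one hn
    exact orderOf_eq_one_iff.mp (Nat.Coprime.eq_one_of_dvd (h1.pow_right n) h2)
  set Tb : Subgroup (Y ⧸ H) := (T : Subgroup Y).map (QuotientGroup.mk' H) with hTb
  have hTbp : IsPGroup p Tb := T.isPGroup'.map _
  -- invariant subgroups of `Kb`
  have hinv : ∀ Lb : Subgroup (Y ⧸ H), Lb ≤ Kb → Tb ≤ Subgroup.normalizer (Lb : Set (Y ⧸ H)) →
      Lb = ⊥ ∨ Lb = Kb := by
    intro Lb hLb hnorm
    set L := Lb.comap (QuotientGroup.mk' H) with hL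
    have hTL : (T : Subgroup Y) ≤ Subgroup.normalizer (L : Set Y) := by
      intro t ht
      have h1 : QuotientGroup.mk' H t ∈ Subgroup.normalizer (Lb : Set (Y ⧸ H)) :=
        hnorm ⟨t, ht, rfl⟩
      rw [Subgroup.mem_normalizer_iff] at h1 ⊢
      intro y
      rw [hL, Subgroup.mem_comap, Subgroup.mem_comap, h1 (QuotientGroup.mk' H y)]
      simp
    rcases eq_or_lt_of_le (le_sup_left : (T : Subgroup Y) ≤ (T : Subgroup Y) ⊔ L) with h | h
    · left
      have hLT : L ≤ T := by rw [h]; exact le_sup_right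
      rw [eq_bot_iff]
      intro x hx
      obtain ⟨y, rfl⟩ := QuotientGroup.mk'_surjective H x
      obtain ⟨n, hn⟩ := T.isPGroup' ⟨y, hLT hx⟩
      have hn' : y ^ (p ^ n) = 1 := congrArg Subtype.val hn
      exact Subgroup.mem_bot.mpr (hone _ (hLb hx) ⟨n, by rw [← map_pow, hn', map_one]⟩)
    · right
      have htop := hT.2 _ h
      apply le_antisymm hLb
      intro x hx
      obtain ⟨y, rfl⟩ := QuotientGroup.mk'_surjective H x
      have hy : y ∈ (T : Subgroup Y) ⊔ L := htop ▸ Subgroup.mem_top y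
      obtain ⟨t, ht, l, hl, rfl⟩ := Cfsg.Agent.Lib.Helper84.mem_sup_of_le_normalizer hTL hy
      have hl' : QuotientGroup.mk' H l ∈ Lb := hl
      have ht1 : QuotientGroup.mk' H t = 1 := by
        apply hone
        · have : QuotientGroup.mk' H t = QuotientGroup.mk' H (t * l) * (QuotientGroup.mk' H l)⁻¹ := by
            rw [map_mul, mul_inv_cancel_right]
          rw [this]
          exact Kb.mul_mem hx (Kb.inv_mem (hLb hl'))
        · obtain ⟨n, hn⟩ := T.isPGroup' ⟨t, ht⟩
          have hn' : t ^ (p ^ n) = 1 := congrArg Subtype.val hn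
          exact ⟨n, by rw [← map_pow, hn', map_one]⟩
      rw [map_mul, ht1, one_mul]
      exact hl'
  have hTbK : Tb ≤ Subgroup.normalizer (Kb : Set (Y ⧸ H)) := by
    rw [Subgroup.normalizer_eq_top_iff.mpr hKbn]; exact le_top
  -- `Kb` is abelian
  have hab : ⁅Kb, Kb⁆ = ⊥ := by
    by_cases hKbot : Kb = ⊥
    · rw [hKbot]; exact Subgroup.commutator_bot_left _
    · have hcard : Nat.card Kb ≠ 1 := fun h => hKbot (Subgroup.card_eq_one.mp h)
      obtain ⟨q, hq, hqd⟩ := Nat.exists_prime_and_dvd hcard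
      have : Fact q.Prime := ⟨hq⟩
      obtain ⟨Q, hQ, hTQ⟩ := Cfsg.Agent.Lib.Helper22.exists_invariant_isSylowIn Tb Kb hTbp hKbp hTbK q
      have hQK : Q = Kb := by
        rcases hinv Q hQ.le hTQ with h | h
        · exfalso
          obtain ⟨S, hS⟩ := hQ
          rw [h, Subgroup.map_eq_bot_iff_of_injective _ Kb.subtype_injective] at hS
          exact S.ne_bot_of_dvd_card hqd hS
        · exact h
      have hKq : IsPGroup q Kb := hQK ▸ hQ.isPGroup
      have hn : (⁅Kb, Kb⁆).Normal := inferInstance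
      rcases hinv ⁅Kb, Kb⁆ (commutator_self_le Kb)
        (by rw [Subgroup.normalizer_eq_top_iff.mpr hn]; exact le_top) with h | h
      · exact h
      · exfalso
        have : Nontrivial ↥Kb := (Subgroup.nontrivial_iff_ne_bot Kb).mpr hKbot
        have : Group.IsNilpotent ↥Kb := hKq.isNilpotent
        have h2 := Group.IsSolvable.commutator_lt_top_of_nontrivial ↥Kb
        apply h2.ne
        apply Subgroup.map_injective Kb.subtype_injective
        rw [Subgroup.map_subtype_commutator, h, ← MonoidHom.range_eq_map, Subgroup.range_subtype]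
  refine ⟨H, Kb.comap (QuotientGroup.mk' H), inferInstance, hKbn.comap _, ?_, hHp, ?_, ?_, ?_⟩
  · intro h hh
    have h1 : QuotientGroup.mk' H h = 1 := (QuotientGroup.eq_one_iff h).mpr hh
    rw [Subgroup.mem_comap, h1]
    exact Kb.one_mem
  · intro a ha b hb
    rw [← QuotientGroup.eq_one_iff]
    rw [Subgroup.commutator_eq_bot_iff_le_centralizer] at hab
    have h1 := Subgroup.mem_centralizer_iff.mp (hab ha) _ hb
    have h2 : ((a * b * a⁻¹ * b⁻¹ : Y) : Y ⧸ H) = QuotientGroup.mk' H a * QuotientGroup.mk' H b *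
        (QuotientGroup.mk' H a)⁻¹ * (QuotientGroup.mk' H b)⁻¹ := rfl
    rw [h2, ← h1]
    group
  · refine ⟨Nat.card Kb, hKbc, ?_⟩
    intro x hx
    rw [← QuotientGroup.eq_one_iff]
    have h1 := pow_card_eq_one' (x := (⟨QuotientGroup.mk' H x, hx⟩ : ↥Kb))
    exact congrArg Subtype.val h1
  · intro x
    refine ⟨k, ?_⟩
    have h1 : (Kb.comap (QuotientGroup.mk' H)).index = p ^ k := by
      rw [Subgroup.index_comap_of_surjective _ (QuotientGroup.mk'_surjective _)]; exact hKbk
    have hn : (Kb.comap (QuotientGroup.mk' H)).Normal := hKbn.comap _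
    rw [← h1]
    exact Subgroup.pow_index_mem _ x

/-- In a group with `C(O_p) ≤ O_p`, a subgroup `U` of a Sylow subgroup `T ≤ N(U)` which controls strong
fusion is normal. -/
theorem normal_of_controlsStrongFusion {Y : Type*} [Group Y] [Finite Y] {p : ℕ} [Fact p.Prime]
    (hcent : Subgroup.centralizer ((pCore p Y : Subgroup Y) : Set Y) ≤ pCore p Y)
    (T : Sylow p Y) (U : Subgroup Y) (hTU : (T : Subgroup Y) ≤ Subgroup.normalizer (U : Set Y))
    (hc : ControlsStrongFusion p U) : U.Normal := by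
  obtain ⟨T', -, hA⟩ := hc
  have hQT' : pCore p Y ≤ T' := Cfsg.Agent.Lib.Helper1.pCore_le_sylow T'
  have hQT : pCore p Y ≤ T := Cfsg.Agent.Lib.Helper1.pCore_le_sylow T
  have hQn : (pCore p Y).Normal := inferInstance
  rw [← Subgroup.normalizer_eq_top_iff, eq_top_iff]
  intro y _
  obtain ⟨x, hx, hxy⟩ := (hA (pCore p Y : Set Y) hQT').2 y (by
    rintro _ ⟨a, ha, rfl⟩
    exact hQT' (hQn.conj_mem a ha y))
  have h1 : x⁻¹ * y ∈ Subgroup.centralizer ((pCore p Y : Subgroup Y) : Set Y) := by
    rw [Subgroup.mem_centralizer_iff]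
    intro a ha
    have h2 := hxy a ha
    calc a * (x⁻¹ * y) = x⁻¹ * (x * a * x⁻¹) * y := by group
      _ = x⁻¹ * (y * a * y⁻¹) * y := by rw [h2]
      _ = x⁻¹ * y * a := by group
  have h2 : y = x * (x⁻¹ * y) := by group
  rw [h2]
  exact Subgroup.mul_mem _ hx (hTU (hQT (hcent h1)))

/-- Let p be an odd prime, G a finite group with Sylow p-subgroup S, and W an isomorphism-invariant p-group functor (W assigns to every group Q a subgroup W(Q), nontrivial whenever Q is a nontrivial finite p-group, and every isomorphism from a finite p-group Q onto a group R carries W(Q) onto W(R)). Suppose N_G(W(S)) has a normal p-complement, and W(T) controls strong fusion in every section G* = K/R of G all of whose sections are p-stable in the normalizer form, for every Sylow p-subgroup T of G*. Then G has a normal p-complement. -/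
theorem result {G : Type u} [Group G] [Finite G] {p : ℕ} [Fact p.Prime] (hp : p ≠ 2) (W : ∀ (Q : Type u) [Group Q], Subgroup Q) (hW : Cfsg.IsCharPFunctor.{u} p W) (S : Sylow p G) (hN : Cfsg.HasNormalPComplement p ↥(Subgroup.normalizer ((Cfsg.inducedFunctor (G := G) W (S : Subgroup G) : Subgroup G) : Set G))) (hctl : ∀ (K R : Subgroup G) [hR : (R.subgroupOf K).Normal], (∀ (K' R' : Subgroup (↥K ⧸ R.subgroupOf K)) [hR' : (R'.subgroupOf K').Normal], Cfsg.IsNormalizerPStable p (↥K' ⧸ R'.subgroupOf K')) → ∀ T : Sylow p (↥K ⧸ R.subgroupOf K), Cfsg.ControlsStrongFusion p (Cfsg.inducedFunctor (G := (↥K ⧸ R.subgroupOf K)) W (T : Subgroup (↥K ⧸ R.subgroupOf K)))) : Cfsg.HasNormalPComplement p G := by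
  apply Cfsg.Agent.S2005.result W hW S hN
  intro K R hR hcent hnpc T hT
  have hpap := isPAP_of_isCoatom hnpc T hT
  apply normal_of_controlsStrongFusion hcent T _
    (Subgroup.le_normalizer.trans (normalizer_le_normalizer_inducedFunctor hW _ T.isPGroup'))
  apply hctl K R
  intro K' R' hR'
  exact ((hpap.subgroup K').of_surjective (QuotientGroup.mk' _)
    (QuotientGroup.mk'_surjective _)).isNormalizerPStable hp

end Cfsg.Agent.S1990
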