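import Cfsg.Statements.S1993
import Cfsg.Agent.Lib.Helper9.SectionFusion6
import Cfsg.Agent.Lib.Helper9.KInfChar
import Cfsg.Agent.S1972
import Cfsg.Agent.S1983

set_option autoImplicit false
universe u
open Cfsg

namespace Cfsg.Agent.S1993


open Cfsg.Agent.Lib.Helper9 Cfsg.Agent.Lib.Helper33
open scoped Pointwise

/-- Let p be a prime, G a finite group with Sylow p-subgroup S, and K the upper K-infinity subgroup of S. If p ≥ 5 then S ∩ G' = S ∩ (N_G(K))'; and if p is odd and every section of G is p-stable in the normalizer form, then K controls strong fusion in G. -/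
theorem result {G : Type u} [Group G] [Finite G] {p : ℕ} [Fact p.Prime] (S : Sylow p G) : (5 ≤ p → (S : Subgroup G) ⊓ commutator G = (S : Subgroup G) ⊓ ⁅Subgroup.normalizer ((Cfsg.inducedFunctor Cfsg.kInfUpper (S : Subgroup G) : Subgroup G) : Set G), Subgroup.normalizer ((Cfsg.inducedFunctor Cfsg.kInfUpper (S : Subgroup G) : Subgroup G) : Set G)⁆) ∧ (p ≠ 2 → (∀ (K R : Subgroup G) [hR : (R.subgroupOf K).Normal], Cfsg.IsNormalizerPStable p (↥K ⧸ R.subgroupOf K)) → Cfsg.ControlsStrongFusion p (Cfsg.inducedFunctor Cfsg.kInfUpper (S : Subgroup G))) := by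
  have hW := isCharPFunctor_kInfUpper.{u} p
  constructor
  · intro hp
    have h𝓦 : ∀ W' ∈ ({Cfsg.kInfUpper} : Set (∀ (Q : Type u) [Group Q], Subgroup Q)),
        Cfsg.IsCharPFunctor.{u} p W' := by
      rintro _ rfl; exact hW
    have key := Cfsg.Agent.S1972.result (G := G) (p := p) Cfsg.kInfUpper hW (by
      intro K R hR _ T hT
      obtain ⟨g, hg1, hg2, hg3, -⟩ := Cfsg.Agent.S1983.result T (Or.inr hT)
      refine ⟨g, hg1, hg2, fun U V hUV hU => ?_⟩
      have h4 := hg3 U V hUV hU
      have hVn : V.Normal := hUV.2.2.1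
      have hmono : ∀ k : ℕ, Cfsg.iterCommutator U (Subgroup.zpowers g) (4 + k) ≤ V := by
        intro k
        induction k with
        | zero => exact h4
        | succ k ih =>
          show ⁅Cfsg.iterCommutator U (Subgroup.zpowers g) (4 + k), Subgroup.zpowers g⁆ ≤ V
          exact (Subgroup.commutator_mono ih le_rfl).trans (Subgroup.commutator_le_left _ _)
      have h5 : p - 1 = 4 + (p - 5) := by omega
      rw [h5]
      exact hmono _)
    obtain ⟨K, R, hR, ⟨e⟩⟩ := involves_self G
    have h1 := key K R
    rw [controlsTransferIn_iff_family] at h1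
    have h2 := familyControlsTransferIn_of_equiv h𝓦 e (by unfold ind; rwa [Set.image_singleton])
    have h3 := FamilyControlsTransferIn.eq (ind_isConjugacyFunctor h𝓦) h2 (relSyl_top S)
    rw [FD_ind] at h3
    simpa [_root_.commutator_def] using h3
  · intro hp hst
    refine controlsStrongFusion_of_local Cfsg.kInfUpper hW ?_ G (involves_self G) S
    intro K R hR hC T
    by_contra hT
    obtain ⟨g, -, -, -, -, h5⟩ := Cfsg.Agent.S1983.result T (Or.inr hT)
    obtain ⟨N, hN, hnot⟩ := h5 hC
    exact hnot (isNormalizerPStable_of_involves hst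
      (involves_trans (involves_quotient N (involves_self _)) (involves_section K R)))

end Cfsg.Agent.S1993
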