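import Cfsg.Statements.S1996
import Cfsg.Agent.Lib.Helper9.SectionFusion5

set_option autoImplicit false
universe u
open Cfsg

namespace Cfsg.Agent.S1996


open Cfsg.Agent.Lib.Helper9 Cfsg.Agent.Lib.Helper33
open scoped Pointwise

/-- Let p be a prime, G a finite group and W₁, W₂ two isomorphism-invariant p-group functors (W assigns to every group Q a subgroup W(Q), nontrivial whenever Q is a nontrivial finite p-group, and every isomorphism from a finite p-group Q onto a group R carries W(Q) onto W(R)). Suppose that G* = N_{G*}(W₁(S*)) N_{G*}(W₂(S*)) whenever G* = K/R is a section of G with C_{G*}(O_p(G*)) ≤ O_p(G*) and S* is a Sylow p-subgroup of G*. Then the pair {W₁, W₂} controls strong fusion in G. -/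
theorem result {G : Type u} [Group G] [Finite G] {p : ℕ} [Fact p.Prime] (W₁ W₂ : ∀ (Q : Type u) [Group Q], Subgroup Q) (hW₁ : Cfsg.IsCharPFunctor.{u} p W₁) (hW₂ : Cfsg.IsCharPFunctor.{u} p W₂) (hfac : ∀ (K R : Subgroup G) [hR : (R.subgroupOf K).Normal], Subgroup.centralizer ((Cfsg.pCore p (↥K ⧸ R.subgroupOf K) : Subgroup (↥K ⧸ R.subgroupOf K)) : Set (↥K ⧸ R.subgroupOf K)) ≤ Cfsg.pCore p (↥K ⧸ R.subgroupOf K) → ∀ T : Sylow p (↥K ⧸ R.subgroupOf K), ∀ x : (↥K ⧸ R.subgroupOf K), ∃ a ∈ Subgroup.normalizer ((Cfsg.inducedFunctor (G := (↥K ⧸ R.subgroupOf K)) W₁ (T : Subgroup (↥K ⧸ R.subgroupOf K)) : Subgroup (↥K ⧸ R.subgroupOf K)) : Set (↥K ⧸ R.subgroupOf K)), ∃ b ∈ Subgroup.normalizer ((Cfsg.inducedFunctor (G := (↥K ⧸ R.subgroupOf K)) W₂ (T : Subgroup (↥K ⧸ R.subgroupOf K)) : Subgroup (↥K ⧸ R.subgroupOf K)) : Set (↥K ⧸ R.subgroupOf K)), x = a * b) : Cfsg.FamilyControlsStrongFusionIn p {Cfsg.inducedFunctor (G := G) W₁,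 Cfsg.inducedFunctor (G := G) W₂} ⊤ := by
  have h𝓦 : ∀ W' ∈ ({W₁, W₂} : Set (∀ (Q : Type u) [Group Q], Subgroup Q)),
      IsCharPFunctor.{u} p W' := by
    intro W' hW'
    rcases hW' with rfl | hW'
    · exact hW₁
    · rw [Set.mem_singleton_iff] at hW'
      subst hW'
      exact hW₂
  have hall := CS_of_involves (G := G) h𝓦 (by
    intro K R _ hC
    obtain ⟨T⟩ : Nonempty (Sylow p (↥K ⧸ R.subgroupOf K)) := Sylow.nonempty
    rw [CS_iff h𝓦 T]
    intro A h _ hA hhA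
    obtain ⟨a, ha, b, hb, rfl⟩ := hfac K R hC T h
    have hcf₁ := isConjugacyFunctor_induced (G := ↥K ⧸ R.subgroupOf K) hW₁
    have hcf₂ := isConjugacyFunctor_induced (G := ↥K ⧸ R.subgroupOf K) hW₂
    refine good_of_factor' T (fusionRel_Gd (𝓦 := {W₁, W₂}) (T : Subgroup (↥K ⧸ R.subgroupOf K)))
      (Subgroup.le_normalizer.trans (IsConjugacyFunctor.normalizer_le hcf₁ T.2))
      (Subgroup.le_normalizer.trans (IsConjugacyFunctor.normalizer_le hcf₂ T.2)) ?_ ?_ hA ha hb hhA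
    · intro B hB x hx hxB
      exact ⟨x, StepChain.single ⟨hB, hxB, _, ⟨W₁, Or.inl rfl, rfl⟩, ⟨Subgroup.mem_top _, hx⟩⟩,
        fun _ _ => rfl⟩
    · intro B hB x hx hxB
      exact ⟨x, StepChain.single ⟨hB, hxB, _, ⟨W₂, Or.inr rfl, rfl⟩, ⟨Subgroup.mem_top _, hx⟩⟩,
        fun _ _ => rfl⟩)
  have h1 := hall G (involves_self G)
  have e : ind G {W₁, W₂} = {inducedFunctor W₁, inducedFunctor W₂} := Set.image_pair _ _ _
  unfold CS at h1
  rwa [e] at h1

end Cfsg.Agent.S1996
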