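import Cfsg.Statements.S1997
import Cfsg.Agent.Lib.Helper33.TripleFactor3
import Cfsg.Agent.Lib.Helper33.FamilyControl
import Cfsg.Agent.S1996

set_option autoImplicit false
universe u
open Cfsg

namespace Cfsg.Agent.S1997

open Cfsg.Agent.Lib.Helper33
open scoped Pointwise

/-- Let p be a prime, G a finite group with Sylow p-subgroup S, and W₁, W₂ two isomorphism-invariant p-group functors (W assigns to every group Q a subgroup W(Q), nontrivial whenever Q is a nontrivial finite p-group, and every isomorphism from a finite p-group Q onto a group R carries W(Q) onto W(R)). Suppose that G* = C_{G*}(Ω₁Z(S*)) N_{G*}(W₁(S*)) = C_{G*}(Ω₁Z(S*)) N_{G*}(W₂(S*)) = N_{G*}(W₁(S*)) N_{G*}(W₂(S*)) whenever G* = K/R is a section of G with C_{G*}(O_p(G*)) ≤ O_p(G*) and S* is a Sylow p-subgroup of G*, where Ω₁Z denotes the subgroup generated by the elements of order dividing p in the centre. Suppose also Ω₁Z(S) ≤ W₁(S)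 ∩ W₂(S), and let A be the normal closure of Ω₁Z(S) in N_G(W₁(S)). Then A is an elementary abelian subgroup of S, strongly closed in S with respect to G, and A controls strong fusion in G. -/
theorem result {G : Type u} [Group G] [Finite G] {p : ℕ} [Fact p.Prime] (S : Sylow p G) (W₁ W₂ : ∀ (Q : Type u) [Group Q], Subgroup Q) (hW₁ : Cfsg.IsCharPFunctor.{u} p W₁) (hW₂ : Cfsg.IsCharPFunctor.{u} p W₂) (hfac : ∀ (K R : Subgroup G) [hR : (R.subgroupOf K).Normal], Subgroup.centralizer ((Cfsg.pCore p (↥K ⧸ R.subgroupOf K) : Subgroup (↥K ⧸ R.subgroupOf K)) : Set (↥K ⧸ R.subgroupOf K)) ≤ Cfsg.pCore p (↥K ⧸ R.subgroupOf K) → ∀ T : Sylow p (↥K ⧸ R.subgroupOf K), (∀ x : (↥K ⧸ R.subgroupOf K), ∃ a ∈ Subgroup.centralizer ((Cfsg.omegaOne p ((T : Subgroup (↥K ⧸ R.subgroupOf K)) ⊓ Subgroup.centralizer (((T : Subgroup (↥K ⧸ R.subgroupOf K)) : Subgroup (↥K ⧸ R.subgroupOf K)) : Set (↥K ⧸ R.subgroupOf K))) : Subgroup (↥K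 ⧸ R.subgroupOf K)) : Set (↥K ⧸ R.subgroupOf K)), ∃ b ∈ Subgroup.normalizer ((Cfsg.inducedFunctor (G := (↥K ⧸ R.subgroupOf K)) W₁ (T : Subgroup (↥K ⧸ R.subgroupOf K)) : Subgroup (↥K ⧸ R.subgroupOf K)) : Set (↥K ⧸ R.subgroupOf K)), x = a * b) ∧ (∀ x : (↥K ⧸ R.subgroupOf K), ∃ a ∈ Subgroup.centralizer ((Cfsg.omegaOne p ((T : Subgroup (↥K ⧸ R.subgroupOf K)) ⊓ Subgroup.centralizer (((T : Subgroup (↥K ⧸ R.subgroupOf K)) : Subgroup (↥K ⧸ R.subgroupOf K)) : Set (↥K ⧸ R.subgroupOf K))) : Subgroup (↥K ⧸ R.subgroupOf K)) : Set (↥K ⧸ R.subgroupOf K)), ∃ b ∈ Subgroup.normalizer ((Cfsg.inducedFunctor (G := (↥K ⧸ R.subgroupOf K)) W₂ (T : Subgroup (↥K ⧸ R.subgroupOf K)) : Subgroup (↥K ⧸ R.subgroupOf K)) : Set (↥K ⧸ R.subgroupOf K)), x = a * b) ∧ (∀ x : (↥K ⧸ R.subgroupOf K), ∃ a ∈ Subgroup.normalizer ((Cfsg.inducedFunctor (G := (↥K ⧸ R.subgroupOf K)) W₁ (T : Subgroup (↥K ⧸ R.subgroupOf K)) : Subgroup (↥K ⧸ R.subgroupOf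 K)) : Set (↥K ⧸ R.subgroupOf K)), ∃ b ∈ Subgroup.normalizer ((Cfsg.inducedFunctor (G := (↥K ⧸ R.subgroupOf K)) W₂ (T : Subgroup (↥K ⧸ R.subgroupOf K)) : Subgroup (↥K ⧸ R.subgroupOf K)) : Set (↥K ⧸ R.subgroupOf K)), x = a * b)) (hZ : Cfsg.omegaOne p ((S : Subgroup G) ⊓ Subgroup.centralizer (((S : Subgroup G) : Subgroup G) : Set G)) ≤ Cfsg.inducedFunctor (G := G) W₁ (S : Subgroup G) ⊓ Cfsg.inducedFunctor (G := G) W₂ (S : Subgroup G)) (N₁ : Subgroup G) (hN₁ : N₁ = Subgroup.normalizer ((Cfsg.inducedFunctor (G := G) W₁ (S : Subgroup G) : Subgroup G) : Set G)) (A : Subgroup G) (hA : A = (Subgroup.normalClosure (((Cfsg.omegaOne p ((S : Subgroup G) ⊓ Subgroup.centralizer (((S : Subgroup G) : Subgroup G) : Set G))).subgroupOf N₁ : Subgroup ↥N₁) : Set ↥N₁)).map N₁.subtype) : A ≤ (S : Subgroup G) ∧ Cfsg.IsElementaryAbelian p A ∧ Cfsg.IsStronglyClosed A (S : Subgroup G) ∧ Cfsg.ControlsStrongFusion p A := by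
  subst hN₁
  have hcf₁ := isConjugacyFunctor_induced (G := G) hW₁
  have hcf₂ := isConjugacyFunctor_induced (G := G) hW₂
  have hF₁ : ∀ (K R : Subgroup G) [(R.subgroupOf K).Normal], Fac p W₁ (↥K ⧸ R.subgroupOf K) :=
    fun K R _ hc T => (hfac K R hc T).1
  have hF₂ : ∀ (K R : Subgroup G) [(R.subgroupOf K).Normal], Fac p W₂ (↥K ⧸ R.subgroupOf K) :=
    fun K R _ hc T => (hfac K R hc T).2.1
  have hA' : A = nc (ZZ p (S : Subgroup G))
      (Subgroup.normalizer ((inducedFunctor W₁ (S : Subgroup G) : Subgroup G) : Set G)) := hA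
  have hZ₁ : ZZ p (S : Subgroup G) ≤ inducedFunctor W₁ (S : Subgroup G) := hZ.trans inf_le_left
  have hZ₂ : ZZ p (S : Subgroup G) ≤ inducedFunctor W₂ (S : Subgroup G) := hZ.trans inf_le_right
  have hA'' : A = nc (ZZ p (S : Subgroup G))
      (Subgroup.normalizer ((inducedFunctor W₂ (S : Subgroup G) : Subgroup G) : Set G)) := by
    rw [hA']
    exact le_antisymm (nc_le_nc hW₁ hW₂ hF₂ S hZ₁) (nc_le_nc hW₂ hW₁ hF₁ S hZ₂)
  have hAZ : A ≤ ZZ p (inducedFunctor W₁ (S : Subgroup G)) := hA' ▸ nc_le_ZZ hW₁ S hZ₁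
  have hAS : A ≤ (S : Subgroup G) :=
    (hAZ.trans ((ZZ_le _).trans inf_le_left)).trans (IsConjugacyFunctor.le hcf₁ S.2)
  have hN₁ : Subgroup.normalizer ((inducedFunctor W₁ (S : Subgroup G) : Subgroup G) : Set G) ≤
      Subgroup.normalizer (A : Set G) := by
    intro x hx
    rw [mem_normalizer_iff_smul, hA']
    exact conj_smul_nc hx
  have hN₂ : Subgroup.normalizer ((inducedFunctor W₂ (S : Subgroup G) : Subgroup G) : Set G) ≤
      Subgroup.normalizer (A : Set G) := by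
    intro x hx
    rw [mem_normalizer_iff_smul, hA'']
    exact conj_smul_nc hx
  have hctl := Cfsg.Agent.S1996.result W₁ W₂ hW₁ hW₂ (fun K R _ hc T => (hfac K R hc T).2.2)
  have h𝓦 : ∀ W ∈ ({inducedFunctor (G := G) W₁, inducedFunctor (G := G) W₂} :
      Set (Subgroup G → Subgroup G)), IsConjugacyFunctor p W := by
    rintro W (rfl | rfl)
    · exact hcf₁
    · exact hcf₂
  have hfc := FamilyControlsStrongFusionIn.fcsf h𝓦 hctl (relSyl_top S)
  have key : ∀ (B : Set G) (g : G), B ⊆ (S : Subgroup G) → MulAut.conj g • B ⊆ (S : Subgroup G) →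
      Good1 (Subgroup.normalizer (A : Set G)) B g := by
    intro B g hB hg
    obtain ⟨k, hk, hk'⟩ := hfc B g (Subgroup.mem_top g) hB hg
    refine (fusionRel_good1 _).congr B k g hk' ?_
    refine (fusionRel_good1 _).of_stepChain ?_ hk
    rintro B' x ⟨-, -, W, hW, -, hx⟩
    refine ⟨x, ?_, fun _ _ => rfl⟩
    rcases hW with rfl | rfl
    · exact hN₁ hx
    · exact hN₂ hx
  refine ⟨hAS, isElementaryAbelian_of_le_ZZ hAZ, ⟨hAS, ?_⟩, ⟨S, hAS, fun B hB => ⟨hB, ?_⟩⟩⟩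
  · intro a ha g hg
    obtain ⟨x, hx, hx'⟩ := key {a} g (Set.singleton_subset_iff.2 (hAS ha)) (by
      rintro _ ⟨b, rfl, rfl⟩
      exact hg)
    rw [← hx' a rfl]
    exact (Subgroup.mem_normalizer_iff.1 hx a).1 ha
  · intro g hg
    obtain ⟨x, hx, hx'⟩ := key B g hB hg
    exact ⟨x, hx, fun a ha => (hx' a ha).symm⟩

end Cfsg.Agent.S1997
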