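import Cfsg.Statements.S2004
import Mathlib
import Cfsg.Agent.Lib.Helper1.SL2Free
import Cfsg.Agent.S0274

set_option autoImplicit false
open Cfsg

namespace Cfsg.Agent.S2004


/-- Let p be an odd prime and G a finite group such that SL₂(p) is not involved in N_G(P) for any nonidentity p-subgroup P of G. Then every section of G is p-stable in the normalizer form: in each section, whenever an element of the normalizer of a p-subgroup Q acts quadratically on Q, its image in N(Q)/C(Q) lies in O_p(N(Q)/C(Q)). -/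
theorem result {G : Type*} [Group G] [Finite G] {p : ℕ} [Fact p.Prime] (hp : p ≠ 2) (h : ∀ P : Subgroup G, IsPGroup p ↥P → P ≠ ⊥ → ¬ Cfsg.Involves (Matrix.SpecialLinearGroup (Fin 2) (ZMod p)) ↥(Subgroup.normalizer ((P : Subgroup G) : Set G))) : ∀ (K R : Subgroup G) [hR : (R.subgroupOf K).Normal], Cfsg.IsNormalizerPStable p (↥K ⧸ R.subgroupOf K) := by
  have hD : Cfsg.Agent.Lib.Helper1.QuadSL2.DicksonHyp p := fun F _ _ _ H h => Cfsg.Agent.S0274.result p hp H h
  intro K R hR Q hQ g hg hquad
  rcases eq_or_ne Q ⊥ with rfl | hne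
  · have h1 : (QuotientGroup.mk (s := (Subgroup.centralizer (((⊥ : Subgroup (↥K ⧸ R.subgroupOf K))) :
        Set (↥K ⧸ R.subgroupOf K))).subgroupOf (Subgroup.normalizer (((⊥ : Subgroup (↥K ⧸ R.subgroupOf K))) :
        Set (↥K ⧸ R.subgroupOf K)))) (⟨g, hg⟩ : ↥(Subgroup.normalizer (((⊥ : Subgroup (↥K ⧸ R.subgroupOf K))) :
        Set (↥K ⧸ R.subgroupOf K))))) = 1 := by
      rw [QuotientGroup.eq_one_iff, Subgroup.mem_subgroupOf, Subgroup.mem_centralizer_iff]
      intro x hx
      have : x = 1 := hx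
      rw [this, one_mul, mul_one]
    rw [h1]
    exact Subgroup.one_mem _
  · obtain ⟨P, hP, hPne, hinv⟩ := Cfsg.Agent.Lib.Helper1.SL2Free.exists_involves_normalizer K R Q hQ hne
    refine Cfsg.Agent.Lib.Helper34.QStable.mk_mem_pCore_normalizer Q ?_ hQ g hg
      (Cfsg.Agent.Lib.Helper34.quadOn_of_commutator hquad)
    apply Cfsg.Agent.Lib.Helper1.QuadSL2.qStable_of_sl2_free hD
    intro hc
    exact h P hP hPne (Cfsg.Agent.Lib.Helper33.involves_trans hc hinv)

end Cfsg.Agent.S2004
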