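import Cfsg.Statements.S2009

set_option autoImplicit false
open Cfsg

namespace Cfsg.Agent.S2009

theorem fpf_inverts {H : Type*} [Group H] [Finite H] (N : Subgroup H) [hNn : N.Normal] (e : H)
    (he : e * e = 1) (hfix : N ⊓ Subgroup.centralizer ({e} : Set H) = ⊥) :
    ∀ n ∈ N, e * n * e⁻¹ = n⁻¹ := by
  classical
  let f : N → N := fun n => ⟨(n : H)⁻¹ * (e * n * e⁻¹), N.mul_mem (N.inv_mem n.2) (hNn.conj_mem _ n.2 e)⟩
  have hinj : Function.Injective f := by
    intro n m hnm
    have h1 : (n : H)⁻¹ * (e * n * e⁻¹) = (m : H)⁻¹ * (e * m * e⁻¹) := congrArg Subtype.val hnm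
    have h2 : (m : H) * (n : H)⁻¹ ∈ N ⊓ Subgroup.centralizer ({e} : Set H) := by
      refine Subgroup.mem_inf.mpr ⟨N.mul_mem m.2 (N.inv_mem n.2), ?_⟩
      rw [Subgroup.mem_centralizer_singleton_iff]
      have h3 : (m : H) * (n : H)⁻¹ * (e * n * e⁻¹) = e * m * e⁻¹ := by
        rw [mul_assoc, h1]; group
      have h4 : (m : H) * (n : H)⁻¹ * e = e * m * e⁻¹ * (e * (n:H)⁻¹) := by
        rw [← h3]; group
      rw [h4]; group
    rw [hfix, Subgroup.mem_bot] at h2
    have : (m : H) = n := by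
      have := mul_inv_eq_one.mp h2
      exact this
    exact Subtype.ext this.symm
  have hsurj : Function.Surjective f := Finite.surjective_of_injective hinj
  intro n hn
  obtain ⟨m, hm⟩ := hsurj ⟨n, hn⟩
  have h1 : (m : H)⁻¹ * (e * m * e⁻¹) = n := congrArg Subtype.val hm
  have he' : e⁻¹ = e := inv_eq_of_mul_eq_one_left he
  rw [← h1, he']
  have : e * ((m : H)⁻¹ * (e * m * e)) * e = e * (m:H)⁻¹ * e * m * (e * e) := by group
  rw [this, he]
  have h5 : ((m : H)⁻¹ * (e * m * e))⁻¹ = e⁻¹ * (m:H)⁻¹ * e⁻¹ * m := by group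
  rw [h5, he', mul_one]

theorem exists_other {H : Type*} [Group H] (z : H)
    (E : Subgroup H) (hE : IsKleinFour ↥E) (hzE : z ∈ E) : ∃ e ∈ E, e ≠ 1 ∧ e ≠ z := by
  classical
  have := hE.card_four
  have hfin : Finite E := Nat.finite_of_card_ne_zero (by omega)
  by_contra hcon
  push Not at hcon
  have hsub : (Set.univ : Set E) ⊆ ({1, ⟨z, hzE⟩} : Set E) := by
    intro x _
    by_cases hx : (x : H) = 1
    · left; exact Subtype.ext hx
    · right; exact Subtype.ext (hcon x x.2 hx)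
  have hcard : Nat.card E ≤ 2 := by
    have h1 : Nat.card E = (Set.univ : Set E).ncard := by
      rw [Set.ncard_univ]
    rw [h1]
    calc (Set.univ : Set E).ncard ≤ ({1, ⟨z, hzE⟩} : Set E).ncard :=
          Set.ncard_le_ncard hsub (Set.toFinite _)
      _ ≤ 2 := by
          have := Set.ncard_insert_le (1 : E) ({⟨z, hzE⟩} : Set E)
          rw [Set.ncard_singleton] at this
          exact this
  rw [hE.card_four] at hcard
  omega

theorem normal_eq_bot {H : Type*} [Group H] [Finite H] (z : H) (hz : orderOf z = 2)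
    (hN : ∀ N : Subgroup H, N.Normal → N ≠ ⊤ → N ⊓ Subgroup.centralizer ({z} : Set H) = ⊥)
    (E : Subgroup H) (hE : IsKleinFour ↥E) (hzE : z ∈ E) (hc : ∀ e ∈ E, e ≠ 1 → IsConj z e)
    (N : Subgroup H) (hNn : N.Normal) (hNt : N ≠ ⊤) : N = ⊥ := by
  classical
  have hfix : ∀ e ∈ E, e ≠ 1 → N ⊓ Subgroup.centralizer ({e} : Set H) = ⊥ := by
    intro e heE he1
    obtain ⟨g, hg⟩ := isConj_iff.mp (hc e heE he1)
    rw [eq_bot_iff]
    intro x hx
    have hx1 : g⁻¹ * x * g ∈ N ⊓ Subgroup.centralizer ({z} : Set H) := by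
      refine Subgroup.mem_inf.mpr ⟨?_, ?_⟩
      · have := hNn.conj_mem x hx.1 g⁻¹
        simpa using this
      · rw [Subgroup.mem_centralizer_singleton_iff]
        have hx2 := Subgroup.mem_centralizer_singleton_iff.mp hx.2
        rw [← hg] at hx2
        have h3 : g⁻¹ * (x * (g * z * g⁻¹)) * g = g⁻¹ * (g * z * g⁻¹ * x) * g := by rw [hx2]
        calc g⁻¹ * x * g * z = g⁻¹ * (x * (g * z * g⁻¹)) * g := by group
          _ = g⁻¹ * (g * z * g⁻¹ * x) * g := h3
          _ = z * (g⁻¹ * x * g) := by group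
    rw [hN N hNn hNt, Subgroup.mem_bot] at hx1
    rw [Subgroup.mem_bot]
    have : x = g * (g⁻¹ * x * g) * g⁻¹ := by group
    rw [this, hx1]; group
  have hsq : ∀ e ∈ E, e * e = 1 := by
    intro e he
    have h := Monoid.pow_exponent_eq_one (⟨e, he⟩ : E)
    rw [hE.exponent_two] at h
    have h2 : ((⟨e, he⟩ : E) ^ 2 : E).1 = 1 := by rw [h]; rfl
    simpa [pow_two] using h2
  have hz1 : z ≠ 1 := by
    intro h; rw [h, orderOf_one] at hz; omega
  -- another element
  obtain ⟨e, heE, he1, hez⟩ : ∃ e ∈ E, e ≠ 1 ∧ e ≠ z := exists_other z E hE hzE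
  have hze : z * e ≠ 1 := by
    intro h
    have h1 : e = z⁻¹ := eq_inv_of_mul_eq_one_right h
    have h2 : z⁻¹ = z := inv_eq_of_mul_eq_one_left (hsq z hzE)
    exact hez (h1.trans h2)
  have := hNn
  have i1 := fpf_inverts N z (hsq z hzE) (hfix z hzE hz1)
  have i2 := fpf_inverts N e (hsq e heE) (hfix e heE he1)
  rw [eq_bot_iff]
  intro n hn
  have hmem : n ∈ N ⊓ Subgroup.centralizer ({z * e} : Set H) := by
    refine Subgroup.mem_inf.mpr ⟨hn, ?_⟩
    rw [Subgroup.mem_centralizer_singleton_iff]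
    have h1 := i2 n hn
    have h2 := i1 n⁻¹ (N.inv_mem hn)
    rw [inv_inv] at h2
    have h3 : z * e * n * e⁻¹ * z⁻¹ = n := by
      calc z * e * n * e⁻¹ * z⁻¹ = z * (e * n * e⁻¹) * z⁻¹ := by group
        _ = n := by rw [h1, h2]
    calc n * (z * e) = (z * e * n * e⁻¹ * z⁻¹) * (z * e) := by rw [h3]
      _ = z * e * n := by group
  rw [hfix (z * e) (E.mul_mem hzE heE) hze] at hmem
  exact hmem

/-- Let H be a finite group and z an involution such that every proper normal subgroup of H meets the centralizer of z trivially, and suppose z lies in a Klein four-subgroup E of H all three of whose involutions are conjugate to z in H. Then H is simple. -/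
theorem result {H : Type*} [Group H] [Finite H] (z : H) (hz : orderOf z = 2) (hN : ∀ N : Subgroup H, N.Normal → N ≠ ⊤ → N ⊓ Subgroup.centralizer ({z} : Set H) = ⊥) (E : Subgroup H) (hE : IsKleinFour ↥E) (hzE : z ∈ E) (hc : ∀ e ∈ E, e ≠ 1 → IsConj z e) : IsSimpleGroup H := by
  have : Nontrivial H := by
    refine ⟨z, 1, ?_⟩
    intro h; rw [h, orderOf_one] at hz; omega
  refine ⟨fun N hNn => ?_⟩
  by_cases hNt : N = ⊤
  · right; exact hNt
  · left; exact normal_eq_bot z hz hN E hE hzE hc N hNn hNt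

end Cfsg.Agent.S2009
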