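import Cfsg.Statements.S3963
import Cfsg.Agent.Lib.Helper35.Stem

set_option autoImplicit false
open Cfsg

namespace Cfsg.Agent.S3963

open Cfsg.Agent.Lib.Helper35 QuaternionGroup

theorem a_one_zpow' (n : ℕ) (k : ℤ) : (a 1 : QuaternionGroup n) ^ k = a k := by
  obtain ⟨m, rfl | rfl⟩ := Int.eq_nat_or_neg k
  · simp [a_one_pow]
  · rw [zpow_neg, zpow_natCast, a_one_pow, inv_eq_iff_mul_eq_one]
    simp

theorem closure_gens (n : ℕ) : Subgroup.closure {(a 1 : QuaternionGroup n), xa 0} = ⊤ := by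
  rw [eq_top_iff]
  intro g _
  have hr : ∀ i : ZMod (2 * n), (a i : QuaternionGroup n) ∈ Subgroup.closure {(a 1 : QuaternionGroup n), xa 0} := by
    intro i
    obtain ⟨k, rfl⟩ := ZMod.intCast_surjective i
    rw [← a_one_zpow']
    exact Subgroup.zpow_mem _ (Subgroup.subset_closure (by simp)) k
  cases g with
  | a i => exact hr i
  | xa i =>
    have : (xa i : QuaternionGroup n) = xa 0 * a i := by simp
    rw [this]
    exact Subgroup.mul_mem _ (Subgroup.subset_closure (by simp)) (hr i)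

theorem conj_rel (n : ℕ) : (xa 0 : QuaternionGroup n) * a 1 * (xa 0)⁻¹ = (a 1)⁻¹ := by
  rw [mul_inv_eq_iff_eq_mul, eq_inv_mul_iff_mul_eq]
  simp


/-- For every `n ≥ 1` the dicyclic (generalized quaternion) group of order `4 n` has trivial Schur multiplier. -/
theorem result (n : ℕ) [NeZero n] : Cfsg.HasCyclicSchurMultiplier (QuaternionGroup n) 1 := by
  rw [Cfsg.Agent.Lib.Helper66.hasCyclicSchurMultiplier_one_iff]
  intro Γ _ _ σ hσ
  obtain ⟨a', ha⟩ := hσ.1 (a 1)
  obtain ⟨b, hb⟩ := hσ.1 (xa 0)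
  rw [eq_bot_iff]
  intro x hx
  obtain ⟨k, hk, hk2⟩ := exists_zpow_of_mem_ker hσ (a := a') (b := b)
    (by rw [ha, hb]; exact closure_gens n) (by rw [ha, hb]; exact conj_rel n) hx
  rw [ha, a_one_zpow', one_def, a.injEq] at hk2
  have h1 : ((2 * n : ℕ) : ℤ) ∣ 2 * k := by
    rw [← ZMod.intCast_zmod_eq_zero_iff_dvd]; exact hk2
  have h2 : (n : ℤ) ∣ k := by
    push_cast at h1
    exact (mul_dvd_mul_iff_left (by norm_num)).mp h1
  obtain ⟨j, rfl⟩ := h2
  have hz : b * a' * b⁻¹ * a' ∈ σ.ker := by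
    rw [MonoidHom.mem_ker]; simp only [map_mul, map_inv, ha, hb, conj_rel, inv_mul_cancel]
  have hcomm : Commute b (a' ^ n) := by
    have h3 : (b * b)⁻¹ * a' ^ n ∈ σ.ker := by
      rw [MonoidHom.mem_ker, map_mul, map_inv, map_mul, map_pow, ha, hb, a_one_pow,
        inv_mul_eq_one]
      simp
    have h4 : a' ^ n = (b * b) * ((b * b)⁻¹ * a' ^ n) := by group
    rw [h4]
    apply Commute.mul_right
    · exact (Commute.refl b).mul_right (Commute.refl b)
    · exact (Subgroup.mem_center_iff.mp (hσ.2.1 h3) b)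
  have hc := comm_pow_eq_one (hσ.2.1 hz) (by rw [mul_inv_cancel_right]) hcomm
  rw [Subgroup.mem_bot, ← hk, zpow_mul, zpow_natCast, hc, one_zpow]

end Cfsg.Agent.S3963
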