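import Cfsg.Statements.S3979
import Cfsg.Agent.Lib.Helper66.SchurBasic

set_option autoImplicit false
open Cfsg

namespace Cfsg.Agent.S3979

/-- A finite cyclic group has trivial Schur multiplier: every finite stem extension of it is an isomorphism, said through `HasCyclicSchurMultiplier G 1`. -/
theorem result {G : Type*} [Group G] [Finite G] [IsCyclic G] : Cfsg.HasCyclicSchurMultiplier G 1 := by
  rw [Cfsg.Agent.Lib.Helper66.hasCyclicSchurMultiplier_one_iff]
  intro Γ _ _ σ hσ
  obtain ⟨-, h2, h3⟩ := hσ
  have hcomm : ∀ a b : Γ, a * b = b * a := commutative_of_cyclic_center_quotient σ h2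
  have : commutator Γ = ⊥ := by
    rw [commutator_eq_closure, Subgroup.closure_eq_bot_iff]
    rintro x ⟨a, b, rfl⟩
    rw [Set.mem_singleton_iff, commutatorElement_eq_one_iff_mul_comm]
    exact hcomm a b
  rw [this] at h3
  exact le_bot_iff.mp h3

end Cfsg.Agent.S3979
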