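import Cfsg.Statements.S2087
import Cfsg.Agent.Lib.Helper66.PSL2Mult
import Cfsg.Agent.S0495
import Cfsg.Agent.S0249
import Cfsg.Agent.S3958
import Cfsg.Agent.S2117

set_option autoImplicit false
open Cfsg

namespace Cfsg.Agent.S2087

universe u

theorem three_ne_zero' : (3 : ZMod 7) ≠ 0 := by decide
theorem three_sq_ne_one' : (3 : ZMod 7) ^ 2 ≠ 1 := by decide

open Cfsg.Agent.Lib.Helper66 Cfsg.Agent.Lib.Helper5 in
theorem aux {F : Type u} [Field F] [Fintype F] (hF : Fintype.card F = 2) : Cfsg.HasCyclicSchurMultiplier (Matrix.ProjectiveSpecialLinearGroup (Fin 3) F) 2 := by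
  have : Fact (Nat.Prime 7) := ⟨by norm_num⟩
  have : Fact (Nat.Prime 2) := ⟨by norm_num⟩
  have hK : Fintype.card (ULift.{u} (ZMod 7)) = 7 := by
    rw [Fintype.card_ulift, ZMod.card]
  have hsimple : IsSimpleGroup (Matrix.ProjectiveSpecialLinearGroup (Fin 3) F) :=
    Cfsg.Agent.S0249.result 3 le_rfl
  have hcard : Nat.card (Matrix.ProjectiveSpecialLinearGroup (Fin 3) F) = 168 := by
    have h1 := Subgroup.card_eq_card_quotient_mul_card_subgroup
      (Subgroup.center (Matrix.SpecialLinearGroup (Fin 3) F))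
    rw [card_center_SL, hF] at h1
    have h2 := card_GL_eq_card_SL_mul_card_units (n := Fin 3) (F := F)
    rw [Matrix.card_GL_field] at h2
    have h3 : Nat.card Fˣ = 1 := by
      classical
      rw [Nat.card_eq_fintype_card, Fintype.card_units, hF]
    rw [h3, mul_one] at h2
    simp only [Fin.prod_univ_three, hF] at h2
    norm_num at h1 h2
    rw [← h1, ← h2]
  obtain ⟨e⟩ := Cfsg.Agent.S0495.result hcard hK
  apply HasSchurMultiplier.of_mulEquiv e.symm
  have h3 : (3 : ULift.{u} (ZMod 7)) ≠ 0 := by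
    intro h
    have h' : (3 : ZMod 7) = 0 := congrArg ULift.down h
    exact three_ne_zero' h'
  have h9 : (3 : ULift.{u} (ZMod 7)) ^ 2 ≠ 1 := by
    intro h
    have h' : (3 : ZMod 7) ^ 2 = 1 := congrArg ULift.down h
    exact three_sq_ne_one' h'
  have hperf : commutator (Matrix.SpecialLinearGroup (Fin 2) (ULift.{u} (ZMod 7))) = ⊤ :=
    Matrix.SL2.commutator_eq_top h3 h9
  have hM : Cfsg.HasCyclicSchurMultiplier (Matrix.SpecialLinearGroup (Fin 2) (ULift.{u} (ZMod 7))) 1 :=
    Cfsg.Agent.S2117.result (by rw [hK]; norm_num) (by rw [hK]; norm_num)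
  have hZ : Nat.card (Subgroup.center (Matrix.SpecialLinearGroup (Fin 2) (ULift.{u} (ZMod 7)))) = 2 := by
    rw [card_center_SL, hK]; rfl
  have hZ2 : Nat.card (Multiplicative (ZMod 2)) = 2 := by
    rw [Nat.card_eq_fintype_card, Fintype.card_multiplicative, ZMod.card]
  refine hasSchurMultiplier_center_quotient hperf ?_ (mulEquivOfPrimeCardEq hZ hZ2)
  intro Δ _ _ τ hτ
  refine Cfsg.Agent.S3958.result _ ?_ hM Δ τ hτ
  refine ⟨QuotientGroup.mk'_surjective _, ?_, ?_⟩
  · rw [QuotientGroup.ker_mk']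
  · rw [hperf]; exact le_top

/-- Exceptional Schur multiplier: over the field with 2 elements, PSL₃ has Schur multiplier cyclic of order 2 (here the Schur multiplier is described through stem extensions, as in the definitions). -/
theorem result {F : Type*} [Field F] [Fintype F] (hF : Fintype.card F = 2) : Cfsg.HasCyclicSchurMultiplier (Matrix.ProjectiveSpecialLinearGroup (Fin 3) F) 2 := by
  exact aux hF

end Cfsg.Agent.S2087
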