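import Cfsg.Statements.S2100
import Cfsg.Agent.Lib.Helper17.UcMain

set_option autoImplicit false
open Cfsg

namespace Cfsg.Agent.S2100

open Cfsg.Agent.Lib.Helper17

/-- Schur multipliers of the Chevalley groups of type G₂: over a field with q ≥ 5 elements the Schur multiplier of G₂(q) is trivial (here the Schur multiplier is described through stem extensions, as in the definitions); the cases q = 3 and q = 4 are exceptional and q = 2 gives a non-simple group. -/
theorem result {F : Type*} [Field F] [Fintype F] (hF : 5 ≤ Fintype.card F) : Cfsg.HasCyclicSchurMultiplier ↥(Cfsg.Lie.chevG2.group F) 1 := by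
  classical
  have hD : Cfsg.Lie.chevG2 ∈ [Cfsg.Lie.chevG2, Cfsg.Lie.chevB2, Cfsg.Lie.chevD4, Cfsg.Lie.chevF4,
      Cfsg.Lie.chevE6, Cfsg.Lie.chevE7, Cfsg.Lie.chevE8] := by simp
  obtain ⟨T, W, A⟩ := exists_allH F hD
  have hK : ∃ s : Finset F, 4 < s.card := ⟨Finset.univ, by rw [Finset.card_univ]; omega⟩
  refine ⟨⟨↥(Cfsg.Lie.chevG2.group F), inferInstance, inferInstance, MonoidHom.id _,
    ⟨Function.surjective_id, ?_, ?_⟩, ?_⟩, ?_⟩
  · intro x hx
    rw [MonoidHom.mem_ker, MonoidHom.id_apply] at hx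
    rw [hx]; exact one_mem _
  · intro x hx
    rw [MonoidHom.mem_ker, MonoidHom.id_apply] at hx
    rw [hx]; exact one_mem _
  · have : Unique (MonoidHom.id ↥(Cfsg.Lie.chevG2.group F)).ker :=
      ⟨⟨1⟩, fun x => Subtype.ext (by
        have := x.2
        rw [MonoidHom.mem_ker, MonoidHom.id_apply] at this
        exact this)⟩
    have : Unique (Multiplicative (ZMod 1)) := ⟨⟨1⟩, fun x => Subsingleton.elim (α := ZMod 1) _ _⟩
    exact ⟨MulEquiv.ofUnique⟩
  · intro Γ _ _ σ hσ
    obtain ⟨hsurj, hcen, hcomm⟩ := hσ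
    have hker : ((Cfsg.Lie.chevG2.group F).subtype.comp σ).ker = σ.ker := by
      ext x
      rw [MonoidHom.mem_ker, MonoidHom.mem_ker, MonoidHom.comp_apply]
      constructor
      · intro h; exact Subtype.ext h
      · intro h; rw [h]; rfl
    let C : CExt Cfsg.Lie.chevG2 F Γ :=
      { ψ := (Cfsg.Lie.chevG2.group F).subtype.comp σ
        central := by rw [hker]; exact hcen
        surj := fun g hg => by
          obtain ⟨e, he⟩ := hsurj ⟨g, hg⟩
          exact ⟨e, by rw [MonoidHom.comp_apply, he]; rfl⟩ }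
    obtain ⟨S, hS⟩ := C.exists_std A hK prOK_G2 trOK_G2 (C.ab_of_p1 A hK p1OK_G2)
    have hSθ : S.θ = (Cfsg.Lie.chevG2.group F).subtype.comp σ := hS
    have gen := S.gen_of_stem A.hB (by rw [hSθ, hker]; exact hcen) (by rw [hSθ, hker]; exact hcomm)
      (fun e => by rw [hSθ]; exact (σ e).2)
    have hbot := S.ker_eq_bot hD A gen cInvG2 cartanInv_G2
    rw [hSθ, hker] at hbot
    refine ⟨1, fun x => ⟨1, ?_⟩⟩
    have h1 : (x : Γ) ∈ (⊥ : Subgroup Γ) := hbot ▸ x.2
    rw [Subgroup.mem_bot] at h1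
    exact Subtype.ext h1.symm

end Cfsg.Agent.S2100
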