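import Cfsg.Statements.S2111
import Cfsg.Agent.Lib.Helper37.Suzuki.Multiplier2
import Cfsg.Agent.Lib.Helper37.Suzuki.LieModel

set_option autoImplicit false
open Cfsg

namespace Cfsg.Agent.S2111

/-- Schur multipliers of the Suzuki groups: for q = 2^(2m+1) with m ≥ 2 the Schur multiplier of Sz(q) is trivial (here the Schur multiplier is described through stem extensions, as in the definitions); q = 8 is exceptional. -/
theorem result {F : Type*} [Field F] [Fintype F] {m : ℕ} (hm : 2 ≤ m) (hF : Fintype.card F = 2 ^ (2 * m + 1)) : Cfsg.HasCyclicSchurMultiplier ↥(Cfsg.Lie.Sz F (2 ^ (m + 1))) 1 := by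
  have : Cfsg.Agent.Lib.Helper37.Suz.SzField F m := ⟨by omega, hF⟩
  have hfin : Finite ↥(Cfsg.Lie.Sz F (2 ^ (m + 1))) := Subtype.finite
  constructor
  · refine ⟨↥(Cfsg.Lie.Sz F (2 ^ (m + 1))), inferInstance, hfin, MonoidHom.id _, ⟨Function.surjective_id, ?_, ?_⟩, ?_⟩
    · rw [MonoidHom.ker_id]; exact bot_le
    · rw [MonoidHom.ker_id]; exact bot_le
    · have h1 : Subsingleton (MonoidHom.id ↥(Cfsg.Lie.Sz F (2 ^ (m + 1)))).ker := by
        rw [MonoidHom.ker_id]; infer_instance
      have h2 : Subsingleton (Multiplicative (ZMod 1)) := by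
        change Subsingleton (ZMod 1); infer_instance
      have u1 : Unique (MonoidHom.id ↥(Cfsg.Lie.Sz F (2 ^ (m + 1)))).ker :=
        ⟨⟨1⟩, fun a => Subsingleton.elim _ _⟩
      have u2 : Unique (Multiplicative (ZMod 1)) := ⟨⟨1⟩, fun a => Subsingleton.elim _ _⟩
      exact ⟨MulEquiv.ofUnique⟩
  · intro Γ _ _ σ hσ
    obtain ⟨hs, hc, hd⟩ := hσ
    let e := Cfsg.Agent.Lib.Helper37.Suz.lieEquiv (F := F) m
    let σ' : Γ →* ↥(Cfsg.Sz F m) := e.symm.toMonoidHom.comp σ
    have hker : σ'.ker = σ.ker := by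
      ext x
      simp only [MonoidHom.mem_ker, σ', MonoidHom.comp_apply]
      constructor
      · intro h
        apply e.symm.injective
        rw [map_one]; exact h
      · intro h
        rw [h]; exact map_one _
    have key := Cfsg.Agent.Lib.Helper37.Suz.ker_eq_bot_of_stem m hm σ'
      (e.symm.surjective.comp hs) (by rw [hker]; exact hc) (by rw [hker]; exact hd)
    rw [hker] at key
    refine ⟨1, ?_⟩
    intro x
    refine ⟨1, ?_⟩
    have hx : (x : Γ) ∈ (⊥ : Subgroup Γ) := key ▸ x.2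
    apply Subtype.ext
    rw [Subgroup.mem_bot.1 hx]
    rfl

end Cfsg.Agent.S2111
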