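import Cfsg.Statements.S2121
import Cfsg.Agent.Lib.Helper36.ChevOut6
import Cfsg.Agent.Lib.Helper43.PA.FieldAut
import Cfsg.Agent.S1099

set_option autoImplicit false
open Cfsg

namespace Cfsg.Agent.S2121

open Cfsg.Lie Cfsg.Agent.Lib.Helper18 Cfsg.Agent.Lib.Helper36

/-- the symmetry of the diagram -/
def piG2 : Equiv.Perm (Fin chevG2.rank) := Equiv.swap ⟨0, by decide⟩ ⟨1, by decide⟩

theorem pre_one : pre (1 : Equiv.Perm (Fin chevG2.rank)) chevG2.rank = [0, 1] := by
  decide

theorem dataG2 : chevG2.cartan 0 (chevG2.simple 1) = -3 ∧ chevG2.cartan 1 (chevG2.simple 0) = -1 ∧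
    chevG2.isLong (chevG2.simple 0) = false ∧ chevG2.isLong (chevG2.simple 1) = true := by
  decide +kernel

theorem simpleG2 : chevG2.simple 0 = g2a ∧ chevG2.simple 1 = g2b ∧ chevG2.neg (chevG2.simple 0) = g2ma ∧
    chevG2.neg (chevG2.simple 1) = g2mb := by
  decide +kernel

/-- Outer automorphisms of the Chevalley groups of type G₂: over a field with q = p^f (p prime) ≥ 3 elements, the outer automorphism group of G₂(q) has order f when p ≠ 3 and 2f when p = 3 (field automorphisms, and in characteristic 3 also the exceptional graph automorphism). -/
theorem result {F : Type*} [Field F] [Fintype F] (p f : ℕ) [Fact p.Prime] [CharP F p] (hF : Fintype.card F = p ^ f) (hq : 3 ≤ p ^ f) : Nat.card (Cfsg.Out ↥(Cfsg.Lie.chevG2.group F)) = (if p = 3 then 2 * f else f) := by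
  have hD : chevG2 ∈ [chevG2, chevB2, chevD4, chevF4, chevE6, chevE7, chevE8] := by simp
  have hB := base_of_mem F hD
  have h1 := card_out (F := F) hD
  have h2 := card_range_diagOut (F := F) hD
  have h3 := card_H_G2 F
  have h4 : Nat.card (diagOut (F := F) hD).range = 1 := by
    rw [← h3] at h2
    exact Nat.eq_of_mul_eq_mul_right Nat.card_pos h2
  have h5 : Nat.card (permOut (F := F) hD).range = (if p = 3 then 2 else 1) := by
    by_cases hp : p = 3
    · subst hp
      have hle := card_range_permOut_le (F := F) hD
      rw [symListsG2] at hle
      have hpos : 0 < Nat.card (permOut (F := F) hD).range := Nat.card_pos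
      simp only [List.length_cons, List.length_nil] at hle
      have hne : Nat.card (permOut (F := F) hD).range ≠ 1 := by
        intro h1
        rw [Subgroup.card_eq_one] at h1
        have hperf : ∀ x : F, ∃ y : F, y ^ 3 = x := fun x =>
          (Finite.injective_iff_surjective.mp (frobenius_inj F 3)) x
        obtain ⟨α, hα⟩ := Cfsg.Agent.S1099.result (K := F) hperf
        obtain ⟨s0, s1, s2, s3⟩ := simpleG2
        have hrel : PermRel hB α piG2 := by
          apply permRel_of_std
          intro i t
          have hi : i = ⟨0, by decide⟩ ∨ i = ⟨1, by decide⟩ := by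
            revert i
            decide
          rcases hi with rfl | rfl
          · have e : ((piG2 ⟨0, by decide⟩ : Fin chevG2.rank) : ℕ) = 1 := by decide
            refine ⟨⟨t ^ 3, ?_⟩, ⟨t ^ 3, ?_⟩⟩
            · apply Subtype.ext
              apply Units.ext
              rw [e]
              have := (hα (xG hB (chevG2.simple 0) t) t).1 (by rw [← s0]; rfl)
              rw [← s1] at this
              exact this
            · apply Subtype.ext
              apply Units.ext
              rw [e]
              have := (hα (xG hB (chevG2.neg (chevG2.simple 0)) t) t).2.2.1 (by rw [← s2]; rfl)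
              rw [← s3] at this
              exact this
          · have e : ((piG2 ⟨1, by decide⟩ : Fin chevG2.rank) : ℕ) = 0 := by decide
            refine ⟨⟨t, ?_⟩, ⟨t, ?_⟩⟩
            · apply Subtype.ext
              apply Units.ext
              rw [e]
              have := (hα (xG hB (chevG2.simple 1) t) t).2.1 (by rw [← s1]; rfl)
              rw [← s0] at this
              exact this
            · apply Subtype.ext
              apply Units.ext
              rw [e]
              have := (hα (xG hB (chevG2.neg (chevG2.simple 1)) t) t).2.2.2 (by rw [← s3]; rfl)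
              rw [← s2] at this
              exact this
        have h6 : permOfAut hD α = piG2 := permOfAut_eq hD hB hrel
        have h7 : piG2 ∈ (permOut (F := F) hD).range := ⟨QuotientGroup.mk' _ α, h6⟩
        rw [h1, Subgroup.mem_bot] at h7
        have h8 : ((piG2 ⟨0, by decide⟩ : Fin chevG2.rank) : ℕ) = 1 := by decide
        rw [h7] at h8
        simp at h8
      rw [if_pos rfl]
      omega
    · rw [if_neg hp, Subgroup.card_eq_one, eq_bot_iff]
      rintro _ ⟨o, rfl⟩
      obtain ⟨θ, rfl⟩ := QuotientGroup.mk'_surjective _ o
      rw [Subgroup.mem_bot]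
      change permOfAut hD θ = 1
      have hm := pre_permOfAut_mem hD θ
      rw [symListsG2] at hm
      simp only [List.mem_cons, List.not_mem_nil, or_false] at hm
      rcases hm with hm | hm
      · apply pre_injective
        rw [hm, pre_one]
      · exfalso
        have e1 : ((permOfAut hD θ ⟨0, by decide⟩ : Fin chevG2.rank) : ℕ) = 1 := by
          rw [← pv_of_lt, ← pre_getD (m := chevG2.rank) _ (by decide), hm]
          rfl
        have e2 : ((permOfAut hD θ ⟨1, by decide⟩ : Fin chevG2.rank) : ℕ) = 0 := by
          rw [← pv_of_lt, ← pre_getD (m := chevG2.rank) _ (by decide), hm]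
          rfl
        obtain ⟨d1, d2, d3, d4⟩ := dataG2
        have hrc : ringChar F = p := ringChar.eq F p
        have key : ∀ c : F, c ^ 3 = c ^ p := by
          intro c
          by_cases hc : c = 0
          · subst hc
            rw [zero_pow (by norm_num), zero_pow (Fact.out : p.Prime).ne_zero]
          · have h := graph_rel hD θ ⟨0, by decide⟩ ⟨1, by decide⟩ hc
            rw [e1, e2] at h
            simp only [graphExp_def, d1, d2, d3, d4, hrc] at h
            simp only [Bool.and_false, Bool.not_true, Bool.not_false, Bool.and_true, Bool.false_eq_true,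
              if_false, if_true, pow_one, zpow_neg, zpow_one, inv_inj] at h
            exact_mod_cast h
        have h60 := six_eq_zero_of_cube_eq key
        have hp6 : (p : ℕ) ∣ 2 * 3 := by
          rw [← CharP.cast_eq_zero_iff F p (2 * 3)]
          norm_num
          exact h60
        rcases (Nat.Prime.dvd_mul (Fact.out : p.Prime)).mp hp6 with h | h
        · have hp2 : p = 2 := (Nat.prime_dvd_prime_iff_eq (Fact.out : p.Prime) Nat.prime_two).mp h
          subst hp2
          have hcard : 2 < Fintype.card F := by rw [hF]; omega
          obtain ⟨a, b, c, hab, hac, hbc⟩ := Fintype.two_lt_card_iff.mp hcard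
          have hone : ∀ x : F, x ≠ 0 → x = 1 := by
            intro x hx
            have := key x
            have h' : x ^ 2 * x = x ^ 2 * 1 := by rw [mul_one, ← pow_succ]; exact this
            exact mul_left_cancel₀ (pow_ne_zero 2 hx) h'
          by_cases ha : a = 0
          · exact hbc ((hone b (fun h => hab (ha.trans h.symm))).trans
              (hone c (fun h => hac (ha.trans h.symm))).symm)
          · by_cases hb : b = 0
            · exact hac ((hone a ha).trans (hone c (fun h => hbc (hb.trans h.symm))).symm)
            · exact hab ((hone a ha).trans (hone b hb).symm)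
        · exact hp ((Nat.prime_dvd_prime_iff_eq (Fact.out : p.Prime) Nat.prime_three).mp h)
  rw [h1, h4, h5, Cfsg.Agent.Lib.Helper43.PA.card_ringAut hF]
  split_ifs <;> ring

end Cfsg.Agent.S2121
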