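import Cfsg.Statements.S2122
import Cfsg.Agent.Lib.Helper36.ChevOut6
import Cfsg.Agent.Lib.Helper43.PA.FieldAut
import Cfsg.Agent.S1098

set_option autoImplicit false
open Cfsg

namespace Cfsg.Agent.S2122

open Cfsg.Lie Cfsg.Agent.Lib.Helper18 Cfsg.Agent.Lib.Helper36

/-- the symmetry of the diagram -/
def piF4 : Equiv.Perm (Fin chevF4.rank) :=
  Equiv.swap ⟨0, by decide⟩ ⟨3, by decide⟩ * Equiv.swap ⟨1, by decide⟩ ⟨2, by decide⟩

theorem piF4_apply : ∀ i : Fin chevF4.rank,
    ((piF4 i : Fin chevF4.rank) : ℕ) = ([(3, 2), (2, 2), (1, 1), (0, 1)].getD (i : ℕ) (0, 1)).1 := by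
  decide

theorem pre_one : pre (1 : Equiv.Perm (Fin chevF4.rank)) chevF4.rank = [0, 1, 2, 3] := by
  decide

theorem dataF4 : chevF4.cartan 1 (chevF4.simple 2) = -2 ∧ chevF4.cartan 2 (chevF4.simple 1) = -1 ∧
    chevF4.isLong (chevF4.simple 1) = false ∧ chevF4.isLong (chevF4.simple 2) = true := by
  decide +kernel

/-- Outer automorphisms of the Chevalley groups of type F₄: over a field with q = p^f (p prime) elements, the outer automorphism group of F₄(q) has order gcd(2, p) · f (field automorphisms, and in characteristic 2 also the exceptional graph automorphism). -/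
theorem result {F : Type*} [Field F] [Fintype F] (p f : ℕ) [Fact p.Prime] [CharP F p] (hF : Fintype.card F = p ^ f) : Nat.card (Cfsg.Out ↥(Cfsg.Lie.chevF4.group F)) = Nat.gcd 2 p * f := by
  have hD : chevF4 ∈ [chevG2, chevB2, chevD4, chevF4, chevE6, chevE7, chevE8] := by simp
  have hB := base_of_mem F hD
  have h1 := card_out (F := F) hD
  have h2 := card_range_diagOut (F := F) hD
  have h3 := card_H_F4 F
  have h4 : Nat.card (diagOut (F := F) hD).range = 1 := by
    rw [← h3] at h2
    exact Nat.eq_of_mul_eq_mul_right Nat.card_pos h2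
  have h5 : Nat.card (permOut (F := F) hD).range = Nat.gcd 2 p := by
    by_cases hp : p = 2
    · subst hp
      have hle := card_range_permOut_le (F := F) hD
      rw [symListsF4] at hle
      have hpos : 0 < Nat.card (permOut (F := F) hD).range := Nat.card_pos
      simp only [List.length_cons, List.length_nil] at hle
      have hne : Nat.card (permOut (F := F) hD).range ≠ 1 := by
        intro h1
        rw [Subgroup.card_eq_one] at h1
        have hperf : ∀ x : F, ∃ y : F, y ^ 2 = x := fun x =>
          (Finite.injective_iff_surjective.mp (frobenius_inj F 2)) x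
        obtain ⟨α, hα⟩ := Cfsg.Agent.S1098.result (K := F) hperf
          (chevF4, [(3, 2), (2, 2), (1, 1), (0, 1)]) (by simp)
        have hrel : PermRel hB α piF4 := by
          apply permRel_of_std
          intro i t
          refine ⟨⟨t ^ ([(3, 2), (2, 2), (1, 1), (0, 1)].getD (i : ℕ) (0, 1)).2, ?_⟩,
            ⟨t ^ ([(3, 2), (2, 2), (1, 1), (0, 1)].getD (i : ℕ) (0, 1)).2, ?_⟩⟩
          · apply Subtype.ext
            apply Units.ext
            rw [piF4_apply]
            exact (hα (xG hB (chevF4.simple i) t) i t i.2).1 rfl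
          · apply Subtype.ext
            apply Units.ext
            rw [piF4_apply]
            exact (hα (xG hB (chevF4.neg (chevF4.simple i)) t) i t i.2).2 rfl
        have h6 : permOfAut hD α = piF4 := permOfAut_eq hD hB hrel
        have h7 : piF4 ∈ (permOut (F := F) hD).range := ⟨QuotientGroup.mk' _ α, h6⟩
        rw [h1, Subgroup.mem_bot] at h7
        have h8 := piF4_apply ⟨0, by decide⟩
        rw [h7] at h8
        simp at h8
      have : Nat.gcd 2 2 = 2 := rfl
      omega
    · have hg : Nat.gcd 2 p = 1 := by
        exact (Nat.coprime_primes Nat.prime_two (Fact.out : p.Prime)).mpr (fun h => hp h.symm)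
      rw [hg, Subgroup.card_eq_one, eq_bot_iff]
      rintro _ ⟨o, rfl⟩
      obtain ⟨θ, rfl⟩ := QuotientGroup.mk'_surjective _ o
      rw [Subgroup.mem_bot]
      change permOfAut hD θ = 1
      have hm := pre_permOfAut_mem hD θ
      rw [symListsF4] at hm
      simp only [List.mem_cons, List.not_mem_nil, or_false] at hm
      rcases hm with hm | hm
      · apply pre_injective
        rw [hm, pre_one]
      · exfalso
        have e1 : ((permOfAut hD θ ⟨1, by decide⟩ : Fin chevF4.rank) : ℕ) = 2 := by
          rw [← pv_of_lt, ← pre_getD (m := chevF4.rank) _ (by decide), hm]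
          rfl
        have e2 : ((permOfAut hD θ ⟨2, by decide⟩ : Fin chevF4.rank) : ℕ) = 1 := by
          rw [← pv_of_lt, ← pre_getD (m := chevF4.rank) _ (by decide), hm]
          rfl
        obtain ⟨d1, d2, d3, d4⟩ := dataF4
        have hrc : ringChar F = p := ringChar.eq F p
        have key : ∀ c : F, c ^ 2 = c ^ p := by
          intro c
          by_cases hc : c = 0
          · subst hc
            rw [zero_pow (by norm_num), zero_pow (Fact.out : p.Prime).ne_zero]
          · have h := graph_rel hD θ ⟨1, by decide⟩ ⟨2, by decide⟩ hc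
            rw [e1, e2] at h
            simp only [graphExp_def, d1, d2, d3, d4, hrc] at h
            simp only [Bool.and_false, Bool.not_true, Bool.not_false, Bool.and_true, Bool.false_eq_true,
              if_false, if_true, pow_one, zpow_neg, zpow_one, inv_inj] at h
            exact_mod_cast h
        have h20 := two_eq_zero_of_sq_eq key
        have : (p : ℕ) ∣ 2 := by
          rw [← CharP.cast_eq_zero_iff F p 2]
          exact_mod_cast h20
        exact hp ((Nat.prime_dvd_prime_iff_eq (Fact.out : p.Prime) Nat.prime_two).mp this)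
  rw [h1, h4, h5, Cfsg.Agent.Lib.Helper43.PA.card_ringAut hF]
  ring

end Cfsg.Agent.S2122
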