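import Cfsg.Statements.S2123
import Cfsg.Agent.Lib.Helper36.ChevOut4
import Cfsg.Agent.Lib.Helper43.PA.FieldAut
import Cfsg.Agent.S1081

set_option autoImplicit false
open Cfsg

namespace Cfsg.Agent.S2123

open Cfsg.Lie Cfsg.Agent.Lib.Helper18 Cfsg.Agent.Lib.Helper36

/-- the symmetry of the diagram -/
def piE6 : Equiv.Perm (Fin chevE6.rank) :=
  Equiv.swap ⟨0, by decide⟩ ⟨5, by decide⟩ * Equiv.swap ⟨2, by decide⟩ ⟨4, by decide⟩

theorem piE6_apply : ∀ i : Fin chevE6.rank, ((piE6 i : Fin chevE6.rank) : ℕ) = [5, 1, 4, 3, 2, 0].getD i 0 := by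
  decide

/-- Outer automorphisms of the (adjoint, simple) Chevalley groups of type E₆: over a field with q = p^f (p prime) elements, the outer automorphism group of E₆(q) has order 2 · gcd(3, q − 1) · f (diagonal, field and graph automorphisms). -/
theorem result {F : Type*} [Field F] [Fintype F] (p f : ℕ) [Fact p.Prime] [CharP F p] (hF : Fintype.card F = p ^ f) : Nat.card (Cfsg.Out ↥(Cfsg.Lie.chevE6.group F)) = 2 * Nat.gcd 3 (p ^ f - 1) * f := by
  have hD : chevE6 ∈ [chevG2, chevB2, chevD4, chevF4, chevE6, chevE7, chevE8] := by simp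
  have hB := base_of_mem F hD
  have h1 := card_out (F := F) hD
  have h2 := card_range_diagOut (F := F) hD
  have h3 := card_H_E6 F
  have h4 : Nat.card (diagOut (F := F) hD).range = Nat.gcd 3 (Fintype.card F - 1) := by
    rw [← h3] at h2
    exact Nat.eq_of_mul_eq_mul_right Nat.card_pos h2
  have h5 : Nat.card (permOut (F := F) hD).range = 2 := by
    have hle := card_range_permOut_le (F := F) hD
    rw [symListsE6] at hle
    have hpos : 0 < Nat.card (permOut (F := F) hD).range := Nat.card_pos
    simp only [List.length_cons, List.length_nil] at hle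
    have hne : Nat.card (permOut (F := F) hD).range ≠ 1 := by
      intro h1
      rw [Subgroup.card_eq_one] at h1
      obtain ⟨α, hα⟩ := Cfsg.Agent.S1081.result (F := F) (chevE6, [5, 1, 4, 3, 2, 0]) (by simp)
      have hrel : PermRel hB α piE6 := by
        apply permRel_of_std
        intro i t
        refine ⟨⟨t, ?_⟩, ⟨t, ?_⟩⟩
        · apply Subtype.ext
          apply Units.ext
          rw [piE6_apply]
          exact (hα (xG hB (chevE6.simple i) t) i t i.2).1 rfl
        · apply Subtype.ext
          apply Units.ext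
          rw [piE6_apply]
          exact (hα (xG hB (chevE6.neg (chevE6.simple i)) t) i t i.2).2 rfl
      have h6 : permOfAut hD α = piE6 := permOfAut_eq hD hB hrel
      have h7 : piE6 ∈ (permOut (F := F) hD).range := ⟨QuotientGroup.mk' _ α, h6⟩
      rw [h1, Subgroup.mem_bot] at h7
      have h8 := piE6_apply ⟨0, by decide⟩
      rw [h7] at h8
      simp at h8
    omega
  rw [h1, h4, h5, Cfsg.Agent.Lib.Helper43.PA.card_ringAut hF, hF]
  ring

end Cfsg.Agent.S2123
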