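import Cfsg.Statements.S2124
import Cfsg.Agent.Lib.Helper36.ChevOut4
import Cfsg.Agent.Lib.Helper43.PA.FieldAut

set_option autoImplicit false
open Cfsg

namespace Cfsg.Agent.S2124

open Cfsg.Lie Cfsg.Agent.Lib.Helper18 Cfsg.Agent.Lib.Helper36

/-- Outer automorphisms of the (adjoint, simple) Chevalley groups of type E₇: over a field with q = p^f (p prime) elements, the outer automorphism group of E₇(q) has order gcd(2, q − 1) · f (diagonal and field automorphisms). -/
theorem result {F : Type*} [Field F] [Fintype F] (p f : ℕ) [Fact p.Prime] [CharP F p] (hF : Fintype.card F = p ^ f) : Nat.card (Cfsg.Out ↥(Cfsg.Lie.chevE7.group F)) = Nat.gcd 2 (p ^ f - 1) * f := by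
  have hD : chevE7 ∈ [chevG2, chevB2, chevD4, chevF4, chevE6, chevE7, chevE8] := by simp
  have h1 := card_out (F := F) hD
  have h2 := card_range_diagOut (F := F) hD
  have h3 := card_H_E7 F
  have h4 : Nat.card (diagOut (F := F) hD).range = Nat.gcd 2 (Fintype.card F - 1) := by
    rw [← h3] at h2
    exact Nat.eq_of_mul_eq_mul_right Nat.card_pos h2
  have h5 : Nat.card (permOut (F := F) hD).range = 1 := by
    have := card_range_permOut_le (F := F) hD
    rw [symListsE7] at this
    have hpos : 0 < Nat.card (permOut (F := F) hD).range := Nat.card_pos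
    simp only [List.length_cons, List.length_nil] at this
    omega
  rw [h1, h4, h5, Cfsg.Agent.Lib.Helper43.PA.card_ringAut hF, hF]
  simp

end Cfsg.Agent.S2124
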