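import Mathlib
import Cfsg.Statements.S2140
import Cfsg.Agent.Lib.Helper14.MinIdx.Main

set_option autoImplicit false
open Cfsg

namespace Cfsg.Agent.S2140

/-- Minimal index of a proper subgroup of the linear groups: for n ≥ 3 and a field F with q elements, (n, q) ≠ (4, 2), every proper subgroup of PSL_n(F) has index at least (q^n − 1)/(q − 1), and some subgroup has exactly that index (the stabiliser of a point of the projective space). -/
theorem result {F : Type*} [Field F] [Fintype F] {q : ℕ} (hF : Fintype.card F = q) (n : ℕ) (hn : 3 ≤ n) (hexc : ¬ (n = 4 ∧ q = 2)) : (∀ H : Subgroup (Matrix.ProjectiveSpecialLinearGroup (Fin n) F), H ≠ ⊤ → (q ^ n - 1) / (q - 1) ≤ H.index) ∧ (∃ H : Subgroup (Matrix.ProjectiveSpecialLinearGroup (Fin n) F), H.index = (q ^ n - 1) / (q - 1)) := by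
  subst hF
  constructor
  · intro H hH
    classical
    let π := QuotientGroup.mk' (Subgroup.center (Matrix.SpecialLinearGroup (Fin n) F))
    have hπ : Function.Surjective π := QuotientGroup.mk'_surjective _
    let K : Subgroup (Matrix.SpecialLinearGroup (Fin n) F) := H.comap π
    have hidx : K.index = H.index := Subgroup.index_comap_of_surjective H hπ
    letI : Fintype (Matrix.SpecialLinearGroup (Fin n) F ⧸ K) := Fintype.ofFinite _
    have hcard : Fintype.card (Matrix.SpecialLinearGroup (Fin n) F ⧸ K) = H.index := by
      rw [← hidx, Subgroup.index_eq_card, Nat.card_eq_fintype_card]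
    have h1 : 1 < H.index := by
      have h0 : H.index ≠ 0 := Subgroup.index_ne_zero_of_finite
      have h1 : H.index ≠ 1 := fun h => hH (Subgroup.index_eq_one.mp h)
      omega
    have := Cfsg.Agent.Lib.Helper14.MinIdx.lower (n := n) (F := F)
      (Ω := Matrix.SpecialLinearGroup (Fin n) F ⧸ K) hn hexc (by rw [hcard]; exact h1)
    rw [hcard] at this
    exact Nat.div_le_of_le_mul this
  · have hne : Nonempty (Projectivization F (Fin n → F)) := by
      have : Nontrivial (Fin n → F) := by
        haveI : Nonempty (Fin n) := ⟨⟨0, by omega⟩⟩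
        infer_instance
      obtain ⟨v, hv⟩ := exists_ne (0 : Fin n → F)
      exact ⟨Projectivization.mk F v hv⟩
    obtain ⟨x⟩ := hne
    refine ⟨MulAction.stabilizer (Matrix.ProjectiveSpecialLinearGroup (Fin n) F) x, ?_⟩
    haveI : MulAction.IsPretransitive (Matrix.ProjectiveSpecialLinearGroup (Fin n) F)
        (Projectivization F (Fin n → F)) := MulAction.IsPreprimitive.toIsPretransitive
    rw [MulAction.index_stabilizer_of_transitive, Projectivization.card'']
    simp [Nat.card_eq_fintype_card]

end Cfsg.Agent.S2140
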