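import Cfsg.Statements.S2141
import Cfsg.Agent.Lib.Helper14.MinSp.Main

set_option autoImplicit false
open Cfsg

namespace Cfsg.Agent.S2141

open Matrix Cfsg.Agent.Lib.Helper13 Cfsg.Agent.Lib.Helper5 Cfsg.Agent.Lib.Helper14.MinSp

theorem index_Pe {F : Type*} [Field F] [Fintype F] (k : ℕ) :
    (Pe k F).index = NN (Fintype.card F) (k + 1) := by
  have hq : 2 ≤ Fintype.card F := Fintype.one_lt_card
  have h := card_sp_stabilizing_mul (F := F) (k + 1) 1
    (Submodule.span F {(eL 0 : Fin (k + 1) ⊕ Fin (k + 1) → F)})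
    (finrank_span_singleton (eL_ne_zero 0)) (by
      intro u hu v hv
      obtain ⟨a, rfl⟩ := Submodule.mem_span_singleton.1 hu
      obtain ⟨b, rfl⟩ := Submodule.mem_span_singleton.1 hv
      rw [sympForm_smul_left, sympForm_smul_right, sympForm_self]
      simp)
  simp only [Finset.univ_unique, Fin.default_eq_zero, Fin.isValue, Finset.prod_singleton,
    Fin.val_zero, pow_zero, pow_one, Nat.sub_zero] at h
  have h2 := Subgroup.index_mul_card (Pe k F)
  unfold NN
  symm
  apply Nat.div_eq_of_eq_mul_left (by omega)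
  have hpos : 0 < Nat.card (Pe k F) := Nat.card_pos
  apply Nat.eq_of_mul_eq_mul_left hpos
  have h3 : Nat.card (Pe k F) * (Fintype.card F ^ (2 * (k + 1)) - 1)
      = (Fintype.card F - 1) * Nat.card (Matrix.symplecticGroup (Fin (k + 1)) F) := h
  rw [h3, ← h2]
  ring

theorem center_le_Pe {F : Type*} [Field F] (k : ℕ) :
    Subgroup.center (Matrix.symplecticGroup (Fin (k + 1)) F) ≤ Pe k F := by
  intro z hz
  obtain ⟨a, ha⟩ := sp_center_scalar (k + 1) z hz
  have hact : ∀ x : Fin (k + 1) ⊕ Fin (k + 1) → F, z.1 *ᵥ x = a • x := by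
    intro x
    rw [ha]
    ext i
    simp [Matrix.mulVec_diagonal]
  have ha0 : a ≠ 0 := by
    rintro rfl
    have h1 := hact (eL 0)
    rw [zero_smul] at h1
    exact sp_mulVec_ne_zero' z (eL_ne_zero 0) h1
  intro v
  show v ∈ Submodule.span F _ ↔ z.1 *ᵥ v ∈ Submodule.span F _
  rw [hact]
  exact (Submodule.smul_mem_iff _ ha0).symm

/-- Minimal index of a proper subgroup of the symplectic groups over fields with at least 3 elements: for m ≥ 2 and a field F with q ≥ 3 elements, (m, q) ≠ (2, 3), every proper subgroup of PSp_2m(F) has index at least (q^(2m) − 1)/(q − 1), and that index is attained. -/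
theorem result {F : Type*} [Field F] [Fintype F] {q : ℕ} (hF : Fintype.card F = q) (m : ℕ) (hm : 2 ≤ m) (hq : 3 ≤ q) (hexc : ¬ (m = 2 ∧ q = 3)) : (∀ H : Subgroup (Cfsg.PSp m F), H ≠ ⊤ → (q ^ (2 * m) - 1) / (q - 1) ≤ H.index) ∧ (∃ H : Subgroup (Cfsg.PSp m F), H.index = (q ^ (2 * m) - 1) / (q - 1)) := by
  subst hF
  have hsurj : Function.Surjective
      (QuotientGroup.mk' (Subgroup.center (Matrix.symplecticGroup (Fin m) F))) :=
    QuotientGroup.mk'_surjective _
  constructor
  · intro H hH
    have h1 := main_sp hm hq hexc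
      (H.comap (QuotientGroup.mk' (Subgroup.center (Matrix.symplecticGroup (Fin m) F)))) (by
        intro h
        apply hH
        apply Subgroup.comap_injective hsurj
        rw [h, Subgroup.comap_top])
    rw [Subgroup.index_comap_of_surjective _ hsurj] at h1
    exact h1
  · obtain ⟨k, rfl⟩ : ∃ k, m = k + 1 := ⟨m - 1, by omega⟩
    refine ⟨(Pe k F).map
      (QuotientGroup.mk' (Subgroup.center (Matrix.symplecticGroup (Fin (k + 1)) F))), ?_⟩
    rw [Subgroup.index_map, QuotientGroup.ker_mk', sup_eq_left.2 (center_le_Pe k),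
      MonoidHom.range_eq_top.2 hsurj, Subgroup.index_top, mul_one, index_Pe]
    rfl

end Cfsg.Agent.S2141
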