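import Cfsg.Statements.S2142
import Cfsg.Agent.Lib.Helper14.MinSp2.Defs
import Cfsg.Agent.Lib.Helper12.MinSp2.T2
import Cfsg.Agent.Lib.Helper12.MinSp2.T4
import Cfsg.Agent.Lib.Helper12.MinSp2.T6
import Cfsg.Agent.Lib.Helper62.MinSp2.T1
import Cfsg.Agent.Lib.Helper62.MinSp2.T3
import Cfsg.Agent.Lib.Helper62.MinSp2.T5
import Cfsg.Agent.S0765

set_option autoImplicit false
open Cfsg

namespace Cfsg.Agent.S2142

open Matrix Cfsg.Agent.Lib.Helper13 Cfsg.Agent.Lib.Helper5 Cfsg.Agent.Lib.Helper14.MinSp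
open Cfsg.Agent.Lib.Helper14.MinSp2

theorem eq_zero_or_one {F : Type*} [Field F] [Fintype F] (hF : Fintype.card F = 2) (a : F) :
    a = 0 ∨ a = 1 := by
  classical
  by_contra hcon
  push Not at hcon
  have h : ({0, 1, a} : Finset F).card = 3 := by
    rw [Finset.card_eq_three]
    exact ⟨0, 1, a, zero_ne_one, hcon.1.symm, hcon.2.symm, rfl⟩
  have h2 := Finset.card_le_univ ({0, 1, a} : Finset F)
  omega

theorem two_eq_zero' {F : Type*} [Field F] [Fintype F] (hF : Fintype.card F = 2) : (2 : F) = 0 := by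
  have := Nat.cast_card_eq_zero F
  rw [hF] at this
  exact_mod_cast this

theorem arith_D (k : ℕ) : 2 ^ (2 * (k + 1) - 1) - 2 ^ (k + 1 - 1) = 2 ^ k * (2 ^ (k + 1) - 1) := by
  have h1 : 2 * (k + 1) - 1 = k + (k + 1) := by omega
  rw [h1, Nat.add_sub_cancel, pow_add, Nat.mul_sub, mul_one]

/-- The lower bound in `Sp`. -/
theorem main_two {F : Type*} [Field F] [Fintype F] (hF : Fintype.card F = 2) (k : ℕ) (hk : 2 ≤ k)
    (H : Subgroup (Matrix.symplecticGroup (Fin (k + 1)) F)) (hH : H ≠ ⊤) :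
    2 ^ k * (2 ^ (k + 1) - 1) ≤ H.index := by
  have h2 := two_eq_zero' hF
  by_contra hlt
  have hstar : ∀ u w : Fin (k + 1) ⊕ Fin (k + 1) → F, u ≠ 0 → tv u 1 ∉ H →
      Cfsg.sympForm (k + 1) F u w = 0 → ∃ a, sieg u w a ∈ H := by
    intro u w hu huH huw
    obtain ⟨g, hg⟩ := exists_sp_map (eL_ne_zero (0 : Fin (k + 1))) hu
    obtain ⟨L, i1, i2, i3, -, -⟩ := loc_setup (cj g H)
    rcases Cfsg.Agent.Lib.Helper62.MinSp2.local_two hF (by omega) L _ (by
      intro a ha
      rw [i3, tv_mem_cj, hg] at ha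
      rcases eq_zero_or_one hF a with h | h
      · exact h
      · rw [h] at ha; exact absurd ha huH) with h | h
    · exact absurd (h.trans (i1.trans (index_cj g H).le)) hlt
    · have hw' : Cfsg.sympForm (k + 1) F (eL 0) ((g⁻¹).1 *ᵥ w) = 0 := by
        rw [← Cfsg.Agent.Lib.Helper13.sp_preserves g, hg, sp_mulVec_inv_mulVec, huw]
      obtain ⟨w1, τ, hw1⟩ := exists_iota_of_orth _ hw'
      obtain ⟨a, ha⟩ := h w1
      rw [i2, mem_cj, Cfsg.Agent.Lib.Helper14.MinSp.sieg_conj, hg] at ha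
      refine ⟨a, ?_⟩
      have e : w = g.1 *ᵥ iota w1 + τ • u := by
        rw [← hg, ← Matrix.mulVec_smul, ← Matrix.mulVec_add, ← hw1, sp_mulVec_inv_mulVec]
      rw [e, Cfsg.Agent.Lib.Helper14.MinSp.sieg_add_smul h2]
      · exact ha
      · have : Cfsg.sympForm (k + 1) F u (g.1 *ᵥ iota w1 + τ • u) = 0 := by rw [← e]; exact huw
        rwa [sympForm_add_right, sympForm_smul_right, sympForm_self, mul_zero, add_zero] at this
  by_cases hS : ∃ v : Fin (k + 1) ⊕ Fin (k + 1) → F, v ≠ 0 ∧ tv v 1 ∈ H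
  · have hN : ∃ v : Fin (k + 1) ⊕ Fin (k + 1) → F, v ≠ 0 ∧ tv v 1 ∉ H := by
      by_contra hcon
      push Not at hcon
      apply hH
      rw [eq_top_iff, ← Cfsg.Agent.S0765.result (k + 1), Subgroup.closure_le]
      rintro A ⟨w, c, hA⟩
      have hA' : A = tv w c := Subtype.ext hA
      rw [hA']
      by_cases hw : w = 0
      · rw [hw, tv_zero_left]; exact H.one_mem
      rcases eq_zero_or_one hF c with h | h
      · rw [h]
        have : tv w (0 : F) = 1 := by
          apply sp_ext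
          intro x
          rw [tv_mulVec]; simp
        rw [this]; exact H.one_mem
      · rw [h]; exact hcon w hw
    obtain ⟨Q, hQ, hHQ⟩ := Cfsg.Agent.Lib.Helper62.MinSp2.star_quad hF (by omega) H hS hN hstar
    have h3 : (stabQ Q).index ≤ H.index :=
      Nat.le_of_dvd (Nat.pos_of_ne_zero Subgroup.index_ne_zero_of_finite)
        (Subgroup.index_dvd_of_le hHQ)
    rw [Cfsg.Agent.Lib.Helper62.MinSp2.index_stabQ hF Q hQ] at h3
    have h4 := arith_D k
    rw [← h4] at hlt
    rcases Cfsg.Agent.Lib.Helper12.MinSp2.card_zeros hF (by omega) Q hQ with h | h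
    · rw [h] at h3
      exact hlt ((Nat.sub_le _ _).trans ((Nat.le_add_right _ _).trans h3))
    · rw [h] at h3
      exact hlt h3
  · push Not at hS
    exact Cfsg.Agent.Lib.Helper12.MinSp2.star_empty hF (by omega) H hS (fun u w hu huw => hstar u w hu (hS u hu) huw)

theorem center_le_stabQ {F : Type*} [Field F] [Fintype F] (hF : Fintype.card F = 2) (m : ℕ)
    (Q : (Fin m ⊕ Fin m → F) → F) :
    Subgroup.center (Matrix.symplecticGroup (Fin m) F) ≤ stabQ Q := by
  intro z hz x
  obtain ⟨a, ha⟩ := sp_center_scalar m z hz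
  have hact : ∀ x : Fin m ⊕ Fin m → F, z.1 *ᵥ x = a • x := by
    intro x
    rw [ha]
    ext i
    simp [Matrix.mulVec_diagonal]
  by_cases hx : x = 0
  · rw [hx, Matrix.mulVec_zero]
  rcases eq_zero_or_one hF a with h | h
  · exfalso
    have h1 := hact x
    rw [h, zero_smul] at h1
    exact sp_mulVec_ne_zero' z hx h1
  · rw [hact, h, one_smul]

/-- Minimal index of a proper subgroup of the symplectic groups over the field with 2 elements: for m ≥ 3, every proper subgroup of Sp_2m(2) has index at least 2^(m−1)(2^m − 1), and that index is attained. -/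
theorem result {F : Type*} [Field F] [Fintype F] (hF : Fintype.card F = 2) (m : ℕ) (hm : 3 ≤ m) : (∀ H : Subgroup (Cfsg.PSp m F), H ≠ ⊤ → 2 ^ (m - 1) * (2 ^ m - 1) ≤ H.index) ∧ (∃ H : Subgroup (Cfsg.PSp m F), H.index = 2 ^ (m - 1) * (2 ^ m - 1)) := by
  have hsurj : Function.Surjective
      (QuotientGroup.mk' (Subgroup.center (Matrix.symplecticGroup (Fin m) F))) :=
    QuotientGroup.mk'_surjective _
  obtain ⟨k, rfl⟩ : ∃ k, m = k + 1 := ⟨m - 1, by omega⟩
  rw [Nat.add_sub_cancel]
  constructor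
  · intro H hH
    have h1 := main_two hF k (by omega)
      (H.comap (QuotientGroup.mk' (Subgroup.center (Matrix.symplecticGroup (Fin (k + 1)) F)))) (by
        intro h
        apply hH
        apply Subgroup.comap_injective hsurj
        rw [h, Subgroup.comap_top])
    rw [Subgroup.index_comap_of_surjective _ hsurj] at h1
    exact h1
  · obtain ⟨Q, hQ, hcard⟩ := Cfsg.Agent.Lib.Helper12.MinSp2.exists_minus (F := F) (m := k + 1) hF (by omega)
    refine ⟨(stabQ Q).map
      (QuotientGroup.mk' (Subgroup.center (Matrix.symplecticGroup (Fin (k + 1)) F))), ?_⟩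
    rw [Subgroup.index_map, QuotientGroup.ker_mk', sup_eq_left.2 (center_le_stabQ hF (k + 1) Q),
      MonoidHom.range_eq_top.2 hsurj, Subgroup.index_top, mul_one, Cfsg.Agent.Lib.Helper62.MinSp2.index_stabQ hF Q hQ, hcard,
      arith_D]

end Cfsg.Agent.S2142
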