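import Cfsg.Statements.S2151
import Cfsg.Agent.Lib.Helper83.MinSU.MainO
import Cfsg.Agent.Lib.Helper81.MinSU.PEC
import Cfsg.Agent.Lib.Helper1.MinSU.oPEI

set_option autoImplicit false
open Cfsg

namespace Cfsg.Agent.S2151

open Cfsg.Agent.Lib.Helper83.MinSU Cfsg.Agent.Lib.Helper81.MinSU

/-- Minimal index of a proper subgroup of the unitary groups of odd dimension n ≥ 5: for a field F with q² elements, every proper subgroup of PSU_n(q) has index at least (q^n + 1)(q^(n−1) − 1)/(q² − 1), and that index is attained. -/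
theorem result {F : Type*} [Field F] [Fintype F] (q : ℕ) (hF : Fintype.card F = q ^ 2) (hq : 2 ≤ q) (n : ℕ) (hn : 5 ≤ n) (hodd : Odd n) : (∀ H : Subgroup (Cfsg.PSU n F q), H ≠ ⊤ → (q ^ n + 1) * (q ^ (n - 1) - 1) / (q ^ 2 - 1) ≤ H.index) ∧ (∃ H : Subgroup (Cfsg.PSU n F q), H.index = (q ^ n + 1) * (q ^ (n - 1) - 1) / (q ^ 2 - 1)) := by
  have hsurj : Function.Surjective
      (QuotientGroup.mk' (Subgroup.center (Cfsg.SU n F q))) :=
    QuotientGroup.mk'_surjective _
  constructor
  · intro H hH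
    obtain ⟨k, rfl⟩ : ∃ k, n = 2 * k + 5 := by
      obtain ⟨r, hr⟩ := hodd
      exact ⟨r - 2, by omega⟩
    have h1 := main_su_o hF k
      (H.comap (QuotientGroup.mk' (Subgroup.center (Cfsg.SU (2 * k + 5) F q)))) (by
        intro h
        apply hH
        apply Subgroup.comap_injective hsurj
        rw [h, Subgroup.comap_top])
    rw [Subgroup.index_comap_of_surjective _ hsurj] at h1
    exact h1
  · obtain ⟨e, he0, hee⟩ : ∃ e : Fin n → F, e ≠ 0 ∧ Cfsg.hermForm n F q e e = 0 :=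
      Cfsg.Agent.Lib.Helper5.exists_isotropic_ne_zero hF (by omega)
    refine ⟨(Pe q e).map (QuotientGroup.mk' (Subgroup.center (Cfsg.SU n F q))), ?_⟩
    rw [Subgroup.index_map, QuotientGroup.ker_mk', sup_eq_left.2 (center_le_Pe hF e),
      MonoidHom.range_eq_top.2 hsurj, Subgroup.index_top, mul_one,
      Cfsg.Agent.Lib.Helper1.MinSU.O.index_Pe hF (by omega) hodd e he0 hee]
    rfl

end Cfsg.Agent.S2151
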