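import Cfsg.Statements.S2153
import Cfsg.Agent.Lib.Helper80.MinSU2.Main
import Cfsg.Agent.Lib.Helper81.MinSU.PEC
import Cfsg.Agent.Lib.Helper83.MinSU2.tPEX

set_option autoImplicit false
open Cfsg

namespace Cfsg.Agent.S2153

open Cfsg.Agent.Lib.Helper83.MinSU Cfsg.Agent.Lib.Helper81.MinSU Cfsg.Agent.Lib.Helper80.MinSU2

/-- Minimal index of a proper subgroup of the unitary groups PSU_n(2) with n divisible by 6, realised over the field with 4 elements: every proper subgroup has index at least 2^(n−1)(2^n − 1)/3, and that index is attained. -/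
theorem result {F : Type*} [Field F] [Fintype F] (hF : Fintype.card F = 4) (n : ℕ) (hn : 6 ∣ n) (hpos : 6 ≤ n) : (∀ H : Subgroup (Cfsg.PSU n F 2), H ≠ ⊤ → 2 ^ (n - 1) * (2 ^ n - 1) / 3 ≤ H.index) ∧ (∃ H : Subgroup (Cfsg.PSU n F 2), H.index = 2 ^ (n - 1) * (2 ^ n - 1) / 3) := by
  have hF' : Fintype.card F = 2 ^ 2 := by rw [hF]; norm_num
  have heven : Even n := by
    obtain ⟨r, rfl⟩ := hn
    exact ⟨3 * r, by ring⟩
  have hsurj : Function.Surjective
      (QuotientGroup.mk' (Subgroup.center (Cfsg.SU n F 2))) :=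
    QuotientGroup.mk'_surjective _
  constructor
  · intro H hH
    obtain ⟨k, rfl⟩ : ∃ k, n = 2 * k + 6 := by
      obtain ⟨r, hr⟩ := heven
      exact ⟨r - 3, by omega⟩
    have h1 := main_su_t hF' k
      (H.comap (QuotientGroup.mk' (Subgroup.center (Cfsg.SU (2 * k + 6) F 2)))) (by
        intro h
        apply hH
        apply Subgroup.comap_injective hsurj
        rw [h, Subgroup.comap_top])
    rw [Subgroup.index_comap_of_surjective _ hsurj] at h1
    exact h1
  · obtain ⟨z, hz⟩ : ∃ z : Fin n → F, Cfsg.hermForm n F 2 z z ≠ 0 := by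
      refine ⟨Pi.single ⟨0, by omega⟩ 1, ?_⟩
      simp [Cfsg.hermForm, Pi.single_apply]
    refine ⟨(Pe 2 z).map (QuotientGroup.mk' (Subgroup.center (Cfsg.SU n F 2))), ?_⟩
    rw [Subgroup.index_map, QuotientGroup.ker_mk', sup_eq_left.2 (center_le_Pe hF' z),
      MonoidHom.range_eq_top.2 hsurj, Subgroup.index_top, mul_one,
      Cfsg.Agent.Lib.Helper83.MinSU2.index_Pe_noniso hF' (by omega) heven z hz]
    rfl

end Cfsg.Agent.S2153
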