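import Cfsg.Statements.S2155
import Cfsg.Agent.Lib.Helper17.ChevCent
import Cfsg.Agent.S1048
import Cfsg.Agent.S1027
import Cfsg.Agent.Lib.Helper31.CharP
import Cfsg.Agent.Lib.Lead.Cores

set_option autoImplicit false
open Cfsg

namespace Cfsg.Agent.S2155

/-- In a Chevalley group of type G₂, B₂, D₄, F₄, E₆, E₇ or E₈ over a finite field of characteristic p (for types G₂ and B₂ the field is assumed to have at least 3 elements, so that the group is simple), the generalized Fitting subgroup of every proper standard parabolic subgroup P_J is a p-group (P_J is p-constrained with trivial largest normal subgroup of order prime to p). -/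
theorem result {F : Type*} [Field F] [Fintype F] (p : ℕ) [Fact p.Prime] [CharP F p] (D : Cfsg.Lie.ChevalleyDatum) (hD : D ∈ [Cfsg.Lie.chevG2, Cfsg.Lie.chevB2, Cfsg.Lie.chevD4, Cfsg.Lie.chevF4, Cfsg.Lie.chevE6, Cfsg.Lie.chevE7, Cfsg.Lie.chevE8]) (hq : (D = Cfsg.Lie.chevG2 ∨ D = Cfsg.Lie.chevB2) → 3 ≤ Fintype.card F) (J : Set ℕ) (hJ : ∃ i, i < D.rank ∧ i ∉ J) : IsPGroup p ↥(Cfsg.generalizedFittingSubgroup ↥(D.parabolicSubgroup F J)) := by
  classical
  obtain ⟨j₀, hj₀, hj₀J⟩ := hJ
  have h48 := Cfsg.Agent.S1048.result (F := F) D hD J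
  -- `U` is a `p`-group
  have hU : IsPGroup p ↥(D.posUnipotent F) := by
    obtain ⟨n, -, hn⟩ := FiniteField.card F p
    have h27 := Cfsg.Agent.S1027.result (F := F) D hD
    rw [hn, ← pow_mul] at h27
    exact IsPGroup.of_card h27
  have hUJU : D.unipotentRadical F J ≤ D.posUnipotent F := by
    apply Subgroup.closure_mono
    rintro g ⟨r, t, hr, -, hg⟩
    exact ⟨r, t, hr, hg⟩
  have hUJP : D.unipotentRadical F J ≤ D.parabolicSubgroup F J := by
    rw [← h48.2.1]; exact le_sup_left
  haveI hn : ((D.unipotentRadical F J).subgroupOf (D.parabolicSubgroup F J)).Normal :=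
    (Subgroup.normal_subgroupOf_iff_le_normalizer hUJP).mpr h48.1
  have hp1 : IsPGroup p ↥((D.unipotentRadical F J).subgroupOf (D.parabolicSubgroup F J)) :=
    (hU.to_le hUJU).comap_subtype
  have hle1 : (D.unipotentRadical F J).subgroupOf (D.parabolicSubgroup F J) ≤
      Cfsg.pCore p ↥(D.parabolicSubgroup F J) := Cfsg.Agent.Lib.Lead.le_pCore hn hp1
  have hp2 : IsPGroup p ↥(Subgroup.centralizer
      (((D.unipotentRadical F J).subgroupOf (D.parabolicSubgroup F J) :
        Subgroup ↥(D.parabolicSubgroup F J)) : Set ↥(D.parabolicSubgroup F J))) := by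
    rintro ⟨k, hk⟩
    have hkU : (k : GL D.Idx F) ∈ D.posUnipotent F := by
      apply Cfsg.Agent.Lib.Helper17.cent_urad_le_U hD J hj₀ hj₀J
      refine Subgroup.mem_inf.mpr ⟨k.2, ?_⟩
      rw [Subgroup.mem_centralizer_iff]
      intro x hx
      have := Subgroup.mem_centralizer_iff.mp hk ⟨x, hUJP hx⟩ (by
        show (⟨x, hUJP hx⟩ : ↥(D.parabolicSubgroup F J)) ∈
          (D.unipotentRadical F J).subgroupOf (D.parabolicSubgroup F J)
        rw [Subgroup.mem_subgroupOf]; exact hx)
      exact congrArg Subtype.val this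
    obtain ⟨n, hn'⟩ := hU ⟨(k : GL D.Idx F), hkU⟩
    refine ⟨n, ?_⟩
    have h3 := congrArg Subtype.val hn'
    apply Subtype.ext
    apply Subtype.ext
    simpa using h3
  have hle2 : Subgroup.centralizer (Cfsg.pCore p ↥(D.parabolicSubgroup F J) :
      Set ↥(D.parabolicSubgroup F J)) ≤ Cfsg.pCore p ↥(D.parabolicSubgroup F J) :=
    le_trans (Subgroup.centralizer_le hle1) (Cfsg.Agent.Lib.Lead.le_pCore inferInstance hp2)
  rw [(Cfsg.Agent.Lib.Helper31.genFitting_eq_pCore_iff_centralizer p).mpr hle2]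
  exact Cfsg.Agent.Lib.Lead.pCore_isPGroup p _

end Cfsg.Agent.S2155
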