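import Cfsg.Statements.S2156
import Cfsg.Agent.Lib.Helper36.ChevAut8

set_option autoImplicit false
open Cfsg

namespace Cfsg.Agent.S2156

open Cfsg.Lie Cfsg.Agent.Lib.Helper18 Cfsg.Agent.Lib.Helper36

/-- Over a finite field, every automorphism of the Chevalley group of type G₂, B₂, D₄, F₄, E₆, E₇ or E₈ is the composite of a field automorphism, a graph automorphism, a diagonal automorphism and an inner automorphism: `θ y = x · d(g(f y)) · x⁻¹` for some group element `x`, diagonal `d`, graph `g` and field `f` (each possibly the identity; diagonal here includes conjugation by elements of the diagonal subgroup H). -/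
theorem result {F : Type*} [Field F] [Finite F] (D : Cfsg.Lie.ChevalleyDatum) (hD : D ∈ [Cfsg.Lie.chevG2, Cfsg.Lie.chevB2, Cfsg.Lie.chevD4, Cfsg.Lie.chevF4, Cfsg.Lie.chevE6, Cfsg.Lie.chevE7, Cfsg.Lie.chevE8]) (θ : ↥(D.group F) ≃* ↥(D.group F)) :
    ∃ (x : ↥(D.group F)) (d g f : ↥(D.group F) ≃* ↥(D.group F)),
      D.IsDiagonalAut d ∧ D.IsGraphAut g ∧ D.IsFieldAut f ∧ ∀ y : ↥(D.group F), θ y = x * d (g (f y)) * x⁻¹ := by
  have hB := base_of_mem F hD
  obtain ⟨x, χ, hχ, σ, π, γ, hsym, hγ, h⟩ := exists_decomp hD hB θ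
  refine ⟨x, diagEquiv hD χ hχ, γ, fieldEquiv hB σ, diagEquiv_isDiagonalAut hD χ hχ, ⟨π, hsym, ?_⟩,
    fieldEquiv_isFieldAut hB σ, h⟩
  intro g i t
  constructor
  · intro hg
    have e : g = xG hB (D.simple i) t := Subtype.ext (hB.eq_xg hg)
    rw [e, (hγ i t).1]
    rfl
  · intro hg
    have e : g = xG hB (D.neg (D.simple i)) t := Subtype.ext (hB.eq_xg hg)
    rw [e, (hγ i t).2]
    rfl

end Cfsg.Agent.S2156
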