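import Cfsg.Statements.S2158
import Cfsg.Agent.Lib.Helper36.ChevSyl
import Cfsg.Agent.S2157

set_option autoImplicit false
open Cfsg

namespace Cfsg.Agent.S2158

open Cfsg.Agent.Lib.Helper18 Cfsg.Agent.Lib.Helper36

/-- In a Chevalley group of type G₂, B₂, D₄, F₄, E₆, E₇ or E₈ over any field, an element of the group whose matrix is the diagonal matrix `ĥ(χ)` of a character `χ` of the root lattice already lies in the diagonal subgroup H (the non-trivial inclusion of the statement that the group meets the group of all such diagonal matrices in H). -/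
theorem result {F : Type*} [Field F] (D : Cfsg.Lie.ChevalleyDatum) (hD : D ∈ [Cfsg.Lie.chevG2, Cfsg.Lie.chevB2, Cfsg.Lie.chevD4, Cfsg.Lie.chevF4, Cfsg.Lie.chevE6, Cfsg.Lie.chevE7, Cfsg.Lie.chevE8]) (χ : ℕ → Fˣ) (hχ : D.IsRootCharacter χ) (g : GL D.Idx F) (hg : g ∈ D.group F)
    (hgχ : (g : Matrix D.Idx D.Idx F) = D.charDiag F χ) : g ∈ D.diagonalSubgroup F := by
  have hB := base_of_mem F hD
  have hinv : ((g⁻¹ : GL D.Idx F) : Matrix D.Idx D.Idx F) = D.charDiag F (fun s => (χ s)⁻¹) := by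
    have h1 : D.charDiag F χ * D.charDiag F (fun s => (χ s)⁻¹) = 1 := by
      unfold Cfsg.Lie.ChevalleyDatum.charDiag
      rw [Matrix.diagonal_mul_diagonal, ← Matrix.diagonal_one]
      congr 1
      funext i
      rcases i with i | i <;> simp
    have h2 : (g : Matrix D.Idx D.Idx F) * ((g⁻¹ : GL D.Idx F) : Matrix D.Idx D.Idx F) = 1 := by
      rw [← Units.val_mul, mul_inv_cancel]; rfl
    have h3 : ((g⁻¹ : GL D.Idx F) : Matrix D.Idx D.Idx F) * (g : Matrix D.Idx D.Idx F) = 1 := by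
      rw [← Units.val_mul, inv_mul_cancel]; rfl
    calc ((g⁻¹ : GL D.Idx F) : Matrix D.Idx D.Idx F)
        = ((g⁻¹ : GL D.Idx F) : Matrix D.Idx D.Idx F) * (D.charDiag F χ * D.charDiag F (fun s => (χ s)⁻¹)) := by
          rw [h1, mul_one]
      _ = _ := by rw [← mul_assoc, ← hgχ, h3, one_mul]
  apply mem_H_of_normalizes hD hg
  intro r hr t
  refine ⟨(χ r : F) * t, ?_⟩
  apply Units.ext
  rw [Units.val_mul, Units.val_mul, hinv, hgχ]
  exact Cfsg.Agent.S2157.result D hD χ hχ r hr t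

end Cfsg.Agent.S2158
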