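import Cfsg.Statements.S2160
import Cfsg.Agent.Lib.Helper36.ChevGen
import Cfsg.Agent.Lib.Helper18.ChevFinal

set_option autoImplicit false
open Cfsg

namespace Cfsg.Agent.S2160

open Cfsg.Agent.Lib.Helper18 Cfsg.Agent.Lib.Helper36

/-- In a Chevalley group of type G₂, B₂, D₄, F₄, E₆, E₇ or E₈ over a finite field, every field automorphism commutes with every graph automorphism. -/
theorem result {F : Type*} [Field F] [Finite F] (D : Cfsg.Lie.ChevalleyDatum) (hD : D ∈ [Cfsg.Lie.chevG2, Cfsg.Lie.chevB2, Cfsg.Lie.chevD4, Cfsg.Lie.chevF4, Cfsg.Lie.chevE6, Cfsg.Lie.chevE7, Cfsg.Lie.chevE8]) (f g : ↥(D.group F) ≃* ↥(D.group F))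
    (hf : D.IsFieldAut f) (hg : D.IsGraphAut g) (y : ↥(D.group F)) : f (g y) = g (f y) := by
  have hB : Base D F := base_of_mem F hD
  have hT : Tab D := tab_of_mem hD
  obtain ⟨σ, hσ⟩ := hf
  obtain ⟨π, -, hπ⟩ := hg
  have key : (f.toMonoidHom.comp g.toMonoidHom) = (g.toMonoidHom.comp f.toMonoidHom) := by
    apply hom_ext_simple hB hT
    intro x i t hi hx
    show f (g x) = g (f x)
    apply Subtype.ext
    apply Units.ext
    rcases hx with hx | hx
    · have h1 := (hπ x ⟨i, hi⟩ t).1 hx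
      have h2 := hσ (g x) _ _ (hT.simple_lt _ (π ⟨i, hi⟩).2) h1
      have h3 := hσ x _ _ (hT.simple_lt _ hi) hx
      have h4 := (hπ (f x) ⟨i, hi⟩ (σ t)).1 h3
      rw [h2, h4, map_pow]
    · have h1 := (hπ x ⟨i, hi⟩ t).2 hx
      have h2 := hσ (g x) _ _ (hT.neg_lt (hT.simple_lt _ (π ⟨i, hi⟩).2)) h1
      have h3 := hσ x _ _ (hT.neg_lt (hT.simple_lt _ hi)) hx
      have h4 := (hπ (f x) ⟨i, hi⟩ (σ t)).2 h3
      rw [h2, h4, map_pow]
  exact DFunLike.congr_fun key y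

end Cfsg.Agent.S2160
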