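import Cfsg.Statements.S2161
import Cfsg.Agent.Lib.Helper36.ChevGen
import Cfsg.Agent.Lib.Helper18.ChevFinal

set_option autoImplicit false
open Cfsg

namespace Cfsg.Agent.S2161

open Cfsg.Lie Cfsg.Agent.Lib.Helper18 Cfsg.Agent.Lib.Helper36

/-- table facts for the simply laced types with a diagram symmetry -/
structure SL (D : ChevalleyDatum) : Prop where
  cor_simple : ∀ i < D.rank, ∀ j < D.rank, (D.coroot.getD (D.simple i) #[]).getD j 0 = if j = i then 1 else 0
  cartan_bonds : ∀ i < D.rank, ∀ j < D.rank, i ≠ j → D.cartan i (D.simple j) = - D.bonds i j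
  cor_inj : ∀ s < D.nroots, ∀ s' < D.nroots,
    (∀ j < D.rank, (D.coroot.getD s #[]).getD j 0 = (D.coroot.getD s' #[]).getD j 0) → s = s'

theorem slD4 : SL chevD4 := ⟨by decide +kernel, by decide +kernel, by decide +kernel⟩
theorem slE6 : SL chevE6 := ⟨by decide +kernel, by decide +kernel, by decide +kernel⟩

theorem pairing_fin (D : ChevalleyDatum) (x y : ℕ) :
    D.pairing x y = ∑ j : Fin D.rank, (D.coroot.getD x #[]).getD j.val 0 * D.cartan j.val y := by
  unfold ChevalleyDatum.pairing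
  rw [Checks.list_sum_range, Finset.sum_range]

/-- For the Chevalley groups of types D₄ and E₆ (one root length) over any field: if `π` is a symmetry of the Dynkin diagram and `φ` is an automorphism sending `x_{p_i}(t)` to `x_{p_{π i}}(t)` and `x_{-p_i}(t)` to `x_{-p_{π i}}(t)` for every fundamental root `p_i`, then for every root `r` there is a sign `ε = ±1` with `φ(x_r(t)) = x_{π·r}(ε t)` for all `t`, where `π·r` is the root whose coefficients are those of `r` permuted by `π`. -/
theorem result {F : Type*} [Field F] (D : Cfsg.Lie.ChevalleyDatum) (hD : D ∈ [Cfsg.Lie.chevD4, Cfsg.Lie.chevE6])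
    (π : Equiv.Perm (Fin D.rank)) (hπ : D.IsDiagramSymmetry π) (φ : ↥(D.group F) ≃* ↥(D.group F))
    (hφ : ∀ (g : ↥(D.group F)) (i : Fin D.rank) (t : F),
      (((g : GL D.Idx F) : Matrix D.Idx D.Idx F) = D.x F (D.simple i) t →
        ((φ g : GL D.Idx F) : Matrix D.Idx D.Idx F) = D.x F (D.simple (π i)) t) ∧
      (((g : GL D.Idx F) : Matrix D.Idx D.Idx F) = D.x F (D.neg (D.simple i)) t →
        ((φ g : GL D.Idx F) : Matrix D.Idx D.Idx F) = D.x F (D.neg (D.simple (π i))) t))
    (r : ℕ) (hr : r < D.nroots) :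
    ∃ ε : F, (ε = 1 ∨ ε = -1) ∧ ∀ (g : ↥(D.group F)) (t : F),
      ((g : GL D.Idx F) : Matrix D.Idx D.Idx F) = D.x F r t →
        ((φ g : GL D.Idx F) : Matrix D.Idx D.Idx F) = D.x F (D.permRoot π r) (ε * t) := by
  have hD' : D ∈ [chevG2, chevB2, chevD4, chevF4, chevE6, chevE7, chevE8] := by
    simp only [List.mem_cons, List.not_mem_nil, or_false] at hD ⊢
    rcases hD with rfl | rfl <;> simp
  have hS : SL D := by
    simp only [List.mem_cons, List.not_mem_nil, or_false] at hD
    rcases hD with rfl | rfl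
    · exact slD4
    · exact slE6
  have hB : Base D F := base_of_mem F hD'
  have hT : Tab D := tab_of_mem hD'
  obtain ⟨T, W, h⟩ := exists_checks D hD'
  have hcar : ∀ k i : Fin D.rank, D.cartan (π k) (D.simple (π i)) = D.cartan k (D.simple i) := by
    intro k i
    by_cases hki : k = i
    · subst hki; rw [h.cartan_self _ (π k).2, h.cartan_self _ k.2]
    · rw [hS.cartan_bonds _ (π k).2 _ (π i).2 (fun e => hki (π.injective (Fin.ext e))),
        hS.cartan_bonds _ k.2 _ i.2 (fun e => hki (Fin.ext e)), hπ k i hki]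
  have hmem : ∀ (r : ℕ) (t : F), hB.xg r t ∈ D.group F := by
    intro r t
    by_cases hr : r < D.nroots
    · exact hB.xg_mem_group hr t
    · have : hB.xg r t = 1 := Units.ext (x_ge hr t)
      rw [this]; exact one_mem _
  have main : ∀ r, r < D.nroots → ∃ s, s < D.nroots ∧
      (∀ j : Fin D.rank, (D.coroot.getD s #[]).getD (π j).val 0 = (D.coroot.getD r #[]).getD j.val 0) ∧
      ∃ ε : F, (ε = 1 ∨ ε = -1) ∧ ∀ t : F,
        ((φ ⟨hB.xg r t, hmem r t⟩ : ↥(D.group F)) : GL D.Idx F) = hB.xg s (ε * t) := by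
    apply hT.transport
    · intro i hi
      refine ⟨D.simple (π ⟨i, hi⟩), hT.simple_lt _ (π ⟨i, hi⟩).2, ?_, 1, Or.inl rfl, ?_⟩
      · intro j
        rw [hS.cor_simple _ (π ⟨i, hi⟩).2 _ (π j).2, hS.cor_simple _ hi _ j.2]
        by_cases hj : j = ⟨i, hi⟩
        · subst hj; simp
        · rw [if_neg (fun e => hj (π.injective (Fin.ext e))), if_neg (fun e => hj (Fin.ext e))]
      · intro t
        apply Units.ext
        rw [one_mul]
        exact (hφ ⟨hB.xg (D.simple i) t, hmem _ t⟩ ⟨i, hi⟩ t).1 rfl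
    · intro i r hi hr ⟨s, hs, hcor, ε, hε, hx⟩
      have hnmem : hB.ng (D.simple i) 1 ∈ D.group F := by
        unfold Base.ng; exact mul_mem (mul_mem (hmem _ _) (hmem _ _)) (hmem _ _)
      have hφn : ((φ ⟨hB.ng (D.simple i) 1, hnmem⟩ : ↥(D.group F)) : GL D.Idx F)
          = hB.ng (D.simple (π ⟨i, hi⟩)) 1 := by
        have e1 : (⟨hB.ng (D.simple i) 1, hnmem⟩ : ↥(D.group F)) =
            ⟨hB.xg (D.simple i) 1, hmem _ _⟩ * ⟨hB.xg (D.neg (D.simple i)) (-1⁻¹), hmem _ _⟩
              * ⟨hB.xg (D.simple i) 1, hmem _ _⟩ := rfl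
        rw [e1, map_mul, map_mul]
        have e2 : ∀ t : F, ((φ ⟨hB.xg (D.simple i) t, hmem _ _⟩ : ↥(D.group F)) : GL D.Idx F)
            = hB.xg (D.simple (π ⟨i, hi⟩)) t := fun t =>
          Units.ext ((hφ ⟨hB.xg (D.simple i) t, hmem _ t⟩ ⟨i, hi⟩ t).1 rfl)
        have e3 : ∀ t : F, ((φ ⟨hB.xg (D.neg (D.simple i)) t, hmem _ _⟩ : ↥(D.group F)) : GL D.Idx F)
            = hB.xg (D.neg (D.simple (π ⟨i, hi⟩))) t := fun t =>
          Units.ext ((hφ ⟨hB.xg (D.neg (D.simple i)) t, hmem _ t⟩ ⟨i, hi⟩ t).2 rfl)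
        rw [Subgroup.coe_mul, Subgroup.coe_mul, e2, e3]
        rfl
      obtain ⟨η, hη, hn⟩ := hB.ng_conj_xg hi hr
      obtain ⟨η', hη', hn'⟩ := hB.ng_conj_xg (π ⟨i, hi⟩).2 hs
      refine ⟨D.reflectRoot (π ⟨i, hi⟩) s, hT.refl_lt _ _ (π ⟨i, hi⟩).2 hs, ?_, η' * ε * η, ?_, ?_⟩
      · intro j
        rw [h.coroot_reflect _ (π ⟨i, hi⟩).2 s hs _ (π j).2, h.coroot_reflect i hi r hr _ j.2, hcor j]
        have hp : pairing D s (D.simple (π ⟨i, hi⟩)) = pairing D r (D.simple i) := by
          show D.pairing s (D.simple (π ⟨i, hi⟩)) = D.pairing r (D.simple i)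
          rw [pairing_fin, pairing_fin, ← Equiv.sum_comp π]
          apply Finset.sum_congr rfl
          intro k _
          rw [hcor k, hcar k ⟨i, hi⟩]
        by_cases hj : j = ⟨i, hi⟩
        · subst hj; simp [hp]
        · rw [if_neg (fun e => hj (π.injective (Fin.ext e))), if_neg (fun e => hj (Fin.ext e))]
      · rcases hη with rfl | rfl <;> rcases hη' with rfl | rfl <;> rcases hε with rfl | rfl <;> simp
      · intro t
        have e1 : (⟨hB.xg (D.reflectRoot i r) t, hmem _ _⟩ : ↥(D.group F)) =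
            ⟨hB.ng (D.simple i) 1, hnmem⟩ * ⟨hB.xg r (η * t), hmem _ _⟩ * ⟨hB.ng (D.simple i) 1, hnmem⟩⁻¹ := by
          apply Subtype.ext
          have := (hn (η * t)).1
          have h2 : η * (η * t) = t := by rcases hη with rfl | rfl <;> simp
          rw [h2] at this
          exact this.symm
        rw [e1, map_mul, map_mul, map_inv, Subgroup.coe_mul, Subgroup.coe_mul, Subgroup.coe_inv, hφn, hx,
          (hn' _).1]
        congr 1
        ring
  obtain ⟨s, hs, hcor, ε, hε, hx⟩ := main r hr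
  have hperm : D.permRoot π r = s := by
    unfold ChevalleyDatum.permRoot
    cases hfind : (List.range D.nroots).find? fun s => (List.finRange D.rank).all fun i =>
      (D.coroot.getD s #[]).getD (π i).val 0 == (D.coroot.getD r #[]).getD i.val 0 with
    | none =>
      exfalso
      rw [List.find?_eq_none] at hfind
      apply hfind s (List.mem_range.mpr hs)
      rw [List.all_eq_true]
      intro j _
      rw [beq_iff_eq]
      exact hcor j
    | some s' =>
      have h1 := List.find?_some hfind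
      have h2 := List.mem_range.mp (List.mem_of_find?_eq_some hfind)
      rw [List.all_eq_true] at h1
      show s' = s
      apply hS.cor_inj s' h2 s hs
      intro j hj
      have h3 := h1 (π.symm ⟨j, hj⟩) (List.mem_finRange _)
      rw [beq_iff_eq] at h3
      have h4 := hcor (π.symm ⟨j, hj⟩)
      rw [Equiv.apply_symm_apply] at h3 h4
      rw [h3, h4]
  refine ⟨ε, hε, ?_⟩
  intro g t hg
  have : g = ⟨hB.xg r t, hmem r t⟩ := Subtype.ext (Units.ext hg)
  rw [this, hx, hperm]
  rfl

end Cfsg.Agent.S2161
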