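import Cfsg.Statements.S2298
import Cfsg.Agent.Lib.Helper39.GL2Char.Classify

set_option autoImplicit false
open Cfsg

namespace Cfsg.Agent.S2298

open Cfsg.Agent.Lib.Helper39

/-- Over a finite field F with q elements, every irreducible complex character of GL₂ has degree 1, q − 1, q or q + 1; and when q ≥ 3 (so that these four numbers are distinct) there are exactly q − 1 irreducible characters of degree 1, exactly q − 1 of degree q, exactly (q − 1)(q − 2)/2 of degree q + 1 and exactly q(q − 1)/2 of degree q − 1. -/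
theorem result {F : Type*} [Field F] [Fintype F] :
    (∀ χ : Matrix.GeneralLinearGroup (Fin 2) F → ℂ, Cfsg.IsIrrCharacter (Matrix.GeneralLinearGroup (Fin 2) F) χ →
      χ 1 = 1 ∨ χ 1 = (Fintype.card F : ℂ) - 1 ∨ χ 1 = (Fintype.card F : ℂ) ∨ χ 1 = (Fintype.card F : ℂ) + 1) ∧
    (3 ≤ Fintype.card F →
      Nat.card {χ : Cfsg.IrrCharacter (Matrix.GeneralLinearGroup (Fin 2) F) // (χ : Matrix.GeneralLinearGroup (Fin 2) F → ℂ) 1 = 1} = Fintype.card F - 1 ∧
      Nat.card {χ : Cfsg.IrrCharacter (Matrix.GeneralLinearGroup (Fin 2) F) // (χ : Matrix.GeneralLinearGroup (Fin 2) F → ℂ) 1 = (Fintype.card F : ℂ)} = Fintype.card F - 1 ∧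
      Nat.card {χ : Cfsg.IrrCharacter (Matrix.GeneralLinearGroup (Fin 2) F) // (χ : Matrix.GeneralLinearGroup (Fin 2) F → ℂ) 1 = (Fintype.card F : ℂ) + 1} = (Fintype.card F - 1) * (Fintype.card F - 2) / 2 ∧
      Nat.card {χ : Cfsg.IrrCharacter (Matrix.GeneralLinearGroup (Fin 2) F) // (χ : Matrix.GeneralLinearGroup (Fin 2) F → ℂ) 1 = (Fintype.card F : ℂ) - 1} = Fintype.card F * (Fintype.card F - 1) / 2) := by
  classical
  have hq0 := card_F_ne_zero (F := F)
  have hq1 := card_F_ne_one (F := F)
  constructor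
  · intro χ hχ
    rcases irr_GL2_cases hχ with ⟨α, rfl⟩ | ⟨α, rfl⟩ | ⟨α, β, -, rfl⟩ | ⟨-, h2, -⟩
    · exact Or.inl (detChar_one α)
    · exact Or.inr (Or.inr (Or.inl (detSt_one α)))
    · exact Or.inr (Or.inr (Or.inr (psG_one α β)))
    · exact Or.inr (Or.inl h2)
  · intro hq
    have hq2 : (Fintype.card F : ℂ) ≠ 2 := by
      intro h
      have : Fintype.card F = 2 := by exact_mod_cast h
      omega
    have e1 : (irrSet (Matrix.GeneralLinearGroup (Fin 2) F)).filter (fun χ => χ 1 = 1) = setL := by
      ext χ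
      rw [Finset.mem_filter, mem_irrSet, mem_setL]
      constructor
      · rintro ⟨hχ, h1⟩
        rcases irr_GL2_cases hχ with h | ⟨α, rfl⟩ | ⟨α, β, -, rfl⟩ | ⟨-, h2, -⟩
        · exact h
        · rw [detSt_one] at h1
          exact absurd h1 hq1
        · rw [psG_one] at h1
          exact absurd (by linear_combination h1) hq0
        · rw [h2] at h1
          exact absurd (by linear_combination h1) hq2
      · rintro ⟨α, rfl⟩
        exact ⟨detChar_irr α, detChar_one α⟩
    have e2 : (irrSet (Matrix.GeneralLinearGroup (Fin 2) F)).filter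
        (fun χ => χ 1 = (Fintype.card F : ℂ)) = setS := by
      ext χ
      rw [Finset.mem_filter, mem_irrSet, mem_setS]
      constructor
      · rintro ⟨hχ, h1⟩
        rcases irr_GL2_cases hχ with ⟨α, rfl⟩ | h | ⟨α, β, -, rfl⟩ | ⟨-, h2, -⟩
        · rw [detChar_one] at h1
          exact absurd h1.symm hq1
        · exact h
        · rw [psG_one] at h1
          exact absurd (by linear_combination h1 : (1 : ℂ) = 0) one_ne_zero
        · rw [h2] at h1
          exact absurd (by linear_combination -h1 : (1 : ℂ) = 0) one_ne_zero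
      · rintro ⟨α, rfl⟩
        exact ⟨detSt_irr α, detSt_one α⟩
    have e3 : (irrSet (Matrix.GeneralLinearGroup (Fin 2) F)).filter
        (fun χ => χ 1 = (Fintype.card F : ℂ) + 1) = setP := by
      ext χ
      rw [Finset.mem_filter, mem_irrSet, mem_setP]
      constructor
      · rintro ⟨hχ, h1⟩
        rcases irr_GL2_cases hχ with ⟨α, rfl⟩ | ⟨α, rfl⟩ | h | ⟨-, h2, -⟩
        · rw [detChar_one] at h1
          exact absurd (by linear_combination -h1) hq0
        · rw [detSt_one] at h1
          exact absurd (by linear_combination -h1 : (1 : ℂ) = 0) one_ne_zero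
        · exact h
        · rw [h2] at h1
          exact absurd (by linear_combination (-1/2 : ℂ) * h1 : (1 : ℂ) = 0) one_ne_zero
      · rintro ⟨α, β, hne, rfl⟩
        exact ⟨psG_irr hne, psG_one α β⟩
    have e4 : (irrSet (Matrix.GeneralLinearGroup (Fin 2) F)).filter
        (fun χ => χ 1 = (Fintype.card F : ℂ) - 1) = setC := by
      ext χ
      rw [Finset.mem_filter, mem_irrSet, setC, Finset.mem_filter, mem_irrSet]
      constructor
      · rintro ⟨hχ, h1⟩
        refine ⟨hχ, ?_⟩
        rcases irr_GL2_cases hχ with ⟨α, rfl⟩ | ⟨α, rfl⟩ | ⟨α, β, -, rfl⟩ | ⟨h2, -, -⟩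
        · rw [detChar_one] at h1
          exact absurd (by linear_combination -h1) hq2
        · rw [detSt_one] at h1
          exact absurd (by linear_combination h1 : (1 : ℂ) = 0) one_ne_zero
        · rw [psG_one] at h1
          exact absurd (by linear_combination (1/2 : ℂ) * h1 : (1 : ℂ) = 0) one_ne_zero
        · exact h2
      · rintro ⟨hχ, h1⟩
        exact ⟨hχ, (cuspidal_deg hχ h1).1⟩
    rw [card_subtype_irr (fun χ => χ 1 = 1), card_subtype_irr (fun χ => χ 1 = (Fintype.card F : ℂ)),
      card_subtype_irr (fun χ => χ 1 = (Fintype.card F : ℂ) + 1),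
      card_subtype_irr (fun χ => χ 1 = (Fintype.card F : ℂ) - 1), e1, e2, e3, e4]
    refine ⟨card_setL, card_setS, ?_, ?_⟩
    · have h := card_setP (F := F)
      generalize (setP (F := F)).card = c at h
      generalize Fintype.card F = q at h hq
      obtain ⟨m, rfl⟩ : ∃ m, q = m + 2 := ⟨q - 2, by omega⟩
      have h1 : m + 2 - 1 = m + 1 := by omega
      have h2 : m + 2 - 2 = m := by omega
      rw [h1] at h ⊢
      rw [h2]
      rw [Nat.mul_succ, Nat.add_sub_cancel] at h
      omega
    · have h := card_setC (F := F)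
      omega

end Cfsg.Agent.S2298
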