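import Cfsg.Statements.S2299
import Cfsg.Agent.Lib.Helper39.GL2Char.SOdd3

set_option autoImplicit false
open Cfsg

namespace Cfsg.Agent.S2299

open Cfsg.Agent.Lib.Helper39

/-- Over a finite field F with q elements, q odd, every irreducible complex character of SL₂ has degree 1, q, q + 1, q − 1, (q + 1)/2 or (q − 1)/2; and when q ≥ 5 (so that these six numbers are distinct) there are exactly one irreducible character of degree 1, one of degree q, (q − 3)/2 of degree q + 1, (q − 1)/2 of degree q − 1, two of degree (q + 1)/2 and two of degree (q − 1)/2. -/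
theorem result {F : Type*} [Field F] [Fintype F] (hodd : Odd (Fintype.card F)) :
    (∀ χ : Matrix.SpecialLinearGroup (Fin 2) F → ℂ, Cfsg.IsIrrCharacter (Matrix.SpecialLinearGroup (Fin 2) F) χ →
      χ 1 = 1 ∨ χ 1 = (Fintype.card F : ℂ) ∨ χ 1 = (Fintype.card F : ℂ) + 1 ∨ χ 1 = (Fintype.card F : ℂ) - 1 ∨
        χ 1 = (((Fintype.card F + 1) / 2 : ℕ) : ℂ) ∨ χ 1 = (((Fintype.card F - 1) / 2 : ℕ) : ℂ)) ∧
    (5 ≤ Fintype.card F →
      Nat.card {χ : Cfsg.IrrCharacter (Matrix.SpecialLinearGroup (Fin 2) F) // (χ : Matrix.SpecialLinearGroup (Fin 2) F → ℂ) 1 = 1} = 1 ∧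
      Nat.card {χ : Cfsg.IrrCharacter (Matrix.SpecialLinearGroup (Fin 2) F) // (χ : Matrix.SpecialLinearGroup (Fin 2) F → ℂ) 1 = (Fintype.card F : ℂ)} = 1 ∧
      Nat.card {χ : Cfsg.IrrCharacter (Matrix.SpecialLinearGroup (Fin 2) F) // (χ : Matrix.SpecialLinearGroup (Fin 2) F → ℂ) 1 = (Fintype.card F : ℂ) + 1} = (Fintype.card F - 3) / 2 ∧
      Nat.card {χ : Cfsg.IrrCharacter (Matrix.SpecialLinearGroup (Fin 2) F) // (χ : Matrix.SpecialLinearGroup (Fin 2) F → ℂ) 1 = (Fintype.card F : ℂ) - 1} = (Fintype.card F - 1) / 2 ∧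
      Nat.card {χ : Cfsg.IrrCharacter (Matrix.SpecialLinearGroup (Fin 2) F) // (χ : Matrix.SpecialLinearGroup (Fin 2) F → ℂ) 1 = (((Fintype.card F + 1) / 2 : ℕ) : ℂ)} = 2 ∧
      Nat.card {χ : Cfsg.IrrCharacter (Matrix.SpecialLinearGroup (Fin 2) F) // (χ : Matrix.SpecialLinearGroup (Fin 2) F → ℂ) 1 = (((Fintype.card F - 1) / 2 : ℕ) : ℂ)} = 2) := by
  classical
  have hF : Fintype.card F % 2 = 1 := Nat.odd_iff.1 hodd
  have h3 := three_le_card hF
  have c1 : ((Fintype.card F : ℂ) + 1) = ((Fintype.card F + 1 : ℕ) : ℂ) := by push_cast; ring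
  have c2 : ((Fintype.card F : ℂ) - 1) = ((Fintype.card F - 1 : ℕ) : ℂ) := cast_card_sub_one.symm
  have c3 : (1 : ℂ) = ((1 : ℕ) : ℂ) := by simp
  rw [c1, c2, c3]
  constructor
  · intro χ hχ
    obtain ⟨d, hd, hc⟩ := deg_cases_odd hF hχ
    rw [hd]
    rcases hc with ⟨-, e⟩ | ⟨-, e⟩ | ⟨-, e⟩ | ⟨-, e⟩ | ⟨-, e⟩ | ⟨-, e⟩ <;> rw [e] <;> simp
  · intro hq
    have key : ∀ (n : ℕ) (S : Finset (Matrix.SpecialLinearGroup (Fin 2) F → ℂ)),
        (∀ θ ∈ S, IsIrrCharacter (Matrix.SpecialLinearGroup (Fin 2) F) θ ∧ θ 1 = (n : ℂ)) →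
        (∀ θ, IsIrrCharacter (Matrix.SpecialLinearGroup (Fin 2) F) θ → θ 1 = (n : ℂ) → θ ∈ S) →
        Nat.card {χ : Cfsg.IrrCharacter (Matrix.SpecialLinearGroup (Fin 2) F) //
          (χ : Matrix.SpecialLinearGroup (Fin 2) F → ℂ) 1 = (n : ℂ)} = S.card := by
      intro n S h1 h2
      rw [card_subtype_irr (fun χ => χ 1 = (n : ℂ))]
      congr 1
      ext θ
      rw [Finset.mem_filter, mem_irrSet]
      exact ⟨fun h => h2 θ h.1 h.2, fun h => h1 θ h⟩
    refine ⟨?_, ?_, ?_, ?_, ?_, ?_⟩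
    · rw [key 1 {fun _ => 1}, Finset.card_singleton]
      · intro θ h
        rw [Finset.mem_singleton.1 h]
        exact ⟨one_irr_S, by simp⟩
      · intro θ hθ h1
        obtain ⟨d, hd, hc⟩ := deg_cases_odd hF hθ
        have hdn : d = 1 := by exact_mod_cast hd.symm.trans h1
        rcases hc with ⟨h, e⟩ | ⟨h, e⟩ | ⟨h, e⟩ | ⟨h, e⟩ | ⟨h, e⟩ | ⟨h, e⟩
        · exact Finset.mem_singleton.2 h
        all_goals omega
    · rw [key (Fintype.card F) {stS}, Finset.card_singleton]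
      · intro θ h
        rw [Finset.mem_singleton.1 h]
        exact ⟨stS_irr, stS_one⟩
      · intro θ hθ h1
        obtain ⟨d, hd, hc⟩ := deg_cases_odd hF hθ
        have hdn : d = Fintype.card F := by exact_mod_cast hd.symm.trans h1
        rcases hc with ⟨h, e⟩ | ⟨h, e⟩ | ⟨h, e⟩ | ⟨h, e⟩ | ⟨h, e⟩ | ⟨h, e⟩
        · omega
        · exact Finset.mem_singleton.2 h
        all_goals omega
    · rw [key (Fintype.card F + 1) setPS]
      · have := card_setPS_odd hF
        omega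
      · intro θ h
        exact ⟨irr_of_mem_setPS h, by rw [one_of_mem_setPS h, c1]⟩
      · intro θ hθ h1
        obtain ⟨d, hd, hc⟩ := deg_cases_odd hF hθ
        have hdn : d = Fintype.card F + 1 := by exact_mod_cast hd.symm.trans h1
        rcases hc with ⟨h, e⟩ | ⟨h, e⟩ | ⟨h, e⟩ | ⟨h, e⟩ | ⟨h, e⟩ | ⟨h, e⟩
        · omega
        · omega
        · exact h
        all_goals omega
    · rw [key (Fintype.card F - 1) setC2]
      · have := (card_setC12 hF).1
        omega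
      · intro θ h
        obtain ⟨h1, h2⟩ := mem_setC2.1 h
        exact ⟨(mem_setCS.1 h1).1, by rw [h2, c2]⟩
      · intro θ hθ h1
        obtain ⟨d, hd, hc⟩ := deg_cases_odd hF hθ
        have hdn : d = Fintype.card F - 1 := by exact_mod_cast hd.symm.trans h1
        rcases hc with ⟨h, e⟩ | ⟨h, e⟩ | ⟨h, e⟩ | ⟨h, e⟩ | ⟨h, e⟩ | ⟨h, e⟩
        · omega
        · omega
        · omega
        · omega
        · exact h
        · omega
    · rw [key ((Fintype.card F + 1) / 2) setHS, card_setHS hF]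
      · intro θ h
        exact ⟨(mem_setHS.1 h).1, by rw [deg_of_mem_setHS hF h, cast_half_add hF]⟩
      · intro θ hθ h1
        obtain ⟨d, hd, hc⟩ := deg_cases_odd hF hθ
        have hdn : d = (Fintype.card F + 1) / 2 := by exact_mod_cast hd.symm.trans h1
        rcases hc with ⟨h, e⟩ | ⟨h, e⟩ | ⟨h, e⟩ | ⟨h, e⟩ | ⟨h, e⟩ | ⟨h, e⟩
        · omega
        · omega
        · omega
        · exact h
        · omega
        · omega
    · rw [key ((Fintype.card F - 1) / 2) setC1, (card_setC12 hF).2]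
      · intro θ h
        exact ⟨(mem_setCS.1 (mem_setC1.1 h).1).1, by rw [one_of_mem_setC1 hF h, cast_half_sub hF]⟩
      · intro θ hθ h1
        obtain ⟨d, hd, hc⟩ := deg_cases_odd hF hθ
        have hdn : d = (Fintype.card F - 1) / 2 := by exact_mod_cast hd.symm.trans h1
        rcases hc with ⟨h, e⟩ | ⟨h, e⟩ | ⟨h, e⟩ | ⟨h, e⟩ | ⟨h, e⟩ | ⟨h, e⟩
        · omega
        · omega
        · omega
        · omega
        · omega
        · exact h

end Cfsg.Agent.S2299
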