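import Cfsg.Statements.S2301
import Cfsg.Agent.Lib.Helper39.GL2Char.SClasses
import Cfsg.Agent.Lib.Helper5.LinearCard
import Cfsg.Agent.Lib.Helper69.ClassSize

set_option autoImplicit false
open Cfsg

namespace Cfsg.Agent.S2301

open Cfsg.Agent.Lib.Helper39

section
variable {F : Type*} [Field F] [Fintype F]

/-- upper unitriangular matrices. -/
abbrev u (x : F) : SL2 F := bS 1 x

lemma u_mul (x y : F) : u x * u y = u (x + y) := by
  classical
  rw [u, u, bS_mul]
  simp [add_comm]

lemma u_pow (x : F) (k : ℕ) : u x ^ k = u (k * x) := by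
  classical
  induction k with
  | zero => rw [pow_zero, Nat.cast_zero, zero_mul, u, bS_one]
  | succ k ih =>
    rw [pow_succ, ih, u_mul]
    congr 1
    push_cast
    ring

lemma u_inj {x y : F} (h : u x = u y) : x = y := by
  have h1 : (bS 1 x : Matrix (Fin 2) (Fin 2) F) = bS 1 y := congrArg Subtype.val h
  rw [bS_coe, bS_coe] at h1
  simpa using congrFun (congrFun h1 0) 1

lemma orderOf_u (p : ℕ) [hp : Fact p.Prime] [CharP F p] {x : F} (hx : x ≠ 0) : orderOf (u x) = p := by
  classical
  apply orderOf_eq_prime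
  · rw [u_pow, CharP.cast_eq_zero, zero_mul, u, bS_one]
  · intro h
    rw [u, ← bS_one] at h
    exact hx (u_inj h)

lemma eq_u (g : SL2 F) (h00 : (g : Matrix (Fin 2) (Fin 2) F) 0 0 = 1)
    (h11 : (g : Matrix (Fin 2) (Fin 2) F) 1 1 = 1) (h10 : (g : Matrix (Fin 2) (Fin 2) F) 1 0 = 0) :
    g = u ((g : Matrix (Fin 2) (Fin 2) F) 0 1) := by
  apply Subtype.ext
  rw [bS_coe]
  ext i j
  fin_cases i <;> fin_cases j <;> simp [h00, h11, h10]

lemma exists_conj_u (p : ℕ) [hp : Fact p.Prime] [CharP F p] (h2 : p ≠ 2) (g : SL2 F)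
    (hg : orderOf g = p) : ∃ e : Fˣ, IsConj (u (e : F)) g := by
  classical
  have h2F : (2 : F) ≠ 0 := by
    intro h
    have : ((2 : ℕ) : F) = 0 := by exact_mod_cast h
    rw [CharP.cast_eq_zero_iff F p] at this
    exact h2 ((Nat.prime_dvd_prime_iff_eq hp.out Nat.prime_two).mp this)
  have hgp : g ^ p = 1 := hg ▸ pow_orderOf_eq_one g
  have hg1 : g ≠ 1 := by
    intro h
    rw [h, orderOf_one] at hg
    exact hp.out.one_lt.ne hg
  set M : Matrix (Fin 2) (Fin 2) F := (g : Matrix (Fin 2) (Fin 2) F) with hM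
  have hMp : M ^ p = 1 := by
    have := congrArg (fun x : SL2 F => (x : Matrix (Fin 2) (Fin 2) F)) hgp
    simpa using this
  have : CharP (Matrix (Fin 2) (Fin 2) F) p := Matrix.charP p
  have hnil : (M - 1) ^ p = 0 := by
    rw [sub_pow_char_of_commute p (Commute.one_right M), hMp, one_pow, sub_self]
  have htr : (M - 1).trace = 0 := by
    have h1 : IsNilpotent (M - 1) := ⟨p, hnil⟩
    exact (Matrix.isNilpotent_trace_of_isNilpotent h1).eq_zero
  have htr2 : M.trace = 2 := by
    rw [Matrix.trace_sub, Matrix.trace_one, Fintype.card_fin] at htr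
    push_cast at htr
    linear_combination htr
  apply exists_isConj_bS g ?_ 1
  · rw [← hM, htr2]; simp; norm_num
  · rintro ⟨h01, h10, h00⟩
    apply hg1
    rw [Matrix.trace_fin_two] at htr2
    have h00' : M 0 0 = M 1 1 := h00
    have h11 : M 1 1 = 1 := by
      have : 2 * M 1 1 = 2 * 1 := by linear_combination htr2 - h00'
      exact mul_left_cancel₀ h2F this
    apply Subtype.ext
    ext i j
    fin_cases i <;> fin_cases j
    · simpa using h00'.trans h11
    · simpa using h01
    · simpa using h10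
    · simpa using h11

lemma isConj_u_iff {x y : F} (hx : x ≠ 0) (hy : y ≠ 0) :
    IsConj (u x) (u y) ↔ IsSquare (x * y) := by
  classical
  constructor
  · intro h
    exact isSquare_of_isConj_bS (by simp) hy h
  · rintro ⟨c, hc⟩
    have hc0 : c ≠ 0 := by
      rintro rfl
      rw [mul_zero] at hc
      exact mul_ne_zero hx hy hc
    have h1 := isConj_bS_sq (1 : Fˣ) (Units.mk0 (c / x) (div_ne_zero hc0 hx)) x
    have e : ((Units.mk0 (c / x) (div_ne_zero hc0 hx) : Fˣ) : F) ^ 2 * x = y := by
      rw [Units.val_mk0]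
      field_simp
      linear_combination -hc
    rwa [e] at h1

/-- the centralizer of a nontrivial unitriangular matrix. -/
lemma card_centralizer_u (h2F : (2 : F) ≠ 0) {x : F} (hx : x ≠ 0) :
    Nat.card (Subgroup.centralizer ({u x} : Set (SL2 F))) = 2 * Fintype.card F := by
  classical
  have hmem : ∀ (b : Bool) (y : F), bS (sgn b) y ∈ Subgroup.centralizer ({u x} : Set (SL2 F)) := by
    intro b y
    rw [Subgroup.mem_centralizer_singleton_iff, u, bS_mul, bS_mul]
    congr 1
    · rw [mul_comm]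
    · rw [sgn_inv]; simp; ring
  let f : Bool × F → Subgroup.centralizer ({u x} : Set (SL2 F)) :=
    fun t => ⟨bS (sgn t.1) t.2, hmem t.1 t.2⟩
  have hf : Function.Bijective f := by
    constructor
    · rintro ⟨b, y⟩ ⟨b', y'⟩ h
      have h1 : (bS (sgn b) y : Matrix (Fin 2) (Fin 2) F) = bS (sgn b') y' :=
        congrArg (fun t : Subgroup.centralizer ({u x} : Set (SL2 F)) =>
          ((t : SL2 F) : Matrix (Fin 2) (Fin 2) F)) h
      rw [bS_coe, bS_coe] at h1
      have h00 := congrFun (congrFun h1 0) 0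
      have h01 := congrFun (congrFun h1 0) 1
      simp at h00 h01
      have hb : b = b' := by
        cases b <;> cases b' <;> simp [sgn] at h00 ⊢
        · exact h2F (by linear_combination h00)
        · exact h2F (by linear_combination -h00)
      rw [hb, h01]
    · rintro ⟨c, hc⟩
      rw [Subgroup.mem_centralizer_singleton_iff] at hc
      have hm := congrArg (fun g : SL2 F => (g : Matrix (Fin 2) (Fin 2) F)) hc
      simp only [Matrix.SpecialLinearGroup.coe_mul, bS_coe] at hm
      have h00 := congrFun (congrFun hm 0) 0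
      have h01 := congrFun (congrFun hm 0) 1
      simp [Matrix.mul_apply, Fin.sum_univ_two] at h00 h01
      have hs : (c : Matrix (Fin 2) (Fin 2) F) 1 0 = 0 := by
        rcases h00 with h | h
        · exact absurd h hx
        · exact h
      have hd : (c : Matrix (Fin 2) (Fin 2) F) 0 0 = (c : Matrix (Fin 2) (Fin 2) F) 1 1 := by
        have : x * (c : Matrix (Fin 2) (Fin 2) F) 0 0 = x * (c : Matrix (Fin 2) (Fin 2) F) 1 1 := by
          linear_combination h01
        exact mul_left_cancel₀ hx this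
      obtain ⟨s, hs0, hs1, hcs⟩ := exists_eq_bS c hs
      have hss : (s : F) * s = 1 := by
        have := SL2_det c
        rw [hs, mul_zero, sub_zero, ← hd, ← hs0] at this
        exact this
      have hs' : (s : F) = 1 ∨ (s : F) = -1 := mul_self_eq_one_iff.mp hss
      rcases hs' with h | h
      · refine ⟨(false, (c : Matrix (Fin 2) (Fin 2) F) 0 1), Subtype.ext ?_⟩
        show bS (sgn false) _ = c
        rw [hcs]
        congr 1
        exact (Units.ext h).symm
      · refine ⟨(true, (c : Matrix (Fin 2) (Fin 2) F) 0 1), Subtype.ext ?_⟩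
        show bS (sgn true) _ = c
        rw [hcs]
        congr 1
        apply Units.ext
        rw [h]; simp [sgn]
  rw [← Nat.card_congr (Equiv.ofBijective f hf), Nat.card_prod, Nat.card_eq_fintype_card,
    Nat.card_eq_fintype_card, Fintype.card_bool]

end

/-- Over a finite field with q elements of odd characteristic p, the elements of order p of SL₂ (the non-identity unipotent elements) fall into exactly two conjugacy classes, each of size (q² − 1)/2; two upper unitriangular matrices with non-zero off-diagonal entries b and b′ are conjugate exactly when bb′ is a square. -/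
theorem result {F : Type*} [Field F] [Fintype F] (p : ℕ) [Fact p.Prime] [CharP F p] (hp : p ≠ 2) :
    Nat.card {C : ConjClasses (Matrix.SpecialLinearGroup (Fin 2) F) // ∃ g : Matrix.SpecialLinearGroup (Fin 2) F, orderOf g = p ∧ ConjClasses.mk g = C} = 2 ∧
    (∀ g : Matrix.SpecialLinearGroup (Fin 2) F, orderOf g = p → Nat.card (ConjClasses.mk g).carrier = (Fintype.card F ^ 2 - 1) / 2) ∧
    ∀ g h : Matrix.SpecialLinearGroup (Fin 2) F, (g : Matrix (Fin 2) (Fin 2) F) 0 0 = 1 → (g : Matrix (Fin 2) (Fin 2) F) 1 1 = 1 → (g : Matrix (Fin 2) (Fin 2) F) 1 0 = 0 → (g : Matrix (Fin 2) (Fin 2) F) 0 1 ≠ 0 →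
      (h : Matrix (Fin 2) (Fin 2) F) 0 0 = 1 → (h : Matrix (Fin 2) (Fin 2) F) 1 1 = 1 → (h : Matrix (Fin 2) (Fin 2) F) 1 0 = 0 → (h : Matrix (Fin 2) (Fin 2) F) 0 1 ≠ 0 →
      (IsConj g h ↔ IsSquare ((g : Matrix (Fin 2) (Fin 2) F) 0 1 * (h : Matrix (Fin 2) (Fin 2) F) 0 1)) := by
  classical
  have hpp : p.Prime := Fact.out
  have h2F : (2 : F) ≠ 0 := by
    intro h
    have : ((2 : ℕ) : F) = 0 := by exact_mod_cast h
    rw [CharP.cast_eq_zero_iff F p] at this
    exact hp ((Nat.prime_dvd_prime_iff_eq hpp Nat.prime_two).mp this)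
  have hchar : ringChar F ≠ 2 := by
    rw [ringChar.eq F p]; exact hp
  obtain ⟨ε, hε⟩ := FiniteField.exists_nonsquare hchar
  have hε0 : ε ≠ 0 := by rintro rfl; exact hε IsSquare.zero
  refine ⟨?_, ?_, ?_⟩
  · rw [Nat.card_eq_two_iff]
    refine ⟨⟨ConjClasses.mk (u 1), u 1, orderOf_u p one_ne_zero, rfl⟩,
      ⟨ConjClasses.mk (u ε), u ε, orderOf_u p hε0, rfl⟩, ?_, ?_⟩
    · intro h
      have h1 := congrArg Subtype.val h
      rw [ConjClasses.mk_eq_mk_iff_isConj, isConj_u_iff one_ne_zero hε0, one_mul] at h1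
      exact hε h1
    · rw [Set.eq_univ_iff_forall]
      rintro ⟨C, g, hg, rfl⟩
      obtain ⟨e, he⟩ := exists_conj_u p hp g hg
      rw [Set.mem_insert_iff, Set.mem_singleton_iff]
      by_cases hsq : IsSquare (e : F)
      · left
        apply Subtype.ext
        show ConjClasses.mk g = ConjClasses.mk (u 1)
        rw [ConjClasses.mk_eq_mk_iff_isConj]
        refine he.symm.trans ((isConj_u_iff e.ne_zero one_ne_zero).mpr ?_)
        rwa [mul_one]
      · right
        apply Subtype.ext
        show ConjClasses.mk g = ConjClasses.mk (u ε)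
        rw [ConjClasses.mk_eq_mk_iff_isConj]
        exact he.symm.trans ((isConj_u_iff e.ne_zero hε0).mpr (isSquare_mul_of_not hsq hε))
  · intro g hg
    obtain ⟨e, he⟩ := exists_conj_u p hp g hg
    have h1 : ConjClasses.mk g = ConjClasses.mk (u (e : F)) :=
      (ConjClasses.mk_eq_mk_iff_isConj.mpr he).symm
    rw [h1, ← Cfsg.Agent.Lib.Helper69.index_centralizer_eq_card_carrier]
    have h2 := (Subgroup.centralizer ({u (e : F)} : Set (SL2 F))).card_mul_index
    rw [card_centralizer_u h2F e.ne_zero, Cfsg.Agent.Lib.Helper5.card_SL2] at h2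
    have hq : 0 < Fintype.card F := Fintype.card_pos
    have h3 : 2 * (Subgroup.centralizer ({u (e : F)} : Set (SL2 F))).index
        = Fintype.card F ^ 2 - 1 := by
      apply Nat.eq_of_mul_eq_mul_left hq
      rw [← h2]; ring
    omega
  · intro g h g00 g11 g10 g01 h00 h11 h10 h01
    rw [eq_u g g00 g11 g10, eq_u h h00 h11 h10]
    have e1 : ((u ((g : Matrix (Fin 2) (Fin 2) F) 0 1) : SL2 F) : Matrix (Fin 2) (Fin 2) F) 0 1
        = (g : Matrix (Fin 2) (Fin 2) F) 0 1 := by rw [bS_coe]; rfl
    have e2 : ((u ((h : Matrix (Fin 2) (Fin 2) F) 0 1) : SL2 F) : Matrix (Fin 2) (Fin 2) F) 0 1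
        = (h : Matrix (Fin 2) (Fin 2) F) 0 1 := by rw [bS_coe]; rfl
    rw [e1, e2]
    exact isConj_u_iff g01 h01

end Cfsg.Agent.S2301
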