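import Cfsg.Statements.S2302
import Cfsg.Agent.Lib.Helper39.GL2Char.SClasses

set_option autoImplicit false
open Cfsg

namespace Cfsg.Agent.S2302

open Cfsg.Agent.Lib.Helper39

variable {F : Type*} [Field F] [Fintype F] [CharP F 2]

omit [Fintype F] in
theorem sq_inj {a b : F} (h : a * a = b * b) : a = b := by
  have h2 : (2 : F) = 0 := CharP.cast_eq_zero F 2
  have : (a - b) * (a - b) = 0 := by
    have e : (a - b) * (a - b) = a * a + b * b - 2 * (a * b) := by ring
    rw [e, h, h2]
    have : b * b + b * b = 2 * (b * b) := by ring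
    rw [this, h2]; ring
  have := mul_self_eq_zero.1 this
  exact sub_eq_zero.1 this

omit [Fintype F] in
/-- Entries of an involution. -/
theorem entries (g : Matrix.SpecialLinearGroup (Fin 2) F) (hg : g * g = 1) :
    g.1 1 1 = g.1 0 0 ∧ g.1 0 0 * g.1 0 0 = 1 + g.1 0 1 * g.1 1 0 := by
  have h2 : (2 : F) = 0 := CharP.cast_eq_zero F 2
  have hm : g.1 * g.1 = 1 := by
    have := congrArg Subtype.val hg
    simpa using this
  have h00 := congrFun (congrFun hm 0) 0
  have h11 := congrFun (congrFun hm 1) 1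
  simp [Matrix.mul_apply, Fin.sum_univ_two] at h00 h11
  have hd : g.1 1 1 = g.1 0 0 := by
    apply sq_inj
    linear_combination h11 - h00 + (g.1 0 1 * g.1 1 0 - g.1 1 0 * g.1 0 1)
  refine ⟨hd, ?_⟩
  linear_combination h00 - (g.1 0 1 * g.1 1 0) * h2

omit [Fintype F] in
theorem eq_one_of_entries (g : Matrix.SpecialLinearGroup (Fin 2) F) (hg : g * g = 1)
    (h01 : g.1 0 1 = 0) (h10 : g.1 1 0 = 0) : g = 1 := by
  obtain ⟨hd, ha⟩ := entries g hg
  have ha1 : g.1 0 0 = 1 := by
    apply sq_inj
    rw [ha, h01]; ring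
  apply Subtype.ext
  ext i j
  fin_cases i <;> fin_cases j
  · simpa using ha1
  · simpa using h01
  · simpa using h10
  · simpa using hd.trans ha1

omit [Fintype F] in
theorem sq_of_order {g : Matrix.SpecialLinearGroup (Fin 2) F} (hg : orderOf g = 2) : g * g = 1 := by
  have := pow_orderOf_eq_one g
  rwa [hg, pow_two] at this

theorem isConj_std [DecidableEq F] (g : Matrix.SpecialLinearGroup (Fin 2) F) (hg : orderOf g = 2) :
    IsConj (bS (1 : Fˣ) (1 : F)) g := by
  have h2 : (2 : F) = 0 := CharP.cast_eq_zero F 2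
  have hgg := sq_of_order hg
  obtain ⟨hd, ha⟩ := entries g hgg
  have hg1 : g ≠ 1 := by
    intro h
    rw [h, orderOf_one] at hg
    omega
  have hns : ¬ IsScalar2 (g : Matrix (Fin 2) (Fin 2) F) := by
    rintro ⟨h01, h10, -⟩
    exact hg1 (eq_one_of_entries g hgg h01 h10)
  have ht : (g : Matrix (Fin 2) (Fin 2) F).trace = ((1 : Fˣ) : F) + (((1 : Fˣ)⁻¹ : Fˣ) : F) := by
    rw [Matrix.trace_fin_two]
    show g.1 0 0 + g.1 1 1 = _
    rw [hd]
    simp
    linear_combination (g.1 0 0 - 1) * h2
  obtain ⟨e, he⟩ := exists_isConj_bS g hns 1 ht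
  obtain ⟨r, hr⟩ := FiniteField.isSquare_of_char_two (F := F)
    (by exact (ringChar.eq F 2)) (e : F)
  have hr0 : r ≠ 0 := by
    intro h
    rw [h, mul_zero] at hr
    exact e.ne_zero hr
  have := isConj_bS_sq (1 : Fˣ) (Units.mk0 r hr0) (1 : F)
  have e2 : ((Units.mk0 r hr0 : Fˣ) : F) ^ 2 * 1 = e := by
    rw [hr]; simp [pow_two]
  rw [e2] at this
  exact this.trans he


/-- The off-diagonal entries of an involution. -/
def offDiag (x : {x : Matrix.SpecialLinearGroup (Fin 2) F // orderOf x = 2}) :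
    {p : F × F // p ≠ (0, 0)} :=
  ⟨(x.1.1 0 1, x.1.1 1 0), by
    intro h
    have h01 : x.1.1 0 1 = 0 := congrArg Prod.fst h
    have h10 : x.1.1 1 0 = 0 := congrArg Prod.snd h
    have := eq_one_of_entries x.1 (sq_of_order x.2) h01 h10
    have h2 := x.2
    rw [this, orderOf_one] at h2
    omega⟩

theorem offDiag_bijective : Function.Bijective (offDiag (F := F)) := by
  have h2 : (2 : F) = 0 := CharP.cast_eq_zero F 2
  constructor
  · intro x y hxy
    have h01 : x.1.1 0 1 = y.1.1 0 1 := congrArg (fun p => p.1.1) hxy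
    have h10 : x.1.1 1 0 = y.1.1 1 0 := congrArg (fun p => p.1.2) hxy
    obtain ⟨hdx, hax⟩ := entries x.1 (sq_of_order x.2)
    obtain ⟨hdy, hay⟩ := entries y.1 (sq_of_order y.2)
    have h00 : x.1.1 0 0 = y.1.1 0 0 := by
      apply sq_inj
      rw [hax, hay, h01, h10]
    apply Subtype.ext
    apply Subtype.ext
    ext i j
    fin_cases i <;> fin_cases j
    · exact h00
    · exact h01
    · exact h10
    · exact hdx.trans (h00.trans hdy.symm)
  · rintro ⟨⟨b, c⟩, hbc⟩
    obtain ⟨a, ha⟩ := FiniteField.isSquare_of_char_two (F := F) (ringChar.eq F 2) (1 + b * c)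
    let x : Matrix.SpecialLinearGroup (Fin 2) F := ⟨!![a, b; c, a], by
      rw [Matrix.det_fin_two_of, ← ha]; ring⟩
    have hx2 : x ^ 2 = 1 := by
      apply Subtype.ext
      rw [pow_two]
      show !![a, b; c, a] * !![a, b; c, a] = 1
      rw [Matrix.mul_fin_two, ← ha]
      ext i j
      fin_cases i <;> fin_cases j
      · simp; linear_combination (b * c) * h2
      · simp; linear_combination (a * b) * h2
      · simp; linear_combination (a * c) * h2
      · simp; linear_combination (b * c) * h2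
    have hx1 : x ≠ 1 := by
      intro h
      apply hbc
      have h01 : x.1 0 1 = (1 : Matrix (Fin 2) (Fin 2) F) 0 1 := by rw [h]; rfl
      have h10 : x.1 1 0 = (1 : Matrix (Fin 2) (Fin 2) F) 1 0 := by rw [h]; rfl
      have hb : b = 0 := by simpa [x] using h01
      have hc : c = 0 := by simpa [x] using h10
      rw [hb, hc]
    exact ⟨⟨x, orderOf_eq_prime hx2 hx1⟩, rfl⟩

/-- Over a finite field with q elements of characteristic 2, the involutions of SL₂ (the non-identity unipotent elements) form a single conjugacy class, of size q² − 1. -/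
theorem result {F : Type*} [Field F] [Fintype F] [CharP F 2] (g h : Matrix.SpecialLinearGroup (Fin 2) F) (hg : orderOf g = 2) (hh : orderOf h = 2) :
    IsConj g h ∧ Nat.card (ConjClasses.mk g).carrier = Fintype.card F ^ 2 - 1 := by
  classical
  have hconj : ∀ x : Matrix.SpecialLinearGroup (Fin 2) F, orderOf x = 2 → IsConj g x := fun x hx =>
    (isConj_std g hg).symm.trans (isConj_std x hx)
  refine ⟨hconj h hh, ?_⟩
  have hset : (ConjClasses.mk g).carrier = {x | orderOf x = 2} := by
    ext x
    rw [ConjClasses.mem_carrier_iff_mk_eq, ConjClasses.mk_eq_mk_iff_isConj]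
    constructor
    · intro hx
      obtain ⟨c, hc⟩ := isConj_iff.1 hx
      have : orderOf (c * x * c⁻¹) = orderOf x := (MulAut.conj c).orderOf_eq x
      show orderOf x = 2
      rw [← this, hc, hg]
    · intro hx
      exact (hconj x hx).symm
  rw [hset]
  have e1 : Nat.card ({x | orderOf x = 2} : Set (Matrix.SpecialLinearGroup (Fin 2) F)) =
      Nat.card {p : F × F // p ≠ (0, 0)} :=
    Nat.card_congr (Equiv.ofBijective _ offDiag_bijective)
  rw [e1, Nat.card_eq_fintype_card]
  have := Set.card_ne_eq ((0, 0) : F × F)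
  rw [Fintype.card_prod] at this
  rw [pow_two, ← this]
  rfl

end Cfsg.Agent.S2302
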