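import Mathlib
import Cfsg.Statements.S2303
import Cfsg.Agent.Lib.Helper5.GLSylowP

set_option autoImplicit false
open Cfsg

namespace Cfsg.Agent.S2303

open Matrix Cfsg.Agent.Lib.Helper5

variable {F : Type*} [Field F]

lemma diag_bijective (g : GL (Fin 2) F) (h01 : g 0 1 = 0) (h10 : g 1 0 = 0)
    (hne : g 0 0 ≠ g 1 1) : Function.Bijective
    (fun x : Fˣ × Fˣ => (⟨mkB x.1 x.2 0, by
      rw [Subgroup.mem_centralizer_singleton_iff]
      apply gl2_ext
      · rw [gl2_mul_00, gl2_mul_00]; simp [h01, h10]; ring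
      · rw [gl2_mul_01, gl2_mul_01]; simp [h01]
      · rw [gl2_mul_10, gl2_mul_10]; simp [h10]
      · rw [gl2_mul_11, gl2_mul_11]; simp [h01, h10]; ring⟩ :
      Subgroup.centralizer ({g} : Set (GL (Fin 2) F)))) := by
  constructor
  · rintro ⟨a, c⟩ ⟨a', c'⟩ h
    have h' := congrArg Subtype.val h
    have h0 := congrArg (fun g : GL (Fin 2) F => g 0 0) h'
    have h1 := congrArg (fun g : GL (Fin 2) F => g 1 1) h'
    simp only [mkB_00, mkB_11] at h0 h1
    rw [Units.ext h0, Units.ext h1]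
  · rintro ⟨k, hk⟩
    rw [Subgroup.mem_centralizer_singleton_iff] at hk
    have e01 := congrArg (fun g : GL (Fin 2) F => g 0 1) hk
    have e10 := congrArg (fun g : GL (Fin 2) F => g 1 0) hk
    simp only [gl2_mul_01, gl2_mul_10, h01, h10] at e01 e10
    have hd : g 0 0 - g 1 1 ≠ 0 := sub_ne_zero.mpr hne
    have k01 : k 0 1 = 0 := by
      have : (g 0 0 - g 1 1) * k 0 1 = 0 := by linear_combination -e01
      exact (mul_eq_zero.1 this).resolve_left hd
    have k10 : k 1 0 = 0 := by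
      have : (g 0 0 - g 1 1) * k 1 0 = 0 := by linear_combination e10
      exact (mul_eq_zero.1 this).resolve_left hd
    have h2 := gl2_det_ne k
    rw [k10, mul_zero, sub_zero] at h2
    refine ⟨⟨Units.mk0 _ (left_ne_zero_of_mul h2), Units.mk0 _ (right_ne_zero_of_mul h2)⟩, ?_⟩
    apply Subtype.ext
    exact gl2_ext rfl k01.symm k10.symm rfl

lemma det_ne (g : GL (Fin 2) F)
    (hg : ∀ (c : F) (v : Fin 2 → F), v ≠ 0 → (g : Matrix (Fin 2) (Fin 2) F).mulVec v ≠ c • v)
    (x y : F) (hxy : (x, y) ≠ (0 : F × F)) :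
    (x • (1 : Matrix (Fin 2) (Fin 2) F) + y • (g : Matrix (Fin 2) (Fin 2) F)).det ≠ 0 := by
  intro hdet
  obtain ⟨v, hv, hMv⟩ := Matrix.exists_mulVec_eq_zero_iff.mpr hdet
  rw [Matrix.add_mulVec, Matrix.smul_mulVec, Matrix.smul_mulVec, Matrix.one_mulVec] at hMv
  by_cases hy : y = 0
  · subst hy
    rw [zero_smul, add_zero] at hMv
    rcases smul_eq_zero.mp hMv with h | h
    · exact hxy (by rw [h]; rfl)
    · exact hv h
  · apply hg (-x / y) v hv
    have h1 : y • (g : Matrix (Fin 2) (Fin 2) F).mulVec v = (-x) • v := by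
      rw [neg_smul]
      exact eq_neg_of_add_eq_zero_right hMv
    calc (g : Matrix (Fin 2) (Fin 2) F).mulVec v
        = y⁻¹ • (y • (g : Matrix (Fin 2) (Fin 2) F).mulVec v) := by
          rw [smul_smul, inv_mul_cancel₀ hy, one_smul]
      _ = (-x / y) • v := by rw [h1, smul_smul]; congr 1; field_simp

noncomputable def mkP (g : GL (Fin 2) F)
    (hg : ∀ (c : F) (v : Fin 2 → F), v ≠ 0 → (g : Matrix (Fin 2) (Fin 2) F).mulVec v ≠ c • v)
    (p : {p : F × F // p ≠ 0}) : GL (Fin 2) F :=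
  Matrix.GeneralLinearGroup.mkOfDetNeZero
    (p.1.1 • (1 : Matrix (Fin 2) (Fin 2) F) + p.1.2 • (g : Matrix (Fin 2) (Fin 2) F))
    (det_ne g hg p.1.1 p.1.2 p.2)

lemma mkP_00 (g : GL (Fin 2) F) (hg) (p : {p : F × F // p ≠ 0}) :
    mkP g hg p 0 0 = p.1.1 + p.1.2 * g 0 0 := by
  change (p.1.1 • (1 : Matrix (Fin 2) (Fin 2) F) + p.1.2 • (g : Matrix (Fin 2) (Fin 2) F)) 0 0 = _
  simp
lemma mkP_01 (g : GL (Fin 2) F) (hg) (p : {p : F × F // p ≠ 0}) :
    mkP g hg p 0 1 = p.1.2 * g 0 1 := by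
  change (p.1.1 • (1 : Matrix (Fin 2) (Fin 2) F) + p.1.2 • (g : Matrix (Fin 2) (Fin 2) F)) 0 1 = _
  simp
lemma mkP_10 (g : GL (Fin 2) F) (hg) (p : {p : F × F // p ≠ 0}) :
    mkP g hg p 1 0 = p.1.2 * g 1 0 := by
  change (p.1.1 • (1 : Matrix (Fin 2) (Fin 2) F) + p.1.2 • (g : Matrix (Fin 2) (Fin 2) F)) 1 0 = _
  simp
lemma mkP_11 (g : GL (Fin 2) F) (hg) (p : {p : F × F // p ≠ 0}) :
    mkP g hg p 1 1 = p.1.1 + p.1.2 * g 1 1 := by
  change (p.1.1 • (1 : Matrix (Fin 2) (Fin 2) F) + p.1.2 • (g : Matrix (Fin 2) (Fin 2) F)) 1 1 = _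
  simp

lemma mkP_bijective (g : GL (Fin 2) F)
    (hg : ∀ (c : F) (v : Fin 2 → F), v ≠ 0 → (g : Matrix (Fin 2) (Fin 2) F).mulVec v ≠ c • v) :
    Function.Bijective
    (fun p : {p : F × F // p ≠ 0} => (⟨mkP g hg p, by
      rw [Subgroup.mem_centralizer_singleton_iff]
      apply gl2_ext
      · rw [gl2_mul_00, gl2_mul_00, mkP_00, mkP_01, mkP_10]; ring
      · rw [gl2_mul_01, gl2_mul_01, mkP_00, mkP_01, mkP_11]; ring
      · rw [gl2_mul_10, gl2_mul_10, mkP_00, mkP_10, mkP_11]; ring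
      · rw [gl2_mul_11, gl2_mul_11, mkP_01, mkP_10, mkP_11]; ring⟩ :
      Subgroup.centralizer ({g} : Set (GL (Fin 2) F)))) := by
  have hc : g 1 0 ≠ 0 := by
    intro hc
    apply hg (g 0 0) ![1, 0] (by
      intro h
      have := congrFun h 0
      simp at this)
    ext i
    fin_cases i
    · simp [Matrix.mulVec, dotProduct, Fin.sum_univ_two]
    · simpa [Matrix.mulVec, dotProduct, Fin.sum_univ_two] using hc
  constructor
  · rintro ⟨⟨x, y⟩, hp⟩ ⟨⟨x', y'⟩, hp'⟩ h
    have h' := congrArg Subtype.val h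
    have h0 := congrArg (fun g : GL (Fin 2) F => g 0 0) h'
    have h1 := congrArg (fun g : GL (Fin 2) F => g 1 0) h'
    simp only [mkP_00, mkP_10] at h0 h1
    have hy : y = y' := mul_right_cancel₀ hc h1
    subst hy
    have hx : x = x' := add_right_cancel h0
    subst hx
    rfl
  · rintro ⟨k, hk⟩
    rw [Subgroup.mem_centralizer_singleton_iff] at hk
    have e00 := congrArg (fun g : GL (Fin 2) F => g 0 0) hk
    have e10 := congrArg (fun g : GL (Fin 2) F => g 1 0) hk
    simp only [gl2_mul_00, gl2_mul_10] at e00 e10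
    have hne : ((k 0 0 - g 0 0 * (k 1 0 / g 1 0), k 1 0 / g 1 0) : F × F) ≠ 0 := by
      intro h
      have h1 : k 1 0 / g 1 0 = 0 := congrArg Prod.snd h
      have h2 : k 0 0 - g 0 0 * (k 1 0 / g 1 0) = 0 := congrArg Prod.fst h
      rw [h1, mul_zero, sub_zero] at h2
      have h3 : k 1 0 = 0 := by
        rcases div_eq_zero_iff.mp h1 with h | h
        · exact h
        · exact absurd h hc
      have h4 := gl2_det_ne k
      rw [h2, h3] at h4
      simp at h4
    refine ⟨⟨_, hne⟩, ?_⟩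
    apply Subtype.ext
    apply gl2_ext
    · rw [mkP_00]; ring
    · rw [mkP_01]
      field_simp
      linear_combination -e00
    · rw [mkP_10]
      field_simp
    · rw [mkP_11]
      field_simp
      linear_combination -e10

/-- Over a finite field with q elements: a diagonal element of GL₂ with two distinct diagonal entries has centralizer of order (q − 1)² (so q(q + 1) conjugates), and an element of GL₂ with no eigenvector in F² has centralizer of order q² − 1 (so q(q − 1) conjugates). -/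
theorem result {F : Type*} [Field F] [Fintype F] (g : Matrix.GeneralLinearGroup (Fin 2) F) :
    ((g : Matrix (Fin 2) (Fin 2) F) 0 1 = 0 → (g : Matrix (Fin 2) (Fin 2) F) 1 0 = 0 → (g : Matrix (Fin 2) (Fin 2) F) 0 0 ≠ (g : Matrix (Fin 2) (Fin 2) F) 1 1 →
      Nat.card (Subgroup.centralizer ({g} : Set (Matrix.GeneralLinearGroup (Fin 2) F))) = (Fintype.card F - 1) ^ 2) ∧
    ((∀ (c : F) (v : Fin 2 → F), v ≠ 0 → (g : Matrix (Fin 2) (Fin 2) F).mulVec v ≠ c • v) →
      Nat.card (Subgroup.centralizer ({g} : Set (Matrix.GeneralLinearGroup (Fin 2) F))) = Fintype.card F ^ 2 - 1) := by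
  classical
  constructor
  · intro h01 h10 hne
    rw [← Nat.card_congr (Equiv.ofBijective _ (diag_bijective g h01 h10 hne)), Nat.card_prod,
      Nat.card_eq_fintype_card, Fintype.card_units]
    ring
  · intro hg
    rw [← Nat.card_congr (Equiv.ofBijective _ (mkP_bijective g hg)), Nat.card_eq_fintype_card]
    have := Set.card_ne_eq (0 : F × F)
    rw [Fintype.card_prod] at this
    rw [sq, ← this]
    exact Fintype.card_congr (Equiv.refl _)

end Cfsg.Agent.S2303
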