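import Cfsg.Statements.S2307
import Cfsg.Agent.Lib.Helper39.GL2Char.SOdd2

set_option autoImplicit false
open Cfsg

namespace Cfsg.Agent.S2307

open Cfsg.Agent.Lib.Helper39

/-- Over a finite field F with q elements, q odd, let α be the multiplicative character of F of order 2. The character of SL₂ induced from the linear character b ↦ α(b₁₁) of the upper triangular subgroup is the sum of two distinct irreducible characters, each of degree (q + 1)/2, which are conjugate under GL₂: some fixed element of GL₂ conjugates the one into the other. -/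
theorem result {F : Type*} [Field F] [Fintype F] [DecidableEq F] (hodd : Odd (Fintype.card F)) (α : MulChar F ℂ)
    (hα : α ^ 2 = 1) (hα1 : α ≠ 1) :
    ∃ χ₁ χ₂ : Matrix.SpecialLinearGroup (Fin 2) F → ℂ, Cfsg.IsIrrCharacter (Matrix.SpecialLinearGroup (Fin 2) F) χ₁ ∧ Cfsg.IsIrrCharacter (Matrix.SpecialLinearGroup (Fin 2) F) χ₂ ∧ χ₁ ≠ χ₂ ∧
      Cfsg.indFun ((Cfsg.upperTriangularGL 2 F).comap Matrix.SpecialLinearGroup.toGL) (fun b => α (((b : Matrix.SpecialLinearGroup (Fin 2) F) : Matrix (Fin 2) (Fin 2) F) 0 0)) = χ₁ + χ₂ ∧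
      χ₁ 1 = (((Fintype.card F + 1) / 2 : ℕ) : ℂ) ∧ χ₂ 1 = (((Fintype.card F + 1) / 2 : ℕ) : ℂ) ∧
      ∃ x : Matrix.GeneralLinearGroup (Fin 2) F, ∀ g h : Matrix.SpecialLinearGroup (Fin 2) F,
        Matrix.SpecialLinearGroup.toGL h = x * Matrix.SpecialLinearGroup.toGL g * x⁻¹ → χ₂ h = χ₁ g := by
  have hF : Fintype.card F % 2 = 1 := Nat.odd_iff.1 hodd
  obtain ⟨ψ, hψ⟩ := exists_addChar_ne_one (F := F)
  obtain ⟨ε, hε⟩ := FiniteField.exists_nonsquare (ringChar_ne_two_of_odd hF)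
  have hε0 : ε ≠ 0 := by rintro rfl; exact hε (IsSquare.zero)
  obtain ⟨χp, χm, hp, hm, hne, hsum, ap, am, p1, p2, m1, m2⟩ := exists_halfPS hF hψ hε
  obtain rfl := mc_eq_etaC hα hα1
  refine ⟨χp, χm, hp, hm, hne, hsum, ?_, ?_, bG (Units.mk0 ε hε0) 1 0, ?_⟩
  · rw [cast_half_add hF]
    exact deg_of_mem_setHS hF ((setHS_eq hp hm hne hsum hF χp).2 (Or.inl rfl))
  · rw [cast_half_add hF]
    exact deg_of_mem_setHS hF ((setHS_eq hp hm hne hsum hF χm).2 (Or.inr rfl))
  · intro g h hgh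
    rw [← toGL_cjS] at hgh
    obtain rfl := Matrix.SpecialLinearGroup.toGL_injective hgh
    have hirr := irr_cjS (Units.mk0 ε hε0) hm
    have hmem : (χm ∘ cjS (Units.mk0 ε hε0)) ∈ setHS := by
      rw [mem_setHS]
      refine ⟨hirr, etaC, etaC_sq, etaC_ne_one hF, ?_⟩
      rw [← psS_cjS etaC (Units.mk0 ε hε0), Cfsg.Agent.Lib.Helper15.classInner_comp_equiv, hsum,
        Cfsg.Agent.Lib.Helper15.classInner_add_right,
        Cfsg.Agent.Lib.Helper15.irr_inner_self hm,
        Cfsg.Agent.Lib.Helper15.irr_inner_ne hm hp hne.symm]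
      norm_num
    rcases (setHS_eq hp hm hne hsum hF _).1 hmem with h1 | h1
    · exact congrFun h1 g
    · exfalso
      have h2 := mS_cjS_one ψ (Cfsg.Agent.Lib.Helper15.irr_cf hm) (Units.mk0 ε hε0)
      rw [h1, Units.val_mk0, m1, m2] at h2
      exact zero_ne_one h2

end Cfsg.Agent.S2307
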