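import Cfsg.Statements.S2308
import Cfsg.Agent.Lib.Helper39.GL2Char.Classify
import Cfsg.Agent.Lib.Helper15.PermChar

set_option autoImplicit false
open Cfsg

namespace Cfsg.Agent.S2308

open Cfsg.Agent.Lib.Helper39

/-- Values of the permutation character of GL₂ over a finite field F with q elements on the cosets of its upper triangular subgroup (equivalently, the number of lines of F² that an element maps to themselves): q + 1 at a scalar matrix, 2 at a diagonal matrix with two different diagonal entries, 0 at an element with no eigenvector in F², and 1 at an upper triangular matrix with equal diagonal entries and non-zero upper right entry. -/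
theorem result {F : Type*} [Field F] [Fintype F] (g : Matrix.GeneralLinearGroup (Fin 2) F) :
    ((∃ a : F, (g : Matrix (Fin 2) (Fin 2) F) = a • (1 : Matrix (Fin 2) (Fin 2) F)) → Cfsg.fixedPointCharacter (Cfsg.upperTriangularGL 2 F) g = Fintype.card F + 1) ∧
    ((g : Matrix (Fin 2) (Fin 2) F) 0 1 = 0 → (g : Matrix (Fin 2) (Fin 2) F) 1 0 = 0 → (g : Matrix (Fin 2) (Fin 2) F) 0 0 ≠ (g : Matrix (Fin 2) (Fin 2) F) 1 1 →
      Cfsg.fixedPointCharacter (Cfsg.upperTriangularGL 2 F) g = 2) ∧
    ((∀ (c : F) (v : Fin 2 → F), v ≠ 0 → (g : Matrix (Fin 2) (Fin 2) F).mulVec v ≠ c • v) → Cfsg.fixedPointCharacter (Cfsg.upperTriangularGL 2 F) g = 0) ∧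
    ((g : Matrix (Fin 2) (Fin 2) F) 1 0 = 0 → (g : Matrix (Fin 2) (Fin 2) F) 0 0 = (g : Matrix (Fin 2) (Fin 2) F) 1 1 → (g : Matrix (Fin 2) (Fin 2) F) 0 1 ≠ 0 →
      Cfsg.fixedPointCharacter (Cfsg.upperTriangularGL 2 F) g = 1) := by
  classical
  have key : Cfsg.fixedPointCharacter (Cfsg.upperTriangularGL 2 F) g = psG 1 1 g := by
    unfold Cfsg.fixedPointCharacter psG
    rw [← Cfsg.Agent.Lib.Helper15.indFun_one_eq_card_fixedBy]
    congr 1
    funext b
    obtain ⟨s, t, hs, ht, -⟩ := exists_eq_bG (b : Matrix.GeneralLinearGroup (Fin 2) F)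
      ((mem_BG_iff _).1 b.2)
    unfold muG
    rw [← hs, ← ht, one_apply_unit, one_apply_unit, one_mul]
  rw [key]
  refine ⟨?_, ?_, ?_, ?_⟩
  · rintro ⟨a, ha⟩
    have h10 : (g : Matrix (Fin 2) (Fin 2) F) 1 0 = 0 := by rw [ha]; simp
    have h01 : (g : Matrix (Fin 2) (Fin 2) F) 0 1 = 0 := by rw [ha]; simp
    have heq : (g : Matrix (Fin 2) (Fin 2) F) 0 0 = (g : Matrix (Fin 2) (Fin 2) F) 1 1 := by
      rw [ha]; simp
    obtain ⟨s, t, hs, ht, -⟩ := exists_eq_bG g h10
    rw [psG_scalar _ _ g h10 heq h01, ← hs, one_apply_unit]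
    ring
  · intro h01 h10 hne
    obtain ⟨s, t, hs, ht, -⟩ := exists_eq_bG g h10
    rw [psG_split _ _ g h01 h10 hne, ← hs, ← ht, one_apply_unit, one_apply_unit]
    norm_num
  · intro hell
    exact psG_elliptic _ _ g hell
  · intro h10 heq h01
    obtain ⟨s, t, hs, ht, -⟩ := exists_eq_bG g h10
    rw [psG_unip _ _ g h10 heq h01, ← hs, one_apply_unit]
    norm_num

end Cfsg.Agent.S2308
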