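import Cfsg.Statements.S2309
import Cfsg.Agent.Lib.Helper39.GL2Char.Classify

set_option autoImplicit false
open Cfsg

namespace Cfsg.Agent.S2309

open Cfsg.Agent.Lib.Helper39

/-- Over a finite field F with q elements: every irreducible complex character of GL₂ of degree q − 1 vanishes at every diagonal matrix with two distinct entries, and every irreducible complex character of degree q + 1 vanishes at every element with no eigenvector in F². -/
theorem result {F : Type*} [Field F] [Fintype F] (χ : Matrix.GeneralLinearGroup (Fin 2) F → ℂ) (hχ : Cfsg.IsIrrCharacter (Matrix.GeneralLinearGroup (Fin 2) F) χ) (g : Matrix.GeneralLinearGroup (Fin 2) F) :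
    (χ 1 = (Fintype.card F : ℂ) - 1 → (g : Matrix (Fin 2) (Fin 2) F) 0 1 = 0 → (g : Matrix (Fin 2) (Fin 2) F) 1 0 = 0 → (g : Matrix (Fin 2) (Fin 2) F) 0 0 ≠ (g : Matrix (Fin 2) (Fin 2) F) 1 1 → χ g = 0) ∧
    (χ 1 = (Fintype.card F : ℂ) + 1 → (∀ (c : F) (v : Fin 2 → F), v ≠ 0 → (g : Matrix (Fin 2) (Fin 2) F).mulVec v ≠ c • v) → χ g = 0) := by
  classical
  have hq0 := card_F_ne_zero (F := F)
  constructor
  · intro h1 h01 h10 hne
    rcases irr_GL2_cases hχ with ⟨α, rfl⟩ | ⟨α, rfl⟩ | ⟨α, β, -, rfl⟩ | ⟨ha, -, -⟩
    · exfalso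
      rw [detChar_one] at h1
      have h2 : Fintype.card F = 2 := by
        have : (Fintype.card F : ℂ) = 2 := by linear_combination -h1
        exact_mod_cast this
      have h3 : Fintype.card Fˣ = 1 := by rw [card_units_F, h2]
      have h4 : Subsingleton Fˣ := Fintype.card_le_one_iff_subsingleton.1 h3.le
      obtain ⟨s, t, hs, ht, -⟩ := exists_eq_bG g h10
      apply hne
      rw [← hs, ← ht, Subsingleton.elim s t]
    · exfalso
      rw [detSt_one] at h1
      have : (0 : ℂ) = 1 := by linear_combination -h1
      exact zero_ne_one this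
    · exfalso
      rw [psG_one] at h1
      have : (2 : ℂ) = 0 := by linear_combination h1
      norm_num at this
    · obtain ⟨s, t, hs, ht, hg⟩ := exists_eq_bG g h10
      rw [hg]
      apply cuspidal_split (Cfsg.Agent.Lib.Helper15.irr_char hχ) ha
      intro hst
      apply hne
      rw [← hs, ← ht, hst]
  · intro h1 hell
    rcases irr_GL2_cases hχ with ⟨α, rfl⟩ | ⟨α, rfl⟩ | ⟨α, β, -, rfl⟩ | ⟨-, h2, -⟩
    · exfalso
      rw [detChar_one] at h1
      apply hq0
      linear_combination -h1
    · exfalso
      rw [detSt_one] at h1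
      have : (0 : ℂ) = 1 := by linear_combination h1
      exact zero_ne_one this
    · exact psG_elliptic α β g hell
    · exfalso
      rw [h2] at h1
      have : (2 : ℂ) = 0 := by linear_combination -h1
      norm_num at this

end Cfsg.Agent.S2309
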