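import Cfsg.Statements.S2310
import Cfsg.Agent.Lib.Helper39.GL2Char.Classify

set_option autoImplicit false
open Cfsg

namespace Cfsg.Agent.S2310

open Cfsg.Agent.Lib.Helper39

/-- Over a finite field F with q ≥ 3 elements, let u be the upper unitriangular matrix of GL₂ with off-diagonal entry 1. An irreducible complex character χ of GL₂ takes at u the value 1 if χ has degree 1 or q + 1, the value −1 if χ has degree q − 1, and the value 0 if χ has degree q. -/
theorem result {F : Type*} [Field F] [Fintype F] (hq : 3 ≤ Fintype.card F) (χ : Matrix.GeneralLinearGroup (Fin 2) F → ℂ) (hχ : Cfsg.IsIrrCharacter (Matrix.GeneralLinearGroup (Fin 2) F) χ)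
    (u : Matrix.GeneralLinearGroup (Fin 2) F) (hu : (u : Matrix (Fin 2) (Fin 2) F) = !![1, 1; 0, 1]) :
    (χ 1 = 1 → χ u = 1) ∧ (χ 1 = (Fintype.card F : ℂ) + 1 → χ u = 1) ∧
    (χ 1 = (Fintype.card F : ℂ) - 1 → χ u = -1) ∧ (χ 1 = (Fintype.card F : ℂ) → χ u = 0) := by
  classical
  have hq0 := card_F_ne_zero (F := F)
  have hq1 := card_F_ne_one (F := F)
  have hq2 : (Fintype.card F : ℂ) ≠ 2 := by
    intro h
    have : Fintype.card F = 2 := by exact_mod_cast h
    omega
  have hu' : u = bG 1 1 1 := by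
    apply Units.ext
    rw [hu, bG_coe]
    simp
  subst hu'
  rcases irr_GL2_cases hχ with ⟨α, rfl⟩ | ⟨α, rfl⟩ | ⟨α, β, -, rfl⟩ | ⟨-, h2, h3⟩
  · rw [detChar_one, detChar_u]
    refine ⟨fun _ => rfl, fun h => ?_, fun h => ?_, fun h => ?_⟩
    · exact absurd (by linear_combination -h) hq0
    · exact absurd (by linear_combination -h) hq2
    · exact absurd h.symm hq1
  · rw [detSt_one, Pi.mul_apply, stG_u, mul_zero]
    refine ⟨fun h => ?_, fun h => ?_, fun h => ?_, fun _ => rfl⟩
    · exact absurd h hq1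
    · exact absurd (by linear_combination h : (0 : ℂ) = 1) zero_ne_one
    · exact absurd (by linear_combination -h : (0 : ℂ) = 1) zero_ne_one
  · rw [psG_one, psG_u]
    refine ⟨fun _ => rfl, fun _ => rfl, fun h => ?_, fun h => ?_⟩
    · exact absurd (by linear_combination (1/2 : ℂ) * h : (1 : ℂ) = 0) one_ne_zero
    · exact absurd (by linear_combination h : (1 : ℂ) = 0) one_ne_zero
  · rw [h2, h3]
    refine ⟨fun h => ?_, fun h => ?_, fun _ => rfl, fun h => ?_⟩
    · exact absurd (by linear_combination h) hq2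
    · exact absurd (by linear_combination (-1/2 : ℂ) * h : (1 : ℂ) = 0) one_ne_zero
    · exact absurd (by linear_combination -h : (1 : ℂ) = 0) one_ne_zero

end Cfsg.Agent.S2310
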