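import Cfsg.Statements.S2328
import Cfsg.Agent.S2311
import Cfsg.Agent.S2327
import Cfsg.Agent.S2326
import Cfsg.Agent.S0165

set_option autoImplicit false
open Cfsg

namespace Cfsg.Agent.S2328

/-- In a Chevalley group of type G₂, B₂, D₄, F₄, E₆, E₇ or E₈ over a finite field of characteristic p, the Steinberg character vanishes at every element whose order is divisible by p (every element that is not semisimple). -/
theorem result {F : Type*} [Field F] [Fintype F] (p : ℕ) [Fact p.Prime] [CharP F p] (D : Cfsg.Lie.ChevalleyDatum) (hD : D ∈ [Cfsg.Lie.chevG2, Cfsg.Lie.chevB2, Cfsg.Lie.chevD4, Cfsg.Lie.chevF4, Cfsg.Lie.chevE6, Cfsg.Lie.chevE7, Cfsg.Lie.chevE8]) (g : ↥(D.group F)) (hg : p ∣ orderOf g) :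
    D.steinbergCharacter F g = 0 := by
  classical
  obtain ⟨n, ρ, hirr, hρ⟩ := Cfsg.Agent.S2311.result (F := F) D hD
  obtain ⟨Q, hQ⟩ := Cfsg.Agent.S2326.result (F := F) p D hD
  have hdeg := Cfsg.Agent.S2327.result (F := F) D hD
  have X := Cfsg.Agent.Lib.Helper18.bnData_of_mem F hD
  have hUG : D.posUnipotent F ≤ D.group F :=
    Cfsg.Agent.Lib.Helper18.Base.U_le_B.trans (X.hB.B_le_group X.hT.tab)
  have hcardQ : Nat.card Q = Fintype.card F ^ (D.nroots / 2) := by
    have h1 : Nat.card (Q : Subgroup ↥(D.group F)) = Nat.card (D.posUnipotent F) := by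
      rw [hQ]; exact Nat.card_congr (Subgroup.subgroupOfEquivOfLe hUG).toEquiv
    exact h1.trans (Cfsg.Agent.S1027.result D hD)
  have hk := Q.card_eq_multiplicity
  have hfin : Module.finrank ℂ (Fin n → ℂ) = Fintype.card F ^ (D.nroots / 2) := by
    have h1 := Representation.char_one ρ
    rw [hρ, hdeg] at h1
    exact_mod_cast h1.symm
  rw [← hρ]
  haveI := hirr
  exact Cfsg.Agent.S0165.result ρ p ((Nat.card ↥(D.group F)).factorization p) Fact.out
    (Nat.ordProj_dvd _ _) (Nat.pow_succ_factorization_not_dvd Nat.card_pos.ne' Fact.out)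
    (by rw [hfin, ← hcardQ, hk]) g hg

end Cfsg.Agent.S2328
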