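import Cfsg.Statements.S2312
import Cfsg.Agent.Lib.Helper36.StVal.Main
import Cfsg.Agent.Lib.Helper36.StVal.G
import Cfsg.Agent.Lib.Helper36.BNSt.G10
import Cfsg.Agent.S2311
import Cfsg.Agent.S2326
import Cfsg.Agent.S2328
import Cfsg.Agent.S1048

set_option autoImplicit false
open Cfsg

namespace Cfsg.Agent.S2312

/-- In a Chevalley group of type G₂, B₂, D₄, F₄, E₆, E₇ or E₈ over a finite field of characteristic p, the value of the Steinberg character at an element g of order prime to p (a semisimple element) is, up to sign, the largest power of p dividing the order of the centralizer of g. -/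
theorem result {F : Type*} [Field F] [Fintype F] (p : ℕ) [Fact p.Prime] [CharP F p] (D : Cfsg.Lie.ChevalleyDatum) (hD : D ∈ [Cfsg.Lie.chevG2, Cfsg.Lie.chevB2, Cfsg.Lie.chevD4, Cfsg.Lie.chevF4, Cfsg.Lie.chevE6, Cfsg.Lie.chevE7, Cfsg.Lie.chevE8]) (g : ↥(D.group F)) (hg : ¬ p ∣ orderOf g) :
    D.steinbergCharacter F g = ((p ^ (Nat.card ↥(Subgroup.centralizer ({g} : Set ↥(D.group F)))).factorization p : ℕ) : ℂ) ∨
      D.steinbergCharacter F g = -((p ^ (Nat.card ↥(Subgroup.centralizer ({g} : Set ↥(D.group F)))).factorization p : ℕ) : ℂ) := by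
  classical
  let X := Cfsg.Agent.Lib.Helper18.bnData_of_mem F hD
  obtain ⟨Q, hQ⟩ := Cfsg.Agent.S2326.result (F := F) p D hD
  obtain ⟨L, hL⟩ := Cfsg.Agent.Lib.Helper18.exists_isLong hD
  have hd := Cfsg.Agent.Lib.Helper17.descOK_of_mem hD
  have hc := Cfsg.Agent.Lib.Helper36.BNSt.ccOK_of_mem hD
  have hSt := Cfsg.Agent.S2311.result (F := F) D hD
  have heq := Cfsg.Agent.Lib.Helper36.BNSt.steinbergCharacter_eq X
  have hone : Cfsg.Agent.Lib.Helper36.BNSt.stChar X.P 1 = (Nat.card (D.posUnipotent F) : ℂ) := by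
    rw [← heq]; exact Cfsg.Agent.Lib.Helper36.BNSt.steinberg_one_aux X hL
  rw [heq] at hSt ⊢
  obtain ⟨n, ρ, hirr, hρ⟩ := hSt
  have hvan : ∀ x : ↥(D.group F), p ∣ orderOf x → Cfsg.Agent.Lib.Helper36.BNSt.stChar X.P x = 0 := by
    intro x hx
    rw [← heq]
    exact Cfsg.Agent.S2328.result p D hD x hx
  have hQp : ∀ u ∈ (Q : Subgroup ↥(D.group F)), u ≠ 1 → p ∣ orderOf u := by
    intro u huQ hne
    obtain ⟨k, hk⟩ := (IsPGroup.iff_orderOf.1 Q.2) ⟨u, huQ⟩
    have hk' : orderOf u = p ^ k := (Subgroup.orderOf_mk u huQ).symm.trans hk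
    rw [hk']
    apply dvd_pow_self
    rintro rfl
    rw [pow_zero, orderOf_eq_one_iff] at hk'
    exact hne hk'
  have hvanU : ∀ u ∈ Cfsg.Agent.Lib.Helper36.BNSt.UG D F, u ≠ 1 → ρ.character u = 0 := by
    intro u hu hne
    rw [hρ]
    exact hvan u (hQp u (by rw [hQ]; exact hu) hne)
  have hfix : ∀ s ∈ X.P.S, Cfsg.Agent.Lib.Helper36.BNSt.fixS ρ (X.P.parabolic {s}) = ⊥ := by
    intro s hs
    obtain ⟨i, rfl⟩ := X.exists_of_mem_S hs
    exact (Cfsg.Agent.Lib.Helper36.BNSt.chev_rank_one X ρ hirr hvanU i).1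
  have hB : Module.finrank ℂ (Cfsg.Agent.Lib.Helper36.BNSt.fixS ρ X.P.B) = 1 := by
    have h1 := Cfsg.Agent.Lib.Helper36.BNSt.classInner_character_stChar ρ X.P hfix
    rw [hρ, Cfsg.Agent.Lib.Helper36.BNSt.classInner_stChar] at h1
    exact_mod_cast h1.symm
  have hfinU : Finite (D.posUnipotent F) := by
    have hUG : D.posUnipotent F ≤ D.group F :=
      Cfsg.Agent.Lib.Helper18.Base.U_le_B.trans (X.hB.B_le_group X.hT.tab)
    exact Finite.of_equiv _ (Subgroup.subgroupOfEquivOfLe hUG).toEquiv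
  apply Cfsg.Agent.Lib.Helper36.StVal.stChar_regular Fact.out X.P ρ hρ hvan ?_ hfix hB ?_ g hg
  · rw [hone, Complex.natCast_re]
    exact_mod_cast Nat.card_pos
  · intro K hK
    have hgen : ∀ (K' : Set ↥(D.group F)) (hK' : K' ⊆ X.P.S) (J : Finset ℕ), J ⊆ Finset.range D.rank →
        K' = Cfsg.Agent.Lib.Helper36.BNSt.sF X '' (J : Set ℕ) →
        ∃ R : Subgroup ↥(D.group F), R ≤ X.P.B ∧ IsPGroup p R ∧
          (∀ y ∈ X.P.parabolic K', ∀ r ∈ R, y * r * y⁻¹ ∈ R) ∧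
          (Nat.card R : ℂ) * Cfsg.Agent.Lib.Helper36.BNSt.stChar
            (Cfsg.Agent.Lib.Helper36.BNSt.parBN X.P K' hK') 1 =
              Cfsg.Agent.Lib.Helper36.BNSt.stChar X.P 1 := by
      rintro _ hK' J hJ rfl
      have hnorm := (Cfsg.Agent.S1048.result (F := F) D hD (J : Set ℕ)).1
      have hRQ : (D.unipotentRadical F (J : Set ℕ)).subgroupOf (D.group F) ≤ (Q : Subgroup ↥(D.group F)) := by
        rw [hQ]
        exact fun x hx => Cfsg.Agent.Lib.Helper36.BNSt.urad_le_U _ hx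
      refine ⟨(D.unipotentRadical F (J : Set ℕ)).subgroupOf (D.group F), ?_, Q.2.to_le hRQ, ?_, ?_⟩
      · rw [X.hPB]
        exact fun x hx => Cfsg.Agent.Lib.Helper18.Base.U_le_B (Cfsg.Agent.Lib.Helper36.BNSt.urad_le_U _ hx)
      · intro y hy r hr
        have hpar : X.P.parabolic (Cfsg.Agent.Lib.Helper36.BNSt.sF X '' (J : Set ℕ)) = D.parabolicIn F J := by
          rw [← Finset.coe_image]; exact Cfsg.Agent.Lib.Helper36.BNSt.parabolic_eq X hJ
        rw [hpar] at hy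
        exact Cfsg.Agent.Lib.Helper36.BNSt.conj_mem_urad hnorm hy hr
      · rw [hone]
        exact Cfsg.Agent.Lib.Helper36.StVal.chev_parBN_one X hd hc J hJ hnorm hK'
    refine hgen _ hK ((Finset.range D.rank).filter
      (fun i => Cfsg.Agent.Lib.Helper36.BNSt.sF X i ∈ K)) (Finset.filter_subset _ _) ?_
    ext s
    simp only [Finset.mem_coe, Set.mem_image, Finset.mem_filter, Finset.mem_range]
    constructor
    · intro hs
      obtain ⟨i, rfl⟩ := X.exists_of_mem_S (hK hs)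
      exact ⟨i, ⟨i.2, by rw [Cfsg.Agent.Lib.Helper36.BNSt.sF_of_lt X i.2]; exact hs⟩,
        Cfsg.Agent.Lib.Helper36.BNSt.sF_of_lt X i.2⟩
    · rintro ⟨i, ⟨_, hi⟩, rfl⟩
      exact hi

end Cfsg.Agent.S2312
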