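import Cfsg.Statements.S2314
import Cfsg.Agent.Lib.Helper36.BNSt.G6

set_option autoImplicit false
open Cfsg

namespace Cfsg.Agent.S2314

/-- Steinberg's count of unipotent elements: in a Chevalley group of type G₂, B₂, D₄, F₄, E₆, E₇ or E₈ over a finite field of characteristic p with q elements, the number of elements of p-power order is q^(2N), N the number of positive roots — the square of the order of a Sylow p-subgroup. -/
theorem result {F : Type*} [Field F] [Fintype F] (p : ℕ) [Fact p.Prime] [CharP F p] (D : Cfsg.Lie.ChevalleyDatum) (hD : D ∈ [Cfsg.Lie.chevG2, Cfsg.Lie.chevB2, Cfsg.Lie.chevD4, Cfsg.Lie.chevF4, Cfsg.Lie.chevE6, Cfsg.Lie.chevE7, Cfsg.Lie.chevE8]) :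
    Nat.card {g : ↥(D.group F) // ∃ k : ℕ, orderOf g = p ^ k} = Fintype.card F ^ (2 * (D.nroots / 2)) := by
  classical
  let X := Cfsg.Agent.Lib.Helper18.bnData_of_mem F hD
  obtain ⟨Q, hQ⟩ := Cfsg.Agent.S2326.result (F := F) p D hD
  obtain ⟨L, hL⟩ := Cfsg.Agent.Lib.Helper18.exists_isLong hD
  have hd := Cfsg.Agent.Lib.Helper17.descOK_of_mem hD
  have hc := Cfsg.Agent.Lib.Helper36.BNSt.ccOK_of_mem hD
  have hA : ∀ (g x : ↥(D.group F)), (∃ k, orderOf x = p ^ k) → ∃ k, orderOf (g * x * g⁻¹) = p ^ k := by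
    rintro g x ⟨k, hk⟩
    exact ⟨k, by rw [← hk]; exact (MulAut.conj g).orderOf_eq x⟩
  have key := Cfsg.Agent.Lib.Helper36.BNSt.card_of_finsum_stChar X.P (fun g => ∃ k, orderOf g = p ^ k) hA
    (Nat.card (D.posUnipotent F) : ℂ) ?_
  · rw [← Cfsg.Agent.Lib.Helper36.BNSt.steinbergCharacter_eq X,
      Cfsg.Agent.Lib.Helper36.BNSt.steinberg_one_aux X hL, Cfsg.Agent.S1027.result D hD] at key
    have key' : Nat.card {g : ↥(D.group F) // ∃ k : ℕ, orderOf g = p ^ k} =
        Fintype.card F ^ (D.nroots / 2) * Fintype.card F ^ (D.nroots / 2) := by exact_mod_cast key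
    rw [key', ← pow_add, two_mul]
  · intro K hK
    have hgen : ∀ (K' : Set ↥(D.group F)) (hK' : K' ⊆ X.P.S) (J : Finset ℕ), J ⊆ Finset.range D.rank →
        K' = Cfsg.Agent.Lib.Helper36.BNSt.sF X '' (J : Set ℕ) →
        ∑ᶠ (x : ↥(X.P.parabolic K')) (_ : ∃ k, orderOf (x : ↥(D.group F)) = p ^ k),
          Cfsg.Agent.Lib.Helper36.BNSt.stChar (Cfsg.Agent.Lib.Helper36.BNSt.parBN X.P K' hK') x =
            (Nat.card (D.posUnipotent F) : ℂ) := by
      rintro _ hK' J hJ rfl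
      exact Cfsg.Agent.Lib.Helper36.BNSt.chev_finsum X p Q hQ hd hc J hJ
        (Cfsg.Agent.S1048.result D hD (J : Set ℕ)).1 hK'
    refine hgen _ hK ((Finset.range D.rank).filter
      (fun i => Cfsg.Agent.Lib.Helper36.BNSt.sF X i ∈ K)) (Finset.filter_subset _ _) ?_
    ext s
    simp only [Finset.mem_coe, Set.mem_image, Finset.mem_filter, Finset.mem_range]
    constructor
    · intro hs
      obtain ⟨i, rfl⟩ := X.exists_of_mem_S (hK hs)
      exact ⟨i, ⟨i.2, by rw [Cfsg.Agent.Lib.Helper36.BNSt.sF_of_lt X i.2]; exact hs⟩,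
        Cfsg.Agent.Lib.Helper36.BNSt.sF_of_lt X i.2⟩
    · rintro ⟨i, ⟨_, hi⟩, rfl⟩
      exact hi

end Cfsg.Agent.S2314
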