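import Cfsg.Statements.S2317
import Cfsg.Agent.Lib.Helper45.SimUnip

set_option autoImplicit false
open Cfsg

namespace Cfsg.Agent.S2317

open Cfsg.Agent.Lib.Helper45 Polynomial

/-- Over a finite field of characteristic p, the conjugacy classes of GL_n consisting of elements of p-power order (the unipotent classes) are as many as the partitions of n. -/
theorem result {F : Type*} [Field F] [Fintype F] (p : ℕ) [Fact p.Prime] [CharP F p] (n : ℕ) :
    Nat.card {C : ConjClasses (Matrix.GeneralLinearGroup (Fin n) F) //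
      ∃ g : Matrix.GeneralLinearGroup (Fin n) F, (∃ k : ℕ, orderOf g = p ^ k) ∧ ConjClasses.mk g = C} =
      Fintype.card (Nat.Partition n) := by
  have hp : p.Prime := Fact.out
  rw [card_classes_eq (fun g : GL (Fin n) F => ∃ k : ℕ, orderOf g = p ^ k) (unipTypes F n),
    Nat.card_congr (unipEquiv F n), Nat.card_eq_fintype_card]
  · rintro g ⟨k, hk⟩
    have h1 : (g : Matrix (Fin n) (Fin n) F) ^ (p ^ k) = 1 := by
      rw [← Units.val_pow_eq_pow_val, ← hk, pow_orderOf_eq_one]
      rfl
    have h2 := ((hasType_typ (g : Matrix (Fin n) (Fin n) F)).pow_char_pow_eq_one_iff p k).1 h1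
    have h3 := (hasType_typ (g : Matrix (Fin n) (Fin n) F)).mem_unipTypes (fun x hx => (h2 x hx).1)
    simpa using h3
  · intro T hT
    obtain ⟨hv, hd⟩ := unipTypes_valid hT
    obtain ⟨A, hA⟩ := exists_hasType_of_valid (n := Fin n) T hv (by simpa using hd)
    have h1 : A ^ (p ^ n) = 1 := by
      rw [hA.pow_char_pow_eq_one_iff p n]
      intro x hx
      refine ⟨(hT.1 x hx).1, ?_⟩
      have h2 : x.2 ≤ (T.map Prod.snd).sum :=
        Multiset.single_le_sum (fun _ _ => Nat.zero_le _) _ (Multiset.mem_map_of_mem _ hx)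
      rw [hT.2] at h2
      exact h2.trans (Nat.lt_pow_self hp.one_lt).le
    refine ⟨Units.ofPowEqOne A (p ^ n) h1 (pow_ne_zero _ hp.ne_zero), ?_, hA.typ_eq⟩
    have h2 : orderOf (Units.ofPowEqOne A (p ^ n) h1 (pow_ne_zero _ hp.ne_zero)) ∣ p ^ n :=
      orderOf_dvd_of_pow_eq_one (Units.pow_ofPowEqOne _ _)
    obtain ⟨k, _, hk⟩ := (Nat.dvd_prime_pow hp).1 h2
    exact ⟨k, hk⟩

end Cfsg.Agent.S2317
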