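import Cfsg.Statements.S2318
import Cfsg.Agent.Lib.Helper36.BNSt.G10
import Cfsg.Agent.S2311
import Cfsg.Agent.S2326
import Cfsg.Agent.S0165

set_option autoImplicit false
open Cfsg

namespace Cfsg.Agent.S2318

/-- In a Chevalley group of type G₂, B₂, D₄, F₄, E₆, E₇ or E₈ over a finite field of characteristic p (for types G₂ and B₂ the field is assumed to have at least 3 elements, so that the group is perfect), the Steinberg character is the only irreducible complex character whose degree is divisible by the full power of p dividing the group order (the only irreducible character of p-defect zero). -/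
theorem result {F : Type*} [Field F] [Fintype F] (p : ℕ) [Fact p.Prime] [CharP F p] (D : Cfsg.Lie.ChevalleyDatum) (hD : D ∈ [Cfsg.Lie.chevG2, Cfsg.Lie.chevB2, Cfsg.Lie.chevD4, Cfsg.Lie.chevF4, Cfsg.Lie.chevE6, Cfsg.Lie.chevE7, Cfsg.Lie.chevE8]) (hq : (D = Cfsg.Lie.chevG2 ∨ D = Cfsg.Lie.chevB2) → 3 ≤ Fintype.card F)
    (χ : ↥(D.group F) → ℂ) (hχ : Cfsg.IsIrrCharacter ↥(D.group F) χ)
    (hdeg : ∃ d : ℕ, χ 1 = (d : ℂ) ∧ p ^ (Nat.card ↥(D.group F)).factorization p ∣ d) :
    χ = D.steinbergCharacter F := by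
  classical
  let X := Cfsg.Agent.Lib.Helper18.bnData_of_mem F hD
  obtain ⟨n, ρ, hirr, rfl⟩ := hχ
  obtain ⟨d, hd, hdvd⟩ := hdeg
  obtain ⟨Q, hQ⟩ := Cfsg.Agent.S2326.result (F := F) p D hD
  have hSt : Cfsg.IsIrrCharacter ↥(D.group F) (Cfsg.Agent.Lib.Helper36.BNSt.stChar X.P) := by
    rw [← Cfsg.Agent.Lib.Helper36.BNSt.steinbergCharacter_eq X]
    exact Cfsg.Agent.S2311.result D hD
  have hfin : Module.finrank ℂ (Fin n → ℂ) = d := by
    have h1 := Representation.char_one ρ
    rw [hd] at h1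
    exact_mod_cast h1.symm
  rw [Cfsg.Agent.Lib.Helper36.BNSt.steinbergCharacter_eq X]
  apply Cfsg.Agent.Lib.Helper36.BNSt.chev_character_eq X hSt ρ hirr
  intro u hu hne
  haveI := hirr
  have huQ : u ∈ (Q : Subgroup ↥(D.group F)) := by rw [hQ]; exact hu
  obtain ⟨k, hk⟩ := (IsPGroup.iff_orderOf.1 Q.2) ⟨u, huQ⟩
  have hk' : orderOf u = p ^ k := (Subgroup.orderOf_mk u huQ).symm.trans hk
  have hpu : p ∣ orderOf u := by
    rw [hk']
    apply dvd_pow_self
    rintro rfl
    rw [pow_zero, orderOf_eq_one_iff] at hk'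
    exact hne hk'
  exact Cfsg.Agent.S0165.result ρ p ((Nat.card ↥(D.group F)).factorization p) Fact.out
    (Nat.ordProj_dvd _ _) (Nat.pow_succ_factorization_not_dvd Nat.card_pos.ne' Fact.out)
    (by rw [hfin]; exact hdvd) u hpu

end Cfsg.Agent.S2318
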