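import Cfsg.Statements.S2319
import Cfsg.Agent.Lib.Helper36.Hecke.A4

set_option autoImplicit false
open Cfsg

namespace Cfsg.Agent.S2319

/-- In a Chevalley group of type G₂, B₂, D₄, F₄, E₆, E₇ or E₈ over a finite field, the number of distinct irreducible constituents of the permutation character on the cosets of B = UH equals the number of conjugacy classes (equivalently, of irreducible characters) of the Weyl group, the Coxeter group of the type with nodes numbered as the fundamental roots. -/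
theorem result {F : Type*} [Field F] [Fintype F]
    (dw : Cfsg.Lie.ChevalleyDatum × (Σ n : ℕ, CoxeterMatrix (Fin n)))
    (hdw : dw ∈ [(Cfsg.Lie.chevG2, ⟨2, CoxeterMatrix.G₂⟩), (Cfsg.Lie.chevB2, ⟨2, CoxeterMatrix.B 2⟩), (Cfsg.Lie.chevD4, ⟨4, Cfsg.Lie.coxeterD4⟩), (Cfsg.Lie.chevF4, ⟨4, CoxeterMatrix.F₄⟩),
      (Cfsg.Lie.chevE6, ⟨6, CoxeterMatrix.E₆⟩), (Cfsg.Lie.chevE7, ⟨7, CoxeterMatrix.E₇⟩), (Cfsg.Lie.chevE8, ⟨8, CoxeterMatrix.E₈⟩)]) :
    Nat.card {χ : Cfsg.IrrCharacter ↥(dw.1.group F) //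
      ∃ φ : ↥(dw.1.group F) → ℂ, Cfsg.IsCharacter ↥(dw.1.group F) φ ∧
        Cfsg.fixedPointCharacter ((dw.1.borelSubgroup F).subgroupOf (dw.1.group F)) = (χ : ↥(dw.1.group F) → ℂ) + φ} =
      Nat.card (ConjClasses dw.2.2.Group) := by
  classical
  obtain ⟨δ, hδ⟩ := Cfsg.Agent.Lib.Helper36.Hecke.chev_real (F := F) dw hdw
  haveI : Fintype ↥(dw.1.group F) := Fintype.ofFinite _
  haveI : Finite dw.2.2.Group := Finite.of_surjective δ hδ.surj
  haveI : Fintype dw.2.2.Group := Fintype.ofFinite _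
  refine Cfsg.Agent.Lib.Helper36.Hecke.card_constituents_eq dw.2.2.toCoxeterSystem ?_ hδ
  intro N
  haveI : Fact (Nat.Prime 2) := ⟨Nat.prime_two⟩
  haveI : Fintype (GaloisField 2 (N + 1)) := Fintype.ofFinite _
  obtain ⟨δ', hδ'⟩ := Cfsg.Agent.Lib.Helper36.Hecke.chev_real (F := GaloisField 2 (N + 1)) dw hdw
  refine ⟨Fintype.card (GaloisField 2 (N + 1)), ?_, ↥(dw.1.group (GaloisField 2 (N + 1))), inferInstance,
    Fintype.ofFinite _, _, δ', hδ'⟩
  rw [← Nat.card_eq_fintype_card, GaloisField.card 2 (N + 1) (Nat.succ_ne_zero N)]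
  exact (Nat.lt_succ_self N).trans (Nat.lt_two_pow_self)

end Cfsg.Agent.S2319
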