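import Cfsg.Statements.S2320
import Cfsg.Agent.Lib.Helper39.GL2Char.Classify

set_option autoImplicit false
open Cfsg

namespace Cfsg.Agent.S2320

open Cfsg.Agent.Lib.Helper39

/-- Over a finite field F with q elements, every irreducible complex character of GL₂ of degree q takes a value of absolute value 1 at every diagonal matrix with two different diagonal entries and at every element with no eigenvector in F². -/
theorem result {F : Type*} [Field F] [Fintype F] (χ : Matrix.GeneralLinearGroup (Fin 2) F → ℂ) (hχ : Cfsg.IsIrrCharacter (Matrix.GeneralLinearGroup (Fin 2) F) χ) (hdeg : χ 1 = (Fintype.card F : ℂ)) (g : Matrix.GeneralLinearGroup (Fin 2) F) :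
    ((g : Matrix (Fin 2) (Fin 2) F) 0 1 = 0 → (g : Matrix (Fin 2) (Fin 2) F) 1 0 = 0 → (g : Matrix (Fin 2) (Fin 2) F) 0 0 ≠ (g : Matrix (Fin 2) (Fin 2) F) 1 1 → ‖χ g‖ = 1) ∧
    ((∀ (c : F) (v : Fin 2 → F), v ≠ 0 → (g : Matrix (Fin 2) (Fin 2) F).mulVec v ≠ c • v) → ‖χ g‖ = 1) := by
  classical
  have hq0 := card_F_ne_zero (F := F)
  have hq1 := card_F_ne_one (F := F)
  have hnorm : ∀ α : MulChar F ℂ, ‖detChar α g‖ = 1 := by
    intro α
    have h1 : (g : Matrix (Fin 2) (Fin 2) F).det ≠ 0 :=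
      ((Matrix.isUnit_iff_isUnit_det _).1 g.isUnit).ne_zero
    have h2 := mc_norm α h1
    rw [Complex.mul_conj, Complex.normSq_eq_norm_sq] at h2
    have h3 : ‖α (g : Matrix (Fin 2) (Fin 2) F).det‖ ^ 2 = 1 := by exact_mod_cast h2
    exact (pow_eq_one_iff_of_nonneg (norm_nonneg _) (by norm_num)).1 h3
  rcases irr_GL2_cases hχ with ⟨α, rfl⟩ | ⟨α, rfl⟩ | ⟨α, β, -, rfl⟩ | ⟨-, h2, -⟩
  · rw [detChar_one] at hdeg
    exact absurd hdeg.symm hq1
  · constructor
    · intro h01 h10 hne
      rw [Pi.mul_apply, stG_split g h01 h10 hne, mul_one]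
      exact hnorm α
    · intro hell
      rw [Pi.mul_apply, stG_elliptic g hell, mul_neg, mul_one, norm_neg]
      exact hnorm α
  · rw [psG_one] at hdeg
    exact absurd (by linear_combination hdeg : (1 : ℂ) = 0) one_ne_zero
  · rw [h2] at hdeg
    exact absurd (by linear_combination -hdeg : (1 : ℂ) = 0) one_ne_zero

end Cfsg.Agent.S2320
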