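import Cfsg.Statements.S2321
import Cfsg.Agent.Lib.Helper39.GL2Char.SOdd4
import Cfsg.Agent.Lib.Helper39.GL2Char.SEven

set_option autoImplicit false
open Cfsg

namespace Cfsg.Agent.S2321

open Cfsg.Agent.Lib.Helper39

/-- Over a finite field F with q elements, an irreducible complex character of SL₂ of degree q (the Steinberg character) takes the value 1 at every diagonal matrix whose diagonal entry a has a² ≠ 1, the value −1 at every element with no eigenvector in F², and the value 0 at every upper triangular matrix with equal diagonal entries and non-zero upper right entry. -/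
theorem result {F : Type*} [Field F] [Fintype F] (χ : Matrix.SpecialLinearGroup (Fin 2) F → ℂ) (hχ : Cfsg.IsIrrCharacter (Matrix.SpecialLinearGroup (Fin 2) F) χ) (hdeg : χ 1 = (Fintype.card F : ℂ)) (g : Matrix.SpecialLinearGroup (Fin 2) F) :
    ((g : Matrix (Fin 2) (Fin 2) F) 0 1 = 0 → (g : Matrix (Fin 2) (Fin 2) F) 1 0 = 0 → (g : Matrix (Fin 2) (Fin 2) F) 0 0 ^ 2 ≠ 1 → χ g = 1) ∧
    ((∀ (c : F) (v : Fin 2 → F), v ≠ 0 → (g : Matrix (Fin 2) (Fin 2) F).mulVec v ≠ c • v) → χ g = -1) ∧
    ((g : Matrix (Fin 2) (Fin 2) F) 1 0 = 0 → (g : Matrix (Fin 2) (Fin 2) F) 0 0 = (g : Matrix (Fin 2) (Fin 2) F) 1 1 → (g : Matrix (Fin 2) (Fin 2) F) 0 1 ≠ 0 → χ g = 0) := by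
  classical
  have hq0 := card_F_ne_zero (F := F)
  have hq1 := card_F_ne_one (F := F)
  have hst : χ = stS := by
    rcases Nat.mod_two_eq_zero_or_one (Fintype.card F) with hF | hF
    · have : CharP F 2 := ringChar.of_eq (FiniteField.even_card_iff_char_two.2 hF)
      rcases irr_SL2_even_cases hχ with rfl | h | ⟨α, -, rfl⟩ | ⟨-, h2⟩
      · exact absurd hdeg.symm hq1
      · exact h
      · rw [psS_one] at hdeg
        exact absurd (by linear_combination hdeg : (1 : ℂ) = 0) one_ne_zero
      · rw [h2] at hdeg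
        exact absurd (by linear_combination -hdeg : (1 : ℂ) = 0) one_ne_zero
    · have h3 := three_le_card hF
      obtain ⟨d, hd, hc⟩ := deg_cases_odd hF hχ
      have hdn : d = Fintype.card F := by exact_mod_cast hd.symm.trans hdeg
      rcases hc with ⟨h, e⟩ | ⟨h, e⟩ | ⟨h, e⟩ | ⟨h, e⟩ | ⟨h, e⟩ | ⟨h, e⟩
      · omega
      · exact h
      all_goals omega
  subst hst
  unfold stS
  refine ⟨?_, ?_, ?_⟩
  · intro h01 h10 hsq
    obtain ⟨s, hs, hs', -⟩ := exists_eq_bS g h10
    have hne : (g : Matrix (Fin 2) (Fin 2) F) 0 0 ≠ (g : Matrix (Fin 2) (Fin 2) F) 1 1 := by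
      intro h
      apply hsq
      rw [pow_two]
      nth_rewrite 2 [h]
      rw [← hs, ← hs']
      simp
    rw [Pi.sub_apply, psS_split _ g h01 h10 hne, ← hs, ← hs', one_apply_unit, one_apply_unit]
    norm_num
  · intro hell
    rw [Pi.sub_apply, psS_elliptic _ g hell]
    norm_num
  · intro h10 heq h01
    obtain ⟨s, hs, hs', -⟩ := exists_eq_bS g h10
    rw [Pi.sub_apply, psS_unip _ g h10 heq h01, ← hs, one_apply_unit]
    norm_num

end Cfsg.Agent.S2321
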