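import Cfsg.Statements.S2322
import Cfsg.Agent.Lib.Helper39.GL2Char.SOdd4
import Cfsg.Agent.Lib.Helper39.GL2Char.SEven

set_option autoImplicit false
open Cfsg

namespace Cfsg.Agent.S2322

open Cfsg.Agent.Lib.Helper39

/-- Over a finite field F with q elements, q odd: every irreducible complex character of SL₂ of degree q − 1 or (q − 1)/2 vanishes at every diagonal matrix whose diagonal entry a has a² ≠ 1, and every irreducible complex character of degree q + 1 or (q + 1)/2 vanishes at every element with no eigenvector in F². -/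
theorem result {F : Type*} [Field F] [Fintype F] (hodd : Odd (Fintype.card F)) (χ : Matrix.SpecialLinearGroup (Fin 2) F → ℂ) (hχ : Cfsg.IsIrrCharacter (Matrix.SpecialLinearGroup (Fin 2) F) χ) (g : Matrix.SpecialLinearGroup (Fin 2) F) :
    ((χ 1 = (Fintype.card F : ℂ) - 1 ∨ χ 1 = (((Fintype.card F - 1) / 2 : ℕ) : ℂ)) →
      (g : Matrix (Fin 2) (Fin 2) F) 0 1 = 0 → (g : Matrix (Fin 2) (Fin 2) F) 1 0 = 0 → (g : Matrix (Fin 2) (Fin 2) F) 0 0 ^ 2 ≠ 1 → χ g = 0) ∧
    ((χ 1 = (Fintype.card F : ℂ) + 1 ∨ χ 1 = (((Fintype.card F + 1) / 2 : ℕ) : ℂ)) →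
      (∀ (c : F) (v : Fin 2 → F), v ≠ 0 → (g : Matrix (Fin 2) (Fin 2) F).mulVec v ≠ c • v) → χ g = 0) := by
  classical
  have hF : Fintype.card F % 2 = 1 := Nat.odd_iff.1 hodd
  have h3 := three_le_card hF
  obtain ⟨d, hd, hc⟩ := deg_cases_odd hF hχ
  constructor
  · intro h1 h01 h10 hsq
    obtain ⟨s, hs, -, hg⟩ := exists_eq_bS g h10
    have hq5 : Fintype.card F ≠ 3 := by
      intro hq3
      apply hsq
      have := FiniteField.pow_card_sub_one_eq_one (s : F) s.ne_zero
      rw [hq3] at this
      rw [← hs]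
      exact this
    have hdn : d = Fintype.card F - 1 ∨ d = (Fintype.card F - 1) / 2 := by
      rcases h1 with h1 | h1
      · left
        have := hd.symm.trans h1
        rw [← cast_card_sub_one] at this
        exact_mod_cast this
      · right
        exact_mod_cast hd.symm.trans h1
    have hcusp : aS χ = 0 := by
      rcases hc with ⟨h, e⟩ | ⟨h, e⟩ | ⟨h, e⟩ | ⟨h, e⟩ | ⟨h, e⟩ | ⟨h, e⟩
      · omega
      · omega
      · omega
      · omega
      · exact (mem_setCS.1 (mem_setC2.1 h).1).2
      · exact (mem_setCS.1 (mem_setC1.1 h).1).2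
    rw [hg]
    apply cuspidal_split_S (Cfsg.Agent.Lib.Helper15.irr_char hχ) hcusp
    rw [hs]
    exact hsq
  · intro h1 hell
    have hdn : d = Fintype.card F + 1 ∨ d = (Fintype.card F + 1) / 2 := by
      rcases h1 with h1 | h1
      · left
        have := hd.symm.trans h1
        exact_mod_cast this
      · right
        exact_mod_cast hd.symm.trans h1
    rcases hc with ⟨h, e⟩ | ⟨h, e⟩ | ⟨h, e⟩ | ⟨h, e⟩ | ⟨h, e⟩ | ⟨h, e⟩
    · omega
    · omega
    · obtain ⟨α, -, rfl⟩ := mem_setPS.1 h
      exact psS_elliptic α g hell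
    · exact setHS_elliptic hF h g hell
    · -- here `q = 3`
      have hq3 : Fintype.card F = 3 := by omega
      have hQ : (Fintype.card F : ℂ) = 3 := by rw [hq3]; norm_num
      obtain ⟨ψ, hψ⟩ := exists_addChar_ne_one (F := F)
      have hne : (setC1 (F := F)).Nonempty := by
        rw [← Finset.card_pos, (card_setC12 hF).2]
        norm_num
      obtain ⟨lam, hlam⟩ := hne
      have hlirr := (mem_setCS.1 (mem_setC1.1 hlam).1).1
      have hl1 : lam 1 = 1 := by
        rw [one_of_mem_setC1 hF hlam, hQ]; norm_num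
      have hφ := Cfsg.Agent.Lib.Helper15.irr_linear_mul
        (Cfsg.Agent.Lib.Helper15.irr_char hlirr) hl1 hχ
      have hχ1 : χ 1 = 2 := by
        rw [(mem_setC2.1 h).2, hQ]; norm_num
      obtain ⟨d', hd', hc'⟩ := deg_cases_odd hF hφ
      have hd2 : d' = 2 := by
        rw [Pi.mul_apply, hl1, hχ1, one_mul] at hd'
        exact_mod_cast hd'.symm
      have hl0 := Cfsg.Agent.Lib.Helper15.linear_ne_zero
        (Cfsg.Agent.Lib.Helper15.irr_char hlirr) hl1
      rcases hc' with ⟨h', e'⟩ | ⟨h', e'⟩ | ⟨h', e'⟩ | ⟨h', e'⟩ | ⟨h', e'⟩ | ⟨h', e'⟩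
      · omega
      · omega
      · omega
      · have := setHS_elliptic hF h' g hell
        rw [Pi.mul_apply] at this
        exact (mul_eq_zero.1 this).resolve_left (hl0 g)
      · exfalso
        have hcard : (setC2 (F := F)).card = 1 := by
          have := (card_setC12 hF).1
          omega
        have heq : lam * χ = χ := Finset.card_le_one.1 hcard.le _ h' _ h
        have hu : χ (bS 1 1) = -1 := by
          have ha := (mem_setCS.1 (mem_setC2.1 h).1).2
          rw [value_of_full hψ hχ (by rw [ha, (mem_setC2.1 h).2]; ring) one_ne_zero, ha]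
          ring
        have h4 := congrFun heq (bS 1 1)
        rw [Pi.mul_apply, hu] at h4
        have hlu : lam (bS 1 1) = 1 := by linear_combination -h4
        have h5 := setC1_val_u hF hlam
        rw [hlu, hQ, hq3] at h5
        norm_num at h5
      · omega
    · omega

end Cfsg.Agent.S2322
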