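import Cfsg.Statements.S2323
import Cfsg.Agent.Lib.Helper39.GL2Char.SOdd4
import Cfsg.Agent.Lib.Helper39.GL2Char.SEven

set_option autoImplicit false
open Cfsg

namespace Cfsg.Agent.S2323

open Cfsg.Agent.Lib.Helper39

/-- Over a finite field F with q ≥ 4 elements, let u be the upper unitriangular matrix of SL₂ with off-diagonal entry 1. An irreducible complex character of SL₂ takes at u the value 1 if its degree is q + 1 and the value −1 if its degree is q − 1. -/
theorem result {F : Type*} [Field F] [Fintype F] (hq : 4 ≤ Fintype.card F) (χ : Matrix.SpecialLinearGroup (Fin 2) F → ℂ) (hχ : Cfsg.IsIrrCharacter (Matrix.SpecialLinearGroup (Fin 2) F) χ)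
    (u : Matrix.SpecialLinearGroup (Fin 2) F) (hu : (u : Matrix (Fin 2) (Fin 2) F) = !![1, 1; 0, 1]) :
    (χ 1 = (Fintype.card F : ℂ) + 1 → χ u = 1) ∧ (χ 1 = (Fintype.card F : ℂ) - 1 → χ u = -1) := by
  classical
  have hq0 := card_F_ne_zero (F := F)
  have hq1 := card_F_ne_one (F := F)
  have hq2 : (Fintype.card F : ℂ) ≠ 2 := by
    intro h
    have : Fintype.card F = 2 := by exact_mod_cast h
    omega
  obtain ⟨ψ, hψ⟩ := exists_addChar_ne_one (F := F)
  have hu' : u = bS 1 1 := by
    apply Subtype.ext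
    rw [hu, bS_coe]
    simp
  subst hu'
  have hcusp : aS χ = 0 → χ 1 = (Fintype.card F : ℂ) - 1 → χ (bS 1 1) = -1 := by
    intro ha h1
    rw [value_of_full hψ hχ (by rw [ha, h1]; ring) one_ne_zero, ha]
    ring
  rcases Nat.mod_two_eq_zero_or_one (Fintype.card F) with hF | hF
  · have : CharP F 2 := ringChar.of_eq (FiniteField.even_card_iff_char_two.2 hF)
    rcases irr_SL2_even_cases hχ with rfl | rfl | ⟨α, -, rfl⟩ | ⟨ha, h2⟩
    · refine ⟨fun h => ?_, fun h => ?_⟩
      · exact absurd (by linear_combination -h) hq0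
      · exact absurd (by linear_combination -h) hq2
    · rw [stS_one]
      refine ⟨fun h => ?_, fun h => ?_⟩
      · exact absurd (by linear_combination -h : (1 : ℂ) = 0) one_ne_zero
      · exact absurd (by linear_combination h : (1 : ℂ) = 0) one_ne_zero
    · rw [psS_one, psS_u _ one_ne_zero]
      refine ⟨fun _ => rfl, fun h => ?_⟩
      exact absurd (by linear_combination (1/2 : ℂ) * h : (1 : ℂ) = 0) one_ne_zero
    · refine ⟨fun h => ?_, fun h => hcusp ha h⟩
      rw [h2] at h
      exact absurd (by linear_combination (-1/2 : ℂ) * h : (1 : ℂ) = 0) one_ne_zero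
  · obtain ⟨d, hd, hc⟩ := deg_cases_odd hF hχ
    constructor
    · intro h1
      have hdn : d = Fintype.card F + 1 := by
        have := hd.symm.trans h1
        exact_mod_cast this
      rcases hc with ⟨h, e⟩ | ⟨h, e⟩ | ⟨h, e⟩ | ⟨h, e⟩ | ⟨h, e⟩ | ⟨h, e⟩
      · omega
      · omega
      · obtain ⟨α, -, rfl⟩ := mem_setPS.1 h
        exact psS_u _ one_ne_zero
      all_goals omega
    · intro h1
      have hdn : d = Fintype.card F - 1 := by
        have := hd.symm.trans h1
        rw [← cast_card_sub_one] at this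
        exact_mod_cast this
      rcases hc with ⟨h, e⟩ | ⟨h, e⟩ | ⟨h, e⟩ | ⟨h, e⟩ | ⟨h, e⟩ | ⟨h, e⟩
      · omega
      · omega
      · omega
      · omega
      · exact hcusp (mem_setCS.1 (mem_setC2.1 h).1).2 h1
      · omega

end Cfsg.Agent.S2323
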