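import Cfsg.Statements.S2329
import Cfsg.Agent.Lib.Helper39.GL2Conj

set_option autoImplicit false
open Cfsg

namespace Cfsg.Agent.S2329

open Cfsg.Agent.Lib.Helper39

theorem invariants {F : Type*} [Field F] (p : ℕ) [Fact p.Prime] [CharP F p]
    (g : Matrix.GeneralLinearGroup (Fin 2) F) (hg : orderOf g = p) :
    ¬ IsScalar2 (g : Matrix (Fin 2) (Fin 2) F) ∧ (g : Matrix (Fin 2) (Fin 2) F).trace = 2 ∧
      Matrix.GeneralLinearGroup.det g = 1 := by
  have hp : p.Prime := Fact.out
  have hgp : g ^ p = 1 := by rw [← hg]; exact pow_orderOf_eq_one g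
  have hgp' : (g : Matrix (Fin 2) (Fin 2) F) ^ p = 1 := by
    rw [← Units.val_pow_eq_pow_val, hgp, Units.val_one]
  have hN : ((g : Matrix (Fin 2) (Fin 2) F) - 1) ^ p = 0 := by
    rw [sub_pow_char_of_commute p (Commute.one_right _), hgp', one_pow, sub_self]
  have hnil : IsNilpotent ((g : Matrix (Fin 2) (Fin 2) F) - 1) := ⟨p, hN⟩
  have htr : ((g : Matrix (Fin 2) (Fin 2) F) - 1).trace = 0 :=
    (Matrix.isNilpotent_trace_of_isNilpotent hnil).eq_zero
  have hdet : ((g : Matrix (Fin 2) (Fin 2) F) - 1).det = 0 := by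
    have : ((g : Matrix (Fin 2) (Fin 2) F) - 1).det ^ p = 0 := by
      rw [← Matrix.det_pow, hN, Matrix.det_zero]
    exact pow_eq_zero_iff hp.ne_zero |>.mp this
  have htr2 : (g : Matrix (Fin 2) (Fin 2) F).trace = 2 := by
    rw [Matrix.trace_sub, Matrix.trace_one] at htr
    simp only [Fintype.card_fin, Nat.cast_ofNat] at htr
    linear_combination htr
  have hdet1 : (g : Matrix (Fin 2) (Fin 2) F).det = 1 := by
    rw [Matrix.det_fin_two] at hdet ⊢
    rw [Matrix.trace_fin_two] at htr2
    simp only [Matrix.sub_apply, Matrix.one_apply_eq, ne_eq, zero_ne_one, not_false_eq_true,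
      Matrix.one_apply_ne, one_ne_zero, sub_zero] at hdet
    linear_combination hdet + htr2
  refine ⟨?_, htr2, ?_⟩
  · intro hs
    have h00 : (g : Matrix (Fin 2) (Fin 2) F) 0 0 = 1 := by
      rw [Matrix.det_fin_two] at hdet
      simp only [Matrix.sub_apply, Matrix.one_apply_eq, ne_eq, zero_ne_one, not_false_eq_true,
        Matrix.one_apply_ne, one_ne_zero, sub_zero, hs.1, hs.2.1, ← hs.2.2, mul_zero] at hdet
      have : ((g : Matrix (Fin 2) (Fin 2) F) 0 0 - 1) = 0 := by
        exact mul_self_eq_zero.mp hdet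
      linear_combination this
    have hg1 : g = 1 := by
      apply Units.ext
      ext i j
      fin_cases i <;> fin_cases j <;> simp [hs.1, hs.2.1, ← hs.2.2, h00]
    rw [hg1, orderOf_one] at hg
    exact hp.one_lt.ne hg
  · apply Units.ext
    rw [Matrix.GeneralLinearGroup.val_det_apply, hdet1, Units.val_one]

/-- Over a finite field of characteristic p, any two elements of order p of GL₂ are conjugate: there is a single conjugacy class of non-identity unipotent elements. -/
theorem result {F : Type*} [Field F] [Fintype F] (p : ℕ) [Fact p.Prime] [CharP F p] (g h : Matrix.GeneralLinearGroup (Fin 2) F)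
    (hg : orderOf g = p) (hh : orderOf h = p) : IsConj g h := by
  obtain ⟨g1, g2, g3⟩ := invariants p g hg
  obtain ⟨h1, h2, h3⟩ := invariants p h hh
  have a := isConj_compGL g g1
  have b := isConj_compGL h h1
  rw [g2, g3] at a
  rw [h2, h3] at b
  exact a.trans b.symm

end Cfsg.Agent.S2329
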