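import Cfsg.Statements.S2364
import Cfsg.Agent.Lib.Helper38.FpfCore
import Cfsg.Agent.Lib.Helper38.FpfGlue
import Cfsg.Agent.Lib.Helper38.FpfNT

set_option autoImplicit false
open Cfsg

namespace Cfsg.Agent.S2364

/-- Let F be a finite field of characteristic p, n ≥ 4, and let a, b be commuting elements of PSL(n, F) with a of order p. Then every prime divisor of the order of b divides the order of SL(n − 2, F). -/
theorem result {F : Type*} [Field F] [Fintype F] (p : ℕ) [Fact p.Prime] [CharP F p] (n : ℕ) (hn : 4 ≤ n)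
    (a b : Matrix.ProjectiveSpecialLinearGroup (Fin n) F) (ha : orderOf a = p) (hab : Commute a b) :
    (orderOf b).primeFactors ⊆ (Nat.card (Matrix.SpecialLinearGroup (Fin (n - 2)) F)).primeFactors := by
  classical
  intro t ht
  rw [Nat.mem_primeFactors] at ht ⊢
  obtain ⟨htp, htb, hb0⟩ := ht
  have hfin : Finite (Matrix.SpecialLinearGroup (Fin (n - 2)) F) := inferInstance
  refine ⟨htp, ?_, Nat.card_pos.ne'⟩
  have hpp : p.Prime := Fact.out
  have : Fact t.Prime := ⟨htp⟩
  set q := Fintype.card F with hq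
  have hq2 : 2 ≤ q := Fintype.one_lt_card
  have hpq : p ∣ q := by
    obtain ⟨⟨f, hf0⟩, -, hf⟩ := FiniteField.card F p
    rw [hq, hf]
    exact dvd_pow_self p (by simpa using hf0.ne')
  have hbase := Cfsg.Agent.Lib.Helper38.Fpf.mul_dvd_card_SL (F := F) (n - 2) (by omega)
  rw [← hq] at hbase
  by_cases htp' : t = p
  · rw [htp']
    exact dvd_trans (Dvd.dvd.mul_right hpq _) hbase
  have htq : ¬ t ∣ q := by
    intro h
    obtain ⟨⟨f, hf0⟩, -, hf⟩ := FiniteField.card F p
    rw [hq, hf] at h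
    exact htp' ((Nat.prime_dvd_prime_iff_eq htp hpp).1 (htp.dvd_of_dvd_pow h))
  by_cases ht1 : t ∣ q - 1
  · have h1 : q - 1 ∣ q ^ 2 - 1 := by
      have := Nat.sub_dvd_pow_sub_pow q 1 2
      rwa [one_pow] at this
    exact dvd_trans (dvd_trans ht1 h1) (dvd_trans (Dvd.intro_left _ rfl) hbase)
  set k := orderOf ((q : ℕ) : ZMod t) with hk
  have hk0 : 0 < k := Cfsg.Agent.Lib.Helper38.Homo.orderOf_pos' htq
  have hkdvd : t ∣ q ^ k - 1 :=
    (Cfsg.Agent.Lib.Helper38.Homo.dvd_pow_sub_one_iff (by omega) k).2 (dvd_refl _)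
  by_cases hkn : k ≤ n - 2
  · exact Cfsg.Agent.Lib.Helper38.Fpf.dvd_card_SL_of_dvd_pow_sub_one t htp (n - 2) k hk0 hkn
      hkdvd ht1
  exfalso
  -- the element of order `t`
  obtain ⟨c, hc⟩ := htb
  set b' := b ^ c with hb'
  have hc0 : c ≠ 0 := by
    rintro rfl
    rw [mul_zero] at hc
    exact hb0 hc
  have hb't : orderOf b' = t := by
    rw [hb', orderOf_pow_of_dvd hc0 ⟨t, by rw [hc, mul_comm]⟩,
      hc, Nat.mul_div_cancel _ (Nat.pos_of_ne_zero hc0)]
  have hab' : Commute a b' := hab.pow_right c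
  have hZ : ∀ z ∈ Subgroup.center (Matrix.SpecialLinearGroup (Fin n) F), z ^ (q - 1) = 1 :=
    fun z hz => Cfsg.Agent.Lib.Helper38.Fpf.center_pow_card_sub_one z hz
  have hcop_p : Nat.Coprime (q - 1) p := by
    rw [Nat.coprime_comm, Nat.Prime.coprime_iff_not_dvd hpp]
    intro h
    have : p ∣ 1 := by
      have h2 := Nat.dvd_sub hpq h
      rwa [show q - (q - 1) = 1 by omega] at h2
    exact hpp.one_lt.ne' (Nat.dvd_one.1 this)
  have hcop_t : Nat.Coprime (q - 1) t := by
    rw [Nat.coprime_comm, Nat.Prime.coprime_iff_not_dvd htp]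
    exact ht1
  obtain ⟨A, hAa, hAp⟩ := Cfsg.Agent.Lib.Helper38.Fpf.exists_lift_pow_eq_one
    (Subgroup.center (Matrix.SpecialLinearGroup (Fin n) F)) (q - 1) p hZ hcop_p a
    (by rw [← ha]; exact pow_orderOf_eq_one a)
  obtain ⟨B, hBb, hBt⟩ := Cfsg.Agent.Lib.Helper38.Fpf.exists_lift_pow_eq_one
    (Subgroup.center (Matrix.SpecialLinearGroup (Fin n) F)) (q - 1) t hZ hcop_t b'
    (by rw [← hb't]; exact pow_orderOf_eq_one b')
  have hAB : Commute A B := Cfsg.Agent.Lib.Helper38.Fpf.commute_of_quotient_commute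
    (Subgroup.center (Matrix.SpecialLinearGroup (Fin n) F)) le_rfl (q - 1) p hZ hcop_p A B hAp
    (by rw [hAa, hBb]; exact hab')
  have hB1 : B ≠ 1 := by
    rintro rfl
    have : b' = 1 := by rw [← hBb]; rfl
    rw [this, orderOf_one] at hb't
    exact htp.one_lt.ne hb't
  have hA1 : A ≠ 1 := by
    rintro rfl
    have : a = 1 := by rw [← hAa]; rfl
    rw [this, orderOf_one] at ha
    exact hpp.one_lt.ne ha
  apply hA1
  apply Cfsg.Agent.Lib.Helper38.Fpf.toE_injective n
  rw [map_one]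
  apply Cfsg.Agent.Lib.Helper38.Fpf.core_unip p t htp' _
    (Cfsg.Agent.Lib.Helper38.Fpf.toE n B) (hAB.map _) (by rw [← map_pow, hAp, map_one])
    (by rw [← map_pow, hBt, map_one])
    (fun h => hB1 (Cfsg.Agent.Lib.Helper38.Fpf.toE_injective n (by rw [h, map_one]))) k hk
  · rw [Module.finrank_fin_fun]; omega
  · rw [Module.finrank_fin_fun]; omega

end Cfsg.Agent.S2364
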