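import Cfsg.Statements.S2367

set_option autoImplicit false
open Cfsg

namespace Cfsg.Agent.S2367

theorem spor_aux (N : ℕ) (l : List ℕ) (hl : Nat.primeFactorsList N = l)
    (hchk : ∀ p ∈ l, p ≠ 2 → l.count p = 3 → p ^ 3 < 2 ^ (l.count 2))
    (p : ℕ) (hodd : p ≠ 2) (h3 : N.factorization p = 3) :
    p ^ 3 < 2 ^ N.factorization 2 := by
  rw [← Nat.primeFactorsList_count_eq, hl] at h3 ⊢
  apply hchk p _ hodd h3
  apply List.count_pos_iff.1
  omega

theorem pow_aux (p : ℕ) (hp : 5 ≤ p) : p ^ 3 < 2 ^ (2 * p - 1) := by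
  induction p, hp using Nat.le_induction with
  | base => norm_num
  | succ n hn ih =>
    have h1 : 2 * (n + 1) - 1 = (2 * n - 1) + 2 := by omega
    rw [h1, pow_add]
    nlinarith [ih, sq_nonneg n, mul_le_mul hn hn (by norm_num) (by omega)]

theorem sum_ge_one (n p b : ℕ) (hb : 2 ≤ b) : n / p ≤ ∑ i ∈ Finset.Ico 1 b, n / p ^ i := by
  have : n / p = n / p ^ 1 := by simp
  rw [this]
  exact Finset.single_le_sum (f := fun i => n / p ^ i) (fun _ _ => Nat.zero_le _)
    (Finset.mem_Ico.2 ⟨le_refl 1, hb⟩)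

theorem sum_ge_two (n p b : ℕ) (hb : 3 ≤ b) :
    n / p + n / p ^ 2 ≤ ∑ i ∈ Finset.Ico 1 b, n / p ^ i := by
  have hsub : ({1, 2} : Finset ℕ) ⊆ Finset.Ico 1 b := by
    intro x hx
    simp only [Finset.mem_insert, Finset.mem_singleton] at hx
    rw [Finset.mem_Ico]
    omega
  calc n / p + n / p ^ 2 = ∑ i ∈ ({1, 2} : Finset ℕ), n / p ^ i := by simp
    _ ≤ _ := Finset.sum_le_sum_of_subset hsub

theorem alt_aux (n : ℕ) (hn : 5 ≤ n) (p : ℕ) (hp : p.Prime) (hodd : p ≠ 2)
    (h3 : (n.factorial / 2).factorization p = 3) :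
    p ^ 3 < 2 ^ (n.factorial / 2).factorization 2 := by
  have h2dvd : 2 ∣ n.factorial := Nat.dvd_factorial (by norm_num) (by omega)
  have hfp : (n.factorial / 2).factorization p = n.factorial.factorization p := by
    rw [Nat.factorization_div h2dvd]
    simp [Nat.Prime.factorization Nat.prime_two, hodd.symm]
  have hf2 : (n.factorial / 2).factorization 2 = n.factorial.factorization 2 - 1 := by
    rw [Nat.factorization_div h2dvd]
    simp [Nat.Prime.factorization Nat.prime_two]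
  rw [hfp] at h3
  rw [hf2]
  have hp3 : 3 ≤ p := by
    have := hp.two_le
    omega
  -- n < 4 p
  have hL := Nat.factorization_factorial hp (n := n) (b := Nat.log p n + 2) (by omega)
  have h1 := sum_ge_one n p (Nat.log p n + 2) (by omega)
  have hn4 : n < 4 * p := by
    have : n / p ≤ 3 := by omega
    have := (Nat.div_lt_iff_lt_mul (by omega : 0 < p)).1 (by omega : n / p < 4)
    omega
  rcases Nat.lt_or_ge p 5 with hp5 | hp5
  · -- p = 3
    have hp' : p = 3 := by
      interval_cases p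
      · rfl
      · exact absurd hp (by norm_num)
    subst hp'
    exfalso
    have hcount : ∀ m : ℕ, (m.factorial).factorization 3 = (Nat.primeFactorsList m.factorial).count 3 :=
      fun m => Nat.primeFactorsList_count_eq.symm
    rw [hcount] at h3
    interval_cases n <;> simp [Nat.factorial] at h3
  · -- p ≥ 5
    have hlog : Nat.log p n < 2 := by
      apply Nat.log_lt_of_lt_pow (by omega)
      nlinarith
    have hL' := Nat.factorization_factorial hp (n := n) (b := 2) hlog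
    have h3p : 3 * p ≤ n := by
      have : n / p = 3 := by
        rw [h3] at hL'
        simpa using hL'.symm
      have := Nat.div_mul_le_self n p
      nlinarith
    have hlog2 : 3 ≤ Nat.log 2 n := by
      apply (Nat.le_log_iff_pow_le (by norm_num) (by omega)).2
      omega
    have hL2 := Nat.factorization_factorial Nat.prime_two (n := n) (b := Nat.log 2 n + 1) (by omega)
    have h2 := sum_ge_two n 2 (Nat.log 2 n + 1) (by omega)
    have hexp : 2 * p - 1 ≤ n.factorial.factorization 2 - 1 := by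
      rw [hL2]
      have : n / 2 + n / 2 ^ 2 ≥ 2 * p := by
        norm_num
        omega
      omega
    calc p ^ 3 < 2 ^ (2 * p - 1) := pow_aux p hp5
      _ ≤ _ := Nat.pow_le_pow_right (by norm_num) hexp

set_option maxRecDepth 100000 in
/-- Let G be an alternating group of degree at least 5 or a simple group with the order of one of the 26 sporadic groups, and let p be an odd prime such that p³ is the exact power of p dividing the order of G. Then p³ is less than the 2-part of the order of G. -/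
theorem result {G : Type*} [Group G] [Finite G] (hG : Cfsg.IsAlternating G ∨ Cfsg.IsSporadic G)
    (p : ℕ) (hp : p.Prime) (hodd : p ≠ 2) (h3 : (Nat.card G).factorization p = 3) :
    p ^ 3 < 2 ^ (Nat.card G).factorization 2 := by
  rcases hG with ⟨n, hn, ⟨e⟩⟩ | hG
  · have hcard : Nat.card G = n.factorial / 2 := by
      rw [Nat.card_congr e.toEquiv]
      have : Nontrivial (Fin n) := Fin.nontrivial_iff_two_le.2 (by omega)
      rw [nat_card_alternatingGroup]
      simp
    rw [hcard] at h3 ⊢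
    exact alt_aux n hn p hp hodd h3
  · unfold IsSporadic IsM11 IsM12 IsM22 IsM23 IsM24 IsJ1 IsJ2 IsJ3 IsJ4 IsCo1 IsCo2 IsCo3 IsFi22
      IsFi23 IsFi24' IsHS IsMcL IsHe IsRu IsSuz IsON IsHN IsLy IsTh IsB IsM at hG
    rcases hG with ⟨-, h⟩ | ⟨-, h⟩ | ⟨-, h⟩ | ⟨-, h⟩ | ⟨-, h⟩ | ⟨-, h⟩ | ⟨-, h⟩ | ⟨-, h⟩ | ⟨-, h⟩ |
      ⟨-, h⟩ | ⟨-, h⟩ | ⟨-, h⟩ | ⟨-, h⟩ | ⟨-, h⟩ | ⟨-, h⟩ | ⟨-, h⟩ | ⟨-, h⟩ | ⟨-, h⟩ | ⟨-, h⟩ |
      ⟨-, h⟩ | ⟨-, h⟩ | ⟨-, h⟩ | ⟨-, h⟩ | ⟨-, h⟩ | ⟨-, h⟩ | ⟨-, h⟩ <;>
    · rw [h] at h3 ⊢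
      refine spor_aux _ _ (by simp only [Nat.primeFactorsList_ofNat]; rfl) ?_ p hodd h3
      decide

end Cfsg.Agent.S2367
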