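import Mathlib
import Cfsg.Statements.S2368

set_option autoImplicit false
open Cfsg

namespace Cfsg.Agent.S2368

open Polynomial in
theorem nilp_pow_card {F : Type*} [Field F] {m : ℕ} (N : Matrix (Fin m) (Fin m) F)
    (hN : IsNilpotent N) : N ^ m = 0 := by
  have h1 : N.charpoly - X ^ (Fintype.card (Fin m)) = 0 :=
    (Matrix.isNilpotent_charpoly_sub_pow_of_isNilpotent hN).eq_zero
  have h2 : N.charpoly = X ^ m := by
    rw [sub_eq_zero] at h1
    simpa using h1
  have h3 := Matrix.aeval_self_charpoly N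
  rw [h2] at h3
  simpa using h3

/-- the shift matrix -/
def shift (F : Type*) [Field F] (m : ℕ) : Matrix (Fin m) (Fin m) F :=
  Matrix.of fun i j => if (j : ℕ) = i + 1 then 1 else 0

theorem shift_pow (F : Type*) [Field F] (m : ℕ) (e : ℕ) (i j : Fin m) :
    ((shift F m) ^ e) i j = if (j : ℕ) = i + e then 1 else 0 := by
  induction e generalizing j with
  | zero => simp [Matrix.one_apply, Fin.ext_iff, eq_comm]
  | succ e ih =>
    rw [pow_succ, Matrix.mul_apply]
    have hs : ∀ l j : Fin m, shift F m l j = if (j : ℕ) = l + 1 then 1 else 0 := fun _ _ => rfl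
    simp only [ih, hs]
    split_ifs with h
    · have hl : (i : ℕ) + e < m := by omega
      rw [Finset.sum_eq_single (⟨i + e, hl⟩ : Fin m)]
      · have : (j : ℕ) = i + e + 1 := by omega
        simp [this]
      · intro b _ hb
        have : (b : ℕ) ≠ i + e := fun h' => hb (Fin.ext h')
        simp [this]
      · simp
    · apply Finset.sum_eq_zero
      intro l _
      by_cases h1 : (l : ℕ) = i + e
      · have : (j : ℕ) ≠ l + 1 := by omega
        simp [this]
      · simp [h1]

theorem shift_pow_eq_zero (F : Type*) [Field F] (m : ℕ) (e : ℕ) (he : m ≤ e) :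
    (shift F m) ^ e = 0 := by
  ext i j
  rw [shift_pow]
  have : (j : ℕ) ≠ i + e := by omega
  simp [this]

theorem shift_pow_ne_zero (F : Type*) [Field F] (m : ℕ) (e : ℕ) (he : e < m) :
    (shift F m) ^ e ≠ 0 := by
  intro h
  have h1 := congrFun (congrFun h ⟨0, by omega⟩) ⟨e, he⟩
  rw [shift_pow] at h1
  simp at h1

theorem exists_pow (p m : ℕ) (hp : p.Prime) (hm : 1 ≤ m) : ∃ k, m ≤ p ^ k ∧ p ^ k < p * m := by
  refine ⟨Nat.clog p m, Nat.le_pow_clog hp.one_lt m, ?_⟩
  rcases Nat.lt_or_ge 1 m with h | h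
  · have h1 := Nat.pow_pred_clog_lt_self hp.one_lt h
    have h2 : 0 < Nat.clog p m := Nat.clog_pos hp.one_lt h
    have h3 : p ^ Nat.clog p m = p * p ^ (Nat.clog p m).pred := by
      rw [← pow_succ']
      congr 1
      exact (Nat.succ_pred_eq_of_pos h2).symm
    rw [h3]
    exact Nat.mul_lt_mul_of_pos_left h1 hp.pos
  · have : m = 1 := by omega
    subst this
    simp [hp.one_lt]

/-- Let F be a finite field of characteristic p and m ≥ 1. Every element of GL(m, F) of p-power order has order less than p·m, and GL(m, F) has an element of p-power order at least m; so the largest order of a p-element of GL(m, F) is the least power of p that is at least m. -/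
theorem result {F : Type*} [Field F] [Fintype F] (p : ℕ) [Fact p.Prime] [CharP F p] (m : ℕ) (hm : 1 ≤ m) :
    (∀ g : Matrix.GeneralLinearGroup (Fin m) F, (∃ j : ℕ, orderOf g = p ^ j) → orderOf g < p * m) ∧
      ∃ g : Matrix.GeneralLinearGroup (Fin m) F, (∃ j : ℕ, orderOf g = p ^ j) ∧ m ≤ orderOf g := by
  have hp : p.Prime := Fact.out
  have : Nonempty (Fin m) := ⟨⟨0, by omega⟩⟩
  obtain ⟨k, hk1, hk2⟩ := exists_pow p m hp hm
  constructor
  · rintro g ⟨j, hj⟩
    have h1 : g ^ (p ^ j) = 1 := by rw [← hj]; exact pow_orderOf_eq_one g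
    have h2 : (g : Matrix (Fin m) (Fin m) F) ^ (p ^ j) = 1 := by
      rw [← Units.val_pow_eq_pow_val, h1]; rfl
    have h3 : ((g : Matrix (Fin m) (Fin m) F) - 1) ^ (p ^ j) = 0 := by
      rw [sub_pow_char_pow_of_commute _ _ (Commute.one_right _), h2]
      simp
    have h4 : ((g : Matrix (Fin m) (Fin m) F) - 1) ^ m = 0 := nilp_pow_card _ ⟨_, h3⟩
    have h5 : ((g : Matrix (Fin m) (Fin m) F) - 1) ^ (p ^ k) = 0 := pow_eq_zero_of_le hk1 h4
    have h6 : (g : Matrix (Fin m) (Fin m) F) ^ (p ^ k) = 1 := by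
      rw [sub_pow_char_pow_of_commute _ _ (Commute.one_right _), one_pow, sub_eq_zero] at h5
      exact h5
    have h7 : g ^ (p ^ k) = 1 := by
      apply Units.ext
      rw [Units.val_pow_eq_pow_val, h6]; rfl
    have h8 : orderOf g ∣ p ^ k := orderOf_dvd_of_pow_eq_one h7
    exact lt_of_le_of_lt (Nat.le_of_dvd (pow_pos hp.pos _) h8) hk2
  · have hnil : IsNilpotent (shift F m) := ⟨m, shift_pow_eq_zero F m m le_rfl⟩
    have hu : IsUnit (1 + shift F m) := hnil.isUnit_one_add
    have hpow : ∀ e : ℕ, (hu.unit ^ (p ^ e) : Matrix.GeneralLinearGroup (Fin m) F) = 1 ↔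
        (shift F m) ^ (p ^ e) = 0 := by
      intro e
      rw [Units.ext_iff, Units.val_pow_eq_pow_val, IsUnit.unit_spec,
        add_pow_char_pow_of_commute _ _ (Commute.one_left _), one_pow]
      simp
    have h8 : orderOf hu.unit ∣ p ^ k :=
      orderOf_dvd_of_pow_eq_one ((hpow k).2 (shift_pow_eq_zero F m _ hk1))
    obtain ⟨j, -, hj⟩ := (Nat.dvd_prime_pow hp).1 h8
    refine ⟨hu.unit, ⟨j, hj⟩, ?_⟩
    by_contra hlt
    push Not at hlt
    rw [hj] at hlt
    have h9 : hu.unit ^ (p ^ j) = 1 := by rw [← hj]; exact pow_orderOf_eq_one _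
    exact shift_pow_ne_zero F m _ hlt ((hpow j).1 h9)

end Cfsg.Agent.S2368
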