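import Cfsg.Statements.S2379
import Cfsg.Agent.Lib.Helper38.HomoSL

set_option autoImplicit false
open Cfsg
open Cfsg.Agent.Lib.Helper38.Homo

namespace Cfsg.Agent.S2379

/-- Sylow subgroups of `SL_n(q)` for large primes. Let `F` be a field with `q` elements and `r` a prime with `r > n` and `r ∤ q` (so `r` does not divide the order `n!` of the Weyl group). Let `d` be the multiplicative order of `q` modulo `r`, `a` the number of integers `i` with `2 ≤ i ≤ n` divisible by `d` (the degrees of the Weyl group are `2, …, n`), and `m` the `r`-part of the value at `q` of the `d`-th cyclotomic polynomial. Then every Sylow `r`-subgroup of `SL_n(q)` is a direct product of `a` cyclic groups of order `m`. -/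
theorem result {F : Type*} [Field F] [Fintype F] {q : ℕ} (hq : Fintype.card F = q) (n : ℕ)
    (r : ℕ) [Fact r.Prime] (hrn : n < r) (hrq : ¬ r ∣ q) (P : Sylow r (Matrix.SpecialLinearGroup (Fin n) F)) :
    Nonempty (↥(P : Subgroup (Matrix.SpecialLinearGroup (Fin n) F)) ≃*
      (Fin ((Finset.Icc 2 n).filter (fun i => orderOf (q : ZMod r) ∣ i)).card →
        Multiplicative (ZMod (r ^ padicValNat r ((Polynomial.cyclotomic (orderOf (q : ZMod r)) ℤ).eval (q : ℤ)).natAbs)))) := by
  classical
  subst hq
  set q := Fintype.card F with hq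
  have hr : r.Prime := Fact.out
  have hq2 : 2 ≤ q := Fintype.one_lt_card
  rw [val_cyclotomic hq2 hrq]
  set d := orderOf (q : ZMod r) with hd
  set v := padicValNat r (q ^ d - 1) with hv
  have hd0 : 0 < d := orderOf_pos' hrq
  have : NeZero (r ^ v) := ⟨(pow_pos hr.pos _).ne'⟩
  rcases Nat.eq_zero_or_pos n with rfl | hn0
  · -- trivial group
    have hc : ((Finset.Icc 2 0).filter (fun i => d ∣ i)).card = 0 := by simp
    rw [hc]
    apply sylow_equiv_of_injective P (1 : (Fin 0 → Multiplicative (ZMod (r ^ v))) →* _)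
      (Function.injective_of_subsingleton _)
    rw [card_pi_zmod, pow_zero]
    have : Nat.card (Matrix.SpecialLinearGroup (Fin 0) F) = 1 := Nat.card_unique
    rw [this]; simp
  have : Nonempty (Fin n) := ⟨⟨0, hn0⟩⟩
  have hGL := Cfsg.Agent.Lib.Helper5.card_GL_eq_card_SL_mul_card_units (n := Fin n) (F := F)
  have hu : Nat.card Fˣ = q - 1 := by
    rw [Nat.card_eq_fintype_card, Fintype.card_units]
  have hfac : (n / d) * v =
      (Nat.card (Matrix.SpecialLinearGroup (Fin n) F)).factorization r + padicValNat r (q - 1) := by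
    rw [← factorization_card_GL hq2 hrq hrn, hq, ← Matrix.card_GL_field, hGL, hu,
      Nat.factorization_mul Nat.card_pos.ne' (by omega), Finsupp.add_apply,
      Nat.factorization_def (q - 1) hr]
  rcases Nat.lt_or_ge 1 d with hd1 | hd1
  · -- `d > 1`
    have hrq1 : ¬ r ∣ q - 1 := by
      intro h
      have h2 := (dvd_pow_sub_one_iff (r := r) (q := q) (by omega) 1).1 (by simpa using h)
      rw [← hd] at h2
      exact absurd (Nat.le_of_dvd one_pos h2) (not_le.2 hd1)
    rw [padicValNat.eq_zero_of_not_dvd hrq1, add_zero] at hfac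
    have hc : ((Finset.Icc 2 n).filter (fun i => d ∣ i)).card = n / d := by
      rw [← Nat.Ioc_filter_dvd_card_eq_div]
      congr 1
      ext x
      simp only [Finset.mem_filter, Finset.mem_Icc, Finset.mem_Ioc]
      constructor
      · rintro ⟨⟨h1, h2⟩, h3⟩
        exact ⟨⟨by omega, h2⟩, h3⟩
      · rintro ⟨⟨h1, h2⟩, h3⟩
        refine ⟨⟨?_, h2⟩, h3⟩
        have := Nat.le_of_dvd h1 h3
        omega
    rw [hc]
    obtain ⟨φ, hφ⟩ : ∃ φ : (Fin (n / d) → Multiplicative (ZMod (r ^ v))) →* GL (Fin n) F,
      Function.Injective φ := exists_homocyclic_GL rfl n r hrq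
    have hdet : ∀ h, Matrix.GeneralLinearGroup.det (φ h) = 1 := by
      intro h
      rw [← orderOf_eq_one_iff]
      have h1 : orderOf (Matrix.GeneralLinearGroup.det (φ h)) ∣ (r ^ v) ^ (n / d) := by
        have h0 := (orderOf_map_dvd (Matrix.GeneralLinearGroup.det.comp φ) h).trans
          (orderOf_dvd_natCard h)
        rwa [card_pi_zmod] at h0
      have h2 : orderOf (Matrix.GeneralLinearGroup.det (φ h)) ∣ q - 1 := by
        rw [← hu]; exact orderOf_dvd_natCard _
      have hcop : Nat.Coprime ((r ^ v) ^ (n / d)) (q - 1) :=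
        Nat.Coprime.pow_left _ (Nat.Coprime.pow_left _ ((Nat.Prime.coprime_iff_not_dvd hr).2 hrq1))
      exact Nat.Coprime.eq_one_of_dvd (Nat.Coprime.coprime_dvd_left h1 hcop) h2
    obtain ⟨ψ, hψ⟩ := lift_SL φ hφ hdet
    apply sylow_equiv_of_injective P ψ hψ
    rw [card_pi_zmod, ← hfac, ← pow_mul, mul_comm]
  · -- `d = 1`
    have hd1' : d = 1 := by omega
    have hv' : v = padicValNat r (q - 1) := by rw [hv, hd1', pow_one]
    obtain ⟨k, rfl⟩ : ∃ k, n = k + 1 := ⟨n - 1, by omega⟩
    rw [hd1', Nat.div_one, ← hv'] at hfac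
    have hfac' : (Nat.card (Matrix.SpecialLinearGroup (Fin (k + 1)) F)).factorization r = k * v := by
      have : (k + 1) * v = k * v + v := by ring
      omega
    have hc : ((Finset.Icc 2 (k + 1)).filter (fun i => d ∣ i)).card = k := by
      rw [hd1']
      simp
    rw [hc]
    have hex := exists_cyclic_embedding Fˣ r
    rw [hu, Nat.factorization_def _ hr, ← hv'] at hex
    obtain ⟨f, hf⟩ := hex
    obtain ⟨ψ, hψ⟩ := exists_diag_SL (F := F) k
    apply sylow_equiv_of_injective P (ψ.comp (MonoidHom.piMap fun _ => f)) (hψ.comp ?_)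
    · rw [card_pi_zmod, hfac', ← pow_mul, mul_comm]
    · intro s t hst
      funext i
      exact hf (congrFun hst i)

end Cfsg.Agent.S2379
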