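import Cfsg.Statements.S2381
import Cfsg.Agent.Lib.Helper38.HomoSp
import Cfsg.Agent.Lib.Helper5.SpOrder

set_option autoImplicit false
open Cfsg

namespace Cfsg.Agent.S2381

lemma count_shift (n d : ℕ) :
    ((Finset.Icc 1 n).filter (fun i => d ∣ 2 * i)).card =
      ((Finset.range n).filter (fun i => d ∣ 2 * (i + 1))).card := by
  symm
  apply Finset.card_nbij' (fun i => i + 1) (fun i => i - 1)
  · intro i hi
    simp only [Finset.coe_filter, Finset.mem_range, Set.mem_ofPred_eq, Finset.mem_Icc] at hi ⊢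
    exact ⟨⟨by omega, by omega⟩, hi.2⟩
  · intro i hi
    simp only [Finset.coe_filter, Finset.mem_range, Set.mem_ofPred_eq, Finset.mem_Icc] at hi ⊢
    have : i - 1 + 1 = i := by omega
    rw [this]
    exact ⟨by omega, hi.2⟩
  · intro i _
    simp
  · intro i hi
    simp only [Finset.coe_filter, Set.mem_ofPred_eq, Finset.mem_Icc] at hi
    show i - 1 + 1 = i
    omega

lemma count_odd (n d : ℕ) (hd : Odd d) :
    ((Finset.range n).filter (fun i => d ∣ 2 * (i + 1))).card = n / d := by
  rw [← Nat.card_multiples n d]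
  congr 1
  apply Finset.filter_congr
  intro i _
  exact Nat.Coprime.dvd_mul_left (Nat.Coprime.symm (Nat.coprime_two_left.2 hd))

lemma count_even (n e : ℕ) (he : 0 < e) :
    ((Finset.range n).filter (fun i => 2 * e ∣ 2 * (i + 1))).card = (n + n) / (2 * e) := by
  have h1 : (n + n) / (2 * e) = n / e := by
    rw [← two_mul, Nat.mul_div_mul_left _ _ (by norm_num)]
  rw [h1, ← Nat.card_multiples n e]
  congr 1
  apply Finset.filter_congr
  intro i _
  exact Nat.mul_dvd_mul_iff_left (by norm_num)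

/-- Sylow subgroups of `Sp_{2n}(q)` for large primes. Let `F` be a field with `q` elements and `r` an odd prime with `r > n` and `r ∤ q` (so `r` does not divide the order `2^n n!` of the Weyl group). Let `d` be the multiplicative order of `q` modulo `r`, `a` the number of `i` with `1 ≤ i ≤ n` and `d ∣ 2i` (the degrees being `2, 4, …, 2n`), and `m` the `r`-part of the value at `q` of the `d`-th cyclotomic polynomial. Then every Sylow `r`-subgroup of the symplectic group `Sp_{2n}(q)` is a direct product of `a` cyclic groups of order `m`. -/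
theorem result {F : Type*} [Field F] [Fintype F] {q : ℕ} (hq : Fintype.card F = q) (n : ℕ)
    (r : ℕ) [Fact r.Prime] (hr2 : r ≠ 2) (hrn : n < r) (hrq : ¬ r ∣ q) (P : Sylow r ↥(Matrix.symplecticGroup (Fin n) F)) :
    Nonempty (↥(P : Subgroup ↥(Matrix.symplecticGroup (Fin n) F)) ≃*
      (Fin ((Finset.Icc 1 n).filter (fun i => orderOf (q : ZMod r) ∣ 2 * i)).card →
        Multiplicative (ZMod (r ^ padicValNat r ((Polynomial.cyclotomic (orderOf (q : ZMod r)) ℤ).eval (q : ℤ)).natAbs)))) := by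
  have hq2 : 2 ≤ q := by
    rw [← hq]; exact Fintype.one_lt_card
  have hodd : Odd r := (Fact.out : r.Prime).odd_of_ne_two hr2
  rw [Cfsg.Agent.Lib.Helper38.Homo.val_cyclotomic hq2 hrq, count_shift]
  have : NeZero (r ^ padicValNat r (q ^ orderOf (q : ZMod r) - 1)) :=
    ⟨(pow_pos (Fact.out : r.Prime).pos _).ne'⟩
  have hSp := Cfsg.Agent.Lib.Helper38.Homo.factorization_card_Sp hq2 hrq hodd hrn
  have hcSp := Cfsg.Agent.Lib.Helper5.card_symplecticGroup (F := F) n
  rw [hq] at hcSp
  rw [← hcSp] at hSp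
  have hd0 : 0 < orderOf (q : ZMod r) := Cfsg.Agent.Lib.Helper38.Homo.orderOf_pos' hrq
  rcases Nat.even_or_odd (orderOf (q : ZMod r)) with hev | hod
  · obtain ⟨e, he⟩ := hev
    have he2 : orderOf (q : ZMod r) = 2 * e := by omega
    have hcount : ((Finset.range n).filter (fun i => orderOf (q : ZMod r) ∣ 2 * (i + 1))).card =
        (n + n) / orderOf (q : ZMod r) := by
      rw [he2]; exact count_even n e (by omega)
    rw [hcount] at hSp ⊢
    obtain ⟨φ, hφ⟩ := Cfsg.Agent.Lib.Helper38.Homo.exists_homocyclic_GL hq (n + n) r hrq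
    obtain ⟨ψ, hψ⟩ := Cfsg.Agent.Lib.Helper38.Homo.exists_Sp_to_GL (F := F) n
    have hGL : (Nat.card (Matrix.GeneralLinearGroup (Fin (n + n)) F)).factorization r =
        ((n + n) / orderOf (q : ZMod r)) * padicValNat r (q ^ orderOf (q : ZMod r) - 1) := by
      rw [Matrix.card_GL_field, hq]
      apply Cfsg.Agent.Lib.Helper38.Homo.factorization_card_GL' hq2 hrq hodd
      rw [he2]
      have he0 : 1 ≤ e := by omega
      have h5 : 2 * 1 * r ≤ 2 * e * r :=
        Nat.mul_le_mul_right r (Nat.mul_le_mul_left 2 he0)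
      omega
    apply Cfsg.Agent.Lib.Helper38.Homo.sylow_equiv_of_two_injective P ψ hψ φ hφ
    · rw [Cfsg.Agent.Lib.Helper38.Homo.card_pi_zmod, hGL, ← pow_mul, mul_comm]
    · rw [hSp, hGL]
  · rw [count_odd n _ hod] at hSp ⊢
    obtain ⟨φ, hφ⟩ := Cfsg.Agent.Lib.Helper38.Homo.exists_homocyclic_GL hq n r hrq
    obtain ⟨ψ, hψ⟩ := Cfsg.Agent.Lib.Helper38.Homo.exists_GL_to_Sp (F := F) n
    apply Cfsg.Agent.Lib.Helper38.Homo.sylow_equiv_of_injective P (ψ.comp φ) (hψ.comp hφ)
    rw [Cfsg.Agent.Lib.Helper38.Homo.card_pi_zmod, hSp, ← pow_mul, mul_comm]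

end Cfsg.Agent.S2381
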