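import Cfsg.Statements.S2569
import Cfsg.Agent.Lib.Helper43.SemisimpleDet

set_option autoImplicit false
open Cfsg

namespace Cfsg.Agent.S2569

open Cfsg.Agent.Lib.Helper43 Module Matrix in
/-- In GL_n over a finite field of characteristic p, the conjugacy class of a semisimple element (an element of order prime to p) under the special linear group is its whole GL-conjugacy class: for every such x and every invertible g there is h of determinant one with h x h⁻¹ = g x g⁻¹. -/
theorem result {F : Type*} [Field F] [Fintype F] {p : ℕ} [Fact p.Prime] [CharP F p] {n : ℕ} (x g : GL (Fin n) F) (hx : (orderOf x).Coprime p) : ∃ h : GL (Fin n) F, (h : Matrix (Fin n) (Fin n) F).det = 1 ∧ h * x * h⁻¹ = g * x * g⁻¹ := by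
  classical
  rcases Nat.eq_zero_or_pos n with h0 | hpos
  · subst h0
    exact ⟨g, Matrix.det_isEmpty, rfl⟩
  have : Nonempty (Fin n) := ⟨⟨0, hpos⟩⟩
  have : Nontrivial (Fin n → F) := inferInstance
  let f : Module.End F (Fin n → F) := Matrix.toLin' (x : Matrix (Fin n) (Fin n) F)
  have hfk : f ^ (orderOf x) = 1 := by
    have h1 : (x : Matrix (Fin n) (Fin n) F) ^ (orderOf x) = 1 := by
      rw [← Units.val_pow_eq_pow_val, pow_orderOf_eq_one]; rfl
    show (Matrix.toLin' (x : Matrix (Fin n) (Fin n) F)) ^ (orderOf x) = 1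
    rw [← Matrix.toLin'_pow, h1, Matrix.toLin'_one]; rfl
  have hk : ((orderOf x : ℕ) : F) ≠ 0 := by
    rw [Ne, CharP.cast_eq_zero_iff F p]
    intro hdvd
    have h1 : p ∣ Nat.gcd (orderOf x) p := Nat.dvd_gcd hdvd dvd_rfl
    rw [hx] at h1
    exact (Fact.out : p.Prime).one_lt.ne' (Nat.dvd_one.1 h1)
  have hss := isSemisimple_of_pow_eq_one f _ hk hfk
  have hdetg : (g : Matrix (Fin n) (Fin n) F).det ≠ 0 := Matrix.GeneralLinearGroup.det_ne_zero g
  obtain ⟨c, hc1, hc2⟩ := exists_commuting_det f hss ((g : Matrix (Fin n) (Fin n) F).det)⁻¹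
  let C : Matrix (Fin n) (Fin n) F := LinearMap.toMatrix' c
  have hC : C.det = ((g : Matrix (Fin n) (Fin n) F).det)⁻¹ := by rw [LinearMap.det_toMatrix', hc2]
  let cGL : GL (Fin n) F := Matrix.GeneralLinearGroup.mkOfDetNeZero C (by rw [hC]; exact inv_ne_zero hdetg)
  have hcomm : cGL * x = x * cGL := by
    apply Units.ext
    show C * (x : Matrix (Fin n) (Fin n) F) = (x : Matrix (Fin n) (Fin n) F) * C
    apply Matrix.toLin'.injective
    rw [Matrix.toLin'_mul, Matrix.toLin'_mul, Matrix.toLin'_toMatrix']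
    apply LinearMap.ext
    intro v
    exact hc1 v
  refine ⟨g * cGL, ?_, ?_⟩
  · show ((g : Matrix (Fin n) (Fin n) F) * C).det = 1
    rw [Matrix.det_mul, hC, mul_inv_cancel₀ hdetg]
  · rw [_root_.mul_inv_rev, mul_assoc g, hcomm]
    group

end Cfsg.Agent.S2569
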