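import Cfsg.Statements.S2388
import Cfsg.Agent.Lib.Helper45.SimSS
import Cfsg.Agent.S2569

set_option autoImplicit false
open Cfsg

namespace Cfsg.Agent.S2388

open Cfsg.Agent.Lib.Helper45 Polynomial

theorem typ_eq_of_charpoly_eq {F : Type*} [Field F] {n : ℕ} {A B : Matrix (Fin n) (Fin n) F}
    (hA : typ A ∈ ssTypes F n) (hB : typ B ∈ ssTypes F n) (hc : A.charpoly = B.charpoly) :
    typ A = typ B := by
  have h1 := (hasType_typ A).charpoly_of_mem_ssTypes hA
  have h2 := (hasType_typ B).charpoly_of_mem_ssTypes hB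
  have h3 : ssEquiv F n ⟨typ A, hA⟩ = ssEquiv F n ⟨typ B, hB⟩ := by
    apply Subtype.ext
    show ((typ A).map Prod.fst).prod = ((typ B).map Prod.fst).prod
    rw [← h1, ← h2, hc]
  exact congrArg Subtype.val ((ssEquiv F n).injective h3)

/-- In `SL_n(q)`, `q` a power of the prime `p`, two elements of order prime to `p` with the same characteristic polynomial are conjugate in `SL_n(q)` (not merely in `GL_n`). -/
theorem result {F : Type*} [Field F] [Fintype F] (p : ℕ) [Fact p.Prime] [CharP F p] (n : ℕ)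
    (g h : Matrix.SpecialLinearGroup (Fin n) F) (hg : (orderOf g).Coprime p) (hh : (orderOf h).Coprime p)
    (hc : (g : Matrix (Fin n) (Fin n) F).charpoly = (h : Matrix (Fin n) (Fin n) F).charpoly) : IsConj g h := by
  have hA1 : (g : Matrix (Fin n) (Fin n) F) ^ orderOf g = 1 := by
    rw [← Matrix.SpecialLinearGroup.coe_pow, pow_orderOf_eq_one]
    rfl
  have hB1 : (h : Matrix (Fin n) (Fin n) F) ^ orderOf h = 1 := by
    rw [← Matrix.SpecialLinearGroup.coe_pow, pow_orderOf_eq_one]
    rfl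
  have hA := typ_mem_ssTypes_of_coprime p hg hA1
  have hB := typ_mem_ssTypes_of_coprime p hh hB1
  simp only [Fintype.card_fin] at hA hB
  have ht := typ_eq_of_charpoly_eq hA hB hc
  have h1 := hasType_typ (g : Matrix (Fin n) (Fin n) F)
  rw [ht] at h1
  obtain ⟨P, hP⟩ := h1.conj (hasType_typ (h : Matrix (Fin n) (Fin n) F))
  let x : GL (Fin n) F := Matrix.SpecialLinearGroup.toGL g
  have hx : (orderOf x).Coprime p := by
    have : orderOf x = orderOf g :=
      orderOf_injective (Matrix.SpecialLinearGroup.toGL) Matrix.SpecialLinearGroup.toGL_injective g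
    rw [this]
    exact hg
  obtain ⟨k, hk1, hk2⟩ := Cfsg.Agent.S2569.result x P hx
  rw [isConj_iff]
  let c : Matrix.SpecialLinearGroup (Fin n) F := ⟨(k : Matrix (Fin n) (Fin n) F), hk1⟩
  refine ⟨c, ?_⟩
  rw [mul_inv_eq_iff_eq_mul]
  apply Subtype.ext
  show (k : Matrix (Fin n) (Fin n) F) * (g : Matrix (Fin n) (Fin n) F)
    = (h : Matrix (Fin n) (Fin n) F) * (k : Matrix (Fin n) (Fin n) F)
  have h3 : k * x = (P * x * P⁻¹) * k := by
    rw [← hk2]; group
  have h4 : ((P * x * P⁻¹ : GL (Fin n) F) : Matrix (Fin n) (Fin n) F)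
      = (h : Matrix (Fin n) (Fin n) F) := by
    have h5 : ((P * x : GL (Fin n) F) : Matrix (Fin n) (Fin n) F)
        = (h : Matrix (Fin n) (Fin n) F) * (P : Matrix (Fin n) (Fin n) F) := hP
    rw [Units.val_mul, h5, mul_assoc, ← Units.val_mul]
    simp
  have h6 := congrArg Units.val h3
  rw [Units.val_mul, Units.val_mul, h4] at h6
  exact h6

end Cfsg.Agent.S2388
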