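import Cfsg.Statements.S2384
import Cfsg.Agent.Lib.Helper45.MonicCount
import Cfsg.Agent.S2388

set_option autoImplicit false
open Cfsg

namespace Cfsg.Agent.S2384

open Cfsg.Agent.Lib.Helper45 Polynomial

variable {F : Type*} [Field F] {n : ℕ}

theorem charpoly_eq_of_isConj {g h : Matrix.SpecialLinearGroup (Fin n) F} (hgh : IsConj g h) :
    (g : Matrix (Fin n) (Fin n) F).charpoly = (h : Matrix (Fin n) (Fin n) F).charpoly := by
  obtain ⟨c, hc⟩ := isConj_iff.1 hgh
  have h1 := Matrix.charpoly_units_conj (Matrix.SpecialLinearGroup.toGL c)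
    (g : Matrix (Fin n) (Fin n) F)
  rw [← h1, ← hc]
  congr 1
  have h2 : ((Matrix.SpecialLinearGroup.toGL c : GL (Fin n) F) : Matrix (Fin n) (Fin n) F)⁻¹
      = ((c⁻¹ : Matrix.SpecialLinearGroup (Fin n) F) : Matrix (Fin n) (Fin n) F) := by
    apply Matrix.inv_eq_right_inv
    show (c : Matrix (Fin n) (Fin n) F) * _ = 1
    rw [← Matrix.SpecialLinearGroup.coe_mul]
    simp
  rw [h2]
  rfl

/-- the characteristic polynomial of a class. -/
noncomputable def cchar (C : ConjClasses (Matrix.SpecialLinearGroup (Fin n) F)) : F[X] :=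
  Quotient.liftOn' C (fun g => (g : Matrix (Fin n) (Fin n) F).charpoly)
    (fun _ _ hgh => charpoly_eq_of_isConj hgh)

theorem cchar_mk (g : Matrix.SpecialLinearGroup (Fin n) F) :
    cchar (ConjClasses.mk g) = (g : Matrix (Fin n) (Fin n) F).charpoly := rfl

theorem coeff_zero_charpoly (g : Matrix.SpecialLinearGroup (Fin n) F) :
    (g : Matrix (Fin n) (Fin n) F).charpoly.coeff 0 = (-1) ^ n := by
  have h1 := Matrix.det_eq_sign_charpoly_coeff (g : Matrix (Fin n) (Fin n) F)
  rw [g.2, Fintype.card_fin] at h1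
  have h2 : ((-1 : F) ^ n) * (-1) ^ n = 1 := by
    rw [← mul_pow]; simp
  calc (g : Matrix (Fin n) (Fin n) F).charpoly.coeff 0
      = ((-1 : F) ^ n * (-1) ^ n) * (g : Matrix (Fin n) (Fin n) F).charpoly.coeff 0 := by
        rw [h2, one_mul]
    _ = (-1) ^ n * ((-1) ^ n * (g : Matrix (Fin n) (Fin n) F).charpoly.coeff 0) := by ring
    _ = (-1) ^ n := by rw [← h1, mul_one]

/-- In `SL_n(q)`, `q` a power of the prime `p`, the number of conjugacy classes of elements of order prime to `p` (the semisimple classes) is `q^(n-1)`. -/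
theorem result {F : Type*} [Field F] [Fintype F] {q : ℕ} (hq : Fintype.card F = q) (p : ℕ) [Fact p.Prime] [CharP F p] (n : ℕ) (hn : 1 ≤ n) :
    Nat.card {c : ConjClasses (Matrix.SpecialLinearGroup (Fin n) F) //
      ∃ g : Matrix.SpecialLinearGroup (Fin n) F, ConjClasses.mk g = c ∧ (orderOf g).Coprime p} = q ^ (n - 1) := by
  have hbij : Nat.card {c : ConjClasses (Matrix.SpecialLinearGroup (Fin n) F) //
      ∃ g : Matrix.SpecialLinearGroup (Fin n) F, ConjClasses.mk g = c ∧ (orderOf g).Coprime p}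
      = Nat.card {f : F[X] // f.Monic ∧ f.natDegree = n ∧ f.coeff 0 = (-1) ^ n} := by
    apply Nat.card_eq_of_bijective
      (fun c : {c : ConjClasses (Matrix.SpecialLinearGroup (Fin n) F) //
        ∃ g : Matrix.SpecialLinearGroup (Fin n) F, ConjClasses.mk g = c ∧ (orderOf g).Coprime p} =>
        (⟨cchar c.1, by
          obtain ⟨g, hg, _⟩ := c.2
          rw [← hg, cchar_mk]
          refine ⟨Matrix.charpoly_monic _, ?_, coeff_zero_charpoly g⟩
          rw [Matrix.charpoly_natDegree_eq_dim, Fintype.card_fin]⟩ :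
          {f : F[X] // f.Monic ∧ f.natDegree = n ∧ f.coeff 0 = (-1) ^ n}))
    constructor
    · rintro ⟨c, g, rfl, hg⟩ ⟨d, h, rfl, hh⟩ hcd
      apply Subtype.ext
      have h1 : (g : Matrix (Fin n) (Fin n) F).charpoly = (h : Matrix (Fin n) (Fin n) F).charpoly :=
        congrArg Subtype.val hcd
      exact ConjClasses.mk_eq_mk_iff_isConj.2 (Cfsg.Agent.S2388.result p n g h hg hh h1)
    · rintro ⟨f, hf1, hf2, hf3⟩
      have hf : f ∈ ssPolys F n := ⟨hf1, hf2, by rw [hf3]; exact pow_ne_zero _ (by simp)⟩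
      let T := (ssEquiv F n).symm ⟨f, hf⟩
      obtain ⟨g, hg, hgT⟩ := exists_GL_of_mem_ssTypes (n := Fin n) p (T := T.1)
        (by simp)
      have hch : (g : Matrix (Fin n) (Fin n) F).charpoly = f := by
        rw [hgT.charpoly_of_mem_ssTypes T.2]
        exact congrArg Subtype.val ((ssEquiv F n).apply_symm_apply ⟨f, hf⟩)
      have hdet : (g : Matrix (Fin n) (Fin n) F).det = 1 := by
        rw [Matrix.det_eq_sign_charpoly_coeff, hch, hf3, Fintype.card_fin, ← mul_pow]
        simp
      let s : Matrix.SpecialLinearGroup (Fin n) F := ⟨(g : Matrix (Fin n) (Fin n) F), hdet⟩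
      have hs : Matrix.SpecialLinearGroup.toGL s = g := Units.ext rfl
      have hord : orderOf s = orderOf g := by
        rw [← hs]
        exact (orderOf_injective (Matrix.SpecialLinearGroup.toGL)
          Matrix.SpecialLinearGroup.toGL_injective s).symm
      refine ⟨⟨ConjClasses.mk s, s, rfl, by rw [hord]; exact hg⟩, ?_⟩
      apply Subtype.ext
      exact hch
  rw [hbij]
  obtain ⟨k, rfl⟩ : ∃ k, n = k + 1 := ⟨n - 1, by omega⟩
  have h1 := card_monic_cond (F := F) k (fun a => a = (-1) ^ (k + 1))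
  rw [h1, hq]
  simp

end Cfsg.Agent.S2384
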