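import Cfsg.Statements.S2387
import Cfsg.Agent.Lib.Helper45.SimSS
import Cfsg.Agent.Lib.Helper45.MonicCount

set_option autoImplicit false
open Cfsg

namespace Cfsg.Agent.S2387

open Cfsg.Agent.Lib.Helper45 Polynomial

/-- In `GL_n(q)` with `n ≥ 1`, `q` a power of the prime `p`, the number of conjugacy classes of elements of order prime to `p` (diagonalisable over the algebraic closure; determined by the characteristic polynomial) is `(q - 1) q^(n-1)`. -/
theorem result {F : Type*} [Field F] [Fintype F] {q : ℕ} (hq : Fintype.card F = q) (p : ℕ) [Fact p.Prime] [CharP F p] (n : ℕ) (hn : 1 ≤ n) :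
    Nat.card {c : ConjClasses (GL (Fin n) F) // ∃ g : GL (Fin n) F, ConjClasses.mk g = c ∧ (orderOf g).Coprime p} = (q - 1) * q ^ (n - 1) := by
  have hp : p.Prime := Fact.out
  have e0 : {c : ConjClasses (GL (Fin n) F) // ∃ g : GL (Fin n) F, ConjClasses.mk g = c ∧ (orderOf g).Coprime p}
      ≃ {c : ConjClasses (GL (Fin n) F) // ∃ g : GL (Fin n) F, (orderOf g).Coprime p ∧ ConjClasses.mk g = c} :=
    Equiv.subtypeEquivRight (fun C => exists_congr (fun g => and_comm))
  rw [Nat.card_congr e0, card_classes_eq (fun g : GL (Fin n) F => (orderOf g).Coprime p)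
    (ssTypes F n), Nat.card_congr (ssEquiv F n)]
  · obtain ⟨k, rfl⟩ : ∃ k, n = k + 1 := ⟨n - 1, by omega⟩
    have h1 := card_monic_cond (F := F) k (fun a => a ≠ 0)
    have h2 : Nat.card {a : F // a ≠ 0} = q - 1 := by
      classical
      rw [Nat.card_eq_fintype_card, Fintype.card_subtype_compl, Fintype.card_subtype_eq, hq]
    rw [h2, hq] at h1
    exact h1
  · intro g hg
    have h1 : (g : Matrix (Fin n) (Fin n) F) ^ (orderOf g) = 1 := by
      rw [← Units.val_pow_eq_pow_val, pow_orderOf_eq_one]
      rfl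
    have h3 := typ_mem_ssTypes_of_coprime p hg h1
    simpa using h3
  · intro T hT
    obtain ⟨g, hg, hgT⟩ := exists_GL_of_mem_ssTypes (n := Fin n) p (T := T) (by simpa using hT)
    exact ⟨g, hg, hgT.typ_eq⟩

end Cfsg.Agent.S2387
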