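import Cfsg.Statements.S2391

set_option autoImplicit false
open Cfsg

namespace Cfsg.Agent.S2391

open Matrix

variable {F : Type*} [Field F] {n : ℕ}

/-- iterated fixed points -/
noncomputable def W (U : Subgroup (Matrix.SpecialLinearGroup (Fin n) F)) :
    ℕ → Submodule F (Fin n → F)
  | 0 => ⊥
  | (j + 1) => ⨅ u : U, (W U j).comap (Matrix.mulVecLin (u.1 : Matrix (Fin n) (Fin n) F) - LinearMap.id)

theorem mem_W_succ (U : Subgroup (Matrix.SpecialLinearGroup (Fin n) F)) (j : ℕ) (v : Fin n → F) :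
    v ∈ W U (j + 1) ↔ ∀ u ∈ U, (u : Matrix (Fin n) (Fin n) F).mulVec v - v ∈ W U j := by
  simp [W, Submodule.mem_iInf]

theorem W_le_succ (U : Subgroup (Matrix.SpecialLinearGroup (Fin n) F)) (j : ℕ) :
    W U j ≤ W U (j + 1) := by
  induction j with
  | zero => exact bot_le
  | succ j ih =>
    intro v hv
    rw [mem_W_succ] at hv ⊢
    exact fun u hu => ih (hv u hu)

theorem W_mono (U : Subgroup (Matrix.SpecialLinearGroup (Fin n) F)) : Monotone (W U) :=
  monotone_nat_of_le_succ (W_le_succ U)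

theorem W_inv (U : Subgroup (Matrix.SpecialLinearGroup (Fin n) F)) (j : ℕ) (u) (hu : u ∈ U)
    (v : Fin n → F) (hv : v ∈ W U j) : (u : Matrix (Fin n) (Fin n) F).mulVec v ∈ W U j := by
  have h1 := (mem_W_succ U j v).mp (W_le_succ U j hv) u hu
  have := (W U j).add_mem h1 hv
  simpa using this

theorem W_norm (U : Subgroup (Matrix.SpecialLinearGroup (Fin n) F)) (j : ℕ) :
    ∀ g ∈ Subgroup.normalizer (U : Set (Matrix.SpecialLinearGroup (Fin n) F)),
    ∀ v ∈ W U j, (g : Matrix (Fin n) (Fin n) F).mulVec v ∈ W U j := by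
  induction j with
  | zero =>
    intro g _ v hv
    have : v = 0 := hv
    rw [this, Matrix.mulVec_zero]; exact Submodule.zero_mem _
  | succ j ih =>
    intro g hg v hv
    rw [mem_W_succ] at hv ⊢
    intro u hu
    have h1 : g⁻¹ * u * g ∈ U := by
      have := (Subgroup.mem_normalizer_iff.mp (inv_mem hg) u).mp hu
      simpa using this
    have h2 := ih g hg _ (hv _ h1)
    have h3 : (g : Matrix (Fin n) (Fin n) F).mulVec
        (((g⁻¹ * u * g : Matrix.SpecialLinearGroup (Fin n) F) : Matrix (Fin n) (Fin n) F).mulVec v - v)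
        = (u : Matrix (Fin n) (Fin n) F).mulVec ((g : Matrix (Fin n) (Fin n) F).mulVec v) -
          (g : Matrix (Fin n) (Fin n) F).mulVec v := by
      have e : g * (g⁻¹ * u * g) = u * g := by group
      rw [Matrix.mulVec_sub, Matrix.mulVec_mulVec, Matrix.mulVec_mulVec,
        ← Matrix.SpecialLinearGroup.coe_mul, ← Matrix.SpecialLinearGroup.coe_mul, e]
    rwa [h3] at h2

theorem W_map (U : Subgroup (Matrix.SpecialLinearGroup (Fin n) F)) (j : ℕ)
    (g) (hg : g ∈ Subgroup.normalizer (U : Set (Matrix.SpecialLinearGroup (Fin n) F))) :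
    (W U j).map (Matrix.mulVecLin (g : Matrix (Fin n) (Fin n) F)) = W U j := by
  apply le_antisymm
  · rintro _ ⟨v, hv, rfl⟩
    exact W_norm U j g hg v hv
  · intro v hv
    refine ⟨_, W_norm U j g⁻¹ (inv_mem hg) v hv, ?_⟩
    rw [Matrix.mulVecLin_apply, Matrix.mulVec_mulVec, ← Matrix.SpecialLinearGroup.coe_mul,
      mul_inv_cancel]
    simp

/-- relative fixed vector -/
theorem exists_fixed [Fintype F] (p : ℕ) [Fact p.Prime] [CharP F p]
    (U : Subgroup (Matrix.SpecialLinearGroup (Fin n) F)) (hU : IsPGroup p ↥U)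
    (M : Submodule F (Fin n → F)) (hM : ∀ u ∈ U, ∀ v ∈ M, (u : Matrix (Fin n) (Fin n) F).mulVec v ∈ M)
    (hne : M ≠ ⊤) : ∃ v, v ∉ M ∧ ∀ u ∈ U, (u : Matrix (Fin n) (Fin n) F).mulVec v - v ∈ M := by
  classical
  let φ : U → ((Fin n → F) ⧸ M) →ₗ[F] ((Fin n → F) ⧸ M) := fun u =>
    M.mapQ M (Matrix.mulVecLin (u.1 : Matrix (Fin n) (Fin n) F)) (fun v hv => hM u.1 u.2 v hv)
  let act : MulAction U ((Fin n → F) ⧸ M) :=
    { smul := fun u x => φ u x
      one_smul := by
        intro x
        induction x using Submodule.Quotient.induction_on with | _ v => ?_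
        show φ 1 (Submodule.Quotient.mk v) = _
        simp [φ]
      mul_smul := by
        intro a b x
        induction x using Submodule.Quotient.induction_on with | _ v => ?_
        show (Submodule.Quotient.mk (((a * b : U).1 : Matrix (Fin n) (Fin n) F).mulVec v) :
            (Fin n → F) ⧸ M) =
          Submodule.Quotient.mk ((a.1 : Matrix (Fin n) (Fin n) F).mulVec
            ((b.1 : Matrix (Fin n) (Fin n) F).mulVec v))
        rw [Matrix.mulVec_mulVec]; rfl }
  have hnt : Nontrivial ((Fin n → F) ⧸ M) := Submodule.Quotient.nontrivial_iff.mpr hne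
  have hdvd : p ∣ Nat.card ((Fin n → F) ⧸ M) := by
    rw [Module.natCard_eq_pow_finrank (K := F)]
    obtain ⟨k, -, hk⟩ := FiniteField.card F p
    rw [Nat.card_eq_fintype_card, hk]
    have h1 : 0 < Module.finrank F ((Fin n → F) ⧸ M) := Module.finrank_pos
    exact dvd_pow (dvd_pow_self p k.pos.ne') h1.ne'
  have h0 : (0 : (Fin n → F) ⧸ M) ∈ MulAction.fixedPoints U ((Fin n → F) ⧸ M) := by
    intro u
    show φ u 0 = 0
    simp
  obtain ⟨b, hb, hb0⟩ := hU.exists_fixed_point_of_prime_dvd_card_of_fixed_point _ hdvd h0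
  induction b using Submodule.Quotient.induction_on with | _ v => ?_
  refine ⟨v, ?_, ?_⟩
  · intro hv
    exact hb0 ((Submodule.Quotient.mk_eq_zero M).mpr hv).symm
  · intro u hu
    have := hb ⟨u, hu⟩
    have h2 : (Submodule.Quotient.mk ((u : Matrix (Fin n) (Fin n) F).mulVec v) :
        (Fin n → F) ⧸ M) = Submodule.Quotient.mk v := this
    exact (Submodule.Quotient.eq M).mp h2

theorem result {F : Type*} [Field F] [Fintype F] (p : ℕ) [Fact p.Prime] [CharP F p] (n : ℕ)
    (U : Subgroup (Matrix.SpecialLinearGroup (Fin n) F)) (hU : IsPGroup p ↥U) (hne : U ≠ ⊥) :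
    ∃ (k : ℕ) (V : Fin (k + 2) → Submodule F (Fin n → F)), 1 ≤ k ∧ StrictMono V ∧ V 0 = ⊥ ∧ V (Fin.last (k + 1)) = ⊤ ∧
      (∀ g ∈ Subgroup.normalizer (U : Set (Matrix.SpecialLinearGroup (Fin n) F)), ∀ i, (V i).map (Matrix.mulVecLin (g : Matrix (Fin n) (Fin n) F)) = V i) ∧
      (∀ u ∈ U, ∀ i : Fin (k + 1), ∀ v ∈ V i.succ, (u : Matrix (Fin n) (Fin n) F).mulVec v - v ∈ V (Fin.castSucc i)) := by
  classical
  have hstrict : ∀ j, W U j ≠ ⊤ → W U j < W U (j + 1) := by
    intro j hj
    obtain ⟨v, hv, hv2⟩ := exists_fixed p U hU (W U j) (fun u hu v hv => W_inv U j u hu v hv) hj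
    refine lt_of_le_of_ne (W_le_succ U j) ?_
    intro h
    apply hv
    rw [h, mem_W_succ]
    exact hv2
  have hrank : ∀ j, W U j = ⊤ ∨ j ≤ Module.finrank F (W U j) := by
    intro j
    induction j with
    | zero => right; exact Nat.zero_le _
    | succ j ih =>
      rcases ih with h | h
      · left
        exact top_le_iff.mp (h ▸ W_le_succ U j)
      · by_cases hj : W U j = ⊤
        · left
          exact top_le_iff.mp (hj ▸ W_le_succ U j)
        · right
          have := Submodule.finrank_lt_finrank_of_lt (hstrict j hj)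
          omega
  have hex : ∃ m, W U m = ⊤ := by
    refine ⟨n + 1, ?_⟩
    rcases hrank (n + 1) with h | h
    · exact h
    · have h1 := Submodule.finrank_le (W U (n + 1))
      rw [Module.finrank_fin_fun] at h1
      omega
  have hm := Nat.find_spec hex
  have hmin : ∀ j, j < Nat.find hex → W U j ≠ ⊤ := fun j hj => Nat.find_min hex hj
  have h1 : W U 1 ≠ ⊤ := by
    intro h
    apply hne
    rw [eq_bot_iff]
    intro u hu
    rw [Subgroup.mem_bot]
    apply Subtype.ext
    rw [Matrix.ext_iff_mulVec]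
    intro v
    have hv : v ∈ W U 1 := h ▸ Submodule.mem_top
    have h2 := (mem_W_succ U 0 v).mp hv u hu
    have h3 : (u : Matrix (Fin n) (Fin n) F).mulVec v - v = 0 := h2
    rw [Matrix.SpecialLinearGroup.coe_one, Matrix.one_mulVec]
    exact sub_eq_zero.mp h3
  have hm2 : 2 ≤ Nat.find hex := by
    by_contra hlt
    have hle : Nat.find hex ≤ 1 := by omega
    exact h1 (top_le_iff.mp (hm ▸ W_mono U hle))
  obtain ⟨k, hk⟩ : ∃ k, Nat.find hex = k + 2 := ⟨Nat.find hex - 2, by omega⟩
  refine ⟨k + 1, fun i => W U i, by omega, ?_, rfl, ?_, ?_, ?_⟩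
  · rw [Fin.strictMono_iff_lt_succ]
    intro i
    have := hstrict i (hmin i (by have := i.2; omega))
    simpa using this
  · show W U (k + 1 + 1) = ⊤
    rw [← hm, hk]
  · intro g hg i
    exact W_map U _ g hg
  · intro u hu i v hv
    exact (mem_W_succ U i v).mp (by simpa using hv) u hu

end Cfsg.Agent.S2391
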