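import Cfsg.Statements.S2392
import Cfsg.Agent.Lib.Helper11.Weights

set_option autoImplicit false
open scoped MatrixGroups
open Cfsg

namespace Cfsg.Agent.S2392

open Cfsg.Agent.Lib.Helper11.Weights Matrix

section aux

variable {F : Type*} [Field F] {ι : Type*} [Fintype ι] [DecidableEq ι]

/-- the transvection `1 + x θᵀ` -/
def tv (x θ : ι → F) (h : θ ⬝ᵥ x = 0) : Matrix.SpecialLinearGroup ι F :=
  ⟨1 + Matrix.vecMulVec x θ, by
    rw [Matrix.vecMulVec_eq Unit, Matrix.det_one_add_replicateCol_mul_replicateRow, h, add_zero]⟩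

theorem tv_val (x θ : ι → F) (h : θ ⬝ᵥ x = 0) :
    (tv x θ h : Matrix ι ι F) = 1 + Matrix.vecMulVec x θ := rfl

/-- kill the coordinate `i0` -/
def zc (i0 : ι) (φ : ι → F) : ι → F := fun j => if j = i0 then 0 else φ j

theorem zc_add (i0 : ι) (φ φ' : ι → F) : zc i0 (φ + φ') = zc i0 φ + zc i0 φ' := by
  funext j
  simp only [zc, Pi.add_apply]
  split_ifs <;> simp

theorem zc_dot (i0 : ι) (φ x : ι → F) (hx : x i0 = 0) : zc i0 φ ⬝ᵥ x = φ ⬝ᵥ x := by
  unfold dotProduct
  apply Finset.sum_congr rfl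
  intro j _
  simp only [zc]
  split_ifs with h
  · rw [h, hx]; simp
  · rfl

theorem zc_dot_single (i0 : ι) (φ : ι → F) : zc i0 φ ⬝ᵥ (Pi.single i0 1) = 0 := by
  rw [dotProduct_single, mul_one]
  simp [zc]

theorem zc_of_zero (i0 : ι) (θ : ι → F) (h : θ i0 = 0) : zc i0 θ = θ := by
  funext j
  simp only [zc]
  split_ifs with hj
  · rw [hj, h]
  · rfl

/-- the unipotent radical -/
def uu (i0 : ι) (φ : ι → F) : Matrix.SpecialLinearGroup ι F :=
  tv (Pi.single i0 1) (zc i0 φ) (zc_dot_single i0 φ)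

theorem uu_emb (i0 : ι) : Emb (uu (F := F) i0) := by
  constructor
  intro a b
  apply Subtype.ext
  rw [Matrix.SpecialLinearGroup.coe_mul]
  simp only [uu, tv_val]
  rw [add_mul, mul_add, mul_add, one_mul, mul_one, one_mul, Matrix.vecMulVec_mul_vecMulVec,
    zc_dot_single, zero_smul, Matrix.vecMulVec_zero, add_zero, zc_add, Matrix.vecMulVec_add]
  abel

theorem uu_move (i0 : ι) (x θ : ι → F) (hx : x i0 = 0) (hθ : θ i0 = 0) (h : θ ⬝ᵥ x = 0)
    (φ : ι → F) : uu i0 φ * tv x θ h = tv x θ h * uu i0 (φ + (φ ⬝ᵥ x) • θ) := by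
  apply Subtype.ext
  rw [Matrix.SpecialLinearGroup.coe_mul, Matrix.SpecialLinearGroup.coe_mul]
  simp only [uu, tv_val]
  have e1 : θ ⬝ᵥ (Pi.single i0 1 : ι → F) = 0 := by rw [dotProduct_single, hθ, zero_mul]
  have e2 : zc i0 (φ + (φ ⬝ᵥ x) • θ) = zc i0 φ + (φ ⬝ᵥ x) • θ := by
    rw [zc_add]
    congr 1
    apply zc_of_zero
    simp [hθ]
  rw [add_mul, mul_add, mul_add, one_mul, mul_one, one_mul, add_mul, mul_add, mul_add, one_mul,
    mul_one, one_mul, Matrix.vecMulVec_mul_vecMulVec, Matrix.vecMulVec_mul_vecMulVec, e1,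
    zero_smul, Matrix.vecMulVec_zero, add_zero, zc_dot i0 φ x hx, e2, Matrix.vecMulVec_add]
  abel

end aux

theorem addChar_sub {A L : Type*} [AddCommGroup A] [Field L] (ψ : AddChar A L) {a b : A}
    (h : ψ a = ψ b) : ψ (a - b) = 1 := by
  rw [AddChar.map_sub_eq_div, h, div_self (ψ.val_isUnit b).ne_zero]

/-- a third index -/
theorem exists_third {ι : Type*} [Fintype ι] (h : 3 ≤ Fintype.card ι) (a b : ι) :
    ∃ c, c ≠ a ∧ c ≠ b := by
  classical
  obtain ⟨x, y, z, hxy, hxz, hyz⟩ := Fintype.two_lt_card_iff.mp (by omega : 2 < Fintype.card ι)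
  by_cases hx : x ≠ a ∧ x ≠ b
  · exact ⟨x, hx⟩
  by_cases hy : y ≠ a ∧ y ≠ b
  · exact ⟨y, hy⟩
  refine ⟨z, ?_, ?_⟩
  · rintro rfl
    grind
  · rintro rfl
    grind

section dualF

variable {F : Type*} [Field F] {ι : Type*} [Fintype ι] [DecidableEq ι] {L : Type*} [Field L]

/-- the character `φ ↦ ψ (φ ⬝ w)` -/
def dch (ψ : AddChar F L) (w : ι → F) : AddChar (ι → F) L where
  toFun φ := ψ (φ ⬝ᵥ w)
  map_zero_eq_one' := by rw [zero_dotProduct, AddChar.map_zero_eq_one]
  map_add_eq_mul' := by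
    intro a b
    rw [add_dotProduct, AddChar.map_add_eq_mul]

theorem dch_apply (ψ : AddChar F L) (w φ : ι → F) : dch ψ w φ = ψ (φ ⬝ᵥ w) := rfl

theorem dch_injective (ψ : AddChar F L) (hψ : ψ 1 ≠ 1) :
    Function.Injective (dch (ι := ι) ψ) := by
  intro w w' h
  by_contra hne
  obtain ⟨j, hj⟩ := Function.ne_iff.mp hne
  have hc : w j - w' j ≠ 0 := sub_ne_zero.mpr hj
  have h1 := DFunLike.congr_fun h (Pi.single j (w j - w' j)⁻¹)
  rw [dch_apply, dch_apply, single_dotProduct, single_dotProduct] at h1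
  have h2 := addChar_sub ψ h1
  rw [← mul_sub, inv_mul_cancel₀ hc] at h2
  exact hψ h2

end dualF

theorem main {F : Type*} [Field F] [Fintype F] {ι : Type*} [Fintype ι] [DecidableEq ι]
    (hι : 3 ≤ Fintype.card ι) (i0 : ι)
    {K : Type*} [Field K] (hK : ringChar K ≠ ringChar F) {d : ℕ}
    (ρ : Matrix.SpecialLinearGroup ι F →* GL (Fin d) K)
    (hker : ρ.ker ≤ Subgroup.center (Matrix.SpecialLinearGroup ι F)) :
    Fintype.card F ^ (Fintype.card ι - 1) - 1 ≤ d := by
  classical
  have hu := uu_emb (F := F) i0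
  have : CharP F (ringChar F) := ringChar.charP F
  have hpp : (ringChar F).Prime := CharP.char_is_prime F (ringChar F)
  have hN : ((ringChar F : ℕ) : K) ≠ 0 := by
    intro h
    have h1 : ringChar K ∣ ringChar F := ringChar.dvd h
    rcases (Nat.dvd_prime hpp).mp h1 with h2 | h2
    · exact CharP.ringChar_ne_one h2
    · exact hK h2
  have hA : ∀ a : ι → F, ringChar F • a = 0 := by
    intro a
    funext j
    simp
  obtain ⟨j1, hj1⟩ : ∃ j1, j1 ≠ i0 := Fintype.exists_ne_of_one_lt_card (by omega) i0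
  have ha₀ : ρ (uu i0 (Pi.single j1 (1 : F))) ≠ 1 := by
    intro h
    have h1 : uu i0 (Pi.single j1 (1 : F)) ∈ Subgroup.center (Matrix.SpecialLinearGroup ι F) :=
      hker h
    obtain ⟨r, -, hr⟩ := Matrix.SpecialLinearGroup.mem_center_iff.mp h1
    have h2 := congrFun (congrFun hr i0) j1
    simp [uu, tv_val, Matrix.vecMulVec_apply, zc, hj1, hj1.symm] at h2
  obtain ⟨χ, hχ, hχ1⟩ := exists_isWt_ne_one ρ hu hN hA ha₀
  -- the additive character of `F`
  let ψ : AddChar F (AlgebraicClosure K) :=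
    { toFun := fun t => χ (t • Pi.single j1 (1 : F))
      map_zero_eq_one' := by rw [zero_smul]; exact hχ.map_zero hu
      map_add_eq_mul' := by
        intro a b
        rw [add_smul]; exact hχ.map_add hu _ _ }
  have hψ1 : ψ 1 ≠ 1 := by
    change χ ((1 : F) • Pi.single j1 (1 : F)) ≠ 1
    rw [one_smul]; exact hχ1
  have hinj := dch_injective (ι := ι) ψ hψ1
  have hsurj := surjective_of_injective_addChar _ hinj
  obtain ⟨w0, hw0⟩ := hsurj (hχ.toAddChar hu)
  have hχw : χ = fun φ => ψ (φ ⬝ᵥ w0) := by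
    funext φ
    have := DFunLike.congr_fun hw0 φ
    exact this.symm
  -- the set of good vectors
  let S : Set (ι → F) := {w | w i0 = 0 ∧ IsWt ρ (uu i0) (fun φ => ψ (φ ⬝ᵥ w))}
  have hw0S : w0 ∈ S := by
    refine ⟨?_, hχw ▸ hχ⟩
    by_contra hne
    apply hψ1
    obtain ⟨v, hv, hf⟩ := hχ.exists_vec
    have h1 := hf (Pi.single i0 (w0 i0)⁻¹)
    have h2 : uu i0 (Pi.single i0 (w0 i0)⁻¹ : ι → F) = 1 := by
      apply Subtype.ext
      have : zc i0 (Pi.single i0 (w0 i0)⁻¹ : ι → F) = 0 := by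
        funext j
        simp only [zc]
        split_ifs with hj
        · rfl
        · simp [hj]
      simp [uu, tv_val, this]
    rw [h2, map_one, Module.End.one_apply, congrFun hχw, single_dotProduct,
      inv_mul_cancel₀ hne] at h1
    have h3 : (ψ 1 - 1) • v = 0 := by rw [sub_smul, ← h1, one_smul, sub_self]
    rcases smul_eq_zero.mp h3 with h4 | h4
    · exact sub_eq_zero.mp h4
    · exact absurd h4 hv
  have hw0ne : w0 ≠ 0 := by
    intro h
    apply hχ1
    rw [congrFun hχw, h, dotProduct_zero, AddChar.map_zero_eq_one]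
  -- moving
  have hmove : ∀ (x θ w : ι → F), x i0 = 0 → θ i0 = 0 → θ ⬝ᵥ x = 0 → w ∈ S →
      w + (θ ⬝ᵥ w) • x ∈ S := by
    intro x θ w hx hθ hθx hw
    refine ⟨by simp [hw.1, hx], ?_⟩
    have := hw.2.move (tv x θ hθx) (fun φ => φ + (φ ⬝ᵥ x) • θ) (uu_move i0 x θ hx hθ hθx)
    convert this using 1
    funext φ
    simp only [Function.comp]
    congr 1
    rw [dotProduct_add, add_dotProduct, dotProduct_smul, smul_dotProduct, smul_eq_mul, smul_eq_mul]
    ring
  have hC1 : ∀ (w w' : ι → F) (k : ι), w ∈ S → w' i0 = 0 → k ≠ i0 → w k ≠ 0 → w' k = w k →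
      w' ∈ S := by
    intro w w' k hw hw' hk hwk hkk
    have h1 := hmove (w' - w) (Pi.single k (w k)⁻¹) w (by simp [hw', hw.1]) (by simp [hk.symm])
      (by rw [single_dotProduct]; simp [hkk]) hw
    rw [single_dotProduct, inv_mul_cancel₀ hwk, one_smul, add_sub_cancel] at h1
    exact h1
  have hall : ∀ w' : ι → F, w' i0 = 0 → w' ≠ 0 → w' ∈ S := by
    intro w' hw' hne
    obtain ⟨k, hk⟩ := Function.ne_iff.mp hw0ne
    obtain ⟨l, hl⟩ := Function.ne_iff.mp hne
    simp only [Pi.zero_apply] at hk hl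
    have hki : k ≠ i0 := by rintro rfl; exact hk hw0S.1
    have hli : l ≠ i0 := by rintro rfl; exact hl hw'
    by_cases hkl : k = l
    · subst hkl
      obtain ⟨j, hji, hjk⟩ := exists_third hι i0 k
      have h1 : (Pi.single k (w0 k) + Pi.single j 1 : ι → F) ∈ S :=
        hC1 w0 _ k hw0S (by simp [hki.symm, hji.symm]) hki hk (by simp [hjk.symm])
      have h2 : (Pi.single k (w' k) + Pi.single j 1 : ι → F) ∈ S :=
        hC1 _ _ j h1 (by simp [hki.symm, hji.symm]) hji (by simp [hjk]) (by simp [hjk])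
      exact hC1 _ _ k h2 hw' hki (by simp [hjk.symm, hl]) (by simp [hjk.symm])
    · have h1 : (Pi.single k (w0 k) + Pi.single l (w' l) : ι → F) ∈ S :=
        hC1 w0 _ k hw0S (by simp [hki.symm, hli.symm]) hki hk (by simp [hkl])
      exact hC1 _ _ l h1 hw' hli (by simp [Ne.symm hkl, hl]) (by simp [Ne.symm hkl])
  -- counting
  let ex : ({j // j ≠ i0} → F) → ι → F := fun w j => if h : j = i0 then 0 else w ⟨j, h⟩
  have hex : Function.Injective ex := by
    intro w w' h
    funext ⟨j, hj⟩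
    have := congrFun h j
    simpa [ex, hj] using this
  have hcount := card_le_of_isWt ρ hu (T := {w : {j // j ≠ i0} → F // w ≠ 0})
    (fun w φ => ψ (φ ⬝ᵥ ex w.1))
    (by
      intro w w' h
      apply Subtype.ext
      apply hex
      apply hinj
      apply DFunLike.ext
      intro φ
      exact congrFun h φ)
    (by
      intro w
      refine (hall (ex w.1) (by simp [ex]) ?_).2
      intro h
      apply w.2
      apply hex
      rw [h]
      funext j
      simp [ex])
  have hc1 : Fintype.card {w : {j // j ≠ i0} → F // w ≠ 0}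
      = Fintype.card F ^ (Fintype.card ι - 1) - 1 := by
    rw [Fintype.card_subtype_compl, Fintype.card_fun, Fintype.card_subtype_compl]
    simp
  omega

/-- A lower bound for representations in cross characteristic: for `n ≥ 3` and a field `F` with `q` elements, every homomorphism from `SL_n(F)` to `GL_d(K)`, `K` a field of characteristic different from that of `F`, whose kernel is central has `d ≥ q^(n-1) - 1`. -/
theorem result {F : Type*} [Field F] [Fintype F] {q : ℕ} (hq : Fintype.card F = q) (n : ℕ) (hn : 3 ≤ n)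
    {K : Type*} [Field K] (hK : ringChar K ≠ ringChar F) {d : ℕ}
    (ρ : Matrix.SpecialLinearGroup (Fin n) F →* GL (Fin d) K) (hker : ρ.ker ≤ Subgroup.center (Matrix.SpecialLinearGroup (Fin n) F)) :
    q ^ (n - 1) - 1 ≤ d := by
  have := main (ι := Fin n) (by simpa using hn) ⟨0, by omega⟩ hK ρ hker
  rw [hq, Fintype.card_fin] at this
  exact this

end Cfsg.Agent.S2392
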