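import Cfsg.Statements.S2393
import Cfsg.Agent.Lib.Helper11.Weights
import Cfsg.Agent.S2392

set_option autoImplicit false
open scoped MatrixGroups
open Cfsg

namespace Cfsg.Agent.S2393

open Cfsg.Agent.Lib.Helper11.Weights Matrix

section aux

variable {F : Type*} [Field F] {l : Type*} [Fintype l] [DecidableEq l]

/-- the unipotent radical of the Siegel parabolic -/
def uu (X : Matrix l l F) : Matrix.symplecticGroup l F :=
  ⟨fromBlocks 1 (X + Xᵀ) 0 1, by
    rw [SymplecticGroup.mem_iff, Matrix.J, fromBlocks_transpose, fromBlocks_multiply,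
      fromBlocks_multiply]
    simp only [add_comm]
    simp
    try abel⟩

theorem uu_val (X : Matrix l l F) :
    (uu X : Matrix (l ⊕ l) (l ⊕ l) F) = fromBlocks 1 (X + Xᵀ) 0 1 := rfl

/-- the opposite unipotent radical -/
def vv (X : Matrix l l F) : Matrix.symplecticGroup l F :=
  ⟨fromBlocks 1 0 (X + Xᵀ) 1, by
    rw [SymplecticGroup.mem_iff, Matrix.J, fromBlocks_transpose, fromBlocks_multiply,
      fromBlocks_multiply]
    simp only [add_comm]
    simp
    try abel⟩

/-- the Levi factor -/
def lv (P E : Matrix l l F) (h : P * E = 1) : Matrix.symplecticGroup l F :=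
  ⟨fromBlocks P 0 0 Eᵀ, by
    rw [SymplecticGroup.mem_iff, Matrix.J, fromBlocks_transpose, fromBlocks_multiply,
      fromBlocks_multiply]
    have h' : Eᵀ * Pᵀ = 1 := by rw [← transpose_mul, h, transpose_one]
    simp [h, h']⟩

theorem uu_emb : Emb (uu (F := F) (l := l)) := by
  constructor
  intro a b
  apply Subtype.ext
  rw [Submonoid.coe_mul]
  simp only [uu_val, fromBlocks_multiply]
  simp only [mul_one, mul_zero, add_zero, one_mul, zero_add, transpose_add, zero_mul]
  congr 1
  abel

theorem uu_move (P E : Matrix l l F) (h : P * E = 1) (X : Matrix l l F) :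
    uu X * lv P E h = lv P E h * uu (E * X * Eᵀ) := by
  apply Subtype.ext
  rw [Submonoid.coe_mul, Submonoid.coe_mul]
  simp only [uu_val, lv, fromBlocks_multiply]
  simp only [mul_one, mul_zero, add_zero, one_mul, zero_add, zero_mul]
  congr 1
  have : E * X * Eᵀ + (E * X * Eᵀ)ᵀ = E * ((X + Xᵀ) * Eᵀ) := by
    rw [transpose_mul, transpose_mul, transpose_transpose, add_mul, mul_add]
    simp only [mul_assoc]
  rw [this, ← mul_assoc, h, one_mul]

end aux

section dualM

variable {F : Type*} [Field F] {l : Type*} [Fintype l] [DecidableEq l] {L : Type*} [Field L]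

/-- the character `X ↦ ψ (tr (Xᵀ C))` -/
def mch (ψ : AddChar F L) (C : Matrix l l F) : AddChar (Matrix l l F) L where
  toFun X := ψ (trace (Xᵀ * C))
  map_zero_eq_one' := by simp
  map_add_eq_mul' := by
    intro a b
    rw [transpose_add, add_mul, trace_add, AddChar.map_add_eq_mul]

theorem mch_apply (ψ : AddChar F L) (C X : Matrix l l F) : mch ψ C X = ψ (trace (Xᵀ * C)) := rfl

theorem trace_single (i j : l) (c : F) (C : Matrix l l F) :
    trace ((single i j c)ᵀ * C) = c * C i j := by
  rw [transpose_single, trace_single_mul, smul_eq_mul]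

theorem mch_injective (ψ : AddChar F L) (hψ : ψ 1 ≠ 1) :
    Function.Injective (mch (l := l) ψ) := by
  intro w w' h
  by_contra hne
  obtain ⟨i, j, hj⟩ : ∃ i j, w i j ≠ w' i j := by
    by_contra hcon
    push Not at hcon
    exact hne (Matrix.ext hcon)
  have hc : w i j - w' i j ≠ 0 := sub_ne_zero.mpr hj
  have h1 := DFunLike.congr_fun h (single i j (w i j - w' i j)⁻¹)
  rw [mch_apply, mch_apply, trace_single, trace_single] at h1
  have h2 := Cfsg.Agent.S2392.addChar_sub ψ h1
  rw [← mul_sub, inv_mul_cancel₀ hc] at h2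
  exact hψ h2

theorem entry (E C : Matrix l l F) (a b : l) :
    (Eᵀ * C * E) a b = (E *ᵥ Pi.single a 1) ⬝ᵥ (C *ᵥ (E *ᵥ Pi.single b 1)) := by
  rw [mulVec_single_one, mulVec_single_one]
  simp only [Matrix.mul_apply, dotProduct, mulVec, transpose_apply, col_apply,
    Finset.sum_mul, Finset.mul_sum]
  rw [Finset.sum_comm]
  apply Finset.sum_congr rfl
  intro i _
  apply Finset.sum_congr rfl
  intro j _
  ring

theorem q_exists (h2 : (2 : F) ≠ 0) (C : Matrix l l F) (hs : Cᵀ = C) (hC : C ≠ 0) :
    ∃ y : l → F, y ⬝ᵥ (C *ᵥ y) ≠ 0 := by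
  by_contra hcon
  push Not at hcon
  apply hC
  have hd : ∀ k, C k k = 0 := by
    intro k
    have := hcon (Pi.single k 1)
    simpa using this
  ext k m
  have h1 := hcon (Pi.single k 1 + Pi.single m 1)
  have hsym : C m k = C k m := by
    have := congrFun (congrFun hs k) m
    simpa using this
  rw [mulVec_add, add_dotProduct, dotProduct_add, dotProduct_add] at h1
  simp only [mulVec_single_one, single_dotProduct, one_mul, col_apply, hd, hsym] at h1
  have h3 : 2 * C k m = 0 := by linear_combination h1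
  rcases mul_eq_zero.mp h3 with h | h
  · exact absurd h h2
  · simpa using h

theorem tv_det (x θ : l → F) : (1 + vecMulVec x θ).det = 1 + θ ⬝ᵥ x := by
  rw [Matrix.vecMulVec_eq Unit, Matrix.det_one_add_replicateCol_mul_replicateRow]

theorem tv_mulVec (x θ y : l → F) : (1 + vecMulVec x θ) *ᵥ y = y + (θ ⬝ᵥ y) • x := by
  rw [add_mulVec, one_mulVec, vecMulVec_mulVec, op_smul_eq_smul]

theorem e_exists (i0 : l) (y : l → F) (hy : y ≠ 0) :
    ∃ E : Matrix l l F, E.det ≠ 0 ∧ E *ᵥ Pi.single i0 1 = y := by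
  by_cases h0 : y i0 = 0
  · obtain ⟨k, hk⟩ := Function.ne_iff.mp hy
    simp only [Pi.zero_apply] at hk
    have hki : k ≠ i0 := by rintro rfl; exact hk h0
    refine ⟨1 + vecMulVec (y - Pi.single i0 1) (Pi.single i0 1 + Pi.single k 1), ?_, ?_⟩
    · rw [tv_det, add_dotProduct, single_dotProduct, single_dotProduct]
      simp [h0, hki, hk]
    · rw [tv_mulVec, add_dotProduct, single_dotProduct, single_dotProduct]
      simp [hki]
  · refine ⟨1 + vecMulVec (y - Pi.single i0 1) (Pi.single i0 1), ?_, ?_⟩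
    · rw [tv_det, single_dotProduct]
      simp [h0]
    · rw [tv_mulVec, single_dotProduct]
      simp

end dualM

theorem isWt_eq_one {K : Type*} [Field K] {d : ℕ} {G : Type*} [Group G] {A : Type*}
    [AddCommGroup A]
    {ρ : G →* GL (Fin d) K} {u : A → G} {χ : A → AlgebraicClosure K} (h : IsWt ρ u χ) {a : A}
    (ha : u a = 1) : χ a = 1 := by
  obtain ⟨v, hv, hf⟩ := h.exists_vec
  have h1 := hf a
  rw [ha, map_one, Module.End.one_apply] at h1
  have h3 : (χ a - 1) • v = 0 := by rw [sub_smul, ← h1, one_smul, sub_self]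
  rcases smul_eq_zero.mp h3 with h4 | h4
  · exact sub_eq_zero.mp h4
  · exact absurd h4 hv

theorem card_sq {F : Type*} [Field F] [Fintype F] [DecidableEq F] :
    Fintype.card F - 1 ≤
      2 * ((Finset.univ.filter (fun s : F => s ≠ 0)).image (fun s => s ^ 2)).card := by
  have h1 : (Finset.univ.filter (fun s : F => s ≠ 0)).card = Fintype.card F - 1 := by
    rw [Finset.filter_ne', Finset.card_erase_of_mem (Finset.mem_univ _), Finset.card_univ]
  rw [← h1]
  apply Finset.card_le_mul_card_image
  intro a ha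
  obtain ⟨s0, -, rfl⟩ := Finset.mem_image.mp ha
  calc _ ≤ ({s0, -s0} : Finset F).card := by
        apply Finset.card_le_card
        intro x hx
        rw [Finset.mem_filter] at hx
        rcases sq_eq_sq_iff_eq_or_eq_neg.mp hx.2 with h | h
        · simp [h]
        · simp [h]
    _ ≤ 2 := Finset.card_le_two

theorem main {F : Type*} [Field F] [Fintype F] {l : Type*} [Fintype l] [DecidableEq l]
    (i0 : l) (h2 : (2 : F) ≠ 0)
    {K : Type*} [Field K] (hK : ringChar K ≠ ringChar F) {d : ℕ}
    (ρ : ↥(Matrix.symplecticGroup l F) →* GL (Fin d) K)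
    (hker : ρ.ker ≤ Subgroup.center ↥(Matrix.symplecticGroup l F)) :
    Fintype.card F ^ (Fintype.card l - 1) * (Fintype.card F - 1) ≤ 2 * d := by
  classical
  have hu := uu_emb (F := F) (l := l)
  have : CharP F (ringChar F) := ringChar.charP F
  have hpp : (ringChar F).Prime := CharP.char_is_prime F (ringChar F)
  have hN : ((ringChar F : ℕ) : K) ≠ 0 := by
    intro h
    have h1 : ringChar K ∣ ringChar F := ringChar.dvd h
    rcases (Nat.dvd_prime hpp).mp h1 with h2 | h2
    · exact CharP.ringChar_ne_one h2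
    · exact hK h2
  have hA : ∀ a : Matrix l l F, ringChar F • a = 0 := by
    intro a
    ext i j
    simp
  have ha₀ : ρ (uu (single i0 i0 (1 : F))) ≠ 1 := by
    intro h
    have h1 : uu (single i0 i0 (1 : F)) ∈ Subgroup.center ↥(Matrix.symplecticGroup l F) := hker h
    have h3 := congrArg Subtype.val (Subgroup.mem_center_iff.mp h1 (vv (single i0 i0 (1 : F))))
    rw [Submonoid.coe_mul, Submonoid.coe_mul] at h3
    simp only [uu_val, vv, fromBlocks_multiply] at h3
    have h4 := (Matrix.fromBlocks_inj.mp h3).1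
    have hY : single i0 i0 (1 : F) + (single i0 i0 (1 : F))ᵀ = single i0 i0 2 := by
      rw [transpose_single, ← single_add]; norm_num
    rw [hY, single_mul_single_same] at h4
    have h5 := congrFun (congrFun h4 i0) i0
    simp at h5
    exact h2 h5
  obtain ⟨χ, hχ, hχ1⟩ := exists_isWt_ne_one ρ hu hN hA ha₀
  let ψ : AddChar F (AlgebraicClosure K) :=
    { toFun := fun t => χ (t • single i0 i0 (1 : F))
      map_zero_eq_one' := by rw [zero_smul]; exact hχ.map_zero hu
      map_add_eq_mul' := by
        intro a b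
        rw [add_smul]; exact hχ.map_add hu _ _ }
  have hψ1 : ψ 1 ≠ 1 := by
    change χ ((1 : F) • single i0 i0 (1 : F)) ≠ 1
    rw [one_smul]; exact hχ1
  have hinj := mch_injective (l := l) ψ hψ1
  have hsurj := surjective_of_injective_addChar _ hinj
  obtain ⟨C0, hC0⟩ := hsurj (hχ.toAddChar hu)
  have hχw : χ = fun X => ψ (trace (Xᵀ * C0)) := by
    funext X
    have := DFunLike.congr_fun hC0 X
    exact this.symm
  let S : Set (Matrix l l F) := {C | Cᵀ = C ∧ IsWt ρ uu (fun X => ψ (trace (Xᵀ * C)))}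
  have hC0S : C0 ∈ S := by
    refine ⟨?_, hχw ▸ hχ⟩
    by_contra hne
    obtain ⟨i, j, hij⟩ : ∃ i j, C0ᵀ i j ≠ C0 i j := by
      by_contra hcon
      push Not at hcon
      exact hne (Matrix.ext hcon)
    rw [transpose_apply] at hij
    have hc : C0 i j - C0 j i ≠ 0 := sub_ne_zero.mpr hij.symm
    apply hψ1
    have h1 : uu (single i j (C0 i j - C0 j i)⁻¹ - single j i (C0 i j - C0 j i)⁻¹) = 1 := by
      apply Subtype.ext
      rw [uu_val, transpose_sub, transpose_single, transpose_single]
      simp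
    have h3 := isWt_eq_one hχ h1
    rw [congrFun hχw, transpose_sub, sub_mul, trace_sub, trace_single, trace_single, ← mul_sub,
      inv_mul_cancel₀ hc] at h3
    exact h3
  have hC0ne : C0 ≠ 0 := by
    intro h
    apply hχ1
    rw [congrFun hχw, h, mul_zero, trace_zero, AddChar.map_zero_eq_one]
  have hmove : ∀ (E C : Matrix l l F), E.det ≠ 0 → C ∈ S → Eᵀ * C * E ∈ S := by
    intro E C hE hC
    have hPE : E⁻¹ * E = 1 := Matrix.nonsing_inv_mul E (isUnit_iff_ne_zero.mpr hE)
    refine ⟨by rw [transpose_mul, transpose_mul, transpose_transpose, hC.1, mul_assoc], ?_⟩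
    have := hC.2.move (lv E⁻¹ E hPE) (fun X => E * X * Eᵀ) (uu_move E⁻¹ E hPE)
    convert this using 1
    funext X
    simp only [Function.comp]
    congr 1
    have e1 : (E * X * Eᵀ)ᵀ * C = E * (Xᵀ * Eᵀ * C) := by
      rw [transpose_mul, transpose_mul, transpose_transpose]
      simp only [mul_assoc]
    rw [e1, trace_mul_comm E]
    simp only [mul_assoc]
  -- a good starting point
  obtain ⟨C1, hC1, hc⟩ : ∃ C1 ∈ S, C1 i0 i0 ≠ 0 := by
    obtain ⟨y, hy⟩ := q_exists h2 C0 hC0S.1 hC0ne
    have hy0 : y ≠ 0 := by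
      rintro rfl
      simp at hy
    obtain ⟨E, hE, hEy⟩ := e_exists i0 y hy0
    refine ⟨_, hmove E C0 hE hC0S, ?_⟩
    rw [entry, hEy]
    exact hy
  have hfam : ∀ (s : F) (r : l → F), s ≠ 0 →
      ∃ C ∈ S, C i0 i0 = s ^ 2 * C1 i0 i0 ∧ ∀ a, a ≠ i0 → C a i0 = r a := by
    intro s r hs
    let x : l → F := fun a => if a = i0 then s - 1 else (r a / s - C1 a i0) / C1 i0 i0
    have hEe : ∀ b, (1 + vecMulVec (Pi.single i0 1) x) *ᵥ (Pi.single b 1 : l → F)
        = Pi.single b 1 + x b • Pi.single i0 1 := by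
      intro b
      rw [tv_mulVec, dotProduct_single, mul_one]
    have hent : ∀ a, ((1 + vecMulVec (Pi.single i0 1) x : Matrix l l F)ᵀ * C1 *
        (1 + vecMulVec (Pi.single i0 1) x : Matrix l l F)) a i0
        = s * (C1 a i0 + x a * C1 i0 i0) := by
      intro a
      have hx0 : x i0 = s - 1 := by simp [x]
      rw [entry, hEe, hEe, hx0]
      have : (Pi.single i0 1 + (s - 1) • Pi.single i0 1 : l → F) = s • Pi.single i0 1 := by
        rw [sub_smul, one_smul]; abel
      rw [this, mulVec_smul, dotProduct_smul, add_dotProduct, smul_dotProduct, mulVec_single_one,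
        single_dotProduct, single_dotProduct]
      simp
    refine ⟨_, hmove (1 + vecMulVec (Pi.single i0 1) x) C1 ?_ hC1, ?_, ?_⟩
    · rw [tv_det, dotProduct_single, mul_one]
      simp [x, hs]
    · rw [hent]
      simp only [x, if_true]
      ring
    · intro a ha
      rw [hent]
      simp only [x, if_neg ha]
      field_simp
      ring
  -- counting
  let Sq : Finset F := (Finset.univ.filter (fun s : F => s ≠ 0)).image (fun s => s ^ 2)
  have hT : ∀ t : {σ // σ ∈ Sq} × ({j // j ≠ i0} → F),
      ∃ C ∈ S, C i0 i0 = t.1.1 * C1 i0 i0 ∧ ∀ a (h : a ≠ i0), C a i0 = t.2 ⟨a, h⟩ := by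
    rintro ⟨⟨σ, hσ⟩, r⟩
    obtain ⟨s, hs, rfl⟩ := Finset.mem_image.mp hσ
    rw [Finset.mem_filter] at hs
    obtain ⟨C, hC, h1, h3⟩ := hfam s (fun a => if h : a = i0 then 0 else r ⟨a, h⟩) hs.2
    refine ⟨C, hC, h1, ?_⟩
    intro a ha
    rw [h3 a ha, dif_neg ha]
  choose Ct hCt using hT
  have hcount := card_le_of_isWt ρ hu (T := {σ // σ ∈ Sq} × ({j // j ≠ i0} → F))
    (fun t X => ψ (trace (Xᵀ * Ct t)))
    (by
      intro t t' h
      have h1 : Ct t = Ct t' := by
        apply hinj
        apply DFunLike.ext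
        intro X
        exact congrFun h X
      apply Prod.ext
      · apply Subtype.ext
        have e1 := (hCt t).2.1
        have e2 := (hCt t').2.1
        rw [h1, e2] at e1
        exact (mul_right_cancel₀ hc e1).symm
      · funext ⟨a, ha⟩
        rw [← (hCt t).2.2 a ha, ← (hCt t').2.2 a ha, h1])
    (fun t => (hCt t).1.2)
  have hc1 : Fintype.card ({σ // σ ∈ Sq} × ({j // j ≠ i0} → F))
      = Sq.card * Fintype.card F ^ (Fintype.card l - 1) := by
    rw [Fintype.card_prod, Fintype.card_coe, Fintype.card_fun, Fintype.card_subtype_compl]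
    simp
  have hsq : Fintype.card F - 1 ≤ 2 * Sq.card := card_sq
  calc Fintype.card F ^ (Fintype.card l - 1) * (Fintype.card F - 1)
      ≤ Fintype.card F ^ (Fintype.card l - 1) * (2 * Sq.card) := Nat.mul_le_mul_left _ hsq
    _ = 2 * (Sq.card * Fintype.card F ^ (Fintype.card l - 1)) := by ring
    _ ≤ 2 * d := by rw [← hc1]; exact Nat.mul_le_mul_left _ hcount

/-- A lower bound for representations in cross characteristic: for `n ≥ 2` and a field `F` with `q` elements, `q` odd, every homomorphism from the symplectic group `Sp_{2n}(F)` to `GL_d(K)`, `K` a field of characteristic different from that of `F`, whose kernel is central has `d ≥ q^(n-1)(q-1)/2`. -/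
theorem result {F : Type*} [Field F] [Fintype F] {q : ℕ} (hq : Fintype.card F = q) (hodd : Odd q) (n : ℕ) (hn : 2 ≤ n)
    {K : Type*} [Field K] (hK : ringChar K ≠ ringChar F) {d : ℕ}
    (ρ : ↥(Matrix.symplecticGroup (Fin n) F) →* GL (Fin d) K) (hker : ρ.ker ≤ Subgroup.center ↥(Matrix.symplecticGroup (Fin n) F)) :
    q ^ (n - 1) * (q - 1) / 2 ≤ d := by
  have h2 : (2 : F) ≠ 0 := by
    have h3 : ringChar F ≠ 2 := by
      intro h
      have := FiniteField.even_card_of_char_two h
      rw [hq] at this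
      exact (Nat.not_even_iff_odd.mpr hodd) (Nat.even_iff.mpr this)
    exact Ring.two_ne_zero h3
  have := main (l := Fin n) ⟨0, by omega⟩ h2 hK ρ hker
  rw [hq, Fintype.card_fin] at this
  omega

end Cfsg.Agent.S2393
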