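import Cfsg.Statements.S2398
import Cfsg.Agent.Lib.Helper17.UgUniv

set_option autoImplicit false
open Cfsg

namespace Cfsg.Agent.S2398

open Cfsg.Agent.Lib.Helper17

/-- Universality of the group Δ presented by Steinberg's generators with relators (R1), (R2), over a field with more than four elements (types G₂, B₂, D₄, F₄, E₆, E₇, E₈): for every central extension `π₁ : E → G₁` (surjective, central kernel) and every homomorphism `σ : Δ → G₁` there is exactly one homomorphism `τ : Δ → E` with `π₁ ∘ τ = σ`. In particular every central extension of Δ splits; together with the fact that Δ maps onto the Chevalley group with central kernel, this makes Δ the universal central extension of the Chevalley group. -/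
theorem result {K : Type*} [Field K] (hK5 : ∃ s : Finset K, 4 < s.card) (D : Cfsg.Lie.ChevalleyDatum) (hD : D ∈ [Cfsg.Lie.chevG2, Cfsg.Lie.chevB2, Cfsg.Lie.chevD4, Cfsg.Lie.chevF4, Cfsg.Lie.chevE6, Cfsg.Lie.chevE7, Cfsg.Lie.chevE8])
    {G₁ E : Type*} [Group G₁] [Group E] (π₁ : E →* G₁) (hπ : Function.Surjective π₁) (hc : π₁.ker ≤ Subgroup.center E)
    (σ : D.SteinbergCover K →* G₁) : ∃! τ : D.SteinbergCover K →* E, π₁.comp τ = σ := by
  obtain ⟨T, W, A⟩ := exists_allH K hD
  have hK1 : D ∈ [Cfsg.Lie.chevB2, Cfsg.Lie.chevG2] → ∃ x : K, x ≠ 0 ∧ x ≠ 1 := by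
    intro _
    obtain ⟨v, hv0, hv⟩ := exists_pow_ne_one hK5 (d := 1) le_rfl (by norm_num)
    exact ⟨v, hv0, by simpa using hv⟩
  have hperf := Cfsg.Agent.S2395.result (K := K) D hD hK1
  let S₀ := stdOf A.hB (D.steinbergRelsAB K) subset_rfl (lift_relsAB A.hB)
  have hgen := stdOf_gen A.hB (D.steinbergRelsAB K) subset_rfl (lift_relsAB A.hB)
  have hθs : ∀ g ∈ D.group K, ∃ x, S₀.θ x = g := by
    intro g hg
    obtain ⟨x, hx⟩ := thetaOf_surj A.hB (D.steinbergRelsAB K) (lift_relsAB A.hB) ⟨g, hg⟩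
    exact ⟨x, congrArg Subtype.val hx⟩
  apply universal_of_lift hperf S₀.θ (S₀.ker_le_center A hgen) hθs π₁ hπ hc σ
  intro C
  obtain ⟨S, hS⟩ := C.exists_std_all hD A hK5
  obtain ⟨τ₀, hτ₀⟩ := S.exists_hom A.h
  refine ⟨τ₀, ?_⟩
  apply PresentedGroup.ext
  rintro ⟨r, t⟩
  have e1 : PresentedGroup.of (rels := D.steinbergRelsAB K) (r, t) = D.scGen K r.1 t := by
    unfold Cfsg.Lie.ChevalleyDatum.scGen Cfsg.Lie.ChevalleyDatum.stX
    rw [dif_pos r.2]
    rfl
  rw [e1, MonoidHom.comp_apply, hτ₀ r.1 r.2, ← hS, S.θ_X A.hB r.2]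
  exact (S₀.θ_X A.hB r.2 t).symm

end Cfsg.Agent.S2398
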