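import Cfsg.Statements.S2403
import Cfsg.Agent.Lib.Helper5.SLGen

set_option autoImplicit false
open Cfsg

namespace Cfsg.Agent.S2403

open Matrix Matrix.SpecialLinearGroup
open scoped commutatorElement Fin.CommRing Fin.NatCast

variable {K : Type*} [Field K] {n : ℕ}

/-- the sign -/
def om (K : Type*) [Field K] (n : ℕ) (i : Fin (n + 1)) : K := if i.val = n then (-1) ^ n else 1

theorem om_cases (i : Fin (n + 1)) : om K n i = 1 ∨ om K n i = -1 := by
  unfold om
  split_ifs
  · exact neg_one_pow_eq_or K n
  · left; rfl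

theorem w_apply (w : Matrix (Fin (n + 1)) (Fin (n + 1)) K)
    (hw : w = Matrix.of (fun i j => if j.val = i.val + 1 then 1 else
      if i.val = n ∧ j.val = 0 then (-1) ^ n else 0)) (i j : Fin (n + 1)) :
    w i j = if j = i + 1 then om K n i else 0 := by
  rw [hw, Matrix.of_apply]
  unfold om
  have hj := j.2
  by_cases hi : i.val = n
  · have hil : i = Fin.last n := Fin.ext hi
    have h1 : (i + 1 : Fin (n + 1)).val = 0 := by rw [Fin.val_add_one, if_pos hil]
    have h2 : ¬ j.val = i.val + 1 := by omega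
    rw [if_neg h2, if_pos hi]
    by_cases hj0 : j.val = 0
    · rw [if_pos ⟨hi, hj0⟩, if_pos (Fin.ext (by rw [hj0, h1]))]
    · rw [if_neg (fun h => hj0 h.2), if_neg (fun h => hj0 (by rw [h, h1]))]
  · have hil : i ≠ Fin.last n := fun h => hi (by rw [h]; rfl)
    have h1 : (i + 1 : Fin (n + 1)).val = i.val + 1 := by rw [Fin.val_add_one, if_neg hil]
    rw [if_neg hi]
    by_cases hj1 : j.val = i.val + 1
    · rw [if_pos hj1, if_pos (Fin.ext (by rw [hj1, h1]))]
    · rw [if_neg hj1, if_neg (fun h => hi h.1), if_neg (fun h => hj1 (by rw [h, h1]))]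

theorem mul_left_apply (w : Matrix (Fin (n + 1)) (Fin (n + 1)) K)
    (hw : ∀ i j, w i j = if j = i + 1 then om K n i else 0)
    (M : Matrix (Fin (n + 1)) (Fin (n + 1)) K) (r s : Fin (n + 1)) :
    (w * M) r s = om K n r * M (r + 1) s := by
  rw [Matrix.mul_apply, Finset.sum_eq_single (r + 1)]
  · rw [hw, if_pos rfl]
  · intro k _ hk
    rw [hw, if_neg hk, zero_mul]
  · intro h; exact absurd (Finset.mem_univ _) h

theorem mul_right_apply (w : Matrix (Fin (n + 1)) (Fin (n + 1)) K)
    (hw : ∀ i j, w i j = if j = i + 1 then om K n i else 0)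
    (M : Matrix (Fin (n + 1)) (Fin (n + 1)) K) (r s : Fin (n + 1)) :
    (M * w) r (s + 1) = M r s * om K n s := by
  rw [Matrix.mul_apply, Finset.sum_eq_single s]
  · rw [hw, if_pos rfl]
  · intro k _ hk
    rw [hw, if_neg (fun h => hk (add_right_cancel h).symm), mul_zero]
  · intro h; exact absurd (Finset.mem_univ _) h

theorem conj_formula (w : SpecialLinearGroup (Fin (n + 1)) K)
    (hw : ∀ i j, (w : Matrix (Fin (n + 1)) (Fin (n + 1)) K) i j = if j = i + 1 then om K n i else 0)
    {i j : Fin (n + 1)} (hij : i ≠ j) (c : K) :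
    w * transvection (show i + 1 ≠ j + 1 from fun h => hij (add_right_cancel h)) (c * om K n j) =
      transvection hij (c * om K n i) * w := by
  apply Subtype.ext
  rw [coe_mul, coe_mul]
  ext r s
  obtain ⟨s, rfl⟩ : ∃ s', s = s' + 1 := ⟨s - 1, by simp⟩
  rw [mul_left_apply _ hw, mul_right_apply _ hw, transvection_coe, transvection_coe,
    Matrix.add_apply, Matrix.add_apply, Matrix.one_apply, Matrix.one_apply, Matrix.single_apply,
    Matrix.single_apply]
  simp only [add_left_inj]
  by_cases h1 : r = s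
  · subst h1
    by_cases h2 : i = r ∧ j = r
    · exact absurd (h2.1.trans h2.2.symm) hij
    · rw [if_neg h2, if_neg h2, if_pos rfl]; ring
  · rw [if_neg h1]
    by_cases h2 : i = r ∧ j = s
    · rw [if_pos h2, if_pos h2]
      obtain ⟨rfl, rfl⟩ := h2
      ring
    · rw [if_neg h2, if_neg h2]; ring

theorem result {K : Type*} [Field K] [Fintype K] (hK : Fintype.card K ≤ 3) (n : ℕ) (hn : 1 ≤ n)
    (x w : Matrix.SpecialLinearGroup (Fin (n + 1)) K)
    (hx : (x : Matrix (Fin (n + 1)) (Fin (n + 1)) K) = Matrix.transvection (0 : Fin (n + 1)) (1 : Fin (n + 1)) 1)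
    (hw : (w : Matrix (Fin (n + 1)) (Fin (n + 1)) K) =
      Matrix.of (fun i j => if j.val = i.val + 1 then 1 else if i.val = n ∧ j.val = 0 then (-1) ^ n else 0)) :
    Subgroup.closure ({x, w} : Set (Matrix.SpecialLinearGroup (Fin (n + 1)) K)) ⊔
      Subgroup.center (Matrix.SpecialLinearGroup (Fin (n + 1)) K) = ⊤ := by
  classical
  have hnt : Nontrivial (Fin (n + 1)) := Fin.nontrivial_iff_two_le.mpr (by omega)
  obtain ⟨H, hH⟩ : ∃ H, H = Subgroup.closure ({x, w} : Set (Matrix.SpecialLinearGroup (Fin (n + 1)) K)) :=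
    ⟨_, rfl⟩
  rw [← hH]
  have hxH : x ∈ H := hH ▸ Subgroup.subset_closure (by simp)
  have hwH : w ∈ H := hH ▸ Subgroup.subset_closure (by simp)
  have hw' := w_apply _ hw
  have hsign : ∀ {i j : Fin (n + 1)} (hij : i ≠ j) (c : K), (c = 1 ∨ c = -1) →
      transvection hij c ∈ H → transvection hij 1 ∈ H := by
    intro i j hij c hc h
    rcases hc with rfl | rfl
    · exact h
    · have := H.inv_mem h
      rwa [transvection_inv, neg_neg] at this
  have hshift : ∀ {i j : Fin (n + 1)}, (∀ h : i ≠ j, transvection h (1 : K) ∈ H) →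
      ∀ h : i + 1 ≠ j + 1, transvection h (1 : K) ∈ H := by
    intro i j hP h
    have hij : i ≠ j := fun e => h (by rw [e])
    have hf := conj_formula w hw' hij (om K n i)
    have h1 : om K n i * om K n i = 1 := by
      rcases om_cases (K := K) i with h | h <;> rw [h] <;> ring
    rw [h1] at hf
    have h2 : transvection h (om K n i * om K n j) = w⁻¹ * (transvection hij 1 * w) := by
      rw [← hf]; group
    apply hsign h (om K n i * om K n j)
    · rcases om_cases (K := K) i with h | h <;> rcases om_cases (K := K) j with h' | h' <;>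
        rw [h, h'] <;> simp
    · rw [h2]
      exact H.mul_mem (H.inv_mem hwH) (H.mul_mem (hP hij) hwH)
  have h01 : ∀ h : (0 : Fin (n + 1)) ≠ 1, transvection h (1 : K) ∈ H := by
    intro h
    have : x = transvection h 1 := Subtype.ext hx
    rw [← this]; exact hxH
  have hadjN : ∀ m : ℕ, ∀ h : ((m : ℕ) : Fin (n + 1)) ≠ ((m : ℕ) : Fin (n + 1)) + 1,
      transvection h (1 : K) ∈ H := by
    intro m
    induction m with
    | zero =>
      rw [Nat.cast_zero, zero_add]
      exact h01
    | succ m ih =>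
      rw [Nat.cast_succ]
      exact hshift ih
  have hadj : ∀ i : Fin (n + 1), ∀ h : i ≠ i + 1, transvection h (1 : K) ∈ H := by
    intro i
    have := hadjN i.val
    rwa [Fin.cast_val_eq_self] at this
  have hcomm : ∀ {i j k : Fin (n + 1)} (hij : i ≠ j) (hik : i ≠ k) (hkj : k ≠ j),
      transvection hik (1 : K) ∈ H → transvection hkj (1 : K) ∈ H → transvection hij (1 : K) ∈ H := by
    intro i j k hij hik hkj h1 h2
    rw [← Lib.Helper5.commutator_transvection_transvection hij hik hkj, commutatorElement_def]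
    exact H.mul_mem (H.mul_mem (H.mul_mem h1 h2) (H.inv_mem h1)) (H.inv_mem h2)
  have hdist : ∀ d : ℕ, ∀ i : Fin (n + 1), ∀ h : i ≠ i + ((d + 1 : ℕ) : Fin (n + 1)),
      transvection h (1 : K) ∈ H := by
    intro d
    induction d with
    | zero =>
      intro i
      rw [zero_add, Nat.cast_one]
      exact hadj i
    | succ d ih =>
      intro i
      have e : i + ((d + 1 + 1 : ℕ) : Fin (n + 1)) = i + ((d + 1 : ℕ) : Fin (n + 1)) + 1 := by
        rw [Nat.cast_succ (d + 1), add_assoc]
      rw [e]
      by_cases hik : i = i + ((d + 1 : ℕ) : Fin (n + 1))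
      · rw [← hik]
        exact hadj i
      · intro h
        have hk : i + ((d + 1 : ℕ) : Fin (n + 1)) ≠ i + ((d + 1 : ℕ) : Fin (n + 1)) + 1 := by
          intro h'
          exact one_ne_zero (left_eq_add.mp h')
        exact hcomm h hik hk (ih i hik) (hadj _ hk)
  have hall : ∀ (i j : Fin (n + 1)) (h : i ≠ j), transvection h (1 : K) ∈ H := by
    intro i j h
    have hne : (j - i).val ≠ 0 := by
      intro h0
      apply h
      have : j - i = 0 := Fin.ext h0
      exact (sub_eq_zero.mp this).symm
    obtain ⟨d, hd⟩ : ∃ d, (j - i).val = d + 1 := ⟨(j - i).val - 1, by omega⟩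
    have h1 := hdist d i
    have e : i + ((d + 1 : ℕ) : Fin (n + 1)) = j := by
      rw [← hd, Fin.cast_val_eq_self]; abel
    rw [e] at h1
    exact h1 h
  have hnat : ∀ c : K, ∃ m : ℕ, c = (m : K) := by
    have h2 : 1 < Fintype.card K := Fintype.one_lt_card
    have key : ∀ p : ℕ, p.Prime → Fintype.card K = p → ∀ c : K, ∃ m : ℕ, c = (m : K) := by
      intro p hp hc c
      have : Fact p.Prime := ⟨hp⟩
      let e := ZMod.ringEquivOfPrime K hp hc
      refine ⟨(e.symm c).val, ?_⟩
      have h3 : c = e (e.symm c) := (e.apply_symm_apply c).symm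
      conv_lhs => rw [h3, ← ZMod.natCast_zmod_val (e.symm c), map_natCast]
    have h3 : Fintype.card K = 2 ∨ Fintype.card K = 3 := by omega
    rcases h3 with h | h
    · exact key 2 Nat.prime_two h
    · exact key 3 Nat.prime_three h
  have hpow : ∀ (i j : Fin (n + 1)) (h : i ≠ j) (m : ℕ),
      transvection h (m : K) = (transvection h (1 : K)) ^ m := by
    intro i j h m
    induction m with
    | zero => rw [Nat.cast_zero, transvection_coeff_zero, pow_zero]
    | succ m ih => rw [Nat.cast_succ, transvection_add, ih, pow_succ]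
  have htop : H = ⊤ := by
    rw [eq_top_iff]
    intro A _
    refine Lib.Helper5.SL_transvection_induction (fun A => A ∈ H) ?_ (fun _ _ => H.mul_mem) A
    intro i j h c
    obtain ⟨m, rfl⟩ := hnat c
    rw [hpow]
    exact H.pow_mem (hall i j h) m
  rw [htop, top_sup_eq]

end Cfsg.Agent.S2403
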