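import Cfsg.Statements.S2416
import Cfsg.Agent.Lib.Helper17.ChevGen

set_option autoImplicit false
open scoped MatrixGroups
open Cfsg

namespace Cfsg.Agent.S2416

/-- A Chevalley group of type G₂, B₂, D₄, F₄, E₆, E₇ or E₈ over a finite field lies in (indeed equals) the subgroup generated by its monomial subgroup `N` and a single fundamental root subgroup `X_p`, where `p` is a short fundamental root if there are two root lengths (any fundamental root otherwise), provided the characteristic is not 2 for types B₂, F₄ and not 3 for type G₂ (and the field has more than two elements for B₂, G₂). -/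
theorem result {K : Type*} [Field K] [Finite K] (D : Cfsg.Lie.ChevalleyDatum) (hD : D ∈ [Cfsg.Lie.chevG2, Cfsg.Lie.chevB2, Cfsg.Lie.chevD4, Cfsg.Lie.chevF4, Cfsg.Lie.chevE6, Cfsg.Lie.chevE7, Cfsg.Lie.chevE8])
    (hK : D ∈ [Cfsg.Lie.chevB2, Cfsg.Lie.chevG2] → ∃ x : K, x ≠ 0 ∧ x ≠ 1)
    (h2 : D ∈ [Cfsg.Lie.chevB2, Cfsg.Lie.chevF4] → ringChar K ≠ 2) (h3 : D = Cfsg.Lie.chevG2 → ringChar K ≠ 3)
    (i : ℕ) (hi : i < D.rank) (hshort : D.isLong (D.simple i) = false) :
    D.group K ≤ D.monomialSubgroup K ⊔ D.rootSubgroup K (D.simple i) := by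
  have hB := Cfsg.Agent.Lib.Helper18.base_of_mem K hD
  have hT := Cfsg.Agent.Lib.Helper18.tab_of_mem hD
  have hd := Cfsg.Agent.Lib.Helper17.descOK_of_mem hD
  have key : ∀ {p : ℕ}, p.Prime → ringChar K ≠ p → (p : K) ≠ 0 := by
    intro p hp h e
    have := (ringChar.spec K p).mp e
    rcases (Nat.dvd_prime hp).mp this with h1 | h1
    · exact CharP.ringChar_ne_one h1
    · exact h h1
  have hD' := hD
  simp only [List.mem_cons, List.not_mem_nil, or_false] at hD'
  rcases hD' with rfl | rfl | rfl | rfl | rfl | rfl | rfl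
  · exact Cfsg.Agent.Lib.Helper17.group_le_of_genOK hB hT hd Cfsg.Agent.Lib.Helper17.genOK_G2
      (fun _ => key Nat.prime_three (h3 rfl)) hi hshort
  · exact Cfsg.Agent.Lib.Helper17.group_le_of_genOK hB hT hd Cfsg.Agent.Lib.Helper17.genOK_B2
      (fun _ => key Nat.prime_two (h2 (by simp))) hi hshort
  · exact Cfsg.Agent.Lib.Helper17.group_le_of_genOK hB hT hd Cfsg.Agent.Lib.Helper17.genOK_D4
      (fun h => absurd rfl h) hi hshort
  · exact Cfsg.Agent.Lib.Helper17.group_le_of_genOK hB hT hd Cfsg.Agent.Lib.Helper17.genOK_F4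
      (fun _ => key Nat.prime_two (h2 (by simp))) hi hshort
  · exact Cfsg.Agent.Lib.Helper17.group_le_of_genOK hB hT hd Cfsg.Agent.Lib.Helper17.genOK_E6
      (fun h => absurd rfl h) hi hshort
  · exact Cfsg.Agent.Lib.Helper17.group_le_of_genOK hB hT hd Cfsg.Agent.Lib.Helper17.genOK_E7
      (fun h => absurd rfl h) hi hshort
  · exact Cfsg.Agent.Lib.Helper17.group_le_of_genOK hB hT hd Cfsg.Agent.Lib.Helper17.genOK_E8
      (fun h => absurd rfl h) hi hshort

end Cfsg.Agent.S2416
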