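import Cfsg.Statements.S2418
import Cfsg.Agent.Lib.Helper40.CoxeterCenter
import Cfsg.Agent.Lib.Helper40.CoxDataB2
import Cfsg.Agent.Lib.Helper40.CoxDataG2
import Cfsg.Agent.Lib.Helper40.CoxDataD4
import Cfsg.Agent.Lib.Helper40.CoxDataF4
import Cfsg.Agent.Lib.Helper40.CoxDataE6
import Cfsg.Agent.Lib.Helper40.CoxDataE7
import Cfsg.Agent.Lib.Helper40.CoxDataE8

set_option autoImplicit false
open Cfsg

namespace Cfsg.Agent.S2418

open Cfsg.Agent.Lib.Helper40

theorem fin_of_zpowers {n : ℕ} (M : CoxeterMatrix (Fin n)) (k : ℕ)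
    (h : Subgroup.center M.Group = Subgroup.zpowers (wp (sN M) (List.range n) ^ k) ∧
      orderOf (wp (sN M) (List.range n) ^ k) = 2) :
    Nat.card (Subgroup.center M.Group) = 2 ∧
      Subgroup.center M.Group ≤ Subgroup.zpowers ((List.finRange n).map M.simple).prod := by
  obtain ⟨h1, h2⟩ := h
  constructor
  · rw [h1, Nat.card_zpowers, h2]
  · rw [h1, coxeterElement_eq]
    exact Subgroup.zpowers_le.2 (Subgroup.pow_mem _ (Subgroup.mem_zpowers _) _)

/-- For the Coxeter groups of types B₂, G₂, D₄, F₄, E₇, E₈ the centre has order 2 (the element acting as −1 on the root system) and is generated by a power of the Coxeter element `s₁ s₂ ⋯ s_l`; the Coxeter group of type E₆ has trivial centre. -/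
theorem result (c : (Σ n : ℕ, CoxeterMatrix (Fin n)) × ℕ)
    (hc : c ∈ [(⟨2, CoxeterMatrix.B 2⟩, 2), (⟨2, CoxeterMatrix.G₂⟩, 2), (⟨4, Cfsg.Lie.coxeterD4⟩, 2), (⟨4, CoxeterMatrix.F₄⟩, 2),
      (⟨6, CoxeterMatrix.E₆⟩, 1), (⟨7, CoxeterMatrix.E₇⟩, 2), (⟨8, CoxeterMatrix.E₈⟩, 2)]) :
    Nat.card (Subgroup.center c.1.2.Group) = c.2 ∧
      Subgroup.center c.1.2.Group ≤ Subgroup.zpowers ((List.finRange c.1.1).map c.1.2.simple).prod := by
  simp only [List.mem_cons, List.not_mem_nil, or_false] at hc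
  rcases hc with rfl | rfl | rfl | rfl | rfl | rfl | rfl
  · apply fin_of_zpowers _ 2
    exact center_eq_zpowers _ 8 B2.tab B2.tab_ok B2.lev0 [B2.lev1]
      B2.chain_ok 0 (by decide +kernel) _ _ (by decide +kernel) (by decide +kernel) (by decide +kernel)
      (by decide +kernel)
  · apply fin_of_zpowers _ 3
    exact center_eq_zpowers _ 12 G2.tab G2.tab_ok G2.lev0 [G2.lev1]
      G2.chain_ok 0 (by decide +kernel) _ _ (by decide +kernel) (by decide +kernel) (by decide +kernel)
      (by decide +kernel)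
  · apply fin_of_zpowers _ 3
    exact center_eq_zpowers _ 24 D4.tab D4.tab_ok D4.lev0 [D4.lev1, D4.lev2, D4.lev3]
      D4.chain_ok 0 (by decide +kernel) _ _ (by decide +kernel) (by decide +kernel) (by decide +kernel)
      (by decide +kernel)
  · apply fin_of_zpowers _ 6
    exact center_eq_zpowers _ 48 F4.tab F4.tab_ok F4.lev0 [F4.lev1, F4.lev2, F4.lev3]
      F4.chain_ok 0 (by decide +kernel) _ _ (by decide +kernel) (by decide +kernel) (by decide +kernel)
      (by decide +kernel)
  · have h := center_eq_bot _ 72 E6.tab E6.tab_ok E6.lev0 [E6.lev1, E6.lev2, E6.lev3, E6.lev4]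
      E6.chain_ok 0 (by decide +kernel) (by decide +kernel)
    rw [h]
    exact ⟨Subgroup.card_bot, bot_le⟩
  · apply fin_of_zpowers _ 9
    exact center_eq_zpowers _ 126 E7.tab E7.tab_ok E7.lev0 [E7.lev1, E7.lev2, E7.lev3, E7.lev4, E7.lev5, E7.lev6]
      E7.chain_ok 0 (by decide +kernel) _ _ (by decide +kernel) (by decide +kernel) (by decide +kernel)
      (by decide +kernel)
  · apply fin_of_zpowers _ 15
    exact center_eq_zpowers _ 240 E8.tab E8.tab_ok E8.lev0 [E8.lev1, E8.lev2, E8.lev3, E8.lev4, E8.lev5, E8.lev6, E8.lev7]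
      E8.chain_ok 0 (by decide +kernel) _ _ (by decide +kernel) (by decide +kernel) (by decide +kernel)
      (by decide +kernel)

end Cfsg.Agent.S2418
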