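import Cfsg.Statements.S2419
import Cfsg.Agent.Lib.Helper40.CoxeterGen
import Cfsg.Agent.Lib.Helper40.CoxDataB2
import Cfsg.Agent.Lib.Helper40.CoxDataG2
import Cfsg.Agent.Lib.Helper40.CoxDataD4
import Cfsg.Agent.Lib.Helper40.CoxDataF4
import Cfsg.Agent.Lib.Helper40.CoxDataE6
import Cfsg.Agent.Lib.Helper40.CoxDataE7
import Cfsg.Agent.Lib.Helper40.CoxDataE8

set_option autoImplicit false
open Cfsg

namespace Cfsg.Agent.S2419

open Cfsg.Agent.Lib.Helper40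

theorem one_refl {n : ℕ} (M : CoxeterMatrix (Fin n)) (a : Fin n)
    (h : ∀ S : Set M.Group, ((List.finRange n).map M.simple).prod ∈ S → sN M a.val ∈ S →
      Subgroup.closure S = ⊤) :
    ∃ T : Finset M.Group, T.card = 1 ∧ (∀ t ∈ T, ∃ (g : M.Group) (i : Fin n), t = g * M.simple i * g⁻¹) ∧
      Subgroup.closure (({((List.finRange n).map M.simple).prod} : Set M.Group) ∪ ↑T) = ⊤ := by
  classical
  refine ⟨{M.simple a}, Finset.card_singleton _, ?_, ?_⟩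
  · intro t ht
    rw [Finset.mem_singleton] at ht
    exact ⟨1, a, by simp [ht]⟩
  · apply h
    · simp
    · rw [sN_val]; simp

theorem two_refl {n : ℕ} (M : CoxeterMatrix (Fin n)) (a b : Fin n) (hab : M.simple a ≠ M.simple b)
    (h : ∀ S : Set M.Group, ((List.finRange n).map M.simple).prod ∈ S → sN M a.val ∈ S →
      sN M b.val ∈ S → Subgroup.closure S = ⊤) :
    ∃ T : Finset M.Group, T.card = 2 ∧ (∀ t ∈ T, ∃ (g : M.Group) (i : Fin n), t = g * M.simple i * g⁻¹) ∧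
      Subgroup.closure (({((List.finRange n).map M.simple).prod} : Set M.Group) ∪ ↑T) = ⊤ := by
  classical
  refine ⟨{M.simple a, M.simple b}, Finset.card_pair hab, ?_, ?_⟩
  · intro t ht
    rw [Finset.mem_insert, Finset.mem_singleton] at ht
    rcases ht with rfl | rfl
    · exact ⟨1, a, by simp⟩
    · exact ⟨1, b, by simp⟩
  · apply h
    · simp
    · rw [sN_val]; simp
    · rw [sN_val]; simp

/-- The Coxeter groups of types B₂, G₂, E₆, E₇, E₈ are generated by the Coxeter element `s₁ s₂ ⋯ s_l` together with one suitable reflection (a conjugate of a simple reflection); for types D₄ and F₄ the Coxeter element together with two suitable reflections suffices. -/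
theorem result (c : (Σ n : ℕ, CoxeterMatrix (Fin n)) × ℕ)
    (hc : c ∈ [(⟨2, CoxeterMatrix.B 2⟩, 1), (⟨2, CoxeterMatrix.G₂⟩, 1), (⟨4, Cfsg.Lie.coxeterD4⟩, 2), (⟨4, CoxeterMatrix.F₄⟩, 2),
      (⟨6, CoxeterMatrix.E₆⟩, 1), (⟨7, CoxeterMatrix.E₇⟩, 1), (⟨8, CoxeterMatrix.E₈⟩, 1)]) :
    ∃ T : Finset c.1.2.Group, T.card = c.2 ∧ (∀ t ∈ T, ∃ (g : c.1.2.Group) (i : Fin c.1.1), t = g * c.1.2.simple i * g⁻¹) ∧
      Subgroup.closure (({((List.finRange c.1.1).map c.1.2.simple).prod} : Set c.1.2.Group) ∪ ↑T) = ⊤ := by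
  simp only [List.mem_cons, List.not_mem_nil, or_false] at hc
  rcases hc with rfl | rfl | rfl | rfl | rfl | rfl | rfl
  · apply one_refl _ 0
    intro S h1 h2
    exact coxeter_closure_top _ 8 B2.tab B2.tab_ok B2.levels B2.chain_ok [0]
      [[2], [2, 0]]
      (by decide +kernel) S h1 (by simpa using h2)
  · apply one_refl _ 0
    intro S h1 h2
    exact coxeter_closure_top _ 12 G2.tab G2.tab_ok G2.levels G2.chain_ok [0]
      [[2], [2, 0]]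
      (by decide +kernel) S h1 (by simpa using h2)
  · apply two_refl _ 0 2
    · have := coxeter_wp_ne _ 24 D4.tab D4.tab_ok [0] [2] 1 (by decide +kernel)
      simpa [sN] using this
    intro S h1 h2 h3
    exact coxeter_closure_top _ 24 D4.tab D4.tab_ok D4.levels D4.chain_ok [0, 2]
      [[2], [0, 2, 1], [3], [0, 2, 1, 1, 3, 0, 0, 2, 1]]
      (by decide +kernel) S h1 (by simpa using ⟨h2, h3⟩)
  · apply two_refl _ 0 2
    · have := coxeter_wp_ne _ 48 F4.tab F4.tab_ok [0] [2] 0 (by decide +kernel)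
      simpa [sN] using this
    intro S h1 h2 h3
    exact coxeter_closure_top _ 48 F4.tab F4.tab_ok F4.levels F4.chain_ok [0, 2]
      [[2], [0, 2, 1], [3], [0, 3, 1]]
      (by decide +kernel) S h1 (by simpa using ⟨h2, h3⟩)
  · apply one_refl _ 0
    intro S h1 h2
    exact coxeter_closure_top _ 72 E6.tab E6.tab_ok E6.levels E6.chain_ok [0]
      [[2], [1, 2, 0, 1, 1, 1, 1, 2, 0, 0, 0, 0, 1, 2, 0], [0, 2, 1], [0, 0, 0, 0, 0, 2, 1, 1, 1, 1, 1], [0, 0, 0, 0, 0, 0, 2, 1, 1, 1, 1, 1, 1], [1, 1, 1, 1, 1, 2, 0, 0, 0, 0, 0]]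
      (by decide +kernel) S h1 (by simpa using h2)
  · apply one_refl _ 1
    intro S h1 h2
    exact coxeter_closure_top _ 126 E7.tab E7.tab_ok E7.levels E7.chain_ok [1]
      [[0, 0, 2, 1, 1, 2, 1, 2, 0, 1, 1, 1, 2, 0, 0, 0, 1, 2, 0, 2, 0, 0, 2, 1, 1], [2], [1, 1, 2, 0, 0, 2, 0, 2, 1, 0, 0, 0, 2, 1, 1, 1, 0, 2, 1, 2, 1, 1, 2, 0, 0], [2, 1, 1, 2, 0, 0, 1, 1, 1, 1, 2, 0, 0, 0, 0, 1, 1, 2, 0, 0, 2], [0, 2, 1, 1, 2, 0, 1, 1, 1, 2, 0, 0, 0, 1, 2, 0, 0, 2, 1], [0, 0, 2, 1, 1, 2, 1, 1, 2, 0, 0, 2, 0, 0, 2, 1, 1], [1, 2, 0, 0, 2, 1, 0, 0, 0, 2, 1, 1, 1, 0, 2, 1, 1, 2, 0]]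
      (by decide +kernel) S h1 (by simpa using h2)
  · apply one_refl _ 0
    intro S h1 h2
    exact coxeter_closure_top _ 240 E8.tab E8.tab_ok E8.levels E8.chain_ok [0]
      [[2], [1, 1, 1, 2, 0, 0, 0, 0, 0, 0, 0, 2, 1, 1, 1, 1, 1, 1, 1, 2, 0, 0, 0], [0, 2, 1], [0, 2, 1, 1, 1, 2, 0, 0, 1, 1, 1, 1, 1, 2, 0, 0, 0, 0, 0, 1, 1, 2, 0, 0, 0, 2, 1], [0, 0, 2, 1, 1, 1, 2, 0, 1, 1, 1, 1, 2, 0, 0, 0, 0, 1, 2, 0, 0, 0, 2, 1, 1], [0, 0, 0, 2, 1, 1, 1, 2, 1, 1, 1, 2, 0, 0, 0, 2, 0, 0, 0, 2, 1, 1, 1], [1, 1, 2, 0, 0, 0, 2, 1, 0, 0, 0, 0, 2, 1, 1, 1, 1, 0, 2, 1, 1, 1, 2, 0, 0], [1, 2, 0, 0, 0, 2, 1, 1, 0, 0, 0, 0, 0, 2, 1, 1, 1, 1, 1, 0, 0, 2, 1, 1, 1, 2, 0]]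
      (by decide +kernel) S h1 (by simpa using h2)

end Cfsg.Agent.S2419
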