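import Cfsg.Statements.S2427
import Cfsg.Agent.Lib.Helper89.SL23

set_option autoImplicit false
open Cfsg

namespace Cfsg.Agent.S2427

open Cfsg.Agent.Lib.Helper89.SL23

/-- The group SL₂ over the field with 3 elements has order 24 and centre of order 2; its commutator subgroup has order 8, is isomorphic to the quaternion group of order 8 and is complemented by every Sylow 3-subgroup (so the group is a semidirect product of a quaternion group of order 8 by a cyclic group of order 3); and its only normal subgroups besides the trivial subgroup and the whole group are the centre and the commutator subgroup. -/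
theorem result :
    Nat.card (Matrix.SpecialLinearGroup (Fin 2) (ZMod 3)) = 24 ∧
    Nat.card (Subgroup.center (Matrix.SpecialLinearGroup (Fin 2) (ZMod 3))) = 2 ∧
    Nat.card (commutator (Matrix.SpecialLinearGroup (Fin 2) (ZMod 3))) = 8 ∧
    Nonempty (commutator (Matrix.SpecialLinearGroup (Fin 2) (ZMod 3)) ≃* QuaternionGroup 2) ∧
    (∀ P : Sylow 3 (Matrix.SpecialLinearGroup (Fin 2) (ZMod 3)),
      Subgroup.IsComplement' (commutator (Matrix.SpecialLinearGroup (Fin 2) (ZMod 3)))
        (P : Subgroup (Matrix.SpecialLinearGroup (Fin 2) (ZMod 3)))) ∧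
    ∀ N : Subgroup (Matrix.SpecialLinearGroup (Fin 2) (ZMod 3)), N.Normal →
      N = ⊥ ∨ N = ⊤ ∨ N = Subgroup.center (Matrix.SpecialLinearGroup (Fin 2) (ZMod 3)) ∨
        N = commutator (Matrix.SpecialLinearGroup (Fin 2) (ZMod 3)) := by
  rw [commutator_eq]
  refine ⟨card_G, card_center, card_Q, Q_quaternion, ?_, normal_cases⟩
  intro P
  have : Fact (Nat.Prime 3) := ⟨Nat.prime_three⟩
  have hP : Nat.card (P : Subgroup (Matrix.SpecialLinearGroup (Fin 2) (ZMod 3))) = 3 := by
    rw [Sylow.card_eq_multiplicity, card_G]
    have : (24 : ℕ).factorization 3 = 1 := by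
      have h24 : (24 : ℕ) = 3 ^ 1 * 8 := by norm_num
      rw [h24, Nat.factorization_mul (by norm_num) (by norm_num), Nat.Prime.factorization_pow
        Nat.prime_three]
      simp
      exact Nat.factorization_eq_zero_of_not_dvd (by norm_num)
    rw [this, pow_one]
  apply Subgroup.isComplement'_of_coprime
  · rw [card_Q, hP, card_G]
  · rw [card_Q, hP]; decide

end Cfsg.Agent.S2427
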