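import Cfsg.Statements.S2428
import Cfsg.Agent.Lib.Helper41.SL2Invol

set_option autoImplicit false
open Cfsg

namespace Cfsg.Agent.S2428

open Cfsg.Agent.Lib.Helper41

variable {F : Type*} [Field F]

/-- diagonal element -/
def dg (u : Fˣ) : Matrix.SpecialLinearGroup (Fin 2) F :=
  ⟨!![(u : F), 0; 0, ((u⁻¹ : Fˣ) : F)], by simp [Matrix.det_fin_two]⟩

theorem dg_coe (u : Fˣ) : (dg u : Matrix (Fin 2) (Fin 2) F) = !![(u : F), 0; 0, ((u⁻¹ : Fˣ) : F)] := rfl

/-- Weyl element -/
def ww : Matrix.SpecialLinearGroup (Fin 2) F := ⟨!![0, 1; -1, 0], by simp [Matrix.det_fin_two]⟩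

theorem ww_coe : (ww : Matrix.SpecialLinearGroup (Fin 2) F).1 = !![0, 1; -1, 0] := rfl

theorem mem_centralizer_diag (d : Matrix.SpecialLinearGroup (Fin 2) F)
    (hd01 : (d : Matrix (Fin 2) (Fin 2) F) 0 1 = 0) (hd10 : (d : Matrix (Fin 2) (Fin 2) F) 1 0 = 0)
    (hda : (d : Matrix (Fin 2) (Fin 2) F) 0 0 ^ 2 ≠ 1) (g : Matrix.SpecialLinearGroup (Fin 2) F) :
    g ∈ Subgroup.centralizer ({d} : Set (Matrix.SpecialLinearGroup (Fin 2) F)) ↔
      ((g : Matrix (Fin 2) (Fin 2) F) 0 1 = 0 ∧ (g : Matrix (Fin 2) (Fin 2) F) 1 0 = 0) := by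
  have hdet := sl2_det d
  rw [hd01, hd10] at hdet
  have hne : (d : Matrix (Fin 2) (Fin 2) F) 0 0 - (d : Matrix (Fin 2) (Fin 2) F) 1 1 ≠ 0 := by
    intro h
    apply hda
    have : (d : Matrix (Fin 2) (Fin 2) F) 1 1 = (d : Matrix (Fin 2) (Fin 2) F) 0 0 := by linear_combination -h
    rw [this] at hdet
    linear_combination hdet
  rw [Subgroup.mem_centralizer_singleton_iff, sl2_ext_iff, Matrix.SpecialLinearGroup.coe_mul,
    Matrix.SpecialLinearGroup.coe_mul]
  constructor
  · intro h
    have e01 := congrFun (congrFun h 0) 1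
    have e10 := congrFun (congrFun h 1) 0
    simp [Matrix.mul_apply, Fin.sum_univ_two, hd01, hd10] at e01 e10
    constructor
    · have : ((d : Matrix (Fin 2) (Fin 2) F) 0 0 - (d : Matrix (Fin 2) (Fin 2) F) 1 1) * (g : Matrix (Fin 2) (Fin 2) F) 0 1 = 0 := by
        linear_combination -e01
      exact (mul_eq_zero.1 this).resolve_left hne
    · have : ((d : Matrix (Fin 2) (Fin 2) F) 0 0 - (d : Matrix (Fin 2) (Fin 2) F) 1 1) * (g : Matrix (Fin 2) (Fin 2) F) 1 0 = 0 := by
        linear_combination e10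
      exact (mul_eq_zero.1 this).resolve_left hne
  · rintro ⟨h1, h2⟩
    ext i j
    fin_cases i <;> fin_cases j <;> simp [Matrix.mul_apply, Fin.sum_univ_two, hd01, hd10, h1, h2, mul_comm]

/-- Let F be a finite field with q elements, q odd, and let d be a diagonal element of SL₂ over F whose diagonal entry a has a² ≠ 1 (such d exist exactly when q > 3). Then the centraliser of d is precisely the diagonal subgroup T; the normaliser of T has order 2(q − 1) and exactly (q + 5)/2 conjugacy classes; and every element of that normaliser outside T has square equal to −1. -/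
theorem result {F : Type*} [Field F] [Fintype F] (hodd : Odd (Fintype.card F))
    (d : Matrix.SpecialLinearGroup (Fin 2) F) (hd01 : (d : Matrix (Fin 2) (Fin 2) F) 0 1 = 0) (hd10 : (d : Matrix (Fin 2) (Fin 2) F) 1 0 = 0) (hda : (d : Matrix (Fin 2) (Fin 2) F) 0 0 ^ 2 ≠ 1) :
    (∀ g : Matrix.SpecialLinearGroup (Fin 2) F, g ∈ Subgroup.centralizer ({d} : Set (Matrix.SpecialLinearGroup (Fin 2) F)) ↔ ((g : Matrix (Fin 2) (Fin 2) F) 0 1 = 0 ∧ (g : Matrix (Fin 2) (Fin 2) F) 1 0 = 0)) ∧
    Nat.card (Subgroup.normalizer ((Subgroup.centralizer ({d} : Set (Matrix.SpecialLinearGroup (Fin 2) F))) : Set (Matrix.SpecialLinearGroup (Fin 2) F))) = 2 * (Fintype.card F - 1) ∧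
    Nat.card (ConjClasses (Subgroup.normalizer ((Subgroup.centralizer ({d} : Set (Matrix.SpecialLinearGroup (Fin 2) F))) : Set (Matrix.SpecialLinearGroup (Fin 2) F)))) = (Fintype.card F + 5) / 2 ∧
    ∀ g : Matrix.SpecialLinearGroup (Fin 2) F, g ∈ Subgroup.normalizer ((Subgroup.centralizer ({d} : Set (Matrix.SpecialLinearGroup (Fin 2) F))) : Set (Matrix.SpecialLinearGroup (Fin 2) F)) →
      g ∉ Subgroup.centralizer ({d} : Set (Matrix.SpecialLinearGroup (Fin 2) F)) → ((g * g) : Matrix (Fin 2) (Fin 2) F) = -1 := by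
  have hodd' : Fintype.card F % 2 = 1 := Nat.odd_iff.1 hodd
  have h2 : (2 : F) ≠ 0 := two_ne_zero_of_odd_card hodd'
  have hmem := mem_centralizer_diag d hd01 hd10 hda
  set T := Subgroup.centralizer ({d} : Set (Matrix.SpecialLinearGroup (Fin 2) F)) with hT
  have hdT : d ∈ T := (hmem d).2 ⟨hd01, hd10⟩
  have hdet := sl2_det d
  rw [hd01, hd10] at hdet
  have hne : (d : Matrix (Fin 2) (Fin 2) F) 0 0 - (d : Matrix (Fin 2) (Fin 2) F) 1 1 ≠ 0 := by
    intro h
    apply hda
    have : (d : Matrix (Fin 2) (Fin 2) F) 1 1 = (d : Matrix (Fin 2) (Fin 2) F) 0 0 := by linear_combination -h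
    rw [this] at hdet
    linear_combination hdet
  -- elements of the normaliser are diagonal or antidiagonal
  have hshape : ∀ g ∈ Subgroup.normalizer (T : Set (Matrix.SpecialLinearGroup (Fin 2) F)), g ∈ T ∨
      ((g : Matrix (Fin 2) (Fin 2) F) 0 0 = 0 ∧ (g : Matrix (Fin 2) (Fin 2) F) 1 1 = 0) := by
    intro g hg
    have h1 := (Subgroup.mem_normalizer_iff.1 hg d).1 hdT
    rw [hmem, Matrix.SpecialLinearGroup.coe_mul, Matrix.SpecialLinearGroup.coe_mul,
      Matrix.SpecialLinearGroup.coe_inv] at h1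
    have hgdet := sl2_det g
    simp [Matrix.adjugate_fin_two, Matrix.mul_apply, Fin.sum_univ_two, hd01, hd10] at h1
    obtain ⟨e1, e2⟩ := h1
    have f1 : (g : Matrix (Fin 2) (Fin 2) F) 0 0 * (g : Matrix (Fin 2) (Fin 2) F) 0 1 = 0 := by
      have : ((d : Matrix (Fin 2) (Fin 2) F) 0 0 - (d : Matrix (Fin 2) (Fin 2) F) 1 1) *
          ((g : Matrix (Fin 2) (Fin 2) F) 0 0 * (g : Matrix (Fin 2) (Fin 2) F) 0 1) = 0 := by
        linear_combination -e1
      exact (mul_eq_zero.1 this).resolve_left hne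
    have f2 : (g : Matrix (Fin 2) (Fin 2) F) 1 0 * (g : Matrix (Fin 2) (Fin 2) F) 1 1 = 0 := by
      have : ((d : Matrix (Fin 2) (Fin 2) F) 0 0 - (d : Matrix (Fin 2) (Fin 2) F) 1 1) *
          ((g : Matrix (Fin 2) (Fin 2) F) 1 0 * (g : Matrix (Fin 2) (Fin 2) F) 1 1) = 0 := by
        linear_combination e2
      exact (mul_eq_zero.1 this).resolve_left hne
    rcases mul_eq_zero.1 f1 with h | h
    · right
      refine ⟨h, ?_⟩
      rcases mul_eq_zero.1 f2 with h' | h'
      · rw [h, h'] at hgdet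
        simp at hgdet
      · exact h'
    · left
      rw [hmem]
      refine ⟨h, ?_⟩
      rcases mul_eq_zero.1 f2 with h' | h'
      · exact h'
      · rw [h, h'] at hgdet
        simp at hgdet
  have hcardT : Nat.card T = Fintype.card F - 1 := by
    have hinj : Function.Injective (dg : Fˣ → Matrix.SpecialLinearGroup (Fin 2) F) := by
      intro u v h
      have h' := congrArg Subtype.val h
      have := congrFun (congrFun h' 0) 0
      exact Units.ext this
    have hrange : (T : Set (Matrix.SpecialLinearGroup (Fin 2) F)) = Set.range dg := by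
      ext g
      rw [SetLike.mem_coe, hmem]
      constructor
      · rintro ⟨h1, h2⟩
        have hgdet := sl2_det g
        rw [h1, h2] at hgdet
        have hu : (g : Matrix (Fin 2) (Fin 2) F) 0 0 * (g : Matrix (Fin 2) (Fin 2) F) 1 1 = 1 := by
          linear_combination hgdet
        refine ⟨⟨(g : Matrix (Fin 2) (Fin 2) F) 0 0, (g : Matrix (Fin 2) (Fin 2) F) 1 1, hu, by rw [mul_comm]; exact hu⟩, ?_⟩
        apply Subtype.ext
        rw [dg_coe]
        ext i j
        fin_cases i <;> fin_cases j <;> simp [h1, h2]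
      · rintro ⟨u, rfl⟩
        rw [dg_coe]; simp
    have h1 : Nat.card T = Nat.card (Set.range (dg : Fˣ → Matrix.SpecialLinearGroup (Fin 2) F)) :=
      Nat.card_congr (Equiv.setCongr hrange)
    rw [h1, Nat.card_range_of_injective hinj, Nat.card_units, Nat.card_eq_fintype_card]
  have hpack := normalizer_package T ww
    (by
      intro a ha b hb
      rw [hmem] at ha hb
      rw [sl2_ext_iff, Matrix.SpecialLinearGroup.coe_mul, Matrix.SpecialLinearGroup.coe_mul]
      ext i j
      fin_cases i <;> fin_cases j <;> simp [Matrix.mul_apply, Fin.sum_univ_two, ha.1, ha.2, hb.1, hb.2, mul_comm])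
    (by
      intro t ht
      rw [hmem] at ht
      rw [sl2_ext_iff, Matrix.SpecialLinearGroup.coe_mul, Matrix.SpecialLinearGroup.coe_mul,
        Matrix.SpecialLinearGroup.coe_inv, Matrix.SpecialLinearGroup.coe_inv, ww_coe]
      ext i j
      fin_cases i <;> fin_cases j <;>
        simp [Matrix.adjugate_fin_two, Matrix.mul_apply, Matrix.vecMul, dotProduct, Fin.sum_univ_two, ht.1, ht.2])
    (by
      rw [hmem, ww_coe]; simp)
    (by
      intro g hg
      rcases hshape g hg with h | h
      · left; exact h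
      · right
        rw [hmem, Matrix.SpecialLinearGroup.coe_mul, Matrix.SpecialLinearGroup.coe_inv, ww_coe]
        simp [Matrix.adjugate_fin_two, Matrix.mul_apply, Fin.sum_univ_two, h.1, h.2])
    (-1)
    (by rw [hmem, Matrix.SpecialLinearGroup.coe_neg, Matrix.SpecialLinearGroup.coe_one]; simp)
    (sl2_neg_one_ne_one h2)
    (fun t _ => sl2_mul_self_eq_one_iff h2 t)
  rw [hcardT] at hpack
  have hq3 : 3 ≤ Fintype.card F := by
    have : 1 < Fintype.card F := Fintype.one_lt_card
    omega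
  refine ⟨hmem, hpack.1, by have := hpack.2; omega, ?_⟩
  intro g hg hgT
  have h := (hshape g hg).resolve_left hgT
  have := sl2_sq_of_trace_zero g (by rw [Matrix.trace_fin_two, h.1, h.2]; ring)
  rw [← pow_two]
  exact this

end Cfsg.Agent.S2428
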