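import Cfsg.Statements.S2431
import Cfsg.Agent.Lib.Helper62.SL2Norm

set_option autoImplicit false
open Cfsg

namespace Cfsg.Agent.S2431

open Cfsg.Agent.Lib.Helper62

/-- Let F be a finite field with q elements, q odd, and S a Sylow 2-subgroup of SL₂ over F. The centraliser of S is the centre of SL₂ (of order 2); S is its own normaliser when q ≡ ±1 mod 8, and has index 3 in its normaliser when q ≡ ±3 mod 8. -/
theorem result {F : Type*} [Field F] [Fintype F] (hodd : Odd (Fintype.card F)) (S : Sylow 2 (Matrix.SpecialLinearGroup (Fin 2) F)) :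
    Subgroup.centralizer ((S : Subgroup (Matrix.SpecialLinearGroup (Fin 2) F)) : Set (Matrix.SpecialLinearGroup (Fin 2) F)) = Subgroup.center (Matrix.SpecialLinearGroup (Fin 2) F) ∧
    ((Fintype.card F % 8 = 1 ∨ Fintype.card F % 8 = 7) →
      Subgroup.normalizer ((S : Subgroup (Matrix.SpecialLinearGroup (Fin 2) F)) : Set (Matrix.SpecialLinearGroup (Fin 2) F)) = (S : Subgroup (Matrix.SpecialLinearGroup (Fin 2) F))) ∧
    ((Fintype.card F % 8 = 3 ∨ Fintype.card F % 8 = 5) →
      Nat.card (Subgroup.normalizer ((S : Subgroup (Matrix.SpecialLinearGroup (Fin 2) F)) : Set (Matrix.SpecialLinearGroup (Fin 2) F))) = 3 * Nat.card S) := by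
  have h2 := Cfsg.Agent.Lib.Helper5.two_ne_zero_of_odd_card hodd
  obtain ⟨k, hk, ⟨e⟩⟩ := Cfsg.Agent.Lib.Helper5.sylow_two_SL2_quaternion hodd S
  have hne : NeZero (2 ^ k) := ⟨by positivity⟩
  have hcardS : Nat.card (S : Subgroup (Matrix.SpecialLinearGroup (Fin 2) F)) = 4 * 2 ^ k := by
    rw [Nat.card_congr e.toEquiv, Nat.card_eq_fintype_card, QuaternionGroup.card]
  have hG := Cfsg.Agent.Lib.Helper5.card_SL2 (F := F)
  refine ⟨?_, ?_, ?_⟩
  · obtain ⟨m, rfl⟩ : ∃ m, k = m + 1 := ⟨k - 1, by omega⟩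
    exact centralizer_quat_eq_center h2 _ (2 ^ (m + 1)) (2 ^ m) (by ring) e
  · intro hq
    have h16 : 2 ^ 4 ∣ Nat.card (Matrix.SpecialLinearGroup (Fin 2) F) := by
      rw [hG]; exact sixteen_dvd_of_mod_eight hq
    have h1 := S.pow_dvd_card_of_pow_dvd_card h16
    rw [hcardS] at h1
    have hk2 : 2 ≤ k := by
      by_contra hcon
      have : k = 1 := by omega
      subst this
      revert h1
      decide
    obtain ⟨m, rfl⟩ : ∃ m, k = m + 2 := ⟨k - 2, by omega⟩
    exact normalizer_quat_eq h2 S m e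
  · intro hq
    have h16 := not_sixteen_dvd_of_mod_eight hq
    rw [← hG] at h16
    have hk1 : k = 1 := by
      by_contra hcon
      obtain ⟨m, rfl⟩ : ∃ m, k = m + 2 := ⟨k - 2, by omega⟩
      apply h16
      have h1 := Subgroup.card_subgroup_dvd_card (S : Subgroup (Matrix.SpecialLinearGroup (Fin 2) F))
      rw [hcardS] at h1
      refine Dvd.dvd.trans ⟨2 ^ m, ?_⟩ h1
      ring
    subst hk1
    exact card_normalizer_q8 h2 S e

end Cfsg.Agent.S2431
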