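import Cfsg.Statements.S2432
import Cfsg.Agent.Lib.Helper41.BorelParam

set_option autoImplicit false
open Cfsg

namespace Cfsg.Agent.S2432

open Cfsg.Agent.Lib.Helper41 Cfsg.Agent.Lib.Helper15
open scoped ComplexConjugate

/-- Let F be a finite field with q elements, q odd, and for a multiplicative character α of F let R(α) be the function on SL₂ induced from the linear character b ↦ α(b₁₁) of the upper triangular subgroup. For multiplicative characters α, β the inner product of R(α) and R(β) equals the number of true statements among 'α = β' and 'α = β⁻¹' (the Mackey formula for the upper triangular subgroup, whose intersection with a conjugate by the Weyl element is the diagonal subgroup). -/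
theorem result {F : Type*} [Field F] [Fintype F] [DecidableEq F] (hodd : Odd (Fintype.card F))
    (α β : MulChar F ℂ) [Decidable (α = β)] [Decidable (α = β⁻¹)] :
    Cfsg.classInner (Cfsg.indFun ((Cfsg.upperTriangularGL 2 F).comap Matrix.SpecialLinearGroup.toGL) (fun b => α (((b : Matrix.SpecialLinearGroup (Fin 2) F) : Matrix (Fin 2) (Fin 2) F) 0 0))) (Cfsg.indFun ((Cfsg.upperTriangularGL 2 F).comap Matrix.SpecialLinearGroup.toGL) (fun b => β (((b : Matrix.SpecialLinearGroup (Fin 2) F) : Matrix (Fin 2) (Fin 2) F) 0 0))) =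
      (if α = β then 1 else 0) + (if α = β⁻¹ then 1 else 0) := by
  classical
  have : Fintype ((Cfsg.upperTriangularGL 2 F).comap
    (Matrix.SpecialLinearGroup.toGL : Matrix.SpecialLinearGroup (Fin 2) F →* _)) :=
    Fintype.ofFinite _
  rw [classInner_indFun_left _ _ _ (indFun_isClassFunction _ _)]
  unfold classInner
  rw [card_borel]
  rw [← Fintype.sum_equiv (Equiv.ofBijective _ (bor_bijective (F := F)))
    (fun p => α (p.1 : F) * conj (Cfsg.indFun ((Cfsg.upperTriangularGL 2 F).comap Matrix.SpecialLinearGroup.toGL) (fun b => β (((b : Matrix.SpecialLinearGroup (Fin 2) F) : Matrix (Fin 2) (Fin 2) F) 0 0)) (bor p.1 p.2))) _ (fun p => rfl)]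
  rw [Fintype.sum_prod_type]
  simp_rw [← Finset.mul_sum, ← map_sum, sum_principalSeries_bor]
  have h1 : ∀ r : Fˣ, α (r : F) * conj ((Fintype.card F : ℂ) * (β (r : F) + β ((r⁻¹ : Fˣ) : F)))
      = (Fintype.card F : ℂ) * ((α * β⁻¹) (r : F) + (α * β) (r : F)) := by
    intro r
    rw [map_mul, map_add, Complex.conj_natCast, starRingEnd_apply, starRingEnd_apply,
      MulChar.star_apply', MulChar.star_apply', MulChar.mul_apply, MulChar.mul_apply,
      MulChar.inv_apply' β ((r⁻¹ : Fˣ) : F), Units.val_inv_eq_inv_val, inv_inv]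
    ring
  simp_rw [h1]
  rw [← Finset.mul_sum, Finset.sum_add_distrib, sum_units_mulChar_eq, sum_units_mulChar_eq]
  have hq : (Fintype.card F : ℂ) ≠ 0 := by exact_mod_cast Fintype.card_ne_zero
  have hq1 : (Fintype.card F : ℂ) - 1 ≠ 0 := by
    rw [sub_ne_zero]
    exact_mod_cast (Fintype.one_lt_card (α := F)).ne'
  simp only [mul_eq_one_iff_eq_inv, inv_inv]
  split_ifs <;> field_simp <;> ring

end Cfsg.Agent.S2432
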