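import Cfsg.Statements.S2433
import Cfsg.Agent.Lib.Helper41.PrincipalSeries

set_option autoImplicit false
open Cfsg

namespace Cfsg.Agent.S2433

open Cfsg.Agent.Lib.Helper41

/-- Let F be a finite field with q elements, q odd, α a multiplicative character of F, and R(α) the function on SL₂ induced from the linear character b ↦ α(b₁₁) of the upper triangular subgroup. Then R(α) takes the value α(a) + α(a⁻¹) at a diagonal element with entries a, a⁻¹, a² ≠ 1; the value 0 at every element with no eigenvector in F²; the value α(ε) at an upper triangular element with both diagonal entries ε and non-zero upper right entry; and the value (q + 1)α(ε) at the scalar element ε (ε = ±1). -/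
theorem result {F : Type*} [Field F] [Fintype F] [DecidableEq F] (hodd : Odd (Fintype.card F)) (α : MulChar F ℂ) (g : Matrix.SpecialLinearGroup (Fin 2) F) :
    ((g : Matrix (Fin 2) (Fin 2) F) 0 1 = 0 → (g : Matrix (Fin 2) (Fin 2) F) 1 0 = 0 → (g : Matrix (Fin 2) (Fin 2) F) 0 0 ^ 2 ≠ 1 →
      (Cfsg.indFun ((Cfsg.upperTriangularGL 2 F).comap Matrix.SpecialLinearGroup.toGL) (fun b => α (((b : Matrix.SpecialLinearGroup (Fin 2) F) : Matrix (Fin 2) (Fin 2) F) 0 0))) g = α ((g : Matrix (Fin 2) (Fin 2) F) 0 0) + α ((g : Matrix (Fin 2) (Fin 2) F) 1 1)) ∧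
    ((∀ (c : F) (v : Fin 2 → F), v ≠ 0 → (g : Matrix (Fin 2) (Fin 2) F).mulVec v ≠ c • v) → (Cfsg.indFun ((Cfsg.upperTriangularGL 2 F).comap Matrix.SpecialLinearGroup.toGL) (fun b => α (((b : Matrix.SpecialLinearGroup (Fin 2) F) : Matrix (Fin 2) (Fin 2) F) 0 0))) g = 0) ∧
    ((g : Matrix (Fin 2) (Fin 2) F) 1 0 = 0 → (g : Matrix (Fin 2) (Fin 2) F) 0 0 = (g : Matrix (Fin 2) (Fin 2) F) 1 1 → (g : Matrix (Fin 2) (Fin 2) F) 0 1 ≠ 0 →
      (Cfsg.indFun ((Cfsg.upperTriangularGL 2 F).comap Matrix.SpecialLinearGroup.toGL) (fun b => α (((b : Matrix.SpecialLinearGroup (Fin 2) F) : Matrix (Fin 2) (Fin 2) F) 0 0))) g = α ((g : Matrix (Fin 2) (Fin 2) F) 0 0)) ∧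
    ((g : Matrix (Fin 2) (Fin 2) F) 0 1 = 0 → (g : Matrix (Fin 2) (Fin 2) F) 1 0 = 0 → (g : Matrix (Fin 2) (Fin 2) F) 0 0 = (g : Matrix (Fin 2) (Fin 2) F) 1 1 →
      (Cfsg.indFun ((Cfsg.upperTriangularGL 2 F).comap Matrix.SpecialLinearGroup.toGL) (fun b => α (((b : Matrix.SpecialLinearGroup (Fin 2) F) : Matrix (Fin 2) (Fin 2) F) 0 0))) g = ((Fintype.card F : ℂ) + 1) * α ((g : Matrix (Fin 2) (Fin 2) F) 0 0)) := by
  rw [principalSeries_formula]
  refine ⟨?_, ?_, ?_, ?_⟩
  · intro h01 h10 hsq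
    have hdet := borel_00_mul_11 g h10
    have hne : g.1 1 1 - g.1 0 0 ≠ 0 := by
      intro h
      apply hsq
      rw [sub_eq_zero] at h
      rw [h] at hdet
      rw [sq]; exact hdet
    rw [h01, h10]
    simp only [zero_mul, sub_zero, zero_add, add_zero, if_true, mul_eq_zero, hne, false_or]
    rw [Finset.sum_ite_eq' Finset.univ (0 : F) (fun _ => α (g.1 0 0))]
    simp
  · intro h
    have h1 : ∀ c : F, ¬ (g.1 1 0 + (g.1 1 1 - g.1 0 0) * c - g.1 0 1 * c ^ 2 = 0) := by
      intro c hc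
      apply h (g.1 0 0 + g.1 0 1 * c) ![1, c]
      · intro h0
        have := congrFun h0 0
        simp at this
      · funext i
        fin_cases i
        · simp [Matrix.mulVec, dotProduct, Fin.sum_univ_two]
        · simp [Matrix.mulVec, dotProduct, Fin.sum_univ_two]
          linear_combination hc
    have h2 : ¬ (g.1 0 1 = 0) := by
      intro hc
      apply h (g.1 1 1) ![0, 1]
      · intro h0
        have := congrFun h0 1
        simp at this
      · funext i
        fin_cases i
        · simp [Matrix.mulVec, dotProduct, Fin.sum_univ_two, hc]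
        · simp [Matrix.mulVec, dotProduct, Fin.sum_univ_two]
    simp [h1, h2]
  · intro h10 heq h01
    rw [h10, heq]
    simp only [sub_self, zero_mul, zero_add, add_zero, if_neg h01, neg_eq_zero, mul_eq_zero, h01,
      false_or, zero_sub, pow_eq_zero_iff (two_ne_zero)]
    rw [Finset.sum_ite_eq' Finset.univ (0 : F) (fun c => α (g.1 1 1 + g.1 0 1 * c))]
    simp
  · intro h01 h10 heq
    rw [h01, h10, heq]
    simp [Finset.card_univ]
    ring

end Cfsg.Agent.S2433
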