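import Cfsg.Statements.S2437
import Cfsg.Agent.Lib.Helper39.GL2Char.SClasses

set_option autoImplicit false
open Cfsg

namespace Cfsg.Agent.S2437

open Cfsg.Agent.Lib.Helper39

section
variable {F : Type*} [Field F] [Fintype F] [DecidableEq F]

lemma conj_formula (a s : Fˣ) (t x : F) :
    bS a t * bS s x * (bS a t)⁻¹
      = bS s ((a : F) ^ 2 * x + a * t * (((s⁻¹ : Fˣ) : F) - s)) := by
  rw [bS_inv, bS_mul, bS_mul]
  congr 1
  · rw [mul_comm a s, mul_assoc, mul_inv_cancel, mul_one]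
  · simp only [inv_inv, Units.val_mul]
    ring

lemma isConj_bBS_iff (s s' : Fˣ) (x y : F) :
    IsConj (bBS (s, x)) (bBS (s', y)) ↔
      s' = s ∧ ∃ (a : Fˣ) (t : F), y = (a : F) ^ 2 * x + a * t * (((s⁻¹ : Fˣ) : F) - s) := by
  rw [isConj_iff]
  constructor
  · rintro ⟨c, hc⟩
    obtain ⟨⟨a, t⟩, rfl⟩ := bBS_bijective.2 c
    have h1 : bS a t * bS s x * (bS a t)⁻¹ = bS s' y := congrArg Subtype.val hc
    rw [conj_formula] at h1
    have h2 : bBS (s, (a : F) ^ 2 * x + a * t * (((s⁻¹ : Fˣ) : F) - s)) = bBS (s', y) :=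
      Subtype.ext h1
    have h3 := bBS_bijective.1 h2
    rw [Prod.mk.injEq] at h3
    exact ⟨h3.1.symm, a, t, h3.2.symm⟩
  · rintro ⟨rfl, a, t, rfl⟩
    refine ⟨bBS (a, t), Subtype.ext ?_⟩
    exact conj_formula a s' t x

/-- parameters of the classes of the Borel subgroup. -/
def cMap (ε : F) : {s : Fˣ // ¬ (s = 1 ∨ s = -1)} ⊕ (Bool × Option Bool) → ConjClasses (BS F)
  | Sum.inl s => ConjClasses.mk (bBS (s.1, 0))
  | Sum.inr (b, none) => ConjClasses.mk (bBS (sgn b, 0))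
  | Sum.inr (b, some false) => ConjClasses.mk (bBS (sgn b, 1))
  | Sum.inr (b, some true) => ConjClasses.mk (bBS (sgn b, ε))

lemma sgn_cases (b : Bool) : (sgn b : Fˣ) = 1 ∨ (sgn b : Fˣ) = -1 := by
  cases b <;> simp [sgn]

lemma sgn_sub (b : Bool) : (((sgn b : Fˣ)⁻¹ : Fˣ) : F) - (sgn b : Fˣ) = 0 := by
  rw [sgn_inv, sub_self]

lemma sgn_inj (h2 : (2 : F) ≠ 0) {b b' : Bool} (h : (sgn b : Fˣ) = sgn b') : b = b' := by
  have h' : ((sgn b : Fˣ) : F) = (sgn b' : Fˣ) := congrArg Units.val h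
  cases b <;> cases b' <;> simp [sgn] at h' ⊢
  · exact h2 (by linear_combination h')
  · exact h2 (by linear_combination -h')

lemma cMap_injective (h2 : (2 : F) ≠ 0) {ε : F} (hε : ¬ IsSquare ε) :
    Function.Injective (cMap ε) := by
  have hε0 : ε ≠ 0 := by rintro rfl; exact hε IsSquare.zero
  rintro (s | ⟨b, _ | _ | _⟩) (s' | ⟨b', _ | _ | _⟩) h <;>
    simp only [cMap, ConjClasses.mk_eq_mk_iff_isConj, isConj_bBS_iff] at h
  · exact congrArg Sum.inl (Subtype.ext h.1.symm)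
  · exact absurd (h.1 ▸ sgn_cases b') s.2
  · exact absurd (h.1 ▸ sgn_cases b') s.2
  · exact absurd (h.1 ▸ sgn_cases b') s.2
  · exact absurd (h.1 ▸ sgn_cases b) s'.2
  · rw [sgn_inj h2 h.1]
  · obtain ⟨-, a, t, h⟩ := h
    rw [sgn_sub] at h
    simp at h
  · obtain ⟨-, a, t, h⟩ := h
    rw [sgn_sub] at h
    simp at h
    exact absurd h hε0
  · exact absurd (h.1 ▸ sgn_cases b) s'.2
  · obtain ⟨-, a, t, h⟩ := h
    rw [sgn_sub] at h
    simp at h
    exact absurd h.symm (pow_ne_zero 2 a.ne_zero)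
  · rw [sgn_inj h2 h.1]
  · obtain ⟨-, a, t, h⟩ := h
    rw [sgn_sub] at h
    simp at h
    exact absurd ⟨(a : F), by rw [h]; ring⟩ hε
  · exact absurd (h.1 ▸ sgn_cases b) s'.2
  · obtain ⟨-, a, t, h⟩ := h
    rw [sgn_sub] at h
    simp at h
    exact absurd h hε0
  · obtain ⟨-, a, t, h⟩ := h
    rw [sgn_sub] at h
    simp at h
    exfalso
    apply hε
    refine ⟨((a⁻¹ : Fˣ) : F), ?_⟩
    have ha : (a : F) * ((a⁻¹ : Fˣ) : F) = 1 := by simp
    calc ε = ((a : F) * ((a⁻¹ : Fˣ) : F)) ^ 2 * ε := by rw [ha]; ring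
      _ = ((a : F) ^ 2 * ε) * (((a⁻¹ : Fˣ) : F) * ((a⁻¹ : Fˣ) : F)) := by ring
      _ = _ := by rw [← h, one_mul]
  · rw [sgn_inj h2 h.1]

lemma cMap_surjective {ε : F} (hε : ¬ IsSquare ε) :
    Function.Surjective (cMap ε) := by
  have hε0 : ε ≠ 0 := by rintro rfl; exact hε IsSquare.zero
  intro C
  obtain ⟨g, rfl⟩ := ConjClasses.mk_surjective C
  obtain ⟨⟨s, x⟩, rfl⟩ := bBS_bijective.2 g
  by_cases hs : s = 1 ∨ s = -1
  · obtain ⟨b, rfl⟩ : ∃ b : Bool, s = sgn b := by
      rcases hs with rfl | rfl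
      · exact ⟨false, rfl⟩
      · exact ⟨true, rfl⟩
    by_cases hx : x = 0
    · subst hx
      exact ⟨Sum.inr (b, none), rfl⟩
    by_cases hsq : IsSquare x
    · obtain ⟨c, hc⟩ := hsq
      have hc0 : c ≠ 0 := by rintro rfl; exact hx (by rw [hc, mul_zero])
      refine ⟨Sum.inr (b, some false), ?_⟩
      simp only [cMap, ConjClasses.mk_eq_mk_iff_isConj, isConj_bBS_iff]
      refine ⟨trivial, Units.mk0 c hc0, 0, ?_⟩
      rw [Units.val_mk0, hc]; ring
    · obtain ⟨c, hc⟩ := isSquare_mul_of_not hsq hε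
      have hc0 : c ≠ 0 := by
        rintro rfl
        rw [mul_zero] at hc
        exact mul_ne_zero hx hε0 hc
      refine ⟨Sum.inr (b, some true), ?_⟩
      simp only [cMap, ConjClasses.mk_eq_mk_iff_isConj, isConj_bBS_iff]
      refine ⟨trivial, Units.mk0 (c / ε) (div_ne_zero hc0 hε0), 0, ?_⟩
      rw [Units.val_mk0]
      field_simp
      linear_combination hc
  · refine ⟨Sum.inl ⟨s, hs⟩, ?_⟩
    simp only [cMap, ConjClasses.mk_eq_mk_iff_isConj, isConj_bBS_iff]
    have hne : ((s⁻¹ : Fˣ) : F) - s ≠ 0 := by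
      intro h
      apply hs
      have h1 : (s : F) * s = 1 := by
        have : ((s⁻¹ : Fˣ) : F) = s := by linear_combination h
        calc (s : F) * s = s * ((s⁻¹ : Fˣ) : F) := by rw [this]
          _ = 1 := by simp
      rcases mul_self_eq_one_iff.mp h1 with h | h
      · left; exact Units.ext h
      · right; apply Units.ext; rw [h]; simp
    refine ⟨trivial, 1, x / (((s⁻¹ : Fˣ) : F) - s), ?_⟩
    rw [Units.val_one]
    field_simp
    ring

lemma card_param (h2 : (2 : F) ≠ 0) :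
    Fintype.card {s : Fˣ // ¬ (s = 1 ∨ s = -1)} = Fintype.card F - 1 - 2 := by
  rw [Fintype.card_subtype_compl, Fintype.card_units]
  congr 1
  rw [Fintype.card_subtype]
  have : (Finset.univ.filter (fun s : Fˣ => s = 1 ∨ s = -1)) = {1, -1} := by
    ext t
    simp
  rw [this, Finset.card_pair]
  intro h
  apply h2
  have h' : ((1 : Fˣ) : F) = ((-1 : Fˣ) : F) := congrArg Units.val h
  simp at h'
  linear_combination h'

end

/-- Over a finite field F with q elements, q odd, the upper triangular subgroup of SL₂ (a Borel subgroup, of order q(q − 1)) has exactly q + 3 conjugacy classes. -/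
theorem result {F : Type*} [Field F] [Fintype F] (hodd : Odd (Fintype.card F)) :
    Nat.card (ConjClasses ((Cfsg.upperTriangularGL 2 F).comap Matrix.SpecialLinearGroup.toGL)) = Fintype.card F + 3 := by
  classical
  have hF : Fintype.card F % 2 = 1 := Nat.odd_iff.mp hodd
  have h2 := two_ne_zero_of_odd hF
  obtain ⟨ε, hε⟩ := FiniteField.exists_nonsquare (ringChar_ne_two_of_odd hF)
  show Nat.card (ConjClasses (BS F)) = _
  rw [← Nat.card_congr (Equiv.ofBijective (cMap ε) ⟨cMap_injective h2 hε, cMap_surjective hε⟩),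
    Nat.card_eq_fintype_card, Fintype.card_sum, card_param h2, Fintype.card_prod,
    Fintype.card_bool, Fintype.card_option, Fintype.card_bool]
  have h3 : 1 < Fintype.card F := Fintype.one_lt_card
  omega

end Cfsg.Agent.S2437
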