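import Cfsg.Statements.S2439
import Cfsg.Agent.Lib.Helper24.SL2Blk

set_option autoImplicit false
open Cfsg
open Cfsg.Agent.Lib Cfsg.Agent.Lib.Helper78 Cfsg.Agent.Lib.Helper39 Cfsg.Agent.Lib.Helper39.SLblk Cfsg.Agent.Lib.Helper24.SL2Blk

namespace Cfsg.Agent.S2439

/-- Let F be a finite field with q elements of odd characteristic p, and M a maximal ideal of the algebraic integers containing p. Then SL₂ over F has exactly three p-blocks relative to M: the irreducible character of degree q (the Steinberg character) alone; the other irreducible characters taking the same value at −1 as at 1 (the principal block); and the irreducible characters χ with χ(−1) = −χ(1). Every Sylow p-subgroup is a defect group of each of the last two blocks. -/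
theorem result {F : Type*} [Field F] [Fintype F] (p : ℕ) [Fact p.Prime] [CharP F p] (hp : p ≠ 2)
    (M : Ideal Cfsg.AlgInt) (hM : Cfsg.IsPModular p M) :
    (∀ B : Set (Cfsg.IrrCharacter (Matrix.SpecialLinearGroup (Fin 2) F)), Cfsg.IsPBlock M B ↔
      (B = {χ : Cfsg.IrrCharacter (Matrix.SpecialLinearGroup (Fin 2) F) | (χ : Matrix.SpecialLinearGroup (Fin 2) F → ℂ) 1 = (Fintype.card F : ℂ)} ∨
       B = {χ : Cfsg.IrrCharacter (Matrix.SpecialLinearGroup (Fin 2) F) | (χ : Matrix.SpecialLinearGroup (Fin 2) F → ℂ) (-1) = (χ : Matrix.SpecialLinearGroup (Fin 2) F → ℂ) 1 ∧ (χ : Matrix.SpecialLinearGroup (Fin 2) F → ℂ) 1 ≠ (Fintype.card F : ℂ)} ∨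
       B = {χ : Cfsg.IrrCharacter (Matrix.SpecialLinearGroup (Fin 2) F) | (χ : Matrix.SpecialLinearGroup (Fin 2) F → ℂ) (-1) = -(χ : Matrix.SpecialLinearGroup (Fin 2) F → ℂ) 1})) ∧
    Nat.card {B : Set (Cfsg.IrrCharacter (Matrix.SpecialLinearGroup (Fin 2) F)) // Cfsg.IsPBlock M B} = 3 ∧
    ∀ P : Sylow p (Matrix.SpecialLinearGroup (Fin 2) F),
      Cfsg.IsDefectGroup p M {χ : Cfsg.IrrCharacter (Matrix.SpecialLinearGroup (Fin 2) F) | (χ : Matrix.SpecialLinearGroup (Fin 2) F → ℂ) (-1) = (χ : Matrix.SpecialLinearGroup (Fin 2) F → ℂ) 1 ∧ (χ : Matrix.SpecialLinearGroup (Fin 2) F → ℂ) 1 ≠ (Fintype.card F : ℂ)} (P : Subgroup (Matrix.SpecialLinearGroup (Fin 2) F)) ∧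
      Cfsg.IsDefectGroup p M {χ : Cfsg.IrrCharacter (Matrix.SpecialLinearGroup (Fin 2) F) | (χ : Matrix.SpecialLinearGroup (Fin 2) F → ℂ) (-1) = -(χ : Matrix.SpecialLinearGroup (Fin 2) F → ℂ) 1} (P : Subgroup (Matrix.SpecialLinearGroup (Fin 2) F)) := by
  classical
  have hMp := pmod_isPrime hM
  set z : SL2 F := -1 with hz
  have hzc : z ∈ Subgroup.center (SL2 F) := neg_one_mem_center
  have hz2 : z * z = 1 := by rw [hz]; simp
  have hz1 : z ≠ 1 := neg_one_ne_one p hp
  have hq1 : (Fintype.card F : ℂ) ≠ 1 := by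
    have := Fintype.one_lt_card (α := F)
    exact_mod_cast this.ne'
  have hq0 : (Fintype.card F : ℂ) ≠ 0 := by
    exact_mod_cast (Fintype.card_pos (α := F)).ne'
  have hcard := card_blocks_SL2 (F := F) p hp M hM
  -- the three characters
  obtain ⟨χm, hχm⟩ := t3 z hz1
  have hχm' : (χm : SL2 F → ℂ) z = - (χm : SL2 F → ℂ) 1 := (t1 χm z hzc hz2).resolve_left hχm
  have hc0one : ((chi0 (F := F) : IrrCharacter (SL2 F)) : SL2 F → ℂ) 1 = (Fintype.card F : ℂ) :=
    stS_one
  have hc0z : ((chi0 (F := F) : IrrCharacter (SL2 F)) : SL2 F → ℂ) z = (Fintype.card F : ℂ) :=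
    stS_neg_one
  have hβ0 : blockOf M ((chi0 (F := F) : IrrCharacter (SL2 F)) : SL2 F → ℂ) = {chi0} :=
    (defect_zero_iff hM chi0).1 ((defect_zero_iff_chi0 p M hM _).2 rfl)
  have htriv_ne : trivIrr (SL2 F) ≠ chi0 := by
    intro h
    have h1 := congrArg (fun χ : IrrCharacter (SL2 F) => (χ : SL2 F → ℂ) 1) h
    simp only [hc0one] at h1
    exact hq1 h1.symm
  have hχm_ne : χm ≠ chi0 := by
    intro h
    rw [h, hc0z, hc0one] at hχm'
    apply hq0
    linear_combination (1 / 2 : ℂ) * hχm'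
  -- the three blocks
  let T := {B : Set (IrrCharacter (SL2 F)) // IsPBlock M B}
  let b0 : T := ⟨blockOf M ((chi0 (F := F) : IrrCharacter (SL2 F)) : SL2 F → ℂ), isPBlock_blockOf _⟩
  let b1 : T := ⟨blockOf M ((trivIrr (SL2 F) : IrrCharacter (SL2 F)) : SL2 F → ℂ), isPBlock_blockOf _⟩
  let b2 : T := ⟨blockOf M (χm : SL2 F → ℂ), isPBlock_blockOf _⟩
  have h01 : b0 ≠ b1 := by
    intro h
    have h1 : blockOf M ((chi0 (F := F) : IrrCharacter (SL2 F)) : SL2 F → ℂ)
      = blockOf M ((trivIrr (SL2 F) : IrrCharacter (SL2 F)) : SL2 F → ℂ) := congrArg Subtype.val h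
    have h2 := mem_blockOf_self hMp (trivIrr (SL2 F))
    rw [← h1, hβ0] at h2
    exact htriv_ne h2
  have h02 : b0 ≠ b2 := by
    intro h
    have h1 : blockOf M ((chi0 (F := F) : IrrCharacter (SL2 F)) : SL2 F → ℂ)
      = blockOf M (χm : SL2 F → ℂ) := congrArg Subtype.val h
    have h2 := mem_blockOf_self hMp χm
    rw [← h1, hβ0] at h2
    exact hχm_ne h2
  have h12 : b1 ≠ b2 := by
    intro h
    have h1 : blockOf M ((trivIrr (SL2 F) : IrrCharacter (SL2 F)) : SL2 F → ℂ)
      = blockOf M (χm : SL2 F → ℂ) := congrArg Subtype.val h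
    have h2 := mem_blockOf_self hMp χm
    rw [← h1] at h2
    exact hχm ((t2 M hM hp _ _ h2 z hzc hz2).1 rfl)
  have hthree := three hcard b0 b1 b2 h01 h02 h12
  have hthree' : ∀ χ : IrrCharacter (SL2 F),
      χ ∈ blockOf M ((chi0 (F := F) : IrrCharacter (SL2 F)) : SL2 F → ℂ) ∨
      χ ∈ blockOf M ((trivIrr (SL2 F) : IrrCharacter (SL2 F)) : SL2 F → ℂ) ∨
      χ ∈ blockOf M (χm : SL2 F → ℂ) := by
    intro χ
    have hmem := mem_blockOf_self hMp χ
    rcases hthree ⟨blockOf M (χ : SL2 F → ℂ), isPBlock_blockOf _⟩ with h | h | h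
    · left
      have h1 : blockOf M (χ : SL2 F → ℂ) = _ := congrArg Subtype.val h
      rw [h1] at hmem; exact hmem
    · right; left
      have h1 : blockOf M (χ : SL2 F → ℂ) = _ := congrArg Subtype.val h
      rw [h1] at hmem; exact hmem
    · right; right
      have h1 : blockOf M (χ : SL2 F → ℂ) = _ := congrArg Subtype.val h
      rw [h1] at hmem; exact hmem
  -- identification of the three sets
  have hS0 : {χ : IrrCharacter (SL2 F) | (χ : SL2 F → ℂ) 1 = (Fintype.card F : ℂ)}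
      = blockOf M ((chi0 (F := F) : IrrCharacter (SL2 F)) : SL2 F → ℂ) := by
    rw [hβ0]
    ext χ
    constructor
    · intro h
      exact eq_chi0_of_one p M hM χ h
    · intro h
      rw [Set.mem_singleton_iff] at h
      rw [h]; exact hc0one
  have hS1 : {χ : IrrCharacter (SL2 F) | (χ : SL2 F → ℂ) z = (χ : SL2 F → ℂ) 1 ∧
        (χ : SL2 F → ℂ) 1 ≠ (Fintype.card F : ℂ)}
      = blockOf M ((trivIrr (SL2 F) : IrrCharacter (SL2 F)) : SL2 F → ℂ) := by
    ext χ
    constructor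
    · rintro ⟨h1, h2⟩
      rcases hthree' χ with h | h | h
      · rw [← hS0] at h; exact absurd h h2
      · exact h
      · exact absurd ((t2 M hM hp _ _ h z hzc hz2).2 h1) hχm
    · intro h
      refine ⟨(t2 M hM hp _ _ h z hzc hz2).1 rfl, fun h2 => ?_⟩
      have h3 : χ ∈ blockOf M ((chi0 (F := F) : IrrCharacter (SL2 F)) : SL2 F → ℂ) := by
        rw [← hS0]; exact h2
      exact h01 (Subtype.ext (IsPBlock.eq_of_mem_mem hMp b0.2 b1.2 h3 h))
  have hS2 : {χ : IrrCharacter (SL2 F) | (χ : SL2 F → ℂ) z = - (χ : SL2 F → ℂ) 1}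
      = blockOf M (χm : SL2 F → ℂ) := by
    have hne : ∀ χ : IrrCharacter (SL2 F), (χ : SL2 F → ℂ) z = - (χ : SL2 F → ℂ) 1 →
        (χ : SL2 F → ℂ) z ≠ (χ : SL2 F → ℂ) 1 := by
      intro χ h1 h2
      apply irr_one_ne_zero χ
      rw [h2] at h1
      linear_combination (1 / 2 : ℂ) * h1
    ext χ
    constructor
    · intro h1
      rcases hthree' χ with h | h | h
      · rw [hβ0, Set.mem_singleton_iff] at h
        rw [Set.mem_ofPred_eq, h, hc0z, hc0one] at h1
        exfalso; apply hq0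
        linear_combination (1 / 2 : ℂ) * h1
      · exact absurd ((t2 M hM hp _ _ h z hzc hz2).1 rfl) (hne χ h1)
      · exact h
    · intro h
      refine (t1 χ z hzc hz2).resolve_left fun h2 => ?_
      exact hχm ((t2 M hM hp _ _ h z hzc hz2).2 h2)
  have hdef : ∀ χ : IrrCharacter (SL2 F), χ ≠ chi0 → ∀ P : Sylow p (SL2 F),
      IsDefectGroup p M (blockOf M (χ : SL2 F → ℂ)) (P : Subgroup (SL2 F)) := by
    intro χ hχ P
    have h1 : p ∣ Nat.card (SL2 F) / charDegree (χ : SL2 F → ℂ) := by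
      by_contra h
      exact hχ ((defect_zero_iff_chi0 p M hM χ).1 h)
    have h2 := defect_ne_zero p M hM χ h1
    have h3 := (defect_dichotomy p M hM (radHyp_SL p) _ (isPBlock_blockOf χ)).resolve_left h2
    exact (full_defect_iff p M hM _ (isPBlock_blockOf χ) P).1 h3
  refine ⟨fun B => ?_, hcard, fun P => ?_⟩
  · rw [hS0, hS1, hS2]
    constructor
    · intro hB
      rcases hthree ⟨B, hB⟩ with h | h | h
      · exact Or.inl (congrArg Subtype.val h)
      · exact Or.inr (Or.inl (congrArg Subtype.val h))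
      · exact Or.inr (Or.inr (congrArg Subtype.val h))
    · rintro (h | h | h) <;> rw [h] <;> exact isPBlock_blockOf _
  · rw [hS1, hS2]
    exact ⟨hdef _ htriv_ne P, hdef _ hχm_ne P⟩

end Cfsg.Agent.S2439
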