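import Cfsg.Statements.S2440
import Cfsg.Agent.Lib.Helper39.SLblk.Asm
import Cfsg.Agent.Lib.Helper39.SLblk.K45
import Cfsg.Agent.Lib.Helper39.SLblk.L5
import Cfsg.Agent.Lib.Helper39.SLblk.Z

set_option autoImplicit false
open Cfsg

namespace Cfsg.Agent.S2440

open Cfsg.Agent.Lib.Helper39.SLblk in
theorem result (p : ℕ) [Fact p.Prime] (n : ℕ) (hn : 2 ≤ n) (M : Ideal Cfsg.AlgInt) (hM : Cfsg.IsPModular p M) :
    Nat.card {B : Set (Cfsg.IrrCharacter (Matrix.SpecialLinearGroup (Fin n) (ZMod p))) // Cfsg.IsPBlock M B} =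
      Nat.gcd n (p - 1) + 1 := by
  classical
  rw [card_blocks p M hM (radHyp_SL p) (p_dvd_card_SL p hn) (center_pregular p),
    card_defect_zero_SL p hn, card_center_SL_zmod p hn, add_comm]

end Cfsg.Agent.S2440
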