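import Cfsg.Statements.S2531
import Mathlib

set_option autoImplicit false
open Cfsg

namespace Cfsg.Agent.S2531

open scoped LinearAlgebra.Projectivization

section
variable {F : Type*} [Field F] {V : Type*} [AddCommGroup V] [Module F V]

/-- points of the projective space lying in the subspace `U` -/
def InSub (U : Submodule F V) (x : ℙ F V) : Prop := x.submodule ≤ U

theorem inSub_mk (U : Submodule F V) (v : V) (hv : v ≠ 0) :
    InSub U (Projectivization.mk F v hv) ↔ v ∈ U := by
  unfold InSub
  rw [Projectivization.submodule_mk, Submodule.span_singleton_le_iff_mem]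

noncomputable def ptsEquiv (U : Submodule F V) : ℙ F U ≃ {x : ℙ F V // InSub U x} :=
  Equiv.ofBijective
    (fun y => ⟨Projectivization.map U.subtype U.injective_subtype y, by
      induction y using Projectivization.ind with
      | _ v hv =>
        rw [Projectivization.map_mk, inSub_mk]
        exact v.2⟩)
    (by
      constructor
      · intro y z hyz
        exact Projectivization.map_injective U.subtype U.injective_subtype (congrArg Subtype.val hyz)
      · rintro ⟨x, hx⟩
        induction x using Projectivization.ind with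
        | _ v hv =>
          rw [inSub_mk] at hx
          refine ⟨Projectivization.mk F ⟨v, hx⟩ (by simpa [Subtype.ext_iff] using hv), ?_⟩
          apply Subtype.ext
          simp [Projectivization.map_mk])

theorem card_pts [Finite F] [Finite V] (U : Submodule F V) :
    Nat.card U = Nat.card {x : ℙ F V // InSub U x} * (Nat.card F - 1) + 1 := by
  rw [← Nat.card_congr (ptsEquiv U)]
  exact Projectivization.card' F U

theorem card_pts_cast [Finite F] [Finite V] (U : Submodule F V) (hU : U ≠ ⊥) :
    ((Nat.card {x : ℙ F V // InSub U x} : ℕ) : ZMod (Nat.card F)) = 1 := by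
  have h1 := card_pts U
  have hq : 1 < Nat.card F := Finite.one_lt_card
  have h2 : Nat.card F ∣ Nat.card U := by
    have : Module.Finite F V := Module.Finite.of_finite
    have h3 : Nat.card U = Nat.card F ^ Module.finrank F U := Module.natCard_eq_pow_finrank
    rw [h3]
    have h4 : 0 < Module.finrank F U := by
      rw [Module.finrank_pos_iff]
      exact Submodule.nontrivial_iff_ne_bot.2 hU
    exact dvd_pow_self _ h4.ne'
  have h5 : ((Nat.card U : ℕ) : ZMod (Nat.card F)) = 0 := (ZMod.natCast_eq_zero_iff _ _).2 h2
  rw [h1] at h5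
  push_cast [Nat.cast_sub hq.le] at h5
  simp at h5
  linear_combination -h5

theorem card_filter_cast [Finite F] [Finite V] [Fintype (ℙ F V)] (U : Submodule F V) (hU : U ≠ ⊥)
    [DecidablePred (InSub U)] :
    (((Finset.univ.filter (InSub U)).card : ℕ) : ZMod (Nat.card F)) = 1 := by
  have h : (Finset.univ.filter (InSub U)).card = Nat.card {x : ℙ F V // InSub U x} := by
    rw [Nat.card_eq_fintype_card, Fintype.card_subtype]
  rw [h]
  exact card_pts_cast U hU

end

/-- Let `F` be a finite field and `n ≥ 3`. No set of permutations of the points of the projective space of `Fⁿ`, each induced by an invertible semilinear transformation of `Fⁿ` (so a subset of the full projective semilinear group), is sharply 2-transitive on the points: it is impossible that for all pairs of distinct points `(a, b)` and `(c, d)` exactly one member of the set sends `a` to `c` and `b` to `d`. -/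
theorem result {F : Type*} [Field F] [Finite F]
    (n : ℕ) (hn : 3 ≤ n) (S : Set (Equiv.Perm (Projectivization F (Fin n → F))))
    (hS : ∀ s ∈ S, ∃ (σ : F ≃+* F) (f : (Fin n → F) →ₛₗ[(σ : F →+* F)] (Fin n → F)) (hf : Function.Injective f),
      ∀ x, s x = Projectivization.map f hf x) :
    ¬ (∀ a b c d : Projectivization F (Fin n → F), a ≠ b → c ≠ d →
        ∃! s, s ∈ S ∧ s a = c ∧ s b = d) := by
  classical
  intro h
  have : Fintype F := Fintype.ofFinite F
  have : Fintype (ℙ F (Fin n → F)) := Fintype.ofFinite _
  have hq : 1 < Nat.card F := Finite.one_lt_card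
  have : Fact (1 < Nat.card F) := ⟨hq⟩
  set i0 : Fin n := ⟨0, by omega⟩ with hi0
  set i1 : Fin n := ⟨1, by omega⟩ with hi1
  have hi01 : i0 ≠ i1 := by simp [hi0, hi1, Fin.ext_iff]
  set W : Submodule F (Fin n → F) := LinearMap.ker (LinearMap.proj i0 : (Fin n → F) →ₗ[F] F) with hW
  have hmemW : ∀ v : Fin n → F, v ∈ W ↔ v i0 = 0 := by
    intro v; simp [hW]
  set a : ℙ F (Fin n → F) := Projectivization.mk F (Pi.single i0 1) (by simp) with ha
  set b0 : ℙ F (Fin n → F) := Projectivization.mk F (Pi.single i1 1) (by simp) with hb0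
  have haW : ¬ InSub W a := by
    rw [ha, inSub_mk, hmemW]; simp
  have hb0W : InSub W b0 := by
    rw [hb0, inSub_mk, hmemW]; simp [hi01]
  set H : Finset (ℙ F (Fin n → F)) := Finset.univ.filter (InSub W) with hH
  set S' : Finset (Equiv.Perm (ℙ F (Fin n → F))) := Finset.univ.filter (fun s => s ∈ S ∧ s a = a) with hS'
  have hone : ∀ b d : ℙ F (Fin n → F), b ≠ a → d ≠ a → (S'.filter (fun s => s b = d)).card = 1 := by
    intro b d hb hd
    obtain ⟨s, hs, hs'⟩ := h a b a d hb.symm hd.symm
    rw [Finset.card_eq_one]
    refine ⟨s, ?_⟩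
    ext t
    simp only [hS', Finset.mem_filter, Finset.mem_univ, true_and, Finset.mem_singleton]
    constructor
    · rintro ⟨⟨h1, h2⟩, h3⟩
      exact hs' t ⟨h1, h2, h3⟩
    · rintro rfl
      exact ⟨⟨hs.1, hs.2.1⟩, hs.2.2⟩
  have hHa : ∀ b ∈ H, b ≠ a := by
    intro b hb hba
    rw [hH, Finset.mem_filter] at hb
    exact haW (hba ▸ hb.2)
  -- the cardinality of `H`
  have hWbot : W ≠ ⊥ := by
    intro hbot
    have : (Pi.single i1 1 : Fin n → F) ∈ W := by rw [hmemW]; simp [hi01]
    rw [hbot, Submodule.mem_bot] at this
    simp at this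
  have hHcard : ((H.card : ℕ) : ZMod (Nat.card F)) = 1 := by
    exact card_filter_cast W hWbot
  -- the cardinality of `S'`
  have hS'card : ((S'.card : ℕ) : ZMod (Nat.card F)) = 0 := by
    have h1 : S'.card = ∑ d ∈ Finset.univ.filter (fun d => d ≠ a), (S'.filter (fun s => s b0 = d)).card := by
      apply Finset.card_eq_sum_card_fiberwise
      intro s hs
      simp only [hS', Finset.coe_filter, Finset.mem_univ, true_and, Set.mem_ofPred_eq] at hs ⊢
      intro hsb
      have : s b0 = s a := by rw [hsb, hs.2]
      exact hHa b0 (by simp [hH, hb0W]) (s.injective this)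
    have h2 : S'.card = (Finset.univ.filter (fun d : ℙ F (Fin n → F) => d ≠ a)).card := by
      rw [h1, Finset.card_eq_sum_ones]
      apply Finset.sum_congr rfl
      intro d hd
      exact hone b0 d (hHa b0 (by simp [hH, hb0W])) (by simpa using hd)
    have h3 : (Finset.univ.filter (fun d : ℙ F (Fin n → F) => d ≠ a)).card + 1 =
        Fintype.card (ℙ F (Fin n → F)) := by
      rw [Finset.filter_ne', Finset.card_erase_of_mem (Finset.mem_univ a), Finset.card_univ]
      have : 0 < Fintype.card (ℙ F (Fin n → F)) := Fintype.card_pos_iff.2 ⟨a⟩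
      omega
    have h4 : ((Fintype.card (ℙ F (Fin n → F)) : ℕ) : ZMod (Nat.card F)) = 1 := by
      have htop : (⊤ : Submodule F (Fin n → F)) ≠ ⊥ := by
        intro hbot
        exact hWbot (by rw [eq_bot_iff, ← hbot]; exact le_top)
      rw [← card_filter_cast (⊤ : Submodule F (Fin n → F)) htop]
      congr 1
      rw [← Finset.card_univ]
      congr 1
      ext x
      simp [InSub]
    rw [← h3, ← h2] at h4
    push_cast at h4
    linear_combination h4
  -- double count
  have hT1 : ∑ s ∈ S', (H.filter (fun b => s b ∈ H)).card = H.card * H.card := by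
    have h1 : ∑ s ∈ S', (H.filter (fun b => s b ∈ H)).card =
        ∑ b ∈ H, (S'.filter (fun s => s b ∈ H)).card := by
      simp only [Finset.card_filter]
      exact Finset.sum_comm
    rw [h1, Finset.card_eq_sum_ones H, Finset.sum_mul]
    apply Finset.sum_congr rfl
    intro b hb
    rw [one_mul]
    have h2 : (S'.filter (fun s => s b ∈ H)).card =
        ∑ d ∈ H, ((S'.filter (fun s => s b ∈ H)).filter (fun s => s b = d)).card := by
      apply Finset.card_eq_sum_card_fiberwise
      intro s hs
      simp only [Finset.coe_filter, Set.mem_ofPred_eq] at hs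
      exact hs.2
    rw [h2]
    apply Finset.sum_congr rfl
    intro d hd
    rw [← hone b d (hHa b hb) (hHa d hd)]
    congr 1
    ext s
    simp only [Finset.mem_filter]
    constructor
    · rintro ⟨⟨h1, _⟩, h3⟩
      exact ⟨h1, h3⟩
    · rintro ⟨h1, h3⟩
      exact ⟨⟨h1, h3 ▸ hd⟩, h3⟩
  have hT2 : ∀ s ∈ S', (((H.filter (fun b => s b ∈ H)).card : ℕ) : ZMod (Nat.card F)) = 1 := by
    intro s hs
    simp only [hS', Finset.mem_filter, Finset.mem_univ, true_and] at hs
    obtain ⟨σ, f, hf, hsf⟩ := hS s hs.1
    set U : Submodule F (Fin n → F) := W ⊓ W.comap f with hU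
    have hUbot : U ≠ ⊥ := by
      have hcard : Fintype.card (F × F) < Fintype.card (Fin n → F) := by
        rw [Fintype.card_prod, Fintype.card_fun, Fintype.card_fin, ← pow_two]
        rw [Nat.card_eq_fintype_card] at hq
        exact Nat.pow_lt_pow_right hq (by omega)
      obtain ⟨v1, v2, hne, heq⟩ := Fintype.exists_ne_map_eq_of_card_lt
        (fun v : Fin n → F => (v i0, f v i0)) hcard
      simp only [Prod.mk.injEq] at heq
      intro hbot
      have hmem : v1 - v2 ∈ U := by
        rw [hU, Submodule.mem_inf, Submodule.mem_comap, hmemW, hmemW, map_sub]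
        simp [heq.1, heq.2]
      rw [hbot, Submodule.mem_bot] at hmem
      exact hne (sub_eq_zero.1 hmem)
    rw [← card_filter_cast U hUbot]
    congr 2
    ext b
    simp only [hH, Finset.mem_filter, Finset.mem_univ, true_and]
    induction b using Projectivization.ind with
    | _ v hv =>
      rw [hsf, Projectivization.map_mk, inSub_mk, inSub_mk, inSub_mk, hU, Submodule.mem_inf,
        Submodule.mem_comap]
  have hfin : ((∑ s ∈ S', (H.filter (fun b => s b ∈ H)).card : ℕ) : ZMod (Nat.card F)) = 0 := by
    rw [Nat.cast_sum, Finset.sum_congr rfl hT2, Finset.sum_const, nsmul_eq_mul, hS'card, zero_mul]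
  rw [hT1, Nat.cast_mul, hHcard, one_mul] at hfin
  exact one_ne_zero hfin

end Cfsg.Agent.S2531
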