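import Cfsg.Statements.S2532
import Mathlib

set_option autoImplicit false
open Cfsg

namespace Cfsg.Agent.S2532

section
variable {H : Type*} [Group H] [Finite H] {X : Type*} [Fintype X] [DecidableEq X] [MulAction H X]

/-- selection of `r` points in distinct orbits with the same stabilizer -/
lemma selection (r : ℕ) (hcard : Nat.card H * (2 ^ Nat.card H * r) ≤ Fintype.card X) :
    ∃ (S : Subgroup H) (y : Fin r → X), (∀ i, MulAction.stabilizer H (y i) = S) ∧
      (∀ i j (h : H), h • y i = y j → i = j) := by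
  classical
  have := Fintype.ofFinite H
  set n := Nat.card H with hn
  have hnpos : 0 < n := Nat.card_pos
  let Ω := MulAction.orbitRel.Quotient H X
  have : Fintype Ω := Fintype.ofFinite _
  -- (1) card X ≤ n * card Ω
  have h1 : Fintype.card X ≤ n * Fintype.card Ω := by
    have := Finset.card_le_mul_card_image_of_maps_to (s := (Finset.univ : Finset X)) (t := (Finset.univ : Finset Ω))
      (f := fun x => (Quotient.mk'' x : Ω)) (fun _ _ => Finset.mem_univ _) n (by
        intro b _
        induction b using Quotient.inductionOn' with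
        | h x0 =>
          have hsub : (Finset.univ.filter (fun a : X => (Quotient.mk'' a : Ω) = Quotient.mk'' x0)) ⊆
              Finset.univ.image (fun h : H => h • x0) := by
            intro a ha
            simp only [Finset.mem_filter, Finset.mem_univ, true_and] at ha
            have : a ∈ MulAction.orbit H x0 := by
              have := Quotient.exact' ha
              exact this
            obtain ⟨h, rfl⟩ := this
            exact Finset.mem_image_of_mem _ (Finset.mem_univ _)
          calc _ ≤ (Finset.univ.image (fun h : H => h • x0)).card := Finset.card_le_card hsub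
            _ ≤ (Finset.univ : Finset H).card := Finset.card_image_le
            _ = n := by rw [Finset.card_univ, hn, Nat.card_eq_fintype_card])
    simpa using this
  -- (2) card (Subgroup H) ≤ 2 ^ n
  have : Fintype (Subgroup H) := Fintype.ofFinite _
  have h2 : Fintype.card (Subgroup H) ≤ 2 ^ n := by
    have := Fintype.card_le_of_injective (fun S : Subgroup H => (S : Set H)) SetLike.coe_injective
    rwa [Fintype.card_set, ← Nat.card_eq_fintype_card (α := H)] at this
  -- (3)
  have h3 : Fintype.card (Subgroup H) * r ≤ Fintype.card Ω := by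
    have : n * (2 ^ n * r) ≤ n * Fintype.card Ω := hcard.trans h1
    have := Nat.le_of_mul_le_mul_left this hnpos
    exact (Nat.mul_le_mul_right r h2).trans this
  obtain ⟨S, hS⟩ := Fintype.exists_le_card_fiber_of_mul_le_card
    (fun ω : Ω => MulAction.stabilizer H (Quotient.out ω : X)) h3
  -- (4)
  have h4 : Fintype.card (Fin r) ≤ Fintype.card {ω : Ω // MulAction.stabilizer H (Quotient.out ω : X) = S} := by
    rw [Fintype.card_fin, Fintype.card_subtype]
    exact hS
  obtain ⟨emb0⟩ := Function.Embedding.nonempty_of_card_le h4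
  refine ⟨S, fun i => Quotient.out (emb0 i).1, fun i => (emb0 i).2, ?_⟩
  intro i j h hij
  apply emb0.injective
  apply Subtype.ext
  rw [← Quotient.out_eq (emb0 i).1, ← Quotient.out_eq (emb0 j).1]
  apply Quotient.sound'
  show _ ∈ MulAction.orbit H _
  have hij' : h • (Quotient.out (emb0 i).1 : X) = Quotient.out (emb0 j).1 := hij
  rw [← hij']
  exact MulAction.mem_orbit_symm.mp (MulAction.mem_orbit _ h)

/-- the equivariant embedding -/
noncomputable def embFun (S : Subgroup H) {r : ℕ} (y : Fin r → X) (hS : ∀ i, MulAction.stabilizer H (y i) = S) :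
    (H ⧸ S) × Fin r → X := fun p =>
  Quotient.liftOn' p.1 (fun h => h • y p.2) (fun a b hab => by
    have h1 : a⁻¹ * b ∈ S := QuotientGroup.leftRel_apply.mp hab
    rw [← hS p.2, MulAction.mem_stabilizer_iff, mul_smul, inv_smul_eq_iff] at h1
    exact h1.symm)

lemma embFun_mk (S : Subgroup H) {r : ℕ} (y : Fin r → X) (hS : ∀ i, MulAction.stabilizer H (y i) = S) (a : H) (i : Fin r) :
    embFun S y hS ((a : H ⧸ S), i) = a • y i := rfl

lemma embFun_inj (S : Subgroup H) {r : ℕ} (y : Fin r → X) (hS : ∀ i, MulAction.stabilizer H (y i) = S)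
    (hy : ∀ i j (h : H), h • y i = y j → i = j) : Function.Injective (embFun S y hS) := by
  rintro ⟨q, i⟩ ⟨q', j⟩ h
  induction q using QuotientGroup.induction_on with
  | H a =>
  induction q' using QuotientGroup.induction_on with
  | H b =>
  rw [embFun_mk, embFun_mk] at h
  have h1 : (b⁻¹ * a) • y i = y j := by
    rw [mul_smul, h, inv_smul_smul]
  obtain rfl := hy i j _ h1
  have h2 : b⁻¹ * a ∈ S := by
    rw [← hS i, MulAction.mem_stabilizer_iff]; exact h1
  have h3 : (b : H ⧸ S) = a := QuotientGroup.eq.mpr h2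
  rw [h3]

/-- the diagonal homomorphism -/
def diagHom (Q : Type*) (r : ℕ) : Equiv.Perm (Fin r) →* Equiv.Perm (Q × Fin r) where
  toFun σ := Equiv.prodCongrRight (fun _ => σ)
  map_one' := by ext p <;> rfl
  map_mul' σ τ := by ext p <;> rfl

lemma construction (S : Subgroup H) {r : ℕ} (y : Fin r → X) (hS : ∀ i, MulAction.stabilizer H (y i) = S)
    (hy : ∀ i j (h : H), h • y i = y j → i = j) :
    ∃ Φ : Equiv.Perm (Fin r) →* Equiv.Perm X, Function.Injective Φ ∧
      (∀ σ, Equiv.Perm.sign σ = 1 → Equiv.Perm.sign (Φ σ) = 1) ∧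
      (∀ σ (h : H) (x : X), Φ σ (h • x) = h • Φ σ x) := by
  classical
  have : Fintype (H ⧸ S) := Fintype.ofFinite _
  let ι : (H ⧸ S) × Fin r ↪ X := ⟨embFun S y hS, embFun_inj S y hS hy⟩
  refine ⟨(Equiv.Perm.viaEmbeddingHom ι).comp (diagHom (H ⧸ S) r), ?_, ?_, ?_⟩
  · apply (Equiv.Perm.viaEmbeddingHom_injective ι).comp
    intro σ τ h
    ext i
    have := congrArg (fun f : Equiv.Perm ((H ⧸ S) × Fin r) => (f ((1 : H) , i)).2) h
    exact congrArg Fin.val this
  · intro σ hσ
    show Equiv.Perm.sign (Equiv.Perm.viaEmbedding (diagHom (H ⧸ S) r σ) ι) = 1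
    unfold Equiv.Perm.viaEmbedding
    rw [Equiv.Perm.sign_extendDomain]
    show Equiv.Perm.sign (Equiv.prodCongrRight (fun _ => σ)) = 1
    rw [Equiv.Perm.sign_prodCongrRight]
    simp [hσ]
  · intro σ h x
    show Equiv.Perm.viaEmbedding (diagHom (H ⧸ S) r σ) ι (h • x) = h • Equiv.Perm.viaEmbedding (diagHom (H ⧸ S) r σ) ι x
    by_cases hx : x ∈ Set.range ι
    · obtain ⟨⟨q, i⟩, rfl⟩ := hx
      induction q using QuotientGroup.induction_on with
      | H a =>
      have e1 : h • ι ((a : H ⧸ S), i) = ι (((h * a : H) : H ⧸ S), i) := by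
        show h • embFun S y hS ((a : H ⧸ S), i) = embFun S y hS (((h * a : H) : H ⧸ S), i)
        rw [embFun_mk, embFun_mk, mul_smul]
      rw [e1, Equiv.Perm.viaEmbedding_apply, Equiv.Perm.viaEmbedding_apply]
      show embFun S y hS (((h * a : H) : H ⧸ S), σ i) = h • embFun S y hS ((a : H ⧸ S), σ i)
      rw [embFun_mk, embFun_mk, mul_smul]
    · have hx' : h • x ∉ Set.range ι := by
        rintro ⟨⟨q, i⟩, hq⟩
        apply hx
        induction q using QuotientGroup.induction_on with
        | H a =>
        refine ⟨(((h⁻¹ * a : H) : H ⧸ S), i), ?_⟩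
        show embFun S y hS (((h⁻¹ * a : H) : H ⧸ S), i) = x
        have hq' : embFun S y hS ((a : H ⧸ S), i) = h • x := hq
        rw [embFun_mk] at hq' ⊢
        rw [mul_smul, hq', inv_smul_smul]
      rw [Equiv.Perm.viaEmbedding_apply_of_notMem _ _ _ hx, Equiv.Perm.viaEmbedding_apply_of_notMem _ _ _ hx']

end

theorem result :
    ∃ f : ℕ → ℕ → ℕ, ∀ (m r : ℕ) (H : Subgroup ↥(alternatingGroup (Fin m))), f (Nat.card H) r ≤ m →
      ∃ K : Subgroup ↥(alternatingGroup (Fin m)), Nonempty (↥K ≃* ↥(alternatingGroup (Fin r))) ∧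
        K ≤ Subgroup.centralizer (H : Set ↥(alternatingGroup (Fin m))) := by
  classical
  refine ⟨fun n r => n * (2 ^ n * r), ?_⟩
  intro m r H hm
  obtain ⟨S, y, hS, hy⟩ := selection (H := H) (X := Fin m) r (by simpa using hm)
  obtain ⟨Φ, hinj, hsign, hcomm⟩ := construction S y hS hy
  let Φ' : alternatingGroup (Fin r) →* alternatingGroup (Fin m) :=
    MonoidHom.codRestrict (Φ.comp (alternatingGroup (Fin r)).subtype) _ (fun σ => by
      rw [Equiv.Perm.mem_alternatingGroup]
      exact hsign _ σ.2)
  have hinj' : Function.Injective Φ' := by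
    intro a b hab
    apply Subtype.ext
    apply hinj
    exact congrArg (fun t : alternatingGroup (Fin m) => (t : Equiv.Perm (Fin m))) hab
  refine ⟨Φ'.range, ⟨(MonoidHom.ofInjective hinj').symm⟩, ?_⟩
  rintro _ ⟨σ, rfl⟩
  rw [Subgroup.mem_centralizer_iff]
  intro h hh
  apply Subtype.ext
  ext x
  have := hcomm σ ⟨h, hh⟩ x
  exact congrArg Fin.val this.symm

end Cfsg.Agent.S2532
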