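import Cfsg.Statements.S2533
import Cfsg.Agent.Lib.Helper62.Zigzag

set_option autoImplicit false
open Cfsg

namespace Cfsg.Agent.S2533

open Cfsg.Agent.Lib.Helper62

/-- For every odd prime `p` there is a finite group `H` of order `2p³` which, for infinitely many `n`, embeds in the projective special linear group `PSL(n, p)` as a subgroup with trivial centralizer. -/
theorem result
    (p : ℕ) [Fact p.Prime] (hp : p ≠ 2) :
    ∃ (H : Type) (_ : Group H) (_ : Finite H), Nat.card H = 2 * p ^ 3 ∧
      ∀ N : ℕ, ∃ n, N ≤ n ∧ ∃ φ : H →* Matrix.ProjectiveSpecialLinearGroup (Fin n) (ZMod p),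
        Function.Injective φ ∧ Subgroup.centralizer (φ.range : Set (Matrix.ProjectiveSpecialLinearGroup (Fin n) (ZMod p))) = ⊥ := by
  refine ⟨GDih p, inferInstance, inferInstance, GDih.card, ?_⟩
  intro N
  refine ⟨4 * (N + 1) + 1, by omega, (QuotientGroup.mk' _).comp (zHom p (N + 1)),
    zHom_comp_injective p hp (N + 1) (by omega), zHom_centralizer p hp (N + 1)⟩

end Cfsg.Agent.S2533
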