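import Cfsg.Statements.S2537
import Mathlib
import Cfsg.Agent.Lib.Helper41.Dickson.WitPSL
import Cfsg.Agent.Lib.Helper41.Dickson.Solv
import Cfsg.Agent.Lib.Helper62.HallCoprime
import Cfsg.Agent.S0802
import Cfsg.Agent.S0803

set_option autoImplicit false
open Cfsg

namespace Cfsg.Agent.S2537

open Cfsg.Agent.Lib.Helper41.Dickson

theorem fact23 (x y c : ℕ) (hc2 : ¬ 2 ∣ c) (hc3 : ¬ 3 ∣ c) :
    (2 ^ x * 3 ^ y * c).factorization 2 = x ∧ (2 ^ x * 3 ^ y * c).factorization 3 = y := by
  have hc0 : c ≠ 0 := by rintro rfl; exact hc2 (dvd_zero _)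
  rw [Nat.factorization_mul (by positivity) hc0,
    Nat.factorization_mul (by positivity) (by positivity),
    Nat.Prime.factorization_pow Nat.prime_two, Nat.Prime.factorization_pow Nat.prime_three]
  simp [Nat.factorization_eq_zero_of_not_dvd hc2, Nat.factorization_eq_zero_of_not_dvd hc3]

theorem pow23_eq (a b x y : ℕ) (h : 2 ^ a * 3 ^ b = 2 ^ x * 3 ^ y) : a = x ∧ b = y := by
  have h1 := fact23 a b 1 (by norm_num) (by norm_num)
  have h2 := fact23 x y 1 (by norm_num) (by norm_num)
  rw [mul_one] at h1 h2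
  rw [h] at h1
  exact ⟨h1.1.symm.trans h2.1, h1.2.symm.trans h2.2⟩

section

variable {F : Type*} [Field F] [Fintype F]

local notation "G" => Matrix.ProjectiveSpecialLinearGroup (Fin 2) F
local notation "q" => Fintype.card F

theorem hall_of_card (h2q : ¬ 2 ∣ q) (h3q : ¬ 3 ∣ q) (H : Subgroup G) (x y : ℕ)
    (hN : Nat.card H = 2 ^ x * 3 ^ y) (ha : (q ^ 2 - 1).factorization 2 = x + 1)
    (hb : (q ^ 2 - 1).factorization 3 = y) : Cfsg.IsPiHall ({2, 3} : Set ℕ) H := by
  have hodd : Odd q := Nat.odd_iff.2 (by omega)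
  have hG := two_mul_card_psl (F := F) hodd
  have hNI := Subgroup.card_mul_index H
  have hm0 : q ^ 2 - 1 ≠ 0 := by
    intro h0
    rw [h0] at ha
    simp at ha
  constructor
  · intro r hr hrN
    rw [hN] at hrN
    rcases (Nat.Prime.dvd_mul hr).1 hrN with h | h
    · left
      exact (Nat.prime_dvd_prime_iff_eq hr Nat.prime_two).1 (hr.dvd_of_dvd_pow h)
    · right
      exact (Nat.prime_dvd_prime_iff_eq hr Nat.prime_three).1 (hr.dvd_of_dvd_pow h)
  · intro r hr hr23 hrI
    obtain ⟨w, hw⟩ := hrI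
    rw [hN, hw] at hNI
    rw [← hNI] at hG
    rcases hr23 with rfl | hr3
    · have h1 : 2 ^ (x + 2) ∣ q * (q ^ 2 - 1) := ⟨3 ^ y * w, by rw [← hG]; ring⟩
      have hc : Nat.Coprime (2 ^ (x + 2)) q :=
        Nat.Coprime.pow_left _ ((Nat.Prime.coprime_iff_not_dvd Nat.prime_two).2 h2q)
      have h2 := hc.dvd_of_dvd_mul_left h1
      have h3 := (Nat.Prime.pow_dvd_iff_le_factorization Nat.prime_two hm0).1 h2
      omega
    · rw [Set.mem_singleton_iff] at hr3
      subst hr3
      have h1 : 3 ^ (y + 1) ∣ q * (q ^ 2 - 1) := ⟨2 ^ (x + 1) * w, by rw [← hG]; ring⟩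
      have hc : Nat.Coprime (3 ^ (y + 1)) q :=
        Nat.Coprime.pow_left _ ((Nat.Prime.coprime_iff_not_dvd Nat.prime_three).2 h3q)
      have h2 := hc.dvd_of_dvd_mul_left h1
      have h3 := (Nat.Prime.pow_dvd_iff_le_factorization Nat.prime_three hm0).1 h2
      omega

theorem hall_of_dihedral (h2q : ¬ 2 ∣ q) (h3q : ¬ 3 ∣ q) (N : Subgroup G) (k : ℕ) (hk : k ≠ 0)
    (e : N ≃* DihedralGroup k) (s : ℕ) (h : 2 * k * s = q ^ 2 - 1) (h2 : ¬ 4 ∣ s) (h3 : ¬ 3 ∣ s) :
    ∃ H : Subgroup G, Cfsg.IsPiHall ({2, 3} : Set ℕ) H := by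
  have hodd : Odd q := Nat.odd_iff.2 (by omega)
  have hG := two_mul_card_psl (F := F) hodd
  have hsol : Group.IsSolvable N := by
    have := dihedral_solvable k
    exact Group.isSolvable_of_isSolvable_injective (f := e.toMonoidHom) e.injective
  obtain ⟨H, hHN, hH1, hH2⟩ := Cfsg.Agent.Lib.Helper62.exists_isPiHallOf ({2, 3} : Set ℕ) N hsol
  have hcN : Nat.card N = 2 * k := by
    rw [Nat.card_congr e.toEquiv, DihedralGroup.nat_card]
  have hNI := Subgroup.card_mul_index N
  rw [hcN] at hNI
  rw [← hNI, ← h] at hG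
  have hI : 2 * N.index = q * s := by
    have h0 : 0 < 2 * k := by omega
    apply Nat.eq_of_mul_eq_mul_left h0
    calc 2 * k * (2 * N.index) = 2 * (2 * k * N.index) := by ring
      _ = q * (2 * k * s) := hG
      _ = 2 * k * (q * s) := by ring
  refine ⟨H, hH1, ?_⟩
  intro r hr hr23 hrI
  rw [← Subgroup.relIndex_mul_index hHN] at hrI
  rcases (Nat.Prime.dvd_mul hr).1 hrI with h5 | h5
  · exact hH2 r hr hr23 h5
  · obtain ⟨w, hw⟩ := h5
    rw [hw] at hI
    rcases hr23 with rfl | hr3
    · have h1 : 4 ∣ q * s := ⟨w, by rw [← hI]; ring⟩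
      have hc : Nat.Coprime 4 q := by
        have := Nat.Coprime.pow_left 2 ((Nat.Prime.coprime_iff_not_dvd Nat.prime_two).2 h2q)
        simpa using this
      exact h2 (hc.dvd_of_dvd_mul_left h1)
    · rw [Set.mem_singleton_iff] at hr3
      subst hr3
      have h1 : 3 ∣ q * s := ⟨2 * w, by rw [← hI]; ring⟩
      rcases (Nat.Prime.dvd_mul Nat.prime_three).1 h1 with h6 | h6
      · exact h3q h6
      · exact h3 h6

theorem fact_of_card (Q m x y I : ℕ) (h : Q * m = 2 ^ x * 3 ^ y * I) (h2q : ¬ 2 ∣ Q)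
    (h3q : ¬ 3 ∣ Q) (h2I : ¬ 2 ∣ I) (h3I : ¬ 3 ∣ I) :
    m.factorization 2 = x ∧ m.factorization 3 = y := by
  have hQ0 : Q ≠ 0 := by rintro rfl; exact h2q (dvd_zero _)
  have hI0 : I ≠ 0 := by rintro rfl; exact h2I (dvd_zero _)
  have hm0 : m ≠ 0 := by
    rintro rfl
    rw [mul_zero] at h
    have : 0 < 2 ^ x * 3 ^ y * I := by positivity
    omega
  have := fact23 x y I h2I h3I
  rw [← h, Nat.factorization_mul hQ0 hm0] at this
  simpa [Nat.factorization_eq_zero_of_not_dvd h2q, Nat.factorization_eq_zero_of_not_dvd h3q]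
    using this

end

/-- Let `F` be a finite field with `q` elements of characteristic `p ≥ 5`, and `ε = 1` if `q ≡ 1 (mod 4)`, `ε = -1` otherwise. Then `PSL(2, F)` has a Hall `{2, 3}`-subgroup if and only if `3` divides `q − ε`, or the `{2,3}`-part of `q² − 1` is 24, or the `{2,3}`-part of `q² − 1` is 48 (the `{2,3}`-part of `m` being the largest divisor of `m` with no prime factor other than 2 and 3). -/
theorem result {F : Type*} [Field F] [Fintype F] {p : ℕ} [Fact p.Prime] [CharP F p]
    (hp : 5 ≤ p) (q : ℕ) (hq : Fintype.card F = q) :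
    (∃ H : Subgroup (Matrix.ProjectiveSpecialLinearGroup (Fin 2) F), Cfsg.IsPiHall ({2, 3} : Set ℕ) H) ↔
      (3 ∣ q - 1 ∧ q % 4 = 1) ∨ (3 ∣ q + 1 ∧ q % 4 = 3) ∨
        2 ^ (q ^ 2 - 1).factorization 2 * 3 ^ (q ^ 2 - 1).factorization 3 = 24 ∨
        2 ^ (q ^ 2 - 1).factorization 2 * 3 ^ (q ^ 2 - 1).factorization 3 = 48 := by
  obtain ⟨n, -, hn⟩ := FiniteField.card F p
  have hpp : p.Prime := Fact.out
  have hpq : p ∣ Fintype.card F := by rw [hn]; exact dvd_pow_self p n.ne_zero
  have h2q : ¬ 2 ∣ Fintype.card F := by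
    rw [hn]; intro h
    have := (Nat.prime_dvd_prime_iff_eq Nat.prime_two hpp).1 (Nat.prime_two.dvd_of_dvd_pow h)
    omega
  have h3q : ¬ 3 ∣ Fintype.card F := by
    rw [hn]; intro h
    have := (Nat.prime_dvd_prime_iff_eq Nat.prime_three hpp).1 (Nat.prime_three.dvd_of_dvd_pow h)
    omega
  have hq5 : 5 ≤ Fintype.card F := le_trans hp (Nat.le_of_dvd Fintype.card_pos hpq)
  have hodd : Odd (Fintype.card F) := Nat.odd_iff.2 (by omega)
  have hgcd : Nat.gcd 2 (Fintype.card F - 1) = 2 := by
    obtain ⟨a, ha⟩ := hodd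
    exact Nat.gcd_eq_left ⟨a, by omega⟩
  have hm : Fintype.card F ^ 2 - 1 = (Fintype.card F - 1) * (Fintype.card F + 1) := by
    have := Nat.sq_sub_sq (Fintype.card F) 1
    rw [one_pow] at this
    rw [this]; ring
  have hG := two_mul_card_psl (F := F) hodd
  constructor
  · rintro ⟨H, hH1, hH2⟩
    have hNI := Subgroup.card_mul_index H
    have h2I : ¬ 2 ∣ H.index := hH2 2 Nat.prime_two (by simp)
    have h3I : ¬ 3 ∣ H.index := hH2 3 Nat.prime_three (by simp)
    have hN0 : 0 < Nat.card H := Nat.card_pos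
    have hmain : 2 * Nat.card H * H.index =
        Fintype.card F * ((Fintype.card F - 1) * (Fintype.card F + 1)) := by
      rw [← hm, ← hG, ← hNI]; ring
    have hD := dickson_card p H
    rw [hgcd] at hD
    have hB : ∀ P : Sylow p (Matrix.ProjectiveSpecialLinearGroup (Fin 2) F),
        H ≤ Subgroup.normalizer ((P : Subgroup (Matrix.ProjectiveSpecialLinearGroup (Fin 2) F)) :
          Set (Matrix.ProjectiveSpecialLinearGroup (Fin 2) F)) →
        ∃ w, Fintype.card F * (Fintype.card F - 1) = 2 * Nat.card H * w := by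
      intro P hP
      obtain ⟨-, -, h3, -⟩ := borel_package p P
      rw [hgcd] at h3
      obtain ⟨w, hw⟩ := Subgroup.card_dvd_of_le hP
      exact ⟨w, by rw [← h3, hw]; ring⟩
    subst hq
    generalize Nat.card H = N at *
    generalize H.index = I at *
    have h8 : 8 ∣ Fintype.card F ^ 2 - 1 := by
      have h1 : Fintype.card F ^ 2 % 8 = 1 := by
        have : Fintype.card F % 8 = 1 ∨ Fintype.card F % 8 = 3 ∨ Fintype.card F % 8 = 5 ∨
          Fintype.card F % 8 = 7 := by omega
        rcases this with h | h | h | h <;> simp [Nat.pow_mod, h]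
      omega
    have h3m : 3 ∣ Fintype.card F ^ 2 - 1 := by
      have h1 : Fintype.card F ^ 2 % 3 = 1 := by
        have : Fintype.card F % 3 = 1 ∨ Fintype.card F % 3 = 2 := by omega
        rcases this with h | h <;> simp [Nat.pow_mod, h]
      omega
    rw [hm] at h8 h3m
    have h4N : 4 ∣ N := by
      have h1 : 8 ∣ 2 * N * I := by rw [hmain]; exact Dvd.dvd.mul_left h8 _
      have h2 : 4 ∣ N * I := by
        obtain ⟨w, hw⟩ := h1
        exact ⟨w, by nlinarith⟩
      have hc : Nat.Coprime 4 I := by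
        have := Nat.Coprime.pow_left 2 ((Nat.Prime.coprime_iff_not_dvd Nat.prime_two).2 h2I)
        simpa using this
      exact hc.dvd_of_dvd_mul_right h2
    have h3N : 3 ∣ N := by
      have h1 : 3 ∣ 2 * N * I := by rw [hmain]; exact Dvd.dvd.mul_left h3m _
      rcases (Nat.Prime.dvd_mul Nat.prime_three).1 h1 with h | h
      · rcases (Nat.Prime.dvd_mul Nat.prime_three).1 h with h | h
        · omega
        · exact h
      · exact absurd h h3I
    have h2p : 2 ∣ Fintype.card F + 1 := by omega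
    have h2m : 2 ∣ Fintype.card F - 1 := by omega
    rcases hD with ⟨-, h⟩ | ⟨k, hk, -, hNk⟩ | ⟨P, hP⟩ | ⟨-, h⟩ | ⟨-, h⟩ | ⟨-, h⟩ |
      ⟨K, m', hm', hqm, hK2, hK⟩
    · exfalso
      rcases h with ⟨w, hw⟩ | ⟨w, hw⟩
      · have h1 : 2 * N * I = 2 * N * (Fintype.card F * w * (Fintype.card F + 1)) := by
          rw [hmain, hw]; ring
        have h2 := Nat.eq_of_mul_eq_mul_left (by omega) h1
        exact h2I (h2 ▸ Dvd.dvd.mul_left h2p _)
      · have h1 : 2 * N * I = 2 * N * (Fintype.card F * w * (Fintype.card F - 1)) := by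
          rw [hmain, hw]; ring
        have h2 := Nat.eq_of_mul_eq_mul_left (by omega) h1
        exact h2I (h2 ▸ Dvd.dvd.mul_left h2m _)
    · rw [← hNk] at hk
      rcases hk with hk | hk
      · left
        have h1 := h4N.trans hk
        exact ⟨h3N.trans hk, by omega⟩
      · right; left
        have h1 := h4N.trans hk
        exact ⟨h3N.trans hk, by omega⟩
    · exfalso
      obtain ⟨w, hw⟩ := hB P hP
      have h1 : 2 * N * I = 2 * N * (w * (Fintype.card F + 1)) := by
        rw [hmain, ← mul_assoc, hw]; ring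
      have h2 := Nat.eq_of_mul_eq_mul_left (by omega) h1
      exact h2I (h2 ▸ Dvd.dvd.mul_left h2p _)
    · right; right; left
      have h1 := fact_of_card (Fintype.card F) (Fintype.card F ^ 2 - 1) 3 1 I
        (by rw [hm, ← hmain, h]; ring) h2q h3q h2I h3I
      rw [h1.1, h1.2]; norm_num
    · right; right; right
      have h1 := fact_of_card (Fintype.card F) (Fintype.card F ^ 2 - 1) 4 1 I
        (by rw [hm, ← hmain, h]; ring) h2q h3q h2I h3I
      rw [h1.1, h1.2]; norm_num
    · exfalso
      have := hH1 5 (by norm_num) (by rw [h]; norm_num)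
      simp at this
    · exfalso
      have hpK : p ∣ Nat.card K := by
        rw [hqm] at hpq
        exact hpp.dvd_of_dvd_pow hpq
      have hpN : p ∣ N := by
        rcases hK with ⟨-, h⟩ | ⟨-, h⟩
        · have h1 : p ∣ 2 * N := by rw [h]; exact Dvd.dvd.mul_right hpK _
          rcases (Nat.Prime.dvd_mul hpp).1 h1 with h2 | h2
          · have := Nat.le_of_dvd (by norm_num) h2
            omega
          · exact h2
        · rw [h]; exact Dvd.dvd.mul_right hpK _
      have := hH1 p hpp hpN
      rcases this with h | h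
      · omega
      · rw [Set.mem_singleton_iff] at h; omega
  · subst hq
    have hm0 : Fintype.card F ^ 2 - 1 ≠ 0 := by
      rw [hm]
      have h1 : 0 < Fintype.card F - 1 := by omega
      positivity
    rintro (⟨h3, h4⟩ | ⟨h3, h4⟩ | h | h)
    · obtain ⟨c, hc⟩ := exists_orderOf_minus (F := F)
      rw [hgcd] at hc
      have hcp : c ^ p ≠ 1 := by
        intro h1
        rcases (Nat.dvd_prime hpp).1 (orderOf_dvd_of_pow_eq_one h1) with h2 | h2
        · omega
        · rw [h2] at hc
          have h5 : p ∣ 1 := by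
            have h6 : Fintype.card F = 2 * p + 1 := by omega
            rw [h6] at hpq
            exact (Nat.dvd_add_right (Dvd.intro_left 2 rfl)).1 hpq
          have := Nat.le_of_dvd (by norm_num) h5
          omega
      obtain ⟨N, k, t, hk, ⟨e⟩, -, hot, hct, -⟩ := torus_package p c hcp
      rw [hgcd] at hk
      have hdk : orderOf c ∣ k := by rw [← hot]; exact orderOf_dvd_of_mem_zpowers hct
      have hk' : 2 * k = Fintype.card F - 1 := by
        rcases hk with hk | hk
        · exact hk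
        · exfalso
          obtain ⟨w, hw⟩ := hdk
          have h5 : (Fintype.card F - 1) * w = Fintype.card F + 1 := by
            rw [← hc, ← hk, hw]; ring
          rcases Nat.lt_or_ge w 2 with h6 | h6
          · interval_cases w <;> omega
          · have h7 : (Fintype.card F - 1) * 2 ≤ (Fintype.card F - 1) * w :=
              Nat.mul_le_mul_left _ h6
            omega
      exact hall_of_dihedral h2q h3q N k (by omega) e (Fintype.card F + 1) (by rw [hk', hm])
        (by omega) (by omega)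
    · obtain ⟨c, hc⟩ := exists_orderOf_plus (F := F)
      rw [hgcd] at hc
      have hcp : c ^ p ≠ 1 := by
        intro h1
        rcases (Nat.dvd_prime hpp).1 (orderOf_dvd_of_pow_eq_one h1) with h2 | h2
        · omega
        · rw [h2] at hc
          have h5 : p ∣ 1 := by
            have h6 : Fintype.card F + 1 = 2 * p := by omega
            exact (Nat.dvd_add_right hpq).1 (h6 ▸ Dvd.intro_left 2 rfl)
          have := Nat.le_of_dvd (by norm_num) h5
          omega
      obtain ⟨N, k, t, hk, ⟨e⟩, -, hot, hct, -⟩ := torus_package p c hcp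
      rw [hgcd] at hk
      have hdk : orderOf c ∣ k := by rw [← hot]; exact orderOf_dvd_of_mem_zpowers hct
      have hk' : 2 * k = Fintype.card F + 1 := by
        rcases hk with hk | hk
        · exfalso
          have h5 := Nat.le_of_dvd (by omega) hdk
          omega
        · exact hk
      exact hall_of_dihedral h2q h3q N k (by omega) e (Fintype.card F - 1)
        (by rw [hk', hm]; ring) (by omega) (by omega)
    · obtain ⟨ha, hb⟩ := pow23_eq _ _ 3 1 (by rw [h]; norm_num)
      obtain ⟨H, ⟨e⟩⟩ := (Cfsg.Agent.S0802.result p n hn).2 (fun h => by omega)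
      refine ⟨H, hall_of_card h2q h3q H 2 1 ?_ ha hb⟩
      rw [Nat.card_congr e.toEquiv, Nat.card_eq_fintype_card]
      have := two_mul_card_alternatingGroup (α := Fin 4)
      rw [Fintype.card_perm, Fintype.card_fin] at this
      have h24 : Nat.factorial 4 = 24 := rfl
      omega
    · obtain ⟨ha, hb⟩ := pow23_eq _ _ 4 1 (by rw [h]; norm_num)
      have h16 : 2 ^ 4 ∣ Fintype.card F ^ 2 - 1 :=
        (Nat.Prime.pow_dvd_iff_le_factorization Nat.prime_two hm0).2 (by omega)
      obtain ⟨H, ⟨e⟩⟩ := (Cfsg.Agent.S0803.result (F := F) rfl).2 (by omega)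
      refine ⟨H, hall_of_card h2q h3q H 3 1 ?_ ha hb⟩
      rw [Nat.card_congr e.toEquiv, Nat.card_eq_fintype_card, Fintype.card_perm, Fintype.card_fin]
      rfl

end Cfsg.Agent.S2537
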