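import Cfsg.Statements.S2540
import Mathlib
import Cfsg.Agent.Lib.Helper5.SLGen

set_option autoImplicit false
open Cfsg

namespace Cfsg.Agent.S2540

open Matrix Matrix.SpecialLinearGroup
open scoped LinearAlgebra.Projectivization

section
variable {F : Type*} [Field F] {ι : Type*} [Fintype ι] [DecidableEq ι]

/-- The Iwasawa structure on `SL_ι(F)` acting on the projective space. -/
noncomputable def SLIwasawa [Nontrivial ι] :
    MulAction.IwasawaStructure (SpecialLinearGroup ι F) (ℙ F (ι → F)) where
  T p := lineStab p.submodule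
  is_comm p := by
    rw [← Projectivization.mk_rep p, Projectivization.submodule_mk]
    exact lineStab_isMulCommutative_of_span p.rep p.rep_nonzero
  is_conj g p := by rw [PSL.smul_submodule, lineStab_smul]
  is_generator := Cfsg.Agent.Lib.Helper5.iSup_lineStab_eq_top

theorem normal_le_center_or_commutator_le [Nontrivial ι]
    (N : Subgroup (SpecialLinearGroup ι F)) [N.Normal] :
    N ≤ Subgroup.center (SpecialLinearGroup ι F) ∨ commutator (SpecialLinearGroup ι F) ≤ N := by
  by_cases h : MulAction.fixedPoints N (ℙ F (ι → F)) = Set.univ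
  · left
    intro g hg
    rw [← Projectivization.SL_mulAction_ker, MonoidHom.mem_ker]
    ext x
    have hx : x ∈ MulAction.fixedPoints N (ℙ F (ι → F)) := by rw [h]; trivial
    exact hx ⟨g, hg⟩
  · right
    exact SLIwasawa.commutator_le N h

/-- If `g t = λ t g` with `t` a transvection and `g` invertible then `λ = 1`. -/
theorem lam_eq_one {i j : ι} (hij : i ≠ j) (c lam : F) (g g' : Matrix ι ι F)
    (hgg : g * g' = 1)
    (h : g * (1 + single i j c) * g' = lam • (1 + single i j c)) : lam = 1 := by
  have hN : single i j c * single i j c = 0 := single_mul_single_of_ne _ _ _ _ hij.symm _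
  have h1 : g * single i j c * g' = lam • (1 + single i j c) - 1 := by
    rw [← h, mul_add, add_mul, mul_one, hgg]; abel
  have hg'g : g' * g = 1 := mul_eq_one_comm.1 hgg
  have h2 : (g * single i j c * g') * (g * single i j c * g') = 0 := by
    calc (g * single i j c * g') * (g * single i j c * g')
        = g * single i j c * (g' * g) * single i j c * g' := by simp only [mul_assoc]
      _ = g * (single i j c * single i j c) * g' := by rw [hg'g]; simp only [mul_assoc, one_mul]
      _ = 0 := by rw [hN]; simp
  rw [h1] at h2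
  have h3 := congr_fun (congr_fun h2 i) i
  have h4 : (lam • (1 + single i j c) - 1 : Matrix ι ι F) =
      (lam - 1) • (1 : Matrix ι ι F) + lam • single i j c := by
    rw [smul_add, sub_smul, one_smul]; abel
  rw [h4] at h3
  simp only [add_mul, mul_add, smul_mul_assoc, mul_smul_comm, one_mul, mul_one, hN] at h3
  simp [hij.symm] at h3
  exact sub_eq_zero.1 h3

end

/-- Let F be a finite field and n ≥ 1, excluding the case n = 2 with #F ≤ 3. A subgroup of GL_n(F) that is normalized by every element of SL_n(F) either consists of scalar matrices or contains SL_n(F). -/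
theorem result {F : Type*} [Field F] [Fintype F] (n : ℕ) (hn : 1 ≤ n) (hex : ¬ (n = 2 ∧ Fintype.card F ≤ 3)) (G : Subgroup (Matrix.GeneralLinearGroup (Fin n) F)) (hG : ∀ s : Matrix.SpecialLinearGroup (Fin n) F, ∀ g ∈ G, (Matrix.SpecialLinearGroup.toGL s) * g * (Matrix.SpecialLinearGroup.toGL s)⁻¹ ∈ G) : (∀ g ∈ G, ∃ c : F, (g : Matrix (Fin n) (Fin n) F) = c • (1 : Matrix (Fin n) (Fin n) F)) ∨ (Matrix.SpecialLinearGroup.toGL : Matrix.SpecialLinearGroup (Fin n) F →* _).range ≤ G := by
  rcases Nat.lt_or_ge n 2 with h2 | h2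
  · obtain rfl : n = 1 := by omega
    left
    intro g _
    refine ⟨(g : Matrix (Fin 1) (Fin 1) F) 0 0, ?_⟩
    ext i j
    fin_cases i; fin_cases j
    simp
  have : Nontrivial (Fin n) := Fin.nontrivial_iff_two_le.2 h2
  have hperf : commutator (SpecialLinearGroup (Fin n) F) = ⊤ := by
    rcases Nat.lt_or_ge n 3 with h3 | h3
    · obtain rfl : n = 2 := by omega
      have h4 : 4 ≤ Fintype.card F := by
        by_contra hc
        exact hex ⟨rfl, by omega⟩
      obtain ⟨x, hx⟩ : IsCyclic Fˣ := by infer_instance
      refine SL2.commutator_eq_top (a := (x : F)) (Units.ne_zero x) fun h ↦ ?_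
      have h5 : orderOf x ≤ 2 := orderOf_le_of_pow_eq_one zero_lt_two (Units.ext <| by simpa using h)
      rw [orderOf_eq_card_of_forall_mem_zpowers hx] at h5
      have h6 := Nat.card_eq_card_units_add_one F
      rw [Nat.card_eq_fintype_card] at h6
      omega
    · exact Cfsg.Agent.Lib.Helper5.SL_commutator_eq_top (by simpa using h3)
  set N : Subgroup (SpecialLinearGroup (Fin n) F) := G.comap toGL with hN
  have hNn : N.Normal := by
    constructor
    intro a ha s
    rw [hN, Subgroup.mem_comap] at ha ⊢
    simpa using hG s _ ha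
  rcases normal_le_center_or_commutator_le N with hc | hc
  · left
    intro g hg
    have key : ∀ t : TransvectionStruct (Fin n) F, Commute t.toMatrix (g : Matrix (Fin n) (Fin n) F) := by
      intro t
      set s : SpecialLinearGroup (Fin n) F := t.toSpecialLinearGroup with hs
      have h1 : g * (toGL s * g⁻¹ * (toGL s)⁻¹) ∈ G := G.mul_mem hg (hG s _ (G.inv_mem hg))
      have hdet : ((g * (toGL s * g⁻¹ * (toGL s)⁻¹) : GeneralLinearGroup (Fin n) F) :
          Matrix (Fin n) (Fin n) F).det = 1 := by
        have hd : (g : Matrix (Fin n) (Fin n) F).det ≠ 0 := GeneralLinearGroup.det_ne_zero g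
        simp [mul_inv_cancel₀ hd]
      obtain ⟨u, hu⟩ : ∃ u : SpecialLinearGroup (Fin n) F,
          (u : Matrix (Fin n) (Fin n) F) = ((g * (toGL s * g⁻¹ * (toGL s)⁻¹) :
            GeneralLinearGroup (Fin n) F) : Matrix (Fin n) (Fin n) F) := ⟨⟨_, hdet⟩, rfl⟩
      have h2 : u ∈ N := by
        rw [hN, Subgroup.mem_comap]
        convert h1 using 1
        ext1
        exact hu
      obtain ⟨r, -, hr⟩ := mem_center_iff.1 (hc h2)
      have hgg : (g : Matrix (Fin n) (Fin n) F) * ((g⁻¹ : GeneralLinearGroup (Fin n) F) :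
          Matrix (Fin n) (Fin n) F) = 1 := by
        rw [← Units.val_mul, mul_inv_cancel]; rfl
      have hss : ((toGL s)⁻¹ : GeneralLinearGroup (Fin n) F).val * (s : Matrix (Fin n) (Fin n) F) = 1 := by
        have : ((toGL s)⁻¹ * toGL s : GeneralLinearGroup (Fin n) F).val = 1 := by
          rw [inv_mul_cancel]; rfl
        simp
      have h3 : (g : Matrix (Fin n) (Fin n) F) * (s : Matrix (Fin n) (Fin n) F) *
          ((g⁻¹ : GeneralLinearGroup (Fin n) F) : Matrix (Fin n) (Fin n) F) =
          r • (s : Matrix (Fin n) (Fin n) F) := by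
        have h4 : (u : Matrix (Fin n) (Fin n) F) * (s : Matrix (Fin n) (Fin n) F) =
            r • (s : Matrix (Fin n) (Fin n) F) := by
          rw [← hr, scalar_apply, ← smul_one_eq_diagonal, smul_mul_assoc, one_mul]
        rw [← h4, hu]
        simp only [Units.val_mul, mul_assoc, hss, mul_one]
        rfl
      have hr1 : r = 1 := lam_eq_one t.hij t.c r _ _ hgg h3
      rw [hr1, one_smul] at h3
      have h5 := congrArg (· * (g : Matrix (Fin n) (Fin n) F)) h3
      have hg'g : ((g⁻¹ : GeneralLinearGroup (Fin n) F) : Matrix (Fin n) (Fin n) F) *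
          (g : Matrix (Fin n) (Fin n) F) = 1 := mul_eq_one_comm.1 hgg
      simp only [mul_assoc, hg'g, mul_one] at h5
      exact h5.symm
    obtain ⟨c, hc⟩ := mem_range_scalar_of_commute_transvectionStruct key
    exact ⟨c, by rw [← hc]; simp [smul_one_eq_diagonal]⟩
  · right
    rw [hperf] at hc
    rintro _ ⟨s, rfl⟩
    exact hc (Subgroup.mem_top s)

end Cfsg.Agent.S2540
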