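import Cfsg.Statements.S2541

set_option autoImplicit false
open Cfsg

namespace Cfsg.Agent.S2541

open Matrix

lemma orderOf_perm_dvd (σ : Equiv.Perm (Fin 6)) : orderOf σ ∣ 60 := by
  rw [← Equiv.Perm.lcm_cycleType]
  apply Multiset.lcm_dvd.mpr
  intro n hn
  have h1 : n ≤ σ.cycleType.sum := Multiset.le_sum_of_mem hn
  have h2 : σ.cycleType.sum ≤ 6 := by
    rw [Equiv.Perm.sum_cycleType]
    exact (Finset.card_le_univ _).trans (by simp)
  have h3 : n ≤ 6 := h1.trans h2
  have h4 : 2 ≤ n := Equiv.Perm.two_le_of_mem_cycleType hn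
  interval_cases n <;> decide

theorem result {F : Type*} [Field F] [Fintype F] (hF : Fintype.card F = 9) : ¬ Nonempty (Equiv.Perm (Fin 6) ≃* Matrix.ProjGenLinGroup (Fin 2) F) := by
  classical
  rintro ⟨e⟩
  obtain ⟨ζ, hζ⟩ := IsCyclic.exists_generator (α := Fˣ)
  have hord : orderOf ζ = 8 := by
    rw [orderOf_eq_card_of_forall_mem_zpowers hζ, Nat.card_eq_fintype_card, Fintype.card_units, hF]
  -- the diagonal matrix diag(ζ, 1)
  let D : Fˣ →* GL (Fin 2) F :=
    { toFun := fun u => ⟨Matrix.diagonal ![(u : F), 1], Matrix.diagonal ![((u⁻¹ : Fˣ) : F), 1],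
        by ext i j; fin_cases i <;> fin_cases j <;> simp [Matrix.mul_apply, Fin.sum_univ_two],
        by ext i j; fin_cases i <;> fin_cases j <;> simp [Matrix.mul_apply, Fin.sum_univ_two]⟩
      map_one' := by
        ext i j; fin_cases i <;> fin_cases j <;> simp
      map_mul' := by
        intro a b
        ext i j; fin_cases i <;> fin_cases j <;> simp [Matrix.mul_apply, Fin.sum_univ_two] }
  have hinj : Function.Injective (ProjGenLinGroup.mk.comp D) := by
    rw [injective_iff_map_eq_one]
    intro u hu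
    have h1 : D u ∈ Subgroup.center (GL (Fin 2) F) := by
      simpa using hu
    rw [Matrix.GeneralLinearGroup.center_eq_range_scalar] at h1
    obtain ⟨c, hc⟩ := h1
    have h00 := congrArg (fun M : GL (Fin 2) F => (M : Matrix (Fin 2) (Fin 2) F) 0 0) hc
    have h11 := congrArg (fun M : GL (Fin 2) F => (M : Matrix (Fin 2) (Fin 2) F) 1 1) hc
    simp [D] at h00 h11
    ext
    rw [← h00, h11]
  have h8 : orderOf ((ProjGenLinGroup.mk.comp D) ζ) = 8 := by
    rw [orderOf_injective _ hinj, hord]
  have h8' : orderOf (e.symm ((ProjGenLinGroup.mk.comp D) ζ)) = 8 := by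
    rw [MulEquiv.orderOf_eq, h8]
  have := orderOf_perm_dvd (e.symm ((ProjGenLinGroup.mk.comp D) ζ))
  rw [h8'] at this
  revert this; decide

end Cfsg.Agent.S2541
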