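import Cfsg.Statements.S2542
import Cfsg.Agent.Lib.Helper30.L211

set_option autoImplicit false
open Cfsg

namespace Cfsg.Agent.S2542

open Cfsg.Agent.Lib.Helper27 Cfsg.Agent.Lib.Helper30.L211

theorem d0_mem : unmask 340831 ∈ dodecads := by
  rw [mem_dodecads_iff, mask_unmask (by decide +kernel)]
  decide +kernel

/-- Let F be a field with 11 elements. PSL_2(F) has a subgroup H of index 11 isomorphic to the alternating group A_5, and the action of PSL_2(F) on the cosets of H is 2-transitive (of degree 11). -/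
theorem result {F : Type*} [Field F] [Fintype F] (hF : Fintype.card F = 11) : ∃ H : Subgroup (Matrix.ProjectiveSpecialLinearGroup (Fin 2) F), H.index = 11 ∧ Nonempty (H ≃* alternatingGroup (Fin 5)) ∧ MulAction.IsMultiplyPretransitive (Matrix.ProjectiveSpecialLinearGroup (Fin 2) F) ((Matrix.ProjectiveSpecialLinearGroup (Fin 2) F) ⧸ H) 2 := by
  have hd := d0_mem
  have hp : pt 0 ∈ unmask 340831 := by decide +kernel
  have hq : pt 5 ∉ unmask 340831 := by decide +kernel
  have hq' : pt 7 ∈ OO (unmask 340831) (pt 5) := ⟨by decide +kernel, by decide +kernel⟩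
  obtain ⟨hcard, hsimple⟩ := card_simple _ hd _ _ hp hq
  have hfin : Finite ↥(LL (unmask 340831) (pt 0) (pt 5)) :=
    Nat.finite_of_card_ne_zero (by rw [hcard]; norm_num)
  obtain ⟨e⟩ := Cfsg.Agent.S0498.result (G := ↥(LL (unmask 340831) (pt 0) (pt 5))) 11 (Or.inl rfl)
    (by rw [hcard]; norm_num) hF
  obtain ⟨a⟩ := stab_equiv_alt hd hp hq hq'
  refine ⟨(MulAction.stabilizer ↥(LL (unmask 340831) (pt 0) (pt 5)) (pt 7)).map e.toMonoidHom,
    ?_, ⟨(e.subgroupMap _).symm.trans a⟩, ?_⟩
  · rw [← index_stab hd hp hq hq']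
    exact Subgroup.index_map_equiv _ e
  · exact two_trans_transport e (pt 7) (OO (unmask 340831) (pt 5)) (fun l => smul_mem_OO l hq')
      (fun a ha b hb c hc d hd' hab hcd => two_trans hd hp hq ha hb hc hd' hab hcd)

end Cfsg.Agent.S2542
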