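import Cfsg.Statements.S2550
import Cfsg.Agent.S0819
import Cfsg.Agent.Lib.Helper5.LinearCard

set_option autoImplicit false
open Cfsg

namespace Cfsg.Agent.S2550

open Matrix Cfsg.Agent.Lib.Helper5

/-- The companion matrix of `X ^ 4 + X + 1` over the prime field. -/
def comp4 : Matrix.SpecialLinearGroup (Fin 4) (ZMod 2) :=
  ⟨!![0, 0, 0, 1; 1, 0, 0, 1; 0, 1, 0, 0; 0, 0, 1, 0], by decide⟩

theorem comp4_pow15 : comp4 ^ 15 = 1 := by decide +kernel

theorem comp4_pow3 : ((comp4 ^ 3 : Matrix.SpecialLinearGroup (Fin 4) (ZMod 2)) :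
    Matrix (Fin 4) (Fin 4) (ZMod 2)) 0 1 = 1 := by decide +kernel

theorem comp4_pow5 : ((comp4 ^ 5 : Matrix.SpecialLinearGroup (Fin 4) (ZMod 2)) :
    Matrix (Fin 4) (Fin 4) (ZMod 2)) 0 2 = 1 := by decide +kernel

theorem exists_order15 {F : Type*} [Field F] [Fintype F] (hF : Fintype.card F = 2) :
    ∃ g : Matrix.ProjectiveSpecialLinearGroup (Fin 4) F, orderOf g = 15 := by
  have : Fact (Nat.Prime 2) := ⟨Nat.prime_two⟩
  have : CharP F 2 := charP_of_card_eq_prime hF
  let f : ZMod 2 →+* F := ZMod.castHom (dvd_refl 2) F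
  let A : Matrix.SpecialLinearGroup (Fin 4) F := Matrix.SpecialLinearGroup.map f comp4
  have hoff : ∀ (k : ℕ) (i j : Fin 4), i ≠ j →
      ((comp4 ^ k : Matrix.SpecialLinearGroup (Fin 4) (ZMod 2)) :
        Matrix (Fin 4) (Fin 4) (ZMod 2)) i j = 1 →
      (QuotientGroup.mk A : Matrix.ProjectiveSpecialLinearGroup (Fin 4) F) ^ k ≠ 1 := by
    intro k i j hij h1 h
    rw [← QuotientGroup.mk_pow] at h
    have hc := (QuotientGroup.eq_one_iff _).mp h
    obtain ⟨r, -, hr⟩ := Matrix.SpecialLinearGroup.mem_center_iff.mp hc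
    have h2 : ((A ^ k : Matrix.SpecialLinearGroup (Fin 4) F) : Matrix (Fin 4) (Fin 4) F) i j = 1 := by
      have : A ^ k = Matrix.SpecialLinearGroup.map f (comp4 ^ k) := (map_pow _ _ _).symm
      rw [this]
      show f _ = 1
      rw [h1, map_one]
    rw [← hr, Matrix.scalar_apply, Matrix.diagonal_apply_ne _ hij] at h2
    exact zero_ne_one h2
  refine ⟨QuotientGroup.mk A, ?_⟩
  apply orderOf_eq_of_pow_and_pow_div_prime (by norm_num)
  · rw [← QuotientGroup.mk_pow]
    have : A ^ 15 = 1 := by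
      have : A ^ 15 = Matrix.SpecialLinearGroup.map f (comp4 ^ 15) := (map_pow _ _ _).symm
      rw [this, comp4_pow15, map_one]
    rw [this]; rfl
  · intro p hp hdvd
    have hp15 : p = 3 ∨ p = 5 := by
      have : p ∣ 3 * 5 := hdvd
      rcases (Nat.Prime.dvd_mul hp).mp this with h | h
      · left; exact (Nat.prime_dvd_prime_iff_eq hp (by norm_num)).mp h
      · right; exact (Nat.prime_dvd_prime_iff_eq hp (by norm_num)).mp h
    rcases hp15 with rfl | rfl
    · exact hoff 5 0 2 (by decide) comp4_pow5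
    · exact hoff 3 0 1 (by decide) comp4_pow3

theorem card_PSL4 {F : Type*} [Field F] [Fintype F] (hF : Fintype.card F = 2) :
    Nat.card (Matrix.ProjectiveSpecialLinearGroup (Fin 4) F) = 20160 := by
  classical
  have h1 := card_GL_eq_card_SL_mul_card_units (n := Fin 4) (F := F)
  rw [Matrix.card_GL_field, Nat.card_eq_fintype_card (α := Fˣ), Fintype.card_units, hF] at h1
  have h2 := Subgroup.card_eq_card_quotient_mul_card_subgroup
      (Subgroup.center (Matrix.SpecialLinearGroup (Fin 4) F))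
  rw [card_center_SL, hF, Fintype.card_fin] at h2
  show Nat.card (Matrix.SpecialLinearGroup (Fin 4) F ⧸
    Subgroup.center (Matrix.SpecialLinearGroup (Fin 4) F)) = _
  generalize Nat.card (Matrix.SpecialLinearGroup (Fin 4) F ⧸
    Subgroup.center (Matrix.SpecialLinearGroup (Fin 4) F)) = b at h2 ⊢
  generalize Nat.card (Matrix.SpecialLinearGroup (Fin 4) F) = a at h1 h2
  simp only [Fin.prod_univ_four] at h1
  norm_num at h1 h2
  omega

theorem card_PSL3 {K : Type*} [Field K] [Fintype K] (hK : Fintype.card K = 4) :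
    Nat.card (Matrix.ProjectiveSpecialLinearGroup (Fin 3) K) = 20160 := by
  classical
  have h1 := card_GL_eq_card_SL_mul_card_units (n := Fin 3) (F := K)
  rw [Matrix.card_GL_field, Nat.card_eq_fintype_card (α := Kˣ), Fintype.card_units, hK] at h1
  have h2 := Subgroup.card_eq_card_quotient_mul_card_subgroup
      (Subgroup.center (Matrix.SpecialLinearGroup (Fin 3) K))
  rw [card_center_SL, hK, Fintype.card_fin] at h2
  show Nat.card (Matrix.SpecialLinearGroup (Fin 3) K ⧸
    Subgroup.center (Matrix.SpecialLinearGroup (Fin 3) K)) = _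
  generalize Nat.card (Matrix.SpecialLinearGroup (Fin 3) K ⧸
    Subgroup.center (Matrix.SpecialLinearGroup (Fin 3) K)) = b at h2 ⊢
  generalize Nat.card (Matrix.SpecialLinearGroup (Fin 3) K) = a at h1 h2
  simp only [Fin.prod_univ_three] at h1
  norm_num at h1 h2
  omega

/-- Let F be a field with 2 elements and K a field with 4 elements. PSL_4(F) and PSL_3(K) have the same order (20160) but are not isomorphic. -/
theorem result {F K : Type*} [Field F] [Fintype F] [Field K] [Fintype K] (hF : Fintype.card F = 2) (hK : Fintype.card K = 4) : Nat.card (Matrix.ProjectiveSpecialLinearGroup (Fin 4) F) = Nat.card (Matrix.ProjectiveSpecialLinearGroup (Fin 3) K) ∧ ¬ Nonempty (Matrix.ProjectiveSpecialLinearGroup (Fin 4) F ≃* Matrix.ProjectiveSpecialLinearGroup (Fin 3) K) := by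
  refine ⟨by rw [card_PSL4 hF, card_PSL3 hK], ?_⟩
  rintro ⟨e⟩
  obtain ⟨g, hg⟩ := exists_order15 hF
  exact Cfsg.Agent.S0819.result hK (e g) (by rw [MulEquiv.orderOf_eq, hg])

end Cfsg.Agent.S2550
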