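import Cfsg.Statements.S2551
import Cfsg.Agent.Lib.Helper30.A7GL
import Cfsg.Agent.Lib.Helper30.A8GL4

set_option autoImplicit false
open Cfsg

namespace Cfsg.Agent.S2551

open Cfsg.Agent.Lib.Helper30.A7GL

/-- the embedding of `A₇` in `A₈`. -/
noncomputable def altEmb : alternatingGroup (Fin 7) →* alternatingGroup (Fin 8) :=
  ((Equiv.Perm.extendDomainHom (finSuccAboveEquiv (Fin.last 7))).comp
    (alternatingGroup (Fin 7)).subtype).codRestrict (alternatingGroup (Fin 8)) (fun g => by
      rw [Equiv.Perm.mem_alternatingGroup]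
      change Equiv.Perm.sign ((g : Equiv.Perm (Fin 7)).extendDomain _) = 1
      rw [Equiv.Perm.sign_extendDomain]
      exact g.2)

theorem altEmb_injective : Function.Injective altEmb := by
  intro g h hgh
  have h1 := congrArg Subtype.val hgh
  exact Subtype.ext (Equiv.Perm.extendDomainHom_injective _ h1)

/-- Let F be the field with 2 elements. GL_4(F) (≅ A_8) has a subgroup isomorphic to the alternating group A_7, and every such subgroup acts 2-transitively on the 15 non-zero vectors of F⁴: any ordered pair of distinct non-zero vectors is carried to any other by some element of the subgroup. -/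
theorem result {F : Type*} [Field F] [Fintype F] (hF : Fintype.card F = 2) : (∃ H : Subgroup (Matrix.GeneralLinearGroup (Fin 4) F), Nonempty (H ≃* alternatingGroup (Fin 7))) ∧ ∀ H : Subgroup (Matrix.GeneralLinearGroup (Fin 4) F), Nonempty (H ≃* alternatingGroup (Fin 7)) → ∀ v w v' w' : Fin 4 → F, v ≠ 0 → w ≠ 0 → v ≠ w → v' ≠ 0 → w' ≠ 0 → v' ≠ w' → ∃ g ∈ H, (g : Matrix (Fin 4) (Fin 4) F).mulVec v = v' ∧ (g : Matrix (Fin 4) (Fin 4) F).mulVec w = w' := by
  constructor
  · obtain ⟨e⟩ := nonempty_alt8_equiv_GL4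
    let r : ZMod 2 ≃+* F := ZMod.ringEquivOfPrime F Nat.prime_two hF
    let e2 : GL (Fin 4) (ZMod 2) ≃* GL (Fin 4) F :=
      Units.mapEquiv (RingEquiv.mapMatrix (m := Fin 4) r).toMulEquiv
    let φ : alternatingGroup (Fin 7) →* GL (Fin 4) F :=
      (e2.toMonoidHom.comp e.toMonoidHom).comp altEmb
    have hφ : Function.Injective φ :=
      (e2.injective.comp e.injective).comp altEmb_injective
    exact ⟨φ.range, ⟨(MonoidHom.ofInjective hφ).symm⟩⟩
  · rintro H ⟨e⟩ v w v' w' hv hw hvw hv' hw' hvw'
    have hH : Nat.card H = 2520 := by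
      rw [Nat.card_congr e.toEquiv, nat_card_alternatingGroup]
      simp [Nat.factorial]
    exact two_trans hF H hH hv hw hvw hv' hw' hvw'

end Cfsg.Agent.S2551
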