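import Cfsg.Statements.S2552
import Cfsg.Agent.Lib.Helper43.Dilation

set_option autoImplicit false
open Cfsg

namespace Cfsg.Agent.S2552

open Cfsg.Agent.Lib.Helper43 Module in
/-- Let F be a finite field and n ≥ 1. For every k, the special linear group SL_n(F) acts transitively on the set of k-dimensional subspaces of F^n: any two subspaces of the same dimension are carried onto each other by some matrix of determinant 1. -/
theorem result {F : Type*} [Field F] [Fintype F] (n : ℕ) (hn : 1 ≤ n) (U₁ U₂ : Submodule F (Fin n → F)) (h : Module.finrank F U₁ = Module.finrank F U₂) : ∃ g : Matrix.SpecialLinearGroup (Fin n) F, U₁.map ((Matrix.SpecialLinearGroup.toLin' g : (Fin n → F) ≃ₗ[F] (Fin n → F)) : (Fin n → F) →ₗ[F] (Fin n → F)) = U₂ := by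
  classical
  obtain ⟨g, hg⟩ := Submodule.exists_linearEquiv_restrict_eq (LinearEquiv.ofFinrankEq U₁ U₂ h)
  have hgU : U₁.map (g : (Fin n → F) →ₗ[F] (Fin n → F)) = U₂ := by
    apply Submodule.eq_of_le_of_finrank_eq
    · rintro _ ⟨x, hx, rfl⟩
      have := hg ⟨x, hx⟩
      simp only [LinearEquiv.coe_coe]
      rw [← this]
      exact Subtype.coe_prop _
    · rw [LinearEquiv.finrank_map_eq g U₁, h]
  -- choose a vector along which to dilate
  obtain ⟨a, ha, haU⟩ : ∃ a : Fin n → F, a ≠ 0 ∧ (U₁ = ⊥ ∨ a ∈ U₁) := by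
    by_cases hU : U₁ = ⊥
    · have : Nontrivial (Fin n → F) := by
        have : Nonempty (Fin n) := ⟨⟨0, hn⟩⟩
        infer_instance
      obtain ⟨a, ha⟩ := exists_ne (0 : Fin n → F)
      exact ⟨a, ha, Or.inl hU⟩
    · obtain ⟨a, haU, ha⟩ := Submodule.exists_mem_ne_zero_of_ne_bot hU
      exact ⟨a, ha, Or.inr haU⟩
  have hdet : LinearMap.det (g : (Fin n → F) →ₗ[F] (Fin n → F)) ≠ 0 := by
    have := LinearEquiv.isUnit_det' g
    exact this.ne_zero
  obtain ⟨φ, d, hφ, hd, hddet⟩ := exists_dilation a ha (LinearMap.det (g : (Fin n → F) →ₗ[F] (Fin n → F)))⁻¹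
    (inv_ne_zero hdet)
  have hdU : U₁.map (d : (Fin n → F) →ₗ[F] (Fin n → F)) = U₁ := by
    apply map_eq_of_map_le
    intro x hx
    rcases haU with h0 | haU
    · rw [h0] at hx ⊢
      rw [Submodule.mem_bot] at hx ⊢
      rw [hx, map_zero]
    · rw [hd]
      exact U₁.add_mem hx (U₁.smul_mem _ (U₁.smul_mem _ haU))
  let M : Matrix (Fin n) (Fin n) F := LinearMap.toMatrix' ((g : (Fin n → F) →ₗ[F] (Fin n → F)) ∘ₗ (d : (Fin n → F) →ₗ[F] (Fin n → F)))
  have hM : M.det = 1 := by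
    rw [LinearMap.det_toMatrix', LinearMap.det_comp, hddet, mul_inv_cancel₀ hdet]
  let M' : Matrix.SpecialLinearGroup (Fin n) F := ⟨M, hM⟩
  refine ⟨M', ?_⟩
  rw [Matrix.SpecialLinearGroup.toLin'_to_linearMap]
  have : Matrix.toLin' (M' : Matrix (Fin n) (Fin n) F) =
      ((g : (Fin n → F) →ₗ[F] (Fin n → F)) ∘ₗ (d : (Fin n → F) →ₗ[F] (Fin n → F))) :=
    Matrix.toLin'_toMatrix' _
  rw [this, Submodule.map_comp, hdU, hgU]

end Cfsg.Agent.S2552
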