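import Cfsg.Statements.S2561
import Cfsg.Agent.Lib.Helper43.BinQuadMinus

set_option autoImplicit false
open Cfsg

namespace Cfsg.Agent.S2561

open Cfsg.Agent.Lib.Helper43 Module

/-- translates of the plus form -/
noncomputable abbrev tr (m : ℕ) (w : Fin m ⊕ Fin m → ZMod 2) : (Fin m ⊕ Fin m → ZMod 2) → ZMod 2 :=
  fun v => Cfsg.quadFormPlus m (ZMod 2) v + plusB m (ZMod 2) v w

theorem tr_polar (m : ℕ) (w u v : Fin m ⊕ Fin m → ZMod 2) :
    tr m w (u + v) = tr m w u + tr m w v + plusB m (ZMod 2) u v := by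
  simp only [tr]
  rw [plus_polar', map_add, LinearMap.add_apply]; ring

theorem expSum_tr (m : ℕ) (w : Fin m ⊕ Fin m → ZMod 2) :
    expSum (tr m w) = sgn (Cfsg.quadFormPlus m (ZMod 2) w) * 2 ^ m := by
  rw [← expSum_plus]
  exact expSum_translate _ _ (plus_polar' m) (plusB_self_two m) w

theorem plus_iff (m : ℕ) (w : Fin m ⊕ Fin m → ZMod 2) :
    (∃ g : (Fin m ⊕ Fin m → ZMod 2) ≃ₗ[ZMod 2] (Fin m ⊕ Fin m → ZMod 2),
      ∀ v, tr m w v = Cfsg.quadFormPlus m (ZMod 2) (g v)) ↔ Cfsg.quadFormPlus m (ZMod 2) w = 0 := by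
  constructor
  · rintro ⟨g, hg⟩
    have h1 := expSum_tr m w
    have h2 : expSum (tr m w) = 2 ^ m := by
      rw [← expSum_plus, ← expSum_comp_equiv (Cfsg.quadFormPlus m (ZMod 2)) g.toEquiv]
      congr 1
      funext v
      exact hg v
    rw [h2] at h1
    rcases zmod2_cases (Cfsg.quadFormPlus m (ZMod 2) w) with h | h
    · exact h
    · rw [h, sgn_one] at h1
      have : (0 : ℤ) < 2 ^ m := by positivity
      omega
  · intro hw
    exact exists_equiv_translate _ _ (plus_polar' m) (plusB_self_two m) w hw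

theorem minus_iff (k : ℕ) (w : Fin (k + 1) ⊕ Fin (k + 1) → ZMod 2) :
    (∃ g : (Fin (k + 1) ⊕ Fin (k + 1) → ZMod 2) ≃ₗ[ZMod 2] ((Fin k ⊕ Fin k) ⊕ Fin 2 → ZMod 2),
      ∀ v, tr (k + 1) w v = Cfsg.quadFormMinus k (ZMod 2) 1 1 (g v)) ↔
      Cfsg.quadFormPlus (k + 1) (ZMod 2) w = 1 := by
  constructor
  · rintro ⟨g, hg⟩
    have h1 := expSum_tr (k + 1) w
    have h2 : expSum (tr (k + 1) w) = - 2 ^ (k + 1) := by
      rw [← expSum_minus, ← expSum_comp_equiv (Cfsg.quadFormMinus k (ZMod 2) 1 1) g.toEquiv]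
      congr 1
      funext v
      exact hg v
    rw [h2] at h1
    rcases zmod2_cases (Cfsg.quadFormPlus (k + 1) (ZMod 2) w) with h | h
    · rw [h, sgn_zero] at h1
      have : (0 : ℤ) < 2 ^ (k + 1) := by positivity
      omega
    · exact h
  · intro hw
    have h0 : tr (k + 1) (w0 k) (w + w0 k) = 0 := by
      simp only [tr]
      rw [plus_polar', hw, plus_w0, map_add, LinearMap.add_apply, plusB_self_two]
      have h1 := zmod2_add_self (plusB (k + 1) (ZMod 2) w (w0 k))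
      have h2 : (1 : ZMod 2) + 1 = 0 := by decide
      linear_combination h1 + h2
    obtain ⟨g, hg⟩ := exists_equiv_translate _ _ (tr_polar (k + 1) (w0 k)) (plusB_self_two (k + 1)) _ h0
    refine ⟨g.trans (minusEquiv k (ZMod 2)), fun v => ?_⟩
    rw [LinearEquiv.trans_apply, minus_eq]
    have := hg v
    simp only [tr] at this ⊢
    rw [← this, map_add]
    have h1 := zmod2_add_self (plusB (k + 1) (ZMod 2) v (w0 k))
    linear_combination -h1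

theorem card_aux (m : ℕ) (T : ((Fin m ⊕ Fin m → ZMod 2) → ZMod 2) → Prop) (c : ZMod 2)
    (hT : ∀ w, T (tr m w) ↔ Cfsg.quadFormPlus m (ZMod 2) w = c) :
    Nat.card {q : (Fin m ⊕ Fin m → ZMod 2) → ZMod 2 //
      (∀ u v, q (u + v) = q u + q v + plusB m (ZMod 2) u v) ∧ T q} =
    Nat.card {w // Cfsg.quadFormPlus m (ZMod 2) w = c} := by
  let E := translateEquiv (plusB m (ZMod 2)) _ (plus_polar' m) (plusB_comm m _) (plusB_nondegenerate m _)
  refine Nat.card_congr ?_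
  refine (Equiv.subtypeSubtypeEquivSubtypeInter _ _).symm.trans ?_
  refine (Equiv.subtypeEquiv E ?_).symm
  intro w
  exact (hT w).symm

theorem result (m : ℕ) (hm : 1 ≤ m) :
    Nat.card {q : (Fin m ⊕ Fin m → ZMod 2) → ZMod 2 // (∀ u v : (Fin m ⊕ Fin m → ZMod 2), q (u + v) = q u + q v + (Cfsg.quadFormPlus m (ZMod 2) (u + v) - Cfsg.quadFormPlus m (ZMod 2) u - Cfsg.quadFormPlus m (ZMod 2) v))} = 2 ^ (2 * m) ∧
    (∀ q : (Fin m ⊕ Fin m → ZMod 2) → ZMod 2, (∀ u v : (Fin m ⊕ Fin m → ZMod 2), q (u + v) = q u + q v + (Cfsg.quadFormPlus m (ZMod 2) (u + v) - Cfsg.quadFormPlus m (ZMod 2) u - Cfsg.quadFormPlus m (ZMod 2) v)) →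
      (∃ g : (Fin m ⊕ Fin m → ZMod 2) ≃ₗ[ZMod 2] (Fin m ⊕ Fin m → ZMod 2), ∀ v, q v = Cfsg.quadFormPlus m (ZMod 2) (g v)) ∨
      (∃ g : (Fin m ⊕ Fin m → ZMod 2) ≃ₗ[ZMod 2] ((Fin (m - 1) ⊕ Fin (m - 1)) ⊕ Fin 2 → ZMod 2), ∀ v, q v = Cfsg.quadFormMinus (m - 1) (ZMod 2) 1 1 (g v))) ∧
    Nat.card {q : (Fin m ⊕ Fin m → ZMod 2) → ZMod 2 // (∀ u v : (Fin m ⊕ Fin m → ZMod 2), q (u + v) = q u + q v + (Cfsg.quadFormPlus m (ZMod 2) (u + v) - Cfsg.quadFormPlus m (ZMod 2) u - Cfsg.quadFormPlus m (ZMod 2) v)) ∧ ∃ g : (Fin m ⊕ Fin m → ZMod 2) ≃ₗ[ZMod 2] (Fin m ⊕ Fin m → ZMod 2), ∀ v, q v = Cfsg.quadFormPlus m (ZMod 2) (g v)} = 2 ^ (2 * m - 1) + 2 ^ (m - 1) ∧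
    Nat.card {q : (Fin m ⊕ Fin m → ZMod 2) → ZMod 2 // (∀ u v : (Fin m ⊕ Fin m → ZMod 2), q (u + v) = q u + q v + (Cfsg.quadFormPlus m (ZMod 2) (u + v) - Cfsg.quadFormPlus m (ZMod 2) u - Cfsg.quadFormPlus m (ZMod 2) v)) ∧ ∃ g : (Fin m ⊕ Fin m → ZMod 2) ≃ₗ[ZMod 2] ((Fin (m - 1) ⊕ Fin (m - 1)) ⊕ Fin 2 → ZMod 2), ∀ v, q v = Cfsg.quadFormMinus (m - 1) (ZMod 2) 1 1 (g v)} = 2 ^ (2 * m - 1) - 2 ^ (m - 1) := by
  obtain ⟨k, rfl⟩ : ∃ k, m = k + 1 := ⟨m - 1, by omega⟩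
  simp only [Nat.add_sub_cancel, plus_polar]
  let E := translateEquiv (plusB (k + 1) (ZMod 2)) _ (plus_polar' (k + 1)) (plusB_comm (k + 1) _)
    (plusB_nondegenerate (k + 1) _)
  have hcardV : Fintype.card (Fin (k + 1) ⊕ Fin (k + 1) → ZMod 2) = 2 ^ (2 * (k + 1)) := by
    simp [two_mul]
  have e1 : 2 * (k + 1) - 1 = 2 * k + 1 := by omega
  have e2 : (2 : ℤ) ^ (2 * (k + 1)) = 2 * 2 ^ (2 * k + 1) := by
    rw [show 2 * (k + 1) = (2 * k + 1) + 1 by ring, pow_succ]; ring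
  refine ⟨?_, ?_, ?_, ?_⟩
  · rw [← Nat.card_congr E, Nat.card_eq_fintype_card, hcardV]
  · intro q hq
    obtain ⟨w, hw⟩ := E.surjective ⟨q, hq⟩
    have hw' : q = tr (k + 1) w := (congrArg Subtype.val hw).symm
    rcases zmod2_cases (Cfsg.quadFormPlus (k + 1) (ZMod 2) w) with h | h
    · left
      rw [hw']
      exact (plus_iff (k + 1) w).2 h
    · right
      rw [hw']
      exact (minus_iff k w).2 h
  · rw [card_aux (k + 1) _ 0 (plus_iff (k + 1)), e1]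
    have h := two_mul_card_zeros (Cfsg.quadFormPlus (k + 1) (ZMod 2))
    rw [expSum_plus, hcardV] at h
    push_cast at h
    rw [e2, pow_succ 2 k] at h
    have : (Nat.card {w // Cfsg.quadFormPlus (k + 1) (ZMod 2) w = 0} : ℤ) = 2 ^ (2 * k + 1) + 2 ^ k := by
      linarith
    exact_mod_cast this
  · rw [card_aux (k + 1) _ 1 (minus_iff k), e1]
    have h := two_mul_card_ones (Cfsg.quadFormPlus (k + 1) (ZMod 2))
    rw [expSum_plus, hcardV] at h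
    push_cast at h
    rw [e2, pow_succ 2 k] at h
    have h3 : (Nat.card {w // Cfsg.quadFormPlus (k + 1) (ZMod 2) w = 1} : ℤ) + 2 ^ k = 2 ^ (2 * k + 1) := by
      linarith
    have h4 : Nat.card {w // Cfsg.quadFormPlus (k + 1) (ZMod 2) w = 1} + 2 ^ k = 2 ^ (2 * k + 1) := by
      exact_mod_cast h3
    omega

end Cfsg.Agent.S2561
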