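import Cfsg.Statements.S2562
import Cfsg.Agent.Lib.Helper43.BinQuadMinus

set_option autoImplicit false
open Cfsg

namespace Cfsg.Agent.S2562

open Cfsg.Agent.Lib.Helper43 Module in
/-- Witt indices over the field of two elements, m ≥ 1: for the plus-type form Σ xᵢyᵢ in dimension 2m some m-dimensional subspace is totally singular and no totally singular subspace has larger dimension; for the minus-type form Σ xᵢyᵢ + (z₁² + z₁z₂ + z₂²) in dimension 2m the maximal dimension of a totally singular subspace is m − 1. -/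
theorem result (m : ℕ) (hm : 1 ≤ m) :
    (∃ U : Submodule (ZMod 2) (Fin m ⊕ Fin m → ZMod 2), (∀ u ∈ U, Cfsg.quadFormPlus m (ZMod 2) u = 0) ∧ Module.finrank (ZMod 2) ↥U = m) ∧
    (∀ U : Submodule (ZMod 2) (Fin m ⊕ Fin m → ZMod 2), (∀ u ∈ U, Cfsg.quadFormPlus m (ZMod 2) u = 0) → Module.finrank (ZMod 2) ↥U ≤ m) ∧
    (∃ U : Submodule (ZMod 2) ((Fin (m - 1) ⊕ Fin (m - 1)) ⊕ Fin 2 → ZMod 2), (∀ u ∈ U, Cfsg.quadFormMinus (m - 1) (ZMod 2) 1 1 u = 0) ∧ Module.finrank (ZMod 2) ↥U = m - 1) ∧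
    (∀ U : Submodule (ZMod 2) ((Fin (m - 1) ⊕ Fin (m - 1)) ⊕ Fin 2 → ZMod 2), (∀ u ∈ U, Cfsg.quadFormMinus (m - 1) (ZMod 2) 1 1 u = 0) → Module.finrank (ZMod 2) ↥U ≤ m - 1) := by
  obtain ⟨k, rfl⟩ : ∃ k, m = k + 1 := ⟨m - 1, by omega⟩
  simp only [Nat.add_sub_cancel]
  refine ⟨⟨plusLagr _ _, plusLagr_singular _ _, finrank_plusLagr _ _⟩,
    fun U hU => finrank_le_of_singular _ _ (plus_polar' _) U hU, ?_, ?_⟩
  · refine ⟨LinearMap.range (extL (ZMod 2) (Fin k ⊕ Fin k) (Fin 2) ∘ₗ extL (ZMod 2) (Fin k) (Fin k)), ?_, ?_⟩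
    · rintro _ ⟨x, rfl⟩
      simp [quadFormMinus]
    · rw [LinearMap.finrank_range_of_inj]
      · simp
      · exact (extL_injective _ _ _).comp (extL_injective _ _ _)
  · intro U hU
    let U' := U.map (minusEquiv k (ZMod 2)).symm.toLinearMap
    have hfin : finrank (ZMod 2) U' = finrank (ZMod 2) U := LinearEquiv.finrank_map_eq _ _
    have hU' : ∀ u ∈ U', Cfsg.quadFormMinus k (ZMod 2) 1 1 (minusEquiv k (ZMod 2) u) = 0 := by
      rintro _ ⟨x, hx, rfl⟩
      simpa using hU x hx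
    have h1 := finrank_le_of_singular (k + 1) _ (minus_polar k) U' hU'
    by_contra hcon
    have h2 : finrank (ZMod 2) U' = k + 1 := by omega
    have h3 := expSum_of_singular_finrank_eq (k + 1) _ (minus_polar k) U' hU' h2
    rw [expSum_minus'] at h3
    have : (0 : ℤ) < 2 ^ (k + 1) := by positivity
    omega

end Cfsg.Agent.S2562
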