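import Cfsg.Statements.S2564
import Cfsg.Agent.Lib.Helper43.BinQuadPlus

set_option autoImplicit false
open Cfsg

namespace Cfsg.Agent.S2564

open Cfsg.Agent.Lib.Helper43 in
/-- On the 2m-dimensional space over the field of two elements (m ≥ 1) let f be the alternating form obtained by polarizing the plus-type form Σ xᵢyᵢ, and let q be any quadratic form polarizing to f. For a vector w, the function q + f(·, w) again polarizes to f, and it is equivalent to q under an invertible linear map (that is, has the same type) if and only if q(w) = 0. -/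
theorem result (m : ℕ) (hm : 1 ≤ m) (q : (Fin m ⊕ Fin m → ZMod 2) → ZMod 2) (hq : (∀ u v : (Fin m ⊕ Fin m → ZMod 2), q (u + v) = q u + q v + (Cfsg.quadFormPlus m (ZMod 2) (u + v) - Cfsg.quadFormPlus m (ZMod 2) u - Cfsg.quadFormPlus m (ZMod 2) v))) (w : (Fin m ⊕ Fin m → ZMod 2)) :
    (∀ u v : (Fin m ⊕ Fin m → ZMod 2), (q (u + v) + (Cfsg.quadFormPlus m (ZMod 2) (u + v + w) - Cfsg.quadFormPlus m (ZMod 2) (u + v) - Cfsg.quadFormPlus m (ZMod 2) w)) =
        (q u + (Cfsg.quadFormPlus m (ZMod 2) (u + w) - Cfsg.quadFormPlus m (ZMod 2) u - Cfsg.quadFormPlus m (ZMod 2) w)) + (q v + (Cfsg.quadFormPlus m (ZMod 2) (v + w) - Cfsg.quadFormPlus m (ZMod 2) v - Cfsg.quadFormPlus m (ZMod 2) w)) +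
        (Cfsg.quadFormPlus m (ZMod 2) (u + v) - Cfsg.quadFormPlus m (ZMod 2) u - Cfsg.quadFormPlus m (ZMod 2) v)) ∧
    ((∃ g : (Fin m ⊕ Fin m → ZMod 2) ≃ₗ[ZMod 2] (Fin m ⊕ Fin m → ZMod 2), ∀ v, q v + (Cfsg.quadFormPlus m (ZMod 2) (v + w) - Cfsg.quadFormPlus m (ZMod 2) v - Cfsg.quadFormPlus m (ZMod 2) w) = q (g v)) ↔ q w = 0) := by
  simp only [plus_polar] at hq ⊢
  refine ⟨fun u v => ?_, ?_, ?_⟩
  · rw [hq, map_add, LinearMap.add_apply]; ring
  · rintro ⟨g, hg⟩
    by_contra hw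
    have hw1 : q w = 1 := zmod2_eq_one_of_ne_zero hw
    have h1 := expSum_translate (plusB m (ZMod 2)) q hq (plusB_self_two m) w
    have h2 : expSum (fun v => q v + plusB m (ZMod 2) v w) = expSum q := by
      simp_rw [hg]
      exact expSum_comp_equiv q g.toEquiv
    rw [h2, hw1, sgn_one] at h1
    have h3 := expSum_ne_zero (plusB m (ZMod 2)) q hq (plusB_nondeg m (ZMod 2))
    omega
  · intro hw
    exact exists_equiv_translate (plusB m (ZMod 2)) q hq (plusB_self_two m) w hw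

end Cfsg.Agent.S2564
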