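import Mathlib
import Cfsg.Statements.S2566
import Cfsg.Agent.Lib.Helper14.Omega4Plus
import Cfsg.Agent.S0250
import Cfsg.Agent.S0287
import Cfsg.Agent.Lib.Helper44.Transport

set_option autoImplicit false
open Cfsg

namespace Cfsg.Agent.S2566

open Cfsg.Agent.Lib.Helper14 Cfsg.Agent.Lib.Helper44 Matrix

local notation "S2" => Matrix.SpecialLinearGroup (Fin 2) (ZMod 2)

/-- the transposition of `M₂` in coordinates -/
noncomputable def tauL : (Fin 2 ⊕ Fin 2 → ZMod 2) ≃ₗ[ZMod 2] (Fin 2 ⊕ Fin 2 → ZMod 2) :=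
  LinearEquiv.funCongrLeft (ZMod 2) (ZMod 2) (Equiv.swap (Sum.inl 1) (Sum.inr 1))

theorem tauL_apply (v : Fin 2 ⊕ Fin 2 → ZMod 2) (i : Fin 2 ⊕ Fin 2) :
    tauL v i = v (Equiv.swap (Sum.inl 1) (Sum.inr 1) i) := rfl

theorem e4_tauL (v : Fin 2 ⊕ Fin 2 → ZMod 2) : e4 (tauL v) = (e4 v)ᵀ := by
  rw [e4_apply, e4_apply]
  ext i j
  fin_cases i <;> fin_cases j <;> simp [tauL_apply, Equiv.swap_apply_def]

noncomputable def tauO : OQ (plusQF 2 (ZMod 2)) := ⟨tauL, by
  intro v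
  rw [← det_e4, ← det_e4, e4_tauL, Matrix.det_transpose]⟩

theorem tau_conj (a : S2) :
    tauO * rho4SL (a, 1) * tauO⁻¹ = rho4SL (1, (a.transpose)⁻¹) := by
  rw [mul_inv_eq_iff_eq_mul]
  apply Subtype.ext
  ext1 v
  apply e4_injective
  show e4 (tauL ((rho4SL (a, 1) : OQ (plusQF 2 (ZMod 2))).1 v))
    = e4 ((rho4SL (1, (a.transpose)⁻¹) : OQ (plusQF 2 (ZMod 2))).1 (tauL v))
  rw [e4_tauL]
  erw [rho4_spec, rho4_spec]
  rw [e4_tauL]
  simp [Matrix.transpose_mul]

/-- The full orthogonal group of the plus-type form x₁y₁ + x₂y₂ in dimension 4 over the field of two elements has order 72 and is isomorphic to the wreath product of the symmetric group of degree 3 by a group of order 2: it has a normal subgroup isomorphic to the direct product of two symmetric groups of degree 3, of index 2, whose two direct factors are interchanged by conjugation by some element. -/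
theorem result :
    Nat.card ↥(Cfsg.isometryGroup (ZMod 2) (Cfsg.quadFormPlus 2 (ZMod 2))) = 72 ∧
    ∃ (A B : Subgroup ↥(Cfsg.isometryGroup (ZMod 2) (Cfsg.quadFormPlus 2 (ZMod 2)))),
      Nonempty (↥A ≃* Equiv.Perm (Fin 3)) ∧ Nonempty (↥B ≃* Equiv.Perm (Fin 3)) ∧ A ⊓ B = ⊥ ∧ (∀ a ∈ A, ∀ b ∈ B, a * b = b * a) ∧
      (A ⊔ B).index = 2 ∧ ∃ g : ↥(Cfsg.isometryGroup (ZMod 2) (Cfsg.quadFormPlus 2 (ZMod 2))), A.map (MulAut.conj g).toMonoidHom = B := by
  classical
  rw [← plusQF_coe]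
  -- notation
  let Q := plusQF 2 (ZMod 2)
  let iso := isoEquiv Q
  have hcardS : Nat.card S2 = 6 := by
    obtain ⟨e⟩ := Cfsg.Agent.S0250.result (F := ZMod 2) (by simp)
    rw [Nat.card_congr e.toEquiv, Nat.card_eq_fintype_card, Fintype.card_perm]
    rfl
  have hcardG : Nat.card ↥(Cfsg.isometryGroup (ZMod 2) ⇑Q) = 72 := by
    have := Cfsg.Agent.S0287.result (F := ZMod 2) (q := 2) (by simp) 2 (by norm_num)
    rw [← plusQF_coe] at this
    rw [this]
    simp
  refine ⟨hcardG, ?_⟩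
  let ρ : S2 × S2 →* ↥(Cfsg.isometryGroup (ZMod 2) ⇑Q) := iso.symm.toMonoidHom.comp rho4SL
  have hρ : Function.Injective ρ := by
    rw [injective_iff_map_eq_one]
    intro p hp
    have h1 : rho4SL p = 1 := by
      have : iso.symm (rho4SL p) = 1 := hp
      simpa using this
    have h2 := (mem_rho4SL_ker p).mp h1
    rw [Cfsg.Agent.Lib.Helper41.sl2_mem_center_iff] at h2
    have h3 : (p.1 : Matrix (Fin 2) (Fin 2) (ZMod 2)) = 1 := by
      rcases h2.2 with h | h
      · exact h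
      · rw [h]; decide
    have h4 : p.1 = 1 := Matrix.SpecialLinearGroup.ext _ _ (fun i j => by rw [h3]; rfl)
    exact Prod.ext h4 (by rw [← h2.1, h4]; rfl)
  have hinl : Function.Injective (ρ.comp (MonoidHom.inl S2 S2)) :=
    hρ.comp (fun a b h => congrArg Prod.fst h)
  have hinr : Function.Injective (ρ.comp (MonoidHom.inr S2 S2)) :=
    hρ.comp (fun a b h => congrArg Prod.snd h)
  obtain ⟨e3⟩ := Cfsg.Agent.S0250.result (F := ZMod 2) (by simp)
  refine ⟨(ρ.comp (MonoidHom.inl S2 S2)).range, (ρ.comp (MonoidHom.inr S2 S2)).range,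
    ⟨(MonoidHom.ofInjective hinl).symm.trans e3⟩, ⟨(MonoidHom.ofInjective hinr).symm.trans e3⟩,
    ?_, ?_, ?_, ?_⟩
  · rw [eq_bot_iff]
    rintro x ⟨⟨a, rfl⟩, ⟨b, hb⟩⟩
    have : ((1 : S2), b) = (a, (1 : S2)) := hρ hb
    have ha : a = 1 := (congrArg Prod.fst this).symm
    rw [Subgroup.mem_bot, ha, map_one]
  · rintro _ ⟨a, rfl⟩ _ ⟨b, rfl⟩
    show ρ (a, 1) * ρ (1, b) = ρ (1, b) * ρ (a, 1)
    rw [← map_mul, ← map_mul]
    simp
  · have h1 : (ρ.comp (MonoidHom.inl S2 S2)).range ⊔ (ρ.comp (MonoidHom.inr S2 S2)).range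
        = ρ.range := by
      apply le_antisymm
      · rw [sup_le_iff]
        constructor
        · rintro _ ⟨a, rfl⟩; exact ⟨_, rfl⟩
        · rintro _ ⟨a, rfl⟩; exact ⟨_, rfl⟩
      · rintro _ ⟨⟨a, b⟩, rfl⟩
        have : ρ (a, b) = ρ (a, 1) * ρ (1, b) := by rw [← map_mul]; simp
        rw [this]
        exact mul_mem (Subgroup.mem_sup_left ⟨a, rfl⟩) (Subgroup.mem_sup_right ⟨b, rfl⟩)
    rw [h1]
    have h2 : Nat.card ρ.range = 36 := by
      rw [← Nat.card_congr (MonoidHom.ofInjective hρ).toEquiv, Nat.card_prod, hcardS]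
    have h3 := ρ.range.index_mul_card
    rw [h2, hcardG] at h3
    omega
  · refine ⟨iso.symm tauO, ?_⟩
    have key : ∀ a : S2, iso.symm tauO * ρ (a, 1) * (iso.symm tauO)⁻¹ = ρ (1, (a.transpose)⁻¹) := by
      intro a
      show iso.symm tauO * iso.symm (rho4SL (a, 1)) * (iso.symm tauO)⁻¹ = iso.symm (rho4SL _)
      rw [← map_inv, ← map_mul, ← map_mul, tau_conj]
    ext x
    constructor
    · rintro ⟨_, ⟨a, rfl⟩, rfl⟩
      exact ⟨(a.transpose)⁻¹, (key a).symm⟩
    · rintro ⟨b, rfl⟩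
      refine ⟨ρ ((b⁻¹).transpose, 1), ⟨_, rfl⟩, ?_⟩
      show iso.symm tauO * ρ ((b⁻¹).transpose, 1) * (iso.symm tauO)⁻¹ = ρ (1, b)
      rw [key]
      have h : ((b⁻¹).transpose).transpose = b⁻¹ := by
        apply Matrix.SpecialLinearGroup.ext
        intro i j
        rw [Matrix.SpecialLinearGroup.coe_transpose, Matrix.SpecialLinearGroup.coe_transpose,
          Matrix.transpose_transpose]
      rw [h, inv_inv]

end Cfsg.Agent.S2566
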