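import Cfsg.Statements.S2567

set_option autoImplicit false
open Cfsg

namespace Cfsg.Agent.S2567

/-- Unique lift of an element of prime order `r` modulo a central subgroup of exponent prime to `r`. -/
theorem unique_lift {G : Type*} [Group G] (k r : ℕ) (hr : r.Prime) (hk : Nat.Coprime r k)
    (hZ : ∀ z ∈ Subgroup.center G, z ^ k = 1) (x : G ⧸ Subgroup.center G) (hx : orderOf x = r) :
    ∃! g : G, (QuotientGroup.mk g : G ⧸ Subgroup.center G) = x ∧ orderOf g = r := by
  obtain ⟨g0, rfl⟩ := QuotientGroup.mk_surjective x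
  have hz : g0 ^ r ∈ Subgroup.center G := by
    rw [← QuotientGroup.eq_one_iff, QuotientGroup.mk_pow, ← hx, pow_orderOf_eq_one]
  -- every central element killed by `r` is trivial
  have htriv : ∀ z ∈ Subgroup.center G, z ^ r = 1 → z = 1 := by
    intro z hzc hzr
    have h1 : orderOf z ∣ r := orderOf_dvd_of_pow_eq_one hzr
    have h2 : orderOf z ∣ k := orderOf_dvd_of_pow_eq_one (hZ z hzc)
    have h3 : orderOf z ∣ 1 := by
      have := Nat.dvd_gcd h1 h2
      rwa [hk] at this
    exact orderOf_eq_one_iff.1 (Nat.dvd_one.1 h3)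
  -- r-th root of `g0 ^ r` in the centre
  obtain ⟨w, hwc, hw⟩ : ∃ w ∈ Subgroup.center G, w ^ r = g0 ^ r := by
    have hco : Nat.Coprime k r := hk.symm
    refine ⟨(g0 ^ r) ^ (Nat.gcdB k r), Subgroup.zpow_mem _ hz _, ?_⟩
    have hb := Nat.gcd_eq_gcd_ab k r
    rw [hco] at hb
    have h1 : ((g0 ^ r) ^ (Nat.gcdB k r)) ^ r = (g0 ^ r) ^ ((r : ℤ) * Nat.gcdB k r) := by
      rw [← zpow_natCast, ← zpow_mul, mul_comm]
    rw [h1]
    have h2 : (r : ℤ) * Nat.gcdB k r = 1 - k * Nat.gcdA k r := by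
      push_cast at hb; linarith
    rw [h2, zpow_sub, zpow_one, zpow_mul, zpow_natCast, hZ _ hz]
    simp
  have hwcomm : Commute g0 w⁻¹ := by
    have := (Subgroup.mem_center_iff.1 (Subgroup.inv_mem _ hwc)) g0
    exact this
  refine ⟨g0 * w⁻¹, ⟨?_, ?_⟩, ?_⟩
  · rw [QuotientGroup.mk_mul, (QuotientGroup.eq_one_iff _).2 (Subgroup.inv_mem _ hwc), mul_one]
  · have h1 : (g0 * w⁻¹) ^ r = 1 := by
      rw [hwcomm.mul_pow, inv_pow, hw, mul_inv_cancel]
    have h2 : orderOf (g0 * w⁻¹) ∣ r := orderOf_dvd_of_pow_eq_one h1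
    rcases (Nat.dvd_prime hr).1 h2 with h3 | h3
    · exfalso
      have h4 : g0 * w⁻¹ = 1 := orderOf_eq_one_iff.1 h3
      have h5 : (QuotientGroup.mk g0 : G ⧸ Subgroup.center G) = 1 := by
        rw [QuotientGroup.eq_one_iff]
        have : g0 = w := by rw [mul_inv_eq_one] at h4; exact h4
        rw [this]; exact hwc
      rw [h5, orderOf_one] at hx
      exact hr.one_lt.ne hx
    · exact h3
  · rintro g' ⟨hg', hord'⟩
    have hzc : (g0 * w⁻¹)⁻¹ * g' ∈ Subgroup.center G := by
      rw [← QuotientGroup.eq_one_iff, QuotientGroup.mk_mul, QuotientGroup.mk_inv, QuotientGroup.mk_mul, hg',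
        (QuotientGroup.eq_one_iff _).2 (Subgroup.inv_mem _ hwc), mul_one, inv_mul_cancel]
    set z := (g0 * w⁻¹)⁻¹ * g' with hzdef
    have hg'z : g' = (g0 * w⁻¹) * z := by rw [hzdef]; group
    have hcomm : Commute (g0 * w⁻¹) z := (Subgroup.mem_center_iff.1 hzc) _
    have h1 : (g0 * w⁻¹) ^ r = 1 := by
      rw [hwcomm.mul_pow, inv_pow, hw, mul_inv_cancel]
    have h2 : g' ^ r = 1 := by rw [← hord', pow_orderOf_eq_one]
    rw [hg'z, hcomm.mul_pow, h1, one_mul] at h2
    rw [hg'z, htriv z hzc h2, mul_one]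

/-- Lifting elements of prime order from PGL to GL: let F be a finite field with q elements, r a prime not dividing q − 1, and x an element of order r in GL_n(F) modulo its centre (the scalar matrices). Then x has exactly one preimage in GL_n(F) of order r. -/
theorem result {F : Type*} [Field F] [Fintype F] {q n r : ℕ} (hF : Fintype.card F = q) (hr : r.Prime) (hdiv : ¬ r ∣ q - 1) (x : GL (Fin n) F ⧸ Subgroup.center (GL (Fin n) F)) (hx : orderOf x = r) : ∃! g : GL (Fin n) F, (QuotientGroup.mk g : GL (Fin n) F ⧸ Subgroup.center (GL (Fin n) F)) = x ∧ orderOf g = r := by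
  classical
  apply unique_lift (q - 1) r hr ((Nat.Prime.coprime_iff_not_dvd hr).2 hdiv) _ x hx
  intro z hz
  rw [Matrix.GeneralLinearGroup.center_eq_range_scalar] at hz
  obtain ⟨a, rfl⟩ := hz
  rw [← map_pow]
  have : a ^ (q - 1) = 1 := by
    rw [← hF, ← Fintype.card_units]
    exact pow_card_eq_one
  rw [this, map_one]

end Cfsg.Agent.S2567
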