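import Cfsg.Statements.S2568
import Cfsg.Agent.Lib.Helper38.OrderRTypes

set_option autoImplicit false
open Cfsg

namespace Cfsg.Agent.S2568

/-- Number of conjugacy classes of elements of a given prime order r, coprime to the characteristic, in GL_n(q): if i is the multiplicative order of q modulo r and t = (r − 1)/i, the classes correspond to the non-zero t-tuples of natural numbers (a_1, …, a_t) with i(a_1 + ⋯ + a_t) ≤ n (a_j is the multiplicity of the j-th Frobenius orbit of nontrivial r-th roots of unity among the eigenvalues), so there are exactly C(⌊n/i⌋ + t, t) − 1 of them. -/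
theorem result {F : Type*} [Field F] [Fintype F] {p q : ℕ} [Fact p.Prime] [CharP F p] (hF : Fintype.card F = q) (n r i t : ℕ) (hr : r.Prime) (hrp : r ≠ p) (hi : i = orderOf (q : ZMod r)) (ht : t * i = r - 1) : Nat.card {C : ConjClasses (GL (Fin n) F) // ∃ g : GL (Fin n) F, ConjClasses.mk g = C ∧ orderOf g = r} = Nat.choose (n / i + t) t - 1 := by
  classical
  subst hF
  have : Fact r.Prime := ⟨hr⟩
  have hpp : p.Prime := Fact.out
  have hrq : ¬ r ∣ Fintype.card F := by
    intro h
    obtain ⟨⟨f, hf0⟩, -, hf⟩ := FiniteField.card F p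
    rw [hf] at h
    exact hrp ((Nat.prime_dvd_prime_iff_eq hr hpp).1 (hr.dvd_of_dvd_pow h))
  have hi0 : 0 < i := by
    rw [hi, orderOf_pos_iff, isOfFinOrder_iff_pow_eq_one]
    refine ⟨r - 1, Nat.sub_pos_of_lt hr.one_lt, ?_⟩
    apply ZMod.pow_card_sub_one_eq_one
    rwa [Ne, ZMod.natCast_eq_zero_iff]
  have hcardI : Fintype.card ↥(Cfsg.Agent.Lib.Helper38.CycF.facs F r) = t := by
    rw [Fintype.card_coe, Cfsg.Agent.Lib.Helper38.CycF.card_facs p hr hrp, ← hi, ← ht,
      Nat.mul_div_cancel _ hi0]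
  have e0 : {C : ConjClasses (GL (Fin n) F) // ∃ g : GL (Fin n) F, ConjClasses.mk g = C ∧ orderOf g = r}
      ≃ {C : ConjClasses (GL (Fin n) F) // ∃ g : GL (Fin n) F, orderOf g = r ∧ ConjClasses.mk g = C} :=
    Equiv.subtypeEquivRight (fun C => exists_congr (fun g => and_comm))
  let τ : {m : Multiset ↥(Cfsg.Agent.Lib.Helper38.CycF.facs F r) // m ≠ 0 ∧ Multiset.card m ≤ n / i} →
      Multiset (Polynomial F × ℕ) := fun m => Cfsg.Agent.Lib.Helper38.CycF.tau n i r m.1
  have hτ : Function.Injective τ := by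
    intro m m' h
    exact Subtype.ext (Cfsg.Agent.Lib.Helper38.CycF.tau_injective p hr hrp n i h)
  rw [Nat.card_congr e0, Cfsg.Agent.Lib.Helper45.card_classes_eq
    (fun g : GL (Fin n) F => orderOf g = r) (Set.range τ), Nat.card_range_of_injective hτ,
    Cfsg.Agent.Lib.Helper38.MCount.card_nonzero_le, hcardI]
  · intro g hg
    obtain ⟨m, hm0, hm, hT⟩ := Cfsg.Agent.Lib.Helper38.CycF.typ_eq_tau p hr hrp n i hi g hg
    exact ⟨⟨m, hm0, (Nat.le_div_iff_mul_le hi0).2 (by rw [mul_comm]; exact hm)⟩, hT.symm⟩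
  · rintro T ⟨⟨m, hm0, hm⟩, rfl⟩
    exact Cfsg.Agent.Lib.Helper38.CycF.exists_of_tau p hr hrp n i hi m hm0
      (by rw [mul_comm]; exact (Nat.le_div_iff_mul_le hi0).1 hm)

end Cfsg.Agent.S2568
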