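import Cfsg.Statements.S2570
import Cfsg.Agent.Lib.Helper45.SimUnip

set_option autoImplicit false
open Cfsg

namespace Cfsg.Agent.S2570

open Cfsg.Agent.Lib.Helper45 Polynomial

/-- the partition into ones. -/
def ones (n : ℕ) : Nat.Partition n := ⟨Multiset.replicate n 1, by
  intro i hi
  rw [Multiset.eq_of_mem_replicate hi]
  exact Nat.one_pos, by simp⟩

theorem eq_ones {n : ℕ} (μ : Nat.Partition n) (h : ∀ a ∈ μ.parts, a ≤ 1) : μ = ones n := by
  apply Nat.Partition.ext
  have h1 : ∀ a ∈ μ.parts, a = 1 := fun a ha => le_antisymm (h a ha) (μ.parts_pos ha)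
  have h2 := Multiset.eq_replicate_card.2 h1
  have h3 := μ.parts_sum
  rw [h2] at h3
  simp only [Multiset.sum_replicate, smul_eq_mul, mul_one] at h3
  rw [h2, h3]
  rfl

theorem card_filter (n p : ℕ) (hp : 1 ≤ p)
    [DecidablePred (fun μ : Nat.Partition n => (∀ a ∈ μ.parts, a ≤ p) ∧ ∃ a ∈ μ.parts, 2 ≤ a)]
    [DecidablePred (fun μ : Nat.Partition n => ∀ a ∈ μ.parts, a ≤ p)] :
    (Finset.univ.filter (fun μ : Nat.Partition n =>
      (∀ a ∈ μ.parts, a ≤ p) ∧ ∃ a ∈ μ.parts, 2 ≤ a)).card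
      = (Finset.univ.filter (fun μ : Nat.Partition n => ∀ a ∈ μ.parts, a ≤ p)).card - 1 := by
  have hmem : ones n ∈ Finset.univ.filter (fun μ : Nat.Partition n => ∀ a ∈ μ.parts, a ≤ p) := by
    simp only [Finset.mem_filter, Finset.mem_univ, true_and]
    intro a ha
    rw [Multiset.eq_of_mem_replicate ha]
    exact hp
  rw [← Finset.card_erase_of_mem hmem]
  congr 1
  ext μ
  simp only [Finset.mem_filter, Finset.mem_univ, true_and, Finset.mem_erase]
  constructor
  · rintro ⟨h1, a, ha, h2⟩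
    refine ⟨?_, h1⟩
    rintro rfl
    rw [Multiset.eq_of_mem_replicate ha] at h2
    omega
  · rintro ⟨h1, h2⟩
    refine ⟨h2, ?_⟩
    by_contra hcon
    push Not at hcon
    exact h1 (eq_ones μ (fun a ha => by have := hcon a ha; omega))

/-- Number of conjugacy classes of elements of order p in GL_n over a finite field of characteristic p. -/
theorem result {F : Type*} [Field F] [Fintype F] {p : ℕ} [Fact p.Prime] [CharP F p] (n : ℕ) : Nat.card {C : ConjClasses (GL (Fin n) F) // ∃ g : GL (Fin n) F, ConjClasses.mk g = C ∧ orderOf g = p} = (Finset.univ.filter (fun μ : Nat.Partition n => ∀ a ∈ μ.parts, a ≤ p)).card - 1 := by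
  classical
  have hp : p.Prime := Fact.out
  have e0 : {C : ConjClasses (GL (Fin n) F) // ∃ g : GL (Fin n) F, ConjClasses.mk g = C ∧ orderOf g = p}
      ≃ {C : ConjClasses (GL (Fin n) F) // ∃ g : GL (Fin n) F, orderOf g = p ∧ ConjClasses.mk g = C} :=
    Equiv.subtypeEquivRight (fun C => exists_congr (fun g => and_comm))
  let R : Multiset (F[X] × ℕ) → Prop := fun T => (∀ x ∈ T, x.2 ≤ p) ∧ ∃ x ∈ T, 2 ≤ x.2
  have key : ∀ (A : Matrix (Fin n) (Fin n) F) (T : Multiset (F[X] × ℕ)), HasType A T →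
      ((A ^ p = 1 ∧ A ≠ 1) ↔ (T ∈ unipTypes F n ∧ R T)) := by
    intro A T hA
    have h1 := hA.pow_char_pow_eq_one_iff p 1
    have h2 := hA.sub_one_pow_eq_zero_iff 1
    rw [pow_one] at h1 h2
    rw [sub_eq_zero] at h2
    rw [h1, Ne, h2]
    constructor
    · rintro ⟨h3, h4⟩
      have h5 := hA.mem_unipTypes (fun x hx => (h3 x hx).1)
      refine ⟨by simpa using h5, fun x hx => (h3 x hx).2, ?_⟩
      by_contra hcon
      push Not at hcon
      exact h4 (fun x hx => ⟨(h3 x hx).1, by have := hcon x hx; omega⟩)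
    · rintro ⟨h3, h4, x, hx, h5⟩
      refine ⟨fun y hy => ⟨(h3.1 y hy).1, h4 y hy⟩, ?_⟩
      intro h6
      have := (h6 x hx).2
      omega
  rw [Nat.card_congr e0, card_classes_eq (fun g : GL (Fin n) F => orderOf g = p)
    {T | T ∈ unipTypes F n ∧ R T}]
  · have e1 : ({T | T ∈ unipTypes F n ∧ R T} : Set (Multiset (F[X] × ℕ)))
        ≃ {T : unipTypes F n // R T.1} :=
      (Equiv.subtypeSubtypeEquivSubtypeInter (fun T => T ∈ unipTypes F n) R).symm
    have e2 : {T : unipTypes F n // R T.1} ≃ {μ : Nat.Partition n //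
        (∀ a ∈ μ.parts, a ≤ p) ∧ ∃ a ∈ μ.parts, 2 ≤ a} :=
      (unipEquiv F n).subtypeEquiv (fun T => by
        simp only [R, unipEquiv, Equiv.coe_fn_mk, Multiset.mem_map]
        constructor
        · rintro ⟨h1, x, hx, h2⟩
          refine ⟨?_, x.2, ⟨x, hx, rfl⟩, h2⟩
          rintro a ⟨y, hy, rfl⟩
          exact h1 y hy
        · rintro ⟨h1, a, ⟨x, hx, rfl⟩, h2⟩
          exact ⟨fun y hy => h1 _ ⟨y, hy, rfl⟩, x, hx, h2⟩)
    rw [Nat.card_congr (e1.trans e2), Nat.card_eq_fintype_card, Fintype.card_subtype,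
      card_filter n p hp.one_le]
  · intro g hg
    rw [orderOf_eq_prime_iff] at hg
    apply (key _ _ (hasType_typ (g : Matrix (Fin n) (Fin n) F))).1
    constructor
    · rw [← Units.val_pow_eq_pow_val, hg.1]; rfl
    · intro h
      exact hg.2 (Units.ext h)
  · intro T hT
    obtain ⟨hv, hd⟩ := unipTypes_valid hT.1
    obtain ⟨A, hA⟩ := exists_hasType_of_valid (n := Fin n) T hv (by simpa using hd)
    obtain ⟨h1, h2⟩ := (key A T hA).2 hT
    refine ⟨Units.ofPowEqOne A p h1 hp.ne_zero, ?_, hA.typ_eq⟩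
    rw [orderOf_eq_prime_iff]
    refine ⟨Units.pow_ofPowEqOne _ _, ?_⟩
    intro h
    exact h2 (congrArg Units.val h)

end Cfsg.Agent.S2570
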