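import Cfsg.Statements.S2571
import Cfsg.Agent.Lib.Helper43.RegNilp2
import Cfsg.Agent.Lib.Helper43.GLEquiv

set_option autoImplicit false
open Cfsg

namespace Cfsg.Agent.S2571

open Cfsg.Agent.Lib.Helper43 Module Matrix in
/-- Centraliser of a regular unipotent element in GL_n(q): if u is an invertible n × n matrix over the field with q elements, n ≥ 1, with (u − 1)^n = 0 and rank(u − 1) = n − 1 (a single unipotent Jordan block), then its centraliser in GL_n(q) has order (q − 1) q^(n−1). -/
theorem result {F : Type*} [Field F] [Fintype F] {q n : ℕ} (hF : Fintype.card F = q) (hn : 1 ≤ n) (u : GL (Fin n) F) (hnil : ((u : Matrix (Fin n) (Fin n) F) - 1) ^ n = 0) (hreg : ((u : Matrix (Fin n) (Fin n) F) - 1).rank = n - 1) : Nat.card ↥(Subgroup.centralizer ({u} : Set (GL (Fin n) F))) = (q - 1) * q ^ (n - 1) := by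
  classical
  set N := Matrix.mulVecLin ((u : Matrix (Fin n) (Fin n) F) - 1) with hN
  have hNn : N ^ n = 0 := by rw [hN, ← mulVecLin_pow', hnil]; simp
  have hker : finrank F (LinearMap.ker N) ≤ 1 := by
    have := finrank_ker_mulVecLin ((u : Matrix (Fin n) (Fin n) F) - 1)
    rw [Fintype.card_fin, hreg, ← hN] at this
    omega
  have hfin : finrank F (Fin n → F) = n := by simp
  rw [← hF, ← card_centralizer_regular_nilpotent N n hfin hn hNn hker]
  refine Nat.card_congr (Equiv.subtypeEquiv glEquiv.toEquiv ?_)
  intro g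
  rw [Subgroup.mem_centralizer_singleton_iff]
  simp only [MulEquiv.toEquiv_eq_coe, EquivLike.coe_coe, glEquiv_apply, hN, Matrix.mulVecLin_apply,
    Matrix.mulVec_mulVec]
  constructor
  · intro h x
    have h' : (g : Matrix (Fin n) (Fin n) F) * u = u * g := by
      have := congrArg (fun z : GL (Fin n) F => (z : Matrix (Fin n) (Fin n) F)) h
      simpa using this
    rw [mul_sub, sub_mul, h', mul_one, one_mul]
  · intro h
    have h' := mulVec_ext h
    rw [mul_sub, sub_mul, mul_one, one_mul] at h'
    apply Units.ext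
    simpa using h'

end Cfsg.Agent.S2571
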