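import Cfsg.Statements.S2572
import Cfsg.Agent.Lib.Helper43.TransvCent
import Cfsg.Agent.Lib.Helper43.TransvMat

set_option autoImplicit false
open Cfsg

namespace Cfsg.Agent.S2572

theorem arith (q k : ℕ) :
    ∏ i : Fin (k + 2), (q ^ (k + 2) - q ^ (i : ℕ)) =
      (q ^ (k + 2) - 1) * (q ^ (k + 1) - 1) * (q ^ (2 * k + 1) * ∏ i : Fin k, (q ^ k - q ^ (i : ℕ))) := by
  rw [Fin.prod_univ_succ, Fin.prod_univ_succ]
  simp only [Fin.val_zero, pow_zero, Fin.val_succ, zero_add, pow_one]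
  have h1 : q ^ (k + 2) - q = q * (q ^ (k + 1) - 1) := by
    rw [Nat.mul_sub, mul_one]; ring_nf
  have h2 : ∀ i : Fin k, q ^ (k + 2) - q ^ ((i : ℕ) + 1 + 1) = q ^ 2 * (q ^ k - q ^ (i : ℕ)) := by
    intro i
    rw [Nat.mul_sub]; ring_nf
  simp_rw [h2]
  rw [h1, Finset.prod_mul_distrib, Finset.prod_const, Finset.card_univ, Fintype.card_fin]
  ring

open Cfsg.Agent.Lib.Helper43 Module Matrix in
/-- Centraliser of a transvection in GL_n(q), n ≥ 2: if t − 1 has rank one and square zero, the centraliser of t in GL_n(q) has order q^(2n−3) (q − 1) |GL_(n−2)(q)| (a group of order q^(2n−3) extended by GL_1(q) × GL_(n−2)(q)). -/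
theorem result {F : Type*} [Field F] [Fintype F] {q n : ℕ} (hF : Fintype.card F = q) (hn : 2 ≤ n) (t : GL (Fin n) F) (ht : Cfsg.IsTransvection (t : Matrix (Fin n) (Fin n) F)) : Nat.card ↥(Subgroup.centralizer ({t} : Set (GL (Fin n) F))) = q ^ (2 * n - 3) * (q - 1) * ∏ i : Fin (n - 2), (q ^ (n - 2) - q ^ (i : ℕ)) := by
  classical
  obtain ⟨φ, a, ha, hφ, hφa, htx⟩ := transvection_decomp _ ht
  have hq : 2 ≤ q := by rw [← hF]; exact Fintype.one_lt_card
  have key := card_centralizer_transvection (K := F) n (by simp) a φ ha hφ hφa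
  have hcard : Nat.card ((Fin n → F) ≃ₗ[F] (Fin n → F)) = ∏ i : Fin n, (q ^ n - q ^ (i : ℕ)) := by
    rw [← Nat.card_congr (glEquiv (ι := Fin n) (F := F)).toEquiv, Matrix.card_GL_field, hF]
  have hcent : Nat.card ↥(Subgroup.centralizer ({t} : Set (GL (Fin n) F))) =
      Nat.card {g : (Fin n → F) ≃ₗ[F] (Fin n → F) // ∀ x, g (x + φ x • a) = g x + φ (g x) • a} := by
    refine Nat.card_congr (Equiv.subtypeEquiv glEquiv.toEquiv ?_)
    intro g
    rw [Subgroup.mem_centralizer_singleton_iff]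
    simp only [MulEquiv.toEquiv_eq_coe, EquivLike.coe_coe, glEquiv_apply]
    constructor
    · intro h x
      have h' : (g : Matrix (Fin n) (Fin n) F) * t = t * g :=
        congrArg (fun z : GL (Fin n) F => (z : Matrix (Fin n) (Fin n) F)) h
      rw [← htx, ← htx, Matrix.mulVec_mulVec, Matrix.mulVec_mulVec, h']
    · intro h
      apply Units.ext
      show (g : Matrix (Fin n) (Fin n) F) * t = t * g
      apply mulVec_ext
      intro x
      rw [← Matrix.mulVec_mulVec, ← Matrix.mulVec_mulVec, htx, htx, h]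
  rw [hcent]
  rw [hcard, hF] at key
  obtain ⟨k, rfl⟩ : ∃ k, n = k + 2 := ⟨n - 2, by omega⟩
  rw [arith q k] at key
  have e1 : k + 2 - 1 = k + 1 := by omega
  have e2 : 2 * (k + 2) - 3 = 2 * k + 1 := by omega
  rw [e1] at key
  rw [e2]
  change _ = q ^ (2 * k + 1) * (q - 1) * ∏ i : Fin k, (q ^ k - q ^ (i : ℕ))
  have hpos : 0 < (q ^ (k + 2) - 1) * (q ^ (k + 1) - 1) := by
    apply Nat.mul_pos
    · have : 1 < q ^ (k + 2) := Nat.one_lt_pow (by omega) (by omega)
      omega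
    · have : 1 < q ^ (k + 1) := Nat.one_lt_pow (by omega) (by omega)
      omega
  apply Nat.eq_of_mul_eq_mul_right hpos
  rw [key]
  ring

end Cfsg.Agent.S2572
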