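import Cfsg.Statements.S2574
import Cfsg.Agent.Lib.Helper43.RegNilp

set_option autoImplicit false
open Cfsg

namespace Cfsg.Agent.S2574

open Matrix Module in
theorem sympForm_mulVec {F : Type*} [Field F] {m : ℕ} (A : Matrix (Fin m ⊕ Fin m) (Fin m ⊕ Fin m) F)
    (hA : A ∈ Matrix.symplecticGroup (Fin m) F) (x y : Fin m ⊕ Fin m → F) :
    Cfsg.sympForm m F (A *ᵥ x) (A *ᵥ y) = Cfsg.sympForm m F x y := by
  have h := (SymplecticGroup.mem_iff').1 hA
  unfold Cfsg.sympForm
  rw [Matrix.mulVec_mulVec, ← Matrix.vecMul_transpose, ← Matrix.dotProduct_mulVec, Matrix.mulVec_mulVec,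
    ← Matrix.mul_assoc, h]

open Matrix Module in
/-- A regular unipotent element of the symplectic group has totally isotropic small invariant subspaces: over a finite field, if u ∈ Sp_2m(F) satisfies (u − 1)^(2m) = 0 and rank(u − 1) = 2m − 1, and W is a u-invariant subspace with 2 dim W ≤ 2m, then the alternating form vanishes identically on W. -/
theorem result {F : Type*} [Field F] [Finite F] {m : ℕ} (u : Matrix.symplecticGroup (Fin m) F) (hnil : ((u : Matrix (Fin m ⊕ Fin m) (Fin m ⊕ Fin m) F) - 1) ^ (2 * m) = 0) (hreg : ((u : Matrix (Fin m ⊕ Fin m) (Fin m ⊕ Fin m) F) - 1).rank = 2 * m - 1) (W : Submodule F (Fin m ⊕ Fin m → F)) (hW : ∀ v ∈ W, (u : Matrix (Fin m ⊕ Fin m) (Fin m ⊕ Fin m) F).mulVec v ∈ W) (hdim : 2 * Module.finrank F W ≤ 2 * m) : ∀ v ∈ W, ∀ w ∈ W, Cfsg.sympForm m F v w = 0 := by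
  classical
  obtain ⟨A, hA⟩ := u
  simp only at hnil hreg hW
  let B : (Fin m ⊕ Fin m → F) →ₗ[F] Module.Dual F (Fin m ⊕ Fin m → F) :=
    Matrix.toBilin' (Matrix.J (Fin m) F)
  have hB : ∀ x y, B x y = sympForm m F x y := fun x y => Matrix.toBilin'_apply' _ _ _
  have hinv := sympForm_mulVec A hA
  let Φ : (Fin m ⊕ Fin m → F) →ₗ[F] Module.Dual F W := W.subtype.dualMap ∘ₗ B
  have hW'mem : ∀ x, x ∈ LinearMap.ker Φ ↔ ∀ w ∈ W, sympForm m F x w = 0 := by
    intro x
    rw [LinearMap.mem_ker]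
    constructor
    · intro h w hw
      have := LinearMap.congr_fun h ⟨w, hw⟩
      simpa [Φ, hB] using this
    · intro h
      ext ⟨w, hw⟩
      simpa [Φ, hB] using h w hw
  have hdim' : 2 * m ≤ finrank F (LinearMap.ker Φ) + finrank F W := by
    have h1 := Φ.finrank_range_add_finrank_ker
    have h2 : finrank F (LinearMap.range Φ) ≤ finrank F (Module.Dual F W) := Submodule.finrank_le _
    rw [Subspace.dual_finrank_eq] at h2
    have h3 : finrank F (Fin m ⊕ Fin m → F) = 2 * m := by simp; ring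
    omega
  have hAW : ∀ w ∈ W, ∃ w' ∈ W, A *ᵥ w' = w := by
    let g : W →ₗ[F] W := (Matrix.mulVecLin A).restrict hW
    have hginj : Function.Injective g := by
      intro x y hxy
      have h1 : A *ᵥ (x : Fin m ⊕ Fin m → F) = A *ᵥ (y : Fin m ⊕ Fin m → F) := congrArg Subtype.val hxy
      have hu : IsUnit A.det := SymplecticGroup.symplectic_det hA
      exact Subtype.ext (Matrix.mulVec_injective_of_isUnit ((Matrix.isUnit_iff_isUnit_det A).2 hu) h1)
    have hgsurj := LinearMap.injective_iff_surjective.1 hginj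
    intro w hw
    obtain ⟨w', hw'⟩ := hgsurj ⟨w, hw⟩
    exact ⟨w', w'.2, congrArg Subtype.val hw'⟩
  have hW'inv : ∀ x ∈ LinearMap.ker Φ, A *ᵥ x ∈ LinearMap.ker Φ := by
    intro x hx
    rw [hW'mem]
    intro w hw
    obtain ⟨w', hw', rfl⟩ := hAW w hw
    rw [hinv]
    exact (hW'mem x).1 hx w' hw'
  have hcard : Fintype.card (Fin m ⊕ Fin m) = 2 * m := by simp; ring
  have e1 := Cfsg.Agent.Lib.Helper43.regular_unipotent_invariant A (2 * m) hnil (by rw [hcard]; exact hreg) W hW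
  have e2 := Cfsg.Agent.Lib.Helper43.regular_unipotent_invariant A (2 * m) hnil (by rw [hcard]; exact hreg) _ hW'inv
  have hle : W ≤ LinearMap.ker Φ := by
    intro x hx
    rw [e1] at hx
    rw [e2]
    have hle : finrank F W ≤ finrank F (LinearMap.ker Φ) := by omega
    obtain ⟨k, hk⟩ := Nat.exists_eq_add_of_le hle
    rw [LinearMap.mem_ker, Matrix.mulVecLin_apply] at hx ⊢
    rw [hk, add_comm, pow_add, ← Matrix.mulVec_mulVec, hx, Matrix.mulVec_zero]
  intro v hv w hw
  exact (hW'mem v).1 (hle hv) w hw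

end Cfsg.Agent.S2574
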