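import Cfsg.Statements.S2575
import Cfsg.Agent.Lib.Helper44.TwoPart

set_option autoImplicit false
open Cfsg

namespace Cfsg.Agent.S2575

open Cfsg.Agent.Lib.Helper44

/-- Which diagonal involutions of PGL_n(q) lie in PSL_n(q), q odd: for the diagonal matrix t with i entries −1 and n − i entries 1, some non-zero scalar multiple of t has determinant one if and only if i is even or the 2-part of q − 1 exceeds the 2-part of n (that is, −1 is an n-th power in the field exactly in the latter case). -/
theorem result {F : Type*} [Field F] [Fintype F] {q : ℕ} (hF : Fintype.card F = q) (hq : Odd q) {n : ℕ} (hn : 1 ≤ n) (i : ℕ) (hi : i ≤ n) : (∃ c : F, c ≠ 0 ∧ (c • Matrix.diagonal (fun j : Fin n => if (j : ℕ) < i then (-1 : F) else 1)).det = 1) ↔ (Even i ∨ padicValNat 2 n < padicValNat 2 (q - 1)) := by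
  subst hF
  have hprod : (∏ j : Fin n, (if (j : ℕ) < i then (-1 : F) else 1)) = (-1) ^ i := by
    rw [Fin.prod_univ_eq_prod_range (fun j => if j < i then (-1 : F) else 1) n, Finset.prod_ite,
      Finset.prod_const_one, mul_one, Finset.prod_const]
    congr 1
    have : (Finset.range n).filter (fun j => j < i) = Finset.range i := by
      ext j
      simp only [Finset.mem_filter, Finset.mem_range]
      omega
    rw [this, Finset.card_range]
  have hdet : ∀ c : F, (c • Matrix.diagonal (fun j : Fin n => if (j : ℕ) < i then (-1 : F) else 1)).det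
      = c ^ n * (-1) ^ i := by
    intro c
    rw [Matrix.det_smul, Matrix.det_diagonal, hprod, Fintype.card_fin]
  simp only [hdet]
  rw [← exists_pow_eq_neg_one_iff hq hn]
  constructor
  · rintro ⟨c, -, hc⟩
    rcases Nat.even_or_odd i with hi' | hi'
    · exact Or.inl hi'
    · right
      refine ⟨c, ?_⟩
      rw [hi'.neg_one_pow] at hc
      linear_combination -hc
  · intro h
    rcases Nat.even_or_odd i with hi' | hi'
    · exact ⟨1, one_ne_zero, by rw [hi'.neg_one_pow, one_pow, one_mul]⟩
    · rcases h with h | ⟨c, hc⟩
      · exact absurd hi' (Nat.not_odd_iff_even.2 h)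
      · refine ⟨c, ?_, ?_⟩
        · rintro rfl
          rw [zero_pow (by omega)] at hc
          exact neg_ne_zero.2 one_ne_zero hc.symm
        · rw [hc, hi'.neg_one_pow]; ring

end Cfsg.Agent.S2575
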