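import Cfsg.Statements.S2576
import Cfsg.Agent.Lib.Helper44.TwoPart

set_option autoImplicit false
open Cfsg

namespace Cfsg.Agent.S2576

open Cfsg.Agent.Lib.Helper44

/-- Which involutions of PGL_2m(q) coming from a scalar of the quadratic extension field lie in PSL_2m(q), q odd: let μ generate the Sylow 2-subgroup of the multiplicative group of the field with q elements (μ has order the 2-part of q − 1) and let t be the block-diagonal matrix with m diagonal blocks [[0, 1], [μ, 0]] (so t² is the scalar μ and t is an involution modulo scalars). Then some non-zero scalar multiple of t has determinant one if and only if q ≡ 3 (mod 4) or the 2-part of q − 1 is less than the 2-part of 2m. -/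
theorem result {F : Type*} [Field F] [Fintype F] {q : ℕ} (hF : Fintype.card F = q) (hq : Odd q) {m : ℕ} (hm : 1 ≤ m) (μ : F) (hμ : orderOf μ = 2 ^ padicValNat 2 (q - 1)) : (∃ c : F, c ≠ 0 ∧ (c • Matrix.blockDiagonal (fun _ : Fin m => !![(0 : F), 1; μ, 0])).det = 1) ↔ (q % 4 = 3 ∨ padicValNat 2 (q - 1) < padicValNat 2 (2 * m)) := by
  subst hF
  have hdet : ∀ c : F, (c • Matrix.blockDiagonal (fun _ : Fin m => !![(0 : F), 1; μ, 0])).det
      = c ^ (2 * m) * (-μ) ^ m := by
    intro c
    rw [Matrix.det_smul, Matrix.det_blockDiagonal, Fintype.card_prod, Fintype.card_fin,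
      Fintype.card_fin, Finset.prod_const, Finset.card_univ, Fintype.card_fin,
      Matrix.det_fin_two_of]
    congr 2
    ring
  simp only [hdet]
  have hcard : 1 < Fintype.card F := Fintype.one_lt_card
  obtain ⟨m', hm', hq1⟩ := two_part (N := Fintype.card F - 1) (by omega)
  obtain ⟨m'', hm'', hm1⟩ := two_part (N := m) (by omega)
  have hv : padicValNat 2 (2 * m) = padicValNat 2 m + 1 := by
    rw [padicValNat.mul two_ne_zero (by omega), padicValNat.self (by norm_num)]
    ring
  rw [hv]
  set e := padicValNat 2 (Fintype.card F - 1) with he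
  set b := padicValNat 2 m with hb
  have hq2 : Fintype.card F % 2 = 1 := Nat.odd_iff.1 hq
  have hm'2 : m' % 2 = 1 := Nat.odd_iff.1 hm'
  have he1 : 1 ≤ e := by
    by_contra h
    have h0 : e = 0 := by omega
    rw [h0, pow_zero, one_mul] at hq1
    omega
  constructor
  · rintro ⟨c, hc0, hc⟩
    by_contra hcon
    push Not at hcon
    obtain ⟨h3, hle⟩ := hcon
    have he2 : 2 ≤ e := by
      by_contra h
      have h0 : e = 1 := by omega
      rw [h0, pow_one] at hq1
      omega
    have h1 : (c ^ (2 * m) * (-μ) ^ m) ^ (2 ^ (e - 1 - b) * m') = 1 := by rw [hc, one_pow]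
    have h2 : m * (2 ^ (e - 1 - b) * m') = 2 ^ (e - 1) * (m' * m'') := by
      nth_rewrite 1 [hm1]
      have : (2 : ℕ) ^ (e - 1) = 2 ^ b * 2 ^ (e - 1 - b) := by rw [← pow_add]; congr 1; omega
      rw [this]; ring
    have h4 : 2 * m * (2 ^ (e - 1 - b) * m') = (Fintype.card F - 1) * m'' := by
      rw [mul_assoc, h2, hq1]
      have : (2 : ℕ) ^ e = 2 * 2 ^ (e - 1) := by rw [← pow_succ']; congr 1; omega
      rw [this]; ring
    rw [mul_pow, ← pow_mul, ← pow_mul, h4, h2, pow_mul c,
      FiniteField.pow_card_sub_one_eq_one c hc0, one_pow, one_mul, neg_pow] at h1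
    have h5 : Even (2 ^ (e - 1) * (m' * m'')) := by
      have : (2 : ℕ) ^ (e - 1) = 2 * 2 ^ (e - 2) := by rw [← pow_succ']; congr 1; omega
      rw [this, mul_assoc]
      exact even_two_mul _
    rw [h5.neg_one_pow, one_mul] at h1
    have h6 := orderOf_dvd_of_pow_eq_one h1
    rw [hμ] at h6
    have h7 : (2 : ℕ) ^ e = 2 ^ (e - 1) * 2 := by rw [← pow_succ]; congr 1; omega
    rw [h7] at h6
    have h8 := Nat.dvd_of_mul_dvd_mul_left (by positivity) h6
    have h9 : Odd (m' * m'') := hm'.mul hm''
    rw [Nat.odd_iff] at h9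
    omega
  · rintro (h | h)
    · have h0 : e = 1 := by
        by_contra hne
        have : (2 : ℕ) ^ e = 4 * 2 ^ (e - 2) := by
          rw [show (4 : ℕ) = 2 ^ 2 by norm_num, ← pow_add]; congr 1; omega
        rw [this, mul_assoc] at hq1
        omega
      rw [h0, pow_one] at hμ
      have h1 : μ ^ 2 = 1 := by rw [← hμ]; exact pow_orderOf_eq_one μ
      have h2 : μ ≠ 1 := by
        rintro rfl
        rw [orderOf_one] at hμ
        omega
      have h3 : μ = -1 := by
        rcases mul_self_eq_one_iff.1 ((pow_two μ).symm.trans h1) with h | h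
        · exact absurd h h2
        · exact h
      exact ⟨1, one_ne_zero, by rw [h3, neg_neg, one_pow, one_pow, one_mul]⟩
    · refine ⟨1, one_ne_zero, ?_⟩
      have h1 : 2 ^ e ∣ m := by
        rw [hm1]
        exact Dvd.dvd.mul_right (pow_dvd_pow 2 (by omega)) _
      have h2 : μ ^ m = 1 := by
        rw [← hμ] at h1
        exact orderOf_dvd_iff_pow_eq_one.1 h1
      have h3 : Even m := by
        have : 2 ∣ m := (dvd_pow_self 2 (by omega)).trans h1
        exact (even_iff_two_dvd).2 this
      rw [one_pow, one_mul, neg_pow, h3.neg_one_pow, h2, one_mul]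

end Cfsg.Agent.S2576
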