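import Cfsg.Statements.S2578
import Cfsg.Agent.Lib.Helper43.RegUnip
import Cfsg.Agent.Lib.Helper43.JordanBlock
import Cfsg.Agent.Lib.Helper43.ClassSplit

set_option autoImplicit false
open Cfsg

namespace Cfsg.Agent.S2578

open Cfsg.Agent.Lib.Helper43 Module Matrix in
/-- Regular unipotent classes of SL_n(q): for n ≥ 2 over the field with q elements, the matrices u of determinant one with (u − 1)^n = 0 and rank(u − 1) = n − 1 form a single GL_n(q)-class which splits into exactly gcd(n, q − 1) conjugacy classes of SL_n(q). -/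
theorem result {F : Type*} [Field F] [Fintype F] {q : ℕ} (hF : Fintype.card F = q) {n : ℕ} (hn : 2 ≤ n) : Nat.card {C : ConjClasses (Matrix.SpecialLinearGroup (Fin n) F) // ∃ u : Matrix.SpecialLinearGroup (Fin n) F, ConjClasses.mk u = C ∧ ((u : Matrix (Fin n) (Fin n) F) - 1) ^ n = 0 ∧ ((u : Matrix (Fin n) (Fin n) F) - 1).rank = n - 1} = Nat.gcd n (q - 1) := by
  classical
  have hn1 : 1 ≤ n := by omega
  have : Nonempty (Fin n) := ⟨⟨0, by omega⟩⟩
  let u0 : Matrix.SpecialLinearGroup (Fin n) F := ⟨Cfsg.jordanBlock n F, det_jordanBlock n F⟩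
  have hu0 : RegUnip (u0 : Matrix (Fin n) (Fin n) F) :=
    ⟨jordanBlock_sub_one_pow n F, rank_jordanBlock_sub_one n F⟩
  let ι : Matrix.SpecialLinearGroup (Fin n) F →* GL (Fin n) F := Matrix.SpecialLinearGroup.toGL
  let H : Subgroup Fˣ := (powMonoidHom n : Fˣ →* Fˣ).range
  have key := card_classes_split ι Matrix.SpecialLinearGroup.toGL_injective
    (Matrix.GeneralLinearGroup.det : GL (Fin n) F →* Fˣ) Matrix.GeneralLinearGroup.det_surjective
    (by
      intro g
      constructor
      · intro h
        have h' : (g : Matrix (Fin n) (Fin n) F).det = 1 := by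
          have := congrArg Units.val h
          simpa using this
        exact ⟨⟨g, h'⟩, Units.ext rfl⟩
      · rintro ⟨s, rfl⟩
        exact Matrix.SpecialLinearGroup.coeToGL_det s) u0 H
    (by
      intro d
      constructor
      · rintro ⟨c, rfl⟩
        refine ⟨Matrix.GeneralLinearGroup.scalar (Fin n) c, ?_, ?_⟩
        · have hc : Matrix.GeneralLinearGroup.scalar (Fin n) c ∈ Subgroup.center (GL (Fin n) F) := by
            rw [Matrix.GeneralLinearGroup.center_eq_range_scalar]
            exact ⟨c, rfl⟩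
          exact ((Subgroup.mem_center_iff.1 hc) _).symm
        · rw [Matrix.GeneralLinearGroup.det_scalar]; simp
      · rintro ⟨g, hg, rfl⟩
        have hg' : (g : Matrix (Fin n) (Fin n) F) * (u0 : Matrix (Fin n) (Fin n) F) =
            (u0 : Matrix (Fin n) (Fin n) F) * (g : Matrix (Fin n) (Fin n) F) := by
          exact congrArg (fun z : GL (Fin n) F => (z : Matrix (Fin n) (Fin n) F)) hg
        obtain ⟨c, hc⟩ := hu0.det_of_commute hn1 _ hg'
        have hc0 : c ≠ 0 := by
          rintro rfl
          rw [zero_pow (by omega)] at hc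
          exact Matrix.GeneralLinearGroup.det_ne_zero g hc
        refine ⟨Units.mk0 c hc0, ?_⟩
        apply Units.ext
        simp [hc])
  have hidx : H.index = Nat.gcd n (q - 1) := by
    rw [IsCyclic.index_powMonoidHom_range, Nat.card_eq_fintype_card, Fintype.card_units, hF, Nat.gcd_comm]
  rw [← hidx, ← key]
  refine Nat.card_congr (Equiv.subtypeEquivRight ?_)
  intro C
  constructor
  · rintro ⟨u, hu, h1, h2⟩
    refine ⟨u, hu, ?_⟩
    obtain ⟨g, hg⟩ := RegUnip.exists_conj hn1 (⟨h1, h2⟩ : RegUnip (u : Matrix (Fin n) (Fin n) F)) hu0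
    rw [isConj_iff]
    refine ⟨g, ?_⟩
    rw [mul_inv_eq_iff_eq_mul]
    apply Units.ext
    exact hg
  · rintro ⟨u, hu, hconj⟩
    refine ⟨u, hu, ?_⟩
    rw [isConj_comm, isConj_iff] at hconj
    obtain ⟨g, hg⟩ := hconj
    have h3 := hu0.conj g
    have h4 : (g : Matrix (Fin n) (Fin n) F) * (u0 : Matrix (Fin n) (Fin n) F) *
        ((g⁻¹ : GL (Fin n) F) : Matrix (Fin n) (Fin n) F) = (u : Matrix (Fin n) (Fin n) F) := by
      exact congrArg (fun z : GL (Fin n) F => (z : Matrix (Fin n) (Fin n) F)) hg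
    rw [h4] at h3
    exact h3

end Cfsg.Agent.S2578
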