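import Cfsg.Statements.S2582
import Cfsg.Agent.Lib.Helper44.JType6
import Cfsg.Agent.Lib.Helper44.GraphTwoSp

set_option autoImplicit false
open Cfsg

namespace Cfsg.Agent.S2582

open Cfsg.Agent.Lib.Helper44

/-- Which unipotent Jordan types occur in the finite symplectic group: over a finite field, a unipotent matrix with Jordan block sizes d_1, …, d_t (sum 2m, all at least 1) is similar to an element of Sp_2m(F) if and only if every odd block size occurs an even number of times. -/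
theorem result {F : Type*} [Field F] [Fintype F] {m t : ℕ} (d : Fin t → ℕ) (hd : ∀ k, 1 ≤ d k) (hsum : ∑ k, d k = 2 * m) : (∃ e : ((k : Fin t) × Fin (d k)) ≃ (Fin m ⊕ Fin m), ∃ A : Matrix.symplecticGroup (Fin m) F, IsConj (Matrix.reindex e e (Cfsg.jordanTypeMatrix d F)) (A : Matrix (Fin m ⊕ Fin m) (Fin m ⊕ Fin m) F)) ↔ ∀ j : ℕ, Odd j → Even (Finset.univ.filter (fun k : Fin t => d k = j)).card := by
  have hJu : IsUnit (Matrix.J (Fin m) F) :=
    (Matrix.isUnit_iff_isUnit_det _).2 (Matrix.isUnit_det_J _ _)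
  have hJa : AltM (Matrix.J (Fin m) F) := fun v => J_alt v
  constructor
  · rintro ⟨e, A, hA⟩ j hj
    exact alt_cond_of_pres d e hA hJu hJa (SymplecticGroup.mem_iff'.1 A.2) j hj
  · intro h
    have hr := RealJ.of_alt_cond (F := F) d h
    have hc : Fintype.card (Fin m ⊕ Fin m) = ∑ i, d i := by
      rw [hsum]; simp [two_mul]
    obtain ⟨B, A, h1, h2, h3, h4⟩ := hr.on (Fin m ⊕ Fin m) hc
    have h2' : AltM B := by
      unfold KindM at h2
      rwa [if_pos rfl] at h2
    obtain ⟨Φ, hΦ, hΦ2⟩ := exists_congr_altM h1 hJu h2' hJa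
    obtain ⟨A', hA', hconj⟩ := exists_conj_pres hΦ hΦ2 h3
    let e : ((k : Fin t) × Fin (d k)) ≃ (Fin m ⊕ Fin m) := Fintype.equivOfCardEq (by
      rw [hc]; simp)
    exact ⟨e, ⟨A', SymplecticGroup.mem_iff'.2 hA'⟩, (isConj_jordanType d e A h4).trans hconj⟩

end Cfsg.Agent.S2582
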