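import Cfsg.Statements.S2583
import Cfsg.Agent.Lib.Helper44.JType7

set_option autoImplicit false
open Cfsg

namespace Cfsg.Agent.S2583

open Cfsg.Agent.Lib.Helper44

/-- Which unipotent Jordan types occur in a finite orthogonal group in odd characteristic: over a finite field of odd order, a unipotent matrix with Jordan block sizes d_1, …, d_t (sum n, all at least 1) is similar to an isometry of some quadratic form on F^n with non-degenerate polar form if and only if every even block size occurs an even number of times. -/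
theorem result {F : Type*} [Field F] [Fintype F] (h2 : (2 : F) ≠ 0) {n t : ℕ} (d : Fin t → ℕ) (hd : ∀ k, 1 ≤ d k) (hsum : ∑ k, d k = n) : (∃ Q : QuadraticForm F (Fin n → F), (QuadraticMap.polarBilin Q).Nondegenerate ∧ ∃ e : ((k : Fin t) × Fin (d k)) ≃ Fin n, ∃ A : ↥(Cfsg.isometryGroup F ⇑Q), IsConj (Matrix.reindex e e (Cfsg.jordanTypeMatrix d F)) ((A : Matrix.GeneralLinearGroup (Fin n) F) : Matrix (Fin n) (Fin n) F)) ↔ ∀ j : ℕ, Even j → 0 < j → Even (Finset.univ.filter (fun k : Fin t => d k = j)).card := by
  constructor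
  · rintro ⟨Q, hQ, e, A, hA⟩ j hj hj0
    exact symm_cond_of_pres h2 d e hA (isUnit_gramM hQ) (gramM_transpose Q)
      (gram_pres Q _ (fun v => A.2 v v)) j hj hj0
  · intro h
    have hr := RealJ.of_symm_cond (F := F) h2 d h
    have hc : Fintype.card (Fin n) = ∑ i, d i := by
      rw [hsum]; simp
    obtain ⟨B, A, h1, h3, h4, h5⟩ := hr.on (Fin n) hc
    have h3' : B.transpose = B := by
      unfold KindM at h3
      rwa [if_neg (by simp)] at h3
    obtain ⟨Q, hQ, hQA⟩ := exists_quad_of_symm h2 h1 h3' h4
    let e : ((k : Fin t) × Fin (d k)) ≃ Fin n := Fintype.equivOfCardEq (by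
      rw [hc]; simp)
    exact ⟨Q, hQ, e, ⟨(isUnit_of_pres h1 h4).unit, fun u _ => hQA u⟩, isConj_jordanType d e A h5⟩

end Cfsg.Agent.S2583
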