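import Cfsg.Statements.S2585

set_option autoImplicit false
open Cfsg

namespace Cfsg.Agent.S2585

open Module in
/-- In characteristic two over a perfect field: a linear map preserving the polar form of `Q0` preserves
`Q0 + μ²` for some linear functional `μ`. -/
theorem exists_invariant_form {F V : Type*} [Field F] [Finite F] [CharP F 2] [AddCommGroup V] [Module F V]
    (Q0 : QuadraticForm F V) (g : V →ₗ[F] V)
    (hg : ∀ u v, QuadraticMap.polar Q0 (g u) (g v) = QuadraticMap.polar Q0 u v) :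
    ∃ μ : Dual F V, ∀ v, Q0 (g v) + μ (g v) * μ (g v) = Q0 v + μ v * μ v := by
  classical
  have h2 : (2 : F) = 0 := CharP.cast_eq_zero F 2
  have hneg : ∀ x : F, -x = x := fun x => by
    have : x + x = 0 := by rw [← two_mul, h2, zero_mul]
    exact neg_eq_of_add_eq_zero_left this
  let D : V → F := fun v => Q0 (g v) + Q0 v
  have hDadd : ∀ u v, D (u + v) = D u + D v := by
    intro u v
    have h1 := hg u v
    simp only [QuadraticMap.polar, sub_eq_add_neg, hneg] at h1
    simp only [D, map_add]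
    have e1 : Q0 (g u + g v) = (Q0 u + Q0 v + Q0 (u + v)) + Q0 (g u) + Q0 (g v) := by
      have : Q0 (g u + g v) + Q0 (g u) + Q0 (g v) + (Q0 (g u) + Q0 (g v)) =
          Q0 (u + v) + Q0 u + Q0 v + (Q0 (g u) + Q0 (g v)) := by rw [h1]
      have e2 : Q0 (g u + g v) + Q0 (g u) + Q0 (g v) + (Q0 (g u) + Q0 (g v)) = Q0 (g u + g v)
          + 2 * (Q0 (g u) + Q0 (g v)) := by ring
      rw [e2, h2, zero_mul, add_zero] at this
      rw [this]; ring
    rw [e1]
    have : Q0 u + Q0 v + Q0 (u + v) + Q0 (g u) + Q0 (g v) + Q0 (u + v) =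
      Q0 (g u) + Q0 u + (Q0 (g v) + Q0 v) + 2 * Q0 (u + v) := by ring
    rw [this, h2, zero_mul, add_zero]
  have hDsmul : ∀ (c : F) v, D (c • v) = c ^ 2 * D v := by
    intro c v
    simp only [D, map_smul, QuadraticMap.map_smul, smul_eq_mul]
    ring
  let φ := frobeniusEquiv F 2
  let ℓ : Dual F V :=
    { toFun := fun v => φ.symm (D v)
      map_add' := fun u v => by rw [hDadd, map_add]
      map_smul' := fun c v => by
        rw [hDsmul, map_mul]
        have : φ.symm (c ^ 2) = c := by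
          rw [map_pow]; exact frobeniusEquiv_symm_pow_p F 2 c
        rw [this]; rfl }
  have hℓ : ∀ v, ℓ v * ℓ v = D v := by
    intro v
    have := frobeniusEquiv_symm_pow_p F 2 (D v)
    rw [← sq]; exact this
  have hmem : ℓ ∈ (LinearMap.ker (g - LinearMap.id)).dualAnnihilator := by
    rw [Submodule.mem_dualAnnihilator]
    intro w hw
    rw [LinearMap.mem_ker, LinearMap.sub_apply, LinearMap.id_apply, sub_eq_zero] at hw
    have h0 : D w = 0 := by
      simp only [D, hw]
      rw [← two_mul, h2, zero_mul]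
    have := hℓ w
    rw [h0] at this
    exact mul_self_eq_zero.1 this
  rw [← LinearMap.range_dualMap_eq_dualAnnihilator_ker] at hmem
  obtain ⟨μ, hμ⟩ := hmem
  refine ⟨μ, fun v => ?_⟩
  have h1 : μ (g v) = ℓ v + μ v := by
    have := LinearMap.congr_fun hμ v
    simp only [LinearMap.dualMap_apply, LinearMap.sub_apply, LinearMap.id_apply, map_sub] at this
    rw [← this]; ring
  rw [h1]
  have : (ℓ v + μ v) * (ℓ v + μ v) = ℓ v * ℓ v + μ v * μ v + 2 * (ℓ v * μ v) := by ring
  rw [this, h2, zero_mul, add_zero, hℓ]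
  simp only [D]
  have : Q0 (g v) + (Q0 (g v) + Q0 v + μ v * μ v) = Q0 v + μ v * μ v + 2 * Q0 (g v) := by ring
  rw [this, h2, zero_mul, add_zero]

theorem result {F : Type*} [Field F] [Fintype F] [CharP F 2] {m : ℕ} (A : Matrix.symplecticGroup (Fin m) F) : ∃ Q : QuadraticForm F (Fin m ⊕ Fin m → F), (∀ u v : Fin m ⊕ Fin m → F, QuadraticMap.polar ⇑Q u v = Cfsg.sympForm m F u v) ∧ ∀ v : Fin m ⊕ Fin m → F, Q ((A : Matrix (Fin m ⊕ Fin m) (Fin m ⊕ Fin m) F).mulVec v) = Q v := by
  classical
  obtain ⟨A, hA⟩ := A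
  have h2 : (2 : F) = 0 := CharP.cast_eq_zero F 2
  have hneg : (-1 : F) = 1 := by
    have : (1 : F) + 1 = 0 := by rw [one_add_one_eq_two, h2]
    exact neg_eq_of_add_eq_zero_left this
  let M : Matrix (Fin m ⊕ Fin m) (Fin m ⊕ Fin m) F := Matrix.fromBlocks 0 0 1 0
  have hM : M + M.transpose = Matrix.J (Fin m) F := by
    simp only [M, Matrix.J, Matrix.fromBlocks_transpose, Matrix.fromBlocks_add]
    have hnegM : (-1 : Matrix (Fin m) (Fin m) F) = 1 := by
      have : (-1 : Matrix (Fin m) (Fin m) F) = (-1 : F) • 1 := by simp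
      rw [this, hneg, one_smul]
    simp [hnegM]
  let B0 : LinearMap.BilinForm F (Fin m ⊕ Fin m → F) := Matrix.toBilin' M
  let Q0 : QuadraticForm F (Fin m ⊕ Fin m → F) := LinearMap.BilinMap.toQuadraticMap B0
  have hpol0 : ∀ u v, QuadraticMap.polar Q0 u v = Cfsg.sympForm m F u v := by
    intro u v
    rw [LinearMap.BilinMap.polar_toQuadraticMap]
    simp only [B0, Matrix.toBilin'_apply']
    unfold Cfsg.sympForm
    rw [← hM, Matrix.add_mulVec, dotProduct_add]
    congr 1
    rw [Matrix.mulVec_transpose, Matrix.dotProduct_mulVec, dotProduct_comm]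
  have hinv : ∀ x y, Cfsg.sympForm m F (A.mulVec x) (A.mulVec y) = Cfsg.sympForm m F x y := by
    intro x y
    have h := (SymplecticGroup.mem_iff').1 hA
    unfold Cfsg.sympForm
    rw [Matrix.mulVec_mulVec, ← Matrix.vecMul_transpose, ← Matrix.dotProduct_mulVec, Matrix.mulVec_mulVec,
      ← Matrix.mul_assoc, h]
  obtain ⟨μ, hμ⟩ := exists_invariant_form Q0 (Matrix.mulVecLin A) (by
    intro u v
    rw [hpol0, hpol0]
    exact hinv u v)
  refine ⟨Q0 + QuadraticMap.linMulLin μ μ, ?_, ?_⟩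
  · intro u v
    rw [← hpol0]
    simp only [QuadraticMap.polar, add_apply, QuadraticMap.linMulLin_apply, map_add]
    have : Q0 (u + v) + (μ u + μ v) * (μ u + μ v) - (Q0 u + μ u * μ u) - (Q0 v + μ v * μ v) =
      Q0 (u + v) - Q0 u - Q0 v + 2 * (μ u * μ v) := by ring
    rw [this, h2, zero_mul, add_zero]
  · intro v
    simpa using hμ v

end Cfsg.Agent.S2585
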