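import Cfsg.Statements.S2586
import Cfsg.Agent.Lib.Helper43.SelfAdj

set_option autoImplicit false
open Cfsg

namespace Cfsg.Agent.S2586

open Matrix in
/-- Over a finite field, every element of the symplectic group Sp_2m(F) is conjugate by an invertible matrix to its inverse. -/
theorem result {F : Type*} [Field F] [Finite F] {m : ℕ} (A : Matrix.symplecticGroup (Fin m) F) : IsConj (A : Matrix (Fin m ⊕ Fin m) (Fin m ⊕ Fin m) F) ((A⁻¹ : Matrix.symplecticGroup (Fin m) F) : Matrix (Fin m ⊕ Fin m) (Fin m ⊕ Fin m) F) := by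
  refine (Cfsg.Agent.Lib.Helper43.isConj_transpose (A : Matrix (Fin m ⊕ Fin m) (Fin m ⊕ Fin m) F)).trans ?_
  rw [SymplecticGroup.coe_inv]
  have hJ : IsUnit (Matrix.J (Fin m) F).det := Matrix.isUnit_det_J (Fin m) F
  refine ⟨Matrix.nonsingInvUnit (Matrix.J (Fin m) F) hJ, ?_⟩
  show Matrix.J (Fin m) F * (A : Matrix (Fin m ⊕ Fin m) (Fin m ⊕ Fin m) F)ᵀ =
    -Matrix.J (Fin m) F * (A : Matrix (Fin m ⊕ Fin m) (Fin m ⊕ Fin m) F)ᵀ * Matrix.J (Fin m) F * Matrix.J (Fin m) F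
  rw [Matrix.mul_assoc _ (Matrix.J (Fin m) F) (Matrix.J (Fin m) F), Matrix.J_squared]
  simp

end Cfsg.Agent.S2586
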