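import Cfsg.Statements.S2591
import Cfsg.Agent.Lib.Helper44.SpRegCls

set_option autoImplicit false
open Cfsg

namespace Cfsg.Agent.S2591

open Cfsg.Agent.Lib.Helper44

/-- Over a finite field of odd order and for m ≥ 1, the regular unipotent elements of Sp_2m(F) (u − 1 nilpotent of rank 2m − 1, a single Jordan block) form exactly two conjugacy classes of Sp_2m(F) (one class under the similarity group, which splits in two). -/
theorem result {F : Type*} [Field F] [Fintype F] {q : ℕ} (hF : Fintype.card F = q) (hq : Odd q) {m : ℕ} (hm : 1 ≤ m) : Nat.card {C : ConjClasses ↥(Matrix.symplecticGroup (Fin m) F) // ∃ u : Matrix.symplecticGroup (Fin m) F, ConjClasses.mk u = C ∧ ((u : Matrix (Fin m ⊕ Fin m) (Fin m ⊕ Fin m) F) - 1) ^ (2 * m) = 0 ∧ ((u : Matrix (Fin m ⊕ Fin m) (Fin m ⊕ Fin m) F) - 1).rank = 2 * m - 1} = 2 := by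
  obtain ⟨U₀, U₁, h0, h1, hne, hall⟩ := sp_regU_classes (F := F) (by rw [hF]; exact hq) hm
  have hset : {C : ConjClasses ↥(Matrix.symplecticGroup (Fin m) F) |
      ∃ u : Matrix.symplecticGroup (Fin m) F, ConjClasses.mk u = C ∧
        ((u : Matrix (Fin m ⊕ Fin m) (Fin m ⊕ Fin m) F) - 1) ^ (2 * m) = 0 ∧
        ((u : Matrix (Fin m ⊕ Fin m) (Fin m ⊕ Fin m) F) - 1).rank = 2 * m - 1} =
      {ConjClasses.mk U₀, ConjClasses.mk U₁} := by
    ext C
    constructor
    · rintro ⟨u, rfl, hu⟩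
      rcases hall u hu with h | h
      · left
        exact (ConjClasses.mk_eq_mk_iff_isConj.2 h).symm
      · right
        exact (ConjClasses.mk_eq_mk_iff_isConj.2 h).symm
    · rintro (rfl | rfl)
      · exact ⟨U₀, rfl, h0⟩
      · exact ⟨U₁, rfl, h1⟩
  have hne' : ConjClasses.mk U₀ ≠ ConjClasses.mk U₁ := fun h =>
    hne (ConjClasses.mk_eq_mk_iff_isConj.1 h)
  have h2 := Set.ncard_pair hne'
  rw [← hset] at h2
  exact h2

end Cfsg.Agent.S2591
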