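import Cfsg.Statements.S2592
import Cfsg.Agent.Lib.Helper44.SpRegCent

set_option autoImplicit false
open Cfsg

namespace Cfsg.Agent.S2592

open Cfsg.Agent.Lib.Helper44

/-- Over a finite field with q elements, q odd, the centraliser in Sp_2m(F) (m ≥ 1) of a regular unipotent element (u − 1 nilpotent of rank 2m − 1) has order 2 q^m. -/
theorem result {F : Type*} [Field F] [Fintype F] {q : ℕ} (hF : Fintype.card F = q) (hq : Odd q) {m : ℕ} (hm : 1 ≤ m) (u : Matrix.symplecticGroup (Fin m) F) (hnil : ((u : Matrix (Fin m ⊕ Fin m) (Fin m ⊕ Fin m) F) - 1) ^ (2 * m) = 0) (hreg : ((u : Matrix (Fin m ⊕ Fin m) (Fin m ⊕ Fin m) F) - 1).rank = 2 * m - 1) : Nat.card ↥(Subgroup.centralizer ({u} : Set ↥(Matrix.symplecticGroup (Fin m) F))) = 2 * q ^ m := by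
  have h2 : (2 : F) ≠ 0 := by
    intro h2
    have : CharP F 2 := CharTwo.of_one_ne_zero_of_two_eq_zero one_ne_zero h2
    have h3 : ringChar F = 2 := ringChar.eq F 2
    have := FiniteField.even_card_iff_char_two.1 h3
    rw [hF] at this
    rw [Nat.odd_iff] at hq
    omega
  have hu : u.1 * dJ u.1 = 1 := (mem_sp_iff _).1 u.2
  have h : RegU (2 * m) u.1 := ⟨hnil, hreg⟩
  rw [← hF, ← card_cent_regU h2 hm hu h]
  apply Nat.card_congr
  exact
    { toFun := fun g => ⟨g.1.1, congrArg Subtype.val (Subgroup.mem_centralizer_singleton_iff.1 g.2),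
        (mem_sp_iff' _).1 g.1.2⟩
      invFun := fun g => ⟨⟨g.1, (mem_sp_iff' _).2 g.2.2⟩,
        Subgroup.mem_centralizer_singleton_iff.2 (Subtype.ext g.2.1)⟩
      left_inv := fun g => rfl
      right_inv := fun g => rfl }

end Cfsg.Agent.S2592
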