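import Cfsg.Statements.S2599


set_option autoImplicit false
open Cfsg

namespace Cfsg.Agent.S2599


/-- An irreducible invariant subspace of a semisimple isometry is non-degenerate or totally singular: let Q be a quadratic form on F^n (F finite of characteristic p) with non-degenerate polar form f, x an isometry of Q of order prime to p, and U a non-zero x-invariant subspace containing no x-invariant subspace other than 0 and U. Then U meets its f-orthogonal trivially, or Q vanishes on U, or p = 2, U is a line spanned by a non-singular vector and x fixes U pointwise. -/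
theorem result {F : Type*} [Field F] [Fintype F] {p : ℕ} [Fact p.Prime] [CharP F p] {n : ℕ} (Q : QuadraticForm F (Fin n → F)) (hQ : (QuadraticMap.polarBilin Q).Nondegenerate) (x : ↥(Cfsg.isometryGroup F ⇑Q)) (hx : (orderOf x).Coprime p) (U : Submodule F (Fin n → F)) (hU0 : U ≠ ⊥) (hUx : ∀ u ∈ U, ((x : Matrix.GeneralLinearGroup (Fin n) F) : Matrix (Fin n) (Fin n) F).mulVec u ∈ U) (hirr : ∀ W : Submodule F (Fin n → F), W ≤ U → (∀ w ∈ W, ((x : Matrix.GeneralLinearGroup (Fin n) F) : Matrix (Fin n) (Fin n) F).mulVec w ∈ W) → W = ⊥ ∨ W = U) : U ⊓ LinearMap.BilinForm.orthogonal (QuadraticMap.polarBilin Q) U = ⊥ ∨ (∀ u ∈ U, Q u = 0) ∨ (p = 2 ∧ Module.finrank F U = 1 ∧ (∃ u ∈ U, Q u ≠ 0) ∧ ∀ u ∈ U, ((x : Matrix.GeneralLinearGroup (Fin n) F) : Matrix (Fin n) (Fin n) F).mulVec u = u) := by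
  classical
  set M := ((x : Matrix.GeneralLinearGroup (Fin n) F) : Matrix (Fin n) (Fin n) F) with hM
  have hQx : ∀ u, Q (M.mulVec u) = Q u := fun u => x.2 u u
  have hBx : ∀ u v, QuadraticMap.polarBilin Q (M.mulVec u) (M.mulVec v)
      = QuadraticMap.polarBilin Q u v := by
    intro u v
    simp only [QuadraticMap.polarBilin_apply_apply, QuadraticMap.polar]
    rw [← Matrix.mulVec_add, hQx, hQx, hQx]
  have hMinj : ∀ a b, M.mulVec a = M.mulVec b → a = b := by
    intro a b hab
    have h1 : ((x : Matrix.GeneralLinearGroup (Fin n) F)⁻¹ : Matrix.GeneralLinearGroup (Fin n) F).val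
        * M = 1 := by
      rw [hM, ← Units.val_mul, inv_mul_cancel, Units.val_one]
    have h2 := congrArg (fun w => (((x : Matrix.GeneralLinearGroup (Fin n) F)⁻¹ :
      Matrix.GeneralLinearGroup (Fin n) F).val).mulVec w) hab
    simp only [Matrix.mulVec_mulVec, h1, Matrix.one_mulVec] at h2
    exact h2
  have hsurj : ∀ u ∈ U, ∃ u' ∈ U, M.mulVec u' = u := by
    have hT : Function.Injective ((Matrix.mulVecLin M).restrict hUx) := by
      intro a b hab
      apply Subtype.ext
      apply hMinj
      exact congrArg Subtype.val hab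
    have hT' := LinearMap.injective_iff_surjective.1 hT
    intro u hu
    obtain ⟨u', hu'⟩ := hT' ⟨u, hu⟩
    exact ⟨u'.1, u'.2, congrArg Subtype.val hu'⟩
  have h1 := hirr (U ⊓ LinearMap.BilinForm.orthogonal (QuadraticMap.polarBilin Q) U) inf_le_left
    (by
      rintro w ⟨hw1, hw2⟩
      refine ⟨hUx w hw1, ?_⟩
      rw [SetLike.mem_coe, LinearMap.BilinForm.mem_orthogonal_iff] at hw2 ⊢
      intro u hu
      obtain ⟨u', hu', rfl⟩ := hsurj u hu
      exact (hBx u' w).trans (hw2 u' hu'))
  rcases h1 with h1 | h1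
  · exact Or.inl h1
  right
  have hB0 : ∀ u ∈ U, ∀ v ∈ U, QuadraticMap.polar Q u v = 0 := by
    intro u hu v hv
    rw [← h1] at hv
    exact (LinearMap.BilinForm.mem_orthogonal_iff.1 hv.2) u hu
  let W2 : Submodule F (Fin n → F) :=
    { carrier := {u | u ∈ U ∧ Q u = 0}
      add_mem' := by
        rintro a b ⟨ha, ha'⟩ ⟨hb, hb'⟩
        refine ⟨U.add_mem ha hb, ?_⟩
        have := hB0 a ha b hb
        rw [QuadraticMap.polar, ha', hb'] at this
        simpa using this
      zero_mem' := ⟨U.zero_mem, by simp⟩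
      smul_mem' := by
        rintro c a ⟨ha, ha'⟩
        refine ⟨U.smul_mem c ha, ?_⟩
        rw [QuadraticMap.map_smul, ha', smul_zero] }
  have h2 := hirr W2 (fun u hu => hu.1) (fun w hw => ⟨hUx w hw.1, by rw [hQx]; exact hw.2⟩)
  rcases h2 with h2 | h2
  · right
    have hne : ∀ u ∈ U, Q u = 0 → u = 0 := by
      intro u hu hu'
      have : u ∈ W2 := ⟨hu, hu'⟩
      rw [h2] at this
      exact this
    obtain ⟨u0, hu0, hu0'⟩ := (Submodule.ne_bot_iff U).1 hU0
    have hQu0 : Q u0 ≠ 0 := fun h => hu0' (hne u0 hu0 h)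
    have h20 : (2 : F) = 0 := by
      have h3 := hB0 u0 hu0 u0 hu0
      rw [QuadraticMap.polar_self, nsmul_eq_mul, Nat.cast_ofNat] at h3
      exact (mul_eq_zero.1 h3).resolve_right hQu0
    have hp2 : p = 2 := by
      have h3 : ((2 : ℕ) : F) = 0 := by exact_mod_cast h20
      rw [CharP.cast_eq_zero_iff F p 2] at h3
      exact (Nat.prime_dvd_prime_iff_eq Fact.out Nat.prime_two).1 h3
    have hchar : ringChar F = 2 := by
      rw [← hp2]; exact ringChar.eq F p
    have hspan : ∀ w ∈ U, ∃ c : F, c • u0 = w := by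
      intro w hw
      obtain ⟨c, hc⟩ := FiniteField.isSquare_of_char_two hchar (Q w / Q u0)
      refine ⟨-c, ?_⟩
      have h3 : Q (w + c • u0) = 0 := by
        have h4 := hB0 w hw (c • u0) (U.smul_mem c hu0)
        rw [QuadraticMap.polar, QuadraticMap.map_smul, sub_sub, sub_eq_zero] at h4
        rw [h4, smul_eq_mul, ← hc, div_mul_cancel₀ _ hQu0, ← two_mul, h20, zero_mul]
      have h5 := hne _ (U.add_mem hw (U.smul_mem c hu0)) h3
      rw [neg_smul]
      exact (eq_neg_of_add_eq_zero_left h5).symm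
    refine ⟨hp2, ?_, ⟨u0, hu0, hQu0⟩, ?_⟩
    · rw [finrank_eq_one_iff']
      refine ⟨⟨u0, hu0⟩, fun h => hu0' (congrArg Subtype.val h), ?_⟩
      intro w
      obtain ⟨c, hc⟩ := hspan w.1 w.2
      exact ⟨c, Subtype.ext hc⟩
    · obtain ⟨c, hc⟩ := hspan _ (hUx u0 hu0)
      have h3 := hQx u0
      rw [← hc, QuadraticMap.map_smul, smul_eq_mul] at h3
      have h4 : c * c = 1 := mul_right_cancel₀ hQu0 (by rw [h3, one_mul])
      have h5 : c = 1 := by
        rcases mul_self_eq_one_iff.1 h4 with h | h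
        · exact h
        · rw [h]
          linear_combination (-1 : F) * h20
      rw [h5, one_smul] at hc
      intro u hu
      obtain ⟨a, rfl⟩ := hspan u hu
      rw [Matrix.mulVec_smul, ← hc]
  · left
    intro u hu
    rw [← h2] at hu
    exact hu.2

end Cfsg.Agent.S2599
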