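import Cfsg.Statements.S2612
import Cfsg.Agent.Lib.Helper44.PlusGeom
import Cfsg.Agent.Lib.Helper44.OmegaUnified

set_option autoImplicit false
open Cfsg

namespace Cfsg.Agent.S2612

open Cfsg.Agent.Lib.Helper44 QuadraticMap Matrix

/-- the vectors `e_j - f_j` -/
def w (m : ℕ) (F : Type*) [Field F] (j : Fin m) : Fin m ⊕ Fin m → F :=
  Pi.single (Sum.inl j) 1 - Pi.single (Sum.inr j) 1

theorem w_polar {m : ℕ} {F : Type*} [Field F] (j : Fin m) (x : Fin m ⊕ Fin m → F) :
    polar (plusQF m F) (w m F j) x = x (Sum.inr j) - x (Sum.inl j) := by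
  rw [w, polar_sub_left, plusQF_polar_single_inl, plusQF_polar_single_inr]

theorem w_Q {m : ℕ} {F : Type*} [Field F] (j : Fin m) : plusQF m F (w m F j) = -1 := by
  rw [plusQF_apply, Finset.sum_eq_single j]
  · simp [w]
  · intro i _ hi
    simp [w, Pi.single_apply, hi]
  · simp

theorem w_orth {m : ℕ} {F : Type*} [Field F] (j k : Fin m) (h : j ≠ k) :
    polar (plusQF m F) (w m F j) (w m F k) = 0 := by
  rw [w_polar]
  simp [w, Pi.single_apply, h]

theorem aux {F : Type*} [Field F] [Fintype F] {m : ℕ} (h : Fintype.card F ≠ 2 ∨ m ≠ 2)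
    (Qf : (Fin m ⊕ Fin m → F) → F) (hQf : Qf = ⇑(plusQF m F)) :
    (∃ g : ↥(Cfsg.isometryGroup F Qf), g ∈ Cfsg.Omega F Qf ∧ (∀ v : Fin m ⊕ Fin m → F, (∀ i, v (Sum.inr i) = 0) → ∀ i, (((g : Matrix.GeneralLinearGroup (Fin m ⊕ Fin m) F) : Matrix (Fin m ⊕ Fin m) (Fin m ⊕ Fin m) F).mulVec v) (Sum.inl i) = 0) ∧ (∀ v : Fin m ⊕ Fin m → F, (∀ i, v (Sum.inl i) = 0) → ∀ i, (((g : Matrix.GeneralLinearGroup (Fin m ⊕ Fin m) F) : Matrix (Fin m ⊕ Fin m) (Fin m ⊕ Fin m) F).mulVec v) (Sum.inr i) = 0)) ↔ Even m := by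
  subst hQf
  constructor
  · rintro ⟨g, hg, h1, -⟩
    obtain ⟨vs, hvs, hgm⟩ := exists_list_reflectionMatrix (plusQF m F) (plusQF_nondeg m F)
      (plus_gen_hyp h) g
    have he := even_length_of_mem_Omega (plusQF m F) (plusQF_nondeg m F) (plus_gen_hyp h) g vs hvs
      hgm hg
    have h3 := (plus_even_iff g vs hvs hgm).2 he
    have hbot : U0 m F ⊓ (U0 m F).map (Matrix.mulVecLin
      ((g : GL (Fin m ⊕ Fin m) F) : Matrix (Fin m ⊕ Fin m) (Fin m ⊕ Fin m) F)) = ⊥ := by
      rw [eq_bot_iff]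
      rintro x ⟨hx1, v, hv, rfl⟩
      have hx1' := mem_U0.1 hx1
      have hv' := mem_U0.1 hv
      rw [Submodule.mem_bot]
      ext k
      rcases k with i | i
      · exact h1 v hv' i
      · exact hx1' i
    rw [hbot, finrank_bot] at h3
    simpa using h3
  · intro hm
    obtain ⟨g, hgm⟩ := exists_isometry_of_prod (plusQF m F) ((Finset.univ : Finset (Fin m)).toList.map (w m F))
    have hact : ∀ x, ((g : GL (Fin m ⊕ Fin m) F) : Matrix (Fin m ⊕ Fin m) (Fin m ⊕ Fin m) F) *ᵥ x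
        = x - ∑ k : Fin m, ((plusQF m F (w m F k))⁻¹ * polar (plusQF m F) (w m F k) x) • w m F k := by
      intro x
      rw [hgm, prod_reflectionMatrix_mulVec, prod_refl_apply_of_family (plusQF m F) (w m F) w_orth]
    have hinv : ((-1 : F))⁻¹ = -1 := by norm_num
    refine ⟨g, ?_, ?_, ?_⟩
    · refine mem_Omega_of_prod (plusQF m F) (plusQF_nondeg m F) g _ ?_ hgm ?_ ?_
      · intro v hv
        obtain ⟨k, -, rfl⟩ := List.mem_map.1 hv
        rw [w_Q]; simp
      · simpa using hm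
      · rw [List.map_map, Finset.prod_map_toList]
        simp only [Function.comp, w_Q]
        simp [hm.neg_one_pow]
    · intro v hv i
      rw [hact]
      simp only [w_Q, w_polar, hinv, Pi.sub_apply, Finset.sum_apply, Pi.smul_apply, smul_eq_mul]
      rw [Finset.sum_eq_single i]
      · simp [w, hv]
      · intro j _ hj
        simp [w, Pi.single_apply, hj.symm]
      · simp
    · intro v hv i
      rw [hact]
      simp only [w_Q, w_polar, hinv, Pi.sub_apply, Finset.sum_apply, Pi.smul_apply, smul_eq_mul]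
      rw [Finset.sum_eq_single i]
      · simp [w, hv]
      · intro j _ hj
        simp [w, Pi.single_apply, hj.symm]
      · simp

/-- For the hyperbolic quadratic form Σ x_i y_i on F^(2m) (F finite, m ≥ 1, excluding m = 2 over the field of two elements), Ω⁺_2m(F) (the commutator subgroup of the orthogonal group) contains an element interchanging the two complementary maximal totally singular subspaces {y = 0} and {x = 0} if and only if m is even (dimension divisible by 4). -/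
theorem result {F : Type*} [Field F] [Fintype F] {m : ℕ} (hm : 1 ≤ m) (h : Fintype.card F ≠ 2 ∨ m ≠ 2) : (∃ g : ↥(Cfsg.isometryGroup F (Cfsg.quadFormPlus m F)), g ∈ Cfsg.Omega F (Cfsg.quadFormPlus m F) ∧ (∀ v : Fin m ⊕ Fin m → F, (∀ i, v (Sum.inr i) = 0) → ∀ i, (((g : Matrix.GeneralLinearGroup (Fin m ⊕ Fin m) F) : Matrix (Fin m ⊕ Fin m) (Fin m ⊕ Fin m) F).mulVec v) (Sum.inl i) = 0) ∧ (∀ v : Fin m ⊕ Fin m → F, (∀ i, v (Sum.inl i) = 0) → ∀ i, (((g : Matrix.GeneralLinearGroup (Fin m ⊕ Fin m) F) : Matrix (Fin m ⊕ Fin m) (Fin m ⊕ Fin m) F).mulVec v) (Sum.inr i) = 0)) ↔ Even m :=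
  aux h _ (plusQF_coe m F).symm

end Cfsg.Agent.S2612
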