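import Cfsg.Statements.S2614
import Cfsg.Agent.Lib.Helper44.HypInv

set_option autoImplicit false
open Cfsg

namespace Cfsg.Agent.S2614

open Cfsg.Agent.Lib.Helper44

/-- For the form x_0² + Σ x_j y_j on F^(2m+1), F finite with q elements, q odd, and 1 ≤ i ≤ m: the involution of determinant one negating the first i hyperbolic pairs (and fixing x_0 and the other pairs) lies in Ω_(2m+1)(q) (commutator subgroup of the orthogonal group) if and only if q^i ≡ 1 (mod 4); its (−1)-eigenspace is a hyperbolic 2i-space. -/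
theorem result {F : Type*} [Field F] [Fintype F] {q : ℕ} (hF : Fintype.card F = q) (hq : Odd q) {m : ℕ} (i : ℕ) (hi : 1 ≤ i) (him : i ≤ m) : (∃ g : ↥(Cfsg.isometryGroup F (Cfsg.quadFormOdd m F)), g ∈ Cfsg.Omega F (Cfsg.quadFormOdd m F) ∧ ((g : Matrix.GeneralLinearGroup (Unit ⊕ (Fin m ⊕ Fin m)) F) : Matrix (Unit ⊕ (Fin m ⊕ Fin m)) (Unit ⊕ (Fin m ⊕ Fin m)) F) = Matrix.diagonal (fun k : Unit ⊕ (Fin m ⊕ Fin m) => if (Sum.elim (fun _ : Unit => i) (Sum.elim (fun j : Fin m => (j : ℕ)) (fun j : Fin m => (j : ℕ))) k) < i then (-1 : F) else 1)) ↔ q ^ i % 4 = 1 := by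
  have h2 : (2 : F) ≠ 0 := two_ne_zero_of_odd_card (by rw [hF]; exact hq)
  have key := exists_hyp_involution_mem_Omega_iff (oddQF m F) (fun j => Sum.inr (Sum.inl j))
    (fun j => Sum.inr (Sum.inr j))
    (Sum.inr_injective.comp Sum.inl_injective) (Sum.inr_injective.comp Sum.inr_injective)
    (fun _ _ h => Sum.inl_ne_inr (Sum.inr_injective h))
    (oddQF_polar_single_inl m F) (oddQF_polar_single_inr m F)
    (fun j => by rw [oddQF_apply]; simp [Pi.single_apply])
    (fun j => by rw [oddQF_apply]; simp [Pi.single_apply])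
    h2 (oddQF_nondeg m F h2) (Finset.univ.filter (fun j : Fin m => (j : ℕ) < i))
  rw [Fin.card_filter_val_lt, min_eq_right him, isSquare_neg_one_pow_iff hF hq, oddQF_coe] at key
  rw [← key]
  have hfun : (fun k : Unit ⊕ (Fin m ⊕ Fin m) => if (Sum.elim (fun _ : Unit => i) (Sum.elim (fun j : Fin m => (j : ℕ)) (fun j : Fin m => (j : ℕ))) k) < i then (-1 : F) else 1)
      = (fun k : Unit ⊕ (Fin m ⊕ Fin m) => if ∃ j ∈ Finset.univ.filter (fun j : Fin m => (j : ℕ) < i), k = Sum.inr (Sum.inl j) ∨ k = Sum.inr (Sum.inr j) then (-1 : F) else 1) := by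
    funext k
    rcases k with u | j | j
    · simp
    · by_cases h : (j : ℕ) < i <;> simp [h]
    · by_cases h : (j : ℕ) < i <;> simp [h]
  rw [hfun]

end Cfsg.Agent.S2614
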