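import Cfsg.Statements.S2615
import Cfsg.Agent.Lib.Helper44.HypInv

set_option autoImplicit false
open Cfsg

namespace Cfsg.Agent.S2615

open Cfsg.Agent.Lib.Helper44

/-- For an elliptic form Σ_(j<m−1) x_j y_j + (z₁² + a z₁z₂ + b z₂²) (anisotropic binary part) on F^(2m), F finite with q elements, q odd, and 1 ≤ i ≤ m − 1: the involution negating the first i hyperbolic pairs and fixing the rest lies in Ω⁻_2m(q) (commutator subgroup of the orthogonal group) if and only if q^i ≡ 1 (mod 4). -/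
theorem result {F : Type*} [Field F] [Fintype F] {q : ℕ} (hF : Fintype.card F = q) (hq : Odd q) {m : ℕ} (a b : F) (hab : ∀ z₁ z₂ : F, z₁ ^ 2 + a * z₁ * z₂ + b * z₂ ^ 2 = 0 → z₁ = 0 ∧ z₂ = 0) (i : ℕ) (hi : 1 ≤ i) (him : i + 1 ≤ m) : (∃ g : ↥(Cfsg.isometryGroup F (Cfsg.quadFormMinus (m - 1) F a b)), g ∈ Cfsg.Omega F (Cfsg.quadFormMinus (m - 1) F a b) ∧ ((g : Matrix.GeneralLinearGroup ((Fin (m - 1) ⊕ Fin (m - 1)) ⊕ Fin 2) F) : Matrix ((Fin (m - 1) ⊕ Fin (m - 1)) ⊕ Fin 2) ((Fin (m - 1) ⊕ Fin (m - 1)) ⊕ Fin 2) F) = Matrix.diagonal (fun k : (Fin (m - 1) ⊕ Fin (m - 1)) ⊕ Fin 2 => if (Sum.elim (Sum.elim (fun j : Fin (m - 1) => (j : ℕ)) (fun j : Fin (m - 1) => (j : ℕ))) (fun _ : Fin 2 => i) k) < i then (-1 : F) else 1)) ↔ q ^ i % 4 = 1 := by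
  have h2 : (2 : F) ≠ 0 := two_ne_zero_of_odd_card (by rw [hF]; exact hq)
  have key := exists_hyp_involution_mem_Omega_iff (minusQF (m - 1) F a b) (fun j => Sum.inl (Sum.inl j))
    (fun j => Sum.inl (Sum.inr j))
    (Sum.inl_injective.comp Sum.inl_injective) (Sum.inl_injective.comp Sum.inr_injective)
    (fun _ _ h => Sum.inl_ne_inr (Sum.inl_injective h))
    (minusQF_polar_single_inl (m - 1) F a b) (minusQF_polar_single_inr (m - 1) F a b)
    (fun j => by rw [minusQF_apply]; simp [Pi.single_apply])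
    (fun j => by rw [minusQF_apply]; simp [Pi.single_apply])
    h2 (minusQF_nondeg (m - 1) F hab) (Finset.univ.filter (fun j : Fin (m - 1) => (j : ℕ) < i))
  rw [Fin.card_filter_val_lt, min_eq_right (by omega), isSquare_neg_one_pow_iff hF hq, minusQF_coe] at key
  rw [← key]
  have hfun : (fun k : (Fin (m - 1) ⊕ Fin (m - 1)) ⊕ Fin 2 => if (Sum.elim (Sum.elim (fun j : Fin (m - 1) => (j : ℕ)) (fun j : Fin (m - 1) => (j : ℕ))) (fun _ : Fin 2 => i) k) < i then (-1 : F) else 1)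
      = (fun k : (Fin (m - 1) ⊕ Fin (m - 1)) ⊕ Fin 2 => if ∃ j ∈ Finset.univ.filter (fun j : Fin (m - 1) => (j : ℕ) < i), k = Sum.inl (Sum.inl j) ∨ k = Sum.inl (Sum.inr j) then (-1 : F) else 1) := by
    funext k
    rcases k with (j | j) | u
    · by_cases h : (j : ℕ) < i <;> simp [h]
    · by_cases h : (j : ℕ) < i <;> simp [h]
    · simp
  rw [hfun]

end Cfsg.Agent.S2615
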