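import Mathlib
import Cfsg.Statements.S2619


set_option autoImplicit false
open Cfsg

namespace Cfsg.Agent.S2619

/-- Over a finite field of characteristic two, given an alternating bilinear form B on a finite-dimensional space, a basis (v_i) and scalars (λ_i), there is exactly one quadratic form whose polar form is B and whose value at each v_i is λ_i. -/
theorem result {F V ι : Type*} [Field F] [Finite F] [CharP F 2] [AddCommGroup V] [Module F V] [Fintype ι] (b : Module.Basis ι F V) (B : LinearMap.BilinForm F V) (hB : B.IsAlt) (c : ι → F) : ∃! Q : QuadraticForm F V, QuadraticMap.polarBilin Q = B ∧ ∀ i, Q (b i) = c i := by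
  classical
  let e := Fintype.equivFin ι
  let M : Matrix ι ι F := fun i j => if e i < e j then B (b i) (b j) else if i = j then c i else 0
  let A : LinearMap.BilinForm F V := Matrix.toBilin b M
  have hA : ∀ i j, A (b i) (b j) = M i j := by
    intro i j
    rw [← LinearMap.BilinForm.toMatrix_apply b A i j, LinearMap.BilinForm.toMatrix_toBilin]
  have hneg : ∀ x y, B x y = B y x := by
    intro x y
    rw [← hB.neg_eq, CharTwo.neg_eq]
  refine ⟨LinearMap.BilinMap.toQuadraticMap A, ⟨?_, ?_⟩, ?_⟩
  · rw [LinearMap.BilinMap.polarBilin_toQuadraticMap]
    apply LinearMap.BilinForm.ext_basis b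
    intro i j
    simp only [LinearMap.add_apply, LinearMap.flip_apply, hA]
    rcases lt_trichotomy (e i) (e j) with h | h | h
    · have hne : j ≠ i := by rintro rfl; exact lt_irrefl _ h
      simp [M, h, not_lt.mpr h.le, hne]
    · have hij : i = j := e.injective h
      subst hij
      simp only [M, lt_irrefl, if_false, if_true]
      rw [CharTwo.add_self_eq_zero, hB.self_eq_zero]
    · have hne : i ≠ j := by rintro rfl; exact lt_irrefl _ h
      simp only [M, h, not_lt.mpr h.le, hne, if_false, if_true, zero_add]
      exact hneg _ _
  · intro i
    rw [LinearMap.BilinMap.toQuadraticMap_apply, hA]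
    simp [M]
  · rintro Q' ⟨hQ', hc'⟩
    have hpol : ∀ x y, QuadraticMap.polar ⇑Q' x y = B x y := by
      intro x y
      rw [← hQ']; rfl
    have hpol0 : QuadraticMap.polarBilin (LinearMap.BilinMap.toQuadraticMap A) = B := by
      rw [LinearMap.BilinMap.polarBilin_toQuadraticMap]
      apply LinearMap.BilinForm.ext_basis b
      intro i j
      simp only [LinearMap.add_apply, LinearMap.flip_apply, hA]
      rcases lt_trichotomy (e i) (e j) with h | h | h
      · have hne : j ≠ i := by rintro rfl; exact lt_irrefl _ h
        simp [M, h, not_lt.mpr h.le, hne]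
      · have hij : i = j := e.injective h
        subst hij
        simp only [M, lt_irrefl, if_false, if_true]
        rw [CharTwo.add_self_eq_zero, hB.self_eq_zero]
      · have hne : i ≠ j := by rintro rfl; exact lt_irrefl _ h
        simp only [M, h, not_lt.mpr h.le, hne, if_false, if_true, zero_add]
        exact hneg _ _
    have hpol1 : ∀ x y, QuadraticMap.polar ⇑(LinearMap.BilinMap.toQuadraticMap A) x y = B x y := by
      intro x y
      rw [← hpol0]; rfl
    ext x
    have hx : x ∈ Submodule.span F (Set.range b) := by rw [b.span_eq]; trivial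
    induction hx using Submodule.span_induction with
    | mem x hx =>
      obtain ⟨i, rfl⟩ := hx
      rw [hc', LinearMap.BilinMap.toQuadraticMap_apply, hA]
      simp [M]
    | zero => simp
    | add x y _ _ hx hy =>
      rw [QuadraticMap.map_add ⇑Q', QuadraticMap.map_add ⇑(LinearMap.BilinMap.toQuadraticMap A), hx, hy, hpol,
        hpol1]
    | smul a x _ hx =>
      rw [QuadraticMap.map_smul, QuadraticMap.map_smul, hx]

end Cfsg.Agent.S2619
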