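import Mathlib
import Cfsg.Statements.S2622
import Cfsg.Agent.Lib.Helper14.OrthoNormalTwo

set_option autoImplicit false
open Cfsg

namespace Cfsg.Agent.S2622

/-- Over a finite field of characteristic two, a non-degenerate symmetric bilinear form that is not alternating (some vector v has B(v, v) ≠ 0) admits an orthonormal basis. -/
theorem result {F V : Type*} [Field F] [Finite F] [CharP F 2] [AddCommGroup V] [Module F V] [FiniteDimensional F V] {n : ℕ} (hV : Module.finrank F V = n) (B : LinearMap.BilinForm F V) (hS : B.IsSymm) (hB : B.Nondegenerate) (hna : ∃ v : V, B v v ≠ 0) : ∃ b : Module.Basis (Fin n) F V, ∀ i j, B (b i) (b j) = if i = j then 1 else 0 := by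
  obtain ⟨b, hb⟩ := Cfsg.Agent.Lib.Helper14.exists_orthonormal_family_char_two n B hS hB hV
    (Or.inr hna)
  have hli := Cfsg.Agent.Lib.Helper14.linearIndependent_of_orthonormal B b hb
  have hne : Nonempty (Fin n) := by
    obtain ⟨v, hv⟩ := hna
    have hpos : 0 < n := by
      rw [← hV]
      apply Module.finrank_pos_iff_exists_ne_zero.mpr
      refine ⟨v, ?_⟩
      rintro rfl
      simp at hv
    exact ⟨⟨0, hpos⟩⟩
  refine ⟨basisOfLinearIndependentOfCardEqFinrank hli (by simp [hV]), ?_⟩
  intro i j
  rw [coe_basisOfLinearIndependentOfCardEqFinrank]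
  exact hb i j

end Cfsg.Agent.S2622
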