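import Cfsg.Statements.S2625
import Cfsg.Agent.Lib.Helper44.Gram

set_option autoImplicit false
open Cfsg

namespace Cfsg.Agent.S2625

open Cfsg.Agent.Lib.Helper44 QuadraticMap

/-- For a quadratic form Q on F^n with non-degenerate polar form, F finite and n odd (so |F| is odd), the multiplier of any similarity is a square: if g is an invertible linear map with Q(g v) = c·Q(v) for all v then c is a square. -/
theorem result {F : Type*} [Field F] [Fintype F] {n : ℕ} (hn : Odd n) (Q : QuadraticForm F (Fin n → F)) (hQ : (QuadraticMap.polarBilin Q).Nondegenerate) (g : (Fin n → F) ≃ₗ[F] (Fin n → F)) (c : F) (hg : ∀ v, Q (g v) = c * Q v) : IsSquare c := by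
  by_cases hc : c = 0
  · rw [hc]; exact IsSquare.zero
  set b := Pi.basisFun F (Fin n) with hb
  obtain ⟨d, hd, h⟩ := gram_det_basis_change (polarBilin Q) b (b.map g)
  have hG := gram_det_ne_zero hQ b
  have h1 : Matrix.of (fun i j => polarBilin Q ((b.map g) i) ((b.map g) j))
      = c • Matrix.of (fun i j => polarBilin Q (b i) (b j)) := by
    ext i j
    simp only [Module.Basis.map_apply, polarBilin_apply_apply, Matrix.of_apply, Matrix.smul_apply,
      smul_eq_mul, polar, ← map_add, hg]
    ring
  rw [h1, Matrix.det_smul, Fintype.card_fin] at h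
  have h2 : c ^ n = d ^ 2 := mul_right_cancel₀ hG h
  obtain ⟨k, rfl⟩ := hn
  refine ⟨d / c ^ k, ?_⟩
  field_simp
  rw [← h2]; ring

end Cfsg.Agent.S2625
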