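import Cfsg.Statements.S2627
import Cfsg.Agent.Lib.Helper44.SumForm

set_option autoImplicit false
open Cfsg

namespace Cfsg.Agent.S2627

open Cfsg.Agent.Lib.Helper44

/-- For an orthogonal direct sum Q = Q₁ ⊕ Q₂ of quadratic forms with non-degenerate polar forms over a finite field, an isometry g₁ of Q₁ extended by the identity on the second summand lies in Ω(Q) (the commutator subgroup of the orthogonal group of Q) if and only if g₁ lies in Ω(Q₁). (Excluded: the field of two elements when the first summand or the whole space has dimension 4, where the commutator subgroup of O⁺₄(2) is smaller than the group usually called Ω.) -/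
theorem result {F : Type*} [Field F] [Fintype F] {k l : ℕ} (h : Fintype.card F ≠ 2 ∨ (k ≠ 4 ∧ k + l ≠ 4)) (Q₁ : QuadraticForm F (Fin k → F)) (Q₂ : QuadraticForm F (Fin l → F)) (h₁ : (QuadraticMap.polarBilin Q₁).Nondegenerate) (h₂ : (QuadraticMap.polarBilin Q₂).Nondegenerate) (g₁ : ↥(Cfsg.isometryGroup F ⇑Q₁)) : (∃ g : ↥(Cfsg.isometryGroup F (fun v : Fin k ⊕ Fin l → F => Q₁ (v ∘ Sum.inl) + Q₂ (v ∘ Sum.inr))), g ∈ Cfsg.Omega F (fun v : Fin k ⊕ Fin l → F => Q₁ (v ∘ Sum.inl) + Q₂ (v ∘ Sum.inr)) ∧ ((g : Matrix.GeneralLinearGroup (Fin k ⊕ Fin l) F) : Matrix (Fin k ⊕ Fin l) (Fin k ⊕ Fin l) F) = Matrix.fromBlocks ((g₁ : Matrix.GeneralLinearGroup (Fin k) F) : Matrix (Fin k) (Fin k) F) 0 0 1) ↔ g₁ ∈ Cfsg.Omega F ⇑Q₁ := by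
  rw [← sumQF_coe]
  have hk : Fintype.card F ≠ 2 ∨ Fintype.card (Fin k) ≠ 4 := by
    rcases h with h | h
    · exact Or.inl h
    · right; simpa using h.1
  have hkl : Fintype.card F ≠ 2 ∨ Fintype.card (Fin k ⊕ Fin l) ≠ 4 := by
    rcases h with h | h
    · exact Or.inl h
    · right; simpa using h.2
  obtain ⟨vs, hvs, hg₁⟩ := exists_list_reflectionMatrix Q₁ h₁ hk g₁
  have hvs' : ∀ v ∈ vs.map (fun v => (Sum.elim v 0 : Fin k ⊕ Fin l → F)), sumQF Q₁ Q₂ v ≠ 0 := by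
    intro v hv
    obtain ⟨w, hw, rfl⟩ := List.mem_map.1 hv
    rw [sumQF_apply]
    simpa using hvs w hw
  have hprod : ((vs.map (fun v => (Sum.elim v 0 : Fin k ⊕ Fin l → F))).map (fun v => sumQF Q₁ Q₂ v)).prod
      = (vs.map (fun v => Q₁ v)).prod := by
    rw [List.map_map]
    congr 1
    apply List.map_congr_left
    intro v _
    simp [sumQF_apply]
  have key : ∀ g : ↥(Cfsg.isometryGroup F ⇑(sumQF Q₁ Q₂)), ((g : Matrix.GeneralLinearGroup (Fin k ⊕ Fin l) F) : Matrix (Fin k ⊕ Fin l) (Fin k ⊕ Fin l) F) = Matrix.fromBlocks ((g₁ : Matrix.GeneralLinearGroup (Fin k) F) : Matrix (Fin k) (Fin k) F) 0 0 1 →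
      (g ∈ Cfsg.Omega F ⇑(sumQF Q₁ Q₂) ↔ g₁ ∈ Cfsg.Omega F ⇑Q₁) := by
    intro g hg
    rw [mem_Omega_iff_of_prod Q₁ h₁ hk g₁ vs hvs hg₁,
      mem_Omega_iff_of_prod (sumQF Q₁ Q₂) (sumQF_nondeg h₁ h₂) hkl g _ hvs'
        (by rw [prod_reflectionMatrix_sum_inl, hg, hg₁]), hprod, List.length_map]
  constructor
  · rintro ⟨g, hg, hgm⟩
    exact (key g hgm).1 hg
  · intro hg
    have hgm : ((blockIso Q₁ Q₂ (g₁, 1) : Matrix.GeneralLinearGroup (Fin k ⊕ Fin l) F) : Matrix (Fin k ⊕ Fin l) (Fin k ⊕ Fin l) F) = Matrix.fromBlocks ((g₁ : Matrix.GeneralLinearGroup (Fin k) F) : Matrix (Fin k) (Fin k) F) 0 0 1 := by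
      rw [blockIso_coe]; simp
    exact ⟨blockIso Q₁ Q₂ (g₁, 1), (key _ hgm).2 hg, hgm⟩

end Cfsg.Agent.S2627
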