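import Cfsg.Statements.S2628
import Cfsg.Agent.Lib.Helper44.SumForm

set_option autoImplicit false
open Cfsg

namespace Cfsg.Agent.S2628

open Cfsg.Agent.Lib.Helper44 Matrix
open scoped commutatorElement

/-- the swap of the two summands -/
def swapGL (k : ℕ) (F : Type*) [Field F] : GL (Fin k ⊕ Fin k) F :=
  ⟨Matrix.fromBlocks 0 1 1 0, Matrix.fromBlocks 0 1 1 0,
    by simp [Matrix.fromBlocks_multiply], by simp [Matrix.fromBlocks_multiply]⟩

theorem swapGL_mem {k : ℕ} {F : Type*} [Field F] (Q : QuadraticForm F (Fin k → F)) :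
    swapGL k F ∈ Cfsg.isometryGroup F ⇑(sumQF Q Q) := by
  rw [mem_isometryGroup]
  intro u
  change sumQF Q Q ((Matrix.fromBlocks 0 1 1 0 : Matrix (Fin k ⊕ Fin k) (Fin k ⊕ Fin k) F) *ᵥ u) = _
  rw [Matrix.fromBlocks_mulVec, sumQF_apply, sumQF_apply]
  simp only [Matrix.zero_mulVec, Matrix.one_mulVec, zero_add, add_zero]
  have h1 : (Sum.elim (u ∘ Sum.inr) (u ∘ Sum.inl) : Fin k ⊕ Fin k → F) ∘ Sum.inl = u ∘ Sum.inr := rfl
  have h2 : (Sum.elim (u ∘ Sum.inr) (u ∘ Sum.inl) : Fin k ⊕ Fin k → F) ∘ Sum.inr = u ∘ Sum.inl := rfl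
  rw [h1, h2, add_comm]

/-- For the orthogonal direct sum Q ⊕ Q of two copies of a quadratic form Q with non-degenerate polar form on F^k (F finite), every isometry g of Q acting diagonally, diag(g, g), lies in Ω(Q ⊕ Q), the commutator subgroup of the orthogonal group of Q ⊕ Q. (Excluded: k = 2 over the field of two elements, where Q ⊕ Q is the hyperbolic 4-space whose orthogonal group's commutator subgroup is smaller than the group usually called Ω.) -/
theorem result {F : Type*} [Field F] [Fintype F] {k : ℕ} (h : Fintype.card F ≠ 2 ∨ k ≠ 2) (Q : QuadraticForm F (Fin k → F)) (hQ : (QuadraticMap.polarBilin Q).Nondegenerate) (g : ↥(Cfsg.isometryGroup F ⇑Q)) : ∃ x : ↥(Cfsg.isometryGroup F (fun v : Fin k ⊕ Fin k → F => Q (v ∘ Sum.inl) + Q (v ∘ Sum.inr))), x ∈ Cfsg.Omega F (fun v : Fin k ⊕ Fin k → F => Q (v ∘ Sum.inl) + Q (v ∘ Sum.inr)) ∧ ((x : Matrix.GeneralLinearGroup (Fin k ⊕ Fin k) F) : Matrix (Fin k ⊕ Fin k) (Fin k ⊕ Fin k)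 F) = Matrix.fromBlocks ((g : Matrix.GeneralLinearGroup (Fin k) F) : Matrix (Fin k) (Fin k) F) 0 0 ((g : Matrix.GeneralLinearGroup (Fin k) F) : Matrix (Fin k) (Fin k) F) := by
  rw [← sumQF_coe]
  have hkk : Fintype.card F ≠ 2 ∨ Fintype.card (Fin k ⊕ Fin k) ≠ 4 := by
    rcases h with h | h
    · exact Or.inl h
    · right; simp; omega
  refine ⟨blockIso Q Q (g, g), ?_, blockIso_coe Q Q _⟩
  set y := blockIso Q Q (g, 1) with hy
  set s : ↥(Cfsg.isometryGroup F ⇑(sumQF Q Q)) := ⟨swapGL k F, swapGL_mem Q⟩ with hs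
  have e : blockIso Q Q (g, g) = (y * y) * ⁅y⁻¹, s⁆ := by
    have e1 : s * y * s⁻¹ = blockIso Q Q (1, g) := by
      rw [mul_inv_eq_iff_eq_mul]
      apply isometryGroup_ext
      simp only [Subgroup.coe_mul, Units.val_mul, blockIso_coe, hy, hs]
      change (Matrix.fromBlocks 0 1 1 0 : Matrix (Fin k ⊕ Fin k) (Fin k ⊕ Fin k) F) * _
        = _ * (Matrix.fromBlocks 0 1 1 0 : Matrix (Fin k ⊕ Fin k) (Fin k ⊕ Fin k) F)
      simp [Matrix.fromBlocks_multiply]
    have e2 : blockIso Q Q (g, g) = y * blockIso Q Q (1, g) := by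
      rw [hy, ← map_mul]; simp
    rw [e2, ← e1, commutatorElement_def]
    group
  rw [e]
  exact mul_mem (mul_self_mem_Omega (sumQF Q Q) (sumQF_nondeg hQ hQ) hkk y)
    (Subgroup.commutator_mem_commutator (Subgroup.mem_top _) (Subgroup.mem_top _))

end Cfsg.Agent.S2628
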