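import Cfsg.Statements.S2629
import Cfsg.Agent.Lib.Helper44.PlusGeom

set_option autoImplicit false
open Cfsg

namespace Cfsg.Agent.S2629

open Cfsg.Agent.Lib.Helper44

theorem aux {F : Type*} [Field F] [Fintype F] (h2 : (2 : F) ≠ 0) {m : ℕ}
    (Qf : (Fin m ⊕ Fin m → F) → F) (hQf : Qf = ⇑(plusQF m F))
    (g : ↥(Cfsg.isometryGroup F Qf)) : Even (m - Module.finrank F ↥(LinearMap.ker (LinearMap.funLeft F F (Sum.inr : Fin m → Fin m ⊕ Fin m)) ⊓ (LinearMap.ker (LinearMap.funLeft F F (Sum.inr : Fin m → Fin m ⊕ Fin m))).map (Matrix.mulVecLin ((g : Matrix.GeneralLinearGroup (Fin m ⊕ Fin m) F) : Matrix (Fin m ⊕ Fin m) (Fin m ⊕ Fin m) F)))) ↔ ((g : Matrix.GeneralLinearGroup (Fin m ⊕ Fin m) F) : Matrix (Fin m ⊕ Fin m) (Fin m ⊕ Fin m) F).det = 1 := by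
  subst hQf
  have hcard : Fintype.card F ≠ 2 := by
    intro h
    apply h2
    have : ((Fintype.card F : ℕ) : F) = 0 := Nat.cast_card_eq_zero F
    rw [h] at this
    exact_mod_cast this
  obtain ⟨vs, hvs, hg⟩ := exists_list_reflectionMatrix (plusQF m F) (plusQF_nondeg m F)
    (Or.inl hcard) g
  rw [plus_even_iff g vs hvs hg, det_of_prod (plusQF m F) g vs hvs hg]
  constructor
  · intro h; exact h.neg_one_pow
  · intro h
    by_contra hodd
    rw [Nat.not_even_iff_odd] at hodd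
    rw [hodd.neg_one_pow] at h
    apply h2
    linear_combination -h

/-- For the hyperbolic form Σ x_i y_i on F^(2m) over a finite field of odd order (m ≥ 1), an isometry g preserves the class of the maximal totally singular subspace U₀ = {y = 0} (that is, m − dim(U₀ ∩ gU₀) is even) if and only if det g = 1: the stabiliser of each of the two classes of maximal totally singular subspaces is SO. -/
theorem result {F : Type*} [Field F] [Fintype F] (h2 : (2 : F) ≠ 0) {m : ℕ} (hm : 1 ≤ m) (g : ↥(Cfsg.isometryGroup F (Cfsg.quadFormPlus m F))) : Even (m - Module.finrank F ↥(LinearMap.ker (LinearMap.funLeft F F (Sum.inr : Fin m → Fin m ⊕ Fin m)) ⊓ (LinearMap.ker (LinearMap.funLeft F F (Sum.inr : Fin m → Fin m ⊕ Fin m))).map (Matrix.mulVecLin ((g : Matrix.GeneralLinearGroup (Fin m ⊕ Fin m) F) : Matrix (Fin m ⊕ Fin m) (Fin m ⊕ Fin m) F)))) ↔ ((g : Matrix.GeneralLinearGroup (Fin m ⊕ Fin m) F) : Matrix (Fin m ⊕ Fin m) (Fin m ⊕ Fin m) F).det = 1 :=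
  aux h2 _ (plusQF_coe m F).symm g

end Cfsg.Agent.S2629
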