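import Cfsg.Statements.S2635
import Cfsg.Agent.Lib.Helper44.OmegaAll

set_option autoImplicit false
open Cfsg

namespace Cfsg.Agent.S2635

open Cfsg.Agent.Lib.Helper44

/-- Over a finite field of characteristic two, for a quadratic form Q on F^n with non-degenerate polar form, n ≥ 2, other than dimension 4 over the field of two elements, Ω (the commutator subgroup of the orthogonal group) is exactly the subgroup generated by the products of two reflections (orthogonal transvections) x ↦ x − Q(v)⁻¹ f(x, v) v, Q(v) ≠ 0: the products of an even number of reflections. -/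
theorem result {F : Type*} [Field F] [Fintype F] [CharP F 2] {n : ℕ} (hn : 2 ≤ n) (h : Fintype.card F ≠ 2 ∨ n ≠ 4) (Q : QuadraticForm F (Fin n → F)) (hQ : (QuadraticMap.polarBilin Q).Nondegenerate) : Cfsg.Omega F ⇑Q = Subgroup.closure {g : ↥(Cfsg.isometryGroup F ⇑Q) | ∃ u v : Fin n → F, Q u ≠ 0 ∧ Q v ≠ 0 ∧ ((g : Matrix.GeneralLinearGroup (Fin n) F) : Matrix (Fin n) (Fin n) F) = Cfsg.reflectionMatrix ⇑Q u * Cfsg.reflectionMatrix ⇑Q v} := by
  have h' : Fintype.card F ≠ 2 ∨ Fintype.card (Fin n) ≠ 4 := by simpa using h
  apply le_antisymm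
  · intro g hg
    obtain ⟨vs, hvs, hgm⟩ := exists_list_reflectionMatrix Q hQ h' g
    have he := (mem_Omega_iff_of_prod_char_two Q hQ h' g vs hvs hgm).1 hg
    rw [eq_prod_reflElt Q g vs hgm]
    clear hgm hg
    induction vs using List.twoStepInduction with
    | nil => simp
    | singleton v => simp at he
    | cons_cons u v l ih _ =>
      have hl : ∀ w ∈ l, Q w ≠ 0 := fun w hw => hvs w (by simp [hw])
      have he' : Even l.length := by
        simp only [List.length_cons] at he
        rw [Nat.even_iff] at he ⊢; omega
      rw [List.map_cons, List.map_cons, List.prod_cons, List.prod_cons, ← mul_assoc]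
      refine mul_mem (Subgroup.subset_closure ⟨u, v, hvs u (by simp), hvs v (by simp), ?_⟩) (ih hl he')
      simp [reflElt_coe]
  · rw [Subgroup.closure_le]
    rintro g ⟨u, v, hu, hv, hg⟩
    refine (mem_Omega_iff_of_prod_char_two Q hQ h' g [u, v] ?_ (by simpa using hg)).2 (by simp)
    intro w hw
    simp only [List.mem_cons, List.not_mem_nil, or_false] at hw
    rcases hw with rfl | rfl
    · exact hu
    · exact hv

end Cfsg.Agent.S2635
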