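import Cfsg.Statements.S2636

set_option autoImplicit false
open Cfsg

namespace Cfsg.Agent.S2636

variable {F : Type*} [Field F] [Fintype F]

/-- the fixed field of `σ`. -/
noncomputable abbrev fixF (σ : F ≃+* F) : Subfield F :=
  FixedPoints.subfield (Subgroup.zpowers σ) F

omit [Fintype F] in
theorem mem_fixF (σ : F ≃+* F) (x : F) : x ∈ fixF σ ↔ σ x = x := by
  constructor
  · intro h
    exact h ⟨σ, Subgroup.mem_zpowers σ⟩
  · intro h
    rintro ⟨τ, k, rfl⟩
    show (σ ^ k) x = x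
    have h1 : σ ∈ MulAction.stabilizer (F ≃+* F) x := h
    have h2 : σ ^ k ∈ MulAction.stabilizer (F ≃+* F) x := Subgroup.zpow_mem _ h1 k
    exact h2

theorem card_fixF {q₀ r : ℕ} (hr : r.Prime) (hF : Fintype.card F = q₀ ^ r) (σ : F ≃+* F)
    (hσ : orderOf σ = r) : Nat.card (fixF σ) = q₀ := by
  classical
  have : FaithfulSMul (Subgroup.zpowers σ) F := by
    constructor
    intro a b h
    apply Subtype.ext
    apply RingEquiv.ext
    intro x
    exact h x
  have hfin : Finite (Subgroup.zpowers σ) := by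
    rw [← Nat.card_pos_iff.trans (and_iff_right ⟨1⟩), Nat.card_zpowers, hσ]
    exact hr.pos
  let _ : Fintype (Subgroup.zpowers σ) := Fintype.ofFinite _
  have h1 : Module.finrank (fixF σ) F = r := by
    have := FixedPoints.finrank_eq_card (Subgroup.zpowers σ) F
    rw [this, ← Nat.card_eq_fintype_card, Nat.card_zpowers, hσ]
  have h2 : Nat.card F = Nat.card (fixF σ) ^ Module.finrank (fixF σ) F :=
    Module.natCard_eq_pow_finrank
  rw [h1, Nat.card_eq_fintype_card, hF] at h2
  exact (Nat.pow_left_injective (n := r) hr.ne_zero h2).symm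

/-- scalar matrices. -/
noncomputable def scal (K : Type*) [Field K] (n : ℕ) : Kˣ →* GL (Fin n) K :=
  Units.map (Matrix.scalar (Fin n)).toMonoidHom

theorem scal_coe (K : Type*) [Field K] (n : ℕ) (d : Kˣ) :
    ((scal K n d : GL (Fin n) K) : Matrix (Fin n) (Fin n) K) = (d : K) • 1 := by
  simp [scal, Matrix.smul_one_eq_diagonal]

/-- `(d, h) ↦ d • h`. -/
noncomputable def Th (σ : F ≃+* F) (n : ℕ) : Fˣ × GL (Fin n) (fixF σ) →* GL (Fin n) F :=
  MonoidHom.noncommCoprod (scal F n) (Matrix.GeneralLinearGroup.map (fixF σ).subtype) (by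
    intro d h
    apply Units.ext
    simp [scal_coe])

theorem Th_coe (σ : F ≃+* F) (n : ℕ) (d : Fˣ) (h : GL (Fin n) (fixF σ)) :
    ((Th σ n (d, h) : GL (Fin n) F) : Matrix (Fin n) (Fin n) F)
      = (d : F) • (h : Matrix (Fin n) (Fin n) (fixF σ)).map (fixF σ).subtype := by
  show ((scal F n d * Matrix.GeneralLinearGroup.map (fixF σ).subtype h : GL (Fin n) F) :
    Matrix (Fin n) (Fin n) F) = _
  rw [Units.val_mul, scal_coe]
  simp [Matrix.GeneralLinearGroup.map]

theorem mem_range_Th (σ : F ≃+* F) {n : ℕ} (hn : 1 ≤ n) (g : GL (Fin n) F) :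
    g ∈ (Th σ n).range ↔ ∃ c : F, c ≠ 0 ∧
      (g : Matrix (Fin n) (Fin n) F).map σ = c • (g : Matrix (Fin n) (Fin n) F) := by
  constructor
  · rintro ⟨⟨d, h⟩, rfl⟩
    refine ⟨σ d / d, by simp, ?_⟩
    rw [Th_coe]
    ext i j
    have : σ ((h : Matrix (Fin n) (Fin n) (fixF σ)) i j : F)
        = ((h : Matrix (Fin n) (Fin n) (fixF σ)) i j : F) := (mem_fixF σ _).1 (Subtype.prop _)
    simp [this]
    field_simp
  · rintro ⟨c, hc, hg⟩
    have : Nonempty (Fin n) := ⟨⟨0, hn⟩⟩
    have hne : (g : Matrix (Fin n) (Fin n) F) ≠ 0 := g.ne_zero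
    obtain ⟨i, j, ha⟩ : ∃ i j, (g : Matrix (Fin n) (Fin n) F) i j ≠ 0 := by
      by_contra hcon
      push Not at hcon
      exact hne (by ext i j; exact hcon i j)
    set a := (g : Matrix (Fin n) (Fin n) F) i j with hadef
    have hent : ∀ k l, σ ((g : Matrix (Fin n) (Fin n) F) k l)
        = c * (g : Matrix (Fin n) (Fin n) F) k l := by
      intro k l
      have := congrFun (congrFun hg k) l
      simpa using this
    have hfix : ∀ k l, a⁻¹ * (g : Matrix (Fin n) (Fin n) F) k l ∈ fixF σ := by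
      intro k l
      rw [mem_fixF, map_mul, map_inv₀, hent, hadef, hent]
      field_simp
    let h₀ : Matrix (Fin n) (Fin n) (fixF σ) := fun k l => ⟨_, hfix k l⟩
    have hmap : h₀.map (fixF σ).subtype = a⁻¹ • (g : Matrix (Fin n) (Fin n) F) := by
      ext k l
      rfl
    have hdet : h₀.det ≠ 0 := by
      intro h0
      have h1 : (h₀.map (fixF σ).subtype).det = 0 := by
        have := (RingHom.map_det (fixF σ).subtype h₀)
        rw [RingHom.mapMatrix_apply] at this
        rw [← this, h0, map_zero]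
      rw [hmap, Matrix.det_smul] at h1
      have h2 : (g : Matrix (Fin n) (Fin n) F).det ≠ 0 := by
        have := g.isUnit.map (Matrix.detMonoidHom)
        exact this.ne_zero
      exact (mul_ne_zero (pow_ne_zero _ (inv_ne_zero ha)) h2) h1
    refine ⟨(Units.mk0 a ha, Matrix.GeneralLinearGroup.mkOfDetNeZero h₀ hdet), ?_⟩
    apply Units.ext
    rw [Th_coe]
    show a • h₀.map (fixF σ).subtype = _
    rw [hmap, smul_smul, mul_inv_cancel₀ ha, one_smul]

/-- the kernel parametrisation. -/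
noncomputable def kerPar (σ : F ≃+* F) (n : ℕ) : (fixF σ)ˣ →* Fˣ × GL (Fin n) (fixF σ) :=
  MonoidHom.prod ((Units.map (fixF σ).subtype.toMonoidHom).comp
    (MulEquiv.inv (fixF σ)ˣ).toMonoidHom) (scal (fixF σ) n)

theorem kerPar_injective (σ : F ≃+* F) (n : ℕ) : Function.Injective (kerPar σ n) := by
  intro u v h
  have h1 := congrArg Prod.fst h
  have h2 : ((u⁻¹ : (fixF σ)ˣ) : F) = ((v⁻¹ : (fixF σ)ˣ) : F) := congrArg Units.val h1
  have h3 : (u⁻¹ : (fixF σ)ˣ) = v⁻¹ := Units.ext (Subtype.ext h2)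
  exact inv_injective h3

theorem range_kerPar (σ : F ≃+* F) {n : ℕ} (hn : 1 ≤ n) :
    (kerPar σ n).range = (Th σ n).ker := by
  ext ⟨d, h⟩
  rw [MonoidHom.mem_ker]
  constructor
  · rintro ⟨u, hu⟩
    have h1 : d = Units.map (fixF σ).subtype.toMonoidHom u⁻¹ := (congrArg Prod.fst hu).symm
    have h2 : h = scal (fixF σ) n u := (congrArg Prod.snd hu).symm
    apply Units.ext
    rw [Th_coe, h1, h2, scal_coe]
    ext i j
    by_cases hij : i = j
    · subst hij
      simp
    · simp [hij]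
  · intro hk
    have hk' := congrArg Units.val hk
    rw [Th_coe] at hk'
    have hent : ∀ i j, (d : F) * ((h : Matrix (Fin n) (Fin n) (fixF σ)) i j : F)
        = (1 : Matrix (Fin n) (Fin n) F) i j := by
      intro i j
      have := congrFun (congrFun hk' i) j
      simpa using this
    have h00 := hent ⟨0, hn⟩ ⟨0, hn⟩
    rw [Matrix.one_apply_eq] at h00
    set u₀ := (h : Matrix (Fin n) (Fin n) (fixF σ)) ⟨0, hn⟩ ⟨0, hn⟩ with hu₀
    have hu₀ne : u₀ ≠ 0 := by
      intro h0
      rw [h0] at h00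
      simp at h00
    refine ⟨Units.mk0 u₀ hu₀ne, ?_⟩
    apply Prod.ext
    · apply Units.ext
      show (((Units.mk0 u₀ hu₀ne)⁻¹ : (fixF σ)ˣ) : F) = d
      have h5 : (((Units.mk0 u₀ hu₀ne)⁻¹ : (fixF σ)ˣ) : F) = (u₀ : F)⁻¹ := by
        simp
      rw [h5]
      exact (eq_inv_of_mul_eq_one_left h00).symm
    · apply Units.ext
      show ((scal (fixF σ) n (Units.mk0 u₀ hu₀ne) : GL (Fin n) (fixF σ)) :
        Matrix (Fin n) (Fin n) (fixF σ)) = h
      rw [scal_coe]
      ext i j
      have hd : (d : F) ≠ 0 := d.ne_zero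
      have h6 := hent i j
      by_cases hij : i = j
      · subst hij
        rw [Matrix.one_apply_eq, ← h00] at h6
        have h7 := mul_left_cancel₀ hd h6
        simp [h7]
      · rw [Matrix.one_apply_ne hij] at h6
        have h7 : ((h : Matrix (Fin n) (Fin n) (fixF σ)) i j : F) = 0 := by
          rcases mul_eq_zero.1 h6 with h8 | h8
          · exact absurd h8 hd
          · exact h8
        simp [hij, h7]

theorem result {F : Type*} [Field F] [Fintype F] {q₀ r n : ℕ} (hr : r.Prime) (hn : 1 ≤ n) (hF : Fintype.card F = q₀ ^ r) (σ : F ≃+* F) (hσ : orderOf σ = r) : Nat.card {g : GL (Fin n) F // ∃ c : F, c ≠ 0 ∧ (g : Matrix (Fin n) (Fin n) F).map σ = c • (g : Matrix (Fin n) (Fin n) F)} = (q₀ ^ r - 1) / (q₀ - 1) * ∏ i : Fin n, (q₀ ^ n - q₀ ^ (i : ℕ)) := by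
  classical
  have hq₀ : Nat.card (fixF σ) = q₀ := card_fixF hr hF σ hσ
  have hq2 : 2 ≤ q₀ := by
    rw [← hq₀]
    exact Finite.one_lt_card
  let _ : Fintype (fixF σ) := Fintype.ofFinite _
  have hq₀' : Fintype.card (fixF σ) = q₀ := by rw [← Nat.card_eq_fintype_card, hq₀]
  have hset : Nat.card {g : GL (Fin n) F // ∃ c : F, c ≠ 0 ∧ (g : Matrix (Fin n) (Fin n) F).map σ = c • (g : Matrix (Fin n) (Fin n) F)} = Nat.card (Th σ n).range := by
    apply Nat.card_congr
    exact Equiv.subtypeEquivRight (fun g => (mem_range_Th σ hn g).symm)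
  have hker : Nat.card (Th σ n).ker = q₀ - 1 := by
    rw [← range_kerPar σ hn]
    have : Nat.card (kerPar σ n).range = Nat.card (fixF σ)ˣ :=
      Nat.card_range_of_injective (kerPar_injective σ n)
    rw [this, Nat.card_units, hq₀]
  have hmul : Nat.card (Th σ n).ker * Nat.card (Th σ n).range
      = (q₀ ^ r - 1) * ∏ i : Fin n, (q₀ ^ n - q₀ ^ (i : ℕ)) := by
    rw [← Subgroup.index_ker, Subgroup.card_mul_index, Nat.card_prod, Nat.card_units,
      Matrix.card_GL_field, hq₀', Nat.card_eq_fintype_card, hF]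
  rw [hset]
  rw [hker] at hmul
  obtain ⟨k, hk⟩ : q₀ - 1 ∣ q₀ ^ r - 1 := by
    simpa using Nat.sub_dvd_pow_sub_pow q₀ 1 r
  have hpos : 0 < q₀ - 1 := by omega
  rw [hk, Nat.mul_div_cancel_left _ hpos]
  rw [hk, mul_assoc] at hmul
  exact Nat.eq_of_mul_eq_mul_left hpos hmul

end Cfsg.Agent.S2636
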