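import Cfsg.Statements.S2640
import Cfsg.Agent.Lib.Helper45.FiniteFieldEmb
import Cfsg.Agent.Lib.Helper45.DescMat
import Cfsg.Agent.Lib.Helper45.QuadExt
import Cfsg.Agent.Lib.Helper45.UnitaryOrth

set_option autoImplicit false
open Cfsg

namespace Cfsg.Agent.S2640

open Matrix Cfsg.Agent.Lib.Helper45

theorem main {K F : Type*} [Field K] [Fintype K] [Field F] [Fintype F]
    (hK : Fintype.card K = Fintype.card F ^ 2) (k : ℕ) :
    ∃ φ : ↥(Cfsg.GU (k + k) K (Fintype.card F)) →*
      ↥(Cfsg.isometryGroup F (Cfsg.quadFormPlus (k + k) F)), Function.Injective φ := by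
  obtain ⟨i⟩ := exists_ringHom_of_card_pow hK
  let _ : Algebra F K := i.toAlgebra
  have hfr : Module.finrank F K = 2 := finrank_eq_two_of_card hK
  obtain ⟨b, b', hbb⟩ := exists_dual_bases (F := F) (K := K) hfr
  obtain ⟨c, hc⟩ := exists_norm_quad (F := F) (K := K) hfr (-1)
  rw [map_neg, map_one] at hc
  have hc0 : c ≠ 0 := by
    rintro rfl
    rw [zero_mul] at hc
    exact one_ne_zero (neg_eq_zero.1 hc.symm)
  obtain ⟨θ, hθ⟩ := exists_trace_quad (F := F) (K := K) 1
  let T : (Fin (k + k) → K) ≃ₗ[F] (Fin (k + k) ⊕ Fin (k + k) → F) :=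
    LinearMap.linearEquivOfInjective (hypT k c θ b b') (hypT_injective k c θ hc0 b b') (by
      rw [Module.finrank_pi_fintype]
      simp only [Module.finrank_fintype_fun_eq_card, Fintype.card_sum, Fintype.card_fin, hfr]
      simp
      ring)
  have hT : ∀ x, algebraMap F K (Cfsg.quadFormPlus (k + k) F (T x))
      = Cfsg.hermForm (k + k) K (Fintype.card F) x x :=
    fun x => hypT_form hfr k c θ hc hθ b b' hbb x
  let ψ : ↥(Cfsg.GU (k + k) K (Fintype.card F)) →*
      Matrix.GeneralLinearGroup (Fin (k + k) ⊕ Fin (k + k)) F :=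
    (Units.map (descMat T)).comp (Subgroup.subtype _)
  have hψ : ∀ g, ψ g ∈ Cfsg.isometryGroup F (Cfsg.quadFormPlus (k + k) F) := by
    intro g
    rw [mem_isometryGroup_iff]
    intro u
    have hval : (ψ g).1 *ᵥ u = T (g.1.1 *ᵥ T.symm u) := descMat_mulVec T _ u
    apply (algebraMap F K).injective
    rw [hval, hT, (mem_GU_iff g.1).1 g.2, ← hT, LinearEquiv.apply_symm_apply]
  refine ⟨ψ.codRestrict _ hψ, ?_⟩
  intro g h hgh
  have h3 : ψ g = ψ h := congrArg Subtype.val hgh
  have h4 : descMat T g.1.1 = descMat T h.1.1 := congrArg Units.val h3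
  exact Subtype.ext (Units.ext (descMat_injective T h4))

theorem result {K F : Type*} [Field K] [Fintype K] [Field F] [Fintype F] {q : ℕ} (hK : Fintype.card K = q ^ 2) (hF : Fintype.card F = q) (m : ℕ) (hm : Even m) : ∃ φ : ↥(Cfsg.GU m K q) →* ↥(Cfsg.isometryGroup F (Cfsg.quadFormPlus m F)), Function.Injective φ := by
  subst hF
  obtain ⟨k, rfl⟩ := hm
  exact main hK k

end Cfsg.Agent.S2640
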