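import Cfsg.Statements.S2641
import Cfsg.Agent.Lib.Helper45.FiniteFieldEmb
import Cfsg.Agent.Lib.Helper45.DescMat
import Cfsg.Agent.Lib.Helper45.QuadExt
import Cfsg.Agent.Lib.Helper45.UnitaryOrth

set_option autoImplicit false
open Cfsg

namespace Cfsg.Agent.S2641

open Matrix Cfsg.Agent.Lib.Helper45

section

variable {F K : Type*} [Field F] [Fintype F] [Field K] [Fintype K] [Algebra F K]

omit [Fintype F] [Fintype K] in
theorem indep (a b : F) (hno : ∀ z : F, z ^ 2 + a * z + b ≠ 0) (r : K)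
    (hr : r ^ 2 + algebraMap F K a * r + algebraMap F K b = 0) (s t : F)
    (h : algebraMap F K s + algebraMap F K t * r = 0) : s = 0 ∧ t = 0 := by
  by_cases ht : t = 0
  · subst ht
    rw [map_zero, zero_mul, add_zero] at h
    exact ⟨(map_eq_zero _).1 h, rfl⟩
  · exfalso
    apply hno (-s / t)
    apply (algebraMap F K).injective
    have ht' : algebraMap F K t ≠ 0 := (map_ne_zero _).2 ht
    have hr' : r = algebraMap F K (-s / t) := by
      rw [map_div₀, map_neg]
      field_simp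
      linear_combination h
    rw [map_add, map_add, map_pow, map_mul, ← hr', map_zero]
    exact hr

theorem vieta (hfr : Module.finrank F K = 2) (a b : F) (hno : ∀ z : F, z ^ 2 + a * z + b ≠ 0) (r : K)
    (hr : r ^ 2 + algebraMap F K a * r + algebraMap F K b = 0) :
    r + r ^ Fintype.card F = - algebraMap F K a ∧ r * r ^ Fintype.card F = algebraMap F K b := by
  have h1 := algebraMap_trace_quad hfr r
  have h2 := algebraMap_norm_quad hfr r
  have h3 := indep a b hno r hr (b - Algebra.norm F r) (a + Algebra.trace F K r) (by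
    rw [map_sub, map_add, h1, h2]
    linear_combination hr)
  constructor
  · rw [← h1]
    have := congrArg (algebraMap F K) h3.2
    rw [map_add, map_zero] at this
    linear_combination this
  · rw [← h2]
    have := congrArg (algebraMap F K) h3.1
    rw [map_sub, map_zero] at this
    linear_combination -this

theorem norm_expand (hfr : Module.finrank F K = 2) (a b : F) (hno : ∀ z : F, z ^ 2 + a * z + b ≠ 0)
    (r : K) (hr : r ^ 2 + algebraMap F K a * r + algebraMap F K b = 0)
    (b₂ : Module.Basis (Fin 2) F K) (h0 : b₂ 0 = 1) (h1 : b₂ 1 = -r) (y : K) :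
    y * y ^ Fintype.card F = algebraMap F K
      ((b₂.repr y 0) ^ 2 + a * (b₂.repr y 0) * (b₂.repr y 1) + b * (b₂.repr y 1) ^ 2) := by
  obtain ⟨hv1, hv2⟩ := vieta hfr a b hno r hr
  have hy : y = algebraMap F K (b₂.repr y 0) - algebraMap F K (b₂.repr y 1) * r := by
    conv_lhs => rw [← b₂.sum_repr y]
    rw [Fin.sum_univ_two, h0, h1, Algebra.smul_def, Algebra.smul_def]
    ring
  have hsub : ∀ x y : K, (x - y) ^ Fintype.card F = x ^ Fintype.card F - y ^ Fintype.card F :=
    fun x y => map_sub (FiniteField.frobeniusAlgHom F K) x y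
  generalize b₂.repr y 0 = z₀ at *
  generalize b₂.repr y 1 = z₁ at *
  rw [hy, hsub, mul_pow, algebraMap_pow_card, algebraMap_pow_card]
  simp only [map_add, map_mul, map_pow]
  generalize r ^ Fintype.card F = r' at *
  generalize algebraMap F K z₀ = Z₀ at *
  generalize algebraMap F K z₁ = Z₁ at *
  linear_combination (-Z₀ * Z₁) * hv1 + Z₁ ^ 2 * hv2

/-- coordinates for the odd case. -/
noncomputable def oddT (k : ℕ) (c θ : K) (b b' b₂ : Module.Basis (Fin 2) F K) :
    (Fin (k + k + 1) → K) →ₗ[F] ((Fin (k + k) ⊕ Fin (k + k)) ⊕ Fin 2 → F) where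
  toFun x := Sum.elim (hypT k c θ b b' (fun i => x (Fin.castSucc i)))
    (fun a => b₂.repr (x (Fin.last _)) a)
  map_add' x y := by
    have : (fun i : Fin (k + k) => (x + y) (Fin.castSucc i))
        = (fun i => x (Fin.castSucc i)) + (fun i => y (Fin.castSucc i)) := rfl
    ext i
    rcases i with i | i
    · show hypT k c θ b b' (fun i : Fin (k + k) => (x + y) (Fin.castSucc i)) i = _
      rw [this, map_add]
      rfl
    · simp
  map_smul' t x := by
    have : (fun i : Fin (k + k) => (t • x) (Fin.castSucc i))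
        = t • (fun i => x (Fin.castSucc i)) := rfl
    ext i
    rcases i with i | i
    · show hypT k c θ b b' (fun i : Fin (k + k) => (t • x) (Fin.castSucc i)) i = _
      rw [this, map_smul]
      rfl
    · simp

omit [Fintype K] in
theorem oddT_injective (k : ℕ) (c θ : K) (hc : c ≠ 0) (b b' b₂ : Module.Basis (Fin 2) F K) :
    Function.Injective (oddT k c θ b b' b₂) := by
  rw [injective_iff_map_eq_zero]
  intro x hx
  have h1 : hypT k c θ b b' (fun i => x (Fin.castSucc i)) = 0 := by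
    ext i
    exact congrFun hx (.inl i)
  have h2 := (injective_iff_map_eq_zero _).1 (hypT_injective k c θ hc b b') _ h1
  have h3 : b₂.repr (x (Fin.last _)) = 0 := by
    ext a
    exact congrFun hx (.inr a)
  have h4 : x (Fin.last _) = 0 := by simpa using h3
  ext i
  refine Fin.lastCases h4 (fun j => congrFun h2 j) i

theorem oddT_form (hfr : Module.finrank F K = 2) (k : ℕ) (c θ : K)
    (hc : c * c ^ Fintype.card F = -1) (hθ : Algebra.trace F K θ = 1)
    (b b' : Module.Basis (Fin 2) F K)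
    (hbb : ∀ s t, Algebra.trace F K (b s * b' t) = if s = t then 1 else 0)
    (a₀ b₀ : F) (hno : ∀ z : F, z ^ 2 + a₀ * z + b₀ ≠ 0)
    (r : K) (hr : r ^ 2 + algebraMap F K a₀ * r + algebraMap F K b₀ = 0)
    (b₂ : Module.Basis (Fin 2) F K) (h0 : b₂ 0 = 1) (h1 : b₂ 1 = -r)
    (x : Fin (k + k + 1) → K) :
    algebraMap F K (Cfsg.quadFormMinus (k + k) F a₀ b₀ (oddT k c θ b b' b₂ x))
      = Cfsg.hermForm (k + k + 1) K (Fintype.card F) x x := by
  have e1 : Cfsg.quadFormMinus (k + k) F a₀ b₀ (oddT k c θ b b' b₂ x)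
      = Cfsg.quadFormPlus (k + k) F (hypT k c θ b b' (fun i => x (Fin.castSucc i)))
        + ((b₂.repr (x (Fin.last _)) 0) ^ 2 + a₀ * (b₂.repr (x (Fin.last _)) 0) * (b₂.repr (x (Fin.last _)) 1)
          + b₀ * (b₂.repr (x (Fin.last _)) 1) ^ 2) := rfl
  rw [e1, map_add, hypT_form hfr k c θ hc hθ b b' hbb, ← norm_expand hfr a₀ b₀ hno r hr b₂ h0 h1]
  simp only [Cfsg.hermForm]
  rw [Fin.sum_univ_castSucc]

end

theorem main {K F : Type*} [Field K] [Fintype K] [Field F] [Fintype F]
    (hK : Fintype.card K = Fintype.card F ^ 2) (k : ℕ) (a₀ b₀ : F)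
    (hab : ∀ z₁ z₂ : F, z₁ ^ 2 + a₀ * z₁ * z₂ + b₀ * z₂ ^ 2 = 0 → z₁ = 0 ∧ z₂ = 0) :
    ∃ φ : ↥(Cfsg.GU (k + k + 1) K (Fintype.card F)) →*
      ↥(Cfsg.isometryGroup F (Cfsg.quadFormMinus (k + k) F a₀ b₀)), Function.Injective φ := by
  obtain ⟨i⟩ := exists_ringHom_of_card_pow hK
  have hno : ∀ z : F, z ^ 2 + a₀ * z + b₀ ≠ 0 := by
    intro z hz
    have := (hab z 1 (by linear_combination hz)).2
    exact one_ne_zero this
  obtain ⟨r, hr⟩ := exists_root_quadratic hK i a₀ b₀ hno
  let _ : Algebra F K := i.toAlgebra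
  have hr' : r ^ 2 + algebraMap F K a₀ * r + algebraMap F K b₀ = 0 := hr
  have hfr : Module.finrank F K = 2 := finrank_eq_two_of_card hK
  obtain ⟨b, b', hbb⟩ := exists_dual_bases (F := F) (K := K) hfr
  obtain ⟨c, hc⟩ := exists_norm_quad (F := F) (K := K) hfr (-1)
  rw [map_neg, map_one] at hc
  have hc0 : c ≠ 0 := by
    rintro rfl
    rw [zero_mul] at hc
    exact one_ne_zero (neg_eq_zero.1 hc.symm)
  obtain ⟨θ, hθ⟩ := exists_trace_quad (F := F) (K := K) 1
  have hli : LinearIndependent F ![(1 : K), -r] := by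
    rw [LinearIndependent.pair_iff]
    intro s t hst
    have := indep a₀ b₀ hno r hr' s (-t) (by
      rw [Algebra.smul_def, Algebra.smul_def] at hst
      rw [map_neg]
      linear_combination hst)
    exact ⟨this.1, neg_eq_zero.1 this.2⟩
  let b₂ : Module.Basis (Fin 2) F K :=
    basisOfLinearIndependentOfCardEqFinrank hli (by rw [hfr]; rfl)
  have h0 : b₂ 0 = 1 := by simp [b₂]
  have h1 : b₂ 1 = -r := by simp [b₂]
  let T : (Fin (k + k + 1) → K) ≃ₗ[F] ((Fin (k + k) ⊕ Fin (k + k)) ⊕ Fin 2 → F) :=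
    LinearMap.linearEquivOfInjective (oddT k c θ b b' b₂) (oddT_injective k c θ hc0 b b' b₂) (by
      rw [Module.finrank_pi_fintype]
      simp only [Module.finrank_fintype_fun_eq_card, Fintype.card_sum, Fintype.card_fin, hfr]
      simp
      ring)
  have hT : ∀ x, algebraMap F K (Cfsg.quadFormMinus (k + k) F a₀ b₀ (T x))
      = Cfsg.hermForm (k + k + 1) K (Fintype.card F) x x :=
    fun x => oddT_form hfr k c θ hc hθ b b' hbb a₀ b₀ hno r hr' b₂ h0 h1 x
  let ψ : ↥(Cfsg.GU (k + k + 1) K (Fintype.card F)) →*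
      Matrix.GeneralLinearGroup ((Fin (k + k) ⊕ Fin (k + k)) ⊕ Fin 2) F :=
    (Units.map (descMat T)).comp (Subgroup.subtype _)
  have hψ : ∀ g, ψ g ∈ Cfsg.isometryGroup F (Cfsg.quadFormMinus (k + k) F a₀ b₀) := by
    intro g
    rw [mem_isometryGroup_iff]
    intro u
    have hval : (ψ g).1 *ᵥ u = T (g.1.1 *ᵥ T.symm u) := descMat_mulVec T _ u
    apply (algebraMap F K).injective
    rw [hval, hT, (mem_GU_iff g.1).1 g.2, ← hT, LinearEquiv.apply_symm_apply]
  refine ⟨ψ.codRestrict _ hψ, ?_⟩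
  intro g h hgh
  have h3 : ψ g = ψ h := congrArg Subtype.val hgh
  have h4 : descMat T g.1.1 = descMat T h.1.1 := congrArg Units.val h3
  exact Subtype.ext (Units.ext (descMat_injective T h4))

theorem result {K F : Type*} [Field K] [Fintype K] [Field F] [Fintype F] {q : ℕ} (hK : Fintype.card K = q ^ 2) (hF : Fintype.card F = q) (m : ℕ) (hm : Odd m) (a b : F) (hab : ∀ z₁ z₂ : F, z₁ ^ 2 + a * z₁ * z₂ + b * z₂ ^ 2 = 0 → z₁ = 0 ∧ z₂ = 0) : ∃ φ : ↥(Cfsg.GU m K q) →* ↥(Cfsg.isometryGroup F (Cfsg.quadFormMinus (m - 1) F a b)), Function.Injective φ := by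
  subst hF
  obtain ⟨k, rfl⟩ : ∃ k, m = k + k + 1 := by
    obtain ⟨k, hk⟩ := hm
    exact ⟨k, by omega⟩
  exact main hK k a b hab

end Cfsg.Agent.S2641
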