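import Cfsg.Statements.S2642
import Cfsg.Agent.Lib.Helper44.UnipSim
import Cfsg.Agent.Lib.Helper44.GUSim
import Cfsg.Agent.S2570

set_option autoImplicit false
open Cfsg

namespace Cfsg.Agent.S2642

open Cfsg.Agent.Lib.Helper44

/-- Number of conjugacy classes of elements of order p in the general unitary group GU_n(q), q a power of p: every unipotent Jordan type occurs and the classes correspond to the partitions of n with all parts at most p other than the all-ones partition, exactly as in GL_n; so there are (number of partitions of n with parts ≤ p) − 1 classes. -/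
theorem result {K : Type*} [Field K] [Fintype K] {p q n : ℕ} [Fact p.Prime] [CharP K p] (hK : Fintype.card K = q ^ 2) : Nat.card {C : ConjClasses ↥(Cfsg.GU n K q) // ∃ g : ↥(Cfsg.GU n K q), ConjClasses.mk g = C ∧ orderOf g = p} = (Finset.univ.filter (fun μ : Nat.Partition n => ∀ a ∈ μ.parts, a ≤ p)).card - 1 := by
  classical
  rw [← Cfsg.Agent.S2570.result (F := K) (p := p) n]
  obtain ⟨σ, hσ, hσσ, -⟩ := exists_frob_sq hK
  have hσf : (fun x : K => x ^ q) = ⇑σ := funext (fun x => (hσ x).symm)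
  apply Nat.card_congr
  refine Equiv.ofBijective (fun C => ⟨ConjClasses.map (Cfsg.GU n K q).subtype C.1, ?_⟩) ⟨?_, ?_⟩
  · obtain ⟨g, hg, hgo⟩ := C.2
    refine ⟨(g : GL (Fin n) K), ?_, ?_⟩
    · rw [← hg]
      rfl
    · rw [Subgroup.orderOf_coe, hgo]
  · rintro ⟨C1, g1, rfl, h1⟩ ⟨C2, g2, rfl, h2⟩ h
    apply Subtype.ext
    have h3 := congrArg Subtype.val h
    have h4 : ConjClasses.mk (g1 : GL (Fin n) K) = ConjClasses.mk (g2 : GL (Fin n) K) := h3
    exact ConjClasses.mk_eq_mk_iff_isConj.2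
      ((GU_isConj_iff hK g1 g2).2 (ConjClasses.mk_eq_mk_iff_isConj.1 h4))
  · rintro ⟨D, A, rfl, hA⟩
    have hAp : (A : Matrix (Fin n) (Fin n) K) ^ p = 1 := by
      rw [← Units.val_pow_eq_pow_val, ← hA, pow_orderOf_eq_one, Units.val_one]
    have hnil : IsNilpotent ((A : Matrix (Fin n) (Fin n) K) - 1) :=
      ⟨p, sub_one_pow_char_eq_zero p hAp⟩
    have hAA1 : (A : Matrix (Fin n) (Fin n) K) * ((A⁻¹ : GL (Fin n) K) : Matrix (Fin n) (Fin n) K) = 1 := by
      rw [← Units.val_mul]; simp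
    obtain ⟨P, hP⟩ := exists_conj_dagger_inv σ hσσ hnil hAA1
    have hinv : (((A : Matrix (Fin n) (Fin n) K).map σ).transpose)⁻¹ =
        (((A⁻¹ : GL (Fin n) K) : Matrix (Fin n) (Fin n) K).map σ).transpose := by
      apply Matrix.inv_eq_left_inv
      rw [← Matrix.transpose_mul, ← Matrix.map_mul, hAA1]
      ext i j
      simp [Matrix.one_apply, eq_comm, apply_ite σ]
    obtain ⟨B, hB⟩ := (GU_similar_iff hK A).2 (by
      rw [hσf, hinv]
      exact ⟨P, hP⟩)
    refine ⟨⟨ConjClasses.mk B, B, rfl, ?_⟩, ?_⟩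
    · rw [← Subgroup.orderOf_coe, ← hA]
      obtain ⟨c, hc⟩ := isConj_iff.1 hB
      rw [← hc]
      exact (MulAut.conj c).orderOf_eq A
    · apply Subtype.ext
      exact (ConjClasses.mk_eq_mk_iff_isConj.2 hB).symm

end Cfsg.Agent.S2642
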