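import Cfsg.Statements.S2643
import Cfsg.Agent.Lib.Helper44.SURegUnip
import Cfsg.Agent.Lib.Helper43.ClassSplit
import Cfsg.Agent.Lib.Helper5.SUOrder

set_option autoImplicit false
open Cfsg

namespace Cfsg.Agent.S2643

open Cfsg.Agent.Lib.Helper44

/-- Regular unipotent classes of SU_n(q), n ≥ 2: the elements u of the special unitary group (isometries of Σ u_i v_i^q of determinant one over the field with q² elements) with (u − 1)^n = 0 and rank(u − 1) = n − 1 form exactly gcd(n, q + 1) conjugacy classes of SU_n(q). -/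
theorem result {K : Type*} [Field K] [Fintype K] {q n : ℕ} (hK : Fintype.card K = q ^ 2) (hn : 2 ≤ n) : Nat.card {C : ConjClasses ↥(Cfsg.SU n K q) // ∃ u : ↥(Cfsg.SU n K q), ConjClasses.mk u = C ∧ (((u : GL (Fin n) K) : Matrix (Fin n) (Fin n) K) - 1) ^ n = 0 ∧ (((u : GL (Fin n) K) : Matrix (Fin n) (Fin n) K) - 1).rank = n - 1} = Nat.gcd n (q + 1) := by
  classical
  have hn1 : 1 ≤ n := by omega
  obtain ⟨B, hB⟩ := exists_regU_GU hK hn1
  -- the regular unipotent element lies in SU
  have hBdet : Cfsg.Agent.Lib.Helper5.detGU n K q B = 1 := by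
    obtain ⟨c, ⟨k, hk⟩, hc⟩ := hB.exists_scalar (Fintype.card_fin n) hn1 _ rfl
    have hne : Nonempty (Fin n) := ⟨⟨0, by omega⟩⟩
    have h1 : c = 1 := by
      apply scalar_eq_of_nilpotent (X := ((B : GL (Fin n) K) : Matrix (Fin n) (Fin n) K)) ⟨k, hk⟩
      rw [one_smul]
      exact ⟨n, hB.1⟩
    apply Units.ext
    change ((B : GL (Fin n) K) : Matrix (Fin n) (Fin n) K).det = 1
    rw [hc, h1, one_pow]
  obtain ⟨u0, hu0⟩ : B ∈ (Cfsg.Agent.Lib.Helper5.suToGU n K q).range := by
    rw [Cfsg.Agent.Lib.Helper5.range_suToGU]; exact hBdet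
  have hrange := Cfsg.Agent.Lib.Helper5.range_detGU (n := n) hK hn1
  have hmemD : ∀ x : Kˣ, x ∈ (Cfsg.Agent.Lib.Helper5.detGU n K q).range ↔ x ^ (q + 1) = 1 := by
    intro x
    have := Set.ext_iff.1 hrange x
    exact this
  have key := Cfsg.Agent.Lib.Helper43.card_classes_split (Cfsg.Agent.Lib.Helper5.suToGU n K q)
    Cfsg.Agent.Lib.Helper5.suToGU_injective (Cfsg.Agent.Lib.Helper5.detGU n K q).rangeRestrict
    (Cfsg.Agent.Lib.Helper5.detGU n K q).rangeRestrict_surjective
    (by
      intro g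
      rw [Cfsg.Agent.Lib.Helper5.range_suToGU, MonoidHom.mem_ker]
      constructor
      · intro h
        exact congrArg Subtype.val h
      · intro h
        exact Subtype.ext h) u0
    (powMonoidHom n : ↥(Cfsg.Agent.Lib.Helper5.detGU n K q).range →* _).range
    (by
      intro d
      rw [hu0]
      constructor
      · rintro ⟨c, rfl⟩
        have hc1 : (c : Kˣ) ^ (q + 1) = 1 := (hmemD _).1 c.2
        have hmem : Matrix.GeneralLinearGroup.scalar (Fin n) (c : Kˣ) ∈ Cfsg.GU n K q := by
          intro u v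
          have e : (Units.coeHom (Matrix (Fin n) (Fin n) K))
              (Matrix.GeneralLinearGroup.scalar (Fin n) (c : Kˣ))
              = Matrix.diagonal (fun _ => ((c : Kˣ) : K)) := by
            ext i j
            simp [Matrix.GeneralLinearGroup.scalar, Matrix.scalar, Matrix.diagonal]
          rw [e]
          apply Cfsg.Agent.Lib.Helper5.diagonal_preserves
          intro _
          have := congrArg Units.val hc1
          simpa using this
        refine ⟨⟨_, hmem⟩, ?_, ?_⟩
        · apply Subtype.ext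
          have hcen : Matrix.GeneralLinearGroup.scalar (Fin n) (c : Kˣ)
              ∈ Subgroup.center (GL (Fin n) K) := by
            rw [Matrix.GeneralLinearGroup.center_eq_range_scalar]
            exact ⟨_, rfl⟩
          exact ((Subgroup.mem_center_iff.1 hcen) _).symm
        · apply Subtype.ext
          change Matrix.GeneralLinearGroup.det (Matrix.GeneralLinearGroup.scalar (Fin n) (c : Kˣ))
            = ((c ^ n : ↥(Cfsg.Agent.Lib.Helper5.detGU n K q).range) : Kˣ)
          rw [Matrix.GeneralLinearGroup.det_scalar]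
          simp
      · rintro ⟨g, hg, rfl⟩
        have hg' : ((g : GL (Fin n) K) : Matrix (Fin n) (Fin n) K)
            * ((B : GL (Fin n) K) : Matrix (Fin n) (Fin n) K)
            = ((B : GL (Fin n) K) : Matrix (Fin n) (Fin n) K)
              * ((g : GL (Fin n) K) : Matrix (Fin n) (Fin n) K) :=
          congrArg (fun z : ↥(Cfsg.GU n K q) => ((z : GL (Fin n) K) : Matrix (Fin n) (Fin n) K)) hg
        obtain ⟨c, hc1, hc2⟩ := norm_one_of_commute_regU hK hn1 hB g.1 g.2 hg'
        have hc0 : c ≠ 0 := by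
          rintro rfl
          rw [zero_pow (by omega)] at hc1
          exact zero_ne_one hc1
        refine ⟨⟨Units.mk0 c hc0, (hmemD _).2 (Units.ext (by simpa using hc1))⟩, ?_⟩
        apply Subtype.ext
        apply Units.ext
        change c ^ n = ((g : GL (Fin n) K) : Matrix (Fin n) (Fin n) K).det
        rw [hc2])
  have hcardD : Nat.card ↥(Cfsg.Agent.Lib.Helper5.detGU n K q).range = q + 1 := by
    rw [← Cfsg.Agent.Lib.Helper5.card_norm_one_units hK]
    exact Nat.card_congr (Equiv.subtypeEquivRight hmemD)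
  have hidx : (powMonoidHom n : ↥(Cfsg.Agent.Lib.Helper5.detGU n K q).range →* _).range.index
      = Nat.gcd n (q + 1) := by
    rw [IsCyclic.index_powMonoidHom_range, hcardD, Nat.gcd_comm]
  rw [← hidx, ← key]
  refine Nat.card_congr (Equiv.subtypeEquivRight ?_)
  intro C
  constructor
  · rintro ⟨u, hu, h1, h2⟩
    refine ⟨u, hu, ?_⟩
    rw [hu0, GU_isConj_iff hK]
    obtain ⟨g, hg⟩ := RegU.exists_conj (Fintype.card_fin n) hn1
      (⟨h1, h2⟩ : RegU n (((u : GL (Fin n) K) : Matrix (Fin n) (Fin n) K))) hB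
    rw [isConj_iff]
    refine ⟨g, ?_⟩
    rw [mul_inv_eq_iff_eq_mul]
    apply Units.ext
    exact hg
  · rintro ⟨u, hu, hconj⟩
    refine ⟨u, hu, ?_⟩
    rw [hu0, isConj_comm, GU_isConj_iff hK, isConj_iff] at hconj
    obtain ⟨g, hg⟩ := hconj
    have h3 := hB.conj (P := (g : Matrix (Fin n) (Fin n) K))
      (P' := ((g⁻¹ : GL (Fin n) K) : Matrix (Fin n) (Fin n) K))
      (by rw [← Units.val_mul, mul_inv_cancel]; rfl)
    have h4 : (g : Matrix (Fin n) (Fin n) K) * ((B : GL (Fin n) K) : Matrix (Fin n) (Fin n) K) *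
        ((g⁻¹ : GL (Fin n) K) : Matrix (Fin n) (Fin n) K)
        = ((u : GL (Fin n) K) : Matrix (Fin n) (Fin n) K) :=
      congrArg (fun z : GL (Fin n) K => (z : Matrix (Fin n) (Fin n) K)) hg
    rw [h4] at h3
    exact h3

end Cfsg.Agent.S2643
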