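import Cfsg.Statements.S2665
-- import your own Cfsg.Agent.* helpers here

set_option autoImplicit false
open scoped MatrixGroups
open Cfsg

namespace Cfsg.Agent.S2665

section poly

open Polynomial

variable {K : Type*} [Field K]

/-- Auxiliary polynomials: `x_i(y) = y^q * Rp_i(y)` solves the triangular system. -/
noncomputable def Rp (q : ℕ) (a : ℕ → K) : ℕ → K[X]
  | 0 => C (a 0)
  | (i + 1) => X ^ (q * (q - 1)) * (Rp q a i) ^ q + C (a (i + 1))

lemma Rp_ne_zero (q : ℕ) (hq : 2 ≤ q) (a : ℕ → K) (i : ℕ) (h : ∃ j ≤ i, a j ≠ 0) :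
    Rp q a i ≠ 0 := by
  induction i with
  | zero =>
    obtain ⟨j, hj, hne⟩ := h
    have : j = 0 := by omega
    subst this
    simpa [Rp] using hne
  | succ i ih =>
    by_cases h0 : Rp q a i = 0
    · have hne : a (i + 1) ≠ 0 := by
        obtain ⟨j, hj, hne⟩ := h
        rcases Nat.lt_or_ge j (i + 1) with hlt | hge
        · exact absurd h0 (ih ⟨j, by omega, hne⟩)
        · have : j = i + 1 := by omega
          subst this
          exact hne
      have hq0 : q ≠ 0 := by omega
      simp [Rp, h0, hq0, hne]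
    · intro hz
      have h1 : X ^ (q * (q - 1)) * (Rp q a i) ^ q = C (-a (i + 1)) := by
        have : X ^ (q * (q - 1)) * (Rp q a i) ^ q + C (a (i + 1)) = 0 := hz
        rw [C_neg]
        exact eq_neg_of_add_eq_zero_left this
      have h2 := congrArg natDegree h1
      rw [natDegree_C, natDegree_mul (pow_ne_zero _ X_ne_zero) (pow_ne_zero _ h0),
        natDegree_X_pow] at h2
      have h3 : 0 < q * (q - 1) := Nat.mul_pos (by omega) (by omega)
      omega

lemma exists_solution [IsAlgClosed K] (q : ℕ) (hq : 2 ≤ q) (a : ℕ → K) (m : ℕ)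
    (h : ∃ j ≤ m, a j ≠ 0) :
    ∃ x : ℕ → K, x m ≠ 0 ∧ x 0 = a 0 * (x m) ^ q ∧
      ∀ i, x (i + 1) = (x i) ^ q + a (i + 1) * (x m) ^ q := by
  have hR := Rp_ne_zero q hq a m h
  set H : K[X] := X ^ (q - 1) * Rp q a m - 1 with hH
  have hdeg : H.degree ≠ 0 := by
    intro hd
    have h1 := eq_C_of_degree_eq_zero hd
    have h2 : X ^ (q - 1) * Rp q a m = C (H.coeff 0 + 1) := by
      rw [C_add, ← h1, hH, C_1]; ring
    have h3 := congrArg natDegree h2
    rw [natDegree_C, natDegree_mul (pow_ne_zero _ X_ne_zero) hR, natDegree_X_pow] at h3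
    omega
  obtain ⟨y, hy⟩ := IsAlgClosed.exists_root H hdeg
  have hy1 : y ^ (q - 1) * (Rp q a m).eval y = 1 := by
    have : H.eval y = 0 := hy
    rw [hH] at this
    simp only [eval_sub, eval_mul, eval_pow, eval_X, eval_one] at this
    exact sub_eq_zero.mp this
  have hy0 : y ≠ 0 := by
    rintro rfl
    rw [zero_pow (by omega), zero_mul] at hy1
    exact zero_ne_one hy1
  have hxm : y ^ q * (Rp q a m).eval y = y := by
    have : y ^ q = y * y ^ (q - 1) := by
      rw [← pow_succ']; congr 1; omega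
    rw [this, mul_assoc, hy1, mul_one]
  refine ⟨fun i => y ^ q * (Rp q a i).eval y, ?_, ?_, ?_⟩
  · simp only [hxm]; exact hy0
  · simp only [hxm]
    simp [Rp, mul_comm]
  · intro i
    simp only [hxm]
    simp only [Rp, eval_add, eval_mul, eval_pow, eval_X, eval_C]
    have : y ^ q * y ^ (q * (q - 1)) = (y ^ q) ^ q := by
      rw [← pow_mul, ← pow_add]; congr 1
      obtain ⟨k, rfl⟩ : ∃ k, q = k + 1 := ⟨q - 1, by omega⟩
      simp; ring
    rw [mul_pow, ← this]; ring

end poly

section semilinear

variable {K V : Type*} [Field K] [IsAlgClosed K] [AddCommGroup V] [Module K V]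
  [FiniteDimensional K V]

lemma step (q : ℕ) (hq : 2 ≤ q) (φ : V → V) (hadd : ∀ a b, φ (a + b) = φ a + φ b)
    (hsmul : ∀ (c : K) v, φ (c • v) = c ^ q • φ v)
    (W : Submodule K V) (hW : ∀ v, φ v ∈ W → v ∈ W) (v : V) (hv : v ∉ W) :
    ∃ u, u ∉ W ∧ φ u - u ∈ W := by
  classical
  set Φ : V →+ V := AddMonoidHom.mk' φ hadd with hΦ
  have hΦφ : ∀ x, Φ x = φ x := fun _ => rfl
  set e : ℕ → V := fun i => φ^[i] v with he
  have he0 : e 0 = v := rfl
  have hes : ∀ i, e (i + 1) = φ (e i) := fun i => Function.iterate_succ_apply' φ i v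
  have heW : ∀ i, e i ∉ W := by
    intro i
    induction i with
    | zero => exact hv
    | succ i ih => rw [hes]; exact fun h => ih (hW _ h)
  set Wk : ℕ → Submodule K V := fun k => W ⊔ Submodule.span K (e '' (Finset.range k : Set ℕ))
    with hWk
  have hmono : Monotone Wk := by
    intro a b hab
    refine sup_le_sup_left (Submodule.span_mono (Set.image_mono ?_)) W
    intro i hi
    simp only [Finset.coe_range, Set.mem_Iio] at hi ⊢
    omega
  have hmem : ∀ i k, i < k → e i ∈ Wk k := by
    intro i k hik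
    refine Submodule.mem_sup_right (Submodule.subset_span ⟨i, ?_, rfl⟩)
    simpa using hik
  have hex : ∃ r, e r ∈ Wk r := by
    obtain ⟨n, hn⟩ := monotone_stabilizes_iff_noetherian.mpr
      (inferInstance : IsNoetherian K V) ⟨Wk, hmono⟩
    refine ⟨n, ?_⟩
    have h1 : Wk n = Wk (n + 1) := hn (n + 1) (Nat.le_succ n)
    rw [h1]
    exact hmem n (n + 1) (Nat.lt_succ_self n)
  set r := Nat.find hex with hr
  have hr1 : e r ∈ Wk r := Nat.find_spec hex
  have hrmin : ∀ k, k < r → e k ∉ Wk k := fun k hk => Nat.find_min hex hk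
  have hr0 : r ≠ 0 := by
    intro h0
    rw [h0] at hr1
    simp only [hWk, Finset.range_zero, Finset.coe_empty, Set.image_empty, Submodule.span_empty,
      sup_bot_eq] at hr1
    exact hv hr1
  obtain ⟨m, hm⟩ : ∃ m, r = m + 1 := ⟨r - 1, by omega⟩
  rw [hm] at hr1
  obtain ⟨w0, hw0, z, hz, hsum⟩ := Submodule.mem_sup.mp hr1
  obtain ⟨a, ha⟩ := (Submodule.mem_span_image_finset_iff_exists_fun' K).mp hz
  have hane : ∃ j ≤ m, a j ≠ 0 := by
    by_contra hcon
    push Not at hcon
    have hz0 : z = 0 := by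
      rw [← ha]
      refine Finset.sum_eq_zero ?_
      intro i hi
      rw [hcon i (by simpa [Nat.lt_succ_iff] using hi), zero_smul]
    rw [hz0, add_zero] at hsum
    exact heW (m + 1) (hsum ▸ hw0)
  obtain ⟨x, hxm, hx0, hxs⟩ := exists_solution q hq a m hane
  refine ⟨∑ i ∈ Finset.range (m + 1), x i • e i, ?_, ?_⟩
  · intro hu
    rw [Finset.sum_range_succ] at hu
    have h1 : ∑ i ∈ Finset.range m, x i • e i ∈ Wk m :=
      Submodule.sum_mem _ (fun i hi => Submodule.smul_mem _ _ (hmem i m (by simpa using hi)))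
    have h2 : x m • e m ∈ Wk m := by
      have h3 : x m • e m = (∑ i ∈ Finset.range m, x i • e i + x m • e m)
          - ∑ i ∈ Finset.range m, x i • e i := by abel
      rw [h3]
      exact Submodule.sub_mem _ (Submodule.mem_sup_left hu) h1
    have h4 : e m ∈ Wk m := by
      have := Submodule.smul_mem (Wk m) (x m)⁻¹ h2
      rwa [smul_smul, inv_mul_cancel₀ hxm, one_smul] at this
    exact hrmin m (by omega) h4
  · have h1 : φ (∑ i ∈ Finset.range (m + 1), x i • e i)
        = ∑ i ∈ Finset.range (m + 1), (x i) ^ q • e (i + 1) := by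
      rw [← hΦφ, map_sum]
      refine Finset.sum_congr rfl ?_
      intro i _
      rw [hΦφ, hsmul, hes]
    have h2 : φ (∑ i ∈ Finset.range (m + 1), x i • e i) - ∑ i ∈ Finset.range (m + 1), x i • e i
        = (x m) ^ q • w0 := by
      rw [h1, Finset.sum_range_succ, ← hsum, ← ha, Finset.sum_range_succ' (fun i => x i • e i),
        Finset.sum_range_succ' (fun i => a i • e i), hx0]
      have h3 : ∑ i ∈ Finset.range m, x (i + 1) • e (i + 1)
          = ∑ i ∈ Finset.range m, (x i) ^ q • e (i + 1)
            + (x m) ^ q • ∑ i ∈ Finset.range m, a (i + 1) • e (i + 1) := by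
        rw [Finset.smul_sum, ← Finset.sum_add_distrib]
        refine Finset.sum_congr rfl ?_
        intro i _
        rw [hxs i, add_smul, smul_smul, mul_comm (a (i + 1))]
      rw [h3]
      simp only [smul_add, smul_smul]
      rw [mul_comm (a 0)]
      abel
    rw [h2]
    exact Submodule.smul_mem _ _ hw0

lemma span_fixed_eq_top (q : ℕ) (hq : 2 ≤ q) (φ : V → V) (hadd : ∀ a b, φ (a + b) = φ a + φ b)
    (hsmul : ∀ (c : K) v, φ (c • v) = c ^ q • φ v) (hinj : Function.Injective φ) :
    Submodule.span K {v | φ v = v} = ⊤ := by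
  classical
  set Φ : V →+ V := AddMonoidHom.mk' φ hadd with hΦ
  have hΦφ : ∀ x, Φ x = φ x := fun _ => rfl
  set W := Submodule.span K {v | φ v = v} with hWdef
  have hsurj : ∀ w ∈ W, ∃ w' ∈ W, φ w' = w := by
    intro w hw
    induction hw using Submodule.closure_induction with
    | zero => exact ⟨0, W.zero_mem, by rw [← hΦφ, map_zero]⟩
    | add x y _ _ hx hy =>
      obtain ⟨x', hx', rfl⟩ := hx
      obtain ⟨y', hy', rfl⟩ := hy
      exact ⟨x' + y', W.add_mem hx' hy', hadd _ _⟩
    | smul_mem c s hs =>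
      obtain ⟨d, hd⟩ := IsAlgClosed.exists_pow_nat_eq c (n := q) (by omega)
      refine ⟨d • s, W.smul_mem _ (Submodule.subset_span hs), ?_⟩
      rw [hsmul, hd]
      congr 1
  have hW : ∀ v, φ v ∈ W → v ∈ W := by
    intro v hv
    obtain ⟨w', hw', h⟩ := hsurj _ hv
    rw [← hinj h]; exact hw'
  have hAS : ∀ w ∈ W, ∃ z ∈ W, φ z - z = w := by
    intro w hw
    induction hw using Submodule.closure_induction with
    | zero => exact ⟨0, W.zero_mem, by rw [← hΦφ, map_zero, sub_zero]⟩
    | add x y _ _ hx hy =>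
      obtain ⟨x', hx', rfl⟩ := hx
      obtain ⟨y', hy', rfl⟩ := hy
      exact ⟨x' + y', W.add_mem hx' hy', by rw [hadd]; abel⟩
    | smul_mem c s hs =>
      have hdeg : (Polynomial.X ^ q - Polynomial.X - Polynomial.C c : Polynomial K).degree ≠ 0 := by
        have h1 : (Polynomial.X ^ q - Polynomial.X - Polynomial.C c : Polynomial K)
            = Polynomial.X ^ q - (Polynomial.X + Polynomial.C c) := by ring
        have h2 : (Polynomial.X + Polynomial.C c : Polynomial K).degree
            < (Polynomial.X ^ q : Polynomial K).degree := by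
          rw [Polynomial.degree_X_add_C, Polynomial.degree_X_pow]
          exact_mod_cast hq
        rw [h1, Polynomial.degree_sub_eq_left_of_degree_lt h2, Polynomial.degree_X_pow]
        have : q ≠ 0 := by omega
        exact_mod_cast this
      obtain ⟨t, ht⟩ := IsAlgClosed.exists_root _ hdeg
      have ht' : t ^ q - t = c := by
        have : (Polynomial.X ^ q - Polynomial.X - Polynomial.C c : Polynomial K).eval t = 0 := ht
        simp only [Polynomial.eval_sub, Polynomial.eval_pow, Polynomial.eval_X,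
          Polynomial.eval_C] at this
        exact sub_eq_zero.mp this
      refine ⟨t • s, W.smul_mem _ (Submodule.subset_span hs), ?_⟩
      have hs' : φ s = s := hs
      rw [hsmul, hs', ← sub_smul, ht']
  by_contra hne
  obtain ⟨v, hv⟩ : ∃ v, v ∉ W := by
    by_contra hcon
    push Not at hcon
    exact hne (eq_top_iff.mpr fun x _ => hcon x)
  obtain ⟨u, hu, hu2⟩ := step q hq φ hadd hsmul W hW v hv
  obtain ⟨z, hz, hz2⟩ := hAS _ hu2
  have hfix : φ (u - z) = u - z := by
    rw [← hΦφ, map_sub, hΦφ, hΦφ]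
    have : φ u - φ z - (u - z) = (φ u - u) - (φ z - z) := by abel
    rw [← sub_eq_zero, this, hz2, sub_self]
  have h1 : u - z ∈ W := Submodule.subset_span hfix
  have h2 : u = (u - z) + z := by abel
  exact hu (h2 ▸ W.add_mem h1 hz)

end semilinear

/-- The Lang–Steinberg Theorem for the general linear group. Let `K` be an algebraically closed field of prime characteristic `p`, let `q = p^f` with `f ≥ 1`, and let `σ` be the endomorphism of GL_n(K) raising every matrix entry to the `q`-th power. Then every element `g` of GL_n(K) can be written `g = x · σ(x)⁻¹` for some `x` in GL_n(K): the map `x ↦ x σ(x)⁻¹` is surjective. -/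
theorem result {K : Type*} [Field K] [IsAlgClosed K] (p : ℕ) [Fact p.Prime] [CharP K p]
    (f : ℕ) (hf : 1 ≤ f) (n : ℕ) (g : GL (Fin n) K) :
    ∃ x : GL (Fin n) K, g = x * (Matrix.GeneralLinearGroup.map (iterateFrobenius K p f) x)⁻¹ := by
  classical
  set σ := iterateFrobenius K p f with hσ
  have hσq : ∀ c : K, σ c = c ^ (p ^ f) := fun c => iterateFrobenius_def p f c
  have hp2 : 2 ≤ p := (Fact.out : p.Prime).two_le
  have hq : 2 ≤ p ^ f := by
    calc 2 ≤ p := hp2
      _ = p ^ 1 := (pow_one p).symm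
      _ ≤ p ^ f := Nat.pow_le_pow_right (by omega) hf
  set φ : (Fin n → K) → (Fin n → K) := fun v => (g : Matrix (Fin n) (Fin n) K).mulVec (fun i => σ (v i))
    with hφ
  have hadd : ∀ a b, φ (a + b) = φ a + φ b := by
    intro a b
    simp only [hφ]
    rw [← Matrix.mulVec_add]
    congr 1
    ext i
    simp
  have hsmul : ∀ (c : K) v, φ (c • v) = c ^ (p ^ f) • φ v := by
    intro c v
    simp only [hφ]
    rw [← Matrix.mulVec_smul]
    congr 1
    ext i
    simp [hσq, mul_pow]
  have hinj : Function.Injective φ := by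
    intro a b hab
    have h1 : (fun i => σ (a i)) = fun i => σ (b i) := by
      have h2 := congrArg ((g⁻¹ : GL (Fin n) K) : Matrix (Fin n) (Fin n) K).mulVec hab
      simp only [hφ, Matrix.mulVec_mulVec] at h2
      have h3 : ((g⁻¹ : GL (Fin n) K) : Matrix (Fin n) (Fin n) K) * (g : Matrix (Fin n) (Fin n) K) = 1 := by
        rw [← Units.val_mul, inv_mul_cancel, Units.val_one]
      rw [h3, Matrix.one_mulVec, Matrix.one_mulVec] at h2
      exact h2
    ext i
    exact σ.injective (congrFun h1 i)
  have hspan := span_fixed_eq_top (p ^ f) hq φ hadd hsmul hinj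
  obtain ⟨F, hF, -, hli⟩ := Submodule.exists_fun_fin_finrank_span_eq K {v | φ v = v}
  have hfr : Module.finrank K (Submodule.span K {v | φ v = v}) = n := by
    rw [hspan, finrank_top, Module.finrank_fin_fun]
  set F' : Fin n → (Fin n → K) := F ∘ Fin.cast hfr.symm with hF'
  have hli' : LinearIndependent K F' := hli.comp _ (Fin.cast_injective _)
  have hfix : ∀ j, φ (F' j) = F' j := fun j => hF _
  set X : Matrix (Fin n) (Fin n) K := Matrix.of (fun i j => F' j i) with hX
  have hcol : X.col = F' := by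
    ext j i
    rfl
  have hunit : IsUnit X := by
    rw [← Matrix.linearIndependent_cols_iff_isUnit, hcol]
    exact hli'
  refine ⟨hunit.unit, ?_⟩
  rw [eq_mul_inv_iff_mul_eq]
  ext i j
  have h1 := congrFun (hfix j) i
  simp only [hφ, Matrix.mulVec, dotProduct] at h1
  rw [Matrix.GeneralLinearGroup.coe_mul, Matrix.mul_apply]
  simp only [Matrix.GeneralLinearGroup.map_apply]
  exact h1

end Cfsg.Agent.S2665
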