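import Cfsg.Statements.S2668

set_option autoImplicit false
open Cfsg

namespace Cfsg.Agent.S2668

theorem norm_eq {X : Type*} [Group X] (σ : MulAut X) (a : X) (d : ℕ) :
    ((List.range d).map (fun i => (σ ^ i) (a * (σ a)⁻¹))).prod = a * ((σ ^ d) a)⁻¹ := by
  induction d with
  | zero => simp
  | succ d ih =>
    rw [List.range_succ, List.map_append, List.prod_append, ih]
    simp only [List.map_cons, List.map_nil, List.prod_cons, List.prod_nil, mul_one, map_mul, map_inv]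
    have : (σ ^ d) (σ a) = (σ ^ (d+1)) a := by
      rw [pow_succ]; rfl
    rw [this]
    group

theorem pow_fixed {X : Type*} [Group X] (τ : MulAut X) (x : X) (h : τ x = x) (d : ℕ) :
    (τ ^ d) x = x := by
  induction d with
  | zero => simp
  | succ d ih => rw [pow_succ, MulAut.mul_apply, h, ih]

theorem x_fixed {X : Type*} [Group X] (σ : MulAut X) (e : ℕ) (a : X)
    (hg : (σ ^ e) (a * (σ a)⁻¹) = a * (σ a)⁻¹) :
    σ (((σ ^ e) a)⁻¹ * a) = ((σ ^ e) a)⁻¹ * a := by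
  have hc : σ ((σ ^ e) a) = (σ ^ e) (σ a) := by
    rw [← MulAut.mul_apply, ← MulAut.mul_apply, ← pow_succ, ← pow_succ']
  rw [map_mul, map_inv, hc]
  rw [map_mul, map_inv] at hg
  have : (σ ^ e) (σ a) = σ a * a⁻¹ * (σ ^ e) a := by
    have h2 : ((σ ^ e) (σ a))⁻¹ = ((σ ^ e) a)⁻¹ * (a * (σ a)⁻¹) := by
      rw [← hg]; group
    have h3 := congrArg (fun z => z⁻¹) h2
    simp only [inv_inv, mul_inv_rev] at h3
    rw [h3]
  rw [this]; group

theorem pow_formula {X : Type*} [Group X] (τ : MulAut X) (a : X)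
    (hx : τ ((τ a)⁻¹ * a) = (τ a)⁻¹ * a) (d : ℕ) :
    ((τ ^ d) a)⁻¹ * a = ((τ a)⁻¹ * a) ^ d := by
  induction d with
  | zero => simp
  | succ d ih =>
    have h1 : (τ ^ (d+1)) a = (τ ^ d) (τ a) := by rw [pow_succ]; rfl
    have h2 : τ a = a * ((τ a)⁻¹ * a)⁻¹ := by group
    have h3 : (τ ^ d) (τ a) = (τ ^ d) a * ((τ a)⁻¹ * a)⁻¹ := by
      conv_lhs => rw [h2]
      rw [map_mul, map_inv, pow_fixed τ _ hx d]
    rw [h1, h3, pow_succ', ← ih]
    group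

theorem result {X : Type*} [Group X] (σ : MulAut X) (e d : ℕ) (he : 1 ≤ e) (hd : 1 ≤ d)
    (g : X) (hg : g ∈ (MulEquiv.toMonoidHom (σ ^ e)).eqLocus (MonoidHom.id X)) (a : X) (ha : g = a * (σ a)⁻¹) :
    ((List.range d).map (fun i => (σ ^ i) g)).prod = a * ((σ ^ d) a)⁻¹ ∧
      ((List.range d).map (fun i => (σ ^ i) g)).prod ∈ (MulEquiv.toMonoidHom ((σ ^ d) ^ e)).eqLocus (MonoidHom.id X) ∧
      (((σ ^ d) ^ e) a)⁻¹ * a = (((σ ^ e) a)⁻¹ * a) ^ d := by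
  have hg' : (σ ^ e) g = g := hg
  have hxσ : σ (((σ ^ e) a)⁻¹ * a) = ((σ ^ e) a)⁻¹ * a := x_fixed σ e a (by rw [← ha]; exact hg')
  have hxτ : (σ ^ e) (((σ ^ e) a)⁻¹ * a) = ((σ ^ e) a)⁻¹ * a := pow_fixed σ _ hxσ e
  have hpow : (σ ^ d) ^ e = (σ ^ e) ^ d := by rw [← pow_mul, ← pow_mul, mul_comm]
  refine ⟨by rw [ha]; exact norm_eq σ a d, ?_, ?_⟩
  · apply Subgroup.list_prod_mem
    intro y hy
    rw [List.mem_map] at hy
    obtain ⟨i, -, rfl⟩ := hy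
    change ((σ ^ d) ^ e) ((σ ^ i) g) = (σ ^ i) g
    rw [hpow, ← MulAut.mul_apply, ← pow_mul, ← pow_add, add_comm, pow_add, MulAut.mul_apply, pow_mul,
      pow_fixed (σ ^ e) g hg' d]
  · rw [hpow]
    exact pow_formula (σ ^ e) a hxτ d

end Cfsg.Agent.S2668
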