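import Cfsg.Statements.S2666
import Cfsg.Agent.S2668

set_option autoImplicit false
open Cfsg

namespace Cfsg.Agent.S2666

theorem comm_pow {X : Type*} [Group X] (σ : MulAut X) (e : ℕ) (a : X) :
    σ ((σ ^ e) a) = (σ ^ e) (σ a) := by
  rw [← MulAut.mul_apply, ← MulAut.mul_apply, ← pow_succ, ← pow_succ']

theorem result {X : Type*} [Group X] (σ : MulAut X) (e : ℕ) (he : 1 ≤ e)
    (hL : ∀ g : X, ∃ a : X, g = a * (σ a)⁻¹) (hLe : ∀ g : X, ∃ a : X, g = a * ((σ ^ e) a)⁻¹) :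
    (∀ g ∈ (MulEquiv.toMonoidHom (σ ^ e)).eqLocus (MonoidHom.id X), ∀ a : X, g = a * (σ a)⁻¹ →
        ((σ ^ e) a)⁻¹ * a ∈ (MulEquiv.toMonoidHom σ).eqLocus (MonoidHom.id X) ∧
          a⁻¹ * ((List.range e).map (fun i => (σ ^ i) g)).prod * a = ((σ ^ e) a)⁻¹ * a) ∧
    (∀ g ∈ (MulEquiv.toMonoidHom (σ ^ e)).eqLocus (MonoidHom.id X), ∀ g' ∈ (MulEquiv.toMonoidHom (σ ^ e)).eqLocus (MonoidHom.id X), ∀ a b : X,
        g = a * (σ a)⁻¹ → g' = b * (σ b)⁻¹ →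
          ((∃ k ∈ (MulEquiv.toMonoidHom (σ ^ e)).eqLocus (MonoidHom.id X), g' = k * g * (σ k)⁻¹) ↔
            (∃ h ∈ (MulEquiv.toMonoidHom σ).eqLocus (MonoidHom.id X), ((σ ^ e) b)⁻¹ * b = h * (((σ ^ e) a)⁻¹ * a) * h⁻¹))) ∧
    (∀ x ∈ (MulEquiv.toMonoidHom σ).eqLocus (MonoidHom.id X), ∃ g ∈ (MulEquiv.toMonoidHom (σ ^ e)).eqLocus (MonoidHom.id X), ∃ a : X,
        g = a * (σ a)⁻¹ ∧ ((σ ^ e) a)⁻¹ * a = x) := by
  refine ⟨?_, ?_, ?_⟩
  · intro g hg a ha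
    have hg' : (σ ^ e) g = g := hg
    refine ⟨Cfsg.Agent.S2668.x_fixed σ e a (by rw [← ha]; exact hg'), ?_⟩
    rw [ha, Cfsg.Agent.S2668.norm_eq]
    group
  · intro g hg g' hg' a b ha hb
    have hg1 : (σ ^ e) g = g := hg
    have hg1' : (σ ^ e) g' = g' := hg'
    constructor
    · rintro ⟨k, hk, hkg⟩
      have hk' : (σ ^ e) k = k := hk
      have hh : σ (b⁻¹ * k * a) = b⁻¹ * k * a := by
        rw [ha, hb] at hkg
        simp only [map_mul, map_inv]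
        have h1 : (σ b)⁻¹ = b⁻¹ * (k * (a * (σ a)⁻¹) * (σ k)⁻¹) := by
          rw [← hkg]; group
        rw [h1]; group
      refine ⟨b⁻¹ * k * a, hh, ?_⟩
      have hh' : (σ ^ e) (b⁻¹ * k * a) = b⁻¹ * k * a := Cfsg.Agent.S2668.pow_fixed σ _ hh e
      simp only [map_mul, map_inv, hk'] at hh'
      have h2 : ((σ ^ e) b)⁻¹ = b⁻¹ * k * a * ((σ ^ e) a)⁻¹ * k⁻¹ := by
        rw [← hh']; group
      rw [h2]; group
    · rintro ⟨h, hh, hx⟩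
      have hh1 : σ h = h := hh
      have hh' : (σ ^ e) h = h := Cfsg.Agent.S2668.pow_fixed σ _ hh1 e
      refine ⟨b * h * a⁻¹, ?_, ?_⟩
      · change (σ ^ e) (b * h * a⁻¹) = b * h * a⁻¹
        simp only [map_mul, map_inv, hh']
        have h3 : (σ ^ e) b = b * (h * (((σ ^ e) a)⁻¹ * a) * h⁻¹)⁻¹ := by
          rw [← hx]; group
        rw [h3]; group
      · rw [ha, hb]
        simp only [map_mul, map_inv, hh1]
        group
  · intro x hx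
    have hx' : σ x = x := hx
    obtain ⟨c, hc⟩ := hLe x⁻¹
    have hτ : (σ ^ e) c = x * c := by
      have : ((σ ^ e) c)⁻¹ = c⁻¹ * x⁻¹ := by rw [hc]; group
      have h3 := congrArg (fun z => z⁻¹) this
      simpa using h3
    refine ⟨c⁻¹ * (σ c⁻¹)⁻¹, ?_, c⁻¹, rfl, ?_⟩
    · change (σ ^ e) (c⁻¹ * (σ c⁻¹)⁻¹) = c⁻¹ * (σ c⁻¹)⁻¹
      simp only [map_mul, map_inv, inv_inv]
      rw [← comm_pow, hτ, map_mul, hx']
      group
    · rw [map_inv, hτ]; group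

end Cfsg.Agent.S2666
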