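import Cfsg.Statements.S2667
import Cfsg.Agent.S2668

set_option autoImplicit false
open Cfsg

namespace Cfsg.Agent.S2667

theorem twisted_iff {X : Type*} [Group X] (σ : MulAut X) (a k : X) :
    k * (a * (σ a)⁻¹) * (σ k)⁻¹ = a * (σ a)⁻¹ ↔ σ (a⁻¹ * k * a) = a⁻¹ * k * a := by
  rw [map_mul, map_mul, map_inv]
  constructor
  · intro h
    have h1 : σ k = (a * (σ a)⁻¹)⁻¹ * k * (a * (σ a)⁻¹) := by
      have : k * (a * (σ a)⁻¹) = a * (σ a)⁻¹ * σ k := by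
        conv_rhs => rw [← h]
        group
      rw [mul_assoc, this]; group
    rw [h1]; group
  · intro h
    have h1 : σ k = σ a * (a⁻¹ * k * a) * (σ a)⁻¹ := by
      rw [← h]; group
    rw [h1]; group

theorem comm_iff {X : Type*} [Group X] (τ : MulAut X) (a k : X)
    (hy : τ (a⁻¹ * k * a) = a⁻¹ * k * a) :
    τ k = k ↔ (a⁻¹ * k * a) * ((τ a)⁻¹ * a) = ((τ a)⁻¹ * a) * (a⁻¹ * k * a) := by
  have hk : τ k = τ a * (a⁻¹ * k * a) * (τ a)⁻¹ := by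
    rw [← hy]; simp only [map_mul, map_inv]; group
  rw [hk]
  constructor
  · intro h
    have : (τ a)⁻¹ * a * (a⁻¹ * k * a) = (τ a)⁻¹ * k * a := by group
    rw [this]
    conv_rhs => rw [← h]
    group
  · intro h
    have h2 : a⁻¹ * k * a = ((τ a)⁻¹ * a) * (a⁻¹ * k * a) * ((τ a)⁻¹ * a)⁻¹ := by
      rw [← h]; group
    rw [h2]; group

theorem result {X : Type*} [Group X] (σ : MulAut X) (e : ℕ) (he : 1 ≤ e)
    (g : X) (hg : g ∈ (MulEquiv.toMonoidHom (σ ^ e)).eqLocus (MonoidHom.id X)) (a : X) (ha : g = a * (σ a)⁻¹) (k : X) :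
    (k ∈ (MulEquiv.toMonoidHom (σ ^ e)).eqLocus (MonoidHom.id X) ∧ k * g * (σ k)⁻¹ = g) ↔
      (a⁻¹ * k * a ∈ (MulEquiv.toMonoidHom σ).eqLocus (MonoidHom.id X) ∧
        (a⁻¹ * k * a) * (((σ ^ e) a)⁻¹ * a) = (((σ ^ e) a)⁻¹ * a) * (a⁻¹ * k * a)) := by
  subst ha
  change ((σ ^ e) k = k ∧ _) ↔ (σ (a⁻¹ * k * a) = a⁻¹ * k * a ∧ _)
  rw [twisted_iff]
  constructor
  · rintro ⟨h1, h2⟩
    exact ⟨h2, (comm_iff (σ ^ e) a k (Cfsg.Agent.S2668.pow_fixed σ _ h2 e)).1 h1⟩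
  · rintro ⟨h1, h2⟩
    exact ⟨(comm_iff (σ ^ e) a k (Cfsg.Agent.S2668.pow_fixed σ _ h1 e)).2 h2, h1⟩

end Cfsg.Agent.S2667
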