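import Cfsg.Statements.S2669

set_option autoImplicit false
open Cfsg

namespace Cfsg.Agent.S2669

theorem fix_pow {X : Type*} [Group X] (σ : MulAut X) (e : ℕ) (h : X) (hh : σ h = h) :
    (σ ^ e) h = h := by
  induction e with
  | zero => simp
  | succ n ih => rw [pow_succ, MulAut.mul_apply, hh, ih]

theorem card_rel {α β N : Type*} (R : α → β → Prop) (P : α → Prop)
    (hRP : ∀ k h, R k h → P k) (f : ∀ k, P k → Nonempty ({h // R k h} ≃ N)) :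
    Nat.card {t : α × β // R t.1 t.2} = Nat.card {k // P k} * Nat.card N := by
  rw [← Nat.card_prod]
  have f' : ∀ k, P k → ({h // R k h} ≃ N) := fun k hk => (f k hk).some
  refine Nat.card_congr
    { toFun := fun t => (⟨t.1.1, hRP _ _ t.2⟩, f' t.1.1 (hRP _ _ t.2) ⟨t.1.2, t.2⟩)
      invFun := fun p => ⟨(p.1.1, (f' p.1.1 p.1.2).symm p.2), ((f' p.1.1 p.1.2).symm p.2).2⟩
      left_inv := ?_
      right_inv := ?_ }
  · rintro ⟨⟨k, h⟩, hkh⟩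
    simp
  · rintro ⟨⟨k, hk⟩, n⟩
    simp

theorem card_rel' {α β N : Type*} (R : α → β → Prop) (P : β → Prop)
    (hRP : ∀ k h, R k h → P h) (f : ∀ h, P h → Nonempty ({k // R k h} ≃ N)) :
    Nat.card {t : α × β // R t.1 t.2} = Nat.card {h // P h} * Nat.card N := by
  rw [← card_rel (fun h k => R k h) P (fun h k => hRP k h) f]
  exact Nat.card_congr
    { toFun := fun t => ⟨(t.1.2, t.1.1), t.2⟩
      invFun := fun t => ⟨(t.1.2, t.1.1), t.2⟩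
      left_inv := fun _ => rfl
      right_inv := fun _ => rfl }

theorem fibre_right {X : Type*} [Group X] (Y H : Subgroup X) (c : X) (h₀ : H) (hc : c * h₀ ∈ Y) :
    Nonempty ({h : H // c * h ∈ Y} ≃ ↥(Y ⊓ H)) := by
  refine ⟨
    { toFun := fun h => ⟨(h₀ : X)⁻¹ * h.1, ?_, H.mul_mem (H.inv_mem h₀.2) h.1.2⟩
      invFun := fun y => ⟨h₀ * ⟨y.1, y.2.2⟩, ?_⟩
      left_inv := ?_
      right_inv := ?_ }⟩
  · have : (h₀ : X)⁻¹ * h.1 = (c * h₀)⁻¹ * (c * h.1) := by group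
    rw [this]
    exact Y.mul_mem (Y.inv_mem hc) h.2
  · have : c * ((h₀ * ⟨y.1, y.2.2⟩ : H) : X) = (c * h₀) * y.1 := by
      simp [mul_assoc]
    rw [this]
    exact Y.mul_mem hc y.2.1
  · rintro ⟨h, hh⟩
    ext
    simp
  · rintro ⟨y, hy⟩
    ext
    simp

theorem fibre_left {X : Type*} [Group X] (Y G : Subgroup X) (c : X) (k₀ : G) (hc : (k₀ : X)⁻¹ * c ∈ Y) :
    Nonempty ({k : G // (k : X)⁻¹ * c ∈ Y} ≃ ↥(Y ⊓ G)) := by
  refine ⟨
    { toFun := fun k => ⟨(k₀ : X)⁻¹ * k.1, ?_, G.mul_mem (G.inv_mem k₀.2) k.1.2⟩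
      invFun := fun y => ⟨k₀ * ⟨y.1, y.2.2⟩, ?_⟩
      left_inv := ?_
      right_inv := ?_ }⟩
  · have : (k₀ : X)⁻¹ * k.1 = ((k₀ : X)⁻¹ * c) * ((k.1 : X)⁻¹ * c)⁻¹ := by group
    rw [this]
    exact Y.mul_mem hc (Y.inv_mem k.2)
  · have : (((k₀ * ⟨y.1, y.2.2⟩ : G) : X))⁻¹ * c = (y.1)⁻¹ * ((k₀ : X)⁻¹ * c) := by
      simp [mul_assoc]
    rw [this]
    exact Y.mul_mem (Y.inv_mem y.2.1) hc
  · rintro ⟨h, hh⟩
    ext
    simp
  · rintro ⟨y, hy⟩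
    ext
    simp

/-- Shintani descent preserves numbers of fixed points on coset spaces (abstract form). -/
theorem result {X : Type*} [Group X] (σ : MulAut X) (e : ℕ) (he : 1 ≤ e)
    [Finite ↥((MulEquiv.toMonoidHom (σ ^ e)).eqLocus (MonoidHom.id X))]
    (Y : Subgroup X) (hY : ∀ y : X, y ∈ Y ↔ σ y ∈ Y)
    (hYL : ∀ y ∈ Y, ∃ a ∈ Y, y = a * (σ a)⁻¹) (hYLe : ∀ y ∈ Y, ∃ a ∈ Y, y = a * ((σ ^ e) a)⁻¹)
    (g : X) (hg : g ∈ (MulEquiv.toMonoidHom (σ ^ e)).eqLocus (MonoidHom.id X)) (a : X) (ha : g = a * (σ a)⁻¹) :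
    Nat.card {k : ↥((MulEquiv.toMonoidHom (σ ^ e)).eqLocus (MonoidHom.id X)) // (k : X)⁻¹ * g * σ k ∈ Y} *
        Nat.card ↥(Y ⊓ (MulEquiv.toMonoidHom σ).eqLocus (MonoidHom.id X)) =
      Nat.card {h : ↥((MulEquiv.toMonoidHom σ).eqLocus (MonoidHom.id X)) // (h : X)⁻¹ * (((σ ^ e) a)⁻¹ * a) * h ∈ Y} *
        Nat.card ↥(Y ⊓ (MulEquiv.toMonoidHom (σ ^ e)).eqLocus (MonoidHom.id X)) := by
  set G := (MulEquiv.toMonoidHom (σ ^ e)).eqLocus (MonoidHom.id X) with hG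
  set H := (MulEquiv.toMonoidHom σ).eqLocus (MonoidHom.id X) with hH
  have memG : ∀ z, z ∈ G ↔ (σ ^ e) z = z := fun z => Iff.rfl
  have memH : ∀ z, z ∈ H ↔ σ z = z := fun z => Iff.rfl
  have ex1 : ∀ k : G, (k : X)⁻¹ * g * σ k ∈ Y → ∃ h : H, (k : X)⁻¹ * a * h ∈ Y := by
    intro k hk
    obtain ⟨u, huY, hu⟩ := hYL _ hk
    refine ⟨⟨a⁻¹ * k * u, ?_⟩, ?_⟩
    · rw [memH]
      have h1 : σ u = ((k : X)⁻¹ * g * σ k)⁻¹ * u := by rw [hu]; group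
      rw [map_mul, map_mul, map_inv, h1, ha]
      group
    · simpa [mul_assoc] using huY
  have ex2 : ∀ h : H, (h : X)⁻¹ * (((σ ^ e) a)⁻¹ * a) * h ∈ Y → ∃ k : G, (k : X)⁻¹ * a * (h : X) ∈ Y := by
    intro h hh
    obtain ⟨b, hbY, hb⟩ := hYLe _ (Y.inv_mem hh)
    have hfix : (σ ^ e) (h : X) = h := fix_pow σ e h ((memH _).1 h.2)
    refine ⟨⟨a * h * b, ?_⟩, ?_⟩
    · rw [memG]
      have h1 : (σ ^ e) b = ((h : X)⁻¹ * (((σ ^ e) a)⁻¹ * a) * h) * b := by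
        have : ((σ ^ e) b)⁻¹ = b⁻¹ * ((h : X)⁻¹ * (((σ ^ e) a)⁻¹ * a) * h)⁻¹ := by rw [hb]; group
        rw [← inv_inj, this]; group
      rw [map_mul, map_mul, hfix, h1]
      group
    · have : ((a * h * b : X))⁻¹ * a * h = b⁻¹ := by group
      show ((a * h * b : X))⁻¹ * a * h ∈ Y
      rw [this]; exact Y.inv_mem hbY
  have c1 := card_rel (N := ↥(Y ⊓ H)) (fun (k : G) (h : H) => (k : X)⁻¹ * a * h ∈ Y)
    (fun k => (k : X)⁻¹ * g * σ k ∈ Y)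
    (by
      intro k h h1
      have h2 : σ (h : X) = h := (memH _).1 h.2
      have h3 : (k : X)⁻¹ * g * σ k = ((k : X)⁻¹ * a * h) * (σ ((k : X)⁻¹ * a * h))⁻¹ := by
        rw [map_mul, map_mul, h2, ha, map_inv]; group
      show (k : X)⁻¹ * g * σ k ∈ Y
      rw [h3]
      exact Y.mul_mem h1 (Y.inv_mem ((hY _).1 h1)))
    (by
      intro k hk
      obtain ⟨h₀, hh₀⟩ := ex1 k hk
      exact fibre_right Y H ((k : X)⁻¹ * a) h₀ hh₀)
  have hYe : ∀ (n : ℕ) (y : X), y ∈ Y → (σ ^ n) y ∈ Y := by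
    intro n
    induction n with
    | zero => intro y hy; simpa using hy
    | succ n ih => intro y hy; rw [pow_succ, MulAut.mul_apply]; exact ih _ ((hY _).1 hy)
  have c2 := card_rel' (N := ↥(Y ⊓ G)) (fun (k : G) (h : H) => (k : X)⁻¹ * a * h ∈ Y)
    (fun h => (h : X)⁻¹ * (((σ ^ e) a)⁻¹ * a) * h ∈ Y)
    (by
      intro k h h1
      have h2 : (σ ^ e) (h : X) = h := fix_pow σ e h ((memH _).1 h.2)
      have h2' : (σ ^ e) (k : X) = k := (memG _).1 k.2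
      have h3 : (h : X)⁻¹ * (((σ ^ e) a)⁻¹ * a) * h
          = ((σ ^ e) ((k : X)⁻¹ * a * h))⁻¹ * ((k : X)⁻¹ * a * h) := by
        rw [map_mul, map_mul, h2, map_inv, h2']; group
      show (h : X)⁻¹ * (((σ ^ e) a)⁻¹ * a) * h ∈ Y
      rw [h3]
      exact Y.mul_mem (Y.inv_mem (hYe e _ h1)) h1)
    (by
      intro h hh
      obtain ⟨k₀, hk₀⟩ := ex2 h hh
      have := fibre_left Y G (a * h) k₀ (by simpa [mul_assoc] using hk₀)
      simpa [mul_assoc] using this)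
  rw [← c1, ← c2]

end Cfsg.Agent.S2669
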