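import Cfsg.Statements.S2671
import Cfsg.Agent.Lib.Helper38.GUOrderR

set_option autoImplicit false
open Cfsg

namespace Cfsg.Agent.S2671

/-- Number of conjugacy classes of elements of odd prime order r in the general unitary group GU_n(q), for r not dividing q(q + 1): let i be the multiplicative order of q modulo r, b = i if i is odd and b = i/2 if i is even, and s = (r − 1)/b. If i ≢ 2 (mod 4) the eigenvalue orbits pair off into dual pairs of totally isotropic blocks and there are C(⌊n/(2b)⌋ + s/2, s/2) − 1 classes; if i ≡ 2 (mod 4) each orbit gives a non-degenerate block of dimension i/2 and there are C(⌊2n/i⌋ + s, s) − 1 classes. -/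
theorem result {K : Type*} [Field K] [Fintype K] {p q n r i b s : ℕ} [Fact p.Prime] [CharP K p] (hK : Fintype.card K = q ^ 2) (hr : r.Prime) (hr2 : r ≠ 2) (hrp : r ≠ p) (hi : i = orderOf (q : ZMod r)) (hi2 : i ≠ 2) (hb : b = if Odd i then i else i / 2) (hs : s * b = r - 1) : Nat.card {C : ConjClasses ↥(Cfsg.GU n K q) // ∃ g : ↥(Cfsg.GU n K q), ConjClasses.mk g = C ∧ orderOf g = r} = if i % 4 = 2 then Nat.choose (2 * n / i + s) s - 1 else Nat.choose (n / (2 * b) + s / 2) (s / 2) - 1 := by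
  classical
  have : Fact r.Prime := ⟨hr⟩
  have hpp : p.Prime := Fact.out
  obtain ⟨k, hq⟩ : ∃ k, q = p ^ k := by
    obtain ⟨e, -, he⟩ := FiniteField.card K p
    have h1 : q ∣ p ^ (e : ℕ) := by
      rw [← he, hK]
      exact Dvd.intro_left (q ^ 1) (by ring)
    obtain ⟨k, -, hk⟩ := (Nat.dvd_prime_pow hpp).1 h1
    exact ⟨k, hk⟩
  obtain ⟨σ, hσ, hσσ, -⟩ := Cfsg.Agent.Lib.Helper44.exists_frob_sq hK
  have hb' : b = orderOf ((Fintype.card K : ℕ) : ZMod r) := by
    rw [hK, Cfsg.Agent.Lib.Helper38.CycF.orderOf_sq_cast, ← hi, hb]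
  have hrq : ¬ r ∣ Fintype.card K := by
    intro h
    obtain ⟨⟨f, hf0⟩, -, hf⟩ := FiniteField.card K p
    rw [hf] at h
    exact hrp ((Nat.prime_dvd_prime_iff_eq hr hpp).1 (hr.dvd_of_dvd_pow h))
  have hb0 : 0 < b := by
    rw [hb', orderOf_pos_iff, isOfFinOrder_iff_pow_eq_one]
    refine ⟨r - 1, Nat.sub_pos_of_lt hr.one_lt, ?_⟩
    apply ZMod.pow_card_sub_one_eq_one
    rwa [Ne, ZMod.natCast_eq_zero_iff]
  have hcardI : Fintype.card ↥(Cfsg.Agent.Lib.Helper38.CycF.facs K r) = s := by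
    rw [Fintype.card_coe, Cfsg.Agent.Lib.Helper38.CycF.card_facs p hr hrp, ← hb', ← hs,
      Nat.mul_div_cancel _ hb0]
  split_ifs with hmod
  · -- every factor is self-dual
    have hid : ∀ μ : Multiset ↥(Cfsg.Agent.Lib.Helper38.CycF.facs K r),
        μ.map (Cfsg.Agent.Lib.Helper38.CycF.starS p hr hrp σ hσσ) = μ := by
      intro μ
      conv_rhs => rw [← Multiset.map_id μ]
      apply Multiset.map_congr rfl
      intro P _
      exact Cfsg.Agent.Lib.Helper38.CycF.starS_eq p hq hK σ hσ hσσ hr hrp (by rw [← hi]; exact hmod) P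
    have hnodd : ¬ Odd i := by
      rw [Nat.not_odd_iff_even]
      exact ⟨i / 2, by omega⟩
    rw [if_neg hnodd] at hb
    have hdiv : 2 * n / i = n / b := by
      have h2 : i = 2 * b := by omega
      rw [h2, Nat.mul_div_mul_left _ _ (by norm_num)]
    rw [hdiv]
    let τ : {μ : Multiset ↥(Cfsg.Agent.Lib.Helper38.CycF.facs K r) //
        μ ≠ 0 ∧ Multiset.card μ ≤ n / b} →
        Multiset (Polynomial K × ℕ) := fun μ => Cfsg.Agent.Lib.Helper38.CycF.tau n b r μ.1
    have hτ : Function.Injective τ := by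
      intro μ μ' h
      exact Subtype.ext (Cfsg.Agent.Lib.Helper38.CycF.tau_injective p hr hrp n b h)
    rw [Cfsg.Agent.Lib.Helper38.CycF.gu_card_classes hK n r τ hτ,
      Cfsg.Agent.Lib.Helper38.MCount.card_nonzero_le, hcardI]
    · intro g hg
      obtain ⟨μ, hμ0, hμ, hT, -⟩ :=
        Cfsg.Agent.Lib.Helper38.CycF.gu_typ_eq_tau p hr hrp σ hσ hσσ n b hb' g hg
      exact ⟨⟨μ, hμ0, (Nat.le_div_iff_mul_le hb0).2 (by rw [mul_comm]; exact hμ)⟩, hT⟩
    · rintro ⟨μ, hμ0, hμ⟩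
      exact Cfsg.Agent.Lib.Helper38.CycF.gu_exists_of_tau p hr hrp hK σ hσ hσσ n b hb' μ hμ0
        (by rw [mul_comm]; exact (Nat.le_div_iff_mul_le hb0).1 hμ) (hid μ)
  · -- the factors pair off
    have hfix : ∀ P : ↥(Cfsg.Agent.Lib.Helper38.CycF.facs K r),
        Cfsg.Agent.Lib.Helper38.CycF.starS p hr hrp σ hσσ P ≠ P :=
      Cfsg.Agent.Lib.Helper38.CycF.starS_ne p hq hK σ hσ hσσ hr hr2 hrp (by rw [← hi]; exact hmod)
    have hinv : Function.Involutive (Cfsg.Agent.Lib.Helper38.CycF.starS (K := K) p hr hrp σ hσσ) :=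
      Cfsg.Agent.Lib.Helper38.CycF.starS_starS p hr hrp σ hσσ
    obtain ⟨J, hJ, hJcard⟩ := Cfsg.Agent.Lib.Helper38.MCount.exists_transversal _ hinv hfix
    rw [hcardI] at hJcard
    have hJc : Fintype.card ↥J = s / 2 := by
      rw [Fintype.card_coe]
      omega
    have h2b : 0 < 2 * b := by omega
    let τ : {ν : Multiset ↥J // ν ≠ 0 ∧ Multiset.card ν ≤ n / (2 * b)} →
        Multiset (Polynomial K × ℕ) := fun ν => Cfsg.Agent.Lib.Helper38.CycF.tau n b r
          (Cfsg.Agent.Lib.Helper38.MCount.dbl (Cfsg.Agent.Lib.Helper38.CycF.starS p hr hrp σ hσσ) J ν.1)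
    have hτ : Function.Injective τ := by
      intro ν ν' h
      exact Subtype.ext (Cfsg.Agent.Lib.Helper38.MCount.dbl_injective _ J hJ
        (Cfsg.Agent.Lib.Helper38.CycF.tau_injective p hr hrp n b h))
    rw [Cfsg.Agent.Lib.Helper38.CycF.gu_card_classes hK n r τ hτ,
      Cfsg.Agent.Lib.Helper38.MCount.card_nonzero_le, hJc]
    · intro g hg
      obtain ⟨μ, hμ0, hμ, hT, hstar⟩ :=
        Cfsg.Agent.Lib.Helper38.CycF.gu_typ_eq_tau p hr hrp σ hσ hσσ n b hb' g hg
      obtain ⟨ν, rfl⟩ := Cfsg.Agent.Lib.Helper38.MCount.exists_dbl_eq _ J hJ μ hstar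
      rw [Cfsg.Agent.Lib.Helper38.MCount.card_dbl] at hμ
      refine ⟨⟨ν, ?_, ?_⟩, hT⟩
      · rintro rfl
        exact hμ0 rfl
      · rw [Nat.le_div_iff_mul_le h2b]
        calc Multiset.card ν * (2 * b) = b * (2 * Multiset.card ν) := by ring
          _ ≤ n := hμ
    · rintro ⟨ν, hν0, hν⟩
      have h3 : Multiset.card ν * (2 * b) ≤ n := (Nat.le_div_iff_mul_le h2b).1 hν
      apply Cfsg.Agent.Lib.Helper38.CycF.gu_exists_of_tau p hr hrp hK σ hσ hσσ n b hb' _
        (Cfsg.Agent.Lib.Helper38.MCount.dbl_ne_zero _ J hν0)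
      · rw [Cfsg.Agent.Lib.Helper38.MCount.card_dbl]
        calc b * (2 * Multiset.card ν) = Multiset.card ν * (2 * b) := by ring
          _ ≤ n := h3
      · exact Cfsg.Agent.Lib.Helper38.MCount.map_dbl _ hinv J ν

end Cfsg.Agent.S2671
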