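import Cfsg.Statements.S2672
import Cfsg.Agent.Lib.Helper38.PGUSetup

set_option autoImplicit false
open Cfsg

namespace Cfsg.Agent.S2672

/-- Number of conjugacy classes of elements of odd prime order r in PGU_n(q) = GU_n(q)/scalars (n ≥ 3) when r divides q + 1: as in the linear case with q − 1 replaced by q + 1, the classes correspond to the rotation orbits on r-tuples of eigenvalue multiplicities summing to n with every entry < n, plus r − 1 further classes when r divides n; in all (C(n+r−1, r−1) − r − [r ∣ n])/r + r·[r ∣ n]. -/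
theorem result {K : Type*} [Field K] [Fintype K] {q n r : ℕ} (hK : Fintype.card K = q ^ 2) (hn : 3 ≤ n) (hr : r.Prime) (hr2 : r ≠ 2) (hrq : r ∣ q + 1) : Nat.card {C : ConjClasses (↥(Cfsg.GU n K q) ⧸ Subgroup.center ↥(Cfsg.GU n K q)) // ∃ g : ↥(Cfsg.GU n K q) ⧸ Subgroup.center ↥(Cfsg.GU n K q), ConjClasses.mk g = C ∧ orderOf g = r} = (Nat.choose (n + r - 1) (r - 1) - r - (if r ∣ n then 1 else 0)) / r + r * (if r ∣ n then 1 else 0) := by
  classical
  have : Fact r.Prime := ⟨hr⟩
  obtain ⟨p, hp⟩ := CharP.exists K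
  have hpp : p.Prime := CharP.char_is_prime K p
  have : Fact p.Prime := ⟨hpp⟩
  have hpq : p ∣ q := by
    have h1 : p ∣ Fintype.card K := by
      rw [← CharP.cast_eq_zero_iff K p]
      exact Nat.cast_card_eq_zero K
    rw [hK] at h1
    exact hpp.dvd_of_dvd_pow h1
  have hrp : r ≠ p := by
    rintro rfl
    have h3 : r ∣ (q + 1) - q := Nat.dvd_sub hrq hpq
    rw [show (q + 1) - q = 1 by omega] at h3
    exact hpp.one_lt.ne' (Nat.dvd_one.1 h3)
  have hq1 : 1 ≤ q := by
    rcases Nat.eq_zero_or_pos q with h | h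
    · rw [h] at hK
      have := Fintype.card_pos (α := K)
      simp at hK
    · exact h
  obtain ⟨ζ, hζ⟩ := exists_prime_orderOf_dvd_card (G := Kˣ) r (by
    rw [Fintype.card_units, hK]
    have h3 : q ^ 2 - 1 = (q + 1) * (q - 1) := by
      obtain ⟨m, rfl⟩ : ∃ m, q = m + 1 := ⟨q - 1, by omega⟩
      simp only [Nat.add_sub_cancel]
      have : (m + 1) ^ 2 = (m + 1 + 1) * m + 1 := by ring
      omega
    rw [h3]
    exact Dvd.dvd.mul_right hrq _)
  have hζ' : IsPrimitiveRoot (ζ : K) r := by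
    rw [IsPrimitiveRoot.coe_units_iff, ← hζ]
    exact IsPrimitiveRoot.orderOf ζ
  exact (Cfsg.Agent.Lib.Helper38.Rot.isSetup_GU p hrp hK (by omega) hr2 hrq ζ hζ').card_classes p hrp
    (by omega)

end Cfsg.Agent.S2672
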