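import Cfsg.Statements.S2673
import Cfsg.Agent.Lib.Helper38.OrthOrderC

set_option autoImplicit false
open Cfsg

namespace Cfsg.Agent.S2673

/-- Number of conjugacy classes of elements of odd prime order r ≠ p in the orthogonal group O_(2m+1)(q) of x_0² + Σ x_j y_j, q odd: with i the multiplicative order of q mod r and t = (r − 1)/i, there are C(⌊m/i⌋ + t/2, t/2) − 1 classes if i is odd (dual pairs of totally singular i-blocks) and C(⌊(2m+1)/i⌋ + t, t) − 1 if i is even (elliptic i-blocks). -/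
theorem result {F : Type*} [Field F] [Fintype F] {p q : ℕ} [Fact p.Prime] [CharP F p] (hF : Fintype.card F = q) (hq : Odd q) (m r i t : ℕ) (hr : r.Prime) (hr2 : r ≠ 2) (hrp : r ≠ p) (hi : i = orderOf (q : ZMod r)) (ht : t * i = r - 1) : Nat.card {C : ConjClasses ↥(Cfsg.isometryGroup F (Cfsg.quadFormOdd m F)) // ∃ g : ↥(Cfsg.isometryGroup F (Cfsg.quadFormOdd m F)), ConjClasses.mk g = C ∧ orderOf g = r} = if Odd i then Nat.choose (m / i + t / 2) (t / 2) - 1 else Nat.choose ((2 * m + 1) / i + t) t - 1 := by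
  classical
  subst hF
  have : Fact r.Prime := ⟨hr⟩
  have hpp : p.Prime := Fact.out
  have h2F : (2 : F) ≠ 0 := by
    apply Ring.two_ne_zero
    intro h
    have h3 := FiniteField.even_card_iff_char_two.1 h
    rcases hq with ⟨k, hk⟩
    omega
  have hrq : ¬ r ∣ Fintype.card F := by
    intro h
    obtain ⟨⟨f, hf0⟩, -, hf⟩ := FiniteField.card F p
    rw [hf] at h
    exact hrp ((Nat.prime_dvd_prime_iff_eq hr hpp).1 (hr.dvd_of_dvd_pow h))
  have hi0 : 0 < i := by
    rw [hi, orderOf_pos_iff, isOfFinOrder_iff_pow_eq_one]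
    refine ⟨r - 1, Nat.sub_pos_of_lt hr.one_lt, ?_⟩
    apply ZMod.pow_card_sub_one_eq_one
    rwa [Ne, ZMod.natCast_eq_zero_iff]
  have hcardI : Fintype.card ↥(Cfsg.Agent.Lib.Helper38.CycF.facs F r) = t := by
    rw [Fintype.card_coe, Cfsg.Agent.Lib.Helper38.CycF.card_facs p hr hrp, ← hi, ← ht,
      Nat.mul_div_cancel _ hi0]
  have hcard2 : Fintype.card (Unit ⊕ (Fin m ⊕ Fin m)) = 2 * m + 1 := by
    simp only [Fintype.card_sum, Fintype.card_fin, Fintype.card_unit]; omega
  have hQ := Cfsg.Agent.Lib.Helper44.oddQF_nondeg m F h2F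
  rw [← Cfsg.Agent.Lib.Helper44.oddQF_coe]
  split_ifs with hodd
  · -- `i` odd: the factors pair off
    have hfix : ∀ P : ↥(Cfsg.Agent.Lib.Helper38.CycF.facs F r),
        Cfsg.Agent.Lib.Helper38.CycF.starI p hr hrp P ≠ P := by
      intro P h
      apply Cfsg.Agent.Lib.Helper38.CycF.starP_ne_of_odd p hr hr2 hrp P.2
        (by rw [Cfsg.Agent.Lib.Helper38.CycF.natDegree_of_mem p hr hrp P.2, ← hi]; exact hodd)
      exact congrArg Subtype.val h
    have hinv : Function.Involutive (Cfsg.Agent.Lib.Helper38.CycF.starI (F := F) p hr hrp) :=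
      Cfsg.Agent.Lib.Helper38.CycF.starI_starI p hr hrp
    obtain ⟨J, hJ, hJcard⟩ := Cfsg.Agent.Lib.Helper38.MCount.exists_transversal _ hinv hfix
    rw [hcardI] at hJcard
    have hJc : Fintype.card ↥J = t / 2 := by
      rw [Fintype.card_coe]
      omega
    let τ : {ν : Multiset ↥J // ν ≠ 0 ∧ Multiset.card ν ≤ m / i} →
        Multiset (Polynomial F × ℕ) := fun ν => Cfsg.Agent.Lib.Helper38.CycF.tau (2 * m + 1) i r
          (Cfsg.Agent.Lib.Helper38.MCount.dbl (Cfsg.Agent.Lib.Helper38.CycF.starI p hr hrp) J ν.1)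
    have hτ : Function.Injective τ := by
      intro ν ν' h
      exact Subtype.ext (Cfsg.Agent.Lib.Helper38.MCount.dbl_injective _ J hJ
        (Cfsg.Agent.Lib.Helper38.CycF.tau_injective p hr hrp (2 * m + 1) i h))
    rw [Cfsg.Agent.Lib.Helper38.CycF.orth_card_classes p hr hr2 hrp hQ τ hτ,
      Cfsg.Agent.Lib.Helper38.MCount.card_nonzero_le, hJc]
    · intro g hg
      obtain ⟨μ, hμ0, hμ, hT, hstar⟩ :=
        Cfsg.Agent.Lib.Helper38.CycF.orth_typ_eq_tau p hr hrp hQ (2 * m + 1) i hcard2 hi g hg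
      obtain ⟨ν, rfl⟩ := Cfsg.Agent.Lib.Helper38.MCount.exists_dbl_eq _ J hJ μ hstar
      rw [Cfsg.Agent.Lib.Helper38.MCount.card_dbl] at hμ
      refine ⟨⟨ν, ?_, ?_⟩, hT⟩
      · rintro rfl
        exact hμ0 rfl
      · rw [Nat.le_div_iff_mul_le hi0]
        have h3 : 2 * (Multiset.card ν * i) ≤ 2 * m + 1 := by
          calc 2 * (Multiset.card ν * i) = i * (2 * Multiset.card ν) := by ring
            _ ≤ 2 * m + 1 := hμ
        omega
    · rintro ⟨ν, hν0, hν⟩
      have h3 : Multiset.card ν * i ≤ m := (Nat.le_div_iff_mul_le hi0).1 hν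
      apply Cfsg.Agent.Lib.Helper38.CycF.oo_exists_of_tau p hr hr2 hrp h2F m i hi _
        (Cfsg.Agent.Lib.Helper38.MCount.dbl_ne_zero _ J hν0)
      · rw [Cfsg.Agent.Lib.Helper38.MCount.card_dbl]
        calc i * (2 * Multiset.card ν) = 2 * (Multiset.card ν * i) := by ring
          _ ≤ 2 * m + 1 := by omega
      · rw [Cfsg.Agent.Lib.Helper38.MCount.card_dbl]
        exact ⟨i * Multiset.card ν, by ring⟩
      · exact Cfsg.Agent.Lib.Helper38.MCount.map_dbl _ hinv J ν
  · -- `i` even: every factor is self-reciprocal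
    have heven : Even i := Nat.not_odd_iff_even.1 hodd
    have hid : ∀ μ : Multiset ↥(Cfsg.Agent.Lib.Helper38.CycF.facs F r),
        μ.map (Cfsg.Agent.Lib.Helper38.CycF.starI p hr hrp) = μ := by
      intro μ
      conv_rhs => rw [← Multiset.map_id μ]
      apply Multiset.map_congr rfl
      intro P _
      exact Subtype.ext (Cfsg.Agent.Lib.Helper38.CycF.starP_eq_of_even p hr hrp P.2
        (by rw [← hi]; exact heven))
    let τ : {μ : Multiset ↥(Cfsg.Agent.Lib.Helper38.CycF.facs F r) //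
        μ ≠ 0 ∧ Multiset.card μ ≤ (2 * m + 1) / i} →
        Multiset (Polynomial F × ℕ) := fun μ => Cfsg.Agent.Lib.Helper38.CycF.tau (2 * m + 1) i r μ.1
    have hτ : Function.Injective τ := by
      intro μ μ' h
      exact Subtype.ext (Cfsg.Agent.Lib.Helper38.CycF.tau_injective p hr hrp (2 * m + 1) i h)
    rw [Cfsg.Agent.Lib.Helper38.CycF.orth_card_classes p hr hr2 hrp hQ τ hτ,
      Cfsg.Agent.Lib.Helper38.MCount.card_nonzero_le, hcardI]
    · intro g hg
      obtain ⟨μ, hμ0, hμ, hT, -⟩ :=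
        Cfsg.Agent.Lib.Helper38.CycF.orth_typ_eq_tau p hr hrp hQ (2 * m + 1) i hcard2 hi g hg
      exact ⟨⟨μ, hμ0, (Nat.le_div_iff_mul_le hi0).2 (by rw [mul_comm]; exact hμ)⟩, hT⟩
    · rintro ⟨μ, hμ0, hμ⟩
      exact Cfsg.Agent.Lib.Helper38.CycF.oo_exists_of_tau p hr hr2 hrp h2F m i hi μ hμ0
        (by rw [mul_comm]; exact (Nat.le_div_iff_mul_le hi0).1 hμ) (heven.mul_right _) (hid μ)

end Cfsg.Agent.S2673
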