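import Cfsg.Statements.S2674
import Cfsg.Agent.Lib.Helper38.QSignD

set_option autoImplicit false
open Cfsg

namespace Cfsg.Agent.S2674

/-- Number of conjugacy classes of elements of odd prime order r ≠ p in the orthogonal group O⁺_2m(q) of Σ x_j y_j (m ≥ 1): with i the multiplicative order of q mod r and t = (r − 1)/i — if i is odd, C(⌊m/i⌋ + t/2, t/2) − 1; if i is even, C(⌊2m/i⌋ + t, t) − 1 minus, when i divides 2m with odd quotient, the C(2m/i + t − 1, t − 1) tuples using the whole space (an odd number of elliptic i-blocks fills an elliptic, not a hyperbolic, space). -/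
theorem result {F : Type*} [Field F] [Fintype F] {p q : ℕ} [Fact p.Prime] [CharP F p] (hF : Fintype.card F = q) (m r i t : ℕ) (hm : 1 ≤ m) (hr : r.Prime) (hr2 : r ≠ 2) (hrp : r ≠ p) (hi : i = orderOf (q : ZMod r)) (ht : t * i = r - 1) : Nat.card {C : ConjClasses ↥(Cfsg.isometryGroup F (Cfsg.quadFormPlus m F)) // ∃ g : ↥(Cfsg.isometryGroup F (Cfsg.quadFormPlus m F)), ConjClasses.mk g = C ∧ orderOf g = r} = if Odd i then Nat.choose (m / i + t / 2) (t / 2) - 1 else Nat.choose (2 * m / i + t) t - 1 - (if i ∣ 2 * m ∧ Odd (2 * m / i) then Nat.choose (2 * m / i + t - 1) (t - 1) else 0) := by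
  classical
  subst hF
  have : Fact r.Prime := ⟨hr⟩
  have hpp : p.Prime := Fact.out
  obtain ⟨n, rfl⟩ : ∃ n, m = n + 1 := ⟨m - 1, by omega⟩
  have hrq : ¬ r ∣ Fintype.card F := by
    intro h
    obtain ⟨⟨f, hf0⟩, -, hf⟩ := FiniteField.card F p
    rw [hf] at h
    exact hrp ((Nat.prime_dvd_prime_iff_eq hr hpp).1 (hr.dvd_of_dvd_pow h))
  have hi0 : 0 < i := by
    rw [hi, orderOf_pos_iff, isOfFinOrder_iff_pow_eq_one]
    refine ⟨r - 1, Nat.sub_pos_of_lt hr.one_lt, ?_⟩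
    apply ZMod.pow_card_sub_one_eq_one
    rwa [Ne, ZMod.natCast_eq_zero_iff]
  have hι : Fintype.card (Fin (n + 1) ⊕ Fin (n + 1)) = 2 * (n + 1) := by
    simp only [Fintype.card_sum, Fintype.card_fin]; omega
  have hQ := Cfsg.Agent.Lib.Helper44.plusQF_nondeg (n + 1) F
  have hpos : 0 < Cfsg.Agent.Lib.Helper38.QCnt.exc ⇑(Cfsg.Agent.Lib.Helper44.plusQF (n + 1) F) := by
    rw [Cfsg.Agent.Lib.Helper38.QCnt.exc_plus]
    exact Cfsg.Agent.Lib.Helper38.QCnt.card_pow_mul_pos n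
  have hfull : Cfsg.Agent.Lib.Helper38.QCnt.FullOK ⇑(Cfsg.Agent.Lib.Helper44.plusQF (n + 1) F) r n
      ↔ i ∣ n + 1 := by
    unfold Cfsg.Agent.Lib.Helper38.QCnt.FullOK
    rw [hi, orderOf_dvd_iff_pow_eq_one]
    constructor
    · intro h
      exact h.1 hpos
    · intro h
      exact ⟨fun _ => h, fun h' => by omega⟩
  have ht1 : 1 ≤ t := by
    have := hr.two_le
    rcases Nat.eq_zero_or_pos t with h | h
    · subst h
      omega
    · exact h
  rw [← Cfsg.Agent.Lib.Helper44.plusQF_coe]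
  split_ifs with hodd hex
  · apply Cfsg.Agent.Lib.Helper38.QCnt.card_classes_odd p hr hr2 hrp hι _ hQ i t hi ht hodd
    intro a ha
    rw [hfull, Cfsg.Agent.Lib.Helper38.QCnt.two_mul_cond]
    exact Cfsg.Agent.Lib.Helper38.QCnt.le_div_iff_and hi0 _ (fun h => ⟨a, h.symm⟩)
  · have heven : Even i := Nat.not_odd_iff_even.1 hodd
    obtain ⟨⟨N, hN⟩, hoddN⟩ := hex
    have hNd : 2 * (n + 1) / i = N := by rw [hN, Nat.mul_div_cancel_left _ hi0]
    rw [hNd] at hoddN ⊢
    have hN1 : 1 ≤ N := hoddN.pos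
    rw [← Cfsg.Agent.Lib.Helper38.QCnt.pascal_sub N t hN1 ht1]
    apply Cfsg.Agent.Lib.Helper38.QCnt.card_classes_even p hr hr2 hrp hι _ hQ i t hi ht heven
    intro a ha
    rw [hfull]
    apply Cfsg.Agent.Lib.Helper38.QCnt.le_pred_iff hi0 ha hN
    rw [Cfsg.Agent.Lib.Helper38.QCnt.dvd_iff_even hi0 hN.symm]
    exact Nat.not_even_iff_odd.2 hoddN
  · have heven : Even i := Nat.not_odd_iff_even.1 hodd
    rw [Nat.sub_zero]
    apply Cfsg.Agent.Lib.Helper38.QCnt.card_classes_even p hr hr2 hrp hι _ hQ i t hi ht heven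
    intro a ha
    rw [hfull]
    apply Cfsg.Agent.Lib.Helper38.QCnt.le_div_iff_and hi0
    intro h
    rw [Cfsg.Agent.Lib.Helper38.QCnt.dvd_iff_even hi0 h]
    by_contra hcon
    apply hex
    refine ⟨⟨a, h.symm⟩, ?_⟩
    rw [← h, Nat.mul_div_cancel_left _ hi0]
    exact Nat.not_even_iff_odd.1 hcon

end Cfsg.Agent.S2674
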