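import Cfsg.Statements.S2675
import Cfsg.Agent.Lib.Helper38.QSignD

set_option autoImplicit false
open Cfsg

namespace Cfsg.Agent.S2675

/-- Number of conjugacy classes of elements of odd prime order r ≠ p in the orthogonal group O⁻_2m(q) of an elliptic form Σ_(j<m−1) x_j y_j + z₁² + a z₁z₂ + c z₂² (binary part anisotropic, m ≥ 1): with i the multiplicative order of q mod r and t = (r − 1)/i — if i is odd, C(⌊m/i⌋ + t/2, t/2) − 1 minus, when i divides m, the C(m/i + t/2 − 1, t/2 − 1) tuples filling the whole space (dual pairs of totally singular blocks fill a hyperbolic space); if i is even, C(⌊2m/i⌋ + t, t) − 1 minus, when i divides 2m with even quotient, the C(2m/i + t − 1, t − 1) tuples filling the whole space with an even number of elliptic blocks. -/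
theorem result {F : Type*} [Field F] [Fintype F] {p q : ℕ} [Fact p.Prime] [CharP F p] (hF : Fintype.card F = q) (m r i t : ℕ) (hm : 1 ≤ m) (a c : F) (hac : ∀ z₁ z₂ : F, z₁ ^ 2 + a * z₁ * z₂ + c * z₂ ^ 2 = 0 → z₁ = 0 ∧ z₂ = 0) (hr : r.Prime) (hr2 : r ≠ 2) (hrp : r ≠ p) (hi : i = orderOf (q : ZMod r)) (ht : t * i = r - 1) : Nat.card {C : ConjClasses ↥(Cfsg.isometryGroup F (Cfsg.quadFormMinus (m - 1) F a c)) // ∃ g : ↥(Cfsg.isometryGroup F (Cfsg.quadFormMinus (m - 1) F a c)), ConjClasses.mk g = C ∧ orderOf g = r} = if Odd i then Nat.choose (m / i + t / 2) (t / 2) - 1 - (if i ∣ m then Nat.choose (m / i + t / 2 - 1) (t / 2 - 1) else 0) else Nat.choose (2 * m / i + t) t - 1 - (if i ∣ 2 * m ∧ Even (2 * m / i) then Nat.choose (2 * m / i + t - 1) (t - 1) else 0) := by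
  classical
  subst hF
  have : Fact r.Prime := ⟨hr⟩
  have hpp : p.Prime := Fact.out
  obtain ⟨n, rfl⟩ : ∃ n, m = n + 1 := ⟨m - 1, by omega⟩
  rw [Nat.add_sub_cancel]
  have hrq : ¬ r ∣ Fintype.card F := by
    intro h
    obtain ⟨⟨f, hf0⟩, -, hf⟩ := FiniteField.card F p
    rw [hf] at h
    exact hrp ((Nat.prime_dvd_prime_iff_eq hr hpp).1 (hr.dvd_of_dvd_pow h))
  have hi0 : 0 < i := by
    rw [hi, orderOf_pos_iff, isOfFinOrder_iff_pow_eq_one]
    refine ⟨r - 1, Nat.sub_pos_of_lt hr.one_lt, ?_⟩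
    apply ZMod.pow_card_sub_one_eq_one
    rwa [Ne, ZMod.natCast_eq_zero_iff]
  have hι := Cfsg.Agent.Lib.Helper43.PO.minus_card' n
  have hQ := Cfsg.Agent.Lib.Helper44.minusQF_nondeg n F hac
  have hneg : Cfsg.Agent.Lib.Helper38.QCnt.exc ⇑(Cfsg.Agent.Lib.Helper44.minusQF n F a c) < 0 := by
    rw [Cfsg.Agent.Lib.Helper38.QCnt.exc_minus n hac]
    have := Cfsg.Agent.Lib.Helper38.QCnt.card_pow_mul_pos (F := F) n
    omega
  have hfull : ∀ b : ℕ, i * b = 2 * (n + 1) →
      (Cfsg.Agent.Lib.Helper38.QCnt.FullOK ⇑(Cfsg.Agent.Lib.Helper44.minusQF n F a c) r n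
      ↔ ¬ i ∣ n + 1) := by
    intro b hb
    unfold Cfsg.Agent.Lib.Helper38.QCnt.FullOK
    have h1 : ((Fintype.card F : ℕ) : ZMod r) ^ (2 * (n + 1)) = 1 := by
      rw [← orderOf_dvd_iff_pow_eq_one, ← hi]
      exact ⟨b, hb.symm⟩
    rw [Cfsg.Agent.Lib.Helper38.QCnt.pow_eq_neg_one_iff hr2 _ h1, hi, orderOf_dvd_iff_pow_eq_one]
    constructor
    · intro h
      exact h.2 hneg
    · intro h
      exact ⟨fun h' => by omega, fun _ => h⟩
  have ht1 : 1 ≤ t := by
    have := hr.two_le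
    rcases Nat.eq_zero_or_pos t with h | h
    · subst h
      omega
    · exact h
  rw [← Cfsg.Agent.Lib.Helper44.minusQF_coe]
  split_ifs with hodd hdiv hex
  · obtain ⟨N, hN⟩ := hdiv
    have hNd : (n + 1) / i = N := by rw [hN, Nat.mul_div_cancel_left _ hi0]
    rw [hNd]
    have hN1 : 1 ≤ N := by
      rcases Nat.eq_zero_or_pos N with h | h
      · subst h
        omega
      · exact h
    have ht2 : 1 ≤ t / 2 := by
      have hrodd := hr.odd_of_ne_two hr2
      have hte : Even t := by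
        have h1 : Even (t * i) := by
          rw [ht]
          obtain ⟨s, hs⟩ := hrodd
          exact ⟨s, by omega⟩
        rcases Nat.even_mul.1 h1 with h | h
        · exact h
        · exact absurd hodd (Nat.not_odd_iff_even.2 h)
      obtain ⟨s, hs⟩ := hte
      omega
    rw [← Cfsg.Agent.Lib.Helper38.QCnt.pascal_sub N (t / 2) hN1 ht2]
    apply Cfsg.Agent.Lib.Helper38.QCnt.card_classes_odd p hr hr2 hrp hι _ hQ i t hi ht hodd
    intro b hb
    rw [Cfsg.Agent.Lib.Helper38.QCnt.two_mul_cond]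
    apply Cfsg.Agent.Lib.Helper38.QCnt.le_pred_iff hi0 hb hN
    rw [hfull (2 * N) (by rw [hN]; ring)]
    intro h
    exact h ⟨N, hN⟩
  · rw [Nat.sub_zero]
    apply Cfsg.Agent.Lib.Helper38.QCnt.card_classes_odd p hr hr2 hrp hι _ hQ i t hi ht hodd
    intro b hb
    rw [Cfsg.Agent.Lib.Helper38.QCnt.two_mul_cond]
    apply Cfsg.Agent.Lib.Helper38.QCnt.le_div_iff_and hi0
    intro h
    exact absurd ⟨b, h.symm⟩ hdiv
  · have heven : Even i := Nat.not_odd_iff_even.1 hodd
    obtain ⟨⟨N, hN⟩, hevenN⟩ := hex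
    have hNd : 2 * (n + 1) / i = N := by rw [hN, Nat.mul_div_cancel_left _ hi0]
    rw [hNd] at hevenN ⊢
    have hN1 : 1 ≤ N := by
      rcases Nat.eq_zero_or_pos N with h | h
      · subst h
        omega
      · exact h
    rw [← Cfsg.Agent.Lib.Helper38.QCnt.pascal_sub N t hN1 ht1]
    apply Cfsg.Agent.Lib.Helper38.QCnt.card_classes_even p hr hr2 hrp hι _ hQ i t hi ht heven
    intro b hb
    apply Cfsg.Agent.Lib.Helper38.QCnt.le_pred_iff hi0 hb hN
    rw [hfull N hN.symm, Cfsg.Agent.Lib.Helper38.QCnt.dvd_iff_even hi0 hN.symm]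
    intro h
    exact h hevenN
  · have heven : Even i := Nat.not_odd_iff_even.1 hodd
    rw [Nat.sub_zero]
    apply Cfsg.Agent.Lib.Helper38.QCnt.card_classes_even p hr hr2 hrp hι _ hQ i t hi ht heven
    intro b hb
    apply Cfsg.Agent.Lib.Helper38.QCnt.le_div_iff_and hi0
    intro h
    rw [hfull b h, Cfsg.Agent.Lib.Helper38.QCnt.dvd_iff_even hi0 h]
    intro hcon
    apply hex
    refine ⟨⟨b, h.symm⟩, ?_⟩
    rw [← h, Nat.mul_div_cancel_left _ hi0]
    exact hcon

end Cfsg.Agent.S2675
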