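import Cfsg.Statements.S2677
import Cfsg.Agent.Lib.Helper38.GUFix
import Cfsg.Agent.S0277

set_option autoImplicit false
open Cfsg
open Cfsg.Agent.Lib.Helper43.PA Cfsg.Agent.Lib.Helper43.PU

namespace Cfsg.Agent.S2677

/-- Centraliser of a field automorphism of odd prime order in PGU_n(q): let q = q₀^r with r an odd prime, K the field with q² elements and σ a field automorphism of K of order r (fixed field of order q₀²). The elements g of GU_n(q) whose entrywise image under σ is a scalar multiple of g — those whose coset modulo the q + 1 unitary scalars is fixed by σ — number (q + 1)/(q₀ + 1) · |GU_n(q₀)|; equivalently the centraliser in PGU_n(q) of the induced automorphism has the order of PGU_n(q₀). -/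
theorem result {K : Type*} [Field K] [Fintype K] {q₀ q r n : ℕ} (hr : r.Prime) (hr2 : r ≠ 2) (hn : 1 ≤ n) (hq : q = q₀ ^ r) (hK : Fintype.card K = q ^ 2) (σ : K ≃+* K) (hσ : orderOf σ = r) : (Nat.card {g : ↥(Cfsg.GU n K q) // ∃ c : K, c ≠ 0 ∧ ((g : GL (Fin n) K) : Matrix (Fin n) (Fin n) K).map σ = c • ((g : GL (Fin n) K) : Matrix (Fin n) (Fin n) K)} : ℤ) = ((q + 1) / (q₀ + 1) : ℕ) * ((q₀ : ℤ) ^ (n * (n - 1) / 2) * ∏ i : Fin n, ((q₀ : ℤ) ^ ((i : ℕ) + 1) - (-1) ^ ((i : ℕ) + 1))) := by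
  classical
  obtain ⟨p, hp⟩ := CharP.exists K
  obtain ⟨e, hpp, he⟩ := FiniteField.card K p
  have : Fact p.Prime := ⟨hpp⟩
  have hq1 : q ≠ 1 := by
    rintro rfl
    have := Fintype.one_lt_card (α := K)
    rw [hK] at this
    norm_num at this
  obtain ⟨f, -, hqf⟩ := (Nat.dvd_prime_pow hpp).1 (show q ∣ p ^ (e : ℕ) by
    rw [← he, hK]; exact Dvd.intro_left (q ^ 1) (by ring))
  have hf : 1 ≤ f := by
    rcases Nat.eq_zero_or_pos f with rfl | h
    · simp at hqf; exact absurd hqf hq1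
    · exact h
  obtain ⟨j, -, hq0j⟩ := (Nat.dvd_prime_pow hpp).1 (show q₀ ∣ p ^ f by
    rw [← hqf, hq]; exact dvd_pow_self _ hr.pos.ne')
  have hfj : f = j * r := by
    have : p ^ f = p ^ (j * r) := by rw [← hqf, hq, hq0j, pow_mul]
    exact Nat.pow_right_injective hpp.two_le this
  have hK' : Fintype.card K = p ^ (2 * f) := by rw [hK, hqf, ← pow_mul, mul_comm]
  have : Fintype (fixK σ) := Fintype.ofFinite _
  have hF₀ : Fintype.card (fixK σ) = q₀ ^ 2 := by
    rw [Fintype.card_eq_nat_card, card_fixK hK' (by omega) σ, hσ, hq0j, ← pow_mul, hfj]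
    congr 1
    rw [← mul_assoc, Nat.mul_div_cancel _ hr.pos, mul_comm]
  have hodd : Odd (orderOf σ) := by rw [hσ]; exact hr.odd_of_ne_two hr2
  have hrodd : Odd r := hr.odd_of_ne_two hr2
  have hpow : ∀ y : fixK σ, y ^ q = y ^ q₀ := by
    intro y
    obtain ⟨k, hk⟩ := hrodd
    rw [hq, hk]
    exact pow_q_odd hF₀ k y
  have hT := Cfsg.Agent.Lib.Helper38.GUFix.card_T hqf hf hK σ hodd hF₀ (fixK σ).subtype hpow
    (fixK_iff σ) hn
  have hcard : Nat.card {g : ↥(Cfsg.GU n K q) // ∃ c : K, c ≠ 0 ∧ ((g : GL (Fin n) K) : Matrix (Fin n) (Fin n) K).map σ = c • ((g : GL (Fin n) K) : Matrix (Fin n) (Fin n) K)} =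
      Nat.card (Cfsg.Agent.Lib.Helper38.GUFix.T σ : Subgroup ↥(Cfsg.GU n K q)) :=
    Nat.card_congr (Equiv.subtypeEquivRight fun g =>
      (Cfsg.Agent.Lib.Helper38.GUFix.mem_T_iff σ g).symm)
  obtain ⟨m, hm⟩ : q₀ + 1 ∣ q + 1 := by
    have := Odd.nat_add_dvd_pow_add_pow q₀ 1 hrodd
    rwa [one_pow, ← hq] at this
  have hdiv : (q + 1) / (q₀ + 1) = m := by
    rw [hm]; exact Nat.mul_div_cancel_left m (by omega)
  have hT' : Nat.card (Cfsg.Agent.Lib.Helper38.GUFix.T σ : Subgroup ↥(Cfsg.GU n K q)) =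
      m * Nat.card ↥(Cfsg.GU n (fixK σ) q₀) := by
    have : Nat.card (Cfsg.Agent.Lib.Helper38.GUFix.T σ : Subgroup ↥(Cfsg.GU n K q)) * (q₀ + 1) =
        (m * Nat.card ↥(Cfsg.GU n (fixK σ) q₀)) * (q₀ + 1) := by
      rw [hT, hm]; ring
    exact Nat.eq_of_mul_eq_mul_right (by omega) this
  have hq0pos : 1 ≤ q₀ := by
    rcases Nat.eq_zero_or_pos q₀ with rfl | h
    · rw [zero_pow hr.pos.ne'] at hq
      subst hq
      have := Fintype.card_pos (α := K)
      rw [hK] at this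
      norm_num at this
    · exact h
  rw [hcard, hT', hdiv, Cfsg.Agent.S0277.result hF₀ n]
  push_cast
  congr 2
  rw [← Fin.prod_univ_eq_prod_range (fun x => (if Even x then (q₀ : ℤ) ^ (x + 1) + 1 else ((q₀ ^ (x + 1) - 1 : ℕ) : ℤ))) n]
  apply Finset.prod_congr rfl
  intro i _
  have h1 : 1 ≤ q₀ ^ ((i : ℕ) + 1) := Nat.one_le_pow _ _ hq0pos
  split_ifs with hi
  · rw [Odd.neg_one_pow (Even.add_one hi)]
    ring
  · rw [Even.neg_one_pow (Nat.not_even_iff_odd.1 hi).add_one, Nat.cast_sub h1]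
    push_cast
    ring

end Cfsg.Agent.S2677
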