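import Cfsg.Statements.S2678
import Cfsg.Agent.Lib.Helper45.FiniteFieldEmb
import Cfsg.Agent.Lib.Helper45.DescMat
import Cfsg.Agent.Lib.Helper45.Symp

set_option autoImplicit false
open Cfsg

namespace Cfsg.Agent.S2678

open Matrix Cfsg.Agent.Lib.Helper45

section

variable {F K : Type*} [Field F] [Field K] [Algebra F K]

/-- coordinates: `inl`-entries in the basis `b`, `inr`-entries in the basis `b'`. -/
noncomputable def T₀ (a : ℕ) (b b' : Module.Basis (Fin 2) F K) :
    (Fin a ⊕ Fin a → K) →ₗ[F] (Fin (2 * a) ⊕ Fin (2 * a) → F) where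
  toFun u := Sum.elim
    (fun k => b.repr (u (.inl (finProdFinEquiv.symm k).2)) (finProdFinEquiv.symm k).1)
    (fun k => b'.repr (u (.inr (finProdFinEquiv.symm k).2)) (finProdFinEquiv.symm k).1)
  map_add' u v := by
    ext x
    rcases x with x | x <;> simp
  map_smul' t v := by
    ext x
    rcases x with x | x <;> simp

theorem T₀_injective (a : ℕ) (b b' : Module.Basis (Fin 2) F K) :
    Function.Injective (T₀ a b b') := by
  rw [injective_iff_map_eq_zero]
  intro u hu
  ext x
  rcases x with j | j
  · have : b.repr (u (.inl j)) = 0 := by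
      ext s
      have := congrFun hu (.inl (finProdFinEquiv (s, j)))
      simp only [T₀, LinearMap.coe_mk, AddHom.coe_mk, Sum.elim_inl, Equiv.symm_apply_apply] at this
      exact this
    simpa using this
  · have : b'.repr (u (.inr j)) = 0 := by
      ext s
      have := congrFun hu (.inr (finProdFinEquiv (s, j)))
      simp only [T₀, LinearMap.coe_mk, AddHom.coe_mk, Sum.elim_inr, Equiv.symm_apply_apply] at this
      exact this
    simpa using this

theorem trace_mul_eq (b b' : Module.Basis (Fin 2) F K)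
    (hbb : ∀ s t, Algebra.trace F K (b s * b' t) = if s = t then 1 else 0) (x y : K) :
    Algebra.trace F K (x * y) = ∑ s, b.repr x s * b'.repr y s := by
  conv_lhs => rw [← b.sum_repr x, ← b'.sum_repr y]
  simp only [Finset.sum_mul, Finset.mul_sum, map_sum, smul_mul_smul_comm, map_smul, hbb]
  simp

theorem form_T₀ (a : ℕ) (b b' : Module.Basis (Fin 2) F K)
    (hbb : ∀ s t, Algebra.trace F K (b s * b' t) = if s = t then 1 else 0)
    (u v : Fin a ⊕ Fin a → K) :
    (T₀ a b b' u) ⬝ᵥ (J (Fin (2 * a)) F *ᵥ (T₀ a b b' v))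
      = Algebra.trace F K (u ⬝ᵥ (J (Fin a) K *ᵥ v)) := by
  rw [dotProduct_J_mulVec, dotProduct_J_mulVec, map_sub, map_sum, map_sum]
  have e1 : ∀ f : Fin 2 × Fin a → F, ∑ k : Fin (2 * a), f (finProdFinEquiv.symm k)
      = ∑ j : Fin a, ∑ s : Fin 2, f (s, j) := by
    intro f
    rw [Equiv.sum_comp finProdFinEquiv.symm f, Fintype.sum_prod_type_right]
  congr 1
  · simp only [T₀, LinearMap.coe_mk, AddHom.coe_mk, Sum.elim_inl, Sum.elim_inr]
    rw [e1 (fun p => b'.repr (u (.inr p.2)) p.1 * b.repr (v (.inl p.2)) p.1)]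
    refine Finset.sum_congr rfl fun j _ => ?_
    rw [mul_comm (u _), trace_mul_eq b b' hbb]
    refine Finset.sum_congr rfl fun s _ => ?_
    ring
  · simp only [T₀, LinearMap.coe_mk, AddHom.coe_mk, Sum.elim_inl, Sum.elim_inr]
    rw [e1 (fun p => b.repr (u (.inl p.2)) p.1 * b'.repr (v (.inr p.2)) p.1)]
    refine Finset.sum_congr rfl fun j _ => ?_
    rw [trace_mul_eq b b' hbb]

end

theorem main {K F : Type*} [Field K] [Fintype K] [Field F] [Fintype F]
    (hK : Fintype.card K = Fintype.card F ^ 2) (a : ℕ) :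
    ∃ φ : ↥(Matrix.symplecticGroup (Fin a) K) →* ↥(Matrix.symplecticGroup (Fin (2 * a)) F),
      Function.Injective φ := by
  obtain ⟨i⟩ := exists_ringHom_of_card_pow hK
  let _ : Algebra F K := i.toAlgebra
  have hfr : Module.finrank F K = 2 := by
    have h := Module.card_eq_pow_finrank (K := F) (V := K)
    rw [hK] at h
    exact (Nat.pow_right_injective (Fintype.one_lt_card (α := F)) h).symm
  have : FiniteDimensional F K := Module.finite_of_finrank_pos (by omega)
  let b : Module.Basis (Fin 2) F K := Module.finBasisOfFinrankEq F K hfr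
  have hB := traceForm_nondegenerate F K
  let b' : Module.Basis (Fin 2) F K := (Algebra.traceForm F K).dualBasis hB b
  have hbb : ∀ s t, Algebra.trace F K (b s * b' t) = if s = t then 1 else 0 := by
    intro s t
    exact LinearMap.BilinForm.apply_dualBasis_right hB (Algebra.traceForm_isSymm F) b s t
  let T : (Fin a ⊕ Fin a → K) ≃ₗ[F] (Fin (2 * a) ⊕ Fin (2 * a) → F) :=
    LinearMap.linearEquivOfInjective (T₀ a b b') (T₀_injective a b b') (by
      rw [Module.finrank_pi_fintype]
      simp only [Module.finrank_fintype_fun_eq_card, Fintype.card_sum, Fintype.card_fin, hfr]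
      simp
      ring)
  have hT : ∀ u v, (T u) ⬝ᵥ (J (Fin (2 * a)) F *ᵥ (T v))
      = Algebra.trace F K (u ⬝ᵥ (J (Fin a) K *ᵥ v)) := fun u v => form_T₀ a b b' hbb u v
  have hmem : ∀ g : ↥(Matrix.symplecticGroup (Fin a) K),
      descMat T g.1 ∈ Matrix.symplecticGroup (Fin (2 * a)) F := by
    intro g
    rw [mem_symplecticGroup_iff_form]
    intro x y
    rw [descMat_mulVec, descMat_mulVec, hT, (mem_symplecticGroup_iff_form g.1).1 g.2, ← hT,
      LinearEquiv.apply_symm_apply, LinearEquiv.apply_symm_apply]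
  refine ⟨MonoidHom.mk' (fun g => ⟨descMat T g.1, hmem g⟩) ?_, ?_⟩
  · intro g h
    apply Subtype.ext
    exact map_mul (descMat T) g.1 h.1
  · intro g h hgh
    apply Subtype.ext
    exact descMat_injective T (congrArg Subtype.val hgh)

/-- Field-extension embedding of symplectic groups: for a field K with q² elements and a field F with q elements there is an injective homomorphism Sp_2a(K) → Sp_4a(F). -/
theorem result {K F : Type*} [Field K] [Fintype K] [Field F] [Fintype F] {q : ℕ} (hK : Fintype.card K = q ^ 2) (hF : Fintype.card F = q) (a : ℕ) : ∃ φ : ↥(Matrix.symplecticGroup (Fin a) K) →* ↥(Matrix.symplecticGroup (Fin (2 * a)) F), Function.Injective φ := by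
  subst hF
  exact main hK a

end Cfsg.Agent.S2678
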