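import Cfsg.Statements.S2679
import Cfsg.Agent.Lib.Helper45.FiniteFieldEmb
import Cfsg.Agent.Lib.Helper45.QuadBaseChange
import Cfsg.Agent.Lib.Helper45.DescMat

set_option autoImplicit false
open Cfsg

namespace Cfsg.Agent.S2679

open Matrix Cfsg.Agent.Lib.Helper45

theorem mem_isometryGroup {ι : Type} [Fintype ι] [DecidableEq ι] {F : Type*} [Field F]
    (Q : (ι → F) → F) (g : Matrix.GeneralLinearGroup ι F) :
    g ∈ Cfsg.isometryGroup F Q ↔ ∀ u, Q ((g : Matrix ι ι F) *ᵥ u) = Q u :=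
  ⟨fun h u => h u u, fun h u _ => h u⟩

/-- Gram-type matrix of the minus form. -/
def Amat (n : ℕ) (R : Type*) [CommRing R] (a c : R) :
    Matrix ((Fin n ⊕ Fin n) ⊕ Fin 2) ((Fin n ⊕ Fin n) ⊕ Fin 2) R :=
  fromBlocks (fromBlocks 0 1 0 0) 0 0 !![1, a; 0, c]

theorem quadFormMinus_eq (n : ℕ) (R : Type*) [Field R] (a c : R)
    (v : (Fin n ⊕ Fin n) ⊕ Fin 2 → R) :
    Cfsg.quadFormMinus n R a c v = v ⬝ᵥ (Amat n R a c *ᵥ v) := by
  simp only [Cfsg.quadFormMinus, Amat, dotProduct, mulVec, Fintype.sum_sum_type, fromBlocks_apply₁₁,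
    fromBlocks_apply₁₂, fromBlocks_apply₂₁, fromBlocks_apply₂₂, Fin.sum_univ_two, Matrix.zero_apply,
    Matrix.one_apply]
  simp
  ring

theorem Amat_map (n : ℕ) {F K : Type*} [CommRing F] [CommRing K] (i : F →+* K) (a c : F) :
    (Amat n F a c).map i = Amat n K (i a) (i c) := by
  ext x y
  rcases x with (x | x) | x <;> rcases y with (y | y) | y <;>
    simp [Amat, one_apply, apply_ite i]
  all_goals (fin_cases x <;> fin_cases y <;> simp)

/-- The change of variables splitting the binary part. -/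
def T₀ (n : ℕ) (K : Type*) [Field K] (r r' : K) :
    ((Fin n ⊕ Fin n) ⊕ Fin 2 → K) →ₗ[K] (Fin (n + 1) ⊕ Fin (n + 1) → K) where
  toFun v := Sum.elim
    (Fin.cons (v (.inr 0) - r * v (.inr 1)) (fun j => v (.inl (.inl j))))
    (Fin.cons (v (.inr 0) - r' * v (.inr 1)) (fun j => v (.inl (.inr j))))
  map_add' u v := by
    ext x
    rcases x with x | x <;> refine Fin.cases ?_ (fun j => ?_) x <;> simp <;> ring
  map_smul' t v := by
    ext x
    rcases x with x | x <;> refine Fin.cases ?_ (fun j => ?_) x <;> simp <;> ring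

theorem T₀_injective (n : ℕ) (K : Type*) [Field K] (r r' : K) (hr : r ≠ r') :
    Function.Injective (T₀ n K r r') := by
  rw [injective_iff_map_eq_zero]
  intro v hv
  have h1 : ∀ j, v (.inl (.inl j)) = 0 := fun j => by
    simpa [T₀] using congrFun hv (.inl j.succ)
  have h2 : ∀ j, v (.inl (.inr j)) = 0 := fun j => by
    simpa [T₀] using congrFun hv (.inr j.succ)
  have h3 : v (.inr 0) - r * v (.inr 1) = 0 := by
    simpa [T₀] using congrFun hv (.inl 0)
  have h4 : v (.inr 0) - r' * v (.inr 1) = 0 := by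
    simpa [T₀] using congrFun hv (.inr 0)
  have h5 : v (.inr 1) = 0 := by
    have : (r - r') * v (.inr 1) = 0 := by linear_combination h4 - h3
    exact (mul_eq_zero.1 this).resolve_left (sub_ne_zero.2 hr)
  have h6 : v (.inr 0) = 0 := by rw [h5] at h3; simpa using h3
  ext x
  rcases x with (x | x) | x
  · exact h1 x
  · exact h2 x
  · fin_cases x
    · exact h6
    · exact h5

theorem quadFormPlus_T₀ (n : ℕ) (K : Type*) [Field K] (r r' a c : K) (h1 : r + r' = -a)
    (h2 : r * r' = c) (v : (Fin n ⊕ Fin n) ⊕ Fin 2 → K) :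
    Cfsg.quadFormPlus (n + 1) K (T₀ n K r r' v) = Cfsg.quadFormMinus n K a c v := by
  simp only [Cfsg.quadFormPlus, Cfsg.quadFormMinus, T₀, LinearMap.coe_mk, AddHom.coe_mk,
    Sum.elim_inl, Sum.elim_inr, Fin.sum_univ_succ, Fin.cons_zero, Fin.cons_succ]
  have ha : a = -(r + r') := by rw [h1, neg_neg]
  rw [ha, ← h2]
  ring

/-- roots of the binary part in the quadratic extension -/
theorem exists_roots {F K : Type*} [Field F] [Fintype F] [Field K] [Fintype K]
    (hK : Fintype.card K = Fintype.card F ^ 2) (i : F →+* K) (a c : F)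
    (hac : ∀ z₁ z₂ : F, z₁ ^ 2 + a * z₁ * z₂ + c * z₂ ^ 2 = 0 → z₁ = 0 ∧ z₂ = 0) :
    ∃ r r' : K, r + r' = -(i a) ∧ r * r' = i c ∧ r ≠ r' := by
  have hno : ∀ z : F, z ^ 2 + a * z + c ≠ 0 := by
    intro z hz
    have := (hac z 1 (by linear_combination hz)).2
    exact one_ne_zero this
  obtain ⟨r, hr⟩ := exists_root_quadratic hK i a c hno
  refine ⟨r, -(i a) - r, by ring, by linear_combination -hr, ?_⟩
  intro heq
  have h2r : 2 * r = -(i a) := by linear_combination heq
  by_cases h2 : (2 : F) = 0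
  · -- characteristic two
    have h2K : (2 : K) = 0 := by
      have := congrArg i h2
      rwa [map_ofNat, map_zero] at this
    have ha : a = 0 := by
      have : i a = 0 := by
        rw [h2K, zero_mul] at h2r
        exact neg_eq_zero.1 h2r.symm
      exact (map_eq_zero i).1 this
    have hch : ringChar F = 2 := by
      by_contra h
      exact Ring.two_ne_zero h h2
    obtain ⟨s, hs⟩ := FiniteField.isSquare_of_char_two hch c
    apply hno s
    rw [ha, hs]
    linear_combination (s * s) * h2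
  · have h2K : (2 : K) ≠ 0 := by
      intro h
      apply h2
      apply i.injective
      rwa [map_ofNat, map_zero]
    apply hno (-a / 2)
    apply i.injective
    have hr' : r = i (-a / 2) := by
      rw [map_div₀, map_neg, map_ofNat]
      field_simp
      linear_combination h2r
    rw [map_add, map_add, map_pow, map_mul, ← hr', map_zero]
    exact hr

theorem main {F K : Type*} [Field F] [Fintype F] [Field K] [Fintype K]
    (hK : Fintype.card K = Fintype.card F ^ 2) (n : ℕ) (a c : F)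
    (hac : ∀ z₁ z₂ : F, z₁ ^ 2 + a * z₁ * z₂ + c * z₂ ^ 2 = 0 → z₁ = 0 ∧ z₂ = 0) :
    ∃ φ : ↥(Cfsg.isometryGroup F (Cfsg.quadFormMinus n F a c)) →*
      ↥(Cfsg.isometryGroup K (Cfsg.quadFormPlus (n + 1) K)), Function.Injective φ := by
  obtain ⟨i⟩ := exists_ringHom_of_card_pow hK
  obtain ⟨r, r', h1, h2, hne⟩ := exists_roots hK i a c hac
  let T : ((Fin n ⊕ Fin n) ⊕ Fin 2 → K) ≃ₗ[K] (Fin (n + 1) ⊕ Fin (n + 1) → K) :=
    LinearMap.linearEquivOfInjective (T₀ n K r r') (T₀_injective n K r r' hne) (by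
      simp only [Module.finrank_fintype_fun_eq_card, Fintype.card_sum, Fintype.card_fin]
      ring)
  have hT : ∀ v, Cfsg.quadFormPlus (n + 1) K (T v) = Cfsg.quadFormMinus n K (i a) (i c) v :=
    fun v => quadFormPlus_T₀ n K r r' (i a) (i c) h1 h2 v
  let Φ : Matrix ((Fin n ⊕ Fin n) ⊕ Fin 2) ((Fin n ⊕ Fin n) ⊕ Fin 2) F →*
      Matrix (Fin (n + 1) ⊕ Fin (n + 1)) (Fin (n + 1) ⊕ Fin (n + 1)) K :=
    (descMat T).comp (RingHom.mapMatrix i).toMonoidHom
  have hΦinj : Function.Injective Φ := by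
    intro M N h
    have := descMat_injective T h
    ext x y
    have h3 := congrFun (congrFun this x) y
    exact i.injective h3
  let ψ : ↥(Cfsg.isometryGroup F (Cfsg.quadFormMinus n F a c)) →*
      Matrix.GeneralLinearGroup (Fin (n + 1) ⊕ Fin (n + 1)) K :=
    (Units.map Φ).comp (Subgroup.subtype _)
  have hψ : ∀ g, ψ g ∈ Cfsg.isometryGroup K (Cfsg.quadFormPlus (n + 1) K) := by
    intro g
    rw [mem_isometryGroup]
    intro u
    have hg := (mem_isometryGroup _ _).1 g.2
    have hval : (ψ g).1 *ᵥ u = T ((g.1.1.map i) *ᵥ T.symm u) := descMat_mulVec T _ u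
    show Cfsg.quadFormPlus (n + 1) K ((ψ g).1 *ᵥ u) = _
    rw [hval, hT, quadFormMinus_eq, ← Amat_map]
    rw [quad_baseChange i (Amat n F a c) _ (by
      intro v
      rw [← quadFormMinus_eq, ← quadFormMinus_eq]
      exact hg v)]
    rw [Amat_map, ← quadFormMinus_eq, ← hT, LinearEquiv.apply_symm_apply]
  refine ⟨ψ.codRestrict _ hψ, ?_⟩
  intro g h hgh
  have h3 : ψ g = ψ h := congrArg Subtype.val hgh
  have h4 : Φ g.1.1 = Φ h.1.1 := congrArg Units.val h3
  exact Subtype.ext (Units.ext (hΦinj h4))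

/-- An elliptic orthogonal group embeds in the hyperbolic orthogonal group of the same dimension over the quadratic extension. -/
theorem result {F K : Type*} [Field F] [Fintype F] [Field K] [Fintype K] {q : ℕ} (hF : Fintype.card F = q) (hK : Fintype.card K = q ^ 2) {m : ℕ} (hm : 1 ≤ m) (a c : F) (hac : ∀ z₁ z₂ : F, z₁ ^ 2 + a * z₁ * z₂ + c * z₂ ^ 2 = 0 → z₁ = 0 ∧ z₂ = 0) : ∃ φ : ↥(Cfsg.isometryGroup F (Cfsg.quadFormMinus (m - 1) F a c)) →* ↥(Cfsg.isometryGroup K (Cfsg.quadFormPlus m K)), Function.Injective φ := by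
  obtain ⟨n, rfl⟩ : ∃ n, m = n + 1 := ⟨m - 1, by omega⟩
  subst hF
  exact main hK n a c hac

end Cfsg.Agent.S2679
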