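import Cfsg.Statements.S2698
import Cfsg.Agent.Lib.Helper43.PA.FieldCent

set_option autoImplicit false
open Cfsg
open Cfsg.Agent.Lib.Helper43.PA

namespace Cfsg.Agent.S2698

/-- Let T = PSL_n(F) be simple over the field F with p^f elements (n ≥ 2; p^f ≥ 4 when n = 2), G = Inndiag(T) the image of PGL_n(F) in Aut(T), and x a field automorphism of T of prime order r. Then r divides f; the centralizer C_G(x) is isomorphic to PGL_n(F₀) for the subfield size |F₀| = p^(f/r); and the G-class of x is the union of exactly gcd(n, (p^f − 1)/(p^(f/r) − 1)) classes under conjugation by T (the inner automorphism group). -/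
theorem result {F : Type*} [Field F] [Fintype F] {p f : ℕ} [Fact p.Prime] (hF : Fintype.card F = p ^ f) (hf : 1 ≤ f) {n : ℕ} (hn : 2 ≤ n) (hs : n = 2 → 4 ≤ Fintype.card F) (x : MulAut (Matrix.ProjectiveSpecialLinearGroup (Fin n) F)) (hx : Cfsg.IsFieldAutClassPSL x) {r : ℕ} (hr : r.Prime) (hxr : orderOf x = r) (F₀ : Type*) [Field F₀] [Fintype F₀] (hF₀ : Fintype.card F₀ = p ^ (f / r)) :
    r ∣ f ∧ Nonempty (↥(Cfsg.inndiagPSL n F ⊓ Subgroup.centralizer {x}) ≃* Matrix.ProjGenLinGroup (Fin n) F₀) ∧ Cfsg.splitClassCount (Cfsg.inndiagPSL n F) (Cfsg.Inn (Matrix.ProjectiveSpecialLinearGroup (Fin n) F)) x = Nat.gcd n ((p ^ f - 1) / (p ^ (f / r) - 1)) := by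
  rw [inndiagPSL_eq]
  obtain ⟨α, σ, hσ, hstd⟩ := hx
  have e1 := eq_fA_of_isStd hstd
  have hord : orderOf σ = r := by
    rw [← orderOf_injective fA (fA_injective hn) σ, ← e1, orderOf_conj', hxr]
  have hD := range_cG_normal hF hf hn
  refine ⟨hord ▸ orderOf_dvd_of_card hF σ, ?_, ?_⟩
  · obtain ⟨ι, hι⟩ := exists_embedding hF hf σ F₀ (by rw [hF₀, hord])
    obtain ⟨E1⟩ := centralizer_conj_equiv (cG : Matrix.GeneralLinearGroup (Fin n) F →* _).range α x
    rw [e1] at E1
    obtain ⟨E2⟩ := cent_fA_equiv (n := n) (by omega) σ (by rw [hord]; exact hr.pos) ι hι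
    exact ⟨E1.trans E2⟩
  · rw [← splitClassCount_conj _ _ α x, e1, split_fA hF hf (by omega) σ, hord]

end Cfsg.Agent.S2698
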