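import Cfsg.Statements.S2699
import Cfsg.Agent.Lib.Helper44.GraphOdd

set_option autoImplicit false
open Cfsg

namespace Cfsg.Agent.S2699

open Cfsg.Agent.Lib.Helper44

/-- Let T = PSL_n(F) over the field with p^f elements with n ≥ 3 odd, n = 2m + 1, and G = Inndiag(T) the image of PGL_n(F). Every involutory graph automorphism γ of T (an inner-diagonal automorphism followed by inverse-transpose, of order 2) has centralizer C_G(γ) isomorphic to the projective conformal orthogonal group of the form x₀² + Σ xᵢ yᵢ in dimension n (for q even this group is isomorphic to Sp_{n−1}(q)), and any two involutory graph automorphisms are G-conjugate. -/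
theorem result {F : Type*} [Field F] [Fintype F] {p f : ℕ} [Fact p.Prime] (hF : Fintype.card F = p ^ f) (hf : 1 ≤ f) {n : ℕ} (hn : 3 ≤ n) {m : ℕ} (hnm : n = 2 * m + 1) (γ γ' : MulAut (Matrix.ProjectiveSpecialLinearGroup (Fin n) F)) (hγ : Cfsg.IsGraphAutClassPSL γ) (hγ2 : orderOf γ = 2) (hγ' : Cfsg.IsGraphAutClassPSL γ') (hγ'2 : orderOf γ' = 2) :
    Nonempty (↥(Cfsg.inndiagPSL n F ⊓ Subgroup.centralizer {γ}) ≃* Cfsg.PGO F (Cfsg.quadFormOdd m F)) ∧ Cfsg.IsConjUnder (Cfsg.inndiagPSL n F) γ γ' := by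
  classical
  have hn1 : 1 ≤ n := by omega
  have hoddn : Odd n := ⟨m, hnm⟩
  obtain ⟨A, rfl⟩ := exists_gr_of_isGraph hγ
  obtain ⟨A', rfl⟩ := exists_gr_of_isGraph hγ'
  let e : Unit ⊕ (Fin m ⊕ Fin m) ≃ Fin n := Fintype.equivFinOfCardEq (by simp; omega)
  by_cases h2 : (2 : F) = 0
  · haveI : CharP F 2 := CharTwo.of_one_ne_zero_of_two_eq_zero one_ne_zero h2
    have hperf : ∀ x : F, ∃ y, y * y = x := perfect_of_char_two
    have hneg : ∀ (M : Matrix (Fin n) (Fin n) F), -M = M := by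
      intro M
      ext i j
      rw [Matrix.neg_apply, CharTwo.neg_eq]
    have hsym : ∀ B : GL (Fin n) F, orderOf (gr B) = 2 → B.1.transpose = B.1 := by
      intro B hB
      rcases transpose_of_orderOf_gr hn1 hB with h | h
      · exact h
      · rw [h, hneg]
    have hna : ∀ B : GL (Fin n) F, ∃ x, dotProduct x (B.1.mulVec x) ≠ 0 := by
      intro B
      by_contra hcon
      push Not at hcon
      exact (Nat.not_even_iff_odd.2 hoddn) (even_of_alt B hcon)
    refine ⟨?_, conj_of_nonalt hperf hn1 (hsym A hγ2) (hna A) (hsym A' hγ'2) (hna A')⟩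
    let A₀ : GL (Fin n) F := reGL e (M0GL m F)
    have hA₀ : A₀.1.transpose = A₀.1 := by
      rw [reGL_transpose, M0GL_coe, M0_transpose]
      rfl
    obtain ⟨f1⟩ := cent_equiv_of_isConjUnder _
      (conj_of_nonalt hperf hn1 (hsym A hγ2) (hna A) hA₀ (hna A₀))
    obtain ⟨f2⟩ := cent_gr_equiv_two hperf hn1 e (spBlock m F) spBlock_injective (M0 m F) A₀ rfl
      mem_range_spBlock
    obtain ⟨f3⟩ := Cfsg.Agent.S0304.result (F := F) m
    obtain ⟨f4⟩ := pgo_odd_equiv_two (F := F) hperf m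
    exact ⟨((f1.trans f2).trans f3.symm).trans f4.symm⟩
  · have hsym : ∀ B : GL (Fin n) F, orderOf (gr B) = 2 → B.1.transpose = B.1 := by
      intro B hB
      rcases transpose_of_orderOf_gr hn1 hB with h | h
      · exact h
      · exact absurd h (not_skew_of_odd h2 hoddn B)
    refine ⟨?_, conj_of_sym_odd h2 hn1 hoddn (hsym A hγ2) (hsym A' hγ'2)⟩
    obtain ⟨f1⟩ := cent_equiv_of_isConjUnder _ (conj_of_sym_odd h2 hn1 hoddn (hsym A hγ2)
      (reGL_gram_transpose e (oddQF m F) (oddQF_nondeg m F h2)))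
    obtain ⟨f2⟩ := cent_grQ h2 hn1 e (oddQF m F) (oddQF_nondeg m F h2)
    rw [oddQF_coe] at f2
    exact ⟨f1.trans f2⟩

end Cfsg.Agent.S2699
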