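import Cfsg.Statements.S2700
import Cfsg.Agent.Lib.Helper44.GraphStd

set_option autoImplicit false
open Cfsg

namespace Cfsg.Agent.S2700

open Cfsg.Agent.Lib.Helper44

/-- Let T = PSL_n(F) over a finite field of odd order with n = 2m ≥ 4 even, and G = Inndiag(T) the image of PGL_n(F). The involutory graph automorphisms of T fall into exactly three G-classes, with representatives γ₁, γ₂, γ₃ whose centralizers in G are isomorphic respectively to the projective conformal symplectic group PGSp_n(F), the projective conformal orthogonal group of the plus-type form Σ xᵢ yᵢ, and that of a minus-type form Σ xᵢ yᵢ + z₁² + a z₁ z₂ + b z₂² (anisotropic binary part) in dimension n. -/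
theorem result {F : Type*} [Field F] [Fintype F] (hodd : Odd (Fintype.card F)) {n m : ℕ} (hm : 2 ≤ m) (hnm : n = 2 * m) :
    ∃ (γ₁ γ₂ γ₃ : MulAut (Matrix.ProjectiveSpecialLinearGroup (Fin n) F)) (a b : F), (∀ z₁ z₂ : F, z₁ ^ 2 + a * z₁ * z₂ + b * z₂ ^ 2 = 0 → z₁ = 0 ∧ z₂ = 0) ∧ Cfsg.IsGraphAutClassPSL γ₁ ∧ orderOf γ₁ = 2 ∧ Cfsg.IsGraphAutClassPSL γ₂ ∧ orderOf γ₂ = 2 ∧ Cfsg.IsGraphAutClassPSL γ₃ ∧ orderOf γ₃ = 2 ∧ ¬ Cfsg.IsConjUnder (Cfsg.inndiagPSL n F) γ₁ γ₂ ∧ ¬ Cfsg.IsConjUnder (Cfsg.inndiagPSL n F) γ₁ γ₃ ∧ ¬ Cfsg.IsConjUnder (Cfsg.inndiagPSL n F) γ₂ γ₃ ∧ (∀ γ : MulAut (Matrix.ProjectiveSpecialLinearGroup (Fin n) F), Cfsg.IsGraphAutClassPSL γ → orderOf γ = 2 → Cfsg.IsConjUnder (Cfsg.inndiagPSL n F) γ₁ γ ∨ Cfsg.IsConjUnder (Cfsg.inndiagPSL n F) γ₂ γ ∨ Cfsg.IsConjUnder (Cfsg.inndiagPSL n F) γ₃ γ) ∧ Nonempty (↥(Cfsg.inndiagPSL n F ⊓ Subgroup.centralizer {γ₁}) ≃* Cfsg.PGSp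 m F) ∧ Nonempty (↥(Cfsg.inndiagPSL n F ⊓ Subgroup.centralizer {γ₂}) ≃* Cfsg.PGO F (Cfsg.quadFormPlus m F)) ∧ Nonempty (↥(Cfsg.inndiagPSL n F ⊓ Subgroup.centralizer {γ₃}) ≃* Cfsg.PGO F (Cfsg.quadFormMinus (m - 1) F a b)) := by
  classical
  have h2 : (2 : F) ≠ 0 := two_ne_zero_of_odd_card hodd
  have hn1 : 1 ≤ n := by omega
  have hn3 : 3 ≤ n := by omega
  have hev : Even n := ⟨m, by omega⟩
  obtain ⟨a, b, hab⟩ := exists_anisotropic (F := F) h2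
  let e₁ : Fin m ⊕ Fin m ≃ Fin n := Fintype.equivFinOfCardEq (by simp; omega)
  let e₃ : (Fin (m - 1) ⊕ Fin (m - 1)) ⊕ Fin 2 ≃ Fin n := Fintype.equivFinOfCardEq (by simp; omega)
  let A₁ : GL (Fin n) F := reGL e₁ (JGL m F)
  let A₂ : GL (Fin n) F := reGL e₁ (gramGL (plusQF m F) (plusQF_nondeg m F))
  let A₃ : GL (Fin n) F := reGL e₃ (gramGL (minusQF (m - 1) F a b) (minusQF_nondeg (m - 1) F hab))
  have hA₁ : A₁.1.transpose = -A₁.1 := reGL_J_transpose e₁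
  have hA₂ : A₂.1.transpose = A₂.1 := reGL_gram_transpose e₁ _ _
  have hA₃ : A₃.1.transpose = A₃.1 := reGL_gram_transpose e₃ _ _
  have hd₂ : A₂.1.det = (-1) ^ m := by
    rw [reGL_det, gramGL_coe, gramM_plus_det]
  have hd₃ : A₃.1.det = (-1) ^ m * (a ^ 2 - 4 * b) := by
    rw [reGL_det, gramGL_coe, gramM_minus_det, Nat.sub_add_cancel (by omega)]
  have hns : ¬ IsSquare (A₂.1.det * A₃.1.det) := by
    rw [hd₂, hd₃]
    have h1 : (-1 : F) ^ m * ((-1) ^ m * (a ^ 2 - 4 * b)) = a ^ 2 - 4 * b := by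
      rw [← mul_assoc, ← mul_pow]
      simp
    rw [h1]
    exact not_isSquare_disc_of_anisotropic h2 hab
  refine ⟨gr A₁, gr A₂, gr A₃, a, b, hab, isGraph_gr hn3 _, orderOf_gr hn3 (Or.inr hA₁),
    isGraph_gr hn3 _, orderOf_gr hn3 (Or.inl hA₂), isGraph_gr hn3 _, orderOf_gr hn3 (Or.inl hA₃),
    not_conj_skew_sym h2 hn1 hA₁ hA₂, not_conj_skew_sym h2 hn1 hA₁ hA₃,
    fun h => hns (isSquare_det_of_conj hn1 hev h), ?_, cent_grJ hn1 e₁, ?_, ?_⟩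
  · intro γ hγ hγ2
    obtain ⟨A, rfl⟩ := exists_gr_of_isGraph hγ
    rcases transpose_of_orderOf_gr hn1 hγ2 with hA | hA
    · by_cases hs : IsSquare (A₂.1.det * A.1.det)
      · exact Or.inr (Or.inl (conj_of_sym h2 hn1 hA₂ hA hs))
      · refine Or.inr (Or.inr (conj_of_sym h2 hn1 hA₃ hA ?_))
        obtain ⟨r, hr⟩ := Cfsg.Agent.Lib.Helper14.isSquare_mul_of_not F hns hs
        have hd0 : A₂.1.det ≠ 0 := ((Matrix.isUnit_iff_isUnit_det _).1 A₂.isUnit).ne_zero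
        refine ⟨r / A₂.1.det, ?_⟩
        field_simp
        linear_combination hr
    · exact Or.inl (conj_of_skew h2 hn1 hA₁ hA)
  · have := cent_grQ h2 hn1 e₁ (plusQF m F) (plusQF_nondeg m F)
    rwa [plusQF_coe] at this
  · have := cent_grQ h2 hn1 e₃ (minusQF (m - 1) F a b) (minusQF_nondeg (m - 1) F hab)
    rwa [minusQF_coe] at this

end Cfsg.Agent.S2700
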