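import Cfsg.Statements.S2701
import Cfsg.Agent.Lib.Helper44.GraphTwoSp

set_option autoImplicit false
open Cfsg

namespace Cfsg.Agent.S2701

open Cfsg.Agent.Lib.Helper44

/-- Let T = PSL_n(F) over a finite field of characteristic 2 with n = 2m ≥ 4 even, and G = Inndiag(T) the image of PGL_n(F). The involutory graph automorphisms of T fall into exactly two G-classes, with representatives γ₁ and γ₃ whose centralizers in G are isomorphic respectively to the symplectic group Sp_n(F) and to the centralizer in Sp_n(F) of a symplectic transvection. -/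
theorem result {F : Type*} [Field F] [Fintype F] [CharP F 2] {n m : ℕ} (hm : 2 ≤ m) (hnm : n = 2 * m) :
    ∃ (γ₁ γ₃ : MulAut (Matrix.ProjectiveSpecialLinearGroup (Fin n) F)) (t : ↥(Matrix.symplecticGroup (Fin m) F)), Cfsg.IsTransvection (t : Matrix (Fin m ⊕ Fin m) (Fin m ⊕ Fin m) F) ∧ Cfsg.IsGraphAutClassPSL γ₁ ∧ orderOf γ₁ = 2 ∧ Cfsg.IsGraphAutClassPSL γ₃ ∧ orderOf γ₃ = 2 ∧ ¬ Cfsg.IsConjUnder (Cfsg.inndiagPSL n F) γ₁ γ₃ ∧ (∀ γ : MulAut (Matrix.ProjectiveSpecialLinearGroup (Fin n) F), Cfsg.IsGraphAutClassPSL γ → orderOf γ = 2 → Cfsg.IsConjUnder (Cfsg.inndiagPSL n F) γ₁ γ ∨ Cfsg.IsConjUnder (Cfsg.inndiagPSL n F) γ₃ γ) ∧ Nonempty (↥(Cfsg.inndiagPSL n F ⊓ Subgroup.centralizer {γ₁}) ≃* ↥(Matrix.symplecticGroup (Fin m) F)) ∧ Nonempty (↥(Cfsg.inndiagPSL n F ⊓ Subgroup.centralizer {γ₃}) ≃* ↥(Subgroup.centralizer ({t} : Set ↥(Matrix.symplecticGroup (Fin m) F)))) := by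
  classical
  have hperf : ∀ x : F, ∃ y, y * y = x := perfect_of_char_two
  have hneg : ∀ {κ : Type} (M : Matrix κ κ F), -M = M := by
    intro κ M
    ext i j
    rw [Matrix.neg_apply, CharTwo.neg_eq]
  have hn1 : 1 ≤ n := by omega
  have hn3 : 3 ≤ n := by omega
  let i₀ : Fin m := ⟨0, by omega⟩
  let e : Fin m ⊕ Fin m ≃ Fin n := Fintype.equivFinOfCardEq (by simp; omega)
  let A₁ : GL (Fin n) F := reGL e (JGL m F)
  let A₃ : GL (Fin n) F := reGL e (JDGL F i₀)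
  have hA₁ : A₁.1.transpose = -A₁.1 := reGL_J_transpose e
  have hA₃c : A₃.1 = Matrix.reindex e e (Matrix.J (Fin m) F + tvD F i₀) := by
    rw [reGL_coe, JDGL_coe]
  have hA₃ : A₃.1.transpose = A₃.1 := by
    rw [reGL_transpose, reGL_coe, JDGL_coe, Matrix.transpose_add, Matrix.J_transpose, tvD_transpose,
      hneg]
  have halt₁ : ∀ x, dotProduct x (A₁.1.mulVec x) = 0 := by
    intro x
    rw [reGL_coe, reindex_bilin, JGL_coe, J_alt]
  have hna₃ : ∃ x, dotProduct x (A₃.1.mulVec x) ≠ 0 := by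
    refine ⟨(Pi.single (Sum.inr i₀) 1 : Fin m ⊕ Fin m → F) ∘ e.symm, ?_⟩
    rw [hA₃c, reindex_bilin, JD_bilin, J_alt]
    simp
  refine ⟨gr A₁, gr A₃, tvSp F i₀, isTransvection_tvSp i₀, isGraph_gr hn3 _,
    orderOf_gr hn3 (Or.inr hA₁), isGraph_gr hn3 _, orderOf_gr hn3 (Or.inl hA₃), ?_, ?_, ?_, ?_⟩
  · intro h
    obtain ⟨x, hx⟩ := hna₃
    exact hx (alt_of_conj hn1 halt₁ h x)
  · intro γ hγ hγ2
    obtain ⟨A, rfl⟩ := exists_gr_of_isGraph hγ
    have hA : A.1.transpose = A.1 := by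
      rcases transpose_of_orderOf_gr hn1 hγ2 with hA | hA
      · exact hA
      · rw [hA, hneg]
    by_cases halt : ∀ x, dotProduct x (A.1.mulVec x) = 0
    · exact Or.inl (conj_of_alt hn1 halt₁ halt)
    · push Not at halt
      exact Or.inr (conj_of_nonalt hperf hn1 hA₃ hna₃ hA halt)
  · exact cent_gr_equiv_two hperf hn1 e (spToGL m F) spToGL_injective (Matrix.J (Fin m) F) A₁ rfl
      mem_range_spToGL
  · exact cent_gr_equiv_two hperf hn1 e
      ((spToGL m F).comp (Subgroup.centralizer {tvSp F i₀}).subtype)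
      (spToGL_injective.comp Subtype.val_injective) (Matrix.J (Fin m) F + tvD F i₀) A₃ hA₃c
      (mem_range_cent_iff i₀)

end Cfsg.Agent.S2701
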