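import Cfsg.Statements.S2702
import Cfsg.Agent.Lib.Helper44.GraphPSLCard

set_option autoImplicit false
open Cfsg

namespace Cfsg.Agent.S2702

open Cfsg.Agent.Lib.Helper44

/-- Let T = PSL_n(F) over the field with q = p^f elements, n ≥ 3, G = Inndiag(T) the image of PGL_n(F), and γ an involutory graph automorphism of T. The G-class of γ is the union of exactly c T-classes, where: if n is even and q is odd, c = gcd(n/2, q − 1) when C_G(γ) is isomorphic to the projective conformal symplectic group PGSp_n(F) (symplectic type) and c = gcd(n, q − 1)/2 otherwise; and c = gcd(n, q − 1) when n is odd or q is even. -/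
theorem result {F : Type*} [Field F] [Fintype F] {p f : ℕ} [Fact p.Prime] (hF : Fintype.card F = p ^ f) (hf : 1 ≤ f) {n : ℕ} (hn : 3 ≤ n) (γ : MulAut (Matrix.ProjectiveSpecialLinearGroup (Fin n) F)) (hγ : Cfsg.IsGraphAutClassPSL γ) (hγ2 : orderOf γ = 2) :
    ((Even n ∧ Odd p ∧ Nonempty (↥(Cfsg.inndiagPSL n F ⊓ Subgroup.centralizer {γ}) ≃* Cfsg.PGSp (n / 2) F)) → Cfsg.splitClassCount (Cfsg.inndiagPSL n F) (Cfsg.Inn (Matrix.ProjectiveSpecialLinearGroup (Fin n) F)) γ = Nat.gcd (n / 2) (p ^ f - 1)) ∧ ((Even n ∧ Odd p ∧ ¬ Nonempty (↥(Cfsg.inndiagPSL n F ⊓ Subgroup.centralizer {γ}) ≃* Cfsg.PGSp (n / 2) F)) → Cfsg.splitClassCount (Cfsg.inndiagPSL n F) (Cfsg.Inn (Matrix.ProjectiveSpecialLinearGroup (Fin n) F)) γ = Nat.gcd n (p ^ f - 1) / 2) ∧ (¬ (Even n ∧ Odd p) → Cfsg.splitClassCount (Cfsg.inndiagPSL n F) (Cfsg.Inn (Matrix.ProjectiveSpecialLinearGroup (Fin n) F)) γ = Nat.gcd n (p ^ f - 1)) := by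
  classical
  have hn1 : 1 ≤ n := by omega
  obtain ⟨A, rfl⟩ := exists_gr_of_isGraph hγ
  rw [split_eq_index hn1]
  have hcardU : Nat.card Fˣ = p ^ f - 1 := by
    rw [Nat.card_eq_fintype_card, Fintype.card_units, hF]
  have hidx : ∀ k, (powMonoidHom k : Fˣ →* Fˣ).range.index = Nat.gcd k (p ^ f - 1) := by
    intro k
    have := Cfsg.Agent.Lib.Helper43.PA.cyclic_index k (⊥ : Subgroup Fˣ)
    rwa [sup_bot_eq, Subgroup.index_bot, hcardU] at this
  have hT := transpose_of_orderOf_gr hn1 hγ2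
  have hcommon : ∀ (hev : Even n) (hp : Odd p),
      ((A.1.transpose = -A.1 ∧ Nonempty (↥(Cfsg.inndiagPSL n F ⊓ Subgroup.centralizer {gr A}) ≃* Cfsg.PGSp (n / 2) F) ∧
          (DA A).index = Nat.gcd (n / 2) (p ^ f - 1)) ∨
        (¬ Nonempty (↥(Cfsg.inndiagPSL n F ⊓ Subgroup.centralizer {gr A}) ≃* Cfsg.PGSp (n / 2) F) ∧
          (DA A).index = Nat.gcd n (p ^ f - 1) / 2)) := by
    intro hev hp
    have hodd : Odd (Fintype.card F) := by rw [hF]; exact hp.pow
    have h2 : (2 : F) ≠ 0 := two_ne_zero_of_odd_card hodd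
    obtain ⟨m, hm⟩ := hev
    have hnm : n = 2 * m := by omega
    have hn2 : n / 2 = m := by omega
    have hm1 : 1 ≤ m := by omega
    rw [hn2]
    let e₁ : Fin m ⊕ Fin m ≃ Fin n := Fintype.equivFinOfCardEq (by simp; omega)
    let e₃ : (Fin (m - 1) ⊕ Fin (m - 1)) ⊕ Fin 2 ≃ Fin n := Fintype.equivFinOfCardEq (by simp; omega)
    rcases hT with hA | hA
    · right
      obtain ⟨a, b, hab⟩ := exists_anisotropic (F := F) h2
      have hneg : (-1 : Fˣ) ∈ DA A ∧
          ¬ Nonempty (↥(Cfsg.inndiagPSL n F ⊓ Subgroup.centralizer {gr A}) ≃* Cfsg.PGSp m F) := by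
        rcases sym_cases h2 hm1 hnm e₁ e₃ hab A hA with hc | hc
        · refine ⟨?_, ?_⟩
          · rw [← DA_eq_of_conj hc]
            exact neg_one_mem_DA_gram hn1 _ _ _
          · rintro ⟨f0⟩
            obtain ⟨f1⟩ := cent_equiv_of_isConjUnder _ hc
            obtain ⟨f2⟩ := cent_grQ h2 hn1 e₁ (plusQF m F) (plusQF_nondeg m F)
            rw [plusQF_coe] at f2
            exact (not_iso_plus hodd m hm1).false ((f2.symm.trans f1).trans f0)
        · refine ⟨?_, ?_⟩
          · rw [← DA_eq_of_conj hc]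
            exact neg_one_mem_DA_gram hn1 _ _ _
          · rintro ⟨f0⟩
            obtain ⟨f1⟩ := cent_equiv_of_isConjUnder _ hc
            obtain ⟨f2⟩ := cent_grQ h2 hn1 e₃ (minusQF (m - 1) F a b) (minusQF_nondeg (m - 1) F hab)
            rw [minusQF_coe] at f2
            have hiso := not_iso_minus hodd (m - 1) hab
            rw [Nat.sub_add_cancel hm1] at hiso
            exact hiso.false ((f2.symm.trans f1).trans f0)
      refine ⟨hneg.2, ?_⟩
      rw [DA_sym h2 hn1 hnm A hA hneg.1, Cfsg.Agent.Lib.Helper43.PA.cyclic_index]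
      have h3 := index_zpowers_neg_one (F := F) h2
      rw [hcardU] at h3
      rw [← h3, hnm, Nat.gcd_mul_left, Nat.mul_div_cancel_left _ (by norm_num)]
    · left
      refine ⟨hA, ?_, ?_⟩
      · obtain ⟨f1⟩ := cent_equiv_of_isConjUnder _ (conj_of_skew h2 hn1 hA (reGL_J_transpose e₁))
        obtain ⟨f2⟩ := cent_grJ (F := F) hn1 e₁
        exact ⟨f1.trans f2⟩
      · rw [DA_alt hn1 hnm A (alt_of_skew h2 hA), hidx]
  refine ⟨?_, ?_, ?_⟩
  · rintro ⟨hev, hp, hiso⟩
    rcases hcommon hev hp with ⟨-, -, h⟩ | ⟨h, -⟩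
    · exact h
    · exact absurd hiso h
  · rintro ⟨hev, hp, hiso⟩
    rcases hcommon hev hp with ⟨-, h, -⟩ | ⟨-, h⟩
    · exact absurd h hiso
    · exact h
  · intro hnot
    by_cases hev : Even n
    · have hp : ¬ Odd p := fun hp => hnot ⟨hev, hp⟩
      have hp2 : p = 2 := by
        rcases (Fact.out : p.Prime).eq_two_or_odd' with h | h
        · exact h
        · exact absurd h hp
      have h2 : (2 : F) = 0 := by
        have h3 : ((Fintype.card F : ℕ) : F) = 0 := Nat.cast_card_eq_zero F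
        rw [hF, hp2] at h3
        push_cast at h3
        exact pow_eq_zero_iff (by omega) |>.1 h3
      have : CharP F 2 := CharTwo.of_one_ne_zero_of_two_eq_zero one_ne_zero h2
      rw [DA_two perfect_of_char_two hn1, hidx]
    · rw [DA_odd hn1 (Nat.not_even_iff_odd.1 hev), hidx]

end Cfsg.Agent.S2702
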