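import Cfsg.Statements.S2703
import Cfsg.Agent.Lib.Helper44.GraphStd

set_option autoImplicit false
open Cfsg

namespace Cfsg.Agent.S2703

open Cfsg.Agent.Lib.Helper44

/-- Let T = PSL_n(F) over the field with q elements, q odd, n = 2m ≥ 4 even, and ι the inverse-transpose automorphism. Its centralizer in G = Inndiag(T) (the image of PGL_n(F)) is isomorphic to the projective conformal orthogonal group of the plus-type form Σ xᵢ yᵢ in dimension n when n(q − 1)/4 is even, and to that of a minus-type form (Σ xᵢ yᵢ + z₁² + a z₁ z₂ + b z₂² with anisotropic binary part) when n(q − 1)/4 is odd. -/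
theorem result {F : Type*} [Field F] [Fintype F] (hodd : Odd (Fintype.card F)) {n m : ℕ} (hm : 2 ≤ m) (hnm : n = 2 * m) (ι : MulAut (Matrix.ProjectiveSpecialLinearGroup (Fin n) F)) (hι : Cfsg.IsInverseTransposeAutPSL ι) :
    (Even (n * (Fintype.card F - 1) / 4) → Nonempty (↥(Cfsg.inndiagPSL n F ⊓ Subgroup.centralizer {ι}) ≃* Cfsg.PGO F (Cfsg.quadFormPlus m F))) ∧ (¬ Even (n * (Fintype.card F - 1) / 4) → ∃ a b : F, (∀ z₁ z₂ : F, z₁ ^ 2 + a * z₁ * z₂ + b * z₂ ^ 2 = 0 → z₁ = 0 ∧ z₂ = 0) ∧ Nonempty (↥(Cfsg.inndiagPSL n F ⊓ Subgroup.centralizer {ι}) ≃* Cfsg.PGO F (Cfsg.quadFormMinus (m - 1) F a b))) := by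
  classical
  have h2 : (2 : F) ≠ 0 := two_ne_zero_of_odd_card hodd
  have hn1 : 1 ≤ n := by omega
  have hι' : ι = gr 1 := by
    rw [← gam_eq_gr]
    exact Cfsg.Agent.Lib.Helper43.PA.eq_gam_of_isInvT hι
  subst hι'
  have h1T : (1 : GL (Fin n) F).1.transpose = (1 : GL (Fin n) F).1 := by
    rw [Units.val_one, Matrix.transpose_one]
  have h1d : (1 : GL (Fin n) F).1.det = 1 := by
    rw [Units.val_one, Matrix.det_one]
  have key : Even (n * (Fintype.card F - 1) / 4) ↔ IsSquare ((-1 : F) ^ m) := by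
    obtain ⟨j, hj⟩ := hodd
    have h3 : n * (Fintype.card F - 1) / 4 = m * j := by
      rw [hj, hnm]
      have : 2 * m * (2 * j + 1 - 1) = (m * j) * 4 := by
        rw [Nat.add_sub_cancel]; ring
      rw [this, Nat.mul_div_cancel _ (by norm_num)]
    rw [h3, Nat.even_mul]
    rcases Nat.even_or_odd m with hm' | hm'
    · rw [hm'.neg_one_pow]
      exact ⟨fun _ => IsSquare.one, fun _ => Or.inl hm'⟩
    · rw [hm'.neg_one_pow, FiniteField.isSquare_neg_one_iff, hj]
      constructor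
      · rintro (h | h)
        · exact absurd h (Nat.not_even_iff_odd.2 hm')
        · obtain ⟨k, hk⟩ := h
          omega
      · intro h
        right
        rw [Nat.even_iff]
        omega
  let e₁ : Fin m ⊕ Fin m ≃ Fin n := Fintype.equivFinOfCardEq (by simp; omega)
  let e₃ : (Fin (m - 1) ⊕ Fin (m - 1)) ⊕ Fin 2 ≃ Fin n := Fintype.equivFinOfCardEq (by simp; omega)
  constructor
  · intro hE
    let A₂ : GL (Fin n) F := reGL e₁ (gramGL (plusQF m F) (plusQF_nondeg m F))
    have hA₂ : A₂.1.transpose = A₂.1 := reGL_gram_transpose e₁ _ _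
    have hd₂ : A₂.1.det = (-1) ^ m := by
      rw [reGL_det, gramGL_coe, gramM_plus_det]
    have hc := conj_of_sym h2 hn1 hA₂ h1T (by rw [hd₂, h1d, mul_one]; exact key.1 hE)
    obtain ⟨f1⟩ := cent_equiv_of_isConjUnder _ hc
    obtain ⟨f2⟩ := cent_grQ h2 hn1 e₁ (plusQF m F) (plusQF_nondeg m F)
    rw [plusQF_coe] at f2
    exact ⟨f1.symm.trans f2⟩
  · intro hE
    obtain ⟨a, b, hab⟩ := exists_anisotropic (F := F) h2
    refine ⟨a, b, hab, ?_⟩
    let A₃ : GL (Fin n) F := reGL e₃ (gramGL (minusQF (m - 1) F a b) (minusQF_nondeg (m - 1) F hab))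
    have hA₃ : A₃.1.transpose = A₃.1 := reGL_gram_transpose e₃ _ _
    have hd₃ : A₃.1.det = (-1) ^ m * (a ^ 2 - 4 * b) := by
      rw [reGL_det, gramGL_coe, gramM_minus_det, Nat.sub_add_cancel (by omega)]
    have hc := conj_of_sym h2 hn1 hA₃ h1T (by
      rw [hd₃, h1d, mul_one]
      exact Cfsg.Agent.Lib.Helper14.isSquare_mul_of_not F (fun h => hE (key.2 h))
        (not_isSquare_disc_of_anisotropic h2 hab))
    obtain ⟨f1⟩ := cent_equiv_of_isConjUnder _ hc
    obtain ⟨f2⟩ := cent_grQ h2 hn1 e₃ (minusQF (m - 1) F a b) (minusQF_nondeg (m - 1) F hab)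
    rw [minusQF_coe] at f2
    exact ⟨f1.symm.trans f2⟩

end Cfsg.Agent.S2703
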