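import Cfsg.Statements.S2704
import Cfsg.Agent.Lib.Helper43.PA.GFCent

set_option autoImplicit false
open Cfsg
open Cfsg.Agent.Lib.Helper43.PA

namespace Cfsg.Agent.S2704

/-- Let T = PSL_n(F) over the field F with p^f elements, n ≥ 3, and G = Inndiag(T) the image of PGL_n(F). If x is an involutory graph-field automorphism of T then f is even; x is G-conjugate to every other involutory graph-field automorphism; C_G(x) is isomorphic to the projective general unitary group PGU_n(q₀) with q₀² = p^f, realised over F itself through the Hermitian form Σ uᵢ vᵢ^{q₀}; and the G-class of x is the union of exactly gcd(n, q₀ − 1) T-classes. -/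
theorem result {F : Type*} [Field F] [Fintype F] {p f : ℕ} [Fact p.Prime] (hF : Fintype.card F = p ^ f) (hf : 1 ≤ f) {n : ℕ} (hn : 3 ≤ n) (x : MulAut (Matrix.ProjectiveSpecialLinearGroup (Fin n) F)) (hx : Cfsg.IsGraphFieldAutClassPSL x) (hx2 : orderOf x = 2) :
    Even f ∧ (∀ y : MulAut (Matrix.ProjectiveSpecialLinearGroup (Fin n) F), Cfsg.IsGraphFieldAutClassPSL y → orderOf y = 2 → Cfsg.IsConjUnder (Cfsg.inndiagPSL n F) x y) ∧ Nonempty (↥(Cfsg.inndiagPSL n F ⊓ Subgroup.centralizer {x}) ≃* Cfsg.PGU n F (p ^ (f / 2))) ∧ Cfsg.splitClassCount (Cfsg.inndiagPSL n F) (Cfsg.Inn (Matrix.ProjectiveSpecialLinearGroup (Fin n) F)) x = Nat.gcd n (p ^ (f / 2) - 1) := by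
  rw [inndiagPSL_eq]
  have hx' := hx
  obtain ⟨hn3, α, φ, γ, σ, hσ, hstd, hγ, e⟩ := hx
  rw [eq_fA_of_isStd hstd, eq_gam_of_isInvT hγ] at e
  have hord0 : orderOf (fA σ * gam : MulAut (Matrix.ProjectiveSpecialLinearGroup (Fin n) F)) = 2 := by
    rw [← e, orderOf_conj', hx2]
  obtain ⟨-, hσ2⟩ := gf_order hn3 σ Nat.prime_two hord0
  have hord : orderOf σ = 2 := orderOf_eq_prime (by rw [sq]; exact hσ2) hσ
  have hdvd : 2 ∣ f := hord ▸ orderOf_dvd_of_card hF σ
  have hFq : Fintype.card F = (p ^ (f / 2)) ^ 2 := by rw [hF, ← pow_mul, Nat.div_mul_cancel hdvd]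
  have hq := invol_eq_pow hFq σ hσ hσ2
  have hD := range_cG_normal hF hf (n := n) (by omega)
  refine ⟨even_iff_two_dvd.2 hdvd, ?_, ?_, ?_⟩
  · intro y hy hy2
    obtain ⟨-, β, φ', γ', σ', hσ', hstd', hγ', e'⟩ := hy
    rw [eq_fA_of_isStd hstd', eq_gam_of_isInvT hγ'] at e'
    have hord0' : orderOf (fA σ' * gam : MulAut (Matrix.ProjectiveSpecialLinearGroup (Fin n) F)) = 2 := by
      rw [← e', orderOf_conj', hy2]
    obtain ⟨-, hσ2'⟩ := gf_order hn3 σ' Nat.prime_two hord0'
    have hq' := invol_eq_pow hFq σ' hσ' hσ2'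
    have hσσ : σ' = σ := by
      ext t
      rw [hq, hq']
    rw [hσσ, ← e] at e'
    obtain ⟨θ, -, hθ⟩ := theta_three hF hf hn
    have hcyc := isCyclic_ringAut (F := F)
    have hcomm : ∀ a b : (F ≃+* F) × Multiplicative (ZMod 2), a * b = b * a := by
      intro a b
      apply Prod.ext
      · exact (IsCyclic.commGroup (α := F ≃+* F)).mul_comm a.1 b.1
      · exact mul_comm a.2 b.2
    have h1 : θ y = θ x := by
      have h2 := congrArg θ e'
      simp only [map_mul, map_inv] at h2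
      rwa [hcomm (θ β), mul_inv_cancel_right, hcomm (θ α), mul_inv_cancel_right] at h2
    have hmem : y * x⁻¹ ∈ (cG : Matrix.GeneralLinearGroup (Fin n) F →* _).range := by
      rw [← hθ, MonoidHom.mem_ker, map_mul, map_inv, h1, mul_inv_cancel]
    obtain ⟨h, hh, eh⟩ := coset_conj hF hf (by omega) x (y * x⁻¹) (Or.inr hx') Nat.prime_two hx2 hmem
      (by rw [inv_mul_cancel_right]; exact hy2)
    rw [inv_mul_cancel_right] at eh
    exact ⟨h, hh, eh⟩
  · obtain ⟨E1⟩ := centralizer_conj_equiv (cG : Matrix.GeneralLinearGroup (Fin n) F →* _).range α x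
    rw [e] at E1
    obtain ⟨E2⟩ := cent_gf_equiv (n := n) (by omega) σ hσ hσ2 hq
    exact ⟨E1.trans E2⟩
  · rw [← splitClassCount_conj _ _ α x, e, split_gf hF hf (by omega) σ hσ hσ2]

end Cfsg.Agent.S2704
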