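import Cfsg.Statements.S2707
import Cfsg.Agent.Lib.Helper44.GraphPSUTr
import Cfsg.Agent.S2700

set_option autoImplicit false
open Cfsg

namespace Cfsg.Agent.S2707

open Cfsg.Agent.Lib.Helper44

/-- Let T = PSU_n(q) with n = 2m ≥ 4 even and q odd, realised over the field F with q² elements, and G = Inndiag(T) the image of PGU_n(q). The involutory graph automorphisms of T fall into exactly three G-classes, with representatives whose centralizers in G are isomorphic respectively to the projective conformal symplectic group PGSp_n(F₀), the projective conformal orthogonal group of the plus-type form Σ xᵢ yᵢ, and that of a minus-type form Σ xᵢ yᵢ + z₁² + a z₁ z₂ + b z₂² (anisotropic binary part) in dimension n, all over a field F₀ with q elements. -/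
theorem result {F : Type*} [Field F] [Fintype F] {q : ℕ} (hodd : Odd q) (hF : Fintype.card F = q ^ 2) {n m : ℕ} (hm : 2 ≤ m) (hnm : n = 2 * m) (F₀ : Type*) [Field F₀] [Fintype F₀] (hF₀ : Fintype.card F₀ = q) :
    ∃ (γ₁ γ₂ γ₃ : MulAut (Cfsg.PSU n F q)) (a b : F₀), (∀ z₁ z₂ : F₀, z₁ ^ 2 + a * z₁ * z₂ + b * z₂ ^ 2 = 0 → z₁ = 0 ∧ z₂ = 0) ∧ Cfsg.IsGraphAutClassPSU γ₁ ∧ orderOf γ₁ = 2 ∧ Cfsg.IsGraphAutClassPSU γ₂ ∧ orderOf γ₂ = 2 ∧ Cfsg.IsGraphAutClassPSU γ₃ ∧ orderOf γ₃ = 2 ∧ ¬ Cfsg.IsConjUnder (Cfsg.inndiagPSU n F q) γ₁ γ₂ ∧ ¬ Cfsg.IsConjUnder (Cfsg.inndiagPSU n F q) γ₁ γ₃ ∧ ¬ Cfsg.IsConjUnder (Cfsg.inndiagPSU n F q) γ₂ γ₃ ∧ (∀ γ : MulAut (Cfsg.PSU n F q), Cfsg.IsGraphAutClassPSU γ → orderOf γ = 2 → Cfsg.IsConjUnder (Cfsg.inndiagPSU n F q) γ₁ γ ∨ Cfsg.IsConjUnder (Cfsg.inndiagPSU n F q) γ₂ γ ∨ Cfsg.IsConjUnder (Cfsg.inndiagPSU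 n F q) γ₃ γ) ∧ Nonempty (↥(Cfsg.inndiagPSU n F q ⊓ Subgroup.centralizer {γ₁}) ≃* Cfsg.PGSp m F₀) ∧ Nonempty (↥(Cfsg.inndiagPSU n F q ⊓ Subgroup.centralizer {γ₂}) ≃* Cfsg.PGO F₀ (Cfsg.quadFormPlus m F₀)) ∧ Nonempty (↥(Cfsg.inndiagPSU n F q ⊓ Subgroup.centralizer {γ₃}) ≃* Cfsg.PGO F₀ (Cfsg.quadFormMinus (m - 1) F₀ a b)) := by
  obtain ⟨ι, hι⟩ := exists_iota hF F₀ hF₀
  have hn : 3 ≤ n := by omega
  obtain ⟨δ₁, δ₂, δ₃, a, b, hab, hg1, ho1, hg2, ho2, hg3, ho3, h12, h13, h23, hall, e1, e2, e3⟩ :=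
    Cfsg.Agent.S2700.result (F := F₀) (by rw [hF₀]; exact hodd) hm hnm
  obtain ⟨γ₁, hG1, hO1, hR1⟩ := grel_of_L hι hn δ₁ hg1 ho1
  obtain ⟨γ₂, hG2, hO2, hR2⟩ := grel_of_L hι hn δ₂ hg2 ho2
  obtain ⟨γ₃, hG3, hO3, hR3⟩ := grel_of_L hι hn δ₃ hg3 ho3
  obtain ⟨e1⟩ := e1
  obtain ⟨e2⟩ := e2
  obtain ⟨e3⟩ := e3
  obtain ⟨c1⟩ := grel_cent hι hn hR1
  obtain ⟨c2⟩ := grel_cent hι hn hR2
  obtain ⟨c3⟩ := grel_cent hι hn hR3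
  refine ⟨γ₁, γ₂, γ₃, a, b, hab, hG1, hO1, hG2, hO2, hG3, hO3, ?_, ?_, ?_, ?_,
    ⟨c1.trans e1⟩, ⟨c2.trans e2⟩, ⟨c3.trans e3⟩⟩
  · rw [grel_conj hι hn hR1 hR2]; exact h12
  · rw [grel_conj hι hn hR1 hR3]; exact h13
  · rw [grel_conj hι hn hR2 hR3]; exact h23
  · intro γ hγ hγ2
    obtain ⟨γL, hg, h2, hR⟩ := grel_of_U hι hn γ hγ hγ2
    rw [grel_conj hι hn hR1 hR, grel_conj hι hn hR2 hR, grel_conj hι hn hR3 hR]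
    exact hall γL hg h2

end Cfsg.Agent.S2707
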