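import Cfsg.Statements.S2708
import Cfsg.Agent.Lib.Helper44.GraphPSUTr
import Cfsg.Agent.S2701

set_option autoImplicit false
open Cfsg

namespace Cfsg.Agent.S2708

open Cfsg.Agent.Lib.Helper44

/-- Let T = PSU_n(q) with n = 2m ≥ 4 even and q even, realised over the field F (of characteristic 2) with q² elements, and G = Inndiag(T) the image of PGU_n(q). The involutory graph automorphisms of T fall into exactly two G-classes, with representatives whose centralizers in G are isomorphic respectively to the symplectic group Sp_n(F₀) and to the centralizer in Sp_n(F₀) of a symplectic transvection, F₀ a field with q elements. -/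
theorem result {F : Type*} [Field F] [Fintype F] [CharP F 2] {q : ℕ} (hF : Fintype.card F = q ^ 2) {n m : ℕ} (hm : 2 ≤ m) (hnm : n = 2 * m) (F₀ : Type*) [Field F₀] [Fintype F₀] (hF₀ : Fintype.card F₀ = q) :
    ∃ (γ₁ γ₃ : MulAut (Cfsg.PSU n F q)) (t : ↥(Matrix.symplecticGroup (Fin m) F₀)), Cfsg.IsTransvection (t : Matrix (Fin m ⊕ Fin m) (Fin m ⊕ Fin m) F₀) ∧ Cfsg.IsGraphAutClassPSU γ₁ ∧ orderOf γ₁ = 2 ∧ Cfsg.IsGraphAutClassPSU γ₃ ∧ orderOf γ₃ = 2 ∧ ¬ Cfsg.IsConjUnder (Cfsg.inndiagPSU n F q) γ₁ γ₃ ∧ (∀ γ : MulAut (Cfsg.PSU n F q), Cfsg.IsGraphAutClassPSU γ → orderOf γ = 2 → Cfsg.IsConjUnder (Cfsg.inndiagPSU n F q) γ₁ γ ∨ Cfsg.IsConjUnder (Cfsg.inndiagPSU n F q) γ₃ γ) ∧ Nonempty (↥(Cfsg.inndiagPSU n F q ⊓ Subgroup.centralizer {γ₁}) ≃* ↥(Matrix.symplecticGroup (Fin m) F₀)) ∧ Nonempty (↥(Cfsg.inndiagPSU n F q ⊓ Subgroup.centralizer {γ₃}) ≃* ↥(Subgroup.centralizer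 ({t} : Set ↥(Matrix.symplecticGroup (Fin m) F₀)))) := by
  obtain ⟨ι, hι⟩ := exists_iota hF F₀ hF₀
  have hn : 3 ≤ n := by omega
  have : CharP F₀ 2 := (RingHom.charP_iff ι ι.injective 2).2 inferInstance
  obtain ⟨δ₁, δ₃, t, ht, hg1, ho1, hg3, ho3, h13, hall, e1, e3⟩ :=
    Cfsg.Agent.S2701.result (F := F₀) hm hnm
  obtain ⟨γ₁, hG1, hO1, hR1⟩ := grel_of_L hι hn δ₁ hg1 ho1
  obtain ⟨γ₃, hG3, hO3, hR3⟩ := grel_of_L hι hn δ₃ hg3 ho3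
  obtain ⟨e1⟩ := e1
  obtain ⟨e3⟩ := e3
  obtain ⟨c1⟩ := grel_cent hι hn hR1
  obtain ⟨c3⟩ := grel_cent hι hn hR3
  refine ⟨γ₁, γ₃, t, ht, hG1, hO1, hG3, hO3, ?_, ?_, ⟨c1.trans e1⟩, ⟨c3.trans e3⟩⟩
  · rw [grel_conj hι hn hR1 hR3]; exact h13
  · intro γ hγ hγ2
    obtain ⟨γL, hg, h2, hR⟩ := grel_of_U hι hn γ hγ hγ2
    rw [grel_conj hι hn hR1 hR, grel_conj hι hn hR3 hR]
    exact hall γL hg h2

end Cfsg.Agent.S2708
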