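import Cfsg.Statements.S2709
import Cfsg.Agent.Lib.Helper44.GraphPSUSplit

set_option autoImplicit false
open Cfsg

namespace Cfsg.Agent.S2709

open Cfsg.Agent.Lib.Helper44

/-- Let T = PSU_n(q) be simple (n ≥ 3, (n,q) ≠ (3,2), q = p^f), realised over the field F with q² elements, G = Inndiag(T) the image of PGU_n(q), and γ an involutory graph automorphism of T. The G-class of γ is the union of exactly c T-classes, where: if n is even and q is odd, c = gcd(n/2, q + 1) when C_G(γ) is isomorphic to PGSp_n(F₀) for a field F₀ with q elements (symplectic type) and c = gcd(n, q + 1)/2 otherwise; and c = gcd(n, q + 1) when n is odd or q is even. -/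
theorem result {F : Type*} [Field F] [Fintype F] {p f q : ℕ} [Fact p.Prime] (hq : q = p ^ f) (hf : 1 ≤ f) (hF : Fintype.card F = q ^ 2) {n : ℕ} (hn : 3 ≤ n) (hs : ¬ (n = 3 ∧ q = 2)) (F₀ : Type*) [Field F₀] [Fintype F₀] (hF₀ : Fintype.card F₀ = q) (γ : MulAut (Cfsg.PSU n F q)) (hγ : Cfsg.IsGraphAutClassPSU γ) (hγ2 : orderOf γ = 2) :
    ((Even n ∧ Odd q ∧ Nonempty (↥(Cfsg.inndiagPSU n F q ⊓ Subgroup.centralizer {γ}) ≃* Cfsg.PGSp (n / 2) F₀)) → Cfsg.splitClassCount (Cfsg.inndiagPSU n F q) (Cfsg.Inn (Cfsg.PSU n F q)) γ = Nat.gcd (n / 2) (q + 1)) ∧ ((Even n ∧ Odd q ∧ ¬ Nonempty (↥(Cfsg.inndiagPSU n F q ⊓ Subgroup.centralizer {γ}) ≃* Cfsg.PGSp (n / 2) F₀)) → Cfsg.splitClassCount (Cfsg.inndiagPSU n F q) (Cfsg.Inn (Cfsg.PSU n F q)) γ = Nat.gcd n (q + 1) / 2) ∧ (¬ (Even n ∧ Odd q) → Cfsg.splitClassCount (Cfsg.inndiagPSU n F q) (Cfsg.Inn (Cfsg.PSU n F q)) γ = Nat.gcd n (q + 1)) := by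
  classical
  obtain ⟨ι, hι⟩ := exists_iota hF F₀ hF₀
  have hn1 : 1 ≤ n := le_trans (by norm_num) hn
  obtain ⟨a, M, h, hγe, hM2⟩ := exists_UData_of_graph hι hn γ hγ hγ2
  have hγe' : γ = gU hF hn1 ⟨AU hF a, AU_mem_CU hι hn1 h⟩ := hγe
  clear hγe
  subst hγe'
  rw [splitU_eq_index (hF := hF) hn1]
  have hT := transpose_of_orderOf_gr (by omega) hM2
  obtain ⟨c⟩ := cent_transfer hι hn h
  have hcommon : ∀ (_ : Even n) (_ : Odd q),
      (Nonempty (↥(Cfsg.inndiagPSU n F q ⊓ Subgroup.centralizer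
          {gU hF hn1 ⟨AU hF a, AU_mem_CU hι hn1 h⟩}) ≃* Cfsg.PGSp (n / 2) F₀) ∧
        (DU hF hn1 (gU hF hn1 ⟨AU hF a, AU_mem_CU hι hn1 h⟩)).index =
          Nat.gcd (n / 2) (q + 1)) ∨
      (¬ Nonempty (↥(Cfsg.inndiagPSU n F q ⊓ Subgroup.centralizer
          {gU hF hn1 ⟨AU hF a, AU_mem_CU hι hn1 h⟩}) ≃* Cfsg.PGSp (n / 2) F₀) ∧
        (DU hF hn1 (gU hF hn1 ⟨AU hF a, AU_mem_CU hι hn1 h⟩)).index =
          Nat.gcd n (q + 1) / 2) := by
    intro hev hp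
    have hodd : Odd (Fintype.card F₀) := by rw [hF₀]; exact hp
    have h2 : (2 : F₀) ≠ 0 := two_ne_zero_of_odd_card hodd
    obtain ⟨m, hm⟩ := hev
    have hnm : n = 2 * m := by omega
    have hn2 : n / 2 = m := by omega
    rw [hn2]
    rcases psl_graph_cases hodd (by omega) hnm M hT with ⟨hA, ⟨f⟩⟩ | ⟨hA, hneg, hno⟩
    · left
      exact ⟨⟨c.trans f⟩, by rw [DU_alt hι hn h hnm (alt_of_skew h2 hA), index_pow_U1 hF]⟩
    · right
      refine ⟨fun ⟨f⟩ => hno ⟨c.symm.trans f⟩, ?_⟩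
      rw [DU_sym hι h2 hp hn h hnm hA hneg, Cfsg.Agent.Lib.Helper43.PA.cyclic_index]
      have h3 := index_zpowers_negU hF hp
      rw [← h3, hnm, Nat.gcd_mul_left, Nat.mul_div_cancel_left _ (by norm_num)]
  refine ⟨?_, ?_, ?_⟩
  · rintro ⟨hev, hp, hiso⟩
    rcases hcommon hev hp with ⟨-, h⟩ | ⟨h, -⟩
    · exact h
    · exact absurd hiso h
  · rintro ⟨hev, hp, hiso⟩
    rcases hcommon hev hp with ⟨h, -⟩ | ⟨-, h⟩
    · exact absurd h hiso
    · exact h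
  · intro hnot
    have hg : Odd (Nat.gcd n (q + 1)) := by
      by_cases hev : Even n
      · have hq' : ¬ Odd q := fun hp => hnot ⟨hev, hp⟩
        have h5 : Odd (q + 1) := (Nat.not_odd_iff_even.1 hq').add_one
        exact h5.of_dvd_nat (Nat.gcd_dvd_right _ _)
      · exact (Nat.not_even_iff_odd.1 hev).of_dvd_nat (Nat.gcd_dvd_left _ _)
    rw [DU_of_odd hι hn h hg, index_pow_U1 hF]

end Cfsg.Agent.S2709
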