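import Cfsg.Statements.S2710
import Cfsg.Agent.Lib.Helper44.GraphPSUTr
import Cfsg.Agent.S2703

set_option autoImplicit false
open Cfsg

namespace Cfsg.Agent.S2710

open Cfsg.Agent.Lib.Helper44 Cfsg.Agent.Lib.Helper43.PA Cfsg.Agent.Lib.Helper43.PU

/-- Let T = PSU_n(q) with n ≥ 4 divisible by 4 (n = 2m) and q odd, realised over the field F with q² elements, G = Inndiag(T) the image of PGU_n(q), and φ the standard field automorphism of T attached to the q-th power map of F (it induces inverse-transpose on the unitary matrices and is a graph automorphism). Its centralizer in G is isomorphic to the projective conformal orthogonal group of the plus-type form Σ xᵢ yᵢ in dimension n over a field F₀ with q elements. (Dimensions n ≡ 2 (mod 4) are not covered.) -/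
theorem result {F : Type*} [Field F] [Fintype F] {q : ℕ} (hodd : Odd q) (hF : Fintype.card F = q ^ 2) {n m : ℕ} (hm : 2 ≤ m) (hnm : n = 2 * m) (h4 : 4 ∣ n) (F₀ : Type*) [Field F₀] [Fintype F₀] (hF₀ : Fintype.card F₀ = q) (σ : F ≃+* F) (hσ : ∀ a : F, σ a = a ^ q) (φ : MulAut (Cfsg.PSU n F q)) (hφ : Cfsg.IsFieldAutPSUOf σ φ) :
    Nonempty (↥(Cfsg.inndiagPSU n F q ⊓ Subgroup.centralizer {φ}) ≃* Cfsg.PGO F₀ (Cfsg.quadFormPlus m F₀)) := by
  obtain ⟨ι, hι⟩ := exists_iota hF F₀ hF₀
  have hn : 3 ≤ n := by omega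
  have hσ' : σ = barE hF := by
    ext t
    rw [hσ, barE_apply]
  subst hσ'
  obtain rfl := eq_fAU_of_isFieldAut hφ
  have hA : AU hF (1 : GL (Fin n) F) = 1 := by
    unfold AU
    simp
  have hmem : AU hF (1 : GL (Fin n) F) ∈ CU hF n := by
    rw [hA]
    exact Subgroup.one_mem _
  have hR : GRel hF ι hn (fAU (barE hF)) gam := by
    refine ⟨1, 1, hmem, by unfold UData; simp, ?_, gam_eq_gr⟩
    unfold gU
    have h1 : (⟨AU hF 1, hmem⟩ : ↥(CU hF n)) = 1 := Subtype.ext hA
    rw [h1, map_one, one_mul]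
  obtain ⟨c⟩ := grel_cent hι hn hR
  obtain ⟨e⟩ := (Cfsg.Agent.S2703.result (F := F₀) (by rw [hF₀]; exact hodd) hm hnm gam
    isInverseTranspose_gam).1 (by
      rw [hF₀]
      obtain ⟨k, hk⟩ := h4
      obtain ⟨j, rfl⟩ := hodd
      rw [hk, Nat.add_sub_cancel, mul_assoc, Nat.mul_div_cancel_left _ (by norm_num)]
      exact ⟨k * j, by ring⟩)
  exact ⟨c.trans e⟩

end Cfsg.Agent.S2710
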