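import Cfsg.Statements.S2722
import Cfsg.Agent.Lib.Helper44.SimilStd

set_option autoImplicit false
open Cfsg

namespace Cfsg.Agent.S2722

open Cfsg.Agent.Lib.Helper44

/-- Let T = PΩ⁺_{2m}(F) with m ≥ 4 and |F| = q odd. Inside Aut(T), the image G̃ of the conformal orthogonal group of the form modulo the image of the special orthogonal group is elementary abelian of order 4. -/
theorem result {F : Type*} [Field F] [Fintype F] (hodd : Odd (Fintype.card F)) {m : ℕ} (hm : 4 ≤ m) :
    (∃ φ : ↥(Cfsg.pgoAut F (Cfsg.quadFormPlus m F)) →* Multiplicative (ZMod 2 × ZMod 2), Function.Surjective φ ∧ φ.ker = (Cfsg.psoAut F (Cfsg.quadFormPlus m F)).subgroupOf (Cfsg.pgoAut F (Cfsg.quadFormPlus m F))) := by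
  have h2 : (2 : F) ≠ 0 := two_ne_zero_of_odd_card hodd
  have key := exists_hom_pgo_pso h2 (plusQF m F) (plusQF_nondeg m F)
    (by simp only [Fintype.card_sum, Fintype.card_fin]; omega) m
    (by simp only [Fintype.card_sum, Fintype.card_fin]; omega)
    (plus_exists_nonsquare_simil h2 m (by omega))
  rw [plusQF_coe] at key
  exact key

end Cfsg.Agent.S2722
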