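import Cfsg.Statements.S2724
import Cfsg.Agent.Lib.Helper44.SimilStd

set_option autoImplicit false
open Cfsg

namespace Cfsg.Agent.S2724

open Cfsg.Agent.Lib.Helper44

/-- Let T = PΩ⁺_{2m}(F) with m ≥ 4 and |F| = q odd. The image G̃ of the conformal orthogonal group in Aut(T), taken modulo the inner automorphism group T, is elementary abelian of order 4 when m is odd and q ≡ 3 (mod 4), and dihedral of order 8 otherwise. -/
theorem result {F : Type*} [Field F] [Fintype F] (hodd : Odd (Fintype.card F)) {m : ℕ} (hm : 4 ≤ m) :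
    ((Odd m ∧ Fintype.card F % 4 = 3) → (∃ φ : ↥(Cfsg.pgoAut F (Cfsg.quadFormPlus m F)) →* Multiplicative (ZMod 2 × ZMod 2), Function.Surjective φ ∧ φ.ker = (Cfsg.Inn (Cfsg.POmega F (Cfsg.quadFormPlus m F))).subgroupOf (Cfsg.pgoAut F (Cfsg.quadFormPlus m F)))) ∧ (¬ (Odd m ∧ Fintype.card F % 4 = 3) → (∃ φ : ↥(Cfsg.pgoAut F (Cfsg.quadFormPlus m F)) →* DihedralGroup 4, Function.Surjective φ ∧ φ.ker = (Cfsg.Inn (Cfsg.POmega F (Cfsg.quadFormPlus m F))).subgroupOf (Cfsg.pgoAut F (Cfsg.quadFormPlus m F)))) := by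
  have h2 : (2 : F) ≠ 0 := two_ne_zero_of_odd_card hodd
  have key1 := exists_hom_pgo_inn_klein h2 (plusQF m F) (plusQF_nondeg m F)
    (by simp only [Fintype.card_sum, Fintype.card_fin]; omega) m
    (by simp only [Fintype.card_sum, Fintype.card_fin]; omega)
    (plus_exists_nonsquare_simil h2 m (by omega))
  have key2 := exists_hom_pgo_inn_dihedral h2 (plusQF m F) (plusQF_nondeg m F)
    (by simp only [Fintype.card_sum, Fintype.card_fin]; omega) m
    (by simp only [Fintype.card_sum, Fintype.card_fin]; omega)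
    (plus_exists_nonsquare_simil h2 m (by omega))
  rw [plus_negOneO_mem_iff hodd m (by omega), plusQF_coe] at key1 key2
  exact ⟨fun h => key1 (not_not.2 h), key2⟩

end Cfsg.Agent.S2724
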