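import Cfsg.Statements.S2726
import Cfsg.Agent.Lib.Helper44.SimilStd

set_option autoImplicit false
open Cfsg

namespace Cfsg.Agent.S2726

open Cfsg.Agent.Lib.Helper44

/-- Let T = PΩ⁻_{2m+2}(F) with m ≥ 3 and |F| = q odd (form with anisotropic binary part). Inside Aut(T), the image G̃ of the conformal orthogonal group of the form modulo the image of the special orthogonal group is elementary abelian of order 4. -/
theorem result {F : Type*} [Field F] [Fintype F] (hodd : Odd (Fintype.card F)) {m : ℕ} (hm : 3 ≤ m) (a b : F) (hab : (∀ z₁ z₂ : F, z₁ ^ 2 + a * z₁ * z₂ + b * z₂ ^ 2 = 0 → z₁ = 0 ∧ z₂ = 0)) :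
    (∃ φ : ↥(Cfsg.pgoAut F (Cfsg.quadFormMinus m F a b)) →* Multiplicative (ZMod 2 × ZMod 2), Function.Surjective φ ∧ φ.ker = (Cfsg.psoAut F (Cfsg.quadFormMinus m F a b)).subgroupOf (Cfsg.pgoAut F (Cfsg.quadFormMinus m F a b))) := by
  have h2 : (2 : F) ≠ 0 := two_ne_zero_of_odd_card hodd
  have key := exists_hom_pgo_pso h2 (minusQF m F a b) (minusQF_nondeg m F hab)
    (by simp only [Fintype.card_sum, Fintype.card_fin]; omega) (m + 1)
    (by simp only [Fintype.card_sum, Fintype.card_fin]; omega)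
    (minus_exists_nonsquare_simil h2 m hab)
  rw [minusQF_coe] at key
  exact key

end Cfsg.Agent.S2726
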