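import Cfsg.Statements.S2734
import Cfsg.Agent.Lib.Helper36.ChevFold5
import Cfsg.Agent.Lib.Helper36.ChevFoldD4
import Cfsg.Agent.Lib.Helper18.TwistHD4

set_option autoImplicit false
open Cfsg

namespace Cfsg.Agent.S2734

open Cfsg.Lie Matrix Cfsg.Agent.Lib.Helper18 Cfsg.Agent.Lib.Helper36

theorem symD4 : symLists chevD4 chevD4.rank =
    [[0, 1, 2, 3], [0, 1, 3, 2], [2, 1, 0, 3], [2, 1, 3, 0], [3, 1, 0, 2], [3, 1, 2, 0]] := by decide +kernel

theorem longD4 : ∀ j < chevD4.rank, chevD4.isLong (chevD4.simple j) = false := by decide +kernel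

theorem not_invol {F : Type*} [Field F] {τ : MulAut ↥(chevD4.group F)} (hτ3 : orderOf τ = 3) {L : List ℕ}
    (h : Acts chevD4 τ (fun i => L.getD i 0)) (h1 : ∀ i < chevD4.rank, L.getD i 0 < chevD4.rank)
    (h2 : ∀ i < chevD4.rank, L.getD (L.getD i 0) 0 = i) : False := by
  have e : τ * τ = 1 := (h.mul h h1).eq_one (base_of_mem F memD4) tabD4 h2
  have : orderOf τ ∣ 2 := orderOf_dvd_of_pow_eq_one (by rw [sq, e])
  rw [hτ3] at this
  exact absurd this (by decide)

/-- In the Chevalley group of type D₄ over a finite field F (the matrix group generated by the root elements), a graph automorphism attached to a symmetry π of the Dynkin diagram (sending each fundamental root element x_p(t) to x_{π(p)}(t) and each x_{−p}(t) to x_{−π(p)}(t)) that has order 3 — a standard triality graph automorphism, π being a 3-cycle of the three outer nodes — has fixed-point subgroup isomorphic to the Chevalley group of type G₂ over F. -/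
theorem result {F : Type*} [Field F] [Fintype F] (τ : MulAut ↥(Cfsg.Lie.chevD4.group F)) (hτ : Cfsg.Lie.chevD4.IsGraphAut τ) (hτ3 : orderOf τ = 3) :
    Nonempty (↥(MonoidHom.eqLocus τ.toMonoidHom (MonoidHom.id ↥(Cfsg.Lie.chevD4.group F))) ≃* ↥(Cfsg.Lie.chevG2.group F)) := by
  obtain ⟨τ', hτ'⟩ := exists_tau (bnData_of_mem F memD4).hB tabD4 Cfsg.Agent.Lib.Helper36.agreeD4
    Cfsg.Agent.S1081.gt1 Cfsg.Agent.S1081.gi1 [2, 1, 3, 0] Cfsg.Agent.S1081.b1 Cfsg.Agent.S1081.b1'
    Cfsg.Agent.S1081.i1 Cfsg.Agent.S1081.a1 (by decide) (RingEquiv.refl F)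
  have hL : ∀ i < chevD4.rank, [2, 1, 3, 0].getD i 0 = byte rhoTD4 i := by decide +kernel
  let T : CommData (bnData_of_mem F memD4) := CommData.ofTab _ τ' (RingEquiv.refl F) twTabD4 commD4
    (fun i hi t => by rw [← hL i hi]; exact hτ' i hi t)
  have hf : ∀ t, T.f t = t := fun _ => rfl
  obtain ⟨T', W, hc⟩ := exists_checks chevD4 memD4
  let Φ : Fold T chevG2 := Fold.ofChecks T tabG2 Cfsg.Agent.Lib.Helper36.agreeD4
    Cfsg.Agent.Lib.Helper36.agreeG2 foldD4 foldInvD4 foldOrbD4 foldBD4 foldB'D4 foldID4 foldPD4 foldND4 foldCD4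
    (by show ∀ a < chevG2.rank, foldOrbD4 a ∈ orbsD4; decide)
    (by show ∀ O ∈ orbsD4, ∃ a < chevG2.rank, foldOrbD4 a = O; decide)
  have hH : ∀ h ∈ chevD4.diagonalSubgroup F, T.τ h = h → h ∈ T.G1 :=
    h90_of_case T (l := 4) rfl TwD4.rhoF (by show ∀ i : Fin 4, ((TwD4.rhoF i : Fin 4) : ℕ) = byte rhoTD4 i; decide +kernel) hf TwD4.cartA
      TwD4.cart_eq hc (Or.inr ⟨by decide, TwD4.ker_pow_two⟩)
      (by show orbsD4.flatten.Perm (List.range chevD4.rank); decide +kernel)
  apply fold_main T hf Φ (base_of_mem F (by simp)) tabG2 hc hH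
  intro g
  show τ g = g ↔ τ' (g : GL chevD4.Idx F) = g
  obtain ⟨L, hLm, hact⟩ := acts_of_isGraphAut hτ longD4
  rw [symD4] at hLm
  simp only [List.mem_cons, List.not_mem_nil, or_false] at hLm
  have hB := (bnData_of_mem F memD4).hB
  rcases hLm with rfl | rfl | rfl | rfl | rfl | rfl
  · exact (not_invol hτ3 hact (by decide) (by decide)).elim
  · exact (not_invol hτ3 hact (by decide) (by decide)).elim
  · exact (not_invol hτ3 hact (by decide) (by decide)).elim
  · exact hact.fixed_iff' hB tabD4 τ' hτ' g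
  · exact hact.fixed_iff hB tabD4 τ' (σ' := fun i => [2, 1, 3, 0].getD i 0) (by decide) (by decide) hτ' g
  · exact (not_invol hτ3 hact (by decide) (by decide)).elim

end Cfsg.Agent.S2734
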