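import Cfsg.Statements.S2738


set_option autoImplicit false
open Cfsg

namespace Cfsg.Agent.S2738

/-- The special linear group SL(3, 4) has centre of order 3 and does not split over it: no subgroup is a complement to the centre (so SL(3, 4) is a non-split central extension of PSL(3, 4) by a group of order 3). -/
theorem result (F : Type*) [Field F] [Fintype F] (hF : Fintype.card F = 4) : Nat.card ↥(Subgroup.center (Matrix.SpecialLinearGroup (Fin 3) F)) = 3 ∧ ¬ ∃ K : Subgroup (Matrix.SpecialLinearGroup (Fin 3) F), Subgroup.IsComplement' (Subgroup.center (Matrix.SpecialLinearGroup (Fin 3) F)) K := by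
  classical
  have hunits : Fintype.card Fˣ = 3 := by
    rw [Fintype.card_units, hF]
  have hcube : ∀ a : F, a ≠ 0 → a ^ 3 = 1 := by
    intro a ha
    have := FiniteField.pow_card_sub_one_eq_one a ha
    rwa [hF] at this
  constructor
  · rw [Nat.card_congr (Matrix.SpecialLinearGroup.center_equiv_rootsOfUnity' (n := Fin 3) (R := F) 0).toEquiv]
    have htop : rootsOfUnity (Fintype.card (Fin 3)) F = ⊤ := by
      rw [eq_top_iff]
      intro u _
      rw [mem_rootsOfUnity]
      ext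
      simpa using hcube (u : F) u.ne_zero
    rw [htop, Nat.card_congr Subgroup.topEquiv.toEquiv, Nat.card_eq_fintype_card, hunits]
  · rintro ⟨K, hK⟩
    -- an element different from 0 and 1
    obtain ⟨w, hw0, hw1⟩ : ∃ w : F, w ≠ 0 ∧ w ≠ 1 := by
      by_contra hcon
      push Not at hcon
      have hsub : (Finset.univ : Finset F) ⊆ {0, 1} := by
        intro a _
        by_cases ha : a = 0
        · simp [ha]
        · simp [hcon a ha]
      have := Finset.card_le_card hsub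
      rw [Finset.card_univ, hF] at this
      have h2 : ({0, 1} : Finset F).card ≤ 2 := Finset.card_le_two
      omega
    have hw3 : w ^ 3 = 1 := hcube w hw0
    let A : Matrix.SpecialLinearGroup (Fin 3) F :=
      ⟨!![1, 0, 0; 0, w, 0; 0, 0, w ^ 2], by
        rw [Matrix.det_fin_three]; simp; ring_nf; exact hw3⟩
    let B : Matrix.SpecialLinearGroup (Fin 3) F :=
      ⟨!![0, 1, 0; 0, 0, 1; 1, 0, 0], by
        rw [Matrix.det_fin_three]; simp⟩
    let Z : Matrix.SpecialLinearGroup (Fin 3) F :=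
      ⟨!![w, 0, 0; 0, w, 0; 0, 0, w], by
        rw [Matrix.det_fin_three]; simp; ring_nf; exact hw3⟩
    have hZc : Z ∈ Subgroup.center (Matrix.SpecialLinearGroup (Fin 3) F) := by
      rw [Matrix.SpecialLinearGroup.mem_center_iff]
      refine ⟨w, by simpa using hw3, ?_⟩
      ext i j
      fin_cases i <;> fin_cases j <;> simp [Z, Matrix.scalar_apply]
    have hZ1 : Z ≠ 1 := by
      intro h
      have := congrArg (fun M : Matrix.SpecialLinearGroup (Fin 3) F => (M : Matrix (Fin 3) (Fin 3) F) 0 0) h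
      simp [Z] at this
      exact hw1 this
    -- B * A = Z * (A * B)
    have hcomm : B * A = Z * (A * B) := by
      have hw4 : w * (w * w) = 1 := by rw [← hw3]; ring
      have hAm : (A : Matrix (Fin 3) (Fin 3) F) = !![1, 0, 0; 0, w, 0; 0, 0, w ^ 2] := rfl
      have hBm : (B : Matrix (Fin 3) (Fin 3) F) = !![0, 1, 0; 0, 0, 1; 1, 0, 0] := rfl
      have hZm : (Z : Matrix (Fin 3) (Fin 3) F) = !![w, 0, 0; 0, w, 0; 0, 0, w] := rfl
      apply Subtype.ext
      rw [Matrix.SpecialLinearGroup.coe_mul, Matrix.SpecialLinearGroup.coe_mul,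
        Matrix.SpecialLinearGroup.coe_mul, hAm, hBm, hZm]
      ext i j
      fin_cases i <;> fin_cases j <;>
        simp [Matrix.mul_apply, Fin.sum_univ_three, hw4, pow_two]
    -- decompose A and B
    obtain ⟨⟨⟨z₁, hz₁⟩, ⟨k₁, hk₁⟩⟩, hA⟩ := hK.2 A
    obtain ⟨⟨⟨z₂, hz₂⟩, ⟨k₂, hk₂⟩⟩, hB⟩ := hK.2 B
    simp only at hA hB
    have c1 := Subgroup.mem_center_iff.1 hz₁
    have c2 := Subgroup.mem_center_iff.1 hz₂
    have hZK : Z ∈ K := by
      have h1 : Z = (B * A) * (A * B)⁻¹ := by rw [hcomm]; group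
      have h2 : (B * A) * (A * B)⁻¹ = (k₂ * k₁) * (k₁ * k₂)⁻¹ := by
        rw [← hA, ← hB]
        have e1 : z₂ * k₂ * (z₁ * k₁) = (z₁ * z₂) * (k₂ * k₁) := by
          calc z₂ * k₂ * (z₁ * k₁) = z₂ * (k₂ * z₁) * k₁ := by group
            _ = z₂ * (z₁ * k₂) * k₁ := by rw [c1 k₂]
            _ = (z₂ * z₁) * (k₂ * k₁) := by group
            _ = (z₁ * z₂) * (k₂ * k₁) := by rw [c1 z₂]
        have e2 : z₁ * k₁ * (z₂ * k₂) = (z₁ * z₂) * (k₁ * k₂) := by
          calc z₁ * k₁ * (z₂ * k₂) = z₁ * (k₁ * z₂) * k₂ := by group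
            _ = z₁ * (z₂ * k₁) * k₂ := by rw [c2 k₁]
            _ = (z₁ * z₂) * (k₁ * k₂) := by group
        rw [e1, e2]
        have c12 : ∀ g, g * (z₁ * z₂) = (z₁ * z₂) * g := by
          intro g
          calc g * (z₁ * z₂) = (g * z₁) * z₂ := by group
            _ = z₁ * (g * z₂) := by rw [c1 g]; group
            _ = z₁ * z₂ * g := by rw [c2 g]; group
        calc z₁ * z₂ * (k₂ * k₁) * (z₁ * z₂ * (k₁ * k₂))⁻¹
            = (z₁ * z₂) * ((k₂ * k₁) * (k₁ * k₂)⁻¹ * (z₁ * z₂)⁻¹) := by group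
          _ = (z₁ * z₂) * ((z₁ * z₂)⁻¹ * ((k₂ * k₁) * (k₁ * k₂)⁻¹)) := by
              congr 1
              have := c12 ((z₁ * z₂)⁻¹ * ((k₂ * k₁) * (k₁ * k₂)⁻¹ * (z₁ * z₂)⁻¹))
              have h3 : (z₁ * z₂)⁻¹ * ((k₂ * k₁) * (k₁ * k₂)⁻¹ * (z₁ * z₂)⁻¹) * (z₁ * z₂)
                  = (z₁ * z₂)⁻¹ * ((k₂ * k₁) * (k₁ * k₂)⁻¹) := by group
              rw [← h3, this]; group
          _ = (k₂ * k₁) * (k₁ * k₂)⁻¹ := by group
      rw [h1, h2]
      exact K.mul_mem (K.mul_mem hk₂ hk₁) (K.inv_mem (K.mul_mem hk₁ hk₂))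
    have hdisj := hK.disjoint
    have : Z ∈ (⊥ : Subgroup (Matrix.SpecialLinearGroup (Fin 3) F)) := by
      rw [← hdisj.eq_bot]
      exact ⟨hZc, hZK⟩
    exact hZ1 (by simpa using this)

end Cfsg.Agent.S2738
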