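import Cfsg.Statements.S2739
import Cfsg.Agent.Lib.Helper43.F4Cubic

set_option autoImplicit false
open scoped Pointwise
open Cfsg

namespace Cfsg.Agent.S2739

open Polynomial Matrix Cfsg.Agent.Lib.Helper43

variable {F : Type*} [Field F]

/-- The characteristic polynomial of a `3 × 3` matrix of determinant one in characteristic two. -/
theorem charpoly_eq (h2 : (2 : F) = 0) (M : Matrix (Fin 3) (Fin 3) F) (hM : M.det = 1) :
    M.charpoly = X ^ 3 + C (M.charpoly.coeff 2) * X ^ 2 + C (M.charpoly.coeff 1) * X + 1 := by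
  have hmonic : M.charpoly.Monic := M.charpoly_monic
  have hdeg : M.charpoly.natDegree = 3 := by simp [M.charpoly_natDegree_eq_dim]
  have hc0 : M.charpoly.coeff 0 = 1 := by
    have := Matrix.det_eq_sign_charpoly_coeff M
    rw [hM] at this
    simp only [Fintype.card_fin] at this
    linear_combination this - h2
  have := hmonic.as_sum
  rw [hdeg] at this
  simp only [Finset.sum_range_succ, Finset.sum_range_zero, hc0] at this
  refine this.trans ?_
  simp only [map_one, pow_zero, pow_one, mul_one, zero_add]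
  ring

/-- A non-scalar matrix of determinant one over `F_4` whose cube is scalar has cube one and
characteristic polynomial `X ^ 3 + 1`. -/
theorem cube_scalar (h2 : (2 : F) = 0) (h3 : ∀ x : F, x ≠ 0 → x ^ 3 = 1)
    (M : Matrix (Fin 3) (Fin 3) F) (hM : M.det = 1) (l : F) (hl : l ^ 3 = 1)
    (hcube : M ^ 3 = l • (1 : Matrix (Fin 3) (Fin 3) F))
    (hns : ∀ s : F, M ≠ s • (1 : Matrix (Fin 3) (Fin 3) F)) :
    l = 1 ∧ M.charpoly = X ^ 3 + 1 := by
  have hchi := charpoly_eq h2 M hM
  set c1 := M.charpoly.coeff 1 with hc1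
  set c2 := M.charpoly.coeff 2 with hc2
  have hone : (1 : Matrix (Fin 3) (Fin 3) F) ≠ 0 := one_ne_zero
  have E1 : M ^ 3 + c2 • M ^ 2 + c1 • M + 1 = 0 := by
    have h := Matrix.aeval_self_charpoly M
    rw [hchi] at h
    simpa [Algebra.smul_def] using h
  have Q : c2 • M ^ 2 + c1 • M + (1 + l) • (1 : Matrix (Fin 3) (Fin 3) F) = 0 := by
    rw [hcube] at E1
    linear_combination (norm := module) E1
  have R : (c2 * l) • (1 : Matrix (Fin 3) (Fin 3) F) + c1 • M ^ 2 + (1 + l) • M = 0 := by
    have h := congrArg (fun A => A * M) Q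
    simp only [add_mul, smul_mul_assoc, one_mul, zero_mul] at h
    rw [← pow_succ, ← pow_two, hcube] at h
    linear_combination (norm := module) h
  have S : (c1 ^ 2 - c2 * (1 + l)) • M + (c1 * (1 + l) - c2 ^ 2 * l) • (1 : Matrix (Fin 3) (Fin 3) F) = 0 := by
    linear_combination (norm := module) c1 • Q - c2 • R
  have e1 : c1 ^ 2 - c2 * (1 + l) = 0 := by
    by_contra hne
    apply hns (-(c1 ^ 2 - c2 * (1 + l))⁻¹ * (c1 * (1 + l) - c2 ^ 2 * l))
    have h := congrArg (fun A => (c1 ^ 2 - c2 * (1 + l))⁻¹ • A) S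
    simp only [smul_add, smul_smul, inv_mul_cancel₀ hne, one_smul, smul_zero] at h
    linear_combination (norm := module) h
  have e2 : c1 * (1 + l) - c2 ^ 2 * l = 0 := by
    rw [e1, zero_smul, zero_add] at S
    exact (smul_eq_zero.mp S).resolve_right hone
  have hl0 : l ≠ 0 := by
    rintro rfl
    simp at hl
  have hc2z : c2 = 0 := by
    by_contra hc2n
    have h4 : c1 ^ 3 = l := by
      have := h3 c2 hc2n
      linear_combination c1 * e1 + c2 * e2 + l * this
    by_cases hc1z : c1 = 0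
    · rw [hc1z] at h4
      exact hl0 (by simpa using h4.symm)
    · have hl1 : l = 1 := by rw [← h4, h3 c1 hc1z]
      rw [hl1] at e1
      have : c1 ^ 2 = 0 := by linear_combination e1 + c2 * h2
      exact hc1z (pow_eq_zero_iff (by norm_num) |>.mp this)
  have hc1z : c1 = 0 := by
    rw [hc2z] at e1
    have : c1 ^ 2 = 0 := by linear_combination e1
    exact pow_eq_zero_iff (by norm_num) |>.mp this
  have hl1 : l = 1 := by
    rw [hc1z, hc2z] at Q
    simp only [zero_smul, zero_add] at Q
    have := (smul_eq_zero.mp Q).resolve_right hone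
    linear_combination this - h2
  refine ⟨hl1, ?_⟩
  rw [hchi, hc1z, hc2z]
  simp

/-- A matrix of determinant one with characteristic polynomial `X ^ 3 + 1` over a field containing
a primitive cube root of unity (characteristic two) is `SL_3`-conjugate to `diag(1, ω, ω + 1)`. -/
theorem exists_conj_diag (h2 : (2 : F) = 0) (ω : F) (hω : ω ^ 2 = ω + 1)
    (M : Matrix (Fin 3) (Fin 3) F) (hchi : M.charpoly = X ^ 3 + 1) :
    ∃ P : Matrix (Fin 3) (Fin 3) F, P.det = 1 ∧ M * P = P * Matrix.diagonal ![1, ω, ω + 1] := by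
  have h10 : (1 : F) ≠ 0 := one_ne_zero
  have hω0 : ω ≠ 0 := by
    rintro rfl
    apply h10
    linear_combination -hω
  have hω1 : ω ≠ 1 := by
    rintro rfl
    apply h10
    linear_combination h2 + hω
  set μ : Fin 3 → F := ![1, ω, ω + 1] with hμ
  have hμ3 : ∀ i, μ i ^ 3 = 1 := by
    intro i
    fin_cases i
    · simp [hμ]
    · show ω ^ 3 = 1
      linear_combination (ω + 1) * hω + ω * h2
    · show (ω + 1) ^ 3 = 1
      linear_combination (ω + 4) * hω + (4 * ω + 2) * h2
  have hinj : Function.Injective μ := by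
    intro i j hij
    fin_cases i <;> fin_cases j <;> simp [hμ] at hij ⊢
    · exact hω1 hij.symm
    · exact hω0 hij
    · exact hω1 hij
    · exact hω0 hij
  have hex : ∀ i, ∃ v : Fin 3 → F, v ≠ 0 ∧ M *ᵥ v = μ i • v := by
    intro i
    have h0 : (Matrix.scalar (Fin 3) (μ i) - M).det = 0 := by
      rw [← Matrix.eval_charpoly, hchi]
      simp only [eval_add, eval_pow, eval_X, eval_one, hμ3]
      linear_combination h2
    obtain ⟨v, hv0, hv⟩ := Matrix.exists_mulVec_eq_zero_iff.mpr h0
    refine ⟨v, hv0, ?_⟩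
    rw [Matrix.sub_mulVec, sub_eq_zero] at hv
    rw [← hv, Matrix.scalar_apply, ← Matrix.smul_one_eq_diagonal, Matrix.smul_mulVec,
      Matrix.one_mulVec]
  choose v hv0 hv using hex
  have hli : LinearIndependent F v := by
    apply Module.End.eigenvectors_linearIndependent' (Matrix.toLin' M) μ hinj v
    intro i
    refine ⟨?_, hv0 i⟩
    rw [Module.End.mem_eigenspace_iff, Matrix.toLin'_apply, hv]
  let P : Matrix (Fin 3) (Fin 3) F := Matrix.of fun i j => v j i
  have hPu : IsUnit P := by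
    rw [← Matrix.linearIndependent_cols_iff_isUnit]
    exact hli
  have hd : P.det ≠ 0 := ((Matrix.isUnit_iff_isUnit_det P).mp hPu).ne_zero
  have hMP : M * P = P * Matrix.diagonal μ := by
    ext i j
    rw [Matrix.mul_diagonal]
    have := congrFun (hv j) i
    rw [Pi.smul_apply, smul_eq_mul, mul_comm] at this
    exact this
  refine ⟨P * Matrix.diagonal ![P.det⁻¹, 1, 1], ?_, ?_⟩
  · rw [Matrix.det_mul, Matrix.det_diagonal, Fin.prod_univ_three]
    simp [hd]
  · rw [← Matrix.mul_assoc, hMP, Matrix.mul_assoc, Matrix.mul_assoc, Matrix.diagonal_mul_diagonal,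
      Matrix.diagonal_mul_diagonal]
    congr 2
    funext i
    exact mul_comm _ _

/-- Every element of order three of `PSL_3(4)` is conjugate to the image of `diag(1, ω, ω + 1)`. -/
theorem conj_of_order3 [Fintype F] (hF : Fintype.card F = 4) (h2 : (2 : F) = 0) (ω : F)
    (hω : ω ^ 2 = ω + 1) (D : Matrix.SpecialLinearGroup (Fin 3) F)
    (hD : (D : Matrix (Fin 3) (Fin 3) F) = Matrix.diagonal ![1, ω, ω + 1])
    (x : Matrix.ProjectiveSpecialLinearGroup (Fin 3) F) (hx : orderOf x = 3) :
    IsConj (QuotientGroup.mk D : Matrix.ProjectiveSpecialLinearGroup (Fin 3) F) x := by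
  obtain ⟨A, rfl⟩ := QuotientGroup.mk_surjective x
  have h3 : ∀ y : F, y ≠ 0 → y ^ 3 = 1 := by
    intro y hy
    have := FiniteField.pow_card_sub_one_eq_one y hy
    rwa [hF] at this
  have hx3 : (QuotientGroup.mk A : Matrix.ProjectiveSpecialLinearGroup (Fin 3) F) ^ 3 = 1 := by
    have := pow_orderOf_eq_one (QuotientGroup.mk A : Matrix.ProjectiveSpecialLinearGroup (Fin 3) F)
    rwa [hx] at this
  have hA3 : A ^ 3 ∈ Subgroup.center (Matrix.SpecialLinearGroup (Fin 3) F) := by
    rw [← QuotientGroup.eq_one_iff]; exact hx3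
  obtain ⟨r, hr, hrA⟩ := Matrix.SpecialLinearGroup.mem_center_iff.mp hA3
  have hr3 : r ^ 3 = 1 := by simpa using hr
  have hcube : (A : Matrix (Fin 3) (Fin 3) F) ^ 3 = r • (1 : Matrix (Fin 3) (Fin 3) F) := by
    rw [← Matrix.SpecialLinearGroup.coe_pow, ← hrA, Matrix.scalar_apply,
      ← Matrix.smul_one_eq_diagonal]
  have hns : ∀ s : F, (A : Matrix (Fin 3) (Fin 3) F) ≠ s • (1 : Matrix (Fin 3) (Fin 3) F) := by
    intro s hs
    have hs3 : s ^ 3 = 1 := by
      have h1 := A.det_coe
      rw [hs, Matrix.det_smul, Matrix.det_one] at h1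
      simpa using h1
    have hc : A ∈ Subgroup.center (Matrix.SpecialLinearGroup (Fin 3) F) := by
      rw [Matrix.SpecialLinearGroup.mem_center_iff]
      refine ⟨s, by simpa using hs3, ?_⟩
      rw [hs, Matrix.scalar_apply, ← Matrix.smul_one_eq_diagonal]
    have h1 : (QuotientGroup.mk A : Matrix.ProjectiveSpecialLinearGroup (Fin 3) F) = 1 :=
      (QuotientGroup.eq_one_iff _).mpr hc
    rw [h1, orderOf_one] at hx
    omega
  obtain ⟨-, hchi⟩ := cube_scalar h2 h3 _ A.det_coe r hr3 hcube hns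
  obtain ⟨P, hP, hAP⟩ := exists_conj_diag h2 ω hω _ hchi
  have hconj : IsConj D A := by
    rw [isConj_iff]
    let c : Matrix.SpecialLinearGroup (Fin 3) F := ⟨P, hP⟩
    refine ⟨c, ?_⟩
    rw [mul_inv_eq_iff_eq_mul]
    apply Subtype.ext
    show P * (D : Matrix (Fin 3) (Fin 3) F) = (A : Matrix (Fin 3) (Fin 3) F) * P
    rw [hD, hAP]
  exact (QuotientGroup.mk' _).map_isConj hconj

/-- A subgroup of order three is generated by an element of order three. -/
theorem exists_gen {G : Type*} [Group G] (X : Subgroup G) (hX : Nat.card X = 3) :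
    ∃ x : G, orderOf x = 3 ∧ Subgroup.zpowers x = X := by
  have hfin : Finite X := Nat.finite_of_card_ne_zero (by omega)
  have hnt : X ≠ ⊥ := by
    rintro rfl
    simp at hX
  obtain ⟨⟨x, hxX⟩, hx1⟩ := (Subgroup.ne_bot_iff_exists_ne_one.mp hnt)
  have hdvd : orderOf (⟨x, hxX⟩ : X) ∣ 3 := hX ▸ orderOf_dvd_natCard _
  have hord : orderOf (⟨x, hxX⟩ : X) = 3 := by
    rcases (Nat.dvd_prime Nat.prime_three).mp hdvd with h | h
    · exact absurd (orderOf_eq_one_iff.mp h) hx1
    · exact h
  have hord' : orderOf x = 3 := by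
    rw [← hord]; exact (Subgroup.orderOf_mk x hxX).symm
  refine ⟨x, hord', ?_⟩
  have hle : Subgroup.zpowers x ≤ X := by
    rw [Subgroup.zpowers_le]; exact hxX
  apply Subgroup.eq_of_le_of_card_ge hle
  rw [hX, Nat.card_zpowers, hord']

/-- In the projective special linear group PSL(3, 4) all subgroups of order 3 are conjugate. -/
theorem result (F : Type*) [Field F] [Fintype F] (hF : Fintype.card F = 4) (X Y : Subgroup (Matrix.ProjectiveSpecialLinearGroup (Fin 3) F)) (hX : Nat.card ↥X = 3) (hY : Nat.card ↥Y = 3) : ∃ g : Matrix.ProjectiveSpecialLinearGroup (Fin 3) F, MulAut.conj g • X = Y := by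
  obtain ⟨h2, ω, hω, -⟩ := f4_elems hF
  have hdet : (Matrix.diagonal ![1, ω, ω + 1] : Matrix (Fin 3) (Fin 3) F).det = 1 := by
    rw [Matrix.det_diagonal, Fin.prod_univ_three]
    simp only [Matrix.cons_val_zero, Matrix.cons_val_one, Matrix.cons_val]
    linear_combination hω + ω * h2
  let D : Matrix.SpecialLinearGroup (Fin 3) F := ⟨_, hdet⟩
  obtain ⟨x, hx, rfl⟩ := exists_gen X hX
  obtain ⟨y, hy, rfl⟩ := exists_gen Y hY
  have h1 := conj_of_order3 hF h2 ω hω D rfl x hx
  have h2' := conj_of_order3 hF h2 ω hω D rfl y hy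
  obtain ⟨g, hg⟩ := isConj_iff.mp (h1.symm.trans h2')
  refine ⟨g, ?_⟩
  show Subgroup.map (MulAut.conj g).toMonoidHom (Subgroup.zpowers x) = Subgroup.zpowers y
  rw [MonoidHom.map_zpowers]
  congr 1

end Cfsg.Agent.S2739
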