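import Cfsg.Statements.S2758
import Cfsg.Agent.Lib.Helper46.CharPInherit
import Cfsg.Agent.Lib.Helper54.Dihedral

set_option autoImplicit false
open Cfsg

namespace Cfsg.Agent.S2758

open Cfsg.Agent.Lib.Helper46 DihedralGroup

theorem coe_mem_normalizer_map_subtype {G : Type*} [Group G] {K : Subgroup G} {Q : Subgroup K} {n : K}
    (hn : n ∈ Subgroup.normalizer (Q : Set K)) :
    (n : G) ∈ Subgroup.normalizer ((Q.map K.subtype : Subgroup G) : Set G) := by
  rw [Subgroup.mem_normalizer_iff]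
  intro x
  have hn' := Subgroup.mem_normalizer_iff.1 hn
  constructor
  · rintro ⟨y, hy, rfl⟩
    exact ⟨n * y * n⁻¹, (hn' y).1 hy, rfl⟩
  · rintro ⟨y, hy, hyx⟩
    refine ⟨n⁻¹ * y * n, ?_, ?_⟩
    · apply (hn' _).2
      have : n * (n⁻¹ * y * n) * n⁻¹ = y := by group
      rw [this]; exact hy
    · simp only [Subgroup.subtype_apply, Subgroup.coe_mul, Subgroup.coe_inv] at hyx ⊢
      rw [hyx]; group

theorem sr_pow_odd {n : ℕ} (i : ZMod n) {m : ℕ} (hm : Odd m) : (sr i : DihedralGroup n) ^ m = sr i := by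
  obtain ⟨t, rfl⟩ := hm
  rw [pow_succ, pow_mul, sq, sr_mul_self, one_pow, one_mul]

theorem AtoB {G : Type*} [Group G] [Finite G] {p : ℕ} [hpf : Fact p.Prime] (hp : p ≠ 2)
    (h : Cfsg.Involves (DihedralGroup p) G) :
    ∃ (x : G) (P : Subgroup G), (∃ k : ℕ, orderOf x = 2 ^ k) ∧ IsPGroup p ↥P ∧
      x ∈ Subgroup.normalizer (P : Set G) ∧ x ∉ Subgroup.centralizer (P : Set G) := by
  obtain ⟨K, R, hn, ⟨e⟩⟩ := h
  let π : K →* DihedralGroup p := e.toMonoidHom.comp (QuotientGroup.mk' (R.subgroupOf K))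
  have hπ : Function.Surjective π := e.surjective.comp (QuotientGroup.mk'_surjective _)
  let C : Subgroup (DihedralGroup p) := Subgroup.zpowers (r 1)
  have hCmem : ∀ d : DihedralGroup p, d ∈ C ↔ ∃ j, d = r j := by
    intro d
    constructor
    · rintro ⟨k, rfl⟩
      exact ⟨_, r_one_zpow k⟩
    · rintro ⟨j, rfl⟩
      refine ⟨(j.val : ℤ), ?_⟩
      change (r 1 : DihedralGroup p) ^ ((j.val : ℕ) : ℤ) = r j
      rw [zpow_natCast, r_one_pow, ZMod.natCast_zmod_val]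
  have hCn : C.Normal := by
    refine ⟨fun d hd g => ?_⟩
    obtain ⟨j, rfl⟩ := (hCmem d).1 hd
    rw [hCmem]
    rcases g with i | i
    · exact ⟨i + j + -i, by simp⟩
    · exact ⟨i - (i + j), by simp⟩
  let N : Subgroup K := C.comap π
  have hNn : N.Normal := hCn.comap π
  -- a p-element of N mapping to a nontrivial rotation
  obtain ⟨n, hn1⟩ := hπ (r 1)
  have hno : orderOf n ≠ 0 := (orderOf_pos n).ne'
  set m' := ordCompl[p] (orderOf n) with hm'
  have hm'cop : Nat.Coprime p m' := Nat.coprime_ordCompl hpf.out hno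
  set u₀ : K := n ^ m' with hu₀
  have hπu₀ : π u₀ = r (m' : ZMod p) := by
    rw [hu₀, map_pow, hn1, r_one_pow]
  have hu₀N : u₀ ∈ N := by
    change π u₀ ∈ C
    rw [hCmem]; exact ⟨_, hπu₀⟩
  have hu₀o : orderOf u₀ = p ^ (orderOf n).factorization p := by
    rw [hu₀, orderOf_pow_of_dvd (Nat.ordCompl_pos p hno).ne' (Nat.ordCompl_dvd _ _)]
    exact Nat.div_eq_of_eq_mul_left (Nat.ordCompl_pos p hno) (Nat.ordProj_mul_ordCompl_eq_self _ _).symm
  have hzp : IsPGroup p (Subgroup.zpowers (⟨u₀, hu₀N⟩ : N)) := by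
    apply IsPGroup.of_card (n := (orderOf n).factorization p)
    rw [Nat.card_zpowers, ← hu₀o, ← Subgroup.orderOf_coe]
  obtain ⟨P, hP⟩ := hzp.exists_le_sylow
  have hfr := Sylow.normalizer_sup_eq_top P
  obtain ⟨k, hk⟩ := hπ (sr 0)
  have hkmem : k ∈ ((Subgroup.normalizer ((P : Subgroup N).map N.subtype : Set K) ⊔ N : Subgroup K) : Set K) := by
    rw [hfr]; trivial
  rw [Subgroup.mul_normal] at hkmem
  obtain ⟨n₁, hn₁, n₂, hn₂, rfl⟩ := hkmem
  obtain ⟨j, hj⟩ := (hCmem _).1 (show π n₂ ∈ C from hn₂)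
  have hπn₁ : π n₁ = sr (-j) := by
    have : π n₁ = sr 0 * (π n₂)⁻¹ := by
      rw [← hk]; simp
    rw [this, hj]; simp
  have hn₁o : orderOf n₁ ≠ 0 := (orderOf_pos n₁).ne'
  set m₂ := ordCompl[2] (orderOf n₁) with hm₂
  have hm₂odd : Odd m₂ := by
    rw [← Nat.not_even_iff_odd, even_iff_two_dvd]
    exact Nat.not_dvd_ordCompl Nat.prime_two hn₁o
  set x : K := n₁ ^ m₂ with hx
  have hπx : π x = sr (-j) := by rw [hx, map_pow, hπn₁, sr_pow_odd _ hm₂odd]
  have hxo : orderOf x = 2 ^ (orderOf n₁).factorization 2 := by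
    rw [hx, orderOf_pow_of_dvd (Nat.ordCompl_pos 2 hn₁o).ne' (Nat.ordCompl_dvd _ _)]
    exact Nat.div_eq_of_eq_mul_left (Nat.ordCompl_pos 2 hn₁o) (Nat.ordProj_mul_ordCompl_eq_self _ _).symm
  have hxN : x ∈ Subgroup.normalizer ((P : Subgroup N).map N.subtype : Set K) := Subgroup.pow_mem _ hn₁ _
  have hu₀P : u₀ ∈ (P : Subgroup N).map N.subtype :=
    ⟨⟨u₀, hu₀N⟩, hP (Subgroup.mem_zpowers _), rfl⟩
  refine ⟨(x : G), ((P : Subgroup N).map N.subtype).map K.subtype,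
    ⟨(orderOf n₁).factorization 2, ?_⟩, ?_, ?_, ?_⟩
  · rw [Subgroup.orderOf_coe]; exact hxo
  · exact (P.isPGroup'.map _).map _
  · exact coe_mem_normalizer_map_subtype hxN
  · intro hc
    have h1 := Subgroup.mem_centralizer_iff.1 hc (u₀ : G) ⟨u₀, hu₀P, rfl⟩
    have h2 : u₀ * x = x * u₀ := Subtype.ext h1
    have h3 := congrArg π h2
    rw [map_mul, map_mul, hπx, hπu₀, r_mul_sr, sr_mul_r, sr.injEq] at h3
    have h4 : ((2 * m' : ℕ) : ZMod p) = 0 := by
      push_cast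
      have : (m' : ZMod p) + m' = 0 := by linear_combination -h3
      linear_combination this
    rw [ZMod.natCast_eq_zero_iff] at h4
    rcases (Nat.Prime.dvd_mul hpf.out).1 h4 with h5 | h5
    · exact hp ((Nat.prime_dvd_prime_iff_eq hpf.out Nat.prime_two).1 h5)
    · have := Nat.Coprime.eq_one_of_dvd hm'cop h5
      exact hpf.out.one_lt.ne' this

theorem BtoC {G : Type*} [Group G] [Finite G] {p : ℕ} [hpf : Fact p.Prime]
    (h : ∃ (x : G) (P : Subgroup G), (∃ k : ℕ, orderOf x = 2 ^ k) ∧ IsPGroup p ↥P ∧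
      x ∈ Subgroup.normalizer (P : Set G) ∧ x ∉ Subgroup.centralizer (P : Set G)) :
    ∃ x y : G, (∃ k : ℕ, orderOf x = 2 ^ k) ∧ (∃ k : ℕ, orderOf y = p ^ k) ∧ y ≠ 1 ∧
      x * y * x⁻¹ = y⁻¹ := by
  classical
  obtain ⟨x, P, ⟨k, hk⟩, hP, hxN, hxC⟩ := h
  have hex : ∃ j : ℕ, x ^ 2 ^ j ∈ Subgroup.centralizer (P : Set G) :=
    ⟨k, by rw [← hk, pow_orderOf_eq_one]; exact one_mem _⟩
  set j := Nat.find hex with hj
  have hjspec : x ^ 2 ^ j ∈ Subgroup.centralizer (P : Set G) := Nat.find_spec hex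
  have hj0 : j ≠ 0 := by
    intro h0
    rw [h0, pow_zero, pow_one] at hjspec
    exact hxC hjspec
  obtain ⟨i, hi⟩ : ∃ i, j = i + 1 := ⟨j - 1, by omega⟩
  have hmin : x ^ 2 ^ i ∉ Subgroup.centralizer (P : Set G) := Nat.find_min hex (by omega)
  set x₀ := x ^ 2 ^ i with hx₀
  have hx₀sq : x₀ * x₀ ∈ Subgroup.centralizer (P : Set G) := by
    have : x₀ * x₀ = x ^ 2 ^ j := by
      rw [hx₀, hi, ← pow_add, pow_succ, mul_two]
    rw [this]; exact hjspec
  have hx₀N : x₀ ∈ Subgroup.normalizer (P : Set G) := Subgroup.pow_mem _ hxN _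
  rw [Subgroup.mem_centralizer_iff] at hmin
  push Not at hmin
  obtain ⟨u, hu, hne⟩ := hmin
  have huc : x₀ * u * x₀⁻¹ ∈ P := (Subgroup.mem_normalizer_iff.1 hx₀N u).1 hu
  refine ⟨x₀, u⁻¹ * (x₀ * u * x₀⁻¹), ?_, ?_, ?_, ?_⟩
  · have h1 : orderOf x₀ ∣ 2 ^ k := by
      rw [← hk, hx₀]; exact orderOf_pow_dvd _
    obtain ⟨l, _, hl⟩ := (Nat.dvd_prime_pow Nat.prime_two).1 h1
    exact ⟨l, hl⟩
  · have hy : u⁻¹ * (x₀ * u * x₀⁻¹) ∈ P := P.mul_mem (P.inv_mem hu) huc
    obtain ⟨l, hl⟩ := hP ⟨_, hy⟩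
    have h1 : (u⁻¹ * (x₀ * u * x₀⁻¹)) ^ p ^ l = 1 := by
      have := congrArg Subtype.val hl
      simpa using this
    obtain ⟨l', _, hl'⟩ := (Nat.dvd_prime_pow hpf.out).1 (orderOf_dvd_of_pow_eq_one h1)
    exact ⟨l', hl'⟩
  · intro h1
    apply hne
    have h2 : x₀ * u * x₀⁻¹ = u := by
      have := congrArg (u * ·) h1
      simpa using this
    calc u * x₀ = (x₀ * u * x₀⁻¹) * x₀ := by rw [h2]
      _ = x₀ * u := by group
  · have h1 := Subgroup.mem_centralizer_iff.1 hx₀sq u hu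
    have h2 : x₀ * x₀ * u * x₀⁻¹ * x₀⁻¹ = u := by
      rw [← h1]; group
    calc x₀ * (u⁻¹ * (x₀ * u * x₀⁻¹)) * x₀⁻¹
        = (x₀ * u * x₀⁻¹)⁻¹ * (x₀ * x₀ * u * x₀⁻¹ * x₀⁻¹) := by group
      _ = (x₀ * u * x₀⁻¹)⁻¹ * u := by rw [h2]
      _ = (u⁻¹ * (x₀ * u * x₀⁻¹))⁻¹ := by group

theorem CtoA {G : Type*} [Group G] [Finite G] {p : ℕ} [hpf : Fact p.Prime] (hp : p ≠ 2)
    (h : ∃ x y : G, (∃ k : ℕ, orderOf x = 2 ^ k) ∧ (∃ k : ℕ, orderOf y = p ^ k) ∧ y ≠ 1 ∧
      x * y * x⁻¹ = y⁻¹) : Cfsg.Involves (DihedralGroup p) G := by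
  obtain ⟨x, y, -, ⟨l, hl⟩, hy1, hinv⟩ := h
  have hl0 : l ≠ 0 := by
    rintro rfl
    rw [pow_zero, orderOf_eq_one_iff] at hl
    exact hy1 hl
  obtain ⟨l', rfl⟩ : ∃ l', l = l' + 1 := ⟨l - 1, by omega⟩
  set y₀ := y ^ p ^ l' with hy₀
  have hy₀o : orderOf y₀ = p := by
    rw [hy₀, orderOf_pow_of_dvd (pow_pos hpf.out.pos _).ne' (by rw [hl]; exact pow_dvd_pow p (Nat.le_succ l')),
      hl, pow_succ, Nat.mul_div_cancel_left _ (pow_pos hpf.out.pos _)]
  have hinv₀ : x * y₀ * x⁻¹ = y₀⁻¹ := by rw [hy₀, ← conj_pow, hinv, inv_pow]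
  have hne2 : ∀ {S : Type _} [Group S] (a : S), orderOf a = p → a * a ≠ 1 := by
    intro S _ a ha h2
    have h3 : orderOf a ∣ 2 := orderOf_dvd_of_pow_eq_one (by rw [sq]; exact h2)
    rw [ha] at h3
    exact hp ((Nat.prime_dvd_prime_iff_eq hpf.out Nat.prime_two).1 h3)
  set K := Subgroup.closure ({x, y₀} : Set G) with hK
  set R := Subgroup.zpowers (x * x) with hR
  have hxK : x ∈ K := Subgroup.subset_closure (by simp)
  have hyK : y₀ ∈ K := Subgroup.subset_closure (by simp)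
  have hcomm : y₀ * (x * x) = (x * x) * y₀ := by
    have h1 : x * y₀⁻¹ * x⁻¹ = y₀ := by
      have := congrArg (·⁻¹) hinv₀
      simpa [mul_assoc] using this
    calc y₀ * (x * x) = (x * (x * y₀ * x⁻¹) * x⁻¹) * (x * x) := by rw [hinv₀, h1]
      _ = (x * x) * y₀ := by group
  have hRK : R ≤ Subgroup.centralizer (K : Set G) := by
    rw [hR, Subgroup.zpowers_le, hK, Subgroup.centralizer_closure, Subgroup.mem_centralizer_iff]
    intro g hg
    rcases hg with rfl | rfl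
    · exact (mul_assoc _ _ _).symm
    · exact hcomm
  have hKR : K ≤ Subgroup.normalizer (R : Set G) :=
    (Subgroup.le_centralizer_iff.1 hRK).trans (Subgroup.centralizer_le_normalizer _)
  have hn : (R.subgroupOf K).Normal := subgroupOf_normal_of_le_normalizer hKR
  set a : K ⧸ R.subgroupOf K := QuotientGroup.mk (⟨y₀, hyK⟩ : K) with ha
  set xb : K ⧸ R.subgroupOf K := QuotientGroup.mk (⟨x, hxK⟩ : K) with hxb
  have ha1 : a ≠ 1 := by
    intro h1
    rw [ha, QuotientGroup.eq_one_iff, Subgroup.mem_subgroupOf] at h1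
    have h2 : y₀ * x = x * y₀ := by
      have := Subgroup.mem_centralizer_iff.1 (hRK h1) x hxK
      exact this.symm
    have h3 : y₀ = y₀⁻¹ := by
      rw [← hinv₀, ← h2]; group
    apply hne2 y₀ hy₀o
    calc y₀ * y₀ = y₀ * y₀⁻¹ := by rw [← h3]
      _ = 1 := mul_inv_cancel _
  have hap : a ^ p = 1 := by
    rw [ha, ← QuotientGroup.mk_pow]
    have : (⟨y₀, hyK⟩ : K) ^ p = 1 := by
      apply Subtype.ext
      simp [← hy₀o, pow_orderOf_eq_one]
    rw [this]; rfl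
  have hao : orderOf a = p := orderOf_eq_prime hap ha1
  have hxx : xb * xb = 1 := by
    rw [hxb, ← QuotientGroup.mk_mul, QuotientGroup.eq_one_iff, Subgroup.mem_subgroupOf]
    exact Subgroup.mem_zpowers _
  have hax : xb * a * xb⁻¹ = a⁻¹ := by
    rw [hxb, ha, ← QuotientGroup.mk_inv, ← QuotientGroup.mk_mul, ← QuotientGroup.mk_mul,
      ← QuotientGroup.mk_inv]
    congr 1
    apply Subtype.ext
    exact hinv₀
  have hpz : NeZero p := ⟨hpf.out.ne_zero⟩
  let f : DihedralGroup p →* K ⧸ R.subgroupOf K :=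
    MonoidHom.mk' (Cfsg.Agent.Lib.Helper54.dihedralMap a xb)
      (Cfsg.Agent.Lib.Helper54.dihedralMap_mul a xb hao hxx hax)
  have hinj : Function.Injective f := by
    rw [injective_iff_map_eq_one]
    intro u hu
    rcases u with i | i
    · change a ^ i.val = 1 at hu
      have h1 : orderOf a ∣ i.val := orderOf_dvd_of_pow_eq_one hu
      rw [hao] at h1
      have h2 : i.val = 0 := Nat.eq_zero_of_dvd_of_lt h1 (ZMod.val_lt i)
      rw [ZMod.val_eq_zero] at h2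
      rw [h2]; rfl
    · exfalso
      change xb * a ^ i.val = 1 at hu
      have h1 : xb = (a ^ i.val)⁻¹ := eq_inv_of_mul_eq_one_left hu
      have h2 : Commute xb a := by
        rw [h1]
        exact ((Commute.refl a).pow_left _).inv_left
      have h3 : a = a⁻¹ := by
        rw [← hax, h2.eq]; group
      apply hne2 a hao
      calc a * a = a * a⁻¹ := by rw [← h3]
        _ = 1 := mul_inv_cancel _
  have hsurj : Function.Surjective f := by
    rw [← MonoidHom.range_eq_top, eq_top_iff]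
    have h1 : (⊤ : Subgroup K) ≤ f.range.comap (QuotientGroup.mk' (R.subgroupOf K)) := by
      rw [← Subgroup.closure_closure_coe_preimage, Subgroup.closure_le]
      intro z hz
      have hz' : (z : G) = x ∨ (z : G) = y₀ := hz
      rcases hz' with h | h
      · refine ⟨sr 0, ?_⟩
        change xb * a ^ (0 : ZMod p).val = _
        rw [ZMod.val_zero, pow_zero, mul_one, hxb]
        congr 1
        exact Subtype.ext h.symm
      · refine ⟨r 1, ?_⟩
        change a ^ (1 : ZMod p).val = _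
        have : Fact (1 < p) := ⟨hpf.out.one_lt⟩
        rw [ZMod.val_one, pow_one, ha]
        congr 1
        exact Subtype.ext h.symm
    intro q _
    obtain ⟨z, rfl⟩ := QuotientGroup.mk'_surjective _ q
    exact h1 (Subgroup.mem_top z)
  exact ⟨K, R, hn, ⟨(MulEquiv.ofBijective f ⟨hinj, hsurj⟩).symm⟩⟩


/-- For an odd prime p and a finite group G the following are equivalent: the dihedral group of order 2p is involved in G; some element of 2-power order normalizes but does not centralize some p-subgroup of G; some element of 2-power order inverts some nonidentity element of p-power order. -/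
theorem result {G : Type*} [Group G] [Finite G] {p : ℕ} [Fact p.Prime] (hp : p ≠ 2) : (Cfsg.Involves (DihedralGroup p) G ↔ ∃ (x : G) (P : Subgroup G), (∃ k : ℕ, orderOf x = 2 ^ k) ∧ IsPGroup p ↥P ∧ x ∈ Subgroup.normalizer (P : Set G) ∧ x ∉ Subgroup.centralizer (P : Set G)) ∧ (Cfsg.Involves (DihedralGroup p) G ↔ ∃ x y : G, (∃ k : ℕ, orderOf x = 2 ^ k) ∧ (∃ k : ℕ, orderOf y = p ^ k) ∧ y ≠ 1 ∧ x * y * x⁻¹ = y⁻¹) := by
  have h1 := AtoB (G := G) (p := p) hp
  have h2 := BtoC (G := G) (p := p)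
  have h3 := CtoA (G := G) (p := p) hp
  exact ⟨⟨h1, fun h => h3 (h2 h)⟩, ⟨fun h => h2 (h1 h), h3⟩⟩

end Cfsg.Agent.S2758
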