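import Cfsg.Statements.S2761
import Cfsg.Agent.Lib.Helper46.Qd2
import Cfsg.Agent.Lib.Helper5.PermEmbed
open Cfsg.Agent.Lib.Helper46.Qd

set_option autoImplicit false
open Cfsg

namespace Cfsg.Agent.S2761

/-- The group Qd(2), the natural semidirect product of an elementary abelian group of order 4 by SL₂(2) (realised as the affine subgroup of SL₃(2)), is isomorphic to the symmetric group of degree 4. -/
theorem result : Nonempty (↥(Cfsg.qd 2) ≃* Equiv.Perm (Fin 4)) := by
  have : Fact (Nat.Prime 2) := ⟨Nat.prime_two⟩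
  rw [qd_eq 2]
  apply Cfsg.Agent.Lib.Helper5.nonempty_mulEquiv_perm_of_injective (affHom (ZMod 2)) affHom_injective 4
  · rw [Nat.card_eq_fintype_card, Fintype.card_fun, Fintype.card_fin, ZMod.card]
    rfl
  · rw [card_qdOver, ZMod.card]
    rfl

end Cfsg.Agent.S2761
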