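import Cfsg.Statements.S2762
import Cfsg.Agent.Lib.Helper46.Qd
open Cfsg.Agent.Lib.Helper46.Qd Cfsg.Agent.Lib.Helper46.SL2Nat Matrix

set_option autoImplicit false
open Cfsg

namespace Cfsg.Agent.S2762


/-- block-diagonal embedding -/
def diagHom (F : Type*) [Field F] : Matrix.SpecialLinearGroup (Fin 2) F →* ↥(Cfsg.qdOver F) where
  toFun A := mk A 0
  map_one' := mk_one_zero
  map_mul' A B := by rw [mk_mul_mk]; simp

lemma diagHom_injective (F : Type*) [Field F] : Function.Injective (diagHom F) := by
  intro A B h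
  have := congrArg blk h
  simpa [diagHom] using this

lemma mem_range_diagHom {F : Type*} [Field F] (M : ↥(Cfsg.qdOver F)) :
    M ∈ (diagHom F).range ↔ tr M = 0 := by
  constructor
  · rintro ⟨A, rfl⟩
    simp [diagHom]
  · intro h
    refine ⟨blk M, ?_⟩
    have := mk_blk_tr M
    rw [h] at this
    exact this



/-- Structure of Qd over a finite field F of characteristic p (the affine subgroup of SL₃(F)): its largest normal p-subgroup is the group of translations (matrices with upper-left block the identity), the block-diagonal matrices form a complement isomorphic to SL₂(F), and the translation subgroup is a natural SL₂(F)-module for that complement. -/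
theorem result {F : Type*} [Field F] [Fintype F] {p : ℕ} [Fact p.Prime] [CharP F p] : (∀ M : ↥(Cfsg.qdOver F), M ∈ Cfsg.pCore p ↥(Cfsg.qdOver F) ↔ ((M : Matrix.SpecialLinearGroup (Fin 3) F) : Matrix (Fin 3) (Fin 3) F) 0 0 = 1 ∧ ((M : Matrix.SpecialLinearGroup (Fin 3) F) : Matrix (Fin 3) (Fin 3) F) 0 1 = 0 ∧ ((M : Matrix.SpecialLinearGroup (Fin 3) F) : Matrix (Fin 3) (Fin 3) F) 1 0 = 0 ∧ ((M : Matrix.SpecialLinearGroup (Fin 3) F) : Matrix (Fin 3) (Fin 3) F) 1 1 = 1) ∧ ∃ K : Subgroup ↥(Cfsg.qdOver F), (∀ M : ↥(Cfsg.qdOver F), M ∈ K ↔ ((M : Matrix.SpecialLinearGroup (Fin 3) F) : Matrix (Fin 3) (Fin 3) F) 0 2 = 0 ∧ ((M : Matrix.SpecialLinearGroup (Fin 3) F) : Matrix (Fin 3) (Fin 3) F) 1 2 = 0) ∧ K ⊓ Cfsg.pCore p ↥(Cfsg.qdOver F) = ⊥ ∧ K ⊔ Cfsg.pCore p ↥(Cfsg.qdOver F) = ⊤ ∧ Nonempty (↥K ≃* Matrix.SpecialLinearGroup (Fin 2) F) ∧ Cfsg.IsNaturalSL2Module F (Cfsg.pCore p ↥(Cfsg.qdOver F)) K := by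
  have hV := pCore_eq_ker (F := F) p
  rw [hV]
  refine ⟨fun M => mem_ker_iff M, (diagHom F).range, ?_, ?_, ?_, ?_, ?_⟩
  · intro M
    rw [mem_range_diagHom]
    constructor
    · intro h
      exact ⟨congrFun h 0, congrFun h 1⟩
    · rintro ⟨h0, h1⟩
      exact vec_ext h0 h1
  · rw [eq_bot_iff]
    intro M hM
    obtain ⟨h1, h2⟩ := Subgroup.mem_inf.1 hM
    rw [mem_range_diagHom] at h1
    rw [MonoidHom.mem_ker, blkHom_apply] at h2
    rw [Subgroup.mem_bot]
    exact ext' (by rw [h2, blk_one]) (by rw [h1, tr_one])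
  · rw [eq_top_iff]
    intro M _
    have : M = mk (blk M) 0 * mk 1 (((blk M)⁻¹ : Matrix.SpecialLinearGroup (Fin 2) F) *ᵥ tr M) := by
      rw [mk_mul_mk, mulVec_inv_mulVec, mul_one, add_zero, mk_blk_tr]
    rw [this]
    apply Subgroup.mul_mem_sup
    · exact ⟨blk M, rfl⟩
    · rw [MonoidHom.mem_ker, blkHom_apply, blk_mk]
  · exact ⟨(MonoidHom.ofInjective (diagHom_injective F)).symm⟩
  · refine ⟨?_, (blkHom F).comp (diagHom F).range.subtype,
      { toFun := fun x => tr ((Additive.toMul x : (blkHom F).ker) : ↥(Cfsg.qdOver F))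
        invFun := fun v => Additive.ofMul ⟨mk 1 v, by rw [MonoidHom.mem_ker, blkHom_apply, blk_mk]⟩
        left_inv := ?_
        right_inv := ?_
        map_add' := ?_ }, ?_, ?_, ?_⟩
    · intro x _
      have : ((blkHom F).ker).Normal := inferInstance
      rw [Subgroup.normalizer_eq_top]
      trivial
    · intro x
      have hx : blk ((Additive.toMul x : (blkHom F).ker) : ↥(Cfsg.qdOver F)) = 1 := (Additive.toMul x).2
      apply Additive.toMul.injective
      apply Subtype.ext
      simp only [toMul_ofMul]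
      conv_rhs => rw [← mk_blk_tr ((Additive.toMul x : (blkHom F).ker) : ↥(Cfsg.qdOver F)), hx]
    · intro v
      simp
    · intro x y
      have hx : blk ((Additive.toMul x : (blkHom F).ker) : ↥(Cfsg.qdOver F)) = 1 := (Additive.toMul x).2
      simp only [toMul_add, Subgroup.coe_mul]
      rw [tr_mul, hx, one_mulVec', add_comm]
    · intro A
      exact ⟨⟨mk A 0, ⟨A, rfl⟩⟩, blk_mk A 0⟩
    · ext ⟨M, hM⟩
      rw [MonoidHom.mem_ker, Subgroup.mem_subgroupOf, Subgroup.mem_centralizer_iff]
      simp only [MonoidHom.coe_comp, Subgroup.coe_subtype, Function.comp_apply, blkHom_apply]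
      rw [mem_range_diagHom] at hM
      constructor
      · intro h
        have : M = 1 := ext' (by rw [h, blk_one]) (by rw [hM, tr_one])
        rw [this]
        intro N _
        simp
      · intro h
        have key : ∀ v : Fin 2 → F, (blk M : Matrix (Fin 2) (Fin 2) F) *ᵥ v = v := by
          intro v
          have h1 := h (mk 1 v) (by
            rw [SetLike.mem_coe, MonoidHom.mem_ker, blkHom_apply, blk_mk])
          have h2 := congrArg tr h1
          rw [tr_mul, tr_mul, hM, blk_mk, tr_mk, one_mulVec'] at h2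
          simpa using h2.symm
        have k0 := key ![1, 0]
        have k1 := key ![0, 1]
        apply ext2
        · have := congrFun k0 0
          rw [mulVec_0] at this
          simpa using this
        · have := congrFun k1 0
          rw [mulVec_0] at this
          simpa using this
        · have := congrFun k0 1
          rw [mulVec_1] at this
          simpa using this
        · have := congrFun k1 1
          rw [mulVec_1] at this
          simpa using this
    · intro l v
      have hn : ((blkHom F).ker).Normal := inferInstance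
      refine ⟨⟨(l : ↥(Cfsg.qdOver F)) * v * (l : ↥(Cfsg.qdOver F))⁻¹, hn.conj_mem _ v.2 _⟩, rfl, ?_⟩
      exact tr_conj _ _ v.2

end Cfsg.Agent.S2762
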