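import Cfsg.Statements.S2769
import Cfsg.Agent.Lib.Helper48.BN.Main

set_option autoImplicit false
open Cfsg

namespace Cfsg.Agent.S2769

/-- Let G be a finite group and p a prime with C_G(O_p(G)) ≤ O_p(G), S a Sylow p-subgroup lying in exactly one maximal subgroup of G, and G/K ≅ PSL₂(p^n) for some normal K and n ≥ 1. Let J(S) be generated by the abelian subgroups of S of largest order. If [Z(J(S)), S] ≠ 1, then either [Z(J(S)), S] ∩ Z(S) is normal in G or C_S(Z(J(S))) is normal in G. -/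
theorem result {G : Type*} [Group G] [Finite G] {p : ℕ} [Fact p.Prime] (S : Sylow p G) (hE₁ : Subgroup.centralizer (Cfsg.pCore p G : Set G) ≤ Cfsg.pCore p G) (hE₂ : ∃! M : Subgroup G, IsCoatom M ∧ (S : Subgroup G) ≤ M) (K : Subgroup G) [K.Normal] (F : Type) [Field F] [Fintype F] (n : ℕ) (hn : 1 ≤ n) (hF : Fintype.card F = p ^ n) (hE₃ : Nonempty (G ⧸ K ≃* Matrix.ProjectiveSpecialLinearGroup (Fin 2) F)) (h : ⁅(Cfsg.centerThompsonAOf (S : Subgroup G)), (S : Subgroup G)⁆ ≠ ⊥) : (⁅(Cfsg.centerThompsonAOf (S : Subgroup G)), (S : Subgroup G)⁆ ⊓ ((S : Subgroup G) ⊓ Subgroup.centralizer ((S : Subgroup G) : Set G))).Normal ∨ (((S : Subgroup G) ⊓ Subgroup.centralizer (Cfsg.centerThompsonAOf (S : Subgroup G) : Set G))).Normal := by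
  exact Cfsg.Agent.Lib.Helper48.BN.main_comm (Cfsg.Agent.Lib.Helper48.BN.setup_of S hE₁ hE₂ K F n hn hF hE₃)

end Cfsg.Agent.S2769
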