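import Cfsg.Statements.S2779
import Cfsg.Agent.Lib.Helper46.NatMod2
open Cfsg.Agent.Lib.Helper46.NatMod

set_option autoImplicit false
open Cfsg

namespace Cfsg.Agent.S2779

/-- Let L act on the elementary abelian p-group V (inside a finite group, by conjugation, faithfully) as SL₂(F) on its natural module, F a field with p^n elements, and let S be a Sylow p-subgroup of L. Then [V, S, S] = 1; |V| = p^(2n) and |C_V(S)| = p^n; and for every nonidentity s ∈ S and every v ∈ V outside C_V(S): C_V(s) = C_V(S) = [V, S] = [V, s] = the subgroup generated by the commutators [v, t], t ∈ S. -/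
theorem result {G : Type*} [Group G] [Finite G] {p : ℕ} [Fact p.Prime] {F : Type*} [Field F] [Fintype F] (n : ℕ) (hF : Fintype.card F = p ^ n) (V L : Subgroup G) (hnat : Cfsg.IsNaturalSL2Module F V L) (hf : L ⊓ Subgroup.centralizer (V : Set G) = ⊥) (S : Sylow p ↥L) (T : Subgroup G) (hT : T = ((S : Subgroup ↥L).map L.subtype)) : ⁅⁅V, T⁆, T⁆ = ⊥ ∧ Nat.card V = p ^ (2 * n) ∧ Nat.card ↥(V ⊓ Subgroup.centralizer ((T : Subgroup G) : Set G)) = p ^ n ∧ ∀ s ∈ T, s ≠ 1 → (V ⊓ Subgroup.centralizer ({s} : Set G)) = (V ⊓ Subgroup.centralizer ((T : Subgroup G) : Set G)) ∧ ⁅V, T⁆ = (V ⊓ Subgroup.centralizer ((T : Subgroup G) : Set G)) ∧ ⁅V, Subgroup.zpowers s⁆ = (V ⊓ Subgroup.centralizer ((T : Subgroup G) : Set G)) ∧ ∀ v ∈ V, v ∉ Subgroup.centralizer (T : Set G) → Subgroup.closure {x : G | ∃ t ∈ T, x = v * t * v⁻¹ * t⁻¹} = (V ⊓ Subgroup.centralizer ((T : Subgroup G) : Set G)) := by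
  obtain ⟨C⟩ := exists_coord n hF V L hnat hf S T hT
  have hle := C.comm_VT_le
  refine ⟨?_, ?_, ?_, ?_⟩
  · rw [Subgroup.commutator_eq_bot_iff_le_centralizer]
    exact hle.trans inf_le_right
  · rw [C.card_V, Nat.card_eq_fintype_card, Fintype.card_fun, Fintype.card_fin, hF, ← pow_mul, mul_comm]
  · rw [C.card_cent, Nat.card_eq_fintype_card, hF]
  · intro s hs hs1
    have h3 : V ⊓ Subgroup.centralizer (T : Set G) ≤ ⁅V, Subgroup.zpowers s⁆ := by
      intro x hx
      obtain ⟨v, hv, rfl⟩ := C.le_comm_s hs hs1 x hx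
      rw [← commutatorElement_def]
      exact Subgroup.commutator_mem_commutator hv (Subgroup.mem_zpowers s)
    have h4 : ⁅V, Subgroup.zpowers s⁆ ≤ ⁅V, T⁆ :=
      Subgroup.commutator_mono le_rfl (by rw [Subgroup.zpowers_le]; exact hs)
    refine ⟨?_, le_antisymm hle (h3.trans h4), le_antisymm (h4.trans hle) h3, ?_⟩
    · ext x
      rw [C.mem_cent_s hs hs1, C.mem_cent_T]
    · intro v hv hvc
      have hv1 : C.c v 1 ≠ 0 := by
        intro h
        exact hvc (C.mem_cent_T.2 ⟨hv, h⟩).2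
      apply le_antisymm
      · rw [Subgroup.closure_le]
        rintro x ⟨t, ht, rfl⟩
        apply hle
        rw [← commutatorElement_def]
        exact Subgroup.commutator_mem_commutator hv ht
      · intro x hx
        exact Subgroup.subset_closure (C.le_closure hv hv1 x hx)

end Cfsg.Agent.S2779
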