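import Cfsg.Statements.S2781
import Cfsg.Agent.Lib.Helper46.Trace
import Cfsg.Agent.Lib.Helper46.PGroupLemmas
open Cfsg.Agent.Lib.Helper46

set_option autoImplicit false
open Cfsg

namespace Cfsg.Agent.S2781

/-- Let H act faithfully by conjugation on the elementary abelian p-subgroup V of a finite group, let O^p(H) be the subgroup of H generated by its elements of order prime to p, and T a Sylow p-subgroup of O^p(H). If V is generated by the H-conjugates of C_V(T) (V is the smallest H-invariant subgroup containing C_V(T)), then V = [V, O^p(H)]·C_V(O^p(H)). -/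
theorem result {G : Type*} [Group G] [Finite G] {p : ℕ} [Fact p.Prime] (V H : Subgroup G) (hV : Cfsg.IsElementaryAbelian p V) (hHV : H ≤ Subgroup.normalizer (V : Set G)) (hf : H ⊓ Subgroup.centralizer (V : Set G) = ⊥) (R : Subgroup G) (hR : R = (Cfsg.pResidual p ↥H).map H.subtype) (S : Sylow p ↥R) (T : Subgroup G) (hT : T = ((S : Subgroup ↥R).map R.subtype)) (hgen : ∀ W : Subgroup G, H ≤ Subgroup.normalizer (W : Set G) → (V ⊓ Subgroup.centralizer ((T : Subgroup G) : Set G)) ≤ W → V ≤ W) : ⁅V, R⁆ ⊔ (V ⊓ Subgroup.centralizer ((R : Subgroup G) : Set G)) = V := by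
  have hfR : Finite R := inferInstance
  have hRH : R ≤ H := by rw [hR]; exact Subgroup.map_subtype_le _
  have hRV : R ≤ Subgroup.normalizer (V : Set G) := hRH.trans hHV
  -- H normalizes R
  have hHR : H ≤ Subgroup.normalizer (R : Set G) := by
    rw [hR]
    exact (map_subtype_normal_iff _).1 (pResidual_normal p H)
  apply le_antisymm
  · exact sup_le (commutator_le_left_of_le_normalizer hRV) inf_le_left
  · apply hgen
    · apply le_normalizer_of_map_conj_le
      intro g hg
      rw [Subgroup.map_sup, Subgroup.map_commutator, Subgroup.map_inf_eq _ _ _ (MulAut.conj g).injective,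
        map_centralizer_equiv, map_conj_eq_of_mem_normalizer (hHV hg),
        map_conj_eq_of_mem_normalizer (hHR hg)]
    · rintro v ⟨hvV, hvT⟩
      have h1 := pow_relIndex_mem_commutator_sup_centralizer (R := R) (T := T) hV.1 hRV hvV hvT
      have hidx : ¬ p ∣ T.relIndex R := by
        have h2 : T.subgroupOf R = (S : Subgroup ↥R) := by
          rw [hT]
          ext x
          rw [Subgroup.mem_subgroupOf]
          constructor
          · rintro ⟨y, hy, hyx⟩
            have : y = x := Subtype.ext hyx
            rwa [← this]
          · intro hx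
            exact ⟨x, hx, rfl⟩
        unfold Subgroup.relIndex
        rw [h2]
        exact S.not_dvd_index
      have hvp : v ^ p = 1 := hV.2 v hvV
      have hcop : (T.relIndex R).Coprime (orderOf v) := by
        have h3 : orderOf v ∣ p := orderOf_dvd_of_pow_eq_one hvp
        have h4 : (T.relIndex R).Coprime p :=
          ((Nat.Prime.coprime_iff_not_dvd (Fact.out : p.Prime)).2 hidx).symm
        exact Nat.Coprime.coprime_dvd_right h3 h4
      obtain ⟨m, hm⟩ := exists_pow_eq_self_of_coprime hcop
      rw [← hm]
      exact Subgroup.pow_mem _ h1 m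

end Cfsg.Agent.S2781
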