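import Cfsg.Statements.S2787
import Cfsg.Agent.Lib.Helper41.Quad.Transfer
import Cfsg.Agent.Lib.Helper41.Quad.Ree
import Cfsg.Agent.Lib.Helper41.Quad.NotInvolves
import Cfsg.Agent.Lib.Helper1.SL2Free
import Cfsg.Agent.S0274
import Cfsg.Agent.S0595
import Cfsg.Agent.Lib.Helper41.Dickson.WitPSL

set_option autoImplicit false
open Cfsg

namespace Cfsg.Agent.S2787

/-- Let p be a prime and let H act by conjugation on the elementary abelian p-subgroup V of a finite group, irreducibly (no H-invariant subgroups of V other than 1 and V) and nontrivially, and suppose H/C_H(V) is isomorphic to PSL₂(F) for a field F with p^n elements, p^n odd, or p = 3 and H/C_H(V) is isomorphic to a Ree group ²G₂(3^(2m+1)), m ≥ 1. Then no subgroup A of H acting nontrivially on V acts quadratically: [V, A, A] = 1 forces [V, A] = 1. -/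
theorem result {G : Type*} [Group G] [Finite G] {p : ℕ} [Fact p.Prime] (V H : Subgroup G) (hV : Cfsg.IsElementaryAbelian p V) (hHV : H ≤ Subgroup.normalizer (V : Set G)) (hirr : ∀ U : Subgroup G, U ≤ V → H ≤ Subgroup.normalizer (U : Set G) → U = ⊥ ∨ U = V) (hnt : ¬ H ≤ Subgroup.centralizer (V : Set G)) [hn : ((Subgroup.centralizer (V : Set G)).subgroupOf H).Normal] (hq : (∃ (F : Type) (_ : Field F) (_ : Fintype F) (n : ℕ), Fintype.card F = p ^ n ∧ Odd (Fintype.card F) ∧ Nonempty (↥H ⧸ (Subgroup.centralizer (V : Set G)).subgroupOf H ≃* Matrix.ProjectiveSpecialLinearGroup (Fin 2) F)) ∨ (p = 3 ∧ Cfsg.Lie.IsoRee (↥H ⧸ (Subgroup.centralizer (V : Set G)).subgroupOf H))) (A : Subgroup G) (hA : A ≤ H) (hquad : ⁅⁅V, A⁆, A⁆ = ⊥) : ⁅V, A⁆ = ⊥ := by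
  apply Cfsg.Agent.Lib.Helper41.Quad.centralizes_of_quadratic V H hV hHV hirr ?_ A hA hquad
  intro G' _ _ V' H' hV' hHV' hf' ⟨e⟩ a haH' hq'
  have hpp : p.Prime := Fact.out
  rcases hq with ⟨F, _, _, n, hcard, hodd, ⟨e2⟩⟩ | ⟨hp3, hree⟩
  · have hp : p ≠ 2 := by
      rintro rfl
      rcases Nat.eq_zero_or_pos n with rfl | hn
      · rw [pow_zero] at hcard
        have := Fintype.one_lt_card (α := F)
        omega
      · rw [hcard] at hodd
        exact (Nat.not_even_iff_odd.2 hodd) ((Nat.even_pow.2 ⟨even_two, hn.ne'⟩))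
    have hchar : CharP F p := by
      obtain ⟨r, hr, hrc⟩ := Cfsg.Agent.Lib.Helper41.Dickson.exists_char_prime F
      obtain ⟨k, -, hk⟩ := FiniteField.card F r
      have h1 : r ∣ p ^ n := by
        rw [← hcard, hk]; exact dvd_pow_self r k.ne_zero
      have h2 := (Nat.prime_dvd_prime_iff_eq hr hpp).1 (hr.dvd_of_dvd_pow h1)
      subst h2
      exact hrc
    have hD : Cfsg.Agent.Lib.Helper1.QuadSL2.DicksonHyp p :=
      fun F _ _ _ H h => Cfsg.Agent.S0274.result p hp H h
    have hfree : ¬ Cfsg.Involves (Matrix.SpecialLinearGroup (Fin 2) (ZMod p)) ↥H' := fun hc =>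
      Cfsg.Agent.Lib.Helper41.Quad.not_involves_sl2 (F := F) p hp
        (Cfsg.Agent.Lib.Helper1.SL2Free.involves_of_injective (e.symm.trans e2).toMonoidHom
          (e.symm.trans e2).injective hc)
    exact Cfsg.Agent.Lib.Helper1.SL2Free.mem_pCore_of_quadratic hD V' H' hV' hHV' hf' hfree a haH' hq'
  · by_contra hna
    subst hp3
    obtain ⟨T⟩ : Nonempty (Sylow 2 H') := inferInstance
    have hree' : Cfsg.Lie.IsoRee ↥H' := by
      obtain ⟨K, i1, i2, m, hm, hK, ⟨e3⟩⟩ := hree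
      exact ⟨K, i1, i2, m, hm, hK, ⟨e.symm.trans e3⟩⟩
    exact Cfsg.Agent.S0595.result (by norm_num) V' H' hV' hHV' hf' a haH' hq' hna T
      (Cfsg.Agent.Lib.Helper41.Quad.ree_sylow_two_comm hree' T)

end Cfsg.Agent.S2787
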