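import Cfsg.Statements.S2791
import Cfsg.Agent.Lib.Helper49.Conj
import Cfsg.Agent.Lib.Helper49.CharP
import Cfsg.Agent.Lib.Helper2.Alperin
import Cfsg.Agent.Lib.Helper34.PResidual
import Cfsg.Agent.Lib.Helper84.ChainStab

set_option autoImplicit false
open Cfsg

namespace Cfsg.Agent.S2791

open Subgroup Cfsg.Agent.Lib.Helper49
open scoped Pointwise

variable {G : Type*} [Group G]

/-- The stabilizer in `N(H)` of the chain `H ≥ Z ≥ 1`. -/
def chainStab (H Z : Subgroup G) : Subgroup G where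
  carrier := {k | k ∈ normalizer (H : Set G) ∧ (∀ z ∈ Z, z * k = k * z) ∧
    ∀ d ∈ H, d⁻¹ * (k⁻¹ * d * k) ∈ Z}
  one_mem' := ⟨one_mem _, fun u _ => by simp, fun x _ => by simp⟩
  mul_mem' := by
    rintro h k ⟨hh1, hh2, hh3⟩ ⟨hk1, hk2, hk3⟩
    refine ⟨mul_mem hh1 hk1, fun u hu => ?_, fun x hx => ?_⟩
    · rw [← mul_assoc, hh2 u hu, mul_assoc, hk2 u hu, mul_assoc]
    · have e : x⁻¹ * ((h * k)⁻¹ * x * (h * k)) =
          (x⁻¹ * (k⁻¹ * x * k)) * (k⁻¹ * ((x⁻¹ * (h⁻¹ * x * h)) * k)) := by group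
      rw [e, hk2 _ (hh3 x hx), inv_mul_cancel_left]
      exact mul_mem (hk3 x hx) (hh3 x hx)
  inv_mem' := by
    rintro h ⟨hh1, hh2, hh3⟩
    refine ⟨inv_mem hh1, fun u hu => ?_, fun x hx => ?_⟩
    · have := hh2 u hu
      calc u * h⁻¹ = h⁻¹ * (h * u) * h⁻¹ := by group
        _ = h⁻¹ * (u * h) * h⁻¹ := by rw [this]
        _ = h⁻¹ * u := by group
    · have e : x⁻¹ * (h⁻¹⁻¹ * x * h⁻¹) = ((h * (x⁻¹ * (h⁻¹ * x * h))) * h⁻¹)⁻¹ := by group
      rw [e, ← hh2 _ (hh3 x hx), mul_inv_cancel_right]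
      exact inv_mem (hh3 x hx)

theorem conj_mem_chainStab {H Z : Subgroup G} {h m : G} (hh : h ∈ chainStab H Z)
    (hm : m ∈ normalizer (H : Set G)) (hmZ : m ∈ normalizer (Z : Set G)) : m * h * m⁻¹ ∈ chainStab H Z := by
  obtain ⟨hh1, hh2, hh3⟩ := hh
  refine ⟨mul_mem (mul_mem hm hh1) (inv_mem hm), fun u hu => ?_, fun x hx => ?_⟩
  · have hu' : m⁻¹ * u * m ∈ Z := by
      have := (mem_normalizer_iff.mp (inv_mem hmZ) u).mp hu
      simpa using this
    have := hh2 _ hu'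
    calc u * (m * h * m⁻¹) = m * ((m⁻¹ * u * m) * h) * m⁻¹ := by group
      _ = m * (h * (m⁻¹ * u * m)) * m⁻¹ := by rw [this]
      _ = m * h * m⁻¹ * u := by group
  · have hx' : m⁻¹ * x * m ∈ H := by
      have := (mem_normalizer_iff.mp (inv_mem hm) x).mp hx
      simpa using this
    have h1 := (mem_normalizer_iff.mp hmZ _).mp (hh3 _ hx')
    have e : m * ((m⁻¹ * x * m)⁻¹ * (h⁻¹ * (m⁻¹ * x * m) * h)) * m⁻¹ =
        x⁻¹ * ((m * h * m⁻¹)⁻¹ * x * (m * h * m⁻¹)) := by group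
    rwa [e] at h1

/-- If all `p'`-elements of `K` lie in `C`, then `K = T C` for a Sylow `p`-subgroup `T` of `K`. -/
theorem exists_mul_of_sylIn [Finite G] {p : ℕ} [Fact p.Prime] {K C T : Subgroup G} (hT : SylIn p T K)
    (hC : ∀ k ∈ K, (orderOf k).Coprime p → k ∈ C) {k : G} (hk : k ∈ K) : ∃ t ∈ T, ∃ c ∈ C, k = t * c := by
  obtain ⟨s, hs, u, hu, h⟩ := Cfsg.Agent.Lib.Helper34.exists_mul_pResidual (T.subgroupOf K) hT.2.2 ⟨k, hk⟩
  have hle : Cfsg.pResidual p ↥K ≤ C.subgroupOf K := by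
    unfold Cfsg.pResidual
    rw [closure_le]
    intro g hg
    have hg' : (orderOf g).Coprime p := hg
    rw [← Subgroup.orderOf_coe] at hg'
    exact mem_subgroupOf.mpr (hC g g.2 hg')
  exact ⟨s, mem_subgroupOf.mp hs, u, mem_subgroupOf.mp (hle hu), congrArg Subtype.val h⟩

section main

variable [Finite G] {p : ℕ} [Fact p.Prime] (S : Sylow p G) (A : Subgroup G)

/-- conjugation maps out of `D` into `S` are induced by `N(A)`. -/
def Ctl (D : Set G) : Prop :=
  ∀ g : G, (∀ d ∈ D, g⁻¹ * d * g ∈ (S : Subgroup G)) →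
    ∃ n ∈ normalizer (A : Set G), ∀ d ∈ D, g⁻¹ * d * g = n⁻¹ * d * n

variable {S A}

omit [Finite G] [Fact p.Prime] in
theorem normalizer_le_of_le (hsc : Cfsg.IsStronglyClosed A (S : Subgroup G)) {H Z : Subgroup G}
    (hH : H ≤ (S : Subgroup G)) (hZ : Z = H ⊓ A) : normalizer (H : Set G) ≤ normalizer (Z : Set G) := by
  have key : ∀ m ∈ normalizer (H : Set G), ∀ z ∈ Z, m * z * m⁻¹ ∈ Z := by
    intro m hm z hz
    rw [hZ] at hz ⊢
    obtain ⟨hz1, hz2⟩ := mem_inf.mp hz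
    have h1 : m * z * m⁻¹ ∈ H := (mem_normalizer_iff.mp hm z).mp hz1
    exact mem_inf.mpr ⟨h1, hsc.2 z hz2 m (hH h1)⟩
  intro m hm
  rw [mem_normalizer_iff]
  intro z
  refine ⟨key m hm z, fun h => ?_⟩
  have := key m⁻¹ (inv_mem hm) _ h
  simpa [mul_assoc] using this

theorem local_step (hA : IsMulCommutative ↥A) (hsc : Cfsg.IsStronglyClosed A (S : Subgroup G))
    {H : Subgroup G} (hH : H ≤ (S : Subgroup G))
    (htame : SylIn p ((S : Subgroup G) ⊓ normalizer (H : Set G)) (normalizer (H : Set G)))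
    (IH : ∀ H' : Subgroup G, H' ≤ (S : Subgroup G) → Nat.card H < Nat.card H' → Ctl S A (H' : Set G))
    {y : G} (hy : y ∈ normalizer (H : Set G)) :
    ∃ n ∈ normalizer (A : Set G), ∀ d ∈ H, y⁻¹ * d * y = n⁻¹ * d * n := by
  by_cases hAH : A ≤ H
  · have := normalizer_le_of_le hsc hH rfl hy
    rw [inf_eq_right.mpr hAH] at this
    exact ⟨y, this, fun d _ => rfl⟩
  set N : Subgroup G := normalizer (H : Set G) with hN
  set Z : Subgroup G := H ⊓ A with hZ
  set B : Subgroup G := A ⊓ N with hB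
  set K : Subgroup G := chainStab H Z with hK
  have hSA : (S : Subgroup G) ≤ normalizer (A : Set G) := by
    have := normalizer_le_of_le hsc (le_refl (S : Subgroup G)) rfl
    rw [inf_eq_right.mpr hsc.1] at this
    exact le_normalizer.trans this
  have hNZ : N ≤ normalizer (Z : Set G) := normalizer_le_of_le hsc hH hZ
  have hKN : K ≤ N := fun k hk => hk.1
  have hNK : N ≤ normalizer (K : Set G) := by
    rw [le_normalizer_iff]
    intro m hm k hk
    exact conj_mem_chainStab hk hm (hNZ hm)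
  have hBp : IsPGroup p B := S.isPGroup'.to_le (inf_le_left.trans hsc.1)
  -- `B` is not contained in `H`
  have hBH : ¬ B ≤ H := by
    intro hBH
    have hHA : H ⊔ A ≤ (S : Subgroup G) := sup_le hH hsc.1
    have hne : H ≠ H ⊔ A := fun h => hAH (h ▸ le_sup_right)
    have hlt := exists_mem_normalizer_not_mem (S.isPGroup'.to_le hHA) le_sup_left hne
    obtain ⟨x, hx, hxH⟩ := SetLike.exists_of_lt hlt
    obtain ⟨hx1, hx2⟩ := mem_inf.mp hx
    obtain ⟨h, hh, a, ha, rfl⟩ := Cfsg.Agent.Lib.Helper84.mem_sup_of_le_normalizer (hH.trans hSA) hx1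
    have haN : a ∈ N := by
      have := mul_mem (inv_mem (le_normalizer hh)) hx2
      rwa [inv_mul_cancel_left] at this
    exact hxH (mul_mem hh (hBH (mem_inf.mpr ⟨ha, haN⟩)))
  have hBK : B ≤ K := by
    intro b hb
    obtain ⟨hb1, hb2⟩ := mem_inf.mp hb
    refine ⟨hb2, fun z hz => ?_, fun d hd => ?_⟩
    · have := mul_comm' (⟨z, (mem_inf.mp hz).2⟩ : A) ⟨b, hb1⟩
      exact congrArg Subtype.val this
    · refine mem_inf.mpr ⟨mul_mem (inv_mem hd) ?_, ?_⟩
      · have := (mem_normalizer_iff.mp (inv_mem hb2) d).mp hd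
        simpa using this
      · have h1 : d⁻¹ * b⁻¹ * d⁻¹⁻¹ ∈ A := (mem_normalizer_iff.mp (hSA (inv_mem (hH hd))) _).mp (inv_mem hb1)
        have := mul_mem h1 hb1
        have e : d⁻¹ * b⁻¹ * d⁻¹⁻¹ * b = d⁻¹ * (b⁻¹ * d * b) := by group
        rwa [e] at this
  have hZp : IsPGroup p Z := S.isPGroup'.to_le (inf_le_left.trans hH)
  have hcop : ∀ k ∈ K, (orderOf k).Coprime p → k ∈ centralizer (H : Set G) := by
    intro k hk hko
    rw [mem_centralizer_iff]
    intro d hd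
    exact (commute_of_coprime hZp hko hk.2.2 hk.2.1 d hd).symm
  -- a Sylow subgroup of `K` inside `S`
  obtain ⟨T', hT', hT'S⟩ : ∃ T', SylIn p T' K ∧ T' ≤ (S : Subgroup G) := by
    obtain ⟨T₀, hT₀, -⟩ := exists_sylIn_ge (IsPGroup.of_bot (p := p)) (bot_le : (⊥ : Subgroup G) ≤ K)
    obtain ⟨R', hR', hTR'⟩ := exists_sylIn_ge hT₀.isPGroup (hT₀.le.trans hKN)
    obtain ⟨m, hm, hmR⟩ := hR'.exists_conj htame
    refine ⟨cj m T₀, ?_, ?_⟩
    · have := hT₀.cj m
      rwa [cj_eq_iff_mem_normalizer.mpr (hNK hm)] at this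
    · exact ((cj_mono m hTR').trans hmR.le).trans inf_le_left
  have hUK : cj y⁻¹ B ≤ K := by
    rw [← cj_eq_iff_mem_normalizer.mpr (hNK (inv_mem hy))]
    exact cj_mono _ hBK
  obtain ⟨T₁, hT₁, hUT₁⟩ := exists_sylIn_ge (isPGroup_cj y⁻¹ hBp) hUK
  obtain ⟨k, hk, hkT⟩ := hT₁.exists_conj hT'
  obtain ⟨t, ht, c, hc, rfl⟩ := exists_mul_of_sylIn hT' hcop hk
  have hcU : cj c (cj y⁻¹ B) ≤ T' := by
    have h1 : cj (t * c) (cj y⁻¹ B) ≤ T' := (cj_mono _ hUT₁).trans hkT.le
    rw [← cj_cj, cj_le_iff, cj_eq_of_mem (inv_mem ht)] at h1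
    exact h1
  have hcH : ∀ d ∈ H, c * d * c⁻¹ = d := by
    intro d hd
    have := mem_centralizer_iff.mp hc d hd
    rw [← this, mul_inv_cancel_right]
  have hyH : ∀ d ∈ H, y⁻¹ * d * y ∈ H := by
    intro d hd
    have := (mem_normalizer_iff.mp (inv_mem hy) d).mp hd
    simpa using this
  have hgH : ∀ d ∈ H, (y * c⁻¹)⁻¹ * d * (y * c⁻¹) = y⁻¹ * d * y := by
    intro d hd
    have e : (y * c⁻¹)⁻¹ * d * (y * c⁻¹) = c * (y⁻¹ * d * y) * c⁻¹ := by group
    rw [e, hcH _ (hyH d hd)]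
  have hH₁ : H ⊔ B ≤ (S : Subgroup G) := sup_le hH (inf_le_left.trans hsc.1)
  have hlt : Nat.card H < Nat.card (H ⊔ B : Subgroup G) := by
    by_contra hcon
    have : H = H ⊔ B := eq_of_le_of_card_ge le_sup_left (not_lt.mp hcon)
    exact hBH (this ▸ le_sup_right)
  have hmap : ∀ d ∈ ((H ⊔ B : Subgroup G) : Set G), (y * c⁻¹)⁻¹ * d * (y * c⁻¹) ∈ (S : Subgroup G) := by
    have : cj (y * c⁻¹)⁻¹ (H ⊔ B) ≤ (S : Subgroup G) := by
      rw [cj_sup]
      refine sup_le ?_ ?_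
      · rintro _ ⟨d, hd, rfl⟩
        have := hgH d hd
        simp only [MulEquiv.coe_toMonoidHom, MulAut.conj_apply, inv_inv]
        rw [this]
        exact hH (hyH d hd)
      · have e : (y * c⁻¹)⁻¹ = c * y⁻¹ := by group
        rw [e, ← cj_cj]
        exact hcU.trans hT'S
    intro d hd
    have h1 := this (conj_mem_cj (y * c⁻¹)⁻¹ hd)
    rwa [inv_inv] at h1
  obtain ⟨n, hn, hnd⟩ := IH (H ⊔ B) hH₁ hlt (y * c⁻¹) hmap
  refine ⟨n, hn, fun d hd => ?_⟩
  rw [← hgH d hd]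
  exact hnd d (le_sup_left (a := H) hd)

theorem ctl_all (hA : IsMulCommutative ↥A) (hsc : Cfsg.IsStronglyClosed A (S : Subgroup G)) :
    ∀ (k : ℕ) (D : Subgroup G), Nat.card G - Nat.card D = k → D ≤ (S : Subgroup G) → Ctl S A (D : Set G) := by
  intro k
  induction k using Nat.strong_induction_on with
  | _ k ih =>
    intro D hk hDS
    have IH : ∀ H' : Subgroup G, H' ≤ (S : Subgroup G) → Nat.card D < Nat.card H' → Ctl S A (H' : Set G) := by
      intro H' hH' hlt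
      have hle : Nat.card H' ≤ Nat.card G := Subgroup.card_le_card_group H'
      exact ih (Nat.card G - Nat.card H') (by omega) H' rfl hH'
    -- process an Alperin chain
    have key : ∀ (E : Set G) (g : G), Cfsg.Agent.Lib.Helper2.AChain S E g →
        (∃ u : G, E = (fun d => u⁻¹ * d * u) '' (D : Set G)) →
        ∃ n ∈ normalizer (A : Set G), ∀ d ∈ E, g⁻¹ * d * g = n⁻¹ * d * n := by
      intro E g hch
      induction hch with
      | nil E => exact fun _ => ⟨1, one_mem _, fun d _ => rfl⟩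
      | cons E Q y x ht hy hE _ ihc =>
        rintro ⟨u, hu⟩
        set H : Subgroup G := (S : Subgroup G) ⊓ (Q : Subgroup G) with hH
        have hcard : Nat.card D ≤ Nat.card H := by
          have h1 : cj u⁻¹ D ≤ H := by
            rintro _ ⟨d, hd, rfl⟩
            apply hE
            rw [hu]
            exact ⟨d, hd, by simp⟩
          rw [← card_cj u⁻¹ D]
          exact Subgroup.card_le_of_le h1
        have htame : SylIn p ((S : Subgroup G) ⊓ normalizer (H : Set G)) (normalizer (H : Set G)) :=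
          ⟨inf_le_right, S.isPGroup'.to_le inf_le_left, ht.1⟩
        obtain ⟨n₁, hn₁, h₁⟩ := local_step hA hsc inf_le_left htame
          (fun H' hH' hlt => IH H' hH' (hcard.trans_lt hlt)) hy
        obtain ⟨n₂, hn₂, h₂⟩ := ihc ⟨u * y, by
          rw [Cfsg.Agent.Lib.Helper2.cc_smul_set, hu, Set.image_image]
          apply Set.image_congr
          intro d _
          group⟩
        refine ⟨n₁ * n₂, mul_mem hn₁ hn₂, fun d hd => ?_⟩
        have hd' : y⁻¹ * d * y ∈ Cfsg.Agent.Lib.Helper2.cc y • E := by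
          rw [Cfsg.Agent.Lib.Helper2.cc_smul_set]
          exact ⟨d, hd, rfl⟩
        have e1 : (y * x)⁻¹ * d * (y * x) = x⁻¹ * (y⁻¹ * d * y) * x := by group
        have e2 : (n₁ * n₂)⁻¹ * d * (n₁ * n₂) = n₂⁻¹ * (n₁⁻¹ * d * n₁) * n₂ := by group
        rw [e1, e2, h₂ _ hd', h₁ d (hE hd)]
    intro g hg
    have hch := Cfsg.Agent.Lib.Helper2.alperin_chain S (D : Set G) g hDS (by
      rw [Cfsg.Agent.Lib.Helper2.cc_smul_set]
      rintro _ ⟨d, hd, rfl⟩
      exact hg d hd)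
    exact key _ g hch ⟨1, by simp⟩

end main

/-- Let S be a Sylow p-subgroup of the finite group G and A an abelian subgroup of S that is strongly closed in S with respect to G. Then A controls strong fusion in G: for some Sylow p-subgroup T containing A, whenever a subset of T is conjugated into T by an element of G, the same elementwise conjugation is induced by an element of N_G(A). -/
theorem result {G : Type*} [Group G] [Finite G] {p : ℕ} [Fact p.Prime] (S : Sylow p G) (A : Subgroup G) (hA : IsMulCommutative ↥A) (hsc : Cfsg.IsStronglyClosed A (S : Subgroup G)) : Cfsg.ControlsStrongFusion p A := by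
  refine ⟨S, hsc.1, fun A₀ hA₀ => ⟨hA₀, fun g hg => ?_⟩⟩
  have hD : closure A₀ ≤ (S : Subgroup G) := (closure_le _).mpr hA₀
  have hmap : ∀ d ∈ ((closure A₀ : Subgroup G) : Set G), (g⁻¹)⁻¹ * d * g⁻¹ ∈ (S : Subgroup G) := by
    have : closure A₀ ≤ cj g⁻¹ (S : Subgroup G) := by
      rw [closure_le]
      intro a ha
      have := hg ⟨a, ha, rfl⟩
      show a ∈ cj g⁻¹ (S : Subgroup G)
      rw [mem_cj, inv_inv]
      exact this
    intro d hd
    have h1 := this hd
    rwa [mem_cj] at h1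
  obtain ⟨n, hn, hnd⟩ := ctl_all hA hsc _ (closure A₀) rfl hD g⁻¹ hmap
  refine ⟨n⁻¹, inv_mem hn, fun a ha => ?_⟩
  have := hnd a (subset_closure ha)
  rw [inv_inv] at this
  rw [inv_inv]
  exact this

end Cfsg.Agent.S2791
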