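import Cfsg.Statements.S2941


set_option autoImplicit false
open Cfsg

namespace Cfsg.Agent.S2941

open scoped commutatorElement

/-- Let G be a finite group of characteristic 2 type in which every 2-local subgroup is solvable and the centralizer of Ω₁(Z(S)) lies in N_G(S) for every Sylow 2-subgroup S, and let T be a nontrivial 2-subgroup and K a J(T)-component (J the Thompson subgroup generated by the elementary abelian 2-subgroups of largest order). If a subgroup Q is normalized by ⟨K, J(T)⟩ and normalizes J(T), then Q normalizes K. -/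
theorem result {G : Type*} [Group G] [Finite G] (hL : Cfsg.IsCharacteristicTwoType G) (hN : ∀ N : Subgroup G, Cfsg.IsTwoLocal N → Group.IsSolvable ↥N)
    (hZ : ∀ S : Sylow 2 G, Subgroup.centralizer (Cfsg.omegaCenterOf (S : Subgroup G) : Set G) ≤ Subgroup.normalizer ((S : Subgroup G) : Set G)) (T : Subgroup G) (hT : IsPGroup 2 ↥T) (hT1 : T ≠ ⊥) (K : Subgroup G) (hK : Cfsg.IsJComponent T K)
    (Q : Subgroup G) (hQ1 : K ⊔ Cfsg.thompsonSubgroupOf 2 T ≤ Subgroup.normalizer (Q : Set G)) (hQ2 : Q ≤ Subgroup.normalizer (Cfsg.thompsonSubgroupOf 2 T : Set G)) :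
    Q ≤ Subgroup.normalizer (K : Set G) := by
  obtain ⟨hodd, hKJ, -⟩ := hK
  set J := Cfsg.thompsonSubgroupOf 2 T with hJdef
  have hJT : J ≤ T := Subgroup.map_subtype_le _
  have hJ2 : IsPGroup 2 J := hT.to_le hJT
  have hJK : J ≤ Subgroup.normalizer (K : Set G) := by
    have := Subgroup.normalizer_commutator_ge_right K J
    rwa [hKJ] at this
  have hKQ : K ≤ Subgroup.normalizer (Q : Set G) := le_sup_left.trans hQ1
  -- odd order elements of `K ⊔ J` lie in `K`
  have h3a : ∀ g ∈ K ⊔ J, Odd (orderOf g) → g ∈ K := by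
    intro g hg hgo
    have hg' : g ∈ ((K ⊔ J : Subgroup G) : Set G) := hg
    rw [Subgroup.coe_mul_of_right_le_normalizer_left K J hJK] at hg'
    obtain ⟨k, hk, j, hj, hkj⟩ := Set.mem_mul.mp hg'
    subst hkj
    have hk : k ∈ K := hk
    have hj : j ∈ J := hj
    have hpow : ∀ n : ℕ, ∃ k' ∈ K, (k * j) ^ n = k' * j ^ n := by
      intro n
      induction n with
      | zero => exact ⟨1, one_mem _, by simp⟩
      | succ n ih =>
        obtain ⟨k', hk', he⟩ := ih
        refine ⟨k' * (j ^ n * k * (j ^ n)⁻¹), mul_mem hk' ?_, ?_⟩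
        · exact (Subgroup.mem_normalizer_iff.mp (hJK (pow_mem hj n)) k).mp hk
        · rw [pow_succ, he, pow_succ]; group
    obtain ⟨e, he⟩ := hJ2 ⟨j, hj⟩
    have he' : j ^ 2 ^ e = 1 := congrArg Subtype.val he
    obtain ⟨k', hk', hk'e⟩ := hpow (2 ^ e)
    rw [he', mul_one] at hk'e
    have hcop : (2 ^ e).Coprime (orderOf (k * j)) :=
      Nat.Coprime.pow_left e (Nat.coprime_two_left.mpr hgo)
    obtain ⟨m, hm⟩ := exists_pow_eq_self_of_coprime hcop
    rw [← hm, hk'e]
    exact pow_mem hk' m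
  -- `Q` normalizes `K ⊔ J`
  have hQM : ∀ q ∈ Q, ∀ m ∈ K ⊔ J, q * m * q⁻¹ ∈ K ⊔ J := by
    intro q hq
    have hJq : ∀ q' ∈ Q, ∀ j ∈ J, q' * j * q'⁻¹ ∈ J := fun q' hq' j hj =>
      (Subgroup.mem_normalizer_iff.mp (hQ2 hq') j).mp hj
    have hle : K ⊔ J ≤ (K ⊔ J).comap (MulAut.conj q).toMonoidHom := by
      refine sup_le ?_ ?_
      · conv_lhs => rw [← hKJ]
        rw [Subgroup.commutator_le]
        intro k hk j hj
        rw [Subgroup.mem_comap]
        have hq' : k⁻¹ * q * k ∈ Q := by
          have := (Subgroup.mem_normalizer_iff.mp (hKQ (inv_mem hk)) q).mp hq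
          simpa using this
        have e : (MulAut.conj q).toMonoidHom ⁅k, j⁆ =
            (k * ((k⁻¹ * q * k) * j * (k⁻¹ * q * k)⁻¹) * k⁻¹) * (q * j⁻¹ * q⁻¹) := by
          simp only [MulEquiv.coe_toMonoidHom, MulAut.conj_apply, commutatorElement_def]
          group
        rw [e]
        refine mul_mem (mul_mem (mul_mem (Subgroup.mem_sup_left hk) (Subgroup.mem_sup_right (hJq _ hq' j hj)))
          (Subgroup.mem_sup_left (inv_mem hk))) (Subgroup.mem_sup_right (hJq q hq _ (inv_mem hj)))
      · intro j hj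
        exact Subgroup.mem_sup_right (hJq q hq j hj)
    intro m hm
    exact hle hm
  rw [Subgroup.le_normalizer_iff]
  intro q hq
  have hle : K ≤ K.comap (MulAut.conj q).toMonoidHom := by
    conv_lhs => rw [← hodd]
    rw [Subgroup.closure_le]
    rintro g ⟨hgK, hgo⟩
    apply h3a _ (hQM q hq g (Subgroup.mem_sup_left hgK))
    have : orderOf (q * g * q⁻¹) = orderOf g := by
      have := orderOf_injective (MulAut.conj q).toMonoidHom (MulAut.conj q).injective g
      simpa using this
    rw [this]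
    exact hgo
  intro k hk
  exact hle hk

end Cfsg.Agent.S2941
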