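import Cfsg.Statements.S2947
import Mathlib.GroupTheory.Nilpotent

set_option autoImplicit false
open Cfsg

namespace Cfsg.Agent.S2947

/-- If `M` contains the normalizer of each of its nontrivial `p`-subgroups, then `M` contains every `p`-subgroup
meeting it nontrivially. -/
theorem le_of_inf_ne_bot {G : Type*} [Group G] [Finite G] {p : ℕ} [Fact p.Prime] {M : Subgroup G}
    (hM : ∀ E : Subgroup G, IsPGroup p E → E ≠ ⊥ → E ≤ M → Subgroup.normalizer (E : Set G) ≤ M)
    {D : Subgroup G} (hD : IsPGroup p D) (hDM : D ⊓ M ≠ ⊥) : D ≤ M := by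
  by_contra hcon
  have : Group.IsNilpotent D := hD.isNilpotent
  have hnc : NormalizerCondition D := Group.normalizerCondition_of_isNilpotent
  have hlt : (D ⊓ M).subgroupOf D < ⊤ := by
    rw [lt_top_iff_ne_top]
    intro h
    rw [Subgroup.subgroupOf_eq_top] at h
    exact hcon (h.trans inf_le_right)
  obtain ⟨x, hxN, hxE⟩ := SetLike.exists_of_lt (hnc _ hlt)
  apply hxE
  rw [← Subgroup.subgroupOf_normalizer_eq inf_le_left, Subgroup.mem_subgroupOf] at hxN
  rw [Subgroup.mem_subgroupOf]
  exact Subgroup.mem_inf.mpr ⟨x.2, hM _ (hD.to_le inf_le_left) hDM inf_le_right hxN⟩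

/-- Let G be a finite group of characteristic 2 type in which every 2-local subgroup is solvable and the centralizer of Ω₁(Z(S)) lies in N_G(S) for every Sylow 2-subgroup S; suppose O₂(G) = 1, fix a Sylow 2-subgroup S and a 2-local subgroup M containing N_G(J(S)) (J the Thompson subgroup generated by the elementary abelian 2-subgroups of largest order). Then M is strongly embedded in G (a proper subgroup of even order whose intersection with each conjugate by an element outside M has odd order) if and only if no nontrivial 2-subgroup of M lies in a 2-local subgroup of G not contained in M. -/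
theorem result {G : Type*} [Group G] [Finite G] (hL : Cfsg.IsCharacteristicTwoType G) (hN : ∀ N : Subgroup G, Cfsg.IsTwoLocal N → Group.IsSolvable ↥N)
    (hZ : ∀ S : Sylow 2 G, Subgroup.centralizer (Cfsg.omegaCenterOf (S : Subgroup G) : Set G) ≤ Subgroup.normalizer ((S : Subgroup G) : Set G)) (hO : Cfsg.pCore 2 G = ⊥) (S : Sylow 2 G) (M : Subgroup G) (hM : Cfsg.IsTwoLocal M)
    (hMJ : Subgroup.normalizer (Cfsg.thompsonSubgroupOf 2 (S : Subgroup G) : Set G) ≤ M) :
    Cfsg.IsStronglyEmbedded M ↔ Cfsg.straddlingTwoSubgroups M = ∅ := by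
  have hp2 : Fact (Nat.Prime 2) := ⟨Nat.prime_two⟩
  have heven : ∀ E : Subgroup G, IsPGroup 2 E → E ≠ ⊥ → 2 ∣ Nat.card E := by
    intro E hE hE1
    obtain ⟨k, hk⟩ := IsPGroup.iff_card.mp hE
    rcases Nat.eq_zero_or_pos k with rfl | hk0
    · exact absurd (Subgroup.card_eq_one.mp (by simpa using hk)) hE1
    · rw [hk]; exact dvd_pow_self 2 hk0.ne'
  constructor
  · rintro ⟨-, -, hse⟩
    have hMN : ∀ E : Subgroup G, IsPGroup 2 E → E ≠ ⊥ → E ≤ M → Subgroup.normalizer (E : Set G) ≤ M := by
      intro E hE hE1 hEM g hg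
      by_contra hgM
      have hodd := hse g hgM
      have hle : E ≤ M ⊓ M.map (MulAut.conj g).toMonoidHom := by
        refine le_inf hEM ?_
        intro e he
        have he' : g⁻¹ * e * g ∈ E := by
          have := (Subgroup.mem_normalizer_iff.mp (inv_mem hg) e).mp he
          simpa using this
        exact ⟨g⁻¹ * e * g, hEM he', by simp [mul_assoc]⟩
      have h2 : 2 ∣ Nat.card ↥(M ⊓ M.map (MulAut.conj g).toMonoidHom) :=
        (heven E hE hE1).trans (Subgroup.card_dvd_of_le hle)
      exact hodd.not_two_dvd_nat h2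
    rw [Set.eq_empty_iff_forall_notMem]
    rintro T ⟨hT2, hT1, hTM, L, ⟨U, hU2, hU1, rfl⟩, hTL, hLM⟩
    apply hLM
    have hD : IsPGroup 2 ↥(T ⊔ U) := hT2.to_sup_of_normal_right' hU2 hTL
    have hDM : (T ⊔ U) ⊓ M ≠ ⊥ := by
      intro h
      apply hT1
      rw [eq_bot_iff, ← h]
      exact le_inf le_sup_left hTM
    exact hMN U hU2 hU1 (le_sup_right.trans (le_of_inf_ne_bot hMN hD hDM))
  · intro hempty
    have hMN : ∀ E : Subgroup G, IsPGroup 2 E → E ≠ ⊥ → E ≤ M → Subgroup.normalizer (E : Set G) ≤ M := by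
      intro E hE hE1 hEM
      by_contra hcon
      have : E ∈ Cfsg.straddlingTwoSubgroups M :=
        ⟨hE, hE1, hEM, _, ⟨E, hE, hE1, rfl⟩, Subgroup.le_normalizer, hcon⟩
      rw [hempty] at this
      exact this
    obtain ⟨U, hU2, hU1, hMU⟩ := hM
    refine ⟨?_, ?_, ?_⟩
    · intro htop
      apply hU1
      rw [eq_bot_iff, ← hO]
      have hUn : U.Normal := Subgroup.normalizer_eq_top_iff.mp (hMU ▸ htop)
      exact le_sSup ⟨hUn, hU2⟩
    · have hUM : U ≤ M := hMU ▸ Subgroup.le_normalizer
      exact (even_iff_two_dvd).mpr ((heven U hU2 hU1).trans (Subgroup.card_dvd_of_le hUM))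
    · intro g hg
      by_contra hnodd
      rw [Nat.not_odd_iff_even, even_iff_two_dvd] at hnodd
      set H : Subgroup G := M ⊓ M.map (MulAut.conj g).toMonoidHom with hH
      obtain ⟨P⟩ : Nonempty (Sylow 2 H) := inferInstance
      have hP1 : (P : Subgroup H) ≠ ⊥ := P.ne_bot_of_dvd_card hnodd
      set D : Subgroup G := (P : Subgroup H).map H.subtype with hD
      have hD2 : IsPGroup 2 D := P.isPGroup'.map _
      have hD1 : D ≠ ⊥ := by
        intro h
        apply hP1
        exact (Subgroup.map_eq_bot_iff_of_injective _ H.subtype_injective).mp h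
      have hDH : D ≤ H := Subgroup.map_subtype_le _
      -- `D' = g⁻¹ D g ≤ M`
      set D' : Subgroup G := D.map (MulAut.conj g⁻¹).toMonoidHom with hD'
      have hD'2 : IsPGroup 2 D' := hD2.map _
      have hD'1 : D' ≠ ⊥ := by
        intro h
        apply hD1
        exact (Subgroup.map_eq_bot_iff_of_injective _ (MulAut.conj g⁻¹).injective).mp h
      have hD'M : D' ≤ M := by
        rintro _ ⟨d, hd, rfl⟩
        obtain ⟨m, hm, hmd⟩ := (Subgroup.mem_inf.mp (hDH hd)).2
        rw [← hmd]
        simpa [mul_assoc] using hm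
      obtain ⟨S₂, hS₂⟩ := hD'2.exists_le_sylow
      have hS₂M : (S₂ : Subgroup G) ≤ M := by
        apply le_of_inf_ne_bot hMN S₂.isPGroup'
        intro h
        apply hD'1
        rw [eq_bot_iff, ← h]
        exact le_inf hS₂ hD'M
      have hgS₂M : ((g • S₂ : Sylow 2 G) : Subgroup G) ≤ M := by
        apply le_of_inf_ne_bot hMN (g • S₂).isPGroup'
        intro h
        apply hD1
        rw [eq_bot_iff, ← h]
        refine le_inf ?_ (hDH.trans inf_le_left)
        intro d hd
        rw [Sylow.coe_subgroup_smul]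
        refine ⟨g⁻¹ * d * g, hS₂ ⟨d, hd, by simp⟩, ?_⟩
        simp [mul_assoc]
      obtain ⟨m, hm⟩ := MulAction.exists_smul_eq M ((g • S₂ : Sylow 2 G).subtype hgS₂M) (S₂.subtype hS₂M)
      rw [Sylow.smul_subtype hgS₂M m] at hm
      have hm' : (m : G) • (g • S₂) = S₂ := Sylow.subtype_injective hm
      rw [← mul_smul, Sylow.smul_eq_iff_mem_normalizer] at hm'
      have hS₂1 : (S₂ : Subgroup G) ≠ ⊥ := by
        intro h
        apply hD'1
        rw [eq_bot_iff, ← h]
        exact hS₂
      have h3 : (m : G) * g ∈ M := hMN _ S₂.isPGroup' hS₂1 hS₂M hm'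
      apply hg
      have : g = (m : G)⁻¹ * ((m : G) * g) := by group
      rw [this]
      exact mul_mem (inv_mem m.2) h3

end Cfsg.Agent.S2947
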