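import Cfsg.Statements.S3103
import Cfsg.Agent.Lib.Helper30.A8GL4
import Cfsg.Agent.Lib.Helper30.FrattiniCentral
import Cfsg.Agent.Lib.Helper54.PConstrained
import Cfsg.Agent.Lib.Helper90.Extraspecial

set_option autoImplicit false
open Cfsg

namespace Cfsg.Agent.S3103

open Cfsg.Agent.Lib.Helper30 Cfsg.Agent.Lib.Helper30.A7GL

/-- automorphisms act on the quotient by a characteristic subgroup -/
noncomputable def autQ {P : Type*} [Group P] (N : Subgroup P) [hN : N.Characteristic] :
    MulAut P →* MulAut (P ⧸ N) where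
  toFun β := QuotientGroup.congr N N β (Subgroup.characteristic_iff_map_eq.mp hN β)
  map_one' := by
    ext x
    obtain ⟨x, rfl⟩ := QuotientGroup.mk_surjective x
    rfl
  map_mul' α β := by
    ext x
    obtain ⟨x, rfl⟩ := QuotientGroup.mk_surjective x
    rfl

theorem autQ_mk {P : Type*} [Group P] (N : Subgroup P) [hN : N.Characteristic] (β : MulAut P) (x : P) :
    autQ N β (x : P ⧸ N) = ((β x : P) : P ⧸ N) := rfl

/-- extend an automorphism by the identity on a second factor -/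
def autProd (V C : Type*) [Group V] [Group C] : MulAut V →* MulAut (V × C) where
  toFun f := MulEquiv.prodCongr f (MulEquiv.refl C)
  map_one' := by ext x <;> rfl
  map_mul' f g := by ext x <;> rfl

theorem autProd_injective (V C : Type*) [Group V] [Group C] : Function.Injective (autProd V C) := by
  intro f g h
  ext v
  exact congrArg (fun k : MulAut (V × C) => (k (v, 1)).1) h

/-- the automorphism group of an elementary abelian 2-group of order at most 16 embeds in `A₈`. -/
theorem exists_emb (V : Type*) [Group V] [Finite V] (hcomm : ∀ x y : V, x * y = y * x)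
    (hexp : ∀ x : V, x ^ 2 = 1) (hcard : Nat.card V ≤ 16) :
    ∃ f : MulAut V →* ↥(alternatingGroup (Fin 8)), Function.Injective f := by
  have hfact : Fact (Nat.Prime 2) := ⟨Nat.prime_two⟩
  have hp : IsPGroup 2 V := fun x => ⟨1, by simpa using hexp x⟩
  obtain ⟨r, hr⟩ := IsPGroup.iff_card.mp hp
  have hr4 : r ≤ 4 := by
    by_contra hcon
    have h5 : 5 ≤ r := by omega
    have : 2 ^ 5 ≤ 2 ^ r := Nat.pow_le_pow_right (by norm_num) h5
    omega
  let C := Multiplicative (Fin (4 - r) → ZMod 2)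
  have hC : Nat.card C = 2 ^ (4 - r) := by
    change Nat.card (Fin (4 - r) → ZMod 2) = _
    rw [Nat.card_fun]
    simp
  obtain ⟨e1⟩ := nonempty_mulAut_equiv_GL' (V × C) 2 4
    (fun x y => Prod.ext (hcomm _ _) (mul_comm _ _))
    (fun x => Prod.ext (hexp _) (by
      change Multiplicative.ofAdd ((2 : ℕ) • (Multiplicative.toAdd x.2)) = 1
      have : (2 : ℕ) • (Multiplicative.toAdd x.2) = 0 := by
        ext i
        simp only [Pi.smul_apply, Pi.zero_apply, nsmul_eq_mul]
        have h2 : ((2 : ℕ) : ZMod 2) = 0 := rfl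
        rw [h2, zero_mul]
      rw [this]; rfl))
    (by rw [Nat.card_prod, hr, hC, ← pow_add]; congr 1; omega)
  obtain ⟨e⟩ := nonempty_alt8_equiv_GL4
  exact ⟨(e.symm.toMonoidHom.comp e1.toMonoidHom).comp (autProd V C),
    (e.symm.injective.comp e1.injective).comp (autProd_injective V C)⟩

/-- Let X be a finite 2-constrained group with no nontrivial normal subgroup of odd order such that O₂(X) has sectional 2-rank at most 4. Then X/O₂(X) is isomorphic to a subgroup of the alternating group of degree 8. -/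
theorem result {X : Type*} [Group X] [Finite X] (hc : Cfsg.IsPConstrained 2 X) (hO : Cfsg.oddCore X = ⊥)
    (h4 : Cfsg.SectionalPRankLE 2 4 ↥(Cfsg.pCore 2 X)) :
    ∃ f : X ⧸ Cfsg.pCore 2 X →* ↥(alternatingGroup (Fin 8)), Function.Injective f := by
  have hfact : Fact (Nat.Prime 2) := ⟨Nat.prime_two⟩
  have hsc : Subgroup.centralizer (pCore 2 X : Set X) ≤ pCore 2 X :=
    (Cfsg.Agent.Lib.Helper54.isPConstrained_iff_of_pPrimeCore_eq_bot hO).mp hc
  set Q := pCore 2 X with hQ
  have hQp : IsPGroup 2 ↥Q := Cfsg.Agent.Lib.Lead.pCore_isPGroup 2 X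
  have hsq : ∀ q : ↥Q, q ^ 2 ∈ frattini ↥Q := Cfsg.Agent.Lib.Helper90.pow_mem_frattini hQp
  have hcm : ∀ a b : ↥Q, a * b * a⁻¹ * b⁻¹ ∈ frattini ↥Q := fun a b =>
    Cfsg.Agent.Lib.Helper90.commutator_le_frattini hQp
      (Subgroup.commutator_mem_commutator (Subgroup.mem_top a) (Subgroup.mem_top b))
  let ρ : X →* MulAut (↥Q ⧸ frattini ↥Q) := (autQ (frattini ↥Q)).comp (MulAut.conjNormal (H := Q))
  have hker : ρ.ker = Q := by
    ext x
    rw [MonoidHom.mem_ker]
    constructor
    · intro hx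
      apply mem_pCore_of_commutator_mem_frattini 2 hsc
      intro q hq
      have h1 : ρ x ((⟨q, hq⟩ : ↥Q) : ↥Q ⧸ frattini ↥Q) = ((⟨q, hq⟩ : ↥Q) : ↥Q ⧸ frattini ↥Q) := by
        rw [hx]; rfl
      change (((MulAut.conjNormal x (⟨q, hq⟩ : ↥Q) : ↥Q)) : ↥Q ⧸ frattini ↥Q) = _ at h1
      rw [QuotientGroup.eq_iff_div_mem, div_eq_mul_inv] at h1
      exact ⟨_, h1, by simp [MulAut.conjNormal_apply]⟩
    · intro hx
      ext y
      obtain ⟨q, rfl⟩ := QuotientGroup.mk_surjective y
      change (((MulAut.conjNormal x q : ↥Q)) : ↥Q ⧸ frattini ↥Q) = (q : ↥Q ⧸ frattini ↥Q)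
      rw [QuotientGroup.eq_iff_div_mem, div_eq_mul_inv]
      have h2 : MulAut.conjNormal x q * q⁻¹ = (⟨x, hx⟩ : ↥Q) * q * (⟨x, hx⟩ : ↥Q)⁻¹ * q⁻¹ := by
        apply Subtype.ext
        simp [MulAut.conjNormal_apply]
      rw [h2]
      exact hcm _ _
  have hcomm : ∀ a b : ↥Q ⧸ frattini ↥Q, a * b = b * a := by
    intro a b
    obtain ⟨a, rfl⟩ := QuotientGroup.mk_surjective a
    obtain ⟨b, rfl⟩ := QuotientGroup.mk_surjective b
    rw [← QuotientGroup.mk_mul, ← QuotientGroup.mk_mul, QuotientGroup.eq_iff_div_mem, div_eq_mul_inv]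
    have : a * b * (b * a)⁻¹ = a * b * a⁻¹ * b⁻¹ := by group
    rw [this]
    exact hcm a b
  have hexp : ∀ a : ↥Q ⧸ frattini ↥Q, a ^ 2 = 1 := by
    intro a
    obtain ⟨a, rfl⟩ := QuotientGroup.mk_surjective a
    rw [← QuotientGroup.mk_pow, QuotientGroup.eq_one_iff]
    exact hsq a
  have hcard : Nat.card (↥Q ⧸ frattini ↥Q) ≤ 16 := by
    have hN : ((frattini ↥Q).subgroupOf ⊤).Normal := inferInstance
    have h5 := h4 ⊤ ((frattini ↥Q).subgroupOf ⊤) ⊤
      ⟨⟨by
        rintro ⟨a, -⟩ ⟨b, -⟩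
        apply Subtype.ext
        obtain ⟨a, rfl⟩ := QuotientGroup.mk_surjective a
        obtain ⟨b, rfl⟩ := QuotientGroup.mk_surjective b
        change ((a : _ ⧸ (frattini ↥Q).subgroupOf ⊤)) * b = b * a
        rw [← QuotientGroup.mk_mul, ← QuotientGroup.mk_mul, QuotientGroup.eq_iff_div_mem,
          div_eq_mul_inv, Subgroup.mem_subgroupOf]
        have : ((a * b * (b * a)⁻¹ : ↥(⊤ : Subgroup ↥Q)) : ↥Q) = a.1 * b.1 * a.1⁻¹ * b.1⁻¹ := by
          simp only [Subgroup.coe_mul, Subgroup.coe_inv]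
          group
        rw [this]
        exact hcm _ _⟩⟩
      (by
        intro a _
        obtain ⟨a, rfl⟩ := QuotientGroup.mk_surjective a
        rw [← QuotientGroup.mk_pow, QuotientGroup.eq_one_iff, Subgroup.mem_subgroupOf]
        exact hsq a.1)
    rw [Subgroup.card_top] at h5
    have h6 : Nat.card (↥(⊤ : Subgroup ↥Q) ⧸ (frattini ↥Q).subgroupOf ⊤) =
        Nat.card (↥Q ⧸ frattini ↥Q) := by
      rw [← Subgroup.index_eq_card, ← Subgroup.index_eq_card]
      exact Subgroup.relIndex_top_right _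
    rw [h6] at h5
    exact h5
  obtain ⟨f, hf⟩ := exists_emb (↥Q ⧸ frattini ↥Q) hcomm hexp hcard
  refine ⟨(f.comp (QuotientGroup.kerLift ρ)).comp
    (QuotientGroup.quotientMulEquivOfEq hker.symm).toMonoidHom, ?_⟩
  exact (hf.comp (QuotientGroup.kerLift_injective ρ)).comp
    (QuotientGroup.quotientMulEquivOfEq hker.symm).injective

end Cfsg.Agent.S3103
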