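import Cfsg.Statements.S3356

set_option autoImplicit false
open Cfsg

namespace Cfsg.Agent.S3356
open MulAction Pointwise

theorem card_dvd_mul {B X : Type*} [Group B] [Finite B] [MulAction B X] [Finite X] (c : ℕ)
    (h : ∀ x : X, Nat.card (stabilizer B x) = c) : Nat.card B ∣ Nat.card X * c := by
  classical
  have := Fintype.ofFinite (orbitRel.Quotient B X)
  have h1 := Nat.card_congr (selfEquivSigmaOrbits B X)
  rw [Nat.card_sigma] at h1
  rw [h1, Finset.sum_mul]
  apply Finset.dvd_sum
  intro ω _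
  have h2 := Subgroup.card_mul_index (stabilizer B (Quotient.out ω))
  rw [index_stabilizer, h, ← Nat.card_coe_set_eq] at h2
  rw [mul_comm, h2]

theorem card_orbit_dvd {B X : Type*} [Group B] [MulAction B X] (x : X) :
    Nat.card (orbit B x) ∣ Nat.card B := by
  rw [Nat.card_coe_set_eq, ← index_stabilizer]
  exact Subgroup.index_dvd_card _

theorem stab_eq {A Y : Type*} [Group A] [Finite A] [MulAction A Y] (F : Set Y) (hF : F.Finite)
    (c s : ℕ) (hc0 : 0 < c) (hA : Nat.card A = s * c) (hc : ∀ y ∈ F, Nat.card (stabilizer A y) = c)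
    (hcop : (Nat.card F).Coprime s) (hle : ∀ y ∈ F, stabilizer A y ≤ stabilizer A F)
    (y : Y) (hy : y ∈ F) : stabilizer A y = stabilizer A F := by
  have : Finite F := hF
  set B := stabilizer A F with hB
  have h1 : Nat.card B ∣ Nat.card F * c := by
    apply card_dvd_mul
    intro x
    have h2 : stabilizer B x = (stabilizer A (x : Y)).subgroupOf B := by
      ext g
      rw [mem_stabilizer_iff, Subgroup.mem_subgroupOf, mem_stabilizer_iff, ← Subtype.coe_inj]
      rfl
    rw [h2, Nat.card_congr (Subgroup.subgroupOfEquivOfLe (hle x x.2)).toEquiv, hc x x.2]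
  have h3 : c ∣ Nat.card B := by
    rw [← hc y hy]
    exact Subgroup.card_dvd_of_le (hle y hy)
  obtain ⟨e, he⟩ := h3
  have h4 : Nat.card B ∣ s * c := by rw [← hA]; exact Subgroup.card_subgroup_dvd_card B
  rw [he, mul_comm c e] at h1 h4
  have h5 : e ∣ Nat.card F := Nat.dvd_of_mul_dvd_mul_right hc0 h1
  have h6 : e ∣ s := Nat.dvd_of_mul_dvd_mul_right hc0 h4
  have h7 : e = 1 := Nat.eq_one_of_dvd_coprimes hcop h5 h6
  apply Subgroup.eq_of_le_of_card_ge (hle y hy)
  rw [hc y hy, he, h7, mul_one]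

/-- Let G be a finite 3/2-transitive permutation group: G acts faithfully and transitively on a finite set, the point stabilizers are non-trivial, and for each point a all orbits of G_a on the remaining points have the same size. Suppose G has a regular normal subgroup N and G is not a Frobenius group (some two-point stabilizer is non-trivial). Then N is an elementary abelian p-group for some prime p, and every non-trivial normal subgroup of G contains N (so N is the unique minimal normal subgroup). -/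
theorem result {G Ω : Type*} [Group G] [Finite G]
    [MulAction G Ω] [FaithfulSMul G Ω] [Finite Ω] (htrans : MulAction.IsPretransitive G Ω)
    (hne : ∀ a : Ω, MulAction.stabilizer G a ≠ ⊥)
    (hhalf : ∀ a b c : Ω, b ≠ a → c ≠ a →
      Nat.card (MulAction.orbit (MulAction.stabilizer G a) b) = Nat.card (MulAction.orbit (MulAction.stabilizer G a) c))
    (N : Subgroup G) [hN : N.Normal] (hNt : MulAction.IsPretransitive N Ω) (hNr : ∀ a : Ω, MulAction.stabilizer N a = ⊥)
    (hnotF : ∃ a b : Ω, a ≠ b ∧ MulAction.stabilizer G a ⊓ MulAction.stabilizer G b ≠ ⊥) :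
    (∃ p : ℕ, p.Prime ∧ IsMulCommutative N ∧ ∀ x ∈ N, x ^ p = 1) ∧
    (∀ M : Subgroup G, M.Normal → M ≠ ⊥ → N ≤ M) := by
  classical
  obtain ⟨a, b, hab, hSab⟩ := hnotF
  set A := stabilizer G a with hAdef
  have hreg : ∀ n ∈ N, ∀ ω : Ω, n • ω = ω → n = 1 := by
    intro n hn ω hnω
    have h1 : (⟨n, hn⟩ : N) ∈ stabilizer N ω := hnω
    rw [hNr ω, Subgroup.mem_bot] at h1
    exact congrArg Subtype.val h1
  have hreg2 : ∀ n₁ ∈ N, ∀ n₂ ∈ N, n₁ • a = n₂ • a → n₁ = n₂ := by
    intro n₁ h₁ n₂ h₂ h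
    have := hreg (n₂⁻¹ * n₁) (N.mul_mem (N.inv_mem h₂) h₁) a (by rw [mul_smul, h, inv_smul_smul])
    exact (inv_mul_eq_one.mp this).symm
  have hsurj : ∀ ω : Ω, ∃ n ∈ N, n • a = ω := by
    intro ω
    obtain ⟨n, hn⟩ := hNt.exists_smul_eq a ω
    exact ⟨n, n.2, hn⟩
  have hact : ∀ (h : A) (x : G), h • (x • a) = ((h : G) * x * (h : G)⁻¹) • a := by
    intro h x
    have h1 : (h : G)⁻¹ • a = a := by rw [inv_smul_eq_iff]; exact (h.2 : (h : G) • a = a).symm
    rw [mul_smul, mul_smul, h1]
    rfl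
  have hst : ∀ (h : A) (x : G), x ∈ N → (h ∈ stabilizer A (x • a) ↔ (h : G) * x = x * h) := by
    intro h x hx
    rw [mem_stabilizer_iff, hact]
    constructor
    · intro h1
      have := hreg2 _ (hN.conj_mem x hx h) x hx h1
      exact mul_inv_eq_iff_eq_mul.1 this
    · intro h1
      rw [mul_inv_eq_iff_eq_mul.2 h1]
  have hne1 : ∀ x ∈ N, x ≠ 1 → x • a ≠ a := fun x hx hx1 h => hx1 (hreg x hx a h)
  -- the numbers s and c
  set c := Nat.card (stabilizer A b) with hcdef
  set s := Nat.card (orbit A b) with hsdef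
  have hos : ∀ ω : Ω, Nat.card (orbit A ω) * Nat.card (stabilizer A ω) = Nat.card A := by
    intro ω
    have h2 := Subgroup.card_mul_index (stabilizer A ω)
    rw [index_stabilizer, ← Nat.card_coe_set_eq] at h2
    rw [mul_comm, h2]
  have hsc : Nat.card A = s * c := (hos b).symm
  have hs0 : 0 < s := by
    rcases Nat.eq_zero_or_pos s with h | h
    · rw [h, zero_mul] at hsc
      exact absurd hsc Nat.card_pos.ne'
    · exact h
  have hcω : ∀ ω : Ω, ω ≠ a → Nat.card (stabilizer A ω) = c := by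
    intro ω hω
    have h1 := hos ω
    rw [hhalf a ω b hω hab.symm, ← hsdef, hsc] at h1
    exact Nat.eq_of_mul_eq_mul_left hs0 h1
  have hc1 : 1 < c := by
    obtain ⟨g, hg1⟩ := (Subgroup.ne_bot_iff_exists_ne_one).1 hSab
    have hgA : (g : G) ∈ A := (Subgroup.mem_inf.1 g.2).1
    have hgb : (g : G) • b = b := (Subgroup.mem_inf.1 g.2).2
    have hnt : Nontrivial (stabilizer A b) :=
      ⟨⟨⟨⟨g, hgA⟩, hgb⟩, 1, fun h => hg1 (Subtype.ext
        (congrArg (fun z : stabilizer A b => ((z : A) : G)) h))⟩⟩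
    exact Finite.one_lt_card
  have hc0 : 0 < c := by omega
  have hbij : Function.Bijective (fun v : N => (v : G) • a) :=
    ⟨fun x y hxy => Subtype.ext (hreg2 x x.2 y y.2 hxy), fun ω => by
      obtain ⟨n, hn, hnω⟩ := hsurj ω
      exact ⟨⟨n, hn⟩, hnω⟩⟩
  have hcardN : Nat.card N = Nat.card Ω := Nat.card_eq_of_bijective _ hbij
  have hcop : (Nat.card N).Coprime s := by
    have h1 : Nat.card A ∣ Nat.card (SubMulAction.ofStabilizer G a) * c := by
      apply card_dvd_mul
      intro x
      rw [SubMulAction.stabilizer_of_subMul]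
      exact hcω x (SubMulAction.neq_of_mem_ofStabilizer G a)
    rw [SubMulAction.nat_card_ofStabilizer_eq, hsc] at h1
    have h2 : s ∣ Nat.card Ω - 1 := Nat.dvd_of_mul_dvd_mul_right hc0 h1
    rw [← hcardN] at h2
    have h3 : 1 ≤ Nat.card N := Nat.card_pos
    exact Nat.Coprime.coprime_dvd_right h2
      ((Nat.coprime_self_sub_right h3).2 (Nat.coprime_one_right _))
  have hmono : ∀ x ∈ N, x ≠ 1 → ∀ y ∈ N, y ≠ 1 → stabilizer A (x • a) ≤ stabilizer A (y • a) →
      stabilizer A (x • a) = stabilizer A (y • a) := by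
    intro x hx hx1 y hy hy1 hle
    apply Subgroup.eq_of_le_of_card_ge hle
    rw [hcω _ (hne1 x hx hx1), hcω _ (hne1 y hy hy1)]
  -- an element of `A` centralising `N` is trivial
  have hfaith : ∀ h : A, (∀ y ∈ N, (h : G) * y = y * h) → h = 1 := by
    intro h hh
    apply Subtype.ext
    apply FaithfulSMul.eq_of_smul_eq_smul (α := Ω)
    intro ω
    obtain ⟨n, hn, rfl⟩ := hsurj ω
    rw [Subgroup.coe_one, one_smul]
    exact (hst h n hn).2 (hh n hn)
  -- first application: conjugates in `N`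
  have hconj : ∀ x ∈ N, x ≠ 1 → ∀ n ∈ N,
      stabilizer A ((n * x * n⁻¹) • a) = stabilizer A (x • a) := by
    intro x hx hx1 n hn
    set F : Set Ω := (fun v : N => (v : G) • a) '' (orbit (ConjAct N) (⟨x, hx⟩ : N)) with hF
    have hFmem : ∀ ω : Ω, ω ∈ F ↔ ∃ m ∈ N, ω = (m * x * m⁻¹) • a := by
      intro ω
      constructor
      · rintro ⟨_, ⟨g, rfl⟩, rfl⟩
        refine ⟨(ConjAct.ofConjAct g : N), (ConjAct.ofConjAct g : N).2, ?_⟩
        change ((g • (⟨x, hx⟩ : N) : N) : G) • a = _
        rw [ConjAct.smul_def]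
        rfl
      · rintro ⟨m, hm, rfl⟩
        refine ⟨_, ⟨ConjAct.toConjAct (⟨m, hm⟩ : N), rfl⟩, ?_⟩
        change ((ConjAct.toConjAct (⟨m, hm⟩ : N) • (⟨x, hx⟩ : N) : N) : G) • a = _
        rw [ConjAct.smul_def]
        rfl
    have hFcard : (Nat.card F).Coprime s := by
      apply Nat.Coprime.coprime_dvd_left _ hcop
      rw [hF, Nat.card_coe_set_eq, Set.ncard_image_of_injective _ hbij.1, ← Nat.card_coe_set_eq]
      exact card_orbit_dvd (B := ConjAct N) _
    have key := stab_eq (A := A) F (Set.toFinite F) c s hc0 hsc (by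
      intro ω hω
      obtain ⟨m, hm, rfl⟩ := (hFmem ω).1 hω
      apply hcω
      apply hne1 _ (hN.conj_mem x hx m)
      intro h
      apply hx1
      have : m * x * m⁻¹ = m * 1 * m⁻¹ := by rw [h]; group
      simpa using this) hFcard (by
      intro ω hω h hh
      obtain ⟨m, hm, rfl⟩ := (hFmem ω).1 hω
      rw [hst h _ (hN.conj_mem x hx m)] at hh
      rw [mem_stabilizer_set_iff_smul_set_subset (Set.toFinite F)]
      rintro _ ⟨ω', hω', rfl⟩
      obtain ⟨k, hk, rfl⟩ := (hFmem ω').1 hω'
      change h • ((k * x * k⁻¹) • a) ∈ F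
      rw [hact, hFmem]
      refine ⟨(h : G) * (k * m⁻¹) * (h : G)⁻¹ * m,
        N.mul_mem (hN.conj_mem _ (N.mul_mem hk (N.inv_mem hm)) h) hm, ?_⟩
      congr 1
      have e1 : (h : G) * (k * x * k⁻¹) * (h : G)⁻¹
          = ((h : G) * (k * m⁻¹) * (h : G)⁻¹) * ((h : G) * (m * x * m⁻¹) * (h : G)⁻¹)
            * ((h : G) * (k * m⁻¹) * (h : G)⁻¹)⁻¹ := by group
      rw [e1, hh, mul_inv_cancel_right]
      group)
    rw [key _ ((hFmem _).2 ⟨n, hn, rfl⟩), key (x • a) ((hFmem _).2 ⟨1, N.one_mem, by simp⟩)]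
  -- commuting of elements with different stabilisers
  have hinv : ∀ (h : A) (x : G), (h : G) * x = x * h → (h : G) * x⁻¹ = x⁻¹ * h := by
    intro h x hx
    rw [eq_inv_mul_iff_mul_eq, ← mul_assoc, ← hx, mul_inv_cancel_right]
  have hmul : ∀ (h : A) (x y : G), (h : G) * x = x * h → (h : G) * y = y * h →
      (h : G) * (x * y) = (x * y) * h := by
    intro h x y hx hy
    rw [← mul_assoc, hx, mul_assoc, hy, mul_assoc]
  have hcomm1 : ∀ x ∈ N, x ≠ 1 → ∀ y ∈ N, y ≠ 1 → stabilizer A (x • a) ≠ stabilizer A (y • a) →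
      x * y = y * x := by
    intro x hx hx1 y hy hy1 hne
    by_contra hxy
    set w := x * y * x⁻¹ * y⁻¹ with hw
    have hwN : w ∈ N := N.mul_mem (N.mul_mem (N.mul_mem hx hy) (N.inv_mem hx)) (N.inv_mem hy)
    have hw1 : w ≠ 1 := by
      intro h
      apply hxy
      rw [hw, mul_inv_eq_one, mul_inv_eq_iff_eq_mul] at h
      exact h
    have h1 : stabilizer A (x • a) ≤ stabilizer A (w • a) := by
      intro h hh
      have h2 : h ∈ stabilizer A ((y * x * y⁻¹) • a) := by rw [hconj x hx hx1 y hy]; exact hh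
      rw [hst h _ (hN.conj_mem x hx y)] at h2
      rw [hst h x hx] at hh
      rw [hst h w hwN]
      have e : w = x * (y * x * y⁻¹)⁻¹ := by rw [hw]; group
      rw [e]
      exact hmul h _ _ hh (hinv h _ h2)
    have h2 : stabilizer A (y • a) ≤ stabilizer A (w • a) := by
      intro h hh
      have h2 : h ∈ stabilizer A ((x * y * x⁻¹) • a) := by rw [hconj y hy hy1 x hx]; exact hh
      rw [hst h _ (hN.conj_mem y hy x)] at h2
      rw [hst h y hy] at hh
      rw [hst h w hwN]
      have e : w = (x * y * x⁻¹) * y⁻¹ := by rw [hw]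
      rw [e]
      exact hmul h _ _ h2 (hinv h _ hh)
    exact hne ((hmono x hx hx1 w hwN hw1 h1).trans (hmono y hy hy1 w hwN hw1 h2).symm)
  -- given x ≠ 1 there is y with a different stabiliser, also for x * y
  have hother : ∀ x ∈ N, x ≠ 1 → ∃ y ∈ N, y ≠ 1 ∧ x * y ≠ 1 ∧
      stabilizer A (y • a) ≠ stabilizer A (x • a) ∧
      stabilizer A ((x * y) • a) ≠ stabilizer A (x • a) := by
    intro x hx hx1
    have hnt : Nontrivial (stabilizer A (x • a)) := by
      apply (Finite.one_lt_card_iff_nontrivial).1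
      rw [hcω _ (hne1 x hx hx1)]
      exact hc1
    obtain ⟨h, hh1⟩ := exists_ne (1 : stabilizer A (x • a))
    have hhx : ((h : A) : G) * x = x * h := (hst h x hx).1 h.2
    have : ¬ ∀ y ∈ N, ((h : A) : G) * y = y * (h : A) := fun hall =>
      hh1 (Subtype.ext (hfaith h hall))
    push Not at this
    obtain ⟨y, hy, hhy⟩ := this
    refine ⟨y, hy, ?_, ?_, ?_, ?_⟩
    · rintro rfl
      simp at hhy
    · intro h1
      apply hhy
      have : y = x⁻¹ := (eq_inv_of_mul_eq_one_right h1)
      rw [this]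
      exact hinv h x hhx
    · intro h1
      apply hhy
      have : (h : A) ∈ stabilizer A (y • a) := by rw [h1]; exact h.2
      exact (hst h y hy).1 this
    · intro h1
      apply hhy
      have : (h : A) ∈ stabilizer A ((x * y) • a) := by rw [h1]; exact h.2
      have h2 := (hst h _ (N.mul_mem hx hy)).1 this
      have e : y = x⁻¹ * (x * y) := by group
      rw [e]
      exact hmul h _ _ (hinv h x hhx) h2
  have hcomm : ∀ x ∈ N, ∀ y ∈ N, x * y = y * x := by
    intro x hx x' hx'
    by_cases hx1 : x = 1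
    · rw [hx1, one_mul, mul_one]
    by_cases hx'1 : x' = 1
    · rw [hx'1, one_mul, mul_one]
    by_cases hS : stabilizer A (x • a) = stabilizer A (x' • a)
    · obtain ⟨y, hy, hy1, hxy1, h1, h2⟩ := hother x hx hx1
      have e1 : x' * y = y * x' := hcomm1 x' hx' hx'1 y hy hy1 (by rw [← hS]; exact h1.symm)
      have e2 : x' * (x * y) = (x * y) * x' :=
        hcomm1 x' hx' hx'1 _ (N.mul_mem hx hy) hxy1 (by rw [← hS]; exact h2.symm)
      have e3 : x' * x * y = x * x' * y := by
        rw [mul_assoc, e2, mul_assoc, ← e1, mul_assoc]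
      exact (mul_right_cancel e3).symm
    · exact hcomm1 x hx hx1 x' hx' hx'1 hS
  have hpowc : ∀ (h : A) (x : G) (k : ℕ), (h : G) * x = x * h → (h : G) * x ^ k = x ^ k * h := by
    intro h x k hx
    exact (Commute.pow_right (show Commute (h : G) x from hx) k)
  refine ⟨?_, ?_⟩
  · -- exponent p
    have hNnt : Nat.card N ≠ 1 := by
      intro h1
      rw [hcardN] at h1
      have := (Nat.card_eq_one_iff_unique.1 h1).1
      exact hab (Subsingleton.elim _ _)
    obtain ⟨p, hp, hpd⟩ := Nat.exists_prime_and_dvd hNnt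
    have : Fact p.Prime := ⟨hp⟩
    obtain ⟨⟨z, hz⟩, hz'⟩ := exists_prime_orderOf_dvd_card' (G := N) p hpd
    have hzp : z ^ p = 1 := by
      have := pow_orderOf_eq_one (⟨z, hz⟩ : N)
      rw [hz'] at this
      exact congrArg Subtype.val this
    have hz1 : z ≠ 1 := by
      intro h
      have : (⟨z, hz⟩ : N) = 1 := Subtype.ext h
      rw [this, orderOf_one] at hz'
      exact hp.one_lt.ne hz'
    have hexp1 : ∀ x ∈ N, x ^ p ≠ 1 → stabilizer A (x • a) = stabilizer A (z • a) := by
      intro x hx hxp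
      have hx1 : x ≠ 1 := by rintro rfl; simp at hxp
      have hxz : (x * z) ^ p = x ^ p := by
        rw [(show Commute x z from hcomm x hx z hz).mul_pow, hzp, mul_one]
      have hxz1 : x * z ≠ 1 := by
        intro h
        rw [h, one_pow] at hxz
        exact hxp hxz.symm
      have hxpN : x ^ p ∈ N := N.pow_mem hx p
      have hxzN : x * z ∈ N := N.mul_mem hx hz
      have e1 : stabilizer A (x • a) = stabilizer A ((x ^ p) • a) := by
        apply hmono x hx hx1 _ hxpN hxp
        intro h hh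
        rw [hst h x hx] at hh
        rw [hst h _ hxpN]
        exact hpowc h x p hh
      have e2 : stabilizer A ((x * z) • a) = stabilizer A ((x ^ p) • a) := by
        apply hmono _ hxzN hxz1 _ hxpN hxp
        intro h hh
        rw [hst h _ hxzN] at hh
        rw [hst h _ hxpN, ← hxz]
        exact hpowc h _ p hh
      apply hmono x hx hx1 z hz hz1
      intro h hh
      have h2 : h ∈ stabilizer A ((x * z) • a) := by rw [e2, ← e1]; exact hh
      rw [hst h x hx] at hh
      rw [hst h _ hxzN] at h2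
      rw [hst h z hz]
      have e : z = x⁻¹ * (x * z) := by group
      rw [e]
      exact hmul h _ _ (hinv h x hh) h2
    refine ⟨p, hp, ⟨⟨fun x y => Subtype.ext (hcomm x x.2 y y.2)⟩⟩, ?_⟩
    intro x hx
    by_contra hxp
    have hx1 : x ≠ 1 := by rintro rfl; simp at hxp
    have hS := hexp1 x hx hxp
    obtain ⟨y, hy, hy1, hxy1, h1, h2⟩ := hother x hx hx1
    have hyp : y ^ p = 1 := by
      by_contra hyp
      exact h1 ((hexp1 y hy hyp).trans hS.symm)
    have hxyp : (x * y) ^ p ≠ 1 := by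
      rw [(show Commute x y from hcomm x hx y hy).mul_pow, hyp, mul_one]
      exact hxp
    exact h2 ((hexp1 _ (N.mul_mem hx hy) hxyp).trans hS.symm)
  · -- minimality
    intro M hMn hMb
    set L := M ⊓ N with hL
    have hLn : L.Normal := Subgroup.normal_inf_normal M N
    have hLb : L ≠ ⊥ := by
      intro hLb
      obtain ⟨m, hm1⟩ := (Subgroup.ne_bot_iff_exists_ne_one).1 hMb
      have hcen : ∀ n ∈ N, (m : G) * n = n * m := by
        intro n hn
        have h1 : (m : G) * n * (m : G)⁻¹ * n⁻¹ ∈ L := by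
          refine Subgroup.mem_inf.2 ⟨?_, N.mul_mem (hN.conj_mem n hn m) (N.inv_mem hn)⟩
          rw [mul_assoc, mul_assoc]
          apply M.mul_mem m.2
          rw [← mul_assoc]
          exact hMn.conj_mem _ (M.inv_mem m.2) n
        rw [hLb, Subgroup.mem_bot, mul_inv_eq_one, mul_inv_eq_iff_eq_mul] at h1
        exact h1
      obtain ⟨n₀, hn₀, hn₀a⟩ := hsurj ((m : G) • a)
      have hA' : n₀⁻¹ * (m : G) ∈ A := by
        rw [hAdef, mem_stabilizer_iff, mul_smul, ← hn₀a, inv_smul_smul]
      have h2 := hfaith ⟨_, hA'⟩ (by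
        intro y hy
        change n₀⁻¹ * (m : G) * y = y * (n₀⁻¹ * (m : G))
        rw [mul_assoc, hcen y hy, ← mul_assoc, ← mul_assoc, hcomm _ (N.inv_mem hn₀) y hy])
      have h3 : n₀⁻¹ * (m : G) = 1 := congrArg Subtype.val h2
      rw [inv_mul_eq_one] at h3
      have h4 : (m : G) ∈ L := Subgroup.mem_inf.2 ⟨m.2, by rw [← h3]; exact hn₀⟩
      rw [hLb, Subgroup.mem_bot] at h4
      exact hm1 (Subtype.ext h4)
    have hLN : L ≤ N := inf_le_right
    suffices h : N ≤ L from h.trans inf_le_left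
    by_contra hNL
    obtain ⟨y, hy, hyL⟩ := SetLike.not_le_iff_exists.1 hNL
    obtain ⟨l', hl'1⟩ := (Subgroup.ne_bot_iff_exists_ne_one).1 hLb
    have hcoset : ∀ v ∈ N, v ∉ L → ∀ l ∈ L,
        stabilizer A ((l * v) • a) = stabilizer A (v • a) := by
      intro v hv hvL l hl
      set F : Set Ω := orbit L (v • a) with hF
      have hFmem : ∀ ω : Ω, ω ∈ F ↔ ∃ k ∈ L, ω = (k * v) • a := by
        intro ω
        constructor
        · rintro ⟨k, rfl⟩
          exact ⟨k, k.2, (mul_smul (k : G) v a).symm⟩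
        · rintro ⟨k, hk, rfl⟩
          exact ⟨⟨k, hk⟩, (mul_smul k v a).symm⟩
      have hFcard : (Nat.card F).Coprime s := by
        apply Nat.Coprime.coprime_dvd_left _ hcop
        exact (card_orbit_dvd (B := L) _).trans (Subgroup.card_dvd_of_le hLN)
      have key := stab_eq (A := A) F (Set.toFinite F) c s hc0 hsc (by
        intro ω hω
        obtain ⟨k, hk, rfl⟩ := (hFmem ω).1 hω
        apply hcω
        apply hne1 _ (N.mul_mem (hLN hk) hv)
        intro h
        apply hvL
        have : v = k⁻¹ := eq_inv_of_mul_eq_one_right h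
        rw [this]
        exact L.inv_mem hk) hFcard (by
        intro ω hω h hh
        obtain ⟨k, hk, rfl⟩ := (hFmem ω).1 hω
        rw [hst h _ (N.mul_mem (hLN hk) hv)] at hh
        rw [mem_stabilizer_set_iff_smul_set_subset (Set.toFinite F)]
        rintro _ ⟨ω', hω', rfl⟩
        obtain ⟨j, hj, rfl⟩ := (hFmem ω').1 hω'
        change h • ((j * v) • a) ∈ F
        rw [hact, hFmem]
        refine ⟨(h : G) * (j * k⁻¹) * (h : G)⁻¹ * k,
          L.mul_mem (hLn.conj_mem _ (L.mul_mem hj (L.inv_mem hk)) h) hk, ?_⟩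
        congr 1
        have e1 : (h : G) * (j * v) * (h : G)⁻¹
            = ((h : G) * (j * k⁻¹) * (h : G)⁻¹) * ((h : G) * (k * v) * (h : G)⁻¹) := by group
        rw [e1, hh, mul_inv_cancel_right]
        group)
      rw [key _ ((hFmem _).2 ⟨l, hl, rfl⟩), key (v • a) ((hFmem _).2 ⟨1, L.one_mem, by simp⟩)]
    have heq : ∀ v ∈ N, v ∉ L → ∀ l ∈ L, l ≠ 1 →
        stabilizer A (v • a) = stabilizer A (l • a) := by
      intro v hv hvL l hl hl1
      have hv1 : v ≠ 1 := by rintro rfl; exact hvL L.one_mem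
      apply hmono v hv hv1 l (hLN hl) hl1
      intro h hh
      have h2 : h ∈ stabilizer A ((l * v) • a) := by rw [hcoset v hv hvL l hl]; exact hh
      rw [hst h v hv] at hh
      rw [hst h _ (N.mul_mem (hLN hl) hv)] at h2
      rw [hst h l (hLN hl)]
      have e : l = (l * v) * v⁻¹ := by group
      rw [e]
      exact hmul h _ _ h2 (hinv h v hh)
    have hl1 : (l' : G) ≠ 1 := fun h => hl'1 (Subtype.ext h)
    have hnt : Nontrivial (stabilizer A ((l' : G) • a)) := by
      apply (Finite.one_lt_card_iff_nontrivial).1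
      rw [hcω _ (hne1 _ (hLN l'.2) hl1)]
      exact hc1
    obtain ⟨h, hh1⟩ := exists_ne (1 : stabilizer A ((l' : G) • a))
    apply hh1
    apply Subtype.ext
    apply hfaith
    intro v hv
    by_cases hvL : v ∈ L
    · by_cases hv1 : v = 1
      · rw [hv1, mul_one, one_mul]
      · apply (hst h v hv).1
        rw [← heq y hy hyL v hvL hv1, heq y hy hyL l' l'.2 hl1]
        exact h.2
    · apply (hst h v hv).1
      rw [heq v hv hvL l' l'.2 hl1]
      exact h.2

end Cfsg.Agent.S3356
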