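import Mathlib
import Cfsg.Statements.S3362
import Cfsg.Agent.Lib.Helper56.SchreierSims

set_option autoImplicit false
open Cfsg

namespace Cfsg.Agent.S3362

open Cfsg.Agent.Lib.Helper56

def ps : Equiv.Perm (Fin 12) := Equiv.swap (3 : Fin 12) 5 * Equiv.swap (3 : Fin 12) 4 * Equiv.swap (6 : Fin 12) 8 * Equiv.swap (6 : Fin 12) 7 * Equiv.swap (9 : Fin 12) 11 * Equiv.swap (9 : Fin 12) 10
def pt : Equiv.Perm (Fin 12) := Equiv.swap (3 : Fin 12) 9 * Equiv.swap (3 : Fin 12) 6 * Equiv.swap (4 : Fin 12) 10 * Equiv.swap (4 : Fin 12) 7 * Equiv.swap (5 : Fin 12) 11 * Equiv.swap (5 : Fin 12) 8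
def pu : Equiv.Perm (Fin 12) := Equiv.swap (4 : Fin 12) 9 * Equiv.swap (4 : Fin 12) 5 * Equiv.swap (4 : Fin 12) 6 * Equiv.swap (7 : Fin 12) 10 * Equiv.swap (7 : Fin 12) 11 * Equiv.swap (7 : Fin 12) 8
def pv : Equiv.Perm (Fin 12) := Equiv.swap (4 : Fin 12) 11 * Equiv.swap (4 : Fin 12) 5 * Equiv.swap (4 : Fin 12) 7 * Equiv.swap (6 : Fin 12) 8 * Equiv.swap (6 : Fin 12) 9 * Equiv.swap (6 : Fin 12) 10
def pw : Equiv.Perm (Fin 12) := Equiv.swap (4 : Fin 12) 8 * Equiv.swap (4 : Fin 12) 5 * Equiv.swap (4 : Fin 12) 10 * Equiv.swap (6 : Fin 12) 7 * Equiv.swap (6 : Fin 12) 9 * Equiv.swap (6 : Fin 12) 11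
def px1 : Equiv.Perm (Fin 12) := Equiv.swap (0 : Fin 12) 3 * Equiv.swap (6 : Fin 12) 7 * Equiv.swap (8 : Fin 12) 10 * Equiv.swap (9 : Fin 12) 11
def px2 : Equiv.Perm (Fin 12) := Equiv.swap (0 : Fin 12) 1 * Equiv.swap (6 : Fin 12) 9 * Equiv.swap (7 : Fin 12) 10 * Equiv.swap (8 : Fin 12) 11
def px3 : Equiv.Perm (Fin 12) := Equiv.swap (1 : Fin 12) 2 * Equiv.swap (6 : Fin 12) 11 * Equiv.swap (7 : Fin 12) 9 * Equiv.swap (8 : Fin 12) 10

def gen (j : ℕ) : Equiv.Perm (Fin 12) := [pu, pv, pw, ps, pt, px1, px2, px3].getD j 1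

def word0 (δ : Fin 12) : List ℕ :=
  [[6, 7], [7], [], [5, 6, 7], [3, 5, 6, 7], [3, 3, 5, 6, 7], [4, 5, 6, 7], [1, 3, 5, 6, 7], [0, 1, 3, 5, 6, 7], [4, 4, 5, 6, 7], [2, 3, 5, 6, 7], [2, 4, 5, 6, 7]].getD δ.val []

def cert0 (j : ℕ) (δ : Fin 12) : List ℕ :=
  ([[[1], [2, 0], [0], [0, 1], [0, 1], [0, 1], [0, 1], [], [0, 1], [0, 1], [], [2]],
    [[0, 1], [1, 2], [1], [1], [], [2], [2], [0, 0], [0, 1], [0, 1], [2], [2]],
    [[1, 2], [0, 1], [2], [0], [], [0, 0], [], [0, 1], [], [0, 1], [0, 0], [0, 0]],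
    [[3], [3], [3], [], [], [], [2, 0], [0, 1], [1, 2], [1, 2], [], [0]],
    [[1, 3, 2, 0], [2, 4, 0, 1], [4], [], [2, 0], [0], [], [2], [0, 0], [], [0], [0]],
    [[], [5], [5], [], [3, 3, 0, 0], [3, 0, 0], [3, 3, 0, 1], [2, 3], [3, 3, 0, 0], [2, 3, 0, 1], [3, 3, 0, 0], [0, 1, 3, 2]],
    [[], [], [6], [5], [5], [5], [5], [5], [5, 2], [5], [5], [5, 2]],
    [[6], [], [], [6], [6], [6], [6, 0], [6, 1], [6], [6, 0, 1], [6], [6, 0]]].getD j []).getD δ.val []

def orb0 : Finset (Fin 12) := {0, 1, 2, 3, 4, 5, 6, 7, 8, 9, 10, 11}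

def word1 (δ : Fin 12) : List ℕ :=
  [[6], [], [], [5, 6], [3, 5, 6], [3, 3, 5, 6], [4, 5, 6], [1, 3, 5, 6], [0, 1, 3, 5, 6], [4, 4, 5, 6], [2, 3, 5, 6], [2, 4, 5, 6]].getD δ.val []

def cert1 (j : ℕ) (δ : Fin 12) : List ℕ :=
  ([[[1, 2], [0], [], [2], [2], [2], [2], [], [2], [2], [], [0, 1]],
    [[2], [1], [], [1, 2], [], [0, 1], [0, 1], [0, 0], [2], [2], [0, 1], [0, 1]],
    [[1], [2], [], [2, 0], [], [0, 0], [], [2], [], [2], [0, 0], [0, 0]],
    [[3], [3], [], [], [], [], [0], [2], [1], [1], [], [2, 0]],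
    [[4, 4], [4], [], [], [0], [2, 0], [], [0, 1], [0, 0], [], [2, 0], [2, 0]],
    [[], [5], [], [], [3, 3, 0, 0], [3, 0, 0], [3, 3, 2], [0, 1, 3], [3, 3, 0, 0], [0, 1, 3, 2], [3, 3, 0, 0], [2, 3, 0, 1]],
    [[], [], [], [5], [5], [5], [5], [5], [5, 0, 1], [5], [5], [5, 0, 1]]].getD j []).getD δ.val []

def orb1 : Finset (Fin 12) := {0, 1, 3, 4, 5, 6, 7, 8, 9, 10, 11}

def word2 (δ : Fin 12) : List ℕ :=
  [[], [], [], [5], [3, 5], [3, 3, 5], [4, 5], [1, 3, 5], [0, 1, 3, 5], [4, 4, 5], [2, 3, 5], [2, 4, 5]].getD δ.val []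

def cert2 (j : ℕ) (δ : Fin 12) : List ℕ :=
  ([[[0], [], [], [1], [1], [1], [1], [], [1], [1], [], [2, 0]],
    [[1], [], [], [0], [], [2, 0], [2, 0], [0, 0], [1], [1], [2, 0], [2, 0]],
    [[2], [], [], [0, 1], [], [0, 0], [], [1], [], [1], [0, 0], [0, 0]],
    [[3], [], [], [], [], [], [1, 2], [1], [2], [2], [], [0, 1]],
    [[4], [], [], [], [1, 2], [0, 1], [], [2, 0], [0, 0], [], [0, 1], [0, 1]],
    [[], [], [], [], [3, 3, 0, 0], [3, 0, 0], [3, 3, 1], [2, 4, 0], [3, 3, 0, 0], [2, 4, 0, 1], [3, 3, 0, 0], [1, 3, 2, 0]]].getD j []).getD δ.val []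

def orb2 : Finset (Fin 12) := {0, 3, 4, 5, 6, 7, 8, 9, 10, 11}

def word3 (δ : Fin 12) : List ℕ :=
  [[], [], [], [], [3], [3, 3], [4], [1, 3], [0, 1, 3], [4, 4], [2, 3], [2, 4]].getD δ.val []

def cert3 (j : ℕ) (δ : Fin 12) : List ℕ :=
  ([[[], [], [], [0], [0], [0], [0], [], [0], [0], [], [1, 2]],
    [[], [], [], [1], [], [1, 2], [1, 2], [0, 0], [0], [0], [1, 2], [1, 2]],
    [[], [], [], [2], [], [0, 0], [], [0], [], [0], [0, 0], [0, 0]],
    [[], [], [], [], [], [], [2, 0], [0], [0, 1], [0, 1], [], [2]],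
    [[], [], [], [], [2, 0], [2], [], [1, 2], [0, 0], [], [2], [2]]].getD j []).getD δ.val []

def orb3 : Finset (Fin 12) := {3, 4, 5, 6, 7, 8, 9, 10, 11}

def word4 (δ : Fin 12) : List ℕ :=
  [[], [], [], [], [], [0, 0], [0], [1], [0, 1], [1, 2], [2], [2, 0]].getD δ.val []

def cert4 (j : ℕ) (δ : Fin 12) : List ℕ :=
  ([[[], [], [], [], [], [], [], [], [], [], [], []],
    [[], [], [], [], [], [], [], [], [], [], [], []],
    [[], [], [], [], [], [], [], [], [], [], [], []]].getD j []).getD δ.val []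

def orb4 : Finset (Fin 12) := {4, 5, 6, 7, 8, 9, 10, 11}

theorem step0 : (∀ g ∈ genSub gen 8, g • (2 : Fin 12) = 2 → g ∈ genSub gen 7) ∧
    Nat.card (genSub gen 8) = orb0.card * Nat.card (genSub gen 7) :=
  schreier_step gen 8 7 (by decide) (2 : Fin 12) orb0 word0 cert0
    (by decide +kernel) (by decide +kernel) (by decide +kernel) (by decide +kernel)
    (by decide +kernel)

theorem step1 : (∀ g ∈ genSub gen 7, g • (1 : Fin 12) = 1 → g ∈ genSub gen 6) ∧
    Nat.card (genSub gen 7) = orb1.card * Nat.card (genSub gen 6) :=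
  schreier_step gen 7 6 (by decide) (1 : Fin 12) orb1 word1 cert1
    (by decide +kernel) (by decide +kernel) (by decide +kernel) (by decide +kernel)
    (by decide +kernel)

theorem step2 : (∀ g ∈ genSub gen 6, g • (0 : Fin 12) = 0 → g ∈ genSub gen 5) ∧
    Nat.card (genSub gen 6) = orb2.card * Nat.card (genSub gen 5) :=
  schreier_step gen 6 5 (by decide) (0 : Fin 12) orb2 word2 cert2
    (by decide +kernel) (by decide +kernel) (by decide +kernel) (by decide +kernel)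
    (by decide +kernel)

theorem step3 : (∀ g ∈ genSub gen 5, g • (3 : Fin 12) = 3 → g ∈ genSub gen 3) ∧
    Nat.card (genSub gen 5) = orb3.card * Nat.card (genSub gen 3) :=
  schreier_step gen 5 3 (by decide) (3 : Fin 12) orb3 word3 cert3
    (by decide +kernel) (by decide +kernel) (by decide +kernel) (by decide +kernel)
    (by decide +kernel)

theorem step4 : (∀ g ∈ genSub gen 3, g • (4 : Fin 12) = 4 → g ∈ genSub gen 0) ∧
    Nat.card (genSub gen 3) = orb4.card * Nat.card (genSub gen 0) :=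
  schreier_step gen 3 0 (by decide) (4 : Fin 12) orb4 word4 cert4
    (by decide +kernel) (by decide +kernel) (by decide +kernel) (by decide +kernel)
    (by decide +kernel)

theorem card0 : Nat.card (genSub gen 0) = 1 := by
  rw [genSub_zero]; simp

theorem card3 : Nat.card (genSub gen 3) = 8 := by
  rw [step4.2, card0]; decide +kernel

theorem card5 : Nat.card (genSub gen 5) = 72 := by
  rw [step3.2, card3]; decide +kernel

theorem card6 : Nat.card (genSub gen 6) = 720 := by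
  rw [step2.2, card5]; decide +kernel

theorem card7 : Nat.card (genSub gen 7) = 7920 := by
  rw [step1.2, card6]; decide +kernel

theorem card8 : Nat.card (genSub gen 8) = 95040 := by
  rw [step0.2, card7]; decide +kernel

def y0 : Fin 5 ↪ Fin 12 := ⟨![2, 1, 0, 3, 4], by decide⟩

theorem stab_y0 : MulAction.stabilizer (genSub gen 8) y0 = ⊥ := by
  rw [eq_bot_iff]
  rintro ⟨g, hg⟩ hgy
  have h : ∀ i : Fin 5, g • (y0 i) = y0 i := by
    intro i
    have := DFunLike.congr_fun (MulAction.mem_stabilizer_iff.1 hgy) i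
    exact this
  have h7 := step0.1 g hg (h 0)
  have h6 := step1.1 g h7 (h 1)
  have h5 := step2.1 g h6 (h 2)
  have h3 := step3.1 g h5 (h 3)
  have h0 := step4.1 g h3 (h 4)
  rw [genSub_zero, Subgroup.mem_bot] at h0
  rw [Subgroup.mem_bot]
  exact Subtype.ext h0

theorem closure8 : Subgroup.closure {ps, pt, pu, pv, pw, px1, px2, px3} = genSub gen 8 := by
  apply le_antisymm
  · rw [Subgroup.closure_le]
    intro g hg
    simp only [Set.mem_insert_iff, Set.mem_singleton_iff] at hg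
    rcases hg with rfl | rfl | rfl | rfl | rfl | rfl | rfl | rfl
    · exact gen_mem_genSub gen (j := 3) (by decide)
    · exact gen_mem_genSub gen (j := 4) (by decide)
    · exact gen_mem_genSub gen (j := 0) (by decide)
    · exact gen_mem_genSub gen (j := 1) (by decide)
    · exact gen_mem_genSub gen (j := 2) (by decide)
    · exact gen_mem_genSub gen (j := 5) (by decide)
    · exact gen_mem_genSub gen (j := 6) (by decide)
    · exact gen_mem_genSub gen (j := 7) (by decide)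
  · apply genSub_le
    intro j hj
    apply Subgroup.subset_closure
    interval_cases j <;> simp [gen]

theorem closure7 : Subgroup.closure {ps, pt, pu, pv, pw, px1, px2} = genSub gen 7 := by
  apply le_antisymm
  · rw [Subgroup.closure_le]
    intro g hg
    simp only [Set.mem_insert_iff, Set.mem_singleton_iff] at hg
    rcases hg with rfl | rfl | rfl | rfl | rfl | rfl | rfl
    · exact gen_mem_genSub gen (j := 3) (by decide)
    · exact gen_mem_genSub gen (j := 4) (by decide)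
    · exact gen_mem_genSub gen (j := 0) (by decide)
    · exact gen_mem_genSub gen (j := 1) (by decide)
    · exact gen_mem_genSub gen (j := 2) (by decide)
    · exact gen_mem_genSub gen (j := 5) (by decide)
    · exact gen_mem_genSub gen (j := 6) (by decide)
  · apply genSub_le
    intro j hj
    apply Subgroup.subset_closure
    interval_cases j <;> simp [gen]

/-- An explicit construction of the Mathieu groups of degrees 11 and 12. On the points 0, …, 11 let s = (3 4 5)(6 7 8)(9 10 11), t = (3 6 9)(4 7 10)(5 8 11), u = (4 6 5 9)(7 8 11 10), v = (4 7 5 11)(6 10 9 8), w = (4 10 5 8)(6 11 9 7), x₁ = (0 3)(6 7)(8 10)(9 11), x₂ = (0 1)(6 9)(7 10)(8 11), x₃ = (1 2)(6 11)(7 9)(8 10) (each written as a product of transpositions). Then the group M₁₂ generated by all eight permutations is sharply 5-transitive on the 12 points and has order 95040, and the group M₁₁ generated by the first seven has order 7920 and is the stabilizer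 of the point 2 in M₁₂. -/
theorem result
    (s t u v w x₁ x₂ x₃ : Equiv.Perm (Fin 12))
    (hs : s = Equiv.swap (3 : Fin 12) 5 * Equiv.swap (3 : Fin 12) 4 * Equiv.swap (6 : Fin 12) 8 * Equiv.swap (6 : Fin 12) 7 * Equiv.swap (9 : Fin 12) 11 * Equiv.swap (9 : Fin 12) 10) (ht : t = Equiv.swap (3 : Fin 12) 9 * Equiv.swap (3 : Fin 12) 6 * Equiv.swap (4 : Fin 12) 10 * Equiv.swap (4 : Fin 12) 7 * Equiv.swap (5 : Fin 12) 11 * Equiv.swap (5 : Fin 12) 8)
    (hu : u = Equiv.swap (4 : Fin 12) 9 * Equiv.swap (4 : Fin 12) 5 * Equiv.swap (4 : Fin 12) 6 * Equiv.swap (7 : Fin 12) 10 * Equiv.swap (7 : Fin 12) 11 * Equiv.swap (7 : Fin 12) 8) (hv : v = Equiv.swap (4 : Fin 12) 11 * Equiv.swap (4 : Fin 12) 5 * Equiv.swap (4 : Fin 12) 7 * Equiv.swap (6 : Fin 12) 8 * Equiv.swap (6 : Fin 12) 9 * Equiv.swap (6 : Fin 12) 10) (hw : w = Equiv.swap (4 : Fin 12) 8 * Equiv.swap (4 : Fin 12) 5 * Equiv.swap (4 : Fin 12) 10 * Equiv.swap (6 : Fin 12)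 7 * Equiv.swap (6 : Fin 12) 9 * Equiv.swap (6 : Fin 12) 11)
    (hx₁ : x₁ = Equiv.swap (0 : Fin 12) 3 * Equiv.swap (6 : Fin 12) 7 * Equiv.swap (8 : Fin 12) 10 * Equiv.swap (9 : Fin 12) 11) (hx₂ : x₂ = Equiv.swap (0 : Fin 12) 1 * Equiv.swap (6 : Fin 12) 9 * Equiv.swap (7 : Fin 12) 10 * Equiv.swap (8 : Fin 12) 11)
    (hx₃ : x₃ = Equiv.swap (1 : Fin 12) 2 * Equiv.swap (6 : Fin 12) 11 * Equiv.swap (7 : Fin 12) 9 * Equiv.swap (8 : Fin 12) 10)
    (M₁₂ M₁₁ : Subgroup (Equiv.Perm (Fin 12))) (hM₁₂ : M₁₂ = Subgroup.closure {s, t, u, v, w, x₁, x₂, x₃})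
    (hM₁₁ : M₁₁ = Subgroup.closure {s, t, u, v, w, x₁, x₂}) :
    MulAction.IsMultiplyPretransitive M₁₂ (Fin 12) 5 ∧ (∀ y : Fin 5 ↪ Fin 12, MulAction.stabilizer M₁₂ y = ⊥) ∧
    Nat.card M₁₂ = 95040 ∧ Nat.card M₁₁ = 7920 ∧
    M₁₁ = M₁₂ ⊓ MulAction.stabilizer (Equiv.Perm (Fin 12)) (2 : Fin 12) := by
  have e8 : M₁₂ = genSub gen 8 := by
    rw [hM₁₂, ← closure8, hs, ht, hu, hv, hw, hx₁, hx₂, hx₃]; rfl
  have e7 : M₁₁ = genSub gen 7 := by
    rw [hM₁₁, ← closure7, hs, ht, hu, hv, hw, hx₁, hx₂]; rfl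
  subst e8 e7
  have hc : Nat.card (genSub gen 8) = Nat.card (Fin 5 ↪ Fin 12) := by
    rw [card8, Nat.card_eq_fintype_card, Fintype.card_embedding_eq]
    simp [Nat.descFactorial]
  obtain ⟨h1, h2⟩ := regular_of_card y0 stab_y0 hc
  refine ⟨h1, h2, card8, card7, ?_⟩
  apply le_antisymm
  · refine le_inf (genSub_mono gen (by decide)) ?_
    apply genSub_le
    intro j hj
    rw [MulAction.mem_stabilizer_iff]
    interval_cases j <;> decide +kernel
  · rintro g ⟨hg, hg2⟩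
    exact step0.1 g hg hg2

end Cfsg.Agent.S3362
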