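import Cfsg.Statements.S3370
import Cfsg.Agent.S0016
import Cfsg.Agent.Lib.Helper62.GL2Sylow
import Cfsg.Agent.Lib.Helper30.AutElemAb

set_option autoImplicit false
set_option linter.style.haveILetI false
set_option linter.unusedSectionVars false
set_option linter.deprecated false
open Cfsg

namespace Cfsg.Agent.S3370

theorem cof (m k : ℕ) : ∃ t, (2 * m + 1) ^ (2 * k + 1) + 1 = (2 * m + 2) * (2 * t + 1) := by
  induction k with
  | zero => exact ⟨0, by ring⟩
  | succ k ih =>
    obtain ⟨t, ht⟩ := ih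
    refine ⟨t * (4 * m ^ 2 + 4 * m + 1) + 2 * m ^ 2 + m, ?_⟩
    have h1 : (2 * m + 1) ^ (2 * (k + 1) + 1) = (2 * m + 1) ^ 2 * (2 * m + 1) ^ (2 * k + 1) := by ring
    have h2 : (2 * m + 1) ^ 2 * ((2 * m + 1) ^ (2 * k + 1) + 1)
        = (2 * m + 1) ^ 2 * ((2 * m + 2) * (2 * t + 1)) := by rw [ht]
    rw [h1]
    nlinarith [h2]

theorem odd_dvd_two_pow {c n : ℕ} (hc : Odd c) (h : c ∣ 2 ^ n) : c = 1 := by
  obtain ⟨i, _, rfl⟩ := (Nat.dvd_prime_pow Nat.prime_two).1 h
  rcases i with _ | i
  · simp
  · exfalso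
    rw [pow_succ] at hc
    exact (Nat.not_even_iff_odd.2 hc) (by simp)

theorem odd_geom (q n : ℕ) (hq : Odd q) (hn : Odd n) : Odd (∑ i ∈ Finset.range n, q ^ i) := by
  rw [Finset.odd_sum_iff_odd_card_odd]
  have : (Finset.range n).filter (fun x => Odd (q ^ x)) = Finset.range n := by
    apply Finset.filter_true_of_mem
    intro x _
    exact hq.pow
  rw [this, Finset.card_range]
  exact hn

theorem nt {q n p j : ℕ} (hq : q.Prime) (hp : p.Prime) (hn : 1 ≤ n) (hj : 1 ≤ j)
    (h : q ^ n = p ^ j + 1) :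
    (q = 2 ∧ j = 1) ∨ (p = 2 ∧ n = 1) ∨ (p = 2 ∧ q = 3 ∧ n = 2) := by
  rcases hq.eq_two_or_odd' with rfl | hqo
  · left
    refine ⟨rfl, ?_⟩
    have hpo : Odd p := by
      rcases hp.eq_two_or_odd' with rfl | h1
      · exfalso
        have h1 : Even (2 ^ n) := (Nat.even_pow.2 ⟨even_two, by omega⟩)
        have h2 : Even (2 ^ j) := (Nat.even_pow.2 ⟨even_two, by omega⟩)
        rw [h] at h1
        have := (Nat.even_add_one.1 h1)
        exact this h2
      · exact h1
    by_contra hj1
    have hj2 : 2 ≤ j := by omega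
    obtain ⟨m, rfl⟩ := hpo
    have hm : 1 ≤ m := by
      rcases m with _ | m
      · simp at hp
        exact absurd hp Nat.not_prime_one
      · omega
    rcases Nat.even_or_odd' j with ⟨k, rfl | rfl⟩
    · -- j even
      have h1 : (2 * m + 1) ^ (2 * k) % 4 = 1 := by
        rw [pow_mul]
        have : (2 * m + 1) ^ 2 % 4 = 1 := by
          have : (2 * m + 1) ^ 2 = 4 * (m * (m + 1)) + 1 := by ring
          omega
        rw [Nat.pow_mod, this]
        simp
      have h2 : 2 ≤ n := by
        by_contra hc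
        have : n = 1 := by omega
        subst this
        have : 1 ≤ (2 * m + 1) ^ (2 * k) := Nat.one_le_pow _ _ (by omega)
        have h3 : (2 * m + 1) ^ (2 * k) = 1 := by omega
        have h4 : 1 < (2 * m + 1) ^ (2 * k) := Nat.one_lt_pow (by omega) (by omega)
        omega
      obtain ⟨n', rfl⟩ : ∃ n', n = n' + 2 := ⟨n - 2, by omega⟩
      have h3 : 2 ^ (n' + 2) % 4 = 0 := by
        rw [pow_add]; omega
      omega
    · obtain ⟨t, ht⟩ := cof m k
      rw [ht] at h
      have h1 : 2 * t + 1 = 1 := odd_dvd_two_pow ⟨t, rfl⟩ ⟨2 * m + 2, by rw [h]; ring⟩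
      rw [h1, mul_one] at ht
      have h2 : (2 * m + 1) ^ (2 * k + 1) = (2 * m + 1) ^ 1 := by rw [pow_one]; omega
      have := Nat.pow_right_injective (show 2 ≤ 2 * m + 1 by omega) h2
      omega
  · right
    have hp2 : p = 2 := by
      rcases hp.eq_two_or_odd' with rfl | h1
      · rfl
      · exfalso
        have h2 : Odd (q ^ n) := hqo.pow
        have h3 : Odd (p ^ j) := h1.pow
        rw [h] at h2
        exact (Nat.not_even_iff_odd.2 h2) (h3.add_one)
    subst hp2
    have hq3 : 3 ≤ q := by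
      have := hq.two_le
      rcases hqo with ⟨r, rfl⟩
      omega
    rcases Nat.even_or_odd' n with ⟨r, rfl | rfl⟩
    · right
      have hr : 1 ≤ r := by omega
      have h1 : (q ^ r - 1) * (q ^ r + 1) = 2 ^ j := by
        have h2 : 1 ≤ q ^ r := Nat.one_le_pow _ _ (by omega)
        obtain ⟨s, hs⟩ : ∃ s, q ^ r = s + 1 := ⟨q ^ r - 1, by omega⟩
        have h3 : q ^ (2 * r) = (q ^ r) ^ 2 := by ring
        rw [h3, hs] at h
        rw [hs]
        simp only [Nat.add_sub_cancel]
        nlinarith [h]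
      obtain ⟨a, _, ha⟩ := (Nat.dvd_prime_pow Nat.prime_two).1 (Dvd.intro _ h1)
      obtain ⟨b, _, hb⟩ := (Nat.dvd_prime_pow Nat.prime_two).1 (Dvd.intro_left _ h1)
      have h2 : 3 ≤ q ^ r := le_trans hq3 (Nat.le_self_pow (by omega) q)
      have h3 : 2 ^ b = 2 ^ a + 2 := by omega
      have ha1 : a = 1 := by
        rcases a with _ | _ | a
        · simp at ha; omega
        · rfl
        · exfalso
          have hb2 : 2 ≤ b := by
            by_contra hc
            have : b = 0 ∨ b = 1 := by omega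
            rcases this with rfl | rfl <;> simp at hb <;> omega
          obtain ⟨b', rfl⟩ : ∃ b', b = b' + 2 := ⟨b - 2, by omega⟩
          have e1 : 2 ^ (b' + 2) % 4 = 0 := by rw [pow_add]; omega
          have e2 : 2 ^ (a + 1 + 1) % 4 = 0 := by
            have : 2 ^ (a + 1 + 1) = 2 ^ a * 4 := by ring
            omega
          omega
      subst ha1
      have h4 : q ^ r = 3 := by omega
      have h5 : q ∣ 3 := by
        rw [← h4]; exact dvd_pow_self q (by omega)
      have h6 : q = 3 := (Nat.prime_dvd_prime_iff_eq hq Nat.prime_three).1 h5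
      subst h6
      have h7 : 3 ^ r = 3 ^ 1 := by omega
      have := Nat.pow_right_injective (le_refl _ |>.trans (by norm_num : 2 ≤ 3)) h7
      exact ⟨rfl, rfl, by omega⟩
    · left
      refine ⟨rfl, ?_⟩
      obtain ⟨x, rfl⟩ : ∃ x, q = x + 1 := ⟨q - 1, by omega⟩
      have h1 := geom_sum_mul_add x (2 * r + 1)
      have h2 : (∑ i ∈ Finset.range (2 * r + 1), (x + 1) ^ i) * x = 2 ^ j := by omega
      have h3 : (∑ i ∈ Finset.range (2 * r + 1), (x + 1) ^ i) = 1 :=
        odd_dvd_two_pow (odd_geom _ _ hqo ⟨r, rfl⟩) (Dvd.intro _ h2)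
      by_contra hc
      have hr : 1 ≤ r := by omega
      have h4 : ∑ i ∈ Finset.range 2, (x + 1) ^ i ≤ ∑ i ∈ Finset.range (2 * r + 1), (x + 1) ^ i := by
        apply Finset.sum_le_sum_of_subset
        intro i hi
        simp only [Finset.mem_range] at hi ⊢
        omega
      rw [h3] at h4
      simp [Finset.sum_range_succ] at h4


section grp

variable {q : ℕ} [Fact q.Prime] {V : Type*} [AddCommGroup V] [Module (ZMod q) V] [Finite V]
  {G : Type*} [Group G] [Finite G] (ρ : G →* (V ≃ₗ[ZMod q] V))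

/-- the stabiliser of a vector -/
def stab (v : V) : Subgroup G where
  carrier := {g | ρ g v = v}
  mul_mem' := by
    intro a b ha hb
    simp only [Set.mem_setOf_eq, map_mul, LinearEquiv.mul_apply] at *
    rw [hb, ha]
  one_mem' := by simp
  inv_mem' := by
    intro a ha
    simp only [Set.mem_setOf_eq, map_inv] at *
    calc (ρ a)⁻¹ v = (ρ a)⁻¹ (ρ a v) := by rw [ha]
      _ = ((ρ a)⁻¹ * ρ a) v := rfl
      _ = v := by rw [inv_mul_cancel]; rfl

theorem mem_stab {v : V} {g : G} : g ∈ stab ρ v ↔ ρ g v = v := Iff.rfl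

theorem index_stab (htrans : ∀ v w : V, v ≠ 0 → w ≠ 0 → ∃ g : G, ρ g v = w) (v : V) (hv : v ≠ 0) :
    (stab ρ v).index = Nat.card V - 1 := by
  letI : MulAction G V := MulAction.compHom V ρ
  have h1 : stab ρ v = MulAction.stabilizer G v := by
    ext g; rfl
  have h2 : MulAction.orbit G v = ({0} : Set V)ᶜ := by
    ext w
    simp only [Set.mem_compl_iff, Set.mem_singleton_iff]
    constructor
    · rintro ⟨g, rfl⟩ h0
      have : ρ g v = 0 := h0
      exact hv (by simpa using this)
    · intro hw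
      obtain ⟨g, hg⟩ := htrans v w hv hw
      exact ⟨g, hg⟩
  rw [h1, MulAction.index_stabilizer, h2, Set.ncard_compl, Set.ncard_singleton]

theorem eq_one_of_fix (hρ : Function.Injective ρ) {g : G} (h : ∀ v, ρ g v = v) : g = 1 := by
  apply hρ
  rw [map_one]
  ext v
  exact h v

theorem stab_eq_bot_of_card {p : ℕ} [Fact p.Prime] (hG : IsPGroup p G) (hρ : Function.Injective ρ)
    (v0 : V) (hv0 : v0 ≠ 0) (hV : Nat.card V = p + 1) : stab ρ v0 = ⊥ := by
  letI : MulAction (stab ρ v0) V := MulAction.compHom V (ρ.comp (stab ρ v0).subtype)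
  have h1 := (hG.to_subgroup (stab ρ v0)).card_modEq_card_fixedPoints V
  have h0 : (0 : V) ∈ MulAction.fixedPoints (stab ρ v0) V := fun g => (ρ g.1).map_zero
  have h2 : v0 ∈ MulAction.fixedPoints (stab ρ v0) V := fun g => g.2
  have h3 : 2 ≤ (MulAction.fixedPoints (stab ρ v0) V).ncard := by
    have : ({0, v0} : Set V) ⊆ MulAction.fixedPoints (stab ρ v0) V := by
      intro x hx
      rcases hx with rfl | rfl
      · exact h0
      · exact h2
    calc 2 = ({0, v0} : Set V).ncard := (Set.ncard_pair (Ne.symm hv0)).symm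
      _ ≤ _ := Set.ncard_le_ncard this (Set.toFinite _)
  have h4 : (MulAction.fixedPoints (stab ρ v0) V).ncard ≤ p + 1 := by
    rw [← hV, ← Set.ncard_univ]
    exact Set.ncard_le_ncard (Set.subset_univ _) (Set.toFinite _)
  rw [Nat.card_coe_set_eq, hV] at h1
  have hp2 : 2 ≤ p := (Fact.out : p.Prime).two_le
  have h5 : (MulAction.fixedPoints (stab ρ v0) V).ncard = p + 1 := by
    set c := (MulAction.fixedPoints (stab ρ v0) V).ncard
    have h6 : c % p = 1 := by
      have := h1.symm
      unfold Nat.ModEq at this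
      rw [this, Nat.add_mod_left, Nat.mod_eq_of_lt (by omega)]
    have h7 := Nat.div_add_mod c p
    rw [h6] at h7
    obtain ⟨d, hd⟩ : ∃ d, d = c / p := ⟨_, rfl⟩
    rw [← hd] at h7
    have h8 : d = 1 := by
      have a1 : d ≠ 0 := by
        intro h; rw [h] at h7; omega
      have a2 : d < 2 := by
        by_contra hc
        have : p * 2 ≤ p * d := Nat.mul_le_mul_left _ (by omega)
        omega
      omega
    rw [h8] at h7
    omega
  have h6 : MulAction.fixedPoints (stab ρ v0) V = Set.univ := by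
    apply Set.eq_of_subset_of_ncard_le (Set.subset_univ _) _ (Set.toFinite _)
    rw [Set.ncard_univ, hV, h5]
  rw [eq_bot_iff]
  intro g hg
  rw [Subgroup.mem_bot]
  apply eq_one_of_fix ρ hρ
  intro v
  have : v ∈ MulAction.fixedPoints (stab ρ v0) V := by rw [h6]; trivial
  exact this ⟨g, hg⟩

theorem card_eq_of_stab_bot {v : V} (h : stab ρ v = ⊥) : Nat.card G = (stab ρ v).index := by
  rw [h, Subgroup.index_bot]

theorem cyclic_of_dim_one (hρ : Function.Injective ρ) (v : V) (hv : v ≠ 0)
    (h1 : ∀ w : V, ∃ c : ZMod q, c • v = w) : IsCyclic G ∧ stab ρ v = ⊥ := by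
  choose f hf using fun g : G => h1 (ρ g v)
  have hinj : ∀ c d : ZMod q, c • v = d • v → c = d := by
    intro c d hcd
    have : (c - d) • v = 0 := by rw [sub_smul, hcd, sub_self]
    rcases smul_eq_zero.1 this with h | h
    · exact sub_eq_zero.1 h
    · exact absurd h hv
  have hall : ∀ g h : G, ρ g v = ρ h v → g = h := by
    intro g h hgh
    apply hρ
    ext w
    obtain ⟨c, rfl⟩ := h1 w
    rw [map_smul, map_smul, hgh]
  let F : G →* ZMod q :=
    { toFun := f
      map_one' := by
        apply hinj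
        rw [hf, map_one, one_smul]; rfl
      map_mul' := by
        intro a b
        apply hinj
        rw [hf, map_mul, LinearEquiv.mul_apply, ← hf b, map_smul, ← hf a, smul_smul, mul_comm] }
  have hF : Function.Injective F := by
    intro a b hab
    apply hall
    rw [← hf a, ← hf b]
    have : f a = f b := hab
    rw [this]
  refine ⟨isCyclic_of_subgroup_isDomain F hF, ?_⟩
  rw [eq_bot_iff]
  intro g hg
  rw [Subgroup.mem_bot]
  apply hall
  rw [map_one]
  exact hg

end grp

theorem case9 {V : Type*} [AddCommGroup V] [Module (ZMod 3) V] [Finite V]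
    {G : Type*} [Group G] [Finite G] (hG : IsPGroup 2 G)
    (ρ : G →* (V ≃ₗ[ZMod 3] V)) (hρ : Function.Injective ρ) (hV : Nat.card V = 9)
    (hidx : ∀ v : V, v ≠ 0 → (stab ρ v).index = 8) :
    (IsCyclic G ∧ Nat.card G = 8) ∨ Nonempty (G ≃* QuaternionGroup 2) ∨
      (Cfsg.IsQuasiDihedral G ∧ Nat.card G = 16) := by
  haveI : Fact (Nat.Prime 2) := ⟨Nat.prime_two⟩
  haveI : Fact (Nat.Prime 3) := ⟨Nat.prime_three⟩
  haveI : Nontrivial V := by
    apply (Finite.one_lt_card_iff_nontrivial).1
    rw [hV]; norm_num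
  obtain ⟨v0, hv0⟩ := exists_ne (0 : V)
  obtain ⟨e⟩ := Cfsg.Agent.Lib.Helper30.nonempty_linearEquiv_equiv_GL V 3 2 (by rw [hV]; norm_num)
  let φ : G →* GL (Fin 2) (ZMod 3) := e.toMonoidHom.comp ρ
  have hφ : Function.Injective φ := e.injective.comp hρ
  have hGL : Nat.card (GL (Fin 2) (ZMod 3)) = 2 ^ 4 * 3 := by
    rw [Cfsg.Agent.Lib.Helper62.card_GL2, ZMod.card]
    norm_num
  have hrange : Nat.card φ.range = Nat.card G :=
    (Nat.card_congr (MonoidHom.ofInjective hφ).toEquiv).symm
  obtain ⟨k, hk⟩ := IsPGroup.iff_card.1 hG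
  have h8 : 8 ∣ Nat.card G := by
    rw [← hidx v0 hv0]; exact Subgroup.index_dvd_card _
  have hPr : IsPGroup 2 φ.range := IsPGroup.of_card (n := k) (by rw [hrange, hk])
  obtain ⟨P, hP⟩ := hPr.exists_le_sylow
  have hPc : Nat.card P = 2 ^ 4 := Cfsg.Agent.Lib.Helper62.card_sylow_two_of_card hGL (by decide) P
  have h16 : Nat.card G ∣ 16 := by
    rw [← hrange]
    have := Subgroup.card_dvd_of_le hP
    rw [hPc] at this
    exact this
  have hcases : Nat.card G = 8 ∨ Nat.card G = 16 := by
    obtain ⟨a, ha⟩ := h8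
    obtain ⟨b, hb⟩ := h16
    have : a * b = 2 := by
      rw [ha] at hb
      nlinarith
    have ha2 : a ∣ 2 := Dvd.intro _ this
    rcases (Nat.dvd_prime Nat.prime_two).1 ha2 with rfl | rfl
    · left; omega
    · right; omega
  rcases hcases with hc | hc
  · -- regular
    have hst : ∀ v : V, v ≠ 0 → stab ρ v = ⊥ := by
      intro v hv
      have h1 := Subgroup.card_mul_index (stab ρ v)
      rw [hidx v hv, hc] at h1
      have h2 : Nat.card (stab ρ v) = 1 := by omega
      exact Subgroup.card_eq_one.1 h2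
    have hinv : ∀ t : G, t ^ 2 = 1 → t ≠ 1 → ∀ w : V, ρ t w = -w := by
      intro t ht ht1 w
      have h1 : ρ t (ρ t w) = w := by
        have : ρ (t ^ 2) w = w := by rw [ht, map_one]; rfl
        rwa [pow_two, map_mul] at this
      have h2 : ρ t (w + ρ t w) = w + ρ t w := by
        rw [map_add, h1, add_comm]
      by_cases h3 : w + ρ t w = 0
      · exact (eq_neg_of_add_eq_zero_right h3)
      · exfalso
        have : t ∈ stab ρ (w + ρ t w) := h2
        rw [hst _ h3, Subgroup.mem_bot] at this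
        exact ht1 this
    have huniq : ∀ H K : Subgroup G, Nat.card H = 2 → Nat.card K = 2 → H = K := by
      have key : ∀ H K : Subgroup G, Nat.card H = 2 → Nat.card K = 2 → H ≤ K := by
        intro H K hH hK
        have hex : ∀ L : Subgroup G, Nat.card L = 2 → ∃ t ∈ L, t ^ 2 = 1 ∧ t ≠ 1 := by
          intro L hL
          haveI : Nontrivial L := by
            apply (Finite.one_lt_card_iff_nontrivial).1
            rw [hL]; norm_num
          obtain ⟨t, ht⟩ := exists_ne (1 : L)
          refine ⟨t.1, t.2, ?_, fun h => ht (Subtype.ext h)⟩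
          have := pow_card_eq_one' (x := t)
          rw [hL] at this
          exact congrArg Subtype.val this
        obtain ⟨s, hsK, hs2, hs1⟩ := hex K hK
        intro x hx
        by_cases hx1 : x = 1
        · rw [hx1]; exact K.one_mem
        · have hx2 : x ^ 2 = 1 := by
            have := pow_card_eq_one' (x := (⟨x, hx⟩ : H))
            rw [hH] at this
            exact congrArg Subtype.val this
          have : x = s := by
            apply hρ
            ext w
            rw [hinv x hx2 hx1, hinv s hs2 hs1]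
          rw [this]; exact hsK
      intro H K hH hK
      exact le_antisymm (key H K hH hK) (key K H hK hH)
    rcases Cfsg.Agent.S0016.result 2 hG huniq with h | ⟨_, n, ⟨eq⟩⟩
    · left; exact ⟨h, hc⟩
    · right; left
      have h1 : Nat.card (QuaternionGroup (2 ^ n)) = 8 := by
        rw [← Nat.card_congr eq.toEquiv, hc]
      haveI : NeZero (2 ^ n) := ⟨by positivity⟩
      rw [Nat.card_eq_fintype_card, QuaternionGroup.card] at h1
      have h2 : 2 ^ n = 2 := by omega
      rw [h2] at eq
      exact ⟨eq⟩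
  · right; right
    refine ⟨?_, hc⟩
    have h1 : φ.range = P := by
      apply Subgroup.eq_of_le_of_card_ge hP
      rw [hPc, hrange, hc]
      norm_num
    have h2 : Cfsg.IsQuasiDihedral (P : Subgroup (GL (Fin 2) (ZMod 3))) :=
      Cfsg.Agent.Lib.Helper62.sylow_GL2_quasiDihedral (by rw [ZMod.card]) P
    rw [← h1] at h2
    exact Cfsg.Agent.Lib.Helper62.isQuasiDihedral_of_equiv (MonoidHom.ofInjective hφ).symm h2


/-- Let q be a prime, V a non-trivial finite vector space over the field with q elements, and G a non-trivial finite p-group (p prime) acting faithfully and linearly on V and transitively on the non-zero vectors. Then either q = 2 and G has prime order p = |V| − 1; or p = 2, V has q elements with q = 2^m + 1 and G is cyclic of order 2^m; or p = 2, q = 3, V has 9 elements and G is cyclic of order 8, quaternion of order 8, or semidihedral of order 16. -/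
theorem result (q : ℕ) [Fact q.Prime] {V : Type*} [AddCommGroup V] [Module (ZMod q) V] [Finite V] [Nontrivial V]
    {G : Type*} [Group G] [Finite G] [Nontrivial G] (p : ℕ) [Fact p.Prime] (hG : IsPGroup p G)
    (ρ : G →* (V ≃ₗ[ZMod q] V)) (hρ : Function.Injective ρ)
    (htrans : ∀ v w : V, v ≠ 0 → w ≠ 0 → ∃ g : G, ρ g v = w) :
    (q = 2 ∧ p = Nat.card V - 1 ∧ Nat.card G = p) ∨
    (p = 2 ∧ Nat.card V = q ∧ (∃ m : ℕ, q = 2 ^ m + 1 ∧ Nat.card G = 2 ^ m) ∧ IsCyclic G) ∨
    (p = 2 ∧ q = 3 ∧ Nat.card V = 9 ∧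
      ((IsCyclic G ∧ Nat.card G = 8) ∨ Nonempty (G ≃* QuaternionGroup 2) ∨ (Cfsg.IsQuasiDihedral G ∧ Nat.card G = 16))) := by
  classical
  have hqp : q.Prime := Fact.out
  have hpp : p.Prime := Fact.out
  obtain ⟨v0, hv0⟩ := exists_ne (0 : V)
  have hidx := index_stab ρ htrans
  have hcardV : Nat.card V = q ^ Module.finrank (ZMod q) V := by
    rw [Module.natCard_eq_pow_finrank (K := ZMod q) (V := V), Nat.card_zmod]
  have hn : 1 ≤ Module.finrank (ZMod q) V := Module.finrank_pos
  obtain ⟨k, hk⟩ := IsPGroup.iff_card.1 hG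
  have hdvd : Nat.card V - 1 ∣ p ^ k := by
    rw [← hk, ← hidx v0 hv0]; exact Subgroup.index_dvd_card _
  obtain ⟨j, hjk, hj⟩ := (Nat.dvd_prime_pow hpp).1 hdvd
  have hV1 : 1 ≤ Nat.card V := Nat.card_pos
  have hj1 : 1 ≤ j := by
    by_contra hc
    have hj0 : j = 0 := by omega
    rw [hj0, pow_zero] at hj
    obtain ⟨g, hg⟩ := exists_ne (1 : G)
    apply hg
    apply eq_one_of_fix ρ hρ
    intro v
    by_cases hv : v = 0
    · rw [hv, map_zero]
    · have h1 := hidx v hv
      rw [hj, Subgroup.index_eq_one] at h1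
      have : g ∈ stab ρ v := by rw [h1]; trivial
      exact this
  have heq : q ^ Module.finrank (ZMod q) V = p ^ j + 1 := by omega
  rcases nt hqp hpp hn hj1 heq with ⟨h2, hj⟩ | ⟨h2, hn1⟩ | ⟨h2, h3, hn2⟩
  · left
    rw [hj, pow_one] at heq
    have hVp : Nat.card V = p + 1 := by rw [hcardV, heq]
    refine ⟨h2, by omega, ?_⟩
    rw [card_eq_of_stab_bot ρ (stab_eq_bot_of_card ρ hG hρ v0 hv0 hVp), hidx v0 hv0]
    omega
  · right; left
    have h1 := (finrank_eq_one_iff_of_nonzero' v0 hv0).1 hn1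
    obtain ⟨hcyc, hst⟩ := cyclic_of_dim_one ρ hρ v0 hv0 h1
    rw [hn1, pow_one] at heq hcardV
    refine ⟨h2, hcardV, ⟨j, by rw [heq, h2], ?_⟩, hcyc⟩
    rw [card_eq_of_stab_bot ρ hst, hidx v0 hv0, hcardV, heq, h2]
    simp
  · right; right
    subst h2 h3
    have hV9 : Nat.card V = 9 := by rw [hcardV, hn2]; norm_num
    refine ⟨rfl, rfl, hV9, ?_⟩
    apply case9 hG ρ hρ hV9
    intro v hv
    rw [hidx v hv, hV9]

end Cfsg.Agent.S3370
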