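import Mathlib
import Cfsg.Statements.S3375

set_option autoImplicit false
open Cfsg

namespace Cfsg.Agent.S3375

theorem comm_of_inv {H : Type*} [Group H] (γ : MulAut H) (A : Subgroup H)
    (hinv : ∀ a ∈ A, γ a = a⁻¹) : ∀ a ∈ A, ∀ b ∈ A, a * b = b * a := by
  intro a ha b hb
  have h1 := hinv (a * b) (A.mul_mem ha hb)
  rw [map_mul, hinv a ha, hinv b hb, mul_inv_rev] at h1
  have h2 := congrArg (fun x => x⁻¹) h1
  simp only [mul_inv_rev, inv_inv] at h2
  exact h2.symm

/-- Let γ be an automorphism of order 2 of a finite group H. (i) If γ fixes only the identity, then H is abelian and γ inverts every element. (ii) If γ has exactly two fixed points and H has a subgroup of index 2, then H has a γ-invariant abelian subgroup of index 2 on which γ acts by inversion. -/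
theorem result {H : Type*} [Group H] [Finite H] (γ : MulAut H) (hγ : orderOf γ = 2) :
    ((∀ h : H, γ h = h → h = 1) → (∀ a b : H, a * b = b * a) ∧ ∀ h : H, γ h = h⁻¹) ∧
    ((Nat.card {h : H // γ h = h} = 2 ∧ ∃ M : Subgroup H, M.index = 2) →
      ∃ A : Subgroup H, A.index = 2 ∧ IsMulCommutative A ∧ (∀ a ∈ A, γ a ∈ A) ∧ ∀ a ∈ A, γ a = a⁻¹) := by
  have hγ2 : ∀ h : H, γ (γ h) = h := by
    intro h
    have h1 : γ ^ 2 = 1 := by rw [← hγ]; exact pow_orderOf_eq_one γ
    have h2 := congrArg (fun f : MulAut H => f h) h1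
    simpa [pow_two] using h2
  have hf : ∀ h : H, γ (h * (γ h)⁻¹) = (h * (γ h)⁻¹)⁻¹ := by
    intro h
    rw [map_mul, map_inv, hγ2]
    simp
  constructor
  · intro hfp
    have hinj : Function.Injective (fun h : H => h * (γ h)⁻¹) := by
      intro a b hab
      simp only at hab
      have h1 : γ (b⁻¹ * a) = b⁻¹ * a := by
        rw [map_mul, map_inv]
        have : a = b * (γ b)⁻¹ * γ a := by rw [← hab]; group
        calc (γ b)⁻¹ * γ a = b⁻¹ * (b * (γ b)⁻¹ * γ a) := by group
          _ = b⁻¹ * a := by rw [← this]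
      have h2 := hfp _ h1
      exact (inv_mul_eq_one.1 h2).symm
    have hsurj := Finite.surjective_of_injective hinj
    have hinv : ∀ h : H, γ h = h⁻¹ := by
      intro h
      obtain ⟨k, hk⟩ := hsurj h
      rw [← hk]
      exact hf k
    refine ⟨?_, hinv⟩
    intro a b
    exact comm_of_inv γ ⊤ (fun a _ => hinv a) a (Subgroup.mem_top a) b (Subgroup.mem_top b)
  · rintro ⟨hcard, M, hM⟩
    -- a γ-invariant subgroup of index 2
    obtain ⟨A, hA2, hAγ⟩ : ∃ A : Subgroup H, A.index = 2 ∧ ∀ a ∈ A, γ a ∈ A := by
      by_cases hinv : ∀ h, h ∈ M ↔ γ h ∈ M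
      · exact ⟨M, hM, fun a ha => (hinv a).1 ha⟩
      · push Not at hinv
        obtain ⟨a, ha⟩ := hinv
        have hmul : ∀ x y : H, x * y ∈ M ↔ (x ∈ M ↔ y ∈ M) := fun x y =>
          Subgroup.mul_mem_iff_of_index_two hM
        let A : Subgroup H :=
          { carrier := {h | h ∈ M ↔ γ h ∈ M}
            one_mem' := by simp [M.one_mem]
            mul_mem' := by
              intro x y hx hy
              simp only [Set.mem_ofPred_eq] at hx hy ⊢
              rw [map_mul, hmul, hmul, hx, hy]
            inv_mem' := by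
              intro x hx
              simp only [Set.mem_ofPred_eq] at hx ⊢
              rw [map_inv, M.inv_mem_iff, M.inv_mem_iff, hx] }
        refine ⟨A, ?_, ?_⟩
        · rw [Subgroup.index_eq_two_iff]
          refine ⟨a, fun b => ?_⟩
          change Xor (b * a ∈ M ↔ γ (b * a) ∈ M) (b ∈ M ↔ γ b ∈ M)
          rw [map_mul, hmul, hmul]
          unfold Xor
          tauto
        · intro x hx
          change γ x ∈ M ↔ γ (γ x) ∈ M
          rw [hγ2]
          exact (Iff.symm hx)
    have hmulA : ∀ x y : H, x * y ∈ A ↔ (x ∈ A ↔ y ∈ A) := fun x y =>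
      Subgroup.mul_mem_iff_of_index_two hA2
    have hAγ' : ∀ a, a ∈ A ↔ γ a ∈ A := fun a =>
      ⟨hAγ a, fun h => by have := hAγ _ h; rwa [hγ2] at this⟩
    have hfA : ∀ h : H, h * (γ h)⁻¹ ∈ A := by
      intro h
      rw [hmulA, A.inv_mem_iff]
      exact hAγ' h
    let C : Subgroup H :=
      { carrier := {h | γ h = h}
        one_mem' := by simp
        mul_mem' := by
          intro x y hx hy
          simp only [Set.mem_ofPred_eq] at hx hy ⊢
          rw [map_mul, hx, hy]
        inv_mem' := by
          intro x hx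
          simp only [Set.mem_ofPred_eq] at hx ⊢
          rw [map_inv, hx] }
    have hC : Nat.card C = 2 := hcard
    let F : H ⧸ C → H := Quotient.lift (s := QuotientGroup.leftRel C) (fun h => h * (γ h)⁻¹) (by
      intro a b hab
      have h1 : γ (a⁻¹ * b) = a⁻¹ * b := QuotientGroup.leftRel_apply.1 hab
      rw [map_mul, map_inv] at h1
      have h2 : γ b = γ a * (a⁻¹ * b) := by rw [← h1]; group
      rw [h2]
      group)
    have hFinj : Function.Injective F := by
      intro x y
      induction x using QuotientGroup.induction_on with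
      | H a =>
      induction y using QuotientGroup.induction_on with
      | H b =>
      intro hab
      have hab' : a * (γ a)⁻¹ = b * (γ b)⁻¹ := hab
      rw [QuotientGroup.eq]
      change γ (a⁻¹ * b) = a⁻¹ * b
      rw [map_mul, map_inv]
      have : b = a * (γ a)⁻¹ * γ b := by rw [hab']; group
      calc (γ a)⁻¹ * γ b = a⁻¹ * (a * (γ a)⁻¹ * γ b) := by group
          _ = a⁻¹ * b := by rw [← this]
    have hrange : Set.range F ⊆ (A : Set H) := by
      rintro _ ⟨x, rfl⟩
      induction x using QuotientGroup.induction_on with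
      | H a => exact hfA a
    have hcardA : Nat.card A = Nat.card (H ⧸ C) := by
      have h1 := A.card_mul_index
      have h2 := C.card_mul_index
      rw [hA2] at h1
      rw [hC] at h2
      have h3 : C.index = Nat.card (H ⧸ C) := rfl
      omega
    have heq : Set.range F = (A : Set H) := by
      apply Set.eq_of_subset_of_ncard_le hrange
      rw [Set.ncard_range_of_injective hFinj]
      exact le_of_eq hcardA
    have hinvA : ∀ a ∈ A, γ a = a⁻¹ := by
      intro a ha
      have : a ∈ Set.range F := by rw [heq]; exact ha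
      obtain ⟨x, rfl⟩ := this
      induction x using QuotientGroup.induction_on with
      | H b => exact hf b
    refine ⟨A, hA2, ?_, hAγ, hinvA⟩
    have hc := comm_of_inv γ A hinvA
    exact ⟨⟨fun x y => Subtype.ext (hc x x.2 y y.2)⟩⟩

end Cfsg.Agent.S3375
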