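import Mathlib
import Cfsg.Statements.S3379

set_option autoImplicit false
open Cfsg
open scoped commutatorElement

namespace Cfsg.Agent.S3379

/-- Let G be a finite group all of whose Sylow subgroups are cyclic. Then G is generated by two elements x and y of coprime orders n and m with x⁻¹yx = y^r, where gcd(r − 1, m) = 1 and r^n ≡ 1 (mod m). -/
theorem result {G : Type*} [Group G] [Finite G]
    (hZ : ∀ (p : ℕ) [Fact p.Prime] (P : Sylow p G), IsCyclic (P : Subgroup G)) :
    ∃ (x y : G) (n m r : ℕ), Subgroup.closure {x, y} = ⊤ ∧ orderOf x = n ∧ orderOf y = m ∧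
      x⁻¹ * y * x = y ^ r ∧ Nat.Coprime (r - 1) m ∧ Nat.Coprime n m ∧ 1 ≤ r ∧ r ^ n % m = 1 % m := by
  have hzg : IsZGroup G := ⟨fun p hp P => by have := Fact.mk hp; exact hZ p P⟩
  have hNc : IsCyclic (commutator G) := IsZGroup.isCyclic_commutator G
  have hcop := IsZGroup.coprime_commutator_index G
  obtain ⟨H, hH⟩ := Subgroup.exists_right_complement'_of_coprime hcop
  have hHc : IsCyclic H := by
    have h1 : Abelianization G ≃* H := hH.symm.QuotientMulEquiv
    exact isCyclic_of_surjective _ h1.surjective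
  obtain ⟨y0, hy0⟩ := hNc.exists_generator
  obtain ⟨x0, hx0⟩ := hHc.exists_generator
  set y : G := y0.1 with hy
  set x : G := x0.1 with hx
  -- membership in `N` and `H` in terms of powers
  have hN : ∀ g ∈ commutator G, g ∈ Subgroup.zpowers y := by
    intro g hg
    obtain ⟨k, hk⟩ := Subgroup.mem_zpowers_iff.1 (hy0 ⟨g, hg⟩)
    refine Subgroup.mem_zpowers_iff.2 ⟨k, ?_⟩
    have := congrArg Subtype.val hk
    simpa using this
  have hHm : ∀ g ∈ H, g ∈ Subgroup.zpowers x := by
    intro g hg
    obtain ⟨k, hk⟩ := Subgroup.mem_zpowers_iff.1 (hx0 ⟨g, hg⟩)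
    refine Subgroup.mem_zpowers_iff.2 ⟨k, ?_⟩
    have := congrArg Subtype.val hk
    simpa using this
  have hyN : y ∈ commutator G := y0.2
  have hxH : x ∈ H := x0.2
  have hoy : orderOf y = Nat.card (commutator G) := by
    rw [hy, Subgroup.orderOf_coe]
    exact orderOf_eq_card_of_forall_mem_zpowers hy0
  have hox : orderOf x = Nat.card H := by
    rw [hx, Subgroup.orderOf_coe]
    exact orderOf_eq_card_of_forall_mem_zpowers hx0
  have hgen : Subgroup.closure {x, y} = ⊤ := by
    rw [eq_top_iff, ← hH.sup_eq_top, sup_le_iff]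
    constructor
    · intro g hg
      have h1 := hN g hg
      have h2 : Subgroup.zpowers y ≤ Subgroup.closure {x, y} := by
        rw [Subgroup.zpowers_le]
        exact Subgroup.subset_closure (by simp)
      exact h2 h1
    · intro g hg
      have h1 := hHm g hg
      have h2 : Subgroup.zpowers x ≤ Subgroup.closure {x, y} := by
        rw [Subgroup.zpowers_le]
        exact Subgroup.subset_closure (by simp)
      exact h2 h1
  have hm : 0 < orderOf y := orderOf_pos y
  -- conjugates of `y` are powers of `y`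
  have hconj : ∀ g : G, ∃ k : ℕ, g * y * g⁻¹ = y ^ k := by
    intro g
    have h1 : g * y * g⁻¹ ∈ commutator G :=
      (inferInstance : (commutator G).Normal).conj_mem y hyN g
    have h2 := hN _ h1
    rw [← mem_powers_iff_mem_zpowers] at h2
    obtain ⟨k, hk⟩ := h2
    exact ⟨k, hk.symm⟩
  obtain ⟨k, hk⟩ := hconj x⁻¹
  rw [inv_inv] at hk
  set r : ℕ := k + orderOf y with hr
  have hxy : x⁻¹ * y * x = y ^ r := by
    rw [hk, hr, pow_add, pow_orderOf_eq_one, mul_one]
  have hr1 : 1 ≤ r := by omega
  -- the subgroup `M = ⟨y^(r-1)⟩`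
  set w : G := y ^ (r - 1) with hw
  have hMn : (Subgroup.zpowers w).Normal := by
    constructor
    intro a ha g
    obtain ⟨j, rfl⟩ := Subgroup.mem_zpowers_iff.1 ha
    obtain ⟨l, hl⟩ := hconj g
    have h1 : g * w * g⁻¹ = w ^ l := by
      rw [hw, ← conj_pow, hl, ← pow_mul, ← pow_mul, mul_comm]
    have h2 : g * w ^ j * g⁻¹ = (g * w * g⁻¹) ^ j := by
      rw [conj_zpow]
    rw [h2, h1]
    exact Subgroup.zpow_mem _ (Subgroup.pow_mem _ (Subgroup.mem_zpowers w) l) j
  have hcomm : ∀ a b : G ⧸ Subgroup.zpowers w, a * b = b * a := by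
    have hc : IsMulCommutative (Subgroup.closure
        ({(x : G ⧸ Subgroup.zpowers w), (y : G ⧸ Subgroup.zpowers w)} : Set (G ⧸ Subgroup.zpowers w))) := by
      apply Subgroup.isMulCommutative_closure
      have hxyq : (x : G ⧸ Subgroup.zpowers w) * (y : G ⧸ Subgroup.zpowers w) = y * x := by
        rw [← QuotientGroup.mk_mul, ← QuotientGroup.mk_mul, QuotientGroup.eq]
        have : (x * y)⁻¹ * (y * x) = w := by
          have h3 : y ^ r = y * w := by
            rw [hw, ← pow_succ']
            congr 1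
            omega
          calc (x * y)⁻¹ * (y * x) = y⁻¹ * (x⁻¹ * y * x) := by group
            _ = y⁻¹ * (y * w) := by rw [hxy, h3]
            _ = w := by group
        rw [this]
        exact Subgroup.mem_zpowers w
      rintro a (rfl | rfl) b (rfl | rfl)
      · rfl
      · exact hxyq
      · exact hxyq.symm
      · rfl
    have htop : Subgroup.closure
        ({(x : G ⧸ Subgroup.zpowers w), (y : G ⧸ Subgroup.zpowers w)} : Set (G ⧸ Subgroup.zpowers w)) = ⊤ := by
      have h1 := congrArg (Subgroup.map (QuotientGroup.mk' (Subgroup.zpowers w))) hgen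
      rw [MonoidHom.map_closure, Subgroup.map_top_of_surjective _ (QuotientGroup.mk'_surjective _)] at h1
      rw [← h1]
      congr 1
      simp [Set.image_pair]
    intro a b
    have ha : a ∈ Subgroup.closure
        ({(x : G ⧸ Subgroup.zpowers w), (y : G ⧸ Subgroup.zpowers w)} : Set (G ⧸ Subgroup.zpowers w)) := by
      rw [htop]; exact Subgroup.mem_top a
    have hb : b ∈ Subgroup.closure
        ({(x : G ⧸ Subgroup.zpowers w), (y : G ⧸ Subgroup.zpowers w)} : Set (G ⧸ Subgroup.zpowers w)) := by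
      rw [htop]; exact Subgroup.mem_top b
    exact congrArg Subtype.val (hc.is_comm.comm ⟨a, ha⟩ ⟨b, hb⟩)
  have hNM : commutator G ≤ Subgroup.zpowers w := by
    rw [commutator_def, Subgroup.commutator_le]
    intro a _ b _
    rw [← QuotientGroup.eq_one_iff, commutatorElement_def]
    simp only [QuotientGroup.mk_mul, QuotientGroup.mk_inv]
    rw [hcomm (a : G ⧸ Subgroup.zpowers w) b]
    group
  have hcop1 : Nat.Coprime (r - 1) (orderOf y) := by
    obtain ⟨j, hj⟩ := Subgroup.mem_zpowers_iff.1 (hNM hyN)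
    -- (y^(r-1))^j = y
    have h1 : y ^ (((r - 1 : ℕ) : ℤ) * j - 1) = 1 := by
      rw [zpow_sub, zpow_mul, zpow_natCast, ← hw, hj, zpow_one, mul_inv_cancel]
    obtain ⟨t, ht⟩ := (orderOf_dvd_iff_zpow_eq_one).2 h1
    rw [← Nat.isCoprime_iff_coprime]
    refine ⟨j, -t, ?_⟩
    linarith
  refine ⟨x, y, orderOf x, orderOf y, r, hgen, rfl, rfl, hxy, hcop1, ?_, hr1, ?_⟩
  · rw [hox, hoy, ← hH.symm.index_eq_card]
    exact hcop.symm
  · have hpow : ∀ i : ℕ, (x ^ i)⁻¹ * y * x ^ i = y ^ (r ^ i) := by
      intro i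
      induction i with
      | zero => simp
      | succ i ih =>
        calc (x ^ (i + 1))⁻¹ * y * x ^ (i + 1) = x⁻¹ * ((x ^ i)⁻¹ * y * x ^ i) * x := by
              rw [pow_succ]; group
          _ = x⁻¹ * y ^ (r ^ i) * x := by rw [ih]
          _ = (x⁻¹ * y * x) ^ (r ^ i) := by
              have := conj_pow (a := x⁻¹) (b := y) (i := r ^ i)
              rw [inv_inv] at this
              exact this.symm
          _ = y ^ (r ^ (i + 1)) := by rw [hxy, ← pow_mul, pow_succ']
    have h1 := hpow (orderOf x)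
    rw [pow_orderOf_eq_one] at h1
    simp only [inv_one, one_mul, mul_one] at h1
    have h2 : y ^ (r ^ orderOf x) = y ^ 1 := by rw [← h1, pow_one]
    exact pow_eq_pow_iff_modEq.1 h2

end Cfsg.Agent.S3379
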