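import Mathlib
import Cfsg.Statements.S3381

set_option autoImplicit false
open Cfsg

namespace Cfsg.Agent.S3381

section
variable {q : ℕ} [Fact q.Prime] {V : Type*} [AddCommGroup V] [Module (ZMod q) V]
  {G : Type*} [Group G] (ρ : G →* (V ≃ₗ[ZMod q] V))

/-- fixed space of `g` -/
def Fx (g : G) : Submodule (ZMod q) V where
  carrier := {v | ρ g v = v}
  add_mem' := by
    intro a b ha hb
    simp only [Set.mem_ofPred_eq] at ha hb ⊢
    rw [map_add, ha, hb]
  zero_mem' := by simp
  smul_mem' := by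
    intro c a ha
    simp only [Set.mem_ofPred_eq] at ha ⊢
    rw [map_smul, ha]

theorem mem_Fx {g : G} {v : V} : v ∈ Fx ρ g ↔ ρ g v = v := Iff.rfl

theorem rho_mul (g h : G) (v : V) : ρ (g * h) v = ρ g (ρ h v) := by
  rw [map_mul]; rfl

theorem rho_one (v : V) : ρ 1 v = v := by
  rw [map_one]; rfl

variable (hstab : ∀ v : V, v ≠ 0 → Nat.card {g : G // ρ g v = v} = 2)
include hstab

theorem L1a {v : V} (hv : v ≠ 0) {g g' : G} (hg : ρ g v = v) (hg' : ρ g' v = v) (h1 : g ≠ 1)
    (h1' : g' ≠ 1) : g = g' := by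
  obtain ⟨x, y, hxy, huniv⟩ := Nat.card_eq_two_iff.1 (hstab v hv)
  have hmem : ∀ a : {g : G // ρ g v = v}, a = x ∨ a = y := by
    intro a
    have : a ∈ ({x, y} : Set _) := by rw [huniv]; exact Set.mem_univ a
    simpa using this
  have e1 := hmem ⟨1, rho_one ρ v⟩
  have e2 := hmem ⟨g, hg⟩
  have e3 := hmem ⟨g', hg'⟩
  have n2 : (⟨g, hg⟩ : {g : G // ρ g v = v}) ≠ ⟨1, rho_one ρ v⟩ := fun h => h1 (congrArg Subtype.val h)
  have n3 : (⟨g', hg'⟩ : {g : G // ρ g v = v}) ≠ ⟨1, rho_one ρ v⟩ := fun h => h1' (congrArg Subtype.val h)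
  have : (⟨g, hg⟩ : {g : G // ρ g v = v}) = ⟨g', hg'⟩ := by
    rcases e1 with e1 | e1 <;> rcases e2 with e2 | e2 <;> rcases e3 with e3 | e3 <;>
      simp_all
  exact congrArg Subtype.val this

theorem L1b {v : V} (hv : v ≠ 0) : ∃ g : G, g ≠ 1 ∧ ρ g v = v := by
  obtain ⟨x, y, hxy, -⟩ := Nat.card_eq_two_iff.1 (hstab v hv)
  by_cases hx : x.1 = 1
  · refine ⟨y.1, ?_, y.2⟩
    intro hy
    exact hxy (Subtype.ext (hx.trans hy.symm))
  · exact ⟨x.1, hx, x.2⟩

theorem L1c {v : V} (hv : v ≠ 0) {g : G} (hg : ρ g v = v) (h1 : g ≠ 1) : orderOf g = 2 := by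
  have hinv : ρ g⁻¹ v = v := by
    conv_lhs => rw [← hg]
    rw [← rho_mul, inv_mul_cancel, rho_one]
  have := L1a ρ hstab hv hg hinv h1 (by simpa using h1)
  apply orderOf_eq_prime _ h1
  rw [pow_two]
  nth_rewrite 1 [this]
  exact inv_mul_cancel g

variable (hρ : Function.Injective ρ)
include hρ

/-- a central non-identity element fixes no non-zero vector -/
theorem L2 {c : G} (hc : c ∈ Subgroup.center G) (h1 : c ≠ 1) {v : V} (hv : ρ c v = v) : v = 0 := by
  by_contra hv0
  have hc2 : c * c = 1 := by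
    have := L1c ρ hstab hv0 hv h1
    rw [← pow_two, ← this]
    exact pow_orderOf_eq_one c
  have key : ∀ u : V, ρ c u ≠ u → ρ c u = -u := by
    intro u hu
    have hu0 : u ≠ 0 := by rintro rfl; simp at hu
    obtain ⟨t, ht1, htu⟩ := L1b ρ hstab hu0
    have htc : t ≠ c := by rintro rfl; exact hu htu
    by_contra hne
    have hw0 : u + ρ c u ≠ 0 := by
      intro h
      exact hne (by rw [eq_neg_iff_add_eq_zero, add_comm]; exact h)
    have hcw : ρ c (u + ρ c u) = u + ρ c u := by
      rw [map_add, ← rho_mul, hc2, rho_one, add_comm]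
    have htw : ρ t (u + ρ c u) = u + ρ c u := by
      rw [map_add, htu, ← rho_mul, (Subgroup.mem_center_iff.1 hc t), rho_mul, htu]
    exact htc (L1a ρ hstab hw0 htw hcw ht1 h1)
  have hex : ∃ u : V, ρ c u ≠ u := by
    by_contra hall
    push Not at hall
    apply h1
    apply hρ
    rw [map_one]
    ext u
    exact hall u
  obtain ⟨u, hu⟩ := hex
  have h1u := key u hu
  have hu' : ρ c (u + v) ≠ u + v := by
    rw [map_add, hv]
    intro h
    exact hu (add_right_cancel h)
  have h2u := key (u + v) hu'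
  rw [map_add, hv, h1u, neg_add] at h2u
  have h3 : v + v = 0 := by
    have := add_left_cancel h2u
    rw [eq_neg_iff_add_eq_zero] at this
    exact this
  have h4 : (2 : ZMod q) • v = 0 := by rw [two_smul]; exact h3
  have h5 : (2 : ZMod q) = 0 := by
    rcases smul_eq_zero.1 h4 with h | h
    · exact h
    · exact absurd h hv0
  have h6 : u + u = 0 := by rw [← two_smul (ZMod q), h5, zero_smul]
  apply hu
  rw [h1u, neg_eq_iff_add_eq_zero]
  exact h6

variable {z : G} (hzc : z ∈ Subgroup.center G) (hz : orderOf z = 2)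
include hzc hz

theorem L3 (u : V) : ρ z u = -u := by
  have hz1 : z ≠ 1 := by rintro rfl; simp at hz
  have hz2 : z * z = 1 := by rw [← pow_two, ← hz]; exact pow_orderOf_eq_one z
  have h : ρ z (u + ρ z u) = u + ρ z u := by rw [map_add, ← rho_mul, hz2, rho_one, add_comm]
  have := L2 ρ hstab hρ hzc hz1 h
  rw [eq_neg_iff_add_eq_zero, add_comm]; exact this

theorem two_ne [Nontrivial V] : (2 : ZMod q) ≠ 0 := by
  intro h
  have hz1 : z ≠ 1 := by rintro rfl; simp at hz
  obtain ⟨u, hu⟩ := exists_ne (0 : V)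
  have h6 : u + u = 0 := by rw [← two_smul (ZMod q), h, zero_smul]
  have : ρ z u = u := by rw [L3 ρ hstab hρ hzc hz u, neg_eq_iff_add_eq_zero]; exact h6
  exact hu (L2 ρ hstab hρ hzc hz1 this)

omit hzc hz in
theorem L4 {v : V} (hv : v ≠ 0) {g : G} (hg : ρ g v = v) (h1 : g ≠ 1) :
    orderOf g = 2 ∧ g ∉ Subgroup.center G :=
  ⟨L1c ρ hstab hv hg h1, fun hc => hv (L2 ρ hstab hρ hc h1 hg)⟩

omit hstab hρ in
theorem L5 {t : G} (ht : orderOf t = 2 ∧ t ∉ Subgroup.center G) :
    orderOf (t * z) = 2 ∧ t * z ∉ Subgroup.center G := by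
  have hz2 : z * z = 1 := by rw [← pow_two, ← hz]; exact pow_orderOf_eq_one z
  have ht2 : t * t = 1 := by rw [← pow_two, ← ht.1]; exact pow_orderOf_eq_one t
  have hnc : t * z ∉ Subgroup.center G := by
    intro h
    apply ht.2
    have := (Subgroup.center G).mul_mem h hzc
    rwa [mul_assoc, hz2, mul_one] at this
  refine ⟨?_, hnc⟩
  apply orderOf_eq_prime
  · rw [pow_two]
    calc t * z * (t * z) = t * (z * t) * z := by group
      _ = t * (t * z) * z := by rw [Subgroup.mem_center_iff.1 hzc t]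
      _ = (t * t) * (z * z) := by group
      _ = 1 := by rw [hz2, ht2, one_mul]
  · intro h
    apply hnc
    rw [h]
    exact Subgroup.one_mem _

theorem L6 {t : G} (ht : orderOf t = 2 ∧ t ∉ Subgroup.center G) : ∃ v : V, v ≠ 0 ∧ ρ t v = v := by
  by_contra hall
  push Not at hall
  have ht2 : t * t = 1 := by rw [← pow_two, ← ht.1]; exact pow_orderOf_eq_one t
  apply ht.2
  have : t = z := by
    apply hρ
    ext u
    rw [L3 ρ hstab hρ hzc hz u]
    have h : ρ t (u + ρ t u) = u + ρ t u := by rw [map_add, ← rho_mul, ht2, rho_one, add_comm]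
    have h0 : u + ρ t u = 0 := by
      by_contra hne
      exact hall _ hne h
    rw [eq_neg_iff_add_eq_zero, add_comm]; exact h0
  rw [this]; exact hzc

omit hρ hzc hz in
theorem L8 {t t' : G} (h1 : t ≠ 1) (h1' : t' ≠ 1) (hne : t ≠ t') : Disjoint (Fx ρ t) (Fx ρ t') := by
  rw [Submodule.disjoint_def]
  intro v hv hv'
  by_contra hv0
  exact hne (L1a ρ hstab hv0 hv hv' h1 h1')

theorem L7 [Nontrivial V] {t : G} (ht : orderOf t = 2 ∧ t ∉ Subgroup.center G) :
    IsCompl (Fx ρ t) (Fx ρ (t * z)) := by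
  have hz1 : z ≠ 1 := by rintro rfl; simp at hz
  have ht1 : t ≠ 1 := by rintro rfl; simp at ht
  have ht2 : t * t = 1 := by rw [← pow_two, ← ht.1]; exact pow_orderOf_eq_one t
  have htz := L5 hzc hz ht
  have htz1 : t * z ≠ 1 := by intro h; rw [h] at htz; simp at htz
  constructor
  · apply L8 ρ hstab ht1 htz1
    intro h
    apply hz1
    have := congrArg (fun x => t⁻¹ * x) h
    simpa using this.symm
  · rw [codisjoint_iff, eq_top_iff]
    intro v _
    have h2 := two_ne ρ hstab hρ hzc hz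
    rw [Submodule.mem_sup]
    refine ⟨(2 : ZMod q)⁻¹ • (v + ρ t v), ?_, (2 : ZMod q)⁻¹ • (v - ρ t v), ?_, ?_⟩
    · apply Submodule.smul_mem
      rw [mem_Fx, map_add, ← rho_mul, ht2, rho_one, add_comm]
    · apply Submodule.smul_mem
      rw [mem_Fx, rho_mul, L3 ρ hstab hρ hzc hz, map_neg, map_sub, ← rho_mul, ht2, rho_one]
      abel
    · rw [← smul_add]
      have : v + ρ t v + (v - ρ t v) = (2 : ZMod q) • v := by rw [two_smul]; abel
      rw [this, smul_smul, inv_mul_cancel₀ h2, one_smul]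

omit hstab hρ hzc hz in
theorem L9 [Finite V] {A B : Submodule (ZMod q) V} (h : Disjoint A B) :
    Nat.card A * Nat.card B ≤ Nat.card V := by
  rw [← Nat.card_prod]
  apply Nat.card_le_card_of_injective (fun p : A × B => (p.1 : V) + p.2)
  rintro ⟨a, b⟩ ⟨a', b'⟩ hab
  simp only at hab
  have h1 : (a : V) - a' = b' - b := by
    rw [sub_eq_sub_iff_add_eq_add, hab, add_comm]
  have h2 : (a : V) - a' ∈ A := A.sub_mem a.2 a'.2
  have h3 : (a : V) - a' ∈ B := by rw [h1]; exact B.sub_mem b'.2 b.2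
  have h4 := (Submodule.disjoint_def.1 h) _ h2 h3
  have h5 : (b' : V) - b = 0 := by rw [← h1]; exact h4
  ext
  · exact sub_eq_zero.1 h4
  · exact (sub_eq_zero.1 h5).symm

theorem L10 [Finite V] [Nontrivial V] {t : G} (ht : orderOf t = 2 ∧ t ∉ Subgroup.center G) :
    Nat.card (Fx ρ t) ^ 2 = Nat.card V := by
  have hz1 : z ≠ 1 := by rintro rfl; simp at hz
  have hz2 : z * z = 1 := by rw [← pow_two, ← hz]; exact pow_orderOf_eq_one z
  have ht1 : t ≠ 1 := by rintro rfl; simp at ht
  have htz := L5 hzc hz ht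
  have htz1 : t * z ≠ 1 := by intro h; rw [h] at htz; simp at htz
  have hcompl := L7 ρ hstab hρ hzc hz ht
  obtain ⟨a0, ha0, hta0⟩ := L6 ρ hstab hρ hzc hz ht
  obtain ⟨b0, hb0, htb0⟩ := L6 ρ hstab hρ hzc hz htz
  have hdis := Submodule.disjoint_def.1 hcompl.disjoint
  have hv0 : a0 + b0 ≠ 0 := by
    intro h
    apply ha0
    apply hdis a0 hta0
    have : a0 = -b0 := by rw [eq_neg_iff_add_eq_zero]; exact h
    rw [this]
    exact (Fx ρ (t * z)).neg_mem htb0
  obtain ⟨t', ht'1, ht'v⟩ := L1b ρ hstab hv0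
  have ht' := L4 ρ hstab hρ hv0 ht'v ht'1
  have hne1 : t' ≠ t := by
    rintro rfl
    apply hb0
    refine hdis b0 ?_ htb0
    rw [map_add, hta0] at ht'v
    exact add_left_cancel ht'v
  have hne2 : t' ≠ t * z := by
    rintro rfl
    apply ha0
    refine hdis a0 hta0 ?_
    rw [map_add, htb0] at ht'v
    exact add_right_cancel ht'v
  have ht'z := L5 hzc hz ht'
  have ht'z1 : t' * z ≠ 1 := by intro h; rw [h] at ht'z; simp at ht'z
  have hne3 : t' * z ≠ t := by
    intro h
    apply hne2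
    rw [← h, mul_assoc, hz2, mul_one]
  have hne4 : t' * z ≠ t * z := by
    intro h
    exact hne1 (mul_right_cancel h)
  have hcompl' := L7 ρ hstab hρ hzc hz ht'
  have e1 : Nat.card (Fx ρ t) * Nat.card (Fx ρ (t * z)) = Nat.card V := by
    rw [← Nat.card_prod]
    exact Nat.card_congr (Submodule.prodEquivOfIsCompl _ _ hcompl).toEquiv
  have e2 : Nat.card (Fx ρ t') * Nat.card (Fx ρ (t' * z)) = Nat.card V := by
    rw [← Nat.card_prod]
    exact Nat.card_congr (Submodule.prodEquivOfIsCompl _ _ hcompl').toEquiv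
  have i1 := L9 (L8 ρ hstab ht1 ht'1 hne1.symm)
  have i2 := L9 (L8 ρ hstab ht1 ht'z1 hne3.symm)
  have i3 := L9 (L8 ρ hstab htz1 ht'1 hne2.symm)
  have i4 := L9 (L8 ρ hstab htz1 ht'z1 hne4.symm)
  have hn : 0 < Nat.card V := Nat.card_pos
  generalize Nat.card (Fx ρ t) = a at *
  generalize Nat.card (Fx ρ (t * z)) = b at *
  generalize Nat.card (Fx ρ t') = a' at *
  generalize Nat.card (Fx ρ (t' * z)) = b' at *
  generalize Nat.card V = n at *
  have h1 : a * a * n ≤ n * n := by
    calc a * a * n = (a * a') * (a * b') := by rw [← e2]; ring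
      _ ≤ n * n := Nat.mul_le_mul i1 i2
  have h2 : b * b * n ≤ n * n := by
    calc b * b * n = (b * a') * (b * b') := by rw [← e2]; ring
      _ ≤ n * n := Nat.mul_le_mul i3 i4
  have h3 : a * a ≤ n := Nat.le_of_mul_le_mul_right h1 hn
  have h4 : b * b ≤ n := Nat.le_of_mul_le_mul_right h2 hn
  have ha : 0 < a := by
    rcases Nat.eq_zero_or_pos a with h | h
    · rw [h] at e1; omega
    · exact h
  have hb : 0 < b := by
    rcases Nat.eq_zero_or_pos b with h | h
    · rw [h] at e1; omega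
    · exact h
  rw [← e1] at h3 h4
  have h5 : a ≤ b := Nat.le_of_mul_le_mul_left h3 ha
  have h6 : b ≤ a := Nat.le_of_mul_le_mul_right h4 hb
  have : a = b := le_antisymm h5 h6
  rw [pow_two, ← e1, ← this]

end

/-- Let G be a finite group acting faithfully and linearly on a non-trivial finite vector space V over the field with q elements (q prime) so that every non-zero vector has a stabilizer of order 2, and suppose G has a central involution. Then V has q^(2r) elements for some r and G contains exactly q^r + 1 non-central involutions. -/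
theorem result
    (q : ℕ) [Fact q.Prime] {V : Type*} [AddCommGroup V] [Module (ZMod q) V] [Finite V] [Nontrivial V]
    {G : Type*} [Group G] [Finite G] (ρ : G →* (V ≃ₗ[ZMod q] V)) (hρ : Function.Injective ρ)
    (hstab : ∀ v : V, v ≠ 0 → Nat.card {g : G // ρ g v = v} = 2)
    (z : G) (hz : orderOf z = 2) (hzc : z ∈ Subgroup.center G) :
    ∃ r : ℕ, Nat.card V = q ^ (2 * r) ∧
      Nat.card {g : G // orderOf g = 2 ∧ g ∉ Subgroup.center G} = q ^ r + 1 := by
  classical
  have := Fintype.ofFinite V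
  have := Fintype.ofFinite G
  obtain ⟨v0, hv0⟩ := exists_ne (0 : V)
  obtain ⟨t0, ht01, ht0v⟩ := L1b ρ hstab hv0
  have ht0 := L4 ρ hstab hρ hv0 ht0v ht01
  have hsq := L10 ρ hstab hρ hzc hz ht0
  have hcardF : Nat.card (Fx ρ t0) = q ^ Module.finrank (ZMod q) (Fx ρ t0) := by
    rw [Module.natCard_eq_pow_finrank (K := ZMod q) (V := Fx ρ t0), Nat.card_zmod]
  set r := Module.finrank (ZMod q) (Fx ρ t0) with hr
  have hV : Nat.card V = q ^ (2 * r) := by
    rw [← hsq, hcardF, ← pow_mul, mul_comm]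
  refine ⟨r, hV, ?_⟩
  have hall : ∀ t : G, (orderOf t = 2 ∧ t ∉ Subgroup.center G) → Nat.card (Fx ρ t) = q ^ r := by
    intro t ht
    have h1 := L10 ρ hstab hρ hzc hz ht
    rw [← hsq, hcardF] at h1
    exact Nat.pow_left_injective (n := 2) (by norm_num) h1
  have hqr : 2 ≤ q ^ r := by
    rw [← hcardF]
    have : Nontrivial (Fx ρ t0) := ⟨⟨⟨v0, ht0v⟩, 0, fun h => hv0 (congrArg Subtype.val h)⟩⟩
    exact Finite.one_lt_card
  set s : Finset V := Finset.univ.filter (fun v => v ≠ 0) with hs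
  set T : Finset G := Finset.univ.filter (fun g => orderOf g = 2 ∧ g ∉ Subgroup.center G) with hT
  have hdc := Finset.sum_card_bipartiteAbove_eq_sum_card_bipartiteBelow (s := s) (t := T)
    (fun (v : V) (t : G) => ρ t v = v)
  have hA : ∀ v ∈ s, (T.bipartiteAbove (fun (v : V) (t : G) => ρ t v = v) v).card = 1 := by
    intro v hv
    have hv0 : v ≠ 0 := by simpa [hs] using hv
    obtain ⟨t, ht1, htv⟩ := L1b ρ hstab hv0
    rw [Finset.card_eq_one]
    refine ⟨t, ?_⟩
    ext g
    simp only [Finset.bipartiteAbove, Finset.mem_filter, Finset.mem_singleton, hT, Finset.mem_univ,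
      true_and]
    constructor
    · rintro ⟨hg, hgv⟩
      have hg1 : g ≠ 1 := by rintro rfl; simp at hg
      exact L1a ρ hstab hv0 hgv htv hg1 ht1
    · rintro rfl
      exact ⟨L4 ρ hstab hρ hv0 htv ht1, htv⟩
  have hB : ∀ t ∈ T, (s.bipartiteBelow (fun (v : V) (t : G) => ρ t v = v) t).card = q ^ r - 1 := by
    intro t ht
    have ht' : orderOf t = 2 ∧ t ∉ Subgroup.center G := by simpa [hT] using ht
    have h1 := hall t ht'
    have h2 : Nat.card (Fx ρ t) = (Finset.univ.filter (fun v : V => ρ t v = v)).card := by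
      rw [Nat.card_eq_fintype_card]
      exact Fintype.card_of_subtype _ (by intro x; simp [mem_Fx])
    have h3 : Finset.univ.filter (fun v : V => ρ t v = v)
        = insert 0 (s.bipartiteBelow (fun (v : V) (t : G) => ρ t v = v) t) := by
      ext v
      simp only [Finset.bipartiteBelow, Finset.mem_filter, Finset.mem_univ, true_and,
        Finset.mem_insert, hs]
      constructor
      · intro h
        by_cases hv : v = 0
        · left; exact hv
        · right; exact ⟨hv, h⟩
      · rintro (rfl | ⟨_, h⟩)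
        · simp
        · exact h
    rw [h3, Finset.card_insert_of_notMem (by simp [Finset.bipartiteBelow, hs])] at h2
    omega
  rw [Finset.sum_congr rfl hA, Finset.sum_congr rfl hB] at hdc
  simp only [Finset.sum_const, smul_eq_mul, mul_one] at hdc
  have hscard : s.card + 1 = Nat.card V := by
    rw [Nat.card_eq_fintype_card, ← Finset.card_univ, hs, Finset.filter_ne' Finset.univ (0 : V),
      Finset.card_erase_of_mem (Finset.mem_univ _)]
    have : 0 < (Finset.univ : Finset V).card := Finset.card_pos.2 ⟨0, Finset.mem_univ _⟩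
    omega
  have hTcard : Nat.card {g : G // orderOf g = 2 ∧ g ∉ Subgroup.center G} = T.card := by
    rw [Nat.card_eq_fintype_card, Fintype.card_subtype]
  rw [hTcard]
  rw [hV] at hscard
  have h4 : q ^ (2 * r) = q ^ r * q ^ r := by rw [two_mul, pow_add]
  rw [h4, hdc] at hscard
  generalize q ^ r = a at *
  obtain ⟨b, rfl⟩ : ∃ b, a = b + 2 := ⟨a - 2, by omega⟩
  have h5 : b + 2 - 1 = b + 1 := by omega
  rw [h5] at hscard
  have h6 : T.card * (b + 1) = (b + 3) * (b + 1) := by nlinarith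
  have := Nat.eq_of_mul_eq_mul_right (by omega) h6
  omega

end Cfsg.Agent.S3381
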