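import Cfsg.Statements.S3382

set_option autoImplicit false
open Cfsg

namespace Cfsg.Agent.S3382

section abs
variable {P : Type*} [Group P]

theorem abs0 (α : MulAut P) (n : ℕ) (hn : Odd n) (hα : α ^ n = 1) (x : P)
    (hz : α (x⁻¹ * α x) = x⁻¹ * α x) (N : ℕ) (hN : (x⁻¹ * α x) ^ (2 ^ N) = 1) : α x = x := by
  set z := x⁻¹ * α x with hzdef
  have key : ∀ k : ℕ, (α ^ k) x = x * z ^ k := by
    intro k
    induction k with
    | zero => simp
    | succ k ih =>
      rw [pow_succ', MulAut.mul_apply, ih, map_mul, map_pow, hz, pow_succ', ← mul_assoc]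
      congr 1
      rw [hzdef]; group
  have h1 : z ^ n = 1 := by
    have := key n
    rw [hα, MulAut.one_apply] at this
    exact (mul_eq_left.mp this.symm)
  have h2 : z = 1 := by
    have hc : Nat.Coprime n (2 ^ N) := Nat.Coprime.pow_right _ (Nat.coprime_two_right.mpr hn)
    have := pow_gcd_eq_one.mpr ⟨h1, hN⟩
    rwa [hc.gcd_eq_one, pow_one] at this
  rw [hzdef] at h2
  exact (inv_mul_eq_one.mp h2).symm

theorem abs1 (α : MulAut P) (n : ℕ) (hn : Odd n) (hα : α ^ n = 1) (A : Subgroup P) (N : ℕ)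
    (hN : ∀ y ∈ A, y ^ (2 ^ N) = 1) (hfix : ∀ y ∈ A, α y = y) (hx : ∀ x, x⁻¹ * α x ∈ A) :
    α = 1 := by
  ext x
  exact abs0 α n hn hα x (hfix _ (hx x)) N (hN _ (hx x))

theorem abs2 (α : MulAut P) (n : ℕ) (hn : Odd n) (hα : α ^ n = 1) (A : Subgroup P) (N : ℕ)
    (hN : ∀ y ∈ A, y ^ (2 ^ N) = 1) (hcomm : ∀ a ∈ A, ∀ b ∈ A, a * b = b * a)
    (hmap : ∀ y ∈ A, α y ∈ A) (h2 : ∀ y ∈ A, y ^ 2 = 1 → α y = y) : ∀ y ∈ A, α y = y := by
  have key : ∀ i : ℕ, ∀ y ∈ A, y ^ (2 ^ i) = 1 → α y = y := by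
    intro i
    induction i with
    | zero =>
      intro y _ hy
      rw [pow_zero, pow_one] at hy
      rw [hy, map_one]
    | succ i ih =>
      intro y hyA hy
      have hu : α (y ^ (2 ^ i)) = y ^ (2 ^ i) := by
        apply h2 _ (A.pow_mem hyA _)
        rw [← pow_mul, ← pow_succ]
        exact hy
      have hzA : y⁻¹ * α y ∈ A := A.mul_mem (A.inv_mem hyA) (hmap y hyA)
      have hzp : (y⁻¹ * α y) ^ (2 ^ i) = 1 := by
        have hc : Commute y⁻¹ (α y) := hcomm _ (A.inv_mem hyA) _ (hmap y hyA)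
        rw [hc.mul_pow, ← map_pow, hu, inv_pow, inv_mul_cancel]
      exact abs0 α n hn hα y (ih _ hzA hzp) i hzp
  intro y hy
  exact key N y hy (hN y hy)

end abs

section mono
variable {q : ℕ} [Fact q.Prime]

/-- `f` is the diagonal map `(x, y) ↦ (u x, w y)`. -/
def Dg (f : (Fin 2 → ZMod q) ≃ₗ[ZMod q] (Fin 2 → ZMod q)) (u w : ZMod q) : Prop :=
  ∀ v, f v = ![u * v 0, w * v 1]

/-- `f` is the antidiagonal map `(x, y) ↦ (u y, w x)`. -/
def Wg (f : (Fin 2 → ZMod q) ≃ₗ[ZMod q] (Fin 2 → ZMod q)) (u w : ZMod q) : Prop :=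
  ∀ v, f v = ![u * v 1, w * v 0]

variable {f g : (Fin 2 → ZMod q) ≃ₗ[ZMod q] (Fin 2 → ZMod q)} {u w u' w' : ZMod q}

theorem DD (hf : Dg f u w) (hg : Dg g u' w') : Dg (f * g) (u * u') (w * w') := by
  intro v
  rw [LinearEquiv.mul_apply, hg, hf]
  simp [mul_assoc]

theorem DW (hf : Dg f u w) (hg : Wg g u' w') : Wg (f * g) (u * u') (w * w') := by
  intro v
  rw [LinearEquiv.mul_apply, hg, hf]
  simp [mul_assoc]

theorem WD (hf : Wg f u w) (hg : Dg g u' w') : Wg (f * g) (u * w') (w * u') := by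
  intro v
  rw [LinearEquiv.mul_apply, hg, hf]
  simp [mul_assoc]

theorem WW (hf : Wg f u w) (hg : Wg g u' w') : Dg (f * g) (u * w') (w * u') := by
  intro v
  rw [LinearEquiv.mul_apply, hg, hf]
  simp [mul_assoc]

theorem Dext (hf : Dg f u w) (hg : Dg g u' w') (h1 : u = u') (h2 : w = w') : f = g := by
  subst h1 h2
  ext v : 1
  rw [hf, hg]

theorem Wext (hf : Wg f u w) (hg : Wg g u' w') (h1 : u = u') (h2 : w = w') : f = g := by
  subst h1 h2
  ext v : 1
  rw [hf, hg]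

theorem Dinj (hf : Dg f u w) (hg : Dg f u' w') : u = u' ∧ w = w' := by
  constructor
  · have := (hf ![1, 0]).symm.trans (hg ![1, 0])
    simpa using congrFun this 0
  · have := (hf ![0, 1]).symm.trans (hg ![0, 1])
    simpa using congrFun this 1

theorem Winj (hf : Wg f u w) (hg : Wg f u' w') : u = u' ∧ w = w' := by
  constructor
  · have := (hf ![0, 1]).symm.trans (hg ![0, 1])
    simpa using congrFun this 0
  · have := (hf ![1, 0]).symm.trans (hg ![1, 0])
    simpa using congrFun this 1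

theorem DWzero (hf : Dg f u w) (hg : Wg f u' w') : u = 0 := by
  have := (hf ![1, 0]).symm.trans (hg ![1, 0])
  simpa using congrFun this 0

theorem Done : Dg (1 : (Fin 2 → ZMod q) ≃ₗ[ZMod q] (Fin 2 → ZMod q)) 1 1 := by
  intro v
  ext i
  fin_cases i <;> simp

theorem Dpow (hf : Dg f u w) (k : ℕ) : Dg (f ^ k) (u ^ k) (w ^ k) := by
  induction k with
  | zero => simpa using Done
  | succ k ih =>
    rw [pow_succ, pow_succ, pow_succ]
    exact DD ih hf

theorem exD (hu : u' * u = 1) (hw : w' * w = 1) :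
    ∃ f : (Fin 2 → ZMod q) ≃ₗ[ZMod q] (Fin 2 → ZMod q), Dg f u w := by
  refine ⟨{ toFun := fun v => ![u * v 0, w * v 1]
            invFun := fun v => ![u' * v 0, w' * v 1]
            map_add' := ?_, map_smul' := ?_, left_inv := ?_, right_inv := ?_ }, fun v => rfl⟩
  · intro x y; ext i; fin_cases i <;> simp [mul_add]
  · intro c x; ext i; fin_cases i <;> simp [mul_left_comm]
  · intro v; ext i; fin_cases i <;> simp [← mul_assoc, hu, hw]
  · intro v; ext i; fin_cases i <;> simp [← mul_assoc, mul_comm u u', mul_comm w w', hu, hw]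

theorem exW (hu : u' * u = 1) (hw : w' * w = 1) :
    ∃ f : (Fin 2 → ZMod q) ≃ₗ[ZMod q] (Fin 2 → ZMod q), Wg f u w := by
  refine ⟨{ toFun := fun v => ![u * v 1, w * v 0]
            invFun := fun v => ![w' * v 1, u' * v 0]
            map_add' := ?_, map_smul' := ?_, left_inv := ?_, right_inv := ?_ }, fun v => rfl⟩
  · intro x y; ext i; fin_cases i <;> simp [mul_add]
  · intro c x; ext i; fin_cases i <;> simp [mul_left_comm]
  · intro v; ext i; fin_cases i <;> simp [← mul_assoc, hu, hw]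
  · intro v; ext i; fin_cases i <;> simp [← mul_assoc, mul_comm u u', mul_comm w w', hu, hw]


theorem Dcongr (hf : Dg f u w) (h1 : u = u') (h2 : w = w') : Dg f u' w' := h1 ▸ h2 ▸ hf

theorem Wcongr (hf : Wg f u w) (h1 : u = u') (h2 : w = w') : Wg f u' w' := h1 ▸ h2 ▸ hf

theorem Dne (hf : Dg f u w) : u ≠ 0 := by
  rintro rfl
  have h1 := hf ![1, 0]
  have h2 : f ![1, 0] = f 0 := by
    rw [h1, map_zero]; ext i; fin_cases i <;> simp
  have := f.injective h2
  simpa using congrFun this 0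

theorem notDW (hf : Dg f u w) (hg : Wg f u' w') : False := Dne hf (DWzero hf hg)

theorem ne0 (h : u * w = 1 ∨ u * w = -1) : u ≠ 0 ∧ w ≠ 0 := by
  constructor
  · rintro rfl; simp at h
  · rintro rfl; simp at h

theorem Dexp (m : ℕ) (hq : q = 2 ^ m + 1) (hf : Dg f u w) (hu : u ≠ 0) (hw : w ≠ 0) :
    f ^ (2 ^ m) = 1 := by
  have hq' : q - 1 = 2 ^ m := by rw [hq, Nat.add_sub_cancel]
  have h1 : u ^ (2 ^ m) = 1 := by
    have := ZMod.pow_card_sub_one_eq_one hu
    rwa [hq'] at this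
  have h2 : w ^ (2 ^ m) = 1 := by
    have := ZMod.pow_card_sub_one_eq_one hw
    rwa [hq'] at this
  exact Dext (Dpow hf _) Done h1 h2

theorem W4 (hf : Wg f u w) (h : u * w = 1 ∨ u * w = -1) : f ^ 4 = 1 := by
  have h1 : Dg (f * f * (f * f)) (u * w * (u * w)) (w * u * (w * u)) := DD (WW hf hf) (WW hf hf)
  have h2 : f ^ 4 = f * f * (f * f) := by rw [show (4 : ℕ) = 2 + 2 from rfl, pow_add, pow_two]
  rw [h2]
  refine Dext h1 Done ?_ ?_
  · rcases h with h | h <;> rw [h] <;> ring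
  · rw [mul_comm w u]
    rcases h with h | h <;> rw [h] <;> ring

end mono

section Tlevel
variable {q : ℕ} [Fact q.Prime]
  {T : Subgroup ((Fin 2 → ZMod q) ≃ₗ[ZMod q] (Fin 2 → ZMod q))}

theorem memT' (hT : ∀ f, f ∈ T ↔ ∃ a s : ZMod q, a ≠ 0 ∧ (s = 1 ∨ s = -1) ∧
      ((∀ v, f v = ![a * v 0, s * a⁻¹ * v 1]) ∨ (∀ v, f v = ![s * a⁻¹ * v 1, a * v 0]))) :
    ∀ f, f ∈ T ↔ ∃ u w : ZMod q, (u * w = 1 ∨ u * w = -1) ∧ (Dg f u w ∨ Wg f u w) := by
  intro f
  rw [hT]
  constructor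
  · rintro ⟨a, s, ha, hs, h | h⟩
    · refine ⟨a, s * a⁻¹, ?_, Or.inl h⟩
      have : a * (s * a⁻¹) = s := by field_simp
      rwa [this]
    · refine ⟨s * a⁻¹, a, ?_, Or.inr h⟩
      have : s * a⁻¹ * a = s := by field_simp
      rwa [this]
  · rintro ⟨u, w, hs, h | h⟩
    · have hu : u ≠ 0 := (ne0 hs).1
      refine ⟨u, u * w, hu, hs, Or.inl ?_⟩
      have : u * w * u⁻¹ = w := by field_simp
      rw [this]; exact h
    · have hw : w ≠ 0 := (ne0 hs).2
      refine ⟨w, u * w, hw, hs, Or.inr ?_⟩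
      have : u * w * w⁻¹ = u := by field_simp
      rw [this]; exact h

variable (hT' : ∀ f, f ∈ T ↔ ∃ u w : ZMod q, (u * w = 1 ∨ u * w = -1) ∧ (Dg f u w ∨ Wg f u w))
include hT'

theorem DT (x : T) {u w : ZMod q} (h : Dg (x : (Fin 2 → ZMod q) ≃ₗ[ZMod q] (Fin 2 → ZMod q)) u w) :
    u * w = 1 ∨ u * w = -1 := by
  obtain ⟨u', w', hs, h' | h'⟩ := (hT' x).1 x.2
  · obtain ⟨rfl, rfl⟩ := Dinj h h'
    exact hs
  · exact (notDW h h').elim

theorem expT (m : ℕ) (hq : q = 2 ^ m + 1) (x : T) : x ^ (2 ^ (m + 1)) = 1 := by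
  obtain ⟨u, w, hs, h | h⟩ := (hT' x).1 x.2
  · have h1 := Dexp m hq h (ne0 hs).1 (ne0 hs).2
    apply Subtype.ext
    rw [Subgroup.coe_pow, pow_succ, pow_mul, h1, one_pow]
    rfl
  · have h1 := Dexp m hq (WW h h) (mul_ne_zero (ne0 hs).1 (ne0 hs).2)
      (mul_ne_zero (ne0 hs).2 (ne0 hs).1)
    apply Subtype.ext
    rw [Subgroup.coe_pow, pow_succ', pow_mul, pow_two, h1]
    rfl

theorem centD (t : T) (ht : t ^ 4 ≠ 1) (y : T) :
    y * t = t * y ↔ ∃ u w, Dg (y : (Fin 2 → ZMod q) ≃ₗ[ZMod q] (Fin 2 → ZMod q)) u w := by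
  obtain ⟨a, b, hs, h | h⟩ := (hT' t).1 t.2
  swap
  · exfalso; apply ht; exact Subtype.ext (W4 h hs)
  have hab : a ≠ b := by
    rintro rfl
    apply ht
    apply Subtype.ext
    have h4 : a ^ 4 = 1 := by
      have : a ^ 4 = (a * a) * (a * a) := by ring
      rw [this]
      rcases hs with hs | hs <;> rw [hs] <;> ring
    exact Dext (Dpow h 4) Done h4 h4
  constructor
  · intro hc
    obtain ⟨u, w, hs', h' | h'⟩ := (hT' y).1 y.2
    · exact ⟨u, w, h'⟩
    · exfalso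
      have h1 : Wg ((y * t : T) : (Fin 2 → ZMod q) ≃ₗ[ZMod q] (Fin 2 → ZMod q)) (u * b) (w * a) :=
        WD h' h
      have h2 : Wg ((t * y : T) : (Fin 2 → ZMod q) ≃ₗ[ZMod q] (Fin 2 → ZMod q)) (a * u) (b * w) :=
        DW h h'
      rw [hc] at h1
      have h3 := (Winj h1 h2).1
      have hu : u ≠ 0 := (ne0 hs').1
      apply hab
      apply mul_left_cancel₀ hu
      linear_combination -h3
  · rintro ⟨u, w, h'⟩
    exact Subtype.ext (Dext (DD h' h) (DD h h') (mul_comm _ _) (mul_comm _ _))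


omit hT' in
theorem nat15 (p : ℕ) (hp : p.Prime) (h9 : 9 ≤ p) (hd : p ∣ 15) : False := by
  have hle := Nat.le_of_dvd (by norm_num) hd
  interval_cases p <;> first | omega | (norm_num at hp)

theorem big (m : ℕ) (hq : q = 2 ^ m + 1) (hm : 3 ≤ m) (α : MulAut T) (n : ℕ) (hn : Odd n)
    (hα : α ^ n = 1) : α = 1 := by
  have hq9 : 9 ≤ q := by
    have : 2 ^ 3 ≤ 2 ^ m := Nat.pow_le_pow_right (by norm_num) hm
    rw [hq]
    omega
  have h20 : (2 : ZMod q) ≠ 0 := by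
    intro h
    have h1 : ((2 : ℕ) : ZMod q) = 0 := by exact_mod_cast h
    rw [ZMod.natCast_eq_zero_iff] at h1
    have := Nat.le_of_dvd (by norm_num) h1
    omega
  have h24 : (2 : ZMod q) ^ 4 ≠ 1 := by
    intro h
    have h1 : ((15 : ℕ) : ZMod q) = 0 := by
      push_cast
      linear_combination h
    rw [ZMod.natCast_eq_zero_iff] at h1
    exact nat15 q Fact.out hq9 h1
  obtain ⟨f0, hf0⟩ := exD (u := (2 : ZMod q)) (w := 2⁻¹) (u' := 2⁻¹) (w' := 2)
    (inv_mul_cancel₀ h20) (mul_inv_cancel₀ h20)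
  have hf0T : f0 ∈ T := (hT' f0).2 ⟨2, 2⁻¹, Or.inl (mul_inv_cancel₀ h20), Or.inl hf0⟩
  obtain ⟨fr, hfr⟩ := exW (u := (1 : ZMod q)) (w := -1) (u' := 1) (w' := -1) (by simp) (by simp)
  have hfrT : fr ∈ T := (hT' fr).2 ⟨1, -1, Or.inr (by simp), Or.inr hfr⟩
  let x0 : T := ⟨f0, hf0T⟩
  let r : T := ⟨fr, hfrT⟩
  have hx04 : x0 ^ 4 ≠ 1 := by
    intro h
    have h1 : Dg ((x0 ^ 4 : T) : (Fin 2 → ZMod q) ≃ₗ[ZMod q] (Fin 2 → ZMod q)) (2 ^ 4) ((2⁻¹) ^ 4) :=
      Dpow hf0 4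
    rw [h] at h1
    exact h24 (Dinj h1 Done).1
  have hαx04 : (α x0) ^ 4 ≠ 1 := by
    rw [← map_pow]
    intro h
    exact hx04 (α.injective (h.trans (map_one α).symm))
  have hDα : ∀ y : T, (∃ u w, Dg ((α y : T) : (Fin 2 → ZMod q) ≃ₗ[ZMod q] (Fin 2 → ZMod q)) u w) ↔
      ∃ u w, Dg (y : (Fin 2 → ZMod q) ≃ₗ[ZMod q] (Fin 2 → ZMod q)) u w := by
    intro y
    rw [← centD hT' _ hαx04, ← centD hT' _ hx04, ← map_mul, ← map_mul]
    exact α.injective.eq_iff
  let A : Subgroup T := Subgroup.centralizer {x0}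
  have hA : ∀ y, y ∈ A ↔ ∃ u w, Dg (y : (Fin 2 → ZMod q) ≃ₗ[ZMod q] (Fin 2 → ZMod q)) u w := by
    intro y
    rw [← centD hT' _ hx04, Subgroup.mem_centralizer_singleton_iff]
  have hexp := expT hT' m hq
  have hcD : Dg ((r * r : T) : (Fin 2 → ZMod q) ≃ₗ[ZMod q] (Fin 2 → ZMod q)) (-1) (-1) :=
    Dcongr (WW hfr hfr) (by simp) (by simp)
  have hc : α (r * r) = r * r := by
    obtain ⟨u, w, hs, h | h⟩ := (hT' (α r)).1 (α r).2
    · exfalso
      obtain ⟨u', w', h'⟩ := (hDα r).1 ⟨u, w, h⟩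
      exact notDW h' hfr
    · rcases hs with hs | hs
      · have h1 : α (r * r) = 1 := by
          rw [map_mul]
          exact Subtype.ext (Dext (WW h h) Done hs (by rw [mul_comm]; exact hs))
        have h2 : r * r = 1 := α.injective (h1.trans (map_one α).symm)
        rw [h2, map_one]
      · rw [map_mul]
        exact Subtype.ext (Dext (WW h h) hcD hs (by rw [mul_comm]; exact hs))
  have hE : ∀ (z : T) (e : ZMod q), Dg (z : (Fin 2 → ZMod q) ≃ₗ[ZMod q] (Fin 2 → ZMod q)) e e →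
      e * e = 1 → α z = z := by
    intro z e h he
    rcases mul_self_eq_one_iff.mp he with rfl | rfl
    · have : z = 1 := Subtype.ext (Dext h Done rfl rfl)
      rw [this, map_one]
    · have : z = r * r := Subtype.ext (Dext h hcD rfl rfl)
      rw [this, hc]
  have h2 : ∀ y ∈ A, y ^ 2 = 1 → α y = y := by
    intro y hyA hy2
    obtain ⟨u, w, h⟩ := (hA y).1 hyA
    obtain ⟨u', w', h'⟩ := (hDα y).2 ⟨u, w, h⟩
    have hy2' : y * y = 1 := by rw [← pow_two]; exact hy2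
    have huw : u * u = 1 ∧ w * w = 1 := by
      have h1 : Dg ((y * y : T) : (Fin 2 → ZMod q) ≃ₗ[ZMod q] (Fin 2 → ZMod q)) (u * u) (w * w) :=
        DD h h
      rw [hy2'] at h1
      exact Dinj h1 Done
    have huw' : u' * u' = 1 ∧ w' * w' = 1 := by
      have h1 : Dg ((α y * α y : T) : (Fin 2 → ZMod q) ≃ₗ[ZMod q] (Fin 2 → ZMod q))
        (u' * u') (w' * w') := DD h' h'
      rw [← map_mul, hy2', map_one] at h1
      exact Dinj h1 Done
    rcases DT hT' y h with hs | hs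
    · have : u = w := by
        calc u = u * (w * w) := by rw [huw.2, mul_one]
          _ = (u * w) * w := by ring
          _ = w := by rw [hs, one_mul]
      subst this
      exact hE y u h huw.1
    rcases DT hT' (α y) h' with hs' | hs'
    · have : u' = w' := by
        calc u' = u' * (w' * w') := by rw [huw'.2, mul_one]
          _ = (u' * w') * w' := by ring
          _ = w' := by rw [hs', one_mul]
      subst this
      exact α.injective (hE (α y) u' h' huw'.1)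
    · have hyinv : y⁻¹ = y := inv_eq_of_mul_eq_one_left hy2'
      refine abs0 α n hn hα y ?_ (m + 1) (hexp _)
      rw [hyinv]
      have hz : Dg ((y * α y : T) : (Fin 2 → ZMod q) ≃ₗ[ZMod q] (Fin 2 → ZMod q))
        (u * u') (w * w') := DD h h'
      have hzz : u * u' = w * w' := by
        calc u * u' = (u * u') * ((w * w) * (w' * w')) := by rw [huw.2, huw'.2]; ring
          _ = (u * w) * (u' * w') * (w * w') := by ring
          _ = w * w' := by rw [hs, hs']; ring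
      rw [hzz] at hz
      refine hE _ _ hz ?_
      calc w * w' * (w * w') = (w * w) * (w' * w') := by ring
        _ = 1 := by rw [huw.2, huw'.2]; ring
  have hcomm : ∀ a ∈ A, ∀ b ∈ A, a * b = b * a := by
    intro a ha b hb
    obtain ⟨u, w, h⟩ := (hA a).1 ha
    obtain ⟨u', w', h'⟩ := (hA b).1 hb
    exact Subtype.ext (Dext (DD h h') (DD h' h) (mul_comm _ _) (mul_comm _ _))
  have hmap : ∀ y ∈ A, α y ∈ A := fun y hy => (hA _).2 ((hDα y).2 ((hA y).1 hy))
  have hfix := abs2 α n hn hα A (m + 1) (fun y _ => hexp y) hcomm hmap h2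
  refine abs1 α n hn hα A (m + 1) (fun y _ => hexp y) hfix ?_
  intro x
  by_cases hx : x ∈ A
  · exact A.mul_mem (A.inv_mem hx) (hmap x hx)
  · have hxi : x⁻¹ ∉ A := fun h => hx (by simpa using A.inv_mem h)
    have hαx : α x ∉ A := fun h => hx ((hA x).2 ((hDα x).1 ((hA _).1 h)))
    obtain ⟨u, w, -, h | h⟩ := (hT' _).1 (x⁻¹).2
    · exact absurd ((hA _).2 ⟨u, w, h⟩) hxi
    obtain ⟨u', w', -, h' | h'⟩ := (hT' _).1 (α x).2
    · exact absurd ((hA _).2 ⟨u', w', h'⟩) hαx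
    exact (hA _).2 ⟨_, _, WW h h'⟩


theorem small (m : ℕ) (hq : q = 2 ^ m + 1) (hpm : ∀ u : ZMod q, u ≠ 0 → u = 1 ∨ u = -1)
    (α : MulAut T) (n : ℕ) (hn : Odd n) (hα : α ^ n = 1) : α = 1 := by
  have hexp := expT hT' m hq
  suffices hall : ∀ x, α x = x from MulEquiv.ext hall
  by_cases h11 : (-1 : ZMod q) = 1
  · have h1 : ∀ u : ZMod q, u ≠ 0 → u = 1 := fun u hu => (hpm u hu).elim id (fun h => h.trans h11)
    intro x
    obtain ⟨u, w, hs, h | h⟩ := (hT' x).1 x.2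
    · have hx1 : x = 1 := Subtype.ext (Dext h Done (h1 u (ne0 hs).1) (h1 w (ne0 hs).2))
      rw [hx1, map_one]
    · obtain ⟨u', w', hs', h' | h'⟩ := (hT' (α x)).1 (α x).2
      · have hx1 : α x = 1 := Subtype.ext (Dext h' Done (h1 u' (ne0 hs').1) (h1 w' (ne0 hs').2))
        have : x = 1 := α.injective (hx1.trans (map_one α).symm)
        rw [this, map_one]
      · exact Subtype.ext (Wext h' h ((h1 u' (ne0 hs').1).trans (h1 u (ne0 hs).1).symm)
          ((h1 w' (ne0 hs').2).trans (h1 w (ne0 hs).2).symm))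
  have hsq : ∀ u : ZMod q, u ≠ 0 → u * u = 1 := by
    intro u hu
    rcases hpm u hu with rfl | rfl <;> ring
  obtain ⟨fr, hfr⟩ := exW (u := (1 : ZMod q)) (w := -1) (u' := 1) (w' := -1) (by simp) (by simp)
  have hfrT : fr ∈ T := (hT' fr).2 ⟨1, -1, Or.inr (by simp), Or.inr hfr⟩
  let r : T := ⟨fr, hfrT⟩
  have hcD : Dg ((r * r : T) : (Fin 2 → ZMod q) ≃ₗ[ZMod q] (Fin 2 → ZMod q)) (-1) (-1) :=
    Dcongr (WW hfr hfr) (by simp) (by simp)
  have hc1 : r * r ≠ 1 := by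
    intro h
    rw [h] at hcD
    exact h11 (Dinj hcD Done).1
  have hsqW : ∀ t : T, t * t ≠ 1 →
      ∃ e, Wg (t : (Fin 2 → ZMod q) ≃ₗ[ZMod q] (Fin 2 → ZMod q)) e (-e) := by
    intro t ht
    obtain ⟨u, w, hs, h | h⟩ := (hT' t).1 t.2
    · exact (ht (Subtype.ext (Dext (DD h h) Done (hsq u (ne0 hs).1) (hsq w (ne0 hs).2)))).elim
    · rcases hs with hs | hs
      · exact (ht (Subtype.ext (Dext (WW h h) Done hs (by rw [mul_comm]; exact hs)))).elim
      · refine ⟨u, Wcongr h rfl ?_⟩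
        calc w = (u * u) * w := by rw [hsq u (ne0 (Or.inr hs)).1, one_mul]
          _ = u * (u * w) := by ring
          _ = -u := by rw [hs]; ring
  have hαr2 : α r * α r ≠ 1 := by
    rw [← map_mul]
    intro h
    exact hc1 (α.injective (h.trans (map_one α).symm))
  obtain ⟨e, he⟩ := hsqW (α r) hαr2
  have he0 : e ≠ 0 := by
    rintro rfl
    have := DT hT' (α r * α r) (WW he he)
    simp at this
  have hc : α (r * r) = r * r := by
    rw [map_mul]
    refine Subtype.ext (Dext (WW he he) hcD ?_ ?_)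
    · rw [mul_neg, hsq e he0]
    · rw [neg_mul, hsq e he0]
  have hrc : Wg ((r * (r * r) : T) : (Fin 2 → ZMod q) ≃ₗ[ZMod q] (Fin 2 → ZMod q)) (-1) 1 :=
    Wcongr (WD hfr hcD) (by simp) (by simp)
  have hr : α r = r := by
    rcases hpm e he0 with rfl | rfl
    · exact Subtype.ext (Wext he hfr rfl rfl)
    · have h1 : α r = r * (r * r) := Subtype.ext (Wext he hrc rfl (by simp))
      refine abs0 α n hn hα r ?_ (m + 1) (hexp _)
      rw [h1, inv_mul_cancel_left, hc]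
  have hK : ∀ (z : T) (e : ZMod q), e ≠ 0 →
      (Dg (z : (Fin 2 → ZMod q) ≃ₗ[ZMod q] (Fin 2 → ZMod q)) e e ∨
        Wg (z : (Fin 2 → ZMod q) ≃ₗ[ZMod q] (Fin 2 → ZMod q)) e (-e)) → α z = z := by
    intro z e he0 h
    rcases hpm e he0 with rfl | rfl
    · rcases h with h | h
      · have : z = 1 := Subtype.ext (Dext h Done rfl rfl)
        rw [this, map_one]
      · have : z = r := Subtype.ext (Wext h hfr rfl rfl)
        rw [this, hr]
    · rcases h with h | h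
      · have : z = r * r := Subtype.ext (Dext h hcD rfl rfl)
        rw [this, hc]
      · have : z = r * (r * r) := Subtype.ext (Wext h hrc rfl (by simp))
        rw [this, map_mul, hc, hr]
  have hpm2 : ∀ u w : ZMod q, u ≠ 0 → w ≠ 0 → w = u ∨ w = -u := by
    intro u w hu hw
    rcases hpm u hu with rfl | rfl <;> rcases hpm w hw with rfl | rfl <;> simp
  -- classification into the two cosets
  have hKR : ∀ z : T, α z = z ∨ ∃ e, e ≠ 0 ∧
      (Dg (z : (Fin 2 → ZMod q) ≃ₗ[ZMod q] (Fin 2 → ZMod q)) e (-e) ∨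
        Wg (z : (Fin 2 → ZMod q) ≃ₗ[ZMod q] (Fin 2 → ZMod q)) e e) := by
    intro z
    obtain ⟨u, w, hs, h | h⟩ := (hT' z).1 z.2
    · rcases hpm2 u w (ne0 hs).1 (ne0 hs).2 with rfl | rfl
      · exact Or.inl (hK z _ (ne0 hs).1 (Or.inl h))
      · exact Or.inr ⟨u, (ne0 hs).1, Or.inl h⟩
    · rcases hpm2 u w (ne0 hs).1 (ne0 hs).2 with rfl | rfl
      · exact Or.inr ⟨_, (ne0 hs).1, Or.inr h⟩
      · exact Or.inl (hK z _ (ne0 hs).1 (Or.inr h))
  intro x
  rcases hKR x with hx | ⟨a, ha, hx⟩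
  · exact hx
  rcases hKR (α x) with hx' | ⟨b, hb, hx'⟩
  · exact α.injective hx'
  have hx2 : x * x = 1 := by
    rcases hx with h | h
    · exact Subtype.ext (Dext (DD h h) Done (hsq a ha) (by rw [neg_mul_neg, hsq a ha]))
    · exact Subtype.ext (Dext (WW h h) Done (hsq a ha) (hsq a ha))
  have hxinv : x⁻¹ = x := inv_eq_of_mul_eq_one_left hx2
  refine abs0 α n hn hα x ?_ (m + 1) (hexp _)
  rw [hxinv]
  have hab : a * b ≠ 0 := mul_ne_zero ha hb
  rcases hx with h | h <;> rcases hx' with h' | h'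
  · exact hK _ (a * b) hab (Or.inl (Dcongr (DD h h') rfl (by ring)))
  · exact hK _ (a * b) hab (Or.inr (Wcongr (DW h h') rfl (by ring)))
  · exact hK _ (-(a * b)) (neg_ne_zero.mpr hab) (Or.inr (Wcongr (WD h h') (by ring) (by ring)))
  · exact hK _ (a * b) hab (Or.inl (Dcongr (WW h h') rfl rfl))

end Tlevel

theorem pm23 (p : ℕ) (h : p = 2 ∨ p = 3) : ∀ u : ZMod p, u ≠ 0 → u = 1 ∨ u = -1 := by
  rcases h with rfl | rfl <;> decide

/-- Let q = 2^m + 1 be a prime other than 5. Then the automorphism group of the group of linear maps of F_q² of the forms (x, y) ↦ (a x, ± a⁻¹ y) and (x, y) ↦ (± a⁻¹ y, a x) with a ≠ 0 is itself a 2-group. -/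
theorem result (q m : ℕ) [Fact q.Prime] (hq : q = 2 ^ m + 1) (hq5 : q ≠ 5)
    (T : Subgroup ((Fin 2 → ZMod q) ≃ₗ[ZMod q] (Fin 2 → ZMod q)))
    (hT : ∀ f, f ∈ T ↔ ∃ a s : ZMod q, a ≠ 0 ∧ (s = 1 ∨ s = -1) ∧
      ((∀ v, f v = ![a * v 0, s * a⁻¹ * v 1]) ∨ (∀ v, f v = ![s * a⁻¹ * v 1, a * v 0]))) :
    IsPGroup 2 (MulAut T) := by
  have hT' := memT' hT
  have main : ∀ (α : MulAut T) (n : ℕ), Odd n → α ^ n = 1 → α = 1 := by
    intro α n hn hα
    rcases Nat.lt_or_ge m 3 with hm | hm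
    · have h23 : q = 2 ∨ q = 3 := by
        have h012 : m = 0 ∨ m = 1 ∨ m = 2 := by omega
        rcases h012 with h | h | h
        · left; rw [hq, h]; norm_num
        · right; rw [hq, h]; norm_num
        · exfalso; apply hq5; rw [hq, h]; norm_num
      exact small hT' m hq (pm23 q h23) α n hn hα
    · exact big hT' m hq hm α n hn hα
  have : Finite ((Fin 2 → ZMod q) ≃ₗ[ZMod q] (Fin 2 → ZMod q)) :=
    Finite.of_injective (fun f => (f : (Fin 2 → ZMod q) → (Fin 2 → ZMod q))) DFunLike.coe_injective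
  have : Finite (MulAut T) := Finite.of_injective (fun α => (α : T → T)) DFunLike.coe_injective
  intro α
  obtain ⟨k, n, hn, hkn⟩ := Nat.exists_eq_two_pow_mul_odd (n := orderOf α) (orderOf_pos α).ne'
  refine ⟨k, main (α ^ (2 ^ k)) n hn ?_⟩
  rw [← pow_mul, ← hkn, pow_orderOf_eq_one]


end Cfsg.Agent.S3382
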