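import Mathlib
import Cfsg.Statements.S3383
import Cfsg.Agent.S0034

set_option autoImplicit false
open Cfsg

namespace Cfsg.Agent.S3383

open scoped Pointwise

/-- A normal Hall subgroup is characteristic. -/
theorem characteristic_of_normal_of_coprime {G : Type*} [Group G] [Finite G] (K : Subgroup G)
    [K.Normal] (h : (Nat.card K).Coprime K.index) : K.Characteristic := by
  have key : ∀ x : G, x ∈ K ↔ x ^ Nat.card K = 1 := by
    intro x
    constructor
    · intro hx
      have := pow_card_eq_one' (x := (⟨x, hx⟩ : K))
      exact congrArg Subtype.val this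
    · intro hx
      rw [← QuotientGroup.eq_one_iff]
      have h1 : (x : G ⧸ K) ^ Nat.card K = 1 := by
        rw [← QuotientGroup.mk_pow, hx]; rfl
      have h2 : (x : G ⧸ K) ^ K.index = 1 := pow_card_eq_one'
      have h3 := orderOf_dvd_of_pow_eq_one h1
      have h4 := orderOf_dvd_of_pow_eq_one h2
      exact orderOf_eq_one_iff.1 (Nat.eq_one_of_dvd_coprimes h h3 h4)
  rw [Subgroup.characteristic_iff_comap_eq]
  intro φ
  ext x
  rw [Subgroup.mem_comap, key, key]
  change (φ x) ^ Nat.card K = 1 ↔ _
  rw [← map_pow]
  exact map_eq_one_iff φ φ.injective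

/-- Let H be a Frobenius complement in a finite group L and K the Frobenius kernel (as a subgroup). Then K is characteristic in L, and every normal subgroup of L either contains K or is contained in K. -/
theorem result {L : Type*} [Group L] [Finite L]
    (H : Subgroup L) (hH : Cfsg.IsFrobeniusComplement H)
    (K : Subgroup L) (hK : (K : Set L) = Cfsg.frobeniusKernel H) :
    K.Characteristic ∧ ∀ N : Subgroup L, N.Normal → K ≤ N ∨ N ≤ K := by
  have hmem : ∀ x : L, x ∈ K ↔ (x = 1 ∨ ∀ g : L, x ∉ MulAut.conj g • H) := by
    intro x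
    have : x ∈ (K : Set L) ↔ x ∈ Cfsg.frobeniusKernel H := by rw [hK]
    exact this
  have hKn : K.Normal := by
    constructor
    intro x hx g
    rw [hmem] at hx ⊢
    rcases hx with rfl | hx
    · left; group
    · right
      intro g' hg'
      apply hx (g⁻¹ * g')
      rw [S0034.mem_conj_smul] at hg' ⊢
      convert hg' using 1
      group
  have hKH : ∀ x ∈ K, x ∈ H → x = 1 := by
    intro x hx hxH
    rcases (hmem x).1 hx with h | h
    · exact h
    · exfalso
      apply h 1
      rw [S0034.mem_conj_smul]
      simpa using hxH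
  obtain ⟨hc1, hc2⟩ := S0034.result H hH
  have hcardK : Nat.card K = H.index := by
    rw [← hc1, ← hK]; rfl
  constructor
  · apply characteristic_of_normal_of_coprime
    have h1 := K.card_mul_index
    have h2 := H.card_mul_index
    rw [hcardK] at h1
    have hpos : 0 < H.index := Nat.pos_of_ne_zero Subgroup.index_ne_zero_of_finite
    have h3 : K.index = Nat.card H := by
      have : H.index * K.index = H.index * Nat.card H := by rw [h1, ← h2, mul_comm]
      exact Nat.eq_of_mul_eq_mul_left hpos this
    rw [hcardK, h3]
    have h4 : H.index ≡ 1 [MOD Nat.card H] := hc2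
    have := h4.gcd_eq
    rw [Nat.gcd_one_left] at this
    exact this
  · intro N hN
    by_cases hNK : N ≤ K
    · right; exact hNK
    · left
      obtain ⟨x, hxN, hxK⟩ := SetLike.not_le_iff_exists.1 hNK
      rw [hmem] at hxK
      push Not at hxK
      obtain ⟨hx1, g, hg⟩ := hxK
      rw [S0034.mem_conj_smul] at hg
      set h : L := g⁻¹ * x * g with hh
      have hhN : h ∈ N := by
        have := hN.conj_mem x hxN g⁻¹
        simpa [hh] using this
      have hh1 : h ≠ 1 := by
        intro e
        apply hx1
        have : x = g * h * g⁻¹ := by rw [hh]; group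
        rw [this, e]; group
      let ψ : K → K := fun k => ⟨k * h * (k : L)⁻¹ * h⁻¹, by
        have h1 : h * (k : L)⁻¹ * h⁻¹ ∈ K := hKn.conj_mem _ (K.inv_mem k.2) h
        have h2 := K.mul_mem k.2 h1
        convert h2 using 1
        group⟩
      have hinj : Function.Injective ψ := by
        intro k k' hkk
        have h1 : (k : L) * h * (k : L)⁻¹ * h⁻¹ = k' * h * (k' : L)⁻¹ * h⁻¹ := congrArg Subtype.val hkk
        have h2 : (k : L) * h * (k : L)⁻¹ = k' * h * (k' : L)⁻¹ := mul_right_cancel h1
        set c : L := (k' : L)⁻¹ * k with hc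
        have hcK : c ∈ K := K.mul_mem (K.inv_mem k'.2) k.2
        have h3 : c⁻¹ * h * c = h := by
          have : h = (k : L)⁻¹ * (k' * h * (k' : L)⁻¹) * k := by rw [← h2]; group
          have e : c⁻¹ * h * c = (k : L)⁻¹ * (k' * h * (k' : L)⁻¹) * k := by rw [hc]; group
          rw [e, ← this]
        have hcH : c ∈ H := by
          by_contra hcH
          have h4 := hH.2.2 c hcH
          have h5 : h ∈ H ⊓ (MulAut.conj c • H) := by
            refine Subgroup.mem_inf.2 ⟨hg, ?_⟩
            rw [S0034.mem_conj_smul, h3]
            exact hg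
          rw [h4, Subgroup.mem_bot] at h5
          exact hh1 h5
        have h6 := hKH c hcK hcH
        apply Subtype.ext
        rw [hc, inv_mul_eq_one] at h6
        exact h6.symm
      have hsurj := Finite.surjective_of_injective hinj
      intro k hk
      obtain ⟨k0, hk0⟩ := hsurj ⟨k, hk⟩
      have h1 : (k0 : L) * h * (k0 : L)⁻¹ * h⁻¹ = k := congrArg Subtype.val hk0
      rw [← h1]
      exact N.mul_mem (hN.conj_mem h hhN k0) (N.inv_mem hhN)

end Cfsg.Agent.S3383
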