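import Mathlib
import Cfsg.Statements.S3419
import Cfsg.Agent.Lib.Helper57.TwoPrimes
import Cfsg.Agent.Lib.Helper57.OrderPQ
import Cfsg.Agent.Lib.Helper57.AltSpec

set_option autoImplicit false
open Cfsg

namespace Cfsg.Agent.S3419

open Cfsg.Agent.Lib.Helper57

/-- The arithmetic data: two primes `q, p` dividing `|A_n|`, with `n < p + q`, and the non-divisibility
conditions. -/
theorem arith (n : ℕ) (hn : 5 ≤ n) : ∃ p q : ℕ, p.Prime ∧ q.Prime ∧ p ≠ q ∧ n < p + q ∧
    p ∣ Nat.card (alternatingGroup (Fin n)) ∧ q ∣ Nat.card (alternatingGroup (Fin n)) ∧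
    (∀ i, 1 ≤ i → q ^ i ∣ Nat.card (alternatingGroup (Fin n)) → ¬ p ∣ q ^ i - 1) ∧
    (∀ i, 1 ≤ i → p ^ i ∣ Nat.card (alternatingGroup (Fin n)) → ¬ q ∣ p ^ i - 1) := by
  -- generic case: two primes in `(n/2, n]`
  have generic : (∃ q p : ℕ, q.Prime ∧ p.Prime ∧ n < 2 * q ∧ q < p ∧ p ≤ n) → ∃ p q : ℕ, p.Prime ∧ q.Prime ∧ p ≠ q ∧ n < p + q ∧
      p ∣ Nat.card (alternatingGroup (Fin n)) ∧ q ∣ Nat.card (alternatingGroup (Fin n)) ∧
      (∀ i, 1 ≤ i → q ^ i ∣ Nat.card (alternatingGroup (Fin n)) → ¬ p ∣ q ^ i - 1) ∧
      (∀ i, 1 ≤ i → p ^ i ∣ Nat.card (alternatingGroup (Fin n)) → ¬ q ∣ p ^ i - 1) := by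
    rintro ⟨q, p, hq, hp, h1, h2, h3⟩
    have hq3 : 3 ≤ q := by omega
    refine ⟨p, q, hp, hq, by omega, by omega, prime_dvd_card_alt hp (by omega) h3,
      prime_dvd_card_alt hq (by omega) (by omega), ?_, ?_⟩
    · intro i hi hd
      have : i ≤ 1 := pow_dvd_card_alt_le_one hq hq3 h1 (by omega) hd
      have hi1 : i = 1 := by omega
      subst hi1
      rw [pow_one]
      intro hdvd
      have := Nat.le_of_dvd (by omega) hdvd
      omega
    · intro i hi hd
      have : i ≤ 1 := pow_dvd_card_alt_le_one hp (by omega) (by omega) (by omega) hd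
      have hi1 : i = 1 := by omega
      subst hi1
      rw [pow_one]
      rintro ⟨k, hk⟩
      -- `p - 1 = q * k` with `0 < p - 1 < 2 q` forces `k = 1`, so `p = q + 1`
      have hk1 : k = 1 := by
        rcases k with _ | _ | k
        · omega
        · rfl
        · exfalso
          have : q * (k + 1 + 1) ≥ 2 * q := by nlinarith
          omega
      subst hk1
      have hpq : p = q + 1 := by omega
      rcases hq.eq_two_or_odd' with h | h
      · omega
      · rcases hp.eq_two_or_odd' with h' | h'
        · omega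
        · rw [hpq] at h'
          exact (Nat.not_even_iff_odd.mpr h') (Odd.add_one h)
  rcases Nat.lt_or_ge n 11 with hlt | hge
  · interval_cases n
    · exact generic ⟨3, 5, by norm_num, by norm_num, by norm_num, by norm_num, by norm_num⟩
    · -- n = 6 : p = 5, q = 3
      have hc : Nat.card (alternatingGroup (Fin 6)) = 360 := by
        have := two_mul_card_alt 6 (by norm_num)
        have h6 : Nat.factorial 6 = 720 := by decide
        omega
      rw [hc]
      refine ⟨5, 3, by norm_num, by norm_num, by norm_num, by norm_num, by norm_num, by norm_num, ?_, ?_⟩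
      · intro i hi hd
        have : i ≤ 2 := by
          by_contra hcon
          have : 3 ^ 3 ∣ 360 := (pow_dvd_pow 3 (by omega : 3 ≤ i)).trans hd
          norm_num at this
        interval_cases i <;> norm_num
      · intro i hi hd
        have : i ≤ 1 := by
          by_contra hcon
          have : 5 ^ 2 ∣ 360 := (pow_dvd_pow 5 (by omega : 2 ≤ i)).trans hd
          norm_num at this
        interval_cases i <;> norm_num
    · exact generic ⟨5, 7, by norm_num, by norm_num, by norm_num, by norm_num, by norm_num⟩
    · exact generic ⟨5, 7, by norm_num, by norm_num, by norm_num, by norm_num, by norm_num⟩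
    · exact generic ⟨5, 7, by norm_num, by norm_num, by norm_num, by norm_num, by norm_num⟩
    · -- n = 10 : p = 7, q = 5
      have hc : Nat.card (alternatingGroup (Fin 10)) = 1814400 := by
        have := two_mul_card_alt 10 (by norm_num)
        have h10 : Nat.factorial 10 = 3628800 := by decide
        omega
      rw [hc]
      refine ⟨7, 5, by norm_num, by norm_num, by norm_num, by norm_num, by norm_num, by norm_num, ?_, ?_⟩
      · intro i hi hd
        have : i ≤ 2 := by
          by_contra hcon
          have : 5 ^ 3 ∣ 1814400 := (pow_dvd_pow 5 (by omega : 3 ≤ i)).trans hd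
          norm_num at this
        interval_cases i <;> norm_num
      · intro i hi hd
        have : i ≤ 1 := by
          by_contra hcon
          have : 7 ^ 2 ∣ 1814400 := (pow_dvd_pow 7 (by omega : 2 ≤ i)).trans hd
          norm_num at this
        interval_cases i <;> norm_num
  · exact generic (two_primes_half n hge)

/-- Let n ≥ 5 and let G be a finite group with the same order and the same set of element orders as the alternating group of degree n. Then G is not solvable. -/
theorem result {G : Type*} [Group G] [Finite G] (n : ℕ) (hn : 5 ≤ n)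
    (hcard : Nat.card G = Nat.card ↥(alternatingGroup (Fin n)))
    (hspec : Set.range (orderOf : G → ℕ) = Set.range (orderOf : ↥(alternatingGroup (Fin n)) → ℕ)) :
    ¬ Group.IsSolvable G := by
  intro hsol
  obtain ⟨p, q, hp, hq, hne, hlt, hpd, hqd, h1, h2⟩ := arith n hn
  rw [← hcard] at hpd hqd h1 h2
  obtain ⟨g, hg⟩ := exists_orderOf_eq_mul_of_isSolvable hp hq hne hpd hqd h1 h2
  have hmem : p * q ∈ Set.range (orderOf : G → ℕ) := ⟨g, hg⟩
  rw [hspec] at hmem
  obtain ⟨σ, hσ⟩ := hmem
  exact orderOf_alt_ne_mul hp hq hne hlt σ hσ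

end Cfsg.Agent.S3419
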