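import Mathlib
import Cfsg.Statements.S3420
import Cfsg.Agent.Lib.Helper57.TwoPrimes
import Cfsg.Agent.Lib.Helper57.OrderPQ
import Cfsg.Agent.Lib.Helper57.AltSpec
import Cfsg.Agent.Lib.Helper57.SimpleSection

set_option autoImplicit false
open Cfsg

namespace Cfsg.Agent.S3420

open Cfsg.Agent.Lib.Helper57

/-- for distinct primes `r, s` in `(n/2, n]` (`n ≥ 5`): `s ∤ r - 1`. -/
theorem not_dvd_sub_one {n r s : ℕ} (hn : 5 ≤ n) (hr : r.Prime) (hs : s.Prime)
    (hr2 : r ≤ n) (hs1 : n < 2 * s) : ¬ s ∣ r - 1 := by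
  rintro ⟨k, hk⟩
  have hr1 := hr.two_le
  have hk1 : k = 1 := by
    rcases k with _ | _ | k
    · omega
    · rfl
    · exfalso
      have : s * (k + 1 + 1) ≥ 2 * s := by nlinarith
      omega
  subst hk1
  have hrs : r = s + 1 := by omega
  rcases hs.eq_two_or_odd' with h | h
  · omega
  · rcases hr.eq_two_or_odd' with h' | h'
    · omega
    · rw [hrs] at h'
      exact (Nat.not_even_iff_odd.mpr h') (Odd.add_one h)

/-- Let n ≥ 11 and let G be a finite group with the same order and the same set of element orders as the alternating group of degree n. Then G has normal subgroups N < H such that H/N is a non-abelian simple group whose order is divisible by every prime p with n/2 < p ≤ n. -/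
theorem result {G : Type*} [Group G] [Finite G] (n : ℕ) (hn : 11 ≤ n)
    (hcard : Nat.card G = Nat.card ↥(alternatingGroup (Fin n)))
    (hspec : Set.range (orderOf : G → ℕ) = Set.range (orderOf : ↥(alternatingGroup (Fin n)) → ℕ)) :
    ∃ (N H : Subgroup G) (_ : N.Normal), H.Normal ∧ N < H ∧
      IsSimpleGroup (↥H ⧸ N.subgroupOf H) ∧ ¬ IsMulCommutative (↥H ⧸ N.subgroupOf H) ∧
      ∀ p : ℕ, p.Prime → n < 2 * p → p ≤ n → p ∣ Nat.card (↥H ⧸ N.subgroupOf H) := by
  obtain ⟨q0, p0, hq0, hp0, hq0n, hqp, hp0n⟩ := two_primes_half n hn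
  -- basic arithmetic facts about primes in `(n/2, n]`
  have hdvd : ∀ r : ℕ, r.Prime → n < 2 * r → r ≤ n → r ∣ Nat.card G := by
    intro r hr h1 h2
    rw [hcard]
    exact prime_dvd_card_alt hr (by omega) h2
  have hpow : ∀ r i : ℕ, r.Prime → n < 2 * r → r ^ i ∣ Nat.card G → i ≤ 1 := by
    intro r i hr h1 hd
    rw [hcard] at hd
    exact pow_dvd_card_alt_le_one hr (by omega) h1 (by omega) hd
  have hno : ∀ r s : ℕ, r.Prime → s.Prime → r ≠ s → n < 2 * r → n < 2 * s → ∀ g : G, orderOf g ≠ r * s := by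
    intro r s hr hs hne h1 h2 g hg
    have hmem : r * s ∈ Set.range (orderOf : G → ℕ) := ⟨g, hg⟩
    rw [hspec] at hmem
    obtain ⟨σ, hσ⟩ := hmem
    exact orderOf_alt_ne_mul hr hs hne (by omega) σ hσ
  have hcond : ∀ r s : ℕ, r.Prime → s.Prime → n < 2 * r → r ≤ n → n < 2 * s → s ≤ n →
      ∀ i, 1 ≤ i → s ^ i ∣ Nat.card G → ¬ r ∣ s ^ i - 1 := by
    intro r s hr hs h1 h2 h3 h4 i hi hd
    have : i ≤ 1 := hpow s i hs h3 hd
    have hi1 : i = 1 := by omega
    subst hi1
    rw [pow_one]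
    exact not_dvd_sub_one (by omega) hs hr h4 h1
  have hp0sq : ¬ p0 ^ 2 ∣ Nat.card G := by
    intro h
    have := hpow p0 2 hp0 (by omega) h
    omega
  obtain ⟨N, H, hNn, hHn, hlt, hpN, hpH, hsimple⟩ :=
    exists_simple_section hp0 (hdvd p0 hp0 (by omega) hp0n) hp0sq
  have hmul := card_mul_card_quotient_subgroupOf hlt.le
  have hall : ∀ p : ℕ, p.Prime → n < 2 * p → p ≤ n → p ∣ Nat.card (↥H ⧸ N.subgroupOf H) := by
    intro r hr h1 h2
    by_cases hrp : r = p0
    · subst hrp
      rw [← hmul] at hpH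
      exact (hr.dvd_mul.mp hpH).resolve_left hpN
    · by_contra hcon
      by_cases hrN : r ∣ Nat.card N
      · obtain ⟨g, hg⟩ := exists_orderOf_eq_mul_of_normal hp0 hr (Ne.symm hrp) N hpN
          (hdvd p0 hp0 (by omega) hp0n) hrN (hcond p0 r hp0 hr (by omega) hp0n h1 h2)
        exact hno p0 r hp0 hr (Ne.symm hrp) (by omega) h1 g hg
      · have hrH : ¬ r ∣ Nat.card H := by
          rw [← hmul]
          intro h
          rcases hr.dvd_mul.mp h with h | h
          · exact hrN h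
          · exact hcon h
        obtain ⟨g, hg⟩ := exists_orderOf_eq_mul_of_normal hr hp0 hrp H hrH
          (hdvd r hr h1 h2) hpH (hcond r p0 hr hp0 h1 h2 (by omega) hp0n)
        exact hno r p0 hr hp0 hrp h1 (by omega) g hg
  refine ⟨N, H, hNn, hHn, hlt, hsimple, ?_, hall⟩
  intro hcomm
  let _ : CommGroup (↥H ⧸ N.subgroupOf H) :=
    { (inferInstance : Group (↥H ⧸ N.subgroupOf H)) with mul_comm := hcomm.is_comm.comm }
  have hprime : (Nat.card (↥H ⧸ N.subgroupOf H)).Prime := IsSimpleGroup.prime_card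
  have e1 := (Nat.prime_dvd_prime_iff_eq hp0 hprime).mp (hall p0 hp0 (by omega) hp0n)
  have e2 := (Nat.prime_dvd_prime_iff_eq hq0 hprime).mp (hall q0 hq0 hq0n (by omega))
  omega

end Cfsg.Agent.S3420
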