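import Mathlib
import Cfsg.Statements.S3704

set_option autoImplicit false
open Cfsg

namespace Cfsg.Agent.S3704

/-- linear algebra core (Fisher-type argument) -/
theorem LA {Ω X : Type*} [Fintype Ω] [Fintype X] [DecidableEq Ω]
    (hcard : Fintype.card Ω = Fintype.card X) (a : Ω → X → ℚ) (α β : ℚ) (hα : α ≠ 0)
    (hαβ : α + Fintype.card Ω * β ≠ 0)
    (hc : ∀ ω ω', ∑ x, a ω x * a ω' x = β + (if ω = ω' then α else 0))
    (m : X → ℚ) (hm : ∀ ω', ∑ x, m x * a ω' x = 0) : m = 0 := by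
  let L : (Ω → ℚ) →ₗ[ℚ] (X → ℚ) :=
    { toFun := fun v x => ∑ ω, v ω * a ω x
      map_add' := by intro u v; ext x; simp [add_mul, Finset.sum_add_distrib]
      map_smul' := by intro r v; ext x; simp [Finset.mul_sum, mul_assoc] }
  have hL : ∀ v x, L v x = ∑ ω, v ω * a ω x := fun v x => rfl
  have hinj : Function.Injective L := by
    rw [← LinearMap.ker_eq_bot, LinearMap.ker_eq_bot']
    intro v hv
    have h1 : ∀ ω, β * (∑ ω', v ω') + α * v ω = 0 := by
      intro ω
      have h2 : ∑ x, a ω x * L v x = 0 := by simp [hv]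
      simp only [hL, Finset.mul_sum] at h2
      rw [Finset.sum_comm] at h2
      have h3 : ∀ ω', ∑ x, a ω x * (v ω' * a ω' x) = v ω' * (β + (if ω = ω' then α else 0)) := by
        intro ω'
        rw [← hc ω ω', Finset.mul_sum]
        apply Finset.sum_congr rfl
        intro x _
        ring
      simp only [h3, mul_add, Finset.sum_add_distrib] at h2
      rw [← Finset.sum_mul] at h2
      simp only [mul_ite, mul_zero, Finset.sum_ite_eq, Finset.mem_univ, if_true] at h2
      linarith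
    have h4 : (α + Fintype.card Ω * β) * (∑ ω', v ω') = 0 := by
      have := Finset.sum_congr rfl (fun ω (_ : ω ∈ Finset.univ) => h1 ω)
      rw [Finset.sum_add_distrib, ← Finset.mul_sum (f := v)] at this
      simp only [Finset.sum_const, Finset.card_univ, nsmul_eq_mul] at this
      linarith
    have h5 : ∑ ω', v ω' = 0 := by
      rcases mul_eq_zero.mp h4 with h | h
      · exact absurd h hαβ
      · exact h
    ext ω
    have := h1 ω
    rw [h5, mul_zero, zero_add] at this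
    rcases mul_eq_zero.mp this with h | h
    · exact absurd h hα
    · exact h
  have hsurj : Function.Surjective L := by
    apply (LinearMap.injective_iff_surjective_of_finrank_eq_finrank _).mp hinj
    simp [hcard]
  obtain ⟨v, hv⟩ := hsurj m
  have h1 : ∑ x, m x * m x = 0 := by
    have : ∑ x, m x * L v x = 0 := by
      simp only [hL, Finset.mul_sum]
      rw [Finset.sum_comm]
      apply Finset.sum_eq_zero
      intro ω _
      have := hm ω
      calc ∑ x, m x * (v ω * a ω x) = v ω * ∑ x, m x * a ω x := by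
            rw [Finset.mul_sum]; apply Finset.sum_congr rfl; intro x _; ring
        _ = 0 := by rw [this, mul_zero]
    rwa [hv] at this
  ext x
  have h2 := (Finset.sum_eq_zero_iff_of_nonneg (fun x _ => mul_self_nonneg (m x))).mp h1 x (Finset.mem_univ x)
  exact mul_self_eq_zero.mp h2

theorem no_three {G Ω X T : Type*} [Group G] [MulAction G Ω] [MulAction G X] [Fintype Ω] [Fintype X]
    [DecidableEq Ω] [DecidableEq T] (hcard : Fintype.card Ω = Fintype.card X)
    (h2 : MulAction.IsMultiplyPretransitive G Ω 2) [hX : MulAction.IsPretransitive G X]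
    (τ : Ω → X → T) (hτ : ∀ (g : G) ω x, τ (g • ω) (g • x) = τ ω x)
    (x0 : X) (ω1 ω2 ω3 : Ω) (h12 : τ ω1 x0 ≠ τ ω2 x0) (h13 : τ ω1 x0 ≠ τ ω3 x0)
    (h23 : τ ω2 x0 ≠ τ ω3 x0) : False := by
  have h2' : ∀ {a b c d : Ω}, a ≠ b → c ≠ d → ∃ g : G, g • a = c ∧ g • b = d :=
    MulAction.is_two_pretransitive_iff.mp h2
  have htr : MulAction.IsPretransitive G Ω := MulAction.isPretransitive_of_is_two_pretransitive
  obtain ⟨A, hA⟩ : ∃ A : T → Ω → X → ℚ, ∀ i ω x, A i ω x = if τ ω x = i then 1 else 0 := ⟨_, fun _ _ _ => rfl⟩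
  have hAinv : ∀ (g : G) i ω x, A i (g • ω) (g • x) = A i ω x := by
    intro g i ω x
    rw [hA, hA, hτ]
  have hAA : ∀ i ω x, A i ω x * A i ω x = A i ω x := by
    intro i ω x
    rw [hA]; split_ifs <;> simp
  obtain ⟨c, hc⟩ : ∃ c : T → T → Ω → Ω → ℚ, ∀ i j ω ω', c i j ω ω' = ∑ x, A i ω x * A j ω' x :=
    ⟨_, fun _ _ _ _ => rfl⟩
  have hcinv : ∀ (g : G) i j ω ω', c i j (g • ω) (g • ω') = c i j ω ω' := by
    intro g i j ω ω'
    rw [hc, hc, ← Equiv.sum_comp (MulAction.toPerm g)]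
    apply Finset.sum_congr rfl
    intro x _
    simp only [MulAction.toPerm_apply, hAinv]
  have hω12 : ω1 ≠ ω2 := by
    rintro rfl
    exact h12 rfl
  have hform : ∀ i j ω ω', c i j ω ω' = c i j ω1 ω2 + (if ω = ω' then c i j ω1 ω1 - c i j ω1 ω2 else 0) := by
    intro i j ω ω'
    by_cases h : ω = ω'
    · subst h
      obtain ⟨g, rfl⟩ := MulAction.exists_smul_eq G ω1 ω
      rw [hcinv]; simp
    · obtain ⟨g, rfl, rfl⟩ := h2' hω12 h
      rw [hcinv, if_neg h, add_zero]
  have hK : ∀ i x, ∑ ω, A i ω x = ∑ ω, A i ω x0 := by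
    intro i x
    obtain ⟨g, rfl⟩ := MulAction.exists_smul_eq G x0 x
    rw [← Equiv.sum_comp (MulAction.toPerm g)]
    apply Finset.sum_congr rfl
    intro ω _
    simp only [MulAction.toPerm_apply, hAinv]
  set i1 := τ ω1 x0 with hi1
  set i2 := τ ω2 x0 with hi2
  obtain ⟨k, hk⟩ : ∃ k : ℚ, k = ∑ ω, A i1 ω x0 := ⟨_, rfl⟩
  obtain ⟨d, hd⟩ : ∃ d : ℚ, d = c i1 i1 ω1 ω1 := ⟨_, rfl⟩
  obtain ⟨β, hβ⟩ : ∃ β : ℚ, β = c i1 i1 ω1 ω2 := ⟨_, rfl⟩
  obtain ⟨n, hn⟩ : ∃ n : ℚ, n = Fintype.card Ω := ⟨_, rfl⟩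
  have hrow : ∀ ω, ∑ x, A i1 ω x = d := by
    intro ω
    have := hform i1 i1 ω ω
    rw [if_pos rfl, hc] at this
    simp only [hAA] at this
    rw [this, hd]; ring
  have hnd : n * d = n * k := by
    have e1 : ∑ ω, ∑ x, A i1 ω x = n * d := by
      simp only [hrow, Finset.sum_const, Finset.card_univ, nsmul_eq_mul, hn]
    have e2 : ∑ x, ∑ ω, A i1 ω x = n * k := by
      simp only [hK i1, ← hk, Finset.sum_const, Finset.card_univ, nsmul_eq_mul, hn, hcard]
    rw [← e1, ← e2, Finset.sum_comm]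
  have hn0 : n ≠ 0 := by
    rw [hn]
    have : 0 < Fintype.card Ω := Fintype.card_pos_iff.mpr ⟨ω1⟩
    exact_mod_cast this.ne'
  have hdk : d = k := mul_left_cancel₀ hn0 hnd
  have hkpos : 0 < k := by
    rw [hk]
    apply Finset.sum_pos'
    · intro ω _; rw [hA]; split_ifs <;> simp
    · exact ⟨ω1, Finset.mem_univ _, by rw [hA, if_pos rfl]; exact one_pos⟩
  have hkn : 0 < n - k := by
    have : n - k = ∑ ω, (1 - A i1 ω x0) := by
      rw [Finset.sum_sub_distrib, ← hk]
      simp [hn]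
    rw [this]
    apply Finset.sum_pos'
    · intro ω _; rw [hA]; split_ifs <;> simp
    · refine ⟨ω2, Finset.mem_univ _, ?_⟩
      rw [hA, if_neg (fun h => h12 h.symm)]
      simp
  have hsum : n * β + (d - β) = k * d := by
    have e1 : ∑ ω', c i1 i1 ω1 ω' = n * β + (d - β) := by
      have : ∀ ω', c i1 i1 ω1 ω' = β + (if ω1 = ω' then d - β else 0) := by
        intro ω'; rw [hform i1 i1 ω1 ω', ← hβ, ← hd]
      simp only [this, Finset.sum_add_distrib, Finset.sum_const, Finset.card_univ, nsmul_eq_mul,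
        Finset.sum_ite_eq, Finset.mem_univ, if_true, hn]
    have e2 : ∑ ω', c i1 i1 ω1 ω' = k * d := by
      simp only [hc]
      rw [Finset.sum_comm]
      simp only [← Finset.mul_sum, hK i1, ← hk]
      rw [← Finset.sum_mul, hrow]
      ring
    rw [← e1, e2]
  have hα : d - β ≠ 0 := by
    intro h
    rw [h, add_zero] at hsum
    have h3 : β = k := by rw [← hdk]; linarith
    rw [h3, hdk] at hsum
    have h4 : n = k := mul_right_cancel₀ hkpos.ne' hsum
    rw [h4] at hkn
    simp at hkn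
  have hαβ : (d - β) + Fintype.card Ω * β ≠ 0 := by
    rw [← hn]
    have : (d - β) + n * β = k * d := by rw [← hsum]; ring
    rw [this, hdk]
    exact (mul_pos hkpos hkpos).ne'
  obtain ⟨β2, hβ2⟩ : ∃ β2 : ℚ, β2 = c i2 i1 ω1 ω2 := ⟨_, rfl⟩
  obtain ⟨α2, hα2⟩ : ∃ α2 : ℚ, α2 = c i2 i1 ω1 ω1 - c i2 i1 ω1 ω2 := ⟨_, rfl⟩
  obtain ⟨γ, hγ⟩ : ∃ γ : ℚ, γ = α2 / (d - β) := ⟨_, rfl⟩
  obtain ⟨δ, hδ⟩ : ∃ δ : ℚ, δ = (β2 - γ * β) / d := ⟨_, rfl⟩
  have hd0 : d ≠ 0 := by rw [hdk]; exact hkpos.ne'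
  have hm : ∀ ω, (fun x => A i2 ω x - γ * A i1 ω x - δ) = 0 := by
    intro ω
    apply LA hcard (A i1) (d - β) β hα hαβ
    · intro ω ω'
      rw [← hc, hform, ← hβ, ← hd]
    · intro ω'
      have e1 : ∑ x, (A i2 ω x - γ * A i1 ω x - δ) * A i1 ω' x
          = c i2 i1 ω ω' - γ * c i1 i1 ω ω' - δ * d := by
        rw [hc, hc, ← hrow ω', Finset.mul_sum, Finset.mul_sum, ← Finset.sum_sub_distrib,
          ← Finset.sum_sub_distrib]
        apply Finset.sum_congr rfl
        intro x _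
        ring
      rw [e1, hform i2 i1, hform i1 i1, ← hβ, ← hd, ← hα2, ← hβ2, hδ, hγ]
      split_ifs
      · field_simp
        ring
      · field_simp
        ring
  have e3 := congrFun (hm ω3) x0
  have e2 := congrFun (hm ω2) x0
  simp only [Pi.zero_apply] at e3 e2
  rw [hA, hA, if_neg (fun h => h23 h.symm), if_neg (fun h => h13 h.symm)] at e3
  rw [hA, hA, if_pos rfl, if_neg (fun h => h12 h.symm)] at e2
  linarith

/-- Let G be a finite group acting faithfully and 2-transitively on a finite set Ω of size n, and let H be a subgroup of index n in G which is not transitive on Ω and fixes no point of Ω. Then H has exactly two orbits on Ω. -/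
theorem result {G Ω : Type*} [Group G] [Finite G] [MulAction G Ω] [FaithfulSMul G Ω] [Finite Ω] (h2 : MulAction.IsMultiplyPretransitive G Ω 2) (H : Subgroup G) (hidx : H.index = Nat.card Ω) (hnt : ¬ MulAction.IsPretransitive H Ω) (hfix : ∀ a : Ω, ∃ h : H, h • a ≠ a) : Nat.card (MulAction.orbitRel.Quotient H Ω) = 2 := by
  classical
  have : Fintype Ω := Fintype.ofFinite Ω
  have : Fintype (G ⧸ H) := Fintype.ofFinite _
  have : Fintype (MulAction.orbitRel.Quotient H Ω) := Fintype.ofFinite _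
  have hcard : Fintype.card Ω = Fintype.card (G ⧸ H) := by
    rw [← Nat.card_eq_fintype_card, ← Nat.card_eq_fintype_card, ← hidx]; rfl
  let τ : Ω → G ⧸ H → MulAction.orbitRel.Quotient H Ω := fun ω x => Quotient.mk'' ((x.out)⁻¹ • ω)
  have hτ : ∀ (g : G) ω x, τ (g • ω) (g • x) = τ ω x := by
    intro g ω x
    obtain ⟨h, hh⟩ := QuotientGroup.mk_out_eq_mul H (g * x.out)
    have hx : g • x = QuotientGroup.mk (g * x.out) := by
      conv_lhs => rw [← QuotientGroup.out_eq' x]
      rfl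
    simp only [τ]
    rw [hx, hh]
    apply Quotient.sound'
    rw [MulAction.orbitRel_apply]
    refine ⟨h⁻¹, ?_⟩
    simp [Subgroup.smul_def, mul_smul]
  have hreal : ∀ q : MulAction.orbitRel.Quotient H Ω, ∃ ω, τ ω (QuotientGroup.mk 1) = q := by
    intro q
    obtain ⟨ω0, rfl⟩ := Quotient.exists_rep q
    refine ⟨(QuotientGroup.mk 1 : G ⧸ H).out • ω0, ?_⟩
    simp only [τ, inv_smul_smul]
  have hle : Fintype.card (MulAction.orbitRel.Quotient H Ω) ≤ 2 := by
    by_contra hcon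
    push Not at hcon
    obtain ⟨a, b, c, hab, hac, hbc⟩ := Fintype.two_lt_card_iff.mp hcon
    obtain ⟨ω1, h1⟩ := hreal a
    obtain ⟨ω2, h2'⟩ := hreal b
    obtain ⟨ω3, h3⟩ := hreal c
    exact no_three hcard h2 τ hτ (QuotientGroup.mk 1) ω1 ω2 ω3 (by rw [h1, h2']; exact hab)
      (by rw [h1, h3]; exact hac) (by rw [h2', h3]; exact hbc)
  have hne : Nonempty Ω := by
    by_contra hcon
    rw [not_nonempty_iff] at hcon
    have : Nat.card Ω = 0 := Nat.card_of_isEmpty
    rw [this] at hidx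
    exact Subgroup.index_ne_zero_of_finite hidx
  have h0 : 0 < Fintype.card (MulAction.orbitRel.Quotient H Ω) := by
    obtain ⟨ω⟩ := hne
    exact Fintype.card_pos_iff.mpr ⟨Quotient.mk'' ω⟩
  have h1 : Fintype.card (MulAction.orbitRel.Quotient H Ω) ≠ 1 := by
    intro h
    apply hnt
    rw [MulAction.pretransitive_iff_subsingleton_quotient]
    exact Fintype.card_le_one_iff_subsingleton.mp h.le
  rw [Nat.card_eq_fintype_card]
  omega

end Cfsg.Agent.S3704
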