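import Mathlib
import Cfsg.Statements.S3707

set_option autoImplicit false
open Cfsg

namespace Cfsg.Agent.S3707

open MulAction SubMulAction
open scoped Pointwise

variable {G Ω : Type*} [Group G] [MulAction G Ω]

/-- `S` is a Jordan set: the pointwise stabilizer of the complement is transitive on `S`. -/
def Jor (G : Type*) {Ω : Type*} [Group G] [MulAction G Ω] (S : Set Ω) : Prop :=
  ∀ x ∈ S, ∀ y ∈ S, ∃ g : G, (∀ z ∉ S, g • z = z) ∧ g • x = y

theorem Jor.smul {S : Set Ω} (hS : Jor G S) (g : G) : Jor G (g • S) := by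
  rintro _ ⟨x, hx, rfl⟩ _ ⟨y, hy, rfl⟩
  obtain ⟨h, hfix, hxy⟩ := hS x hx y hy
  refine ⟨g * h * g⁻¹, ?_, ?_⟩
  · intro z hz
    have hz' : g⁻¹ • z ∉ S := by
      intro hmem
      apply hz
      exact ⟨g⁻¹ • z, hmem, by simp⟩
    rw [mul_smul, mul_smul, hfix _ hz', smul_inv_smul]
  · change (g * h * g⁻¹) • (g • x) = g • y
    rw [mul_smul, mul_smul, inv_smul_smul, hxy]

theorem Jor.union {A B : Set Ω} (hA : Jor G A) (hB : Jor G B) (hAB : (A ∩ B).Nonempty) :
    Jor G (A ∪ B) := by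
  obtain ⟨c, hcA, hcB⟩ := hAB
  have key : ∀ x ∈ A ∪ B, ∃ g : G, (∀ z ∉ A ∪ B, g • z = z) ∧ g • x = c := by
    rintro x (hx | hx)
    · obtain ⟨g, hg, hgx⟩ := hA x hx c hcA
      exact ⟨g, fun z hz => hg z (fun h => hz (Or.inl h)), hgx⟩
    · obtain ⟨g, hg, hgx⟩ := hB x hx c hcB
      exact ⟨g, fun z hz => hg z (fun h => hz (Or.inr h)), hgx⟩
  intro x hx y hy
  obtain ⟨g1, hg1, hg1x⟩ := key x hx
  obtain ⟨g2, hg2, hg2y⟩ := key y hy
  refine ⟨g2⁻¹ * g1, ?_, ?_⟩
  · intro z hz
    rw [mul_smul, hg1 z hz, inv_smul_eq_iff, hg2 z hz]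
  · rw [mul_smul, hg1x, inv_smul_eq_iff, hg2y]

theorem Jor.isPretransitive {S : Set Ω} (hS : Jor G S) :
    IsPretransitive ↥(fixingSubgroup G Sᶜ) ↥(SubMulAction.ofFixingSubgroup G Sᶜ) := by
  constructor
  rintro ⟨x, hx⟩ ⟨y, hy⟩
  have hx' : x ∈ S := by
    have : x ∈ Sᶜᶜ := hx
    rwa [compl_compl] at this
  have hy' : y ∈ S := by
    have : y ∈ Sᶜᶜ := hy
    rwa [compl_compl] at this
  obtain ⟨g, hg, hgx⟩ := hS x hx' y hy'
  refine ⟨⟨g, ?_⟩, ?_⟩
  · rw [mem_fixingSubgroup_iff]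
    intro z hz
    exact hg z hz
  · apply Subtype.ext
    exact hgx

theorem two_trans [Finite Ω] (hprim : IsPreprimitive G Ω) {S : Set Ω} (hS : Jor G S)
    (h1 : 1 < S.ncard) (h2 : S.ncard < Nat.card Ω) : IsMultiplyPretransitive G Ω 2 := by
  have hcard : S.ncard + Sᶜ.ncard = Nat.card Ω := Set.ncard_add_ncard_compl S
  have hn : Sᶜ.ncard = (Nat.card Ω - S.ncard - 1) + 1 := by omega
  exact hprim.is_two_pretransitive hn (by omega) hS.isPretransitive

/-- The linear space lemma. -/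
theorem linear_space [Finite Ω] (h2t : IsMultiplyPretransitive G Ω 2) (T : Set Ω)
    (hT3 : 3 ≤ T.ncard)
    (hT : ∀ g : G, ∀ x y : Ω, x ≠ y → x ∈ T → y ∈ T → x ∈ g • T → y ∈ g • T → g • T = T)
    (D : Set Ω) (x0 : Ω) (hx0 : x0 ∉ D)
    (hD : ∀ g : G, ∀ x y : Ω, x ≠ y → x ∈ g • T → y ∈ g • T → x ∈ D → y ∈ D → g • T ⊆ D) :
    2 * D.ncard + 1 ≤ Nat.card Ω := by
  classical
  rw [is_two_pretransitive_iff] at h2t
  -- two distinct points of T
  obtain ⟨t1, ht1, t2, ht2, ht12⟩ : ∃ t1 ∈ T, ∃ t2 ∈ T, t1 ≠ t2 := by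
    have : 1 < T.ncard := by omega
    rw [Set.one_lt_ncard] at this
    exact this
  -- lines through two points
  have hline : ∀ x y : Ω, x ≠ y → ∃ g : G, x ∈ g • T ∧ y ∈ g • T := by
    intro x y hxy
    obtain ⟨g, hg1, hg2⟩ := h2t ht12 hxy
    exact ⟨g, ⟨t1, ht1, hg1⟩, ⟨t2, ht2, hg2⟩⟩
  -- uniqueness of lines
  have huniq : ∀ g g' : G, ∀ x y : Ω, x ≠ y → x ∈ g • T → y ∈ g • T → x ∈ g' • T → y ∈ g' • T →
      g • T = g' • T := by
    intro g g' x y hxy hx hy hx' hy'
    have e : ∀ z : Ω, z ∈ g' • T → g⁻¹ • z ∈ (g⁻¹ * g') • T := by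
      intro z hz
      rw [mul_smul]
      exact Set.smul_mem_smul_set hz
    have e0 : ∀ z : Ω, z ∈ g • T → g⁻¹ • z ∈ T := by
      intro z hz
      rwa [← Set.mem_smul_set_iff_inv_smul_mem]
    have := hT (g⁻¹ * g') (g⁻¹ • x) (g⁻¹ • y) (fun h => hxy (smul_left_cancel _ h)) (e0 x hx)
      (e0 y hy) (e x hx') (e y hy')
    rw [mul_smul, inv_smul_eq_iff] at this
    exact this.symm
  -- the third point
  have hthird : ∀ d : D, ∃ p : Ω, p ∉ D ∧ p ≠ x0 ∧ ∃ g : G, x0 ∈ g • T ∧ (d : Ω) ∈ g • T ∧ p ∈ g • T := by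
    intro d
    have hne : x0 ≠ d := fun h => hx0 (h ▸ d.2)
    obtain ⟨g, hg1, hg2⟩ := hline x0 d hne
    have hc : ({x0, (d : Ω)} : Set Ω).ncard < (g • T).ncard := by
      rw [Set.ncard_smul_set]
      have := Set.ncard_pair hne
      omega
    obtain ⟨p, hp, hp'⟩ := Set.exists_mem_notMem_of_ncard_lt_ncard hc
    have hp0 : p ≠ x0 := fun h => hp' (by simp [h])
    have hpd : p ≠ d := fun h => hp' (by simp [h])
    refine ⟨p, ?_, hp0, g, hg1, hg2, hp⟩
    intro hpD
    exact hx0 (hD g p d hpd hp hg2 hpD d.2 hg1)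
  choose f hf1 hf2 hf3 using hthird
  have hinj : Function.Injective f := by
    intro d d' hdd
    by_contra hne
    obtain ⟨g, hg1, hg2, hg3⟩ := hf3 d
    obtain ⟨g', hg1', hg2', hg3'⟩ := hf3 d'
    rw [← hdd] at hg3'
    have heq := huniq g g' x0 (f d) (hf2 d).symm hg1 hg3 hg1' hg3'
    rw [← heq] at hg2'
    have hne' : (d : Ω) ≠ d' := fun h => hne (Subtype.ext h)
    exact hx0 (hD g d d' hne' hg2 hg2' d.2 d'.2 hg1)
  have himg : Set.range f ⊆ (insert x0 D)ᶜ := by
    rintro _ ⟨d, rfl⟩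
    intro h
    rcases h with h | h
    · exact hf2 d h
    · exact hf1 d h
  have h1 : D.ncard ≤ ((insert x0 D)ᶜ : Set Ω).ncard := by
    have h3 : (Set.range f).ncard = D.ncard := by
      rw [← Set.image_univ, Set.ncard_image_of_injective _ hinj, Set.ncard_univ]
      exact Nat.card_coe_set_eq D
    rw [← h3]
    exact Set.ncard_le_ncard himg (Set.toFinite _)
  have h2 : (insert x0 D).ncard + ((insert x0 D)ᶜ : Set Ω).ncard = Nat.card Ω :=
    Set.ncard_add_ncard_compl _
  have h3 : (insert x0 D).ncard = D.ncard + 1 := Set.ncard_insert_of_notMem hx0 (Set.toFinite _)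
  omega

theorem three_trans (h2t : IsMultiplyPretransitive G Ω 2) {S : Set Ω} (hS : Jor G S) {a b : Ω}
    (hab : a ≠ b) (hSc : Sᶜ = {a, b}) : IsMultiplyPretransitive G Ω 3 := by
  rw [is_two_pretransitive_iff] at h2t
  rw [isMultiplyPretransitive_iff]
  have hmem : ∀ z : Ω, z ≠ a → z ≠ b → z ∈ S := by
    intro z hza hzb
    by_contra hz
    have : z ∈ Sᶜ := hz
    rw [hSc] at this
    rcases this with h | h
    · exact hza h
    · exact hzb h
  have hfix : ∀ g : G, (∀ z ∉ S, g • z = z) → g • a = a ∧ g • b = b := by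
    intro g hg
    have ha : a ∉ S := by
      have : a ∈ Sᶜ := by rw [hSc]; simp
      exact this
    have hb : b ∉ S := by
      have : b ∈ Sᶜ := by rw [hSc]; simp
      exact this
    exact ⟨hg a ha, hg b hb⟩
  intro x y
  have hx01 : x 0 ≠ x 1 := x.injective.ne (by decide)
  have hx02 : x 2 ≠ x 0 := x.injective.ne (by decide)
  have hx12 : x 2 ≠ x 1 := x.injective.ne (by decide)
  have hy01 : y 0 ≠ y 1 := y.injective.ne (by decide)
  have hy02 : y 2 ≠ y 0 := y.injective.ne (by decide)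
  have hy12 : y 2 ≠ y 1 := y.injective.ne (by decide)
  obtain ⟨g1, hg1a, hg1b⟩ := h2t hx01 hab
  obtain ⟨g2, hg2a, hg2b⟩ := h2t hy01 hab
  have hx2 : g1 • x 2 ∈ S := hmem _ (by rw [← hg1a]; exact fun h => hx02 (smul_left_cancel _ h))
    (by rw [← hg1b]; exact fun h => hx12 (smul_left_cancel _ h))
  have hy2 : g2 • y 2 ∈ S := hmem _ (by rw [← hg2a]; exact fun h => hy02 (smul_left_cancel _ h))
    (by rw [← hg2b]; exact fun h => hy12 (smul_left_cancel _ h))
  obtain ⟨h, hh, hh2⟩ := hS _ hx2 _ hy2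
  obtain ⟨hha, hhb⟩ := hfix h hh
  refine ⟨g2⁻¹ * h * g1, ?_⟩
  ext i
  rw [Function.Embedding.smul_apply]
  fin_cases i
  · change (g2⁻¹ * h * g1) • x 0 = y 0
    rw [mul_smul, mul_smul, hg1a, hha, inv_smul_eq_iff, hg2a]
  · change (g2⁻¹ * h * g1) • x 1 = y 1
    rw [mul_smul, mul_smul, hg1b, hhb, inv_smul_eq_iff, hg2b]
  · change (g2⁻¹ * h * g1) • x 2 = y 2
    rw [mul_smul, mul_smul, hh2, inv_smul_smul]

/-- Let G be a finite primitive permutation group on Ω of degree n and Γ ⊂ Ω a subset with 1 < #Γ ≤ n/2 such that the pointwise stabilizer of Ω ∖ Γ is transitive on Γ. Then G is 3-transitive on Ω. -/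
theorem result {G Ω : Type*} [Group G] [Finite G] [MulAction G Ω] [FaithfulSMul G Ω] [Finite Ω] (hprim : MulAction.IsPreprimitive G Ω) (Γ : Set Ω) (h1 : 1 < Γ.ncard) (h2 : 2 * Γ.ncard ≤ Nat.card Ω) (htr : ∀ x ∈ Γ, ∀ y ∈ Γ, ∃ g : G, (∀ z ∉ Γ, g • z = z) ∧ g • x = y) : MulAction.IsMultiplyPretransitive G Ω 3 := by
  classical
  have hΓ : Jor G Γ := htr
  have h2t : IsMultiplyPretransitive G Ω 2 := two_trans hprim hΓ h1 (by omega)
  have h2t' := h2t
  rw [is_two_pretransitive_iff] at h2t'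
  -- a maximal Jordan set of size at most n - 2
  obtain ⟨Sg, ⟨hSgJ, hSg1, hSg2⟩, hmax⟩ := Set.exists_max_image
    {S : Set Ω | Jor G S ∧ 1 < S.ncard ∧ S.ncard + 2 ≤ Nat.card Ω} Set.ncard (Set.toFinite _)
    ⟨Γ, hΓ, h1, by omega⟩
  have factM : ∀ S : Set Ω, Jor G S → Sg.ncard < S.ncard → Nat.card Ω ≤ S.ncard + 1 := by
    intro S hS hlt
    by_contra hcon
    have := hmax S ⟨hS, by omega, by omega⟩
    omega
  have hcompl : ∀ S : Set Ω, S.ncard + Sᶜ.ncard = Nat.card Ω := Set.ncard_add_ncard_compl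
  have hsm : ∀ (g : G) (S : Set Ω), (g • S).ncard = S.ncard := fun g S => Set.ncard_smul_set g S
  -- strict growth of unions
  have hgrow : ∀ A B : Set Ω, ¬ B ⊆ A → A.ncard < (A ∪ B).ncard := by
    intro A B hBA
    apply Set.ncard_lt_ncard _ (Set.toFinite _)
    refine ⟨Set.subset_union_left, fun h => hBA (fun z hz => h (Or.inr hz))⟩
  have hne_sub : ∀ g : G, g • Sg ≠ Sg → ¬ g • Sg ⊆ Sg := by
    intro g hne hsub
    exact hne (Set.eq_of_subset_of_ncard_le hsub (by rw [hsm]) (Set.toFinite _))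
  have two_out : ∀ (S : Set Ω) (x y : Ω), x ≠ y → x ∉ S → y ∉ S → S.ncard + 2 ≤ Nat.card Ω := by
    intro S x y hxy hx hy
    have h3 : ({x, y} : Set Ω).ncard ≤ Sᶜ.ncard := by
      apply Set.ncard_le_ncard _ (Set.toFinite _)
      rintro z (rfl | rfl)
      · exact hx
      · exact hy
    rw [Set.ncard_pair hxy] at h3
    have := hcompl S
    omega
  have hΛ : Sgᶜ.ncard = 2 := by
    by_contra hne
    have hΛ3 : 3 ≤ Sgᶜ.ncard := by
      have := hcompl Sg
      omega
    rcases le_or_gt (2 * Sg.ncard) (Nat.card Ω) with hcase | hcase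
    · -- Case 1
      have hT : ∀ g : G, ∀ x y : Ω, x ≠ y → x ∈ Sg → y ∈ Sg → x ∈ g • Sg → y ∈ g • Sg → g • Sg = Sg := by
        intro g x y hxy hx hy hx' hy'
        by_contra hgne
        have hJ : Jor G (Sg ∪ g • Sg) := hSgJ.union (hSgJ.smul g) ⟨x, hx, hx'⟩
        have hlt := hgrow Sg (g • Sg) (hne_sub g hgne)
        have hM := factM _ hJ hlt
        have hie := Set.ncard_union_add_ncard_inter Sg (g • Sg)
        have h3 : 2 ≤ (Sg ∩ g • Sg).ncard := by
          have h4 : ({x, y} : Set Ω).ncard ≤ (Sg ∩ g • Sg).ncard := by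
            apply Set.ncard_le_ncard _ (Set.toFinite _)
            rintro z (rfl | rfl)
            · exact ⟨hx, hx'⟩
            · exact ⟨hy, hy'⟩
          rwa [Set.ncard_pair hxy] at h4
        rw [hsm] at hie
        omega
      have hnb : ¬ IsBlock G Sg := by
        intro hb
        rcases hprim.isTrivialBlock_of_isBlock hb with h | h
        · have := Set.ncard_le_one_iff_subsingleton.mpr h
          omega
        · rw [h, Set.ncard_univ] at hSg2
          omega
      rw [isBlock_iff_smul_eq_or_disjoint] at hnb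
      push Not at hnb
      obtain ⟨g, hg1, hg2⟩ := hnb
      rw [Set.not_disjoint_iff] at hg2
      obtain ⟨c, hc1, hc2⟩ := hg2
      have hJ : Jor G (Sg ∪ g • Sg) := hSgJ.union (hSgJ.smul g) ⟨c, hc2, hc1⟩
      have hlt := hgrow Sg (g • Sg) (hne_sub g hg1)
      have hM := factM _ hJ hlt
      have hie := Set.ncard_union_add_ncard_inter Sg (g • Sg)
      have h3 : 1 ≤ (Sg ∩ g • Sg).ncard := by
        rw [Nat.one_le_iff_ne_zero]
        exact Set.ncard_ne_zero_of_mem ⟨hc2, hc1⟩ (Set.toFinite _)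
      rw [hsm] at hie
      have hSg3 : 3 ≤ Sg.ncard := by
        have := hcompl Sg
        omega
      obtain ⟨x0, hx0⟩ : Sgᶜ.Nonempty := by
        rw [← Set.ncard_pos (Set.toFinite _)]
        omega
      have := linear_space h2t Sg hSg3 hT Sg x0 hx0 (by
        intro g x y hxy hx hy hx' hy'
        rw [hT g x y hxy hx' hy' hx hy])
      omega
    · -- Case 2
      have hT : ∀ g : G, ∀ x y : Ω, x ≠ y → x ∈ Sgᶜ → y ∈ Sgᶜ → x ∈ g • Sgᶜ → y ∈ g • Sgᶜ →
          g • Sgᶜ = Sgᶜ := by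
        intro g x y hxy hx hy hx' hy'
        by_contra hgne
        rw [Set.smul_set_compl] at hx' hy' hgne
        have hgne' : g • Sg ≠ Sg := fun h => hgne (by rw [h])
        have hie := Set.ncard_union_add_ncard_inter Sg (g • Sg)
        rw [hsm] at hie
        have hle : (Sg ∪ g • Sg).ncard ≤ Nat.card Ω := by
          rw [← Set.ncard_univ]
          exact Set.ncard_le_ncard (Set.subset_univ _) (Set.toFinite _)
        have hne : (Sg ∩ g • Sg).Nonempty := by
          rw [← Set.ncard_pos (Set.toFinite _)]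
          omega
        have hJ : Jor G (Sg ∪ g • Sg) := hSgJ.union (hSgJ.smul g) hne
        have hlt := hgrow Sg (g • Sg) (hne_sub g hgne')
        have hM := factM _ hJ hlt
        have := two_out (Sg ∪ g • Sg) x y hxy (fun h => h.elim hx hx') (fun h => h.elim hy hy')
        omega
      obtain ⟨x0, hx0⟩ : Γ.Nonempty := by
        rw [← Set.ncard_pos (Set.toFinite _)]
        omega
      have := linear_space h2t Sgᶜ hΛ3 hT Γᶜ x0 (fun h => h hx0) (by
        intro g x y hxy hx hy hxD hyD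
        rw [Set.smul_set_compl] at hx hy ⊢
        have hJ' : Jor G (g • Sg) := hSgJ.smul g
        by_cases hi : (Γ ∩ g • Sg).Nonempty
        · have hJ : Jor G (Γ ∪ g • Sg) := hΓ.union hJ' hi
          have h3 := two_out (Γ ∪ g • Sg) x y hxy (fun h => h.elim hxD hx) (fun h => h.elim hyD hy)
          have h4 : ¬ Sg.ncard < (Γ ∪ g • Sg).ncard := by
            intro hlt
            have := factM _ hJ hlt
            omega
          have h5 : g • Sg = Γ ∪ g • Sg :=
            Set.eq_of_subset_of_ncard_le Set.subset_union_right (by rw [hsm]; omega) (Set.toFinite _)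
          intro z hz hzΓ
          apply hz
          rw [h5]
          exact Or.inl hzΓ
        · exfalso
          rw [Set.not_nonempty_iff_eq_empty] at hi
          obtain ⟨p, hp, q, hq, hpq⟩ := (Set.one_lt_ncard (Set.toFinite _)).mp h1
          obtain ⟨a, ha⟩ : (g • Sg).Nonempty := by
            rw [← Set.ncard_pos (Set.toFinite _), hsm]
            omega
          have hax : a ≠ x := fun h => hx (h ▸ ha)
          obtain ⟨u, hua, hux⟩ := h2t' hpq hax
          have haΓ : a ∈ u • Γ := ⟨p, hp, hua⟩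
          have hxΓ : x ∈ u • Γ := ⟨q, hq, hux⟩
          have hJ : Jor G (g • Sg ∪ u • Γ) := hJ'.union (hΓ.smul u) ⟨a, ha, haΓ⟩
          have hlt : Sg.ncard < (g • Sg ∪ u • Γ).ncard := by
            have := hgrow (g • Sg) (u • Γ) (fun h => hx (h hxΓ))
            rwa [hsm] at this
          have hM := factM _ hJ hlt
          -- counting
          have c1 : Γ.ncard + 2 ≤ ((g • Sg)ᶜ : Set Ω).ncard := by
            have hsub : insert x (insert y Γ) ⊆ ((g • Sg)ᶜ : Set Ω) := by
              rintro z (rfl | rfl | hz)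
              · exact hx
              · exact hy
              · intro hz'
                have : z ∈ Γ ∩ g • Sg := ⟨hz, hz'⟩
                rw [hi] at this
                exact this
            have h6 := Set.ncard_le_ncard hsub (Set.toFinite _)
            rw [Set.ncard_insert_of_notMem (by
              intro h
              rcases h with h | h
              · exact hxy h
              · exact hxD h) (Set.toFinite _),
              Set.ncard_insert_of_notMem hyD (Set.toFinite _)] at h6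
            omega
          have c2 := hcompl (g • Sg)
          have c3 := Set.ncard_union_add_ncard_inter (g • Sg) (u • Γ)
          have c4 : 1 ≤ (g • Sg ∩ u • Γ).ncard := by
            rw [Nat.one_le_iff_ne_zero]
            exact Set.ncard_ne_zero_of_mem ⟨ha, haΓ⟩ (Set.toFinite _)
          rw [hsm, hsm] at c3
          rw [hsm] at c2
          omega)
      have := hcompl Γ
      omega
  obtain ⟨a, b, hab, hSgc⟩ := Set.ncard_eq_two.mp hΛ
  exact three_trans h2t hSgJ hab hSgc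

end Cfsg.Agent.S3707
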