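import Cfsg.Statements.S3733

set_option autoImplicit false
open Cfsg

namespace Cfsg.Agent.S3733

open scoped IsMulCommutative in
/-- Let A and V be subgroups of a finite group with V abelian and nontrivial and A normalizing V. Suppose a nonempty finite family of proper subgroups of A partitions A: every non-identity element of A lies in exactly one member. If the number of members minus one is coprime to the order of V, then some member B of the family has a non-identity fixed point on V, that is V ∩ C(B) ≠ 1. -/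
theorem result {G : Type*} [Group G] [Finite G] (A V : Subgroup G) (hVab : IsMulCommutative V) (hV : V ≠ ⊥) (hAV : A ≤ Subgroup.normalizer (V : Set G)) (𝒜 : Finset (Subgroup G)) (hne : 𝒜.Nonempty) (hprop : ∀ B ∈ 𝒜, B < A) (hpart : ∀ a ∈ A, a ≠ 1 → ∃! B, B ∈ 𝒜 ∧ a ∈ B) (hk : (𝒜.card - 1).Coprime (Nat.card V)) : ∃ B ∈ 𝒜, V ⊓ Subgroup.centralizer (B : Set G) ≠ ⊥ := by
  classical
  by_contra hcon
  push Not at hcon
  have := hVab
  have : Fintype G := Fintype.ofFinite G
  -- the conjugation action of `A` on `V`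
  let φ : G → (↥V →* ↥V) := fun g =>
    if h : g ∈ A then
      ((MulAut.conj g).toMonoidHom.comp V.subtype).codRestrict V
        (fun v => (Subgroup.le_normalizer_iff.mp hAV) g h v v.2)
    else 1
  have hφ : ∀ g ∈ A, ∀ v : ↥V, ((φ g v : ↥V) : G) = g * v * g⁻¹ := by
    intro g hg v
    simp only [φ, dif_pos hg]
    rfl
  have hφmul : ∀ b ∈ A, ∀ g ∈ A, ∀ v : ↥V, φ (b * g) v = φ b (φ g v) := by
    intro b hb g hg v
    apply Subtype.ext
    rw [hφ _ (A.mul_mem hb hg), hφ _ hb, hφ _ hg]
    group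
  have hφ1 : ∀ v : ↥V, φ 1 v = v := by
    intro v
    apply Subtype.ext
    rw [hφ _ A.one_mem]
    simp
  -- the norm map
  let N : Subgroup G → ↥V → ↥V := fun B v => ∏ g : G, if g ∈ B then φ g v else 1
  have hNfix : ∀ B : Subgroup G, B ≤ A → ∀ v : ↥V, ((N B v : ↥V) : G) ∈ V ⊓ Subgroup.centralizer (B : Set G) := by
    intro B hB v
    refine Subgroup.mem_inf.mpr ⟨(N B v).2, ?_⟩
    rw [Subgroup.mem_centralizer_iff]
    intro b hb
    have hbB : b ∈ B := hb
    have h1 : φ b (N B v) = N B v := by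
      simp only [N]
      rw [map_prod]
      refine Fintype.prod_equiv (Equiv.mulLeft b) _ _ ?_
      intro g
      by_cases hg : g ∈ B
      · have hm : (Equiv.mulLeft b) g ∈ B := B.mul_mem hbB hg
        rw [if_pos hg, if_pos hm]
        exact (hφmul b (hB hbB) g (hB hg) v).symm
      · have hm : (Equiv.mulLeft b) g ∉ B := fun h => hg ((Subgroup.mul_mem_cancel_left B hbB).mp h)
        rw [if_neg hg, if_neg hm, map_one]
    have h2 := congrArg Subtype.val h1
    rw [hφ _ (hB hbB)] at h2
    calc b * ((N B v : ↥V) : G) = (b * ((N B v : ↥V) : G) * b⁻¹) * b := by group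
      _ = ((N B v : ↥V) : G) * b := by rw [h2]
  obtain ⟨B₀, hB₀⟩ := hne
  have hN1 : ∀ B ∈ 𝒜, ∀ v : ↥V, N B v = 1 := by
    intro B hB v
    have := hNfix B (hprop B hB).le v
    rw [hcon B hB, Subgroup.mem_bot] at this
    exact Subtype.ext this
  have hNA : ∀ v : ↥V, N A v = 1 := by
    intro v
    have h := hNfix A le_rfl v
    have h' : ((N A v : ↥V) : G) ∈ V ⊓ Subgroup.centralizer (B₀ : Set G) := by
      refine Subgroup.mem_inf.mpr ⟨(Subgroup.mem_inf.mp h).1, ?_⟩
      exact Subgroup.centralizer_le (hprop B₀ hB₀).le (Subgroup.mem_inf.mp h).2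
    rw [hcon B₀ hB₀, Subgroup.mem_bot] at h'
    exact Subtype.ext h'
  -- the key identity
  have hkey : ∀ v : ↥V, v ^ (𝒜.card - 1) = 1 := by
    intro v
    have hcard : 1 ≤ 𝒜.card := Finset.card_pos.mpr ⟨B₀, hB₀⟩
    have h1 : ∏ B ∈ 𝒜, N B v = 1 := Finset.prod_eq_one (fun B hB => hN1 B hB v)
    have h2 : ∏ B ∈ 𝒜, N B v = N A v * v ^ (𝒜.card - 1) := by
      simp only [N]
      rw [Finset.prod_comm]
      have h3 : v ^ (𝒜.card - 1) = ∏ g : G, if g = 1 then v ^ (𝒜.card - 1) else 1 := by
        rw [Finset.prod_ite_eq' Finset.univ (1 : G) (fun _ => v ^ (𝒜.card - 1))]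
        simp
      rw [h3, ← Finset.prod_mul_distrib]
      refine Finset.prod_congr rfl (fun g _ => ?_)
      by_cases hg1 : g = 1
      · subst hg1
        rw [if_pos A.one_mem, if_pos rfl, hφ1]
        have : ∀ B ∈ 𝒜, (if (1 : G) ∈ B then v else 1) = v := by
          intro B _
          rw [if_pos B.one_mem]
        rw [Finset.prod_congr rfl this, Finset.prod_const]
        conv_lhs => rw [show 𝒜.card = 1 + (𝒜.card - 1) by omega]
        rw [pow_add, pow_one]
      · rw [if_neg hg1, mul_one]
        by_cases hgA : g ∈ A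
        · rw [if_pos hgA]
          obtain ⟨B, ⟨hB, hgB⟩, huniq⟩ := hpart g hgA hg1
          rw [Finset.prod_eq_single B]
          · rw [if_pos hgB]
          · intro B' hB' hne'
            rw [if_neg]
            intro hgB'
            exact hne' (huniq B' ⟨hB', hgB'⟩)
          · intro h
            exact absurd hB h
        · rw [if_neg hgA]
          refine Finset.prod_eq_one (fun B hB => ?_)
          rw [if_neg]
          intro hgB
          exact hgA ((hprop B hB).le hgB)
    rw [h1, hNA, one_mul] at h2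
    exact h2.symm
  apply hV
  rw [eq_bot_iff]
  intro x hx
  rw [Subgroup.mem_bot]
  have h1 := hkey ⟨x, hx⟩
  have h2 : (⟨x, hx⟩ : ↥V) ^ (Nat.card V) = 1 := pow_card_eq_one'
  have h3 : (⟨x, hx⟩ : ↥V) ^ (Nat.gcd (𝒜.card - 1) (Nat.card V)) = 1 := by
    rw [pow_gcd_eq_one]
    exact ⟨h1, h2⟩
  rw [hk, pow_one] at h3
  exact congrArg Subtype.val h3

end Cfsg.Agent.S3733
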