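import Cfsg.Statements.S3734
import Cfsg.Agent.Lib.Helper62.Generation
import Cfsg.Agent.Lib.Helper24.PGroup
import Cfsg.Agent.Lib.Helper91.FrattiniMore
import Cfsg.Agent.S0026
import Cfsg.Agent.S0027

set_option autoImplicit false
open Cfsg

namespace Cfsg.Agent.S3734

open Cfsg.Agent.Lib.Helper62 Cfsg.Agent.Lib.Helper24

/-- Let A and G be subgroups of a finite group with A abelian, A normalizing G and the orders of A and G coprime. Then G is generated by the fixed-point subgroups C_G(B) of those subgroups B of A for which A/B is cyclic (that is, A = ⟨B, a⟩ for some a), and [G, A] is generated by the commutator subgroups [C_G(B), A] over the same subgroups B. -/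
theorem result {X : Type*} [Group X] [Finite X] (A G : Subgroup X) (hAab : IsMulCommutative A) (hAG : A ≤ Subgroup.normalizer (G : Set X)) (hcop : (Nat.card A).Coprime (Nat.card G)) : (⨆ B ∈ {B : Subgroup X | B ≤ A ∧ ∃ a ∈ A, B ⊔ Subgroup.zpowers a = A}, G ⊓ Subgroup.centralizer (B : Set X)) = G ∧ (⨆ B ∈ {B : Subgroup X | B ≤ A ∧ ∃ a ∈ A, B ⊔ Subgroup.zpowers a = A}, ⁅G ⊓ Subgroup.centralizer (B : Set X), A⁆) = ⁅G, A⁆ := by
  refine ⟨genCent_eq A G hAab hAG hcop, ?_⟩
  have hAcomm : ∀ a ∈ A, ∀ b ∈ A, a * b = b * a := fun a ha b hb =>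
    congrArg Subtype.val (mul_comm' (⟨a, ha⟩ : ↥A) ⟨b, hb⟩)
  have hsolv : Group.IsSolvable ↥A := Group.isSolvable_of_comm (fun a b => mul_comm' a b)
  set H₂ : Subgroup X := ⨆ B ∈ {B : Subgroup X | B ≤ A ∧ ∃ a ∈ A, B ⊔ Subgroup.zpowers a = A},
    ⁅G ⊓ Subgroup.centralizer (B : Set X), A⁆ with hH₂
  apply le_antisymm
  · exact iSup₂_le fun B _ => Subgroup.commutator_mono inf_le_left le_rfl
  set G₁ : Subgroup X := ⁅G, A⁆ with hG₁
  have hG₁G : G₁ ≤ G := Subgroup.le_normalizer_iff_commutator_le_left.1 hAG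
  have hAG₁ : A ≤ Subgroup.normalizer (G₁ : Set X) := Subgroup.normalizer_commutator_ge_right G A
  have hcop₁ : (Nat.card A).Coprime (Nat.card G₁) :=
    Nat.Coprime.coprime_dvd_right (Subgroup.card_dvd_of_le hG₁G) hcop
  set C₁ : Subgroup X := G₁ ⊓ Subgroup.centralizer (A : Set X) with hC₁
  -- anything in `N(G)` centralizing `A` normalizes each `[C_G(B), A]`
  have hnorm : ∀ T : Subgroup X, T ≤ Subgroup.normalizer (G : Set X) →
      T ≤ Subgroup.centralizer (A : Set X) → T ≤ Subgroup.normalizer (H₂ : Set X) := by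
    intro T hTG hTA
    apply le_normalizer_iSup
    intro B
    apply le_normalizer_iSup
    rintro ⟨hBA, -⟩
    refine le_trans (le_inf ?_ ?_) (normalizer_inf_le_normalizer_commutator _ _)
    · apply le_normalizer_inf hTG
      exact (hTA.trans (Subgroup.centralizer_le hBA)).trans Subgroup.le_normalizer
    · exact hTA.trans (Subgroup.centralizer_le_normalizer _)
  have hAA : A ≤ Subgroup.centralizer (A : Set X) := by
    intro x hx
    rw [Subgroup.mem_centralizer_iff]
    exact fun y hy => hAcomm y hy x hx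
  have hAH₂ : A ≤ Subgroup.normalizer (H₂ : Set X) := hnorm A hAG hAA
  have hC₁H₂ : C₁ ≤ Subgroup.normalizer (H₂ : Set X) :=
    hnorm C₁ ((inf_le_left.trans hG₁G).trans Subgroup.le_normalizer) inf_le_right
  have h1 : G₁ ≤ H₂ ⊔ C₁ := by
    conv_lhs => rw [← genCent_eq A G₁ hAab hAG₁ hcop₁]
    refine iSup₂_le ?_
    intro B hB
    set D : Subgroup X := G₁ ⊓ Subgroup.centralizer (B : Set X) with hD
    have hAD : A ≤ Subgroup.normalizer (D : Set X) := by
      apply le_normalizer_inf hAG₁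
      exact (hAA.trans (Subgroup.centralizer_le hB.1)).trans Subgroup.le_normalizer
    rw [← Cfsg.Agent.S0026.result A D hAD
      (Nat.Coprime.coprime_dvd_right (Subgroup.card_dvd_of_le inf_le_left) hcop₁) (Or.inl hsolv)]
    apply sup_le_sup
    · exact le_iSup₂_of_le B hB (Subgroup.commutator_mono (inf_le_inf_right _ hG₁G) le_rfl)
    · exact inf_le_inf_right _ inf_le_left
  have h2 : ⁅H₂ ⊔ C₁, A⁆ ≤ H₂ := by
    apply Cfsg.Agent.Lib.Helper91.sup_commutator_le' Subgroup.le_normalizer hC₁H₂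
    · exact Subgroup.le_normalizer_iff_commutator_le_left.1 hAH₂
    · rw [Subgroup.commutator_eq_bot_iff_le_centralizer.mpr inf_le_right]
      exact bot_le
  have h3 : ⁅G₁, A⁆ = G₁ := Cfsg.Agent.S0027.result A G hAG hcop (Or.inl hsolv)
  rw [← h3]
  exact (Subgroup.commutator_mono h1 le_rfl).trans h2

end Cfsg.Agent.S3734
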