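import Cfsg.Statements.S3735
import Cfsg.Agent.Lib.Helper62.Basic

set_option autoImplicit false
open Cfsg

namespace Cfsg.Agent.S3735

open Cfsg.Agent.Lib.Helper62

/-- Clifford's Theorem for actions on finite abelian groups, first part. Let H and V be subgroups of a finite group with V abelian and H normalizing V, and let A be a normal subgroup of H. If every H-invariant subgroup of V has an H-invariant complement in V, then every A-invariant subgroup of V has an A-invariant complement in V. -/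
theorem result {G : Type*} [Group G] [Finite G] (H A V : Subgroup G) (hVab : IsMulCommutative V) (hHV : H ≤ Subgroup.normalizer (V : Set G)) (hAH : A ≤ H) (hAn : H ≤ Subgroup.normalizer (A : Set G)) (hss : ∀ U : Subgroup G, U ≤ V → H ≤ Subgroup.normalizer (U : Set G) → ∃ W : Subgroup G, W ≤ V ∧ H ≤ Subgroup.normalizer (W : Set G) ∧ U ⊓ W = ⊥ ∧ U ⊔ W = V) (U : Subgroup G) (hUV : U ≤ V) (hAU : A ≤ Subgroup.normalizer (U : Set G)) : ∃ W : Subgroup G, W ≤ V ∧ A ≤ Subgroup.normalizer (W : Set G) ∧ U ⊓ W = ⊥ ∧ U ⊔ W = V := by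
  classical
  -- the irreducible `A`-invariant subgroups of `V`
  set Irr : Set (Subgroup G) := {S | S ≤ V ∧ A ≤ Subgroup.normalizer (S : Set G) ∧ S ≠ ⊥ ∧
    ∀ S' : Subgroup G, S' ≤ S → A ≤ Subgroup.normalizer (S' : Set G) → S' = ⊥ ∨ S' = S} with hIrr
  set T : Subgroup G := sSup Irr with hT
  have hTV : T ≤ V := sSup_le (fun S hS => hS.1)
  -- conjugation by `h ∈ H` preserves `A`-invariance
  have hinv : ∀ h ∈ H, ∀ S : Subgroup G, A ≤ Subgroup.normalizer (S : Set G) →
      A ≤ Subgroup.normalizer ((S.map (MulAut.conj h).toMonoidHom : Subgroup G) : Set G) := by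
    intro h hh S hS
    rw [Subgroup.le_normalizer_iff] at hS ⊢
    rintro a ha _ ⟨s, hs, rfl⟩
    have ha' : h⁻¹ * a * h⁻¹⁻¹ ∈ A :=
      (Subgroup.le_normalizer_iff.mp hAn) h⁻¹ (H.inv_mem hh) a ha
    refine ⟨(h⁻¹ * a * h⁻¹⁻¹) * s * (h⁻¹ * a * h⁻¹⁻¹)⁻¹, hS _ ha' s hs, ?_⟩
    simp only [MulEquiv.coe_toMonoidHom, MulAut.conj_apply]
    group
  have hTH : H ≤ Subgroup.normalizer (T : Set G) := by
    apply le_normalizer_sSup_of_stable
    intro h hh S hS
    obtain ⟨hSV, hSA, hS0, hSmin⟩ := hS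
    refine ⟨?_, hinv h hh S hSA, ?_, ?_⟩
    · rintro _ ⟨s, hs, rfl⟩
      exact (Subgroup.le_normalizer_iff.mp hHV) h hh s (hSV hs)
    · intro hbot
      apply hS0
      rw [Subgroup.map_eq_bot_iff_of_injective _ (MulAut.conj h).injective] at hbot
      exact hbot
    · intro S' hS' hS'A
      have h1 := hinv h⁻¹ (H.inv_mem hh) S' hS'A
      have hback : ∀ X : Subgroup G, (X.map (MulAut.conj h).toMonoidHom).map (MulAut.conj h⁻¹).toMonoidHom = X := by
        intro X
        rw [Subgroup.map_map]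
        have : (MulAut.conj h⁻¹).toMonoidHom.comp (MulAut.conj h).toMonoidHom = MonoidHom.id G := by
          ext x
          simp [MulAut.conj_apply]
          group
        rw [this, Subgroup.map_id]
      have hback' : ∀ X : Subgroup G, (X.map (MulAut.conj h⁻¹).toMonoidHom).map (MulAut.conj h).toMonoidHom = X := by
        intro X
        rw [Subgroup.map_map]
        have : (MulAut.conj h).toMonoidHom.comp (MulAut.conj h⁻¹).toMonoidHom = MonoidHom.id G := by
          ext x
          simp [MulAut.conj_apply]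
          group
        rw [this, Subgroup.map_id]
      have h2 : S'.map (MulAut.conj h⁻¹).toMonoidHom ≤ S := by
        have := Subgroup.map_mono (f := (MulAut.conj h⁻¹).toMonoidHom) hS'
        rwa [hback] at this
      rcases hSmin _ h2 h1 with h3 | h3
      · left
        rw [← hback' S', h3, Subgroup.map_bot]
      · right
        rw [← hback' S', h3]
  -- every nontrivial `A`-invariant subgroup of `V` contains an irreducible one
  have hexIrr : ∀ W : Subgroup G, W ≤ V → A ≤ Subgroup.normalizer (W : Set G) → W ≠ ⊥ →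
      ∃ S ∈ Irr, S ≤ W := by
    intro W hWV hWA hW0
    have hne : {S : Subgroup G | S ≤ W ∧ A ≤ Subgroup.normalizer (S : Set G) ∧ S ≠ ⊥}.Nonempty :=
      ⟨W, le_rfl, hWA, hW0⟩
    obtain ⟨S, hS, hSmin⟩ := (wellFounded_lt (α := Subgroup G)).has_min _ hne
    refine ⟨S, ⟨hS.1.trans hWV, hS.2.1, hS.2.2, ?_⟩, hS.1⟩
    intro S' hS' hS'A
    by_cases h0 : S' = ⊥
    · exact Or.inl h0
    · right
      by_contra hne'
      exact hSmin S' ⟨hS'.trans hS.1, hS'A, h0⟩ (lt_of_le_of_ne hS' hne')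
  -- hence `T = V`
  have hTeq : T = V := by
    obtain ⟨W, hWV, hWH, hTW, hTW'⟩ := hss T hTV hTH
    have hW0 : W = ⊥ := by
      by_contra hW0
      obtain ⟨S, hS, hSW⟩ := hexIrr W hWV (hAH.trans hWH) hW0
      have : S ≤ T ⊓ W := le_inf (le_sSup hS) hSW
      rw [hTW] at this
      exact hS.2.2.1 (le_bot_iff.mp this)
    rw [hW0, sup_bot_eq] at hTW'
    exact hTW'
  -- a maximal `A`-invariant subgroup meeting `U` trivially
  have hne : {W : Subgroup G | W ≤ V ∧ A ≤ Subgroup.normalizer (W : Set G) ∧ U ⊓ W = ⊥}.Nonempty :=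
    ⟨⊥, bot_le, le_normalizer_bot, inf_bot_eq _⟩
  obtain ⟨W, hW, hWmax⟩ := (wellFounded_gt (α := Subgroup G)).has_min _ hne
  obtain ⟨hWV, hWA, hUW⟩ := hW
  refine ⟨W, hWV, hWA, hUW, le_antisymm (sup_le hUV hWV) ?_⟩
  rw [← hTeq]
  refine sSup_le (fun S hS => ?_)
  obtain ⟨hSV, hSA, hS0, hSmin⟩ := hS
  rcases hSmin (S ⊓ (U ⊔ W)) inf_le_left (le_normalizer_inf hSA (le_normalizer_sup hAU hWA)) with h | h
  · -- then `W ⊔ S` is a bigger candidate
    have hcand : U ⊓ (W ⊔ S) = ⊥ := by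
      rw [eq_bot_iff]
      intro x hx
      obtain ⟨hxU, hxWS⟩ := Subgroup.mem_inf.mp hx
      obtain ⟨w, hw, s, hs, rfl⟩ := (mem_sup_of_le_comm hVab hWV hSV).mp hxWS
      have hs' : s ∈ S ⊓ (U ⊔ W) := by
        refine Subgroup.mem_inf.mpr ⟨hs, ?_⟩
        have : s = w⁻¹ * (w * s) := by group
        rw [this]
        exact Subgroup.mul_mem _ (Subgroup.inv_mem _ (Subgroup.mem_sup_right hw)) (Subgroup.mem_sup_left hxU)
      rw [h, Subgroup.mem_bot] at hs'
      subst hs'
      rw [mul_one] at hxU ⊢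
      rw [← hUW]
      exact Subgroup.mem_inf.mpr ⟨hxU, hw⟩
    have hle : W ⊔ S ≤ W := by
      by_contra hnot
      exact hWmax (W ⊔ S) ⟨sup_le hWV hSV, le_normalizer_sup hWA hSA, hcand⟩
        (lt_of_le_of_ne le_sup_left (fun heq => hnot (heq ▸ le_rfl)))
    exact (le_sup_right.trans hle).trans le_sup_right
  · exact (inf_eq_left.mp h)

end Cfsg.Agent.S3735
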