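import Cfsg.Statements.S3737
import Cfsg.Agent.Lib.Helper62.Baer
import Cfsg.Agent.S3736

set_option autoImplicit false
open Cfsg

namespace Cfsg.Agent.S3737

open Cfsg.Agent.Lib.Helper62
open scoped commutatorElement

/-- Thompson's strengthening of the P × Q lemma for odd primes. Let p be an odd prime and let P, Q and G be subgroups of a finite group with P a p-group, Q of order prime to p and normalized by P, and G a p-group normalized by both P and Q. If every element of G centralized by P is centralized by Q, then Q centralizes G. -/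
theorem result {X : Type*} [Group X] [Finite X] {p : ℕ} [Fact p.Prime] (hp : p ≠ 2) (P Q G : Subgroup X) (hP : IsPGroup p P) (hQ : (Nat.card Q).Coprime p) (hPQ : P ≤ Subgroup.normalizer (Q : Set X)) (hG : IsPGroup p G) (hPG : P ≤ Subgroup.normalizer (G : Set X)) (hQG : Q ≤ Subgroup.normalizer (G : Set X)) (hC : G ⊓ Subgroup.centralizer (P : Set X) ≤ Subgroup.centralizer (Q : Set X)) : Q ≤ Subgroup.centralizer (G : Set X) := by
  by_contra hcon
  have hne : {V : Subgroup X | V ≤ G ∧ P ≤ Subgroup.normalizer (V : Set X) ∧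
      Q ≤ Subgroup.normalizer (V : Set X) ∧ ⁅V, Q⁆ ≠ ⊥}.Nonempty := by
    refine ⟨G, le_rfl, hPG, hQG, ?_⟩
    intro h
    apply hcon
    rw [Subgroup.commutator_eq_bot_iff_le_centralizer] at h
    exact Subgroup.le_centralizer_iff.mp h
  obtain ⟨V, ⟨hVG, hPV, hQV, hVQ⟩, hmin⟩ := (Set.toFinite _).exists_minimal hne
  have hVp : IsPGroup p V := hG.to_le hVG
  have h1 := (Cfsg.Agent.S3736.result (P ⊔ Q) Q V hVp (sup_le hPV hQV) le_sup_right
    (sup_le hPQ Subgroup.le_normalizer) hQ hVQ (by
      intro U hU hBU
      by_contra hUQ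
      have := hmin ⟨hU.le.trans hVG, le_sup_left.trans hBU, le_sup_right.trans hBU, hUQ⟩ hU.le
      exact absurd hU (not_lt_of_ge this))).2.1
  have hc : ∀ x y z : ↥V, Commute ⁅x, y⁆ z := by
    rcases h1 with h | h
    · intro x y z
      have := h.1
      exact mul_comm' _ _
    · intro x y z
      have h2 : ⁅x, y⁆ ∈ Subgroup.center ↥V := by
        rw [← h.2.2]
        exact Subgroup.commutator_mem_commutator (Subgroup.mem_top x) (Subgroup.mem_top y)
      exact (Subgroup.mem_center_iff.mp h2 z).symm
  have key := thompson_PQ_class_two (V := ↥V) (Γ := ↥(Subgroup.normalizer (V : Set X))) hp hVp hc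
    (P.subgroupOf _) (Q.subgroupOf _) hP.comap_subtype
    (Nat.Coprime.of_dvd_left (by
      rw [← Subgroup.inf_subgroupOf_right,
        Nat.card_congr (Subgroup.subgroupOfEquivOfLe inf_le_right).toEquiv]
      exact Subgroup.card_dvd_of_le inf_le_left) hQ)
    (le_trans (Subgroup.comap_mono hPQ) (Subgroup.le_normalizer_comap _))
    (by
      intro v hv q hq
      have hvC : (v : X) ∈ G ⊓ Subgroup.centralizer (P : Set X) := by
        refine ⟨hVG v.2, ?_⟩
        change (v : X) ∈ Subgroup.centralizer (P : Set X)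
        rw [Subgroup.mem_centralizer_iff]
        intro x hx
        have h2 := congrArg Subtype.val (hv ⟨x, hPV hx⟩ hx)
        have h3 : x * v * x⁻¹ = v := h2
        rw [mul_inv_eq_iff_eq_mul] at h3
        exact h3
      have h4 := Subgroup.mem_centralizer_iff.mp (hC hvC) q hq
      apply Subtype.ext
      change (q : X) * v * (q : X)⁻¹ = v
      rw [h4, mul_inv_cancel_right])
  apply hVQ
  rw [Subgroup.commutator_eq_bot_iff_le_centralizer]
  intro v hv
  rw [Subgroup.mem_centralizer_iff]
  intro q hq
  have h5 := congrArg Subtype.val (key ⟨q, hQV hq⟩ hq ⟨v, hv⟩)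
  have h6 : q * v * q⁻¹ = v := h5
  rw [mul_inv_eq_iff_eq_mul] at h6
  exact h6

end Cfsg.Agent.S3737
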