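import Cfsg.Statements.S3740
import Cfsg.Agent.Lib.Helper62.SL23d
import Cfsg.Agent.Lib.Helper62.SL2Trace
import Cfsg.Agent.Lib.Helper22.CoprimeP
import Cfsg.Agent.Lib.Helper5.SL2Sylow

set_option autoImplicit false
open Cfsg

namespace Cfsg.Agent.S3740

open Cfsg.Agent.Lib

/-- Let F be a finite field of odd characteristic p and let a be a p-element of SL₂(F) normalizing a subgroup R of order prime to p with [R, a] ≠ 1. Then p = 3, R is a quaternion group of order 8, and R⟨a⟩ is isomorphic to SL₂(3). -/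
theorem result (F : Type) [Field F] [Fintype F] {p : ℕ} [Fact p.Prime] [CharP F p] (hp : p ≠ 2) (a : Matrix.SpecialLinearGroup (Fin 2) F) (ha : IsPGroup p ↥(Subgroup.zpowers a)) (R : Subgroup (Matrix.SpecialLinearGroup (Fin 2) F)) (hR : (Nat.card R).Coprime p) (haR : a ∈ Subgroup.normalizer (R : Set (Matrix.SpecialLinearGroup (Fin 2) F))) (hnt : ⁅R, Subgroup.zpowers a⁆ ≠ ⊥) : p = 3 ∧ Nonempty (↥R ≃* QuaternionGroup 2) ∧ Nonempty (↥(R ⊔ Subgroup.zpowers a) ≃* Matrix.SpecialLinearGroup (Fin 2) (ZMod 3)) := by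
  have hpp : p.Prime := Fact.out
  have hpodd : Odd p := hpp.odd_of_ne_two hp
  have hT := Helper62.traceRep_SL2 (F := F) p
  -- `a` does not centralize `R`
  have haC : a ∉ Subgroup.centralizer (R : Set (Matrix.SpecialLinearGroup (Fin 2) F)) := by
    intro hc
    apply hnt
    rw [Subgroup.commutator_comm, Subgroup.commutator_eq_bot_iff_le_centralizer, Subgroup.zpowers_le]
    exact hc
  have ha1 : a ≠ 1 := by
    rintro rfl
    exact haC (Subgroup.one_mem _)
  -- `a` is unipotent
  obtain ⟨k, hk⟩ := (isPGroup_iff_pow_pow_eq_one.1 ha) ⟨a, Subgroup.mem_zpowers a⟩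
  have hk' : a ^ p ^ k = 1 := congrArg Subtype.val hk
  have huni := Helper62.TraceRep.unipotent_of_pow hT hk'
  have hap : a ^ p = 1 := hT.pow_eq_one_of_unipotent huni
  have hoa : orderOf a = p := orderOf_eq_prime hap ha1
  -- `R` is a 2-group
  have hR2 : IsPGroup 2 R := by
    have hcard : ∀ r : ℕ, r.Prime → r ∣ Nat.card R → r = 2 := by
      intro r hr hrR
      by_contra hr2
      have : Fact r.Prime := ⟨hr⟩
      have hrp : r ≠ p := by
        rintro rfl
        exact hpp.one_lt.ne' (Nat.eq_one_of_dvd_coprimes hR hrR dvd_rfl)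
      obtain ⟨S, hS, hSN⟩ := Helper22.exists_invariant_isSylowIn (Subgroup.zpowers a) R ha
        (fun h => hpp.one_lt.ne' (Nat.eq_one_of_dvd_coprimes hR h dvd_rfl))
        (by rw [Subgroup.zpowers_le]; exact haR) r
      have haS : a ∈ Subgroup.normalizer (S : Set (Matrix.SpecialLinearGroup (Fin 2) F)) :=
        hSN (Subgroup.mem_zpowers a)
      -- `S` is abelian
      obtain ⟨P, hSP⟩ := hS.isPGroup.exists_le_sylow
      have hPc := Helper5.sylow_SL2_isCyclic p r hr2 hrp P
      have hSab : ∀ x ∈ S, ∀ y ∈ S, x * y = y * x := by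
        intro x hx y hy
        have := hPc.isMulCommutative.is_comm.comm (⟨x, hSP hx⟩ : P) ⟨y, hSP hy⟩
        exact congrArg Subtype.val this
      obtain ⟨j, hj⟩ := IsPGroup.iff_card.1 hS.isPGroup
      have hcop : (r ^ j).Coprime p := Nat.Coprime.pow_left _ ((Nat.coprime_primes hr hpp).2 hrp)
      have hSm : ∀ x ∈ S, x ^ (r ^ j) = 1 := by
        intro x hx
        have := pow_card_eq_one' (G := S) (x := ⟨x, hx⟩)
        rw [hj] at this
        exact congrArg Subtype.val this
      have hsq : ∀ z ∈ S, z * (a * a) = a * a * z := fun z hz =>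
        hT.sq_commute S hSab hcop hSm (fun x hx => (Subgroup.mem_normalizer_iff.1 haS x).1 hx) z hz
      -- `a` centralizes `S`
      have hcomm : ∀ z ∈ S, z * a = a * z := by
        intro z hz
        obtain ⟨c, hc⟩ := hpodd
        have h1 : a = ((a * a) ^ (c + 1)) := by
          rw [← pow_two, ← pow_mul]
          have : 2 * (c + 1) = p + 1 := by omega
          rw [this, pow_succ, hap, one_mul]
        have h2 : Commute z (a * a) := hsq z hz
        have h3 := (h2.pow_right (c + 1)).eq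
        rw [← h1] at h3
        exact h3
      -- so `S = 1`
      have hS1 : ∀ z ∈ S, z = 1 := by
        intro z hz
        have h1 := Helper62.TraceRep.sq_eq_one_of_commute_unipotent hT huni ha1 (hcomm z hz) hcop (hSm z hz)
        have h2 : z ^ 2 = 1 := by rw [pow_two]; exact h1
        have hc2 : (r ^ j).Coprime 2 :=
          Nat.Coprime.pow_left _ ((Nat.coprime_primes hr Nat.prime_two).2 hr2)
        exact Helper34.eq_one_of_pow_eq_one_of_coprime hc2 (hSm z hz) h2
      obtain ⟨x, hx⟩ := exists_prime_orderOf_dvd_card' (G := R) r hrR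
      have hmax := (Helper22.isSylowIn_iff.1 hS).2.2 (Subgroup.zpowers (x : Matrix.SpecialLinearGroup (Fin 2) F))
        (by
          rw [IsPGroup.iff_card]
          exact ⟨1, by rw [Nat.card_zpowers, Subgroup.orderOf_coe, hx, pow_one]⟩)
        (by rw [Subgroup.zpowers_le]; exact x.2)
        (by intro z hz; rw [hS1 z hz]; exact Subgroup.one_mem _)
      have hx1 : (x : Matrix.SpecialLinearGroup (Fin 2) F) = 1 :=
        hS1 _ (hmax ▸ Subgroup.mem_zpowers _)
      rw [← Subgroup.orderOf_coe, hx1, orderOf_one] at hx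
      exact hr.one_lt.ne hx
    rw [IsPGroup.iff_card]
    exact ⟨_, Nat.eq_prime_pow_of_unique_prime_dvd Nat.card_pos.ne' (fun {r} hr hrR => hcard r hr hrR)⟩
  -- `R` is quaternion of order 8
  have hFodd : Odd (Fintype.card F) := by
    obtain ⟨n, hn⟩ := FiniteField.card F p
    rw [hn.2]
    exact hpodd.pow
  obtain ⟨P, hRP⟩ := hR2.exists_le_sylow
  obtain ⟨n, hn, ⟨eP⟩⟩ := Helper5.sylow_two_SL2_quaternion hFodd P
  obtain ⟨e⟩ := Helper62.q8_of_odd_action hR2 (eP.toMonoidHom.comp (Subgroup.inclusion hRP))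
    (eP.injective.comp (Subgroup.inclusion_injective hRP)) haR haC (hoa ▸ hpodd)
  have h3 := Helper62.cube_mem_centralizer_of_q8 e haR hpodd hap
  have hp3 : p = 3 := by
    by_contra hne
    apply haC
    have hcop : Nat.Coprime 3 p := (Nat.coprime_primes Nat.prime_three hpp).2 (Ne.symm hne)
    have hmem : a ∈ Subgroup.zpowers (a ^ 3) := by
      obtain ⟨m, hm⟩ := Nat.exists_mul_mod_eq_one_of_coprime hcop hpp.one_lt
      have h4 : a = (a ^ 3) ^ m := by
        rw [← pow_mul, pow_eq_pow_mod _ hap, hm.2, pow_one]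
      have h5 : (a ^ 3) ^ m ∈ Subgroup.zpowers (a ^ 3) := Subgroup.pow_mem _ (Subgroup.mem_zpowers (a ^ 3)) m
      rwa [← h4] at h5
    exact (Subgroup.zpowers_le.2 h3) hmem
  refine ⟨hp3, ⟨e⟩, Helper62.nonempty_sup_equiv_SL23 e haR haC (hp3 ▸ hap)⟩

end Cfsg.Agent.S3740
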