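import Cfsg.Statements.S3741
import Cfsg.Agent.Lib.Helper2.Pairing
import Cfsg.Agent.Lib.Helper2.NCLemma

set_option autoImplicit false
open Cfsg

namespace Cfsg.Agent.S3741

open scoped commutatorElement IsMulCommutative
open Cfsg.Agent.Lib.Helper2

/-- The commutator pairing `A × B → Z` when `[A,B] ≤ Z` and `Z` is centralized by `A` and `B`. -/
def pairAB {G : Type*} [Group G] (A B Z : Subgroup G) [IsMulCommutative Z]
    (h : ∀ a ∈ A, ∀ b ∈ B, ⁅a, b⁆ ∈ Z) (hA : A ≤ Subgroup.centralizer (Z : Set G))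
    (hB : B ≤ Subgroup.centralizer (Z : Set G)) : A →* (B →* Z) where
  toFun x :=
    { toFun := fun y => ⟨⁅(x : G), (y : G)⁆, h x x.2 y y.2⟩
      map_one' := by apply Subtype.ext; simp
      map_mul' := by
        intro e1 e2
        apply Subtype.ext
        change ⁅(x : G), (e1 : G) * (e2 : G)⁆ = ⁅(x : G), (e1 : G)⁆ * ⁅(x : G), (e2 : G)⁆
        have h3 : ⁅(x : G), (e2 : G)⁆ * (e1 : G) = (e1 : G) * ⁅(x : G), (e2 : G)⁆ :=
          (Subgroup.mem_centralizer_iff.mp (hB e1.2)) _ (h x x.2 e2 e2.2)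
        have h4 : ⁅(x : G), (e1 : G) * (e2 : G)⁆ =
            ⁅(x : G), (e1 : G)⁆ * ((e1 : G) * ⁅(x : G), (e2 : G)⁆) * (e1 : G)⁻¹ := by
          simp only [commutatorElement_def]; group
        rw [h4, ← h3]; group }
  map_one' := by
    ext y
    change ⁅(1 : G), (y : G)⁆ = 1
    simp
  map_mul' := by
    intro x1 x2
    ext e
    change ⁅(x1 : G) * (x2 : G), (e : G)⁆ = ⁅(x1 : G), (e : G)⁆ * ⁅(x2 : G), (e : G)⁆
    have h3 : ⁅(x2 : G), (e : G)⁆ * (x1 : G) = (x1 : G) * ⁅(x2 : G), (e : G)⁆ :=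
      (Subgroup.mem_centralizer_iff.mp (hA x1.2)) _ (h x2 x2.2 e e.2)
    have h5 : ⁅(x1 : G), (e : G)⁆ * ⁅(x2 : G), (e : G)⁆ = ⁅(x2 : G), (e : G)⁆ * ⁅(x1 : G), (e : G)⁆ :=
      congrArg Subtype.val (mul_comm (⟨_, h x1 x1.2 e e.2⟩ : Z) ⟨_, h x2 x2.2 e e.2⟩)
    have h4 : ⁅(x1 : G) * (x2 : G), (e : G)⁆ =
        ((x1 : G) * ⁅(x2 : G), (e : G)⁆) * (x1 : G)⁻¹ * ⁅(x1 : G), (e : G)⁆ := by
      simp only [commutatorElement_def]; group
    rw [h4, ← h3, h5]; group

/-- Let A and B be subgroups of a finite p-group with [A, B] ≤ A ∩ B and [A, B] of order at most p. Then |A : C_A(B)| = |B : C_B(A)|. -/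
theorem result {G : Type*} [Group G] [Finite G] {p : ℕ} [Fact p.Prime] (hG : IsPGroup p G) (A B : Subgroup G) (hAB : ⁅A, B⁆ ≤ A ⊓ B) (hcard : Nat.card ↥⁅A, B⁆ ≤ p) : (A ⊓ Subgroup.centralizer (B : Set G)).relIndex A = (B ⊓ Subgroup.centralizer (A : Set G)).relIndex B := by
  have hp : p.Prime := Fact.out
  set Z := ⁅A, B⁆ with hZ
  obtain ⟨k, hk⟩ := IsPGroup.iff_card.mp (hG.to_subgroup Z)
  have hk1 : k ≤ 1 := by
    rw [hk] at hcard
    by_contra hcon
    have : p ^ 2 ≤ p ^ k := Nat.pow_le_pow_right hp.pos (by omega)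
    have h2 : p < p ^ 2 := by nlinarith [hp.two_le]
    omega
  have hdvd : ∀ j < k, ¬ p ∣ p ^ k - p ^ j := by
    intro j hj
    have hk' : k = 1 := by omega
    have hj' : j = 0 := by omega
    subst hk' hj'
    rw [pow_one, pow_zero]
    intro h
    have := Nat.le_of_dvd (by have := hp.two_le; omega) h
    have := hp.two_le
    omega
  have hAn : A ≤ Subgroup.normalizer (Z : Set G) := by
    rw [Subgroup.le_normalizer_iff_commutator_le_left]
    calc ⁅Z, A⁆ ≤ ⁅B, A⁆ := Subgroup.commutator_mono (hAB.trans inf_le_right) le_rfl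
      _ = Z := Subgroup.commutator_comm B A
  have hBn : B ≤ Subgroup.normalizer (Z : Set G) := by
    rw [Subgroup.le_normalizer_iff_commutator_le_left]
    exact Subgroup.commutator_mono (hAB.trans inf_le_left) le_rfl
  have hA : A ≤ Subgroup.centralizer (Z : Set G) :=
    le_centralizer_of_not_dvd_sub Z A hk (hG.to_subgroup A) hAn hdvd
  have hB : B ≤ Subgroup.centralizer (Z : Set G) :=
    le_centralizer_of_not_dvd_sub Z B hk (hG.to_subgroup B) hBn hdvd
  haveI hZc : IsMulCommutative Z := ⟨⟨fun x y => by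
    apply Subtype.ext
    exact ((Subgroup.mem_centralizer_iff.mp (hA ((hAB.trans inf_le_left) x.2))) y.1 y.2).symm⟩⟩
  haveI : IsCyclic Z := by
    interval_cases k
    · haveI : Subsingleton Z := by
        rw [← Finite.card_le_one_iff_subsingleton, hk]; simp
      exact isCyclic_of_subsingleton
    · exact isCyclic_of_prime_card (p := p) (by rw [hk, pow_one])
  have hmem : ∀ a ∈ A, ∀ b ∈ B, ⁅a, b⁆ ∈ Z := fun a ha b hb =>
    Subgroup.commutator_mem_commutator ha hb
  let β := pairAB A B Z hmem hA hB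
  have hker : β.ker = (A ⊓ Subgroup.centralizer (B : Set G)).subgroupOf A := by
    ext a
    rw [MonoidHom.mem_ker, Subgroup.mem_subgroupOf, Subgroup.mem_inf, Subgroup.mem_centralizer_iff]
    constructor
    · intro ha
      refine ⟨a.2, fun b hb => ?_⟩
      have h1 := DFunLike.congr_fun ha ⟨b, hb⟩
      have h2 : ⁅(a : G), b⁆ = 1 := congrArg Subtype.val h1
      exact (commutatorElement_eq_one_iff_mul_comm.mp h2).symm
    · intro ha
      ext b
      change ⁅(a : G), (b : G)⁆ = 1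
      rw [commutatorElement_eq_one_iff_mul_comm]
      exact (ha.2 b.1 b.2).symm
  have hfker : β.flip.ker = (B ⊓ Subgroup.centralizer (A : Set G)).subgroupOf B := by
    ext b
    rw [MonoidHom.mem_ker, Subgroup.mem_subgroupOf, Subgroup.mem_inf, Subgroup.mem_centralizer_iff]
    constructor
    · intro hb
      refine ⟨b.2, fun a ha => ?_⟩
      have h1 := DFunLike.congr_fun hb ⟨a, ha⟩
      have h2 : ⁅a, (b : G)⁆ = 1 := congrArg Subtype.val h1
      exact commutatorElement_eq_one_iff_mul_comm.mp h2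
    · intro hb
      ext a
      change ⁅(a : G), (b : G)⁆ = 1
      rw [commutatorElement_eq_one_iff_mul_comm]
      exact hb.2 a.1 a.2
  have := index_ker_eq_index_flip_ker β
  rw [hker, hfker] at this
  exact this

end Cfsg.Agent.S3741
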