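import Cfsg.Statements.S3742
import Cfsg.Agent.S1012

set_option autoImplicit false
open Cfsg

namespace Cfsg.Agent.S3742

open QuaternionGroup

local notation "Q8" => QuaternionGroup 2

/-- The candidate endomorphism determined by the images of the two generators. -/
def F (u v : Q8) : Q8 → Q8
  | a i => u ^ i.val
  | xa i => v * u ^ i.val

/-- `F u v` is an injective endomorphism. -/
def P (u v : Q8) : Prop :=
  (∀ g h : Q8, F u v (g * h) = F u v g * F u v h) ∧ Function.Injective (F u v)

instance (u v : Q8) : Decidable (P u v) := by unfold P; infer_instance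

set_option maxRecDepth 1000000 in
theorem card_P : Fintype.card {p : Q8 × Q8 // P p.1 p.2} = 24 := by decide +kernel

set_option maxRecDepth 1000000 in
theorem a_eq : ∀ i : ZMod (2 * 2), (a i : Q8) = (a 1) ^ i.val := by decide +kernel

set_option maxRecDepth 1000000 in
theorem xa_eq : ∀ i : ZMod (2 * 2), (xa i : Q8) = xa 0 * (a 1) ^ i.val := by decide +kernel

set_option maxRecDepth 1000000 in
theorem no6 : ∀ u v : Q8, P u v →
    (F u v (F u v (F u v (F u v (F u v (F u v (a 1)))))) = a 1 ∧
      F u v (F u v (F u v (F u v (F u v (F u v (xa 0)))))) = xa 0) →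
    (F u v (F u v (a 1)) = a 1 ∧ F u v (F u v (xa 0)) = xa 0) ∨
    (F u v (F u v (F u v (a 1))) = a 1 ∧ F u v (F u v (F u v (xa 0))) = xa 0) := by
  decide +kernel

theorem apply_eq (φ : MulAut Q8) (g : Q8) : φ g = F (φ (a 1)) (φ (xa 0)) g := by
  cases g with
  | a i => rw [a_eq i, map_pow]; rw [← a_eq i]; rfl
  | xa i => rw [xa_eq i, map_mul, map_pow]; rw [← xa_eq i]; rfl

theorem P_of (φ : MulAut Q8) : P (φ (a 1)) (φ (xa 0)) := by
  constructor
  · intro g h
    rw [← apply_eq, ← apply_eq, ← apply_eq, map_mul]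
  · intro g h hgh
    rw [← apply_eq, ← apply_eq] at hgh
    exact φ.injective hgh

theorem ext_gen {φ ψ : MulAut Q8} (h1 : φ (a 1) = ψ (a 1)) (h2 : φ (xa 0) = ψ (xa 0)) : φ = ψ := by
  ext g
  rw [apply_eq φ, apply_eq ψ, h1, h2]

/-- Automorphisms correspond to admissible pairs. -/
noncomputable def equivP : MulAut Q8 ≃ {p : Q8 × Q8 // P p.1 p.2} where
  toFun φ := ⟨(φ (a 1), φ (xa 0)), P_of φ⟩
  invFun p := MulEquiv.ofBijective (MonoidHom.mk' (F p.1.1 p.1.2) p.2.1)
    (Finite.injective_iff_bijective.1 p.2.2)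
  left_inv φ := by
    ext g
    exact (apply_eq φ g).symm
  right_inv p := by
    apply Subtype.ext
    apply Prod.ext
    · show F p.1.1 p.1.2 (a 1) = p.1.1
      show p.1.1 ^ (1 : ZMod (2 * 2)).val = p.1.1
      have : (1 : ZMod (2 * 2)).val = 1 := by decide
      rw [this, pow_one]
    · show F p.1.1 p.1.2 (xa 0) = p.1.2
      show p.1.2 * p.1.1 ^ (0 : ZMod (2 * 2)).val = p.1.2
      have : (0 : ZMod (2 * 2)).val = 0 := by decide
      rw [this, pow_zero, mul_one]

theorem card_aut : Nat.card (MulAut Q8) = 24 := by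
  rw [Nat.card_congr equivP, Nat.card_eq_fintype_card, card_P]

/-- The automorphism group of the quaternion group of order 8 is isomorphic to the symmetric group of degree 4. -/
theorem result : Nonempty (MulAut (QuaternionGroup 2) ≃* Equiv.Perm (Fin 4)) := by
  have : Finite (MulAut Q8) := Nat.finite_of_card_ne_zero (by rw [card_aut]; norm_num)
  apply Cfsg.Agent.S1012.result card_aut
  intro φ h6
  have hp6 : φ ^ 6 = 1 := by rw [← h6]; exact pow_orderOf_eq_one φ
  have e : ∀ g : Q8, φ g = F (φ (a 1)) (φ (xa 0)) g := apply_eq φ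
  have h6' : ∀ g : Q8, φ (φ (φ (φ (φ (φ g))))) = g := by
    intro g
    have := congrArg (fun ψ : MulAut Q8 => ψ g) hp6
    simpa [pow_succ, MulAut.mul_apply] using this
  have hcase := no6 (φ (a 1)) (φ (xa 0)) (P_of φ) (by
    simp only [← e]
    exact ⟨h6' _, h6' _⟩)
  simp only [← e] at hcase
  rcases hcase with ⟨h1, h2⟩ | ⟨h1, h2⟩
  · have : φ ^ 2 = 1 := by
      apply ext_gen
      · simpa [pow_succ, MulAut.mul_apply] using h1
      · simpa [pow_succ, MulAut.mul_apply] using h2
    have := orderOf_dvd_of_pow_eq_one this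
    rw [h6] at this
    omega
  · have : φ ^ 3 = 1 := by
      apply ext_gen
      · simpa [pow_succ, MulAut.mul_apply] using h1
      · simpa [pow_succ, MulAut.mul_apply] using h2
    have := orderOf_dvd_of_pow_eq_one this
    rw [h6] at this
    omega

end Cfsg.Agent.S3742
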