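import Cfsg.Statements.S3744
import Cfsg.Agent.Lib.Helper62.PComplement

set_option autoImplicit false
open Cfsg

namespace Cfsg.Agent.S3744

open Cfsg.Agent.Lib.Helper62

/-- A finite p-soluble group has a p-complement, all its p-complements are conjugate, and every subgroup of order prime to p lies in one of them. Here a p-complement is a subgroup of order prime to p whose index is a power of p. -/
theorem result {G : Type*} [Group G] [Finite G] {p : ℕ} [Fact p.Prime] (hG : Cfsg.IsPSolvable p G) : (∃ H : Subgroup G, (Nat.card H).Coprime p ∧ ∃ n : ℕ, H.index = p ^ n) ∧ (∀ H₁ H₂ : Subgroup G, (Nat.card H₁).Coprime p → (∃ n : ℕ, H₁.index = p ^ n) → (Nat.card H₂).Coprime p → (∃ n : ℕ, H₂.index = p ^ n) → ∃ g : G, H₂ = H₁.map (MulAut.conj g).toMonoidHom) ∧ (∀ U : Subgroup G, (Nat.card U).Coprime p → ∃ H : Subgroup G, (Nat.card H).Coprime p ∧ (∃ n : ℕ, H.index = p ^ n) ∧ ∃ g : G, U.map (MulAut.conj g).toMonoidHom ≤ H) :=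 by
  obtain ⟨⟨H, hH⟩, hD⟩ := pCompl_main (p := p) _ G rfl hG
  refine ⟨⟨H, hH⟩, ?_, ?_⟩
  · intro H₁ H₂ a1 b1 a2 b2
    obtain ⟨g, hg⟩ := hD H₂ H₁ ⟨a2, b2⟩ a1
    refine ⟨g, (Subgroup.eq_of_le_of_card_ge hg ?_).symm⟩
    rw [Subgroup.card_map_of_injective (MulAut.conj g).injective]
    exact (IsPCompl.card_eq (p := p) ⟨a1, b1⟩ ⟨a2, b2⟩).ge
  · intro U hU
    obtain ⟨g, hg⟩ := hD H U hH hU
    exact ⟨H, hH.1, hH.2, g, hg⟩

end Cfsg.Agent.S3744
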