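import Cfsg.Statements.S3746
import Cfsg.Agent.Lib.Helper31.Quasisimple
import Cfsg.Agent.Lib.Helper21.Quasisimple
import Mathlib

set_option autoImplicit false

open Cfsg

namespace Cfsg.Agent.S3746

open Subgroup
open scoped commutatorElement

/-- if `E ≤ N Z` with `Z` central then `[E,E] ≤ [N,N]` -/
theorem comm_le_of_le_sup {G : Type*} [Group G] {Z E N : Subgroup G} (hZ : Z ≤ center G)
    (h : ∀ e ∈ E, ∃ a ∈ N, ∃ z ∈ Z, e = a * z) : ⁅E, E⁆ ≤ ⁅N, N⁆ := by
  rw [commutator_le]
  intro g₁ h₁ g₂ h₂
  obtain ⟨a₁, ha₁, z₁, hz₁, rfl⟩ := h g₁ h₁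
  obtain ⟨a₂, ha₂, z₂, hz₂, rfl⟩ := h g₂ h₂
  rw [Cfsg.Agent.Lib.Helper31.commutatorElement_mul_central (hZ hz₁) (hZ hz₂)]
  exact commutator_mem_commutator ha₁ ha₂

/-- Let Z ≤ Z(G) be a central subgroup of a finite group G and E a subgroup of G containing Z whose image E/Z is a component of G/Z (subnormal and quasisimple). Then the derived subgroup [E, E] is a component of G. -/
theorem result {G : Type*} [Group G] [Finite G] (Z : Subgroup G) (hZ : Z ≤ Subgroup.center G) [Z.Normal] (E : Subgroup G) (hZE : Z ≤ E) (hE : Cfsg.IsComponent (E.map (QuotientGroup.mk' Z))) : Cfsg.IsComponent ⁅E, E⁆ := by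
  obtain ⟨hsn, hqs⟩ := hE
  rw [Cfsg.Agent.Lib.Helper31.isQuasisimple_subgroup_iff] at hqs
  obtain ⟨hperf, hne, hN⟩ := hqs
  set π := QuotientGroup.mk' Z with hπ
  set D : Subgroup G := ⁅E, E⁆ with hD
  have hDE : D ≤ E := commutator_le_self E
  have hπD : D.map π = E.map π := by rw [hD, map_commutator, hperf]
  -- lifting: if `N.map π = E.map π` then `E ≤ N Z`
  have hlift : ∀ N : Subgroup G, N.map π = E.map π → ∀ e ∈ E, ∃ a ∈ N, ∃ z ∈ Z, e = a * z := by
    intro N hNE e he
    have : π e ∈ N.map π := by rw [hNE]; exact ⟨e, he, rfl⟩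
    obtain ⟨a, ha, hae⟩ := this
    refine ⟨a, ha, a⁻¹ * e, ?_, by group⟩
    rw [hπ, QuotientGroup.mk'_apply, QuotientGroup.mk'_apply, QuotientGroup.eq] at hae
    exact hae
  have hDperf : ⁅D, D⁆ = D :=
    le_antisymm (commutator_le_self D) (comm_le_of_le_sup hZ (hlift D hπD))
  refine ⟨?_, ?_⟩
  · -- subnormality
    have hEsn : E.IsSubnormal := by
      have h1 := hsn.comap π
      rw [comap_map_eq, hπ, QuotientGroup.ker_mk', sup_eq_left.2 hZE] at h1
      exact h1
    have hDn : (D.subgroupOf E).Normal := by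
      have : D.subgroupOf E = commutator E := by
        rw [hD, ← map_subtype_commutator, subgroupOf,
          comap_map_eq_self_of_injective E.subtype_injective]
      rw [this]; infer_instance
    exact Subgroup.IsSubnormal.trans hDE hDn.isSubnormal hEsn
  · rw [Cfsg.Agent.Lib.Helper31.isQuasisimple_subgroup_iff]
    refine ⟨hDperf, ?_, ?_⟩
    · intro h
      apply hne
      rw [← hπD, h, Subgroup.map_bot]
    · intro N hND hDN
      have h1 : N.map π ≤ E.map π := map_mono (hND.trans hDE)
      have h2 : E.map π ≤ normalizer ((N.map π : Subgroup (G ⧸ Z)) : Set (G ⧸ Z)) := by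
        rw [← hπD]
        exact (map_mono hDN).trans (le_normalizer_map π)
      rcases hN _ h1 h2 with h3 | h3
      · left
        exact le_antisymm hND ((comm_le_of_le_sup hZ (hlift N h3)).trans (commutator_le_self N))
      · right
        have h4 : ⁅N, D⁆ ≤ Z := by
          rw [commutator_le]
          intro n hn d hd
          rw [← QuotientGroup.eq_one_iff, ← QuotientGroup.mk'_apply, map_commutatorElement,
            commutatorElement_eq_one_iff_mul_comm]
          have h5 : π n ∈ centralizer ((E.map π : Subgroup (G ⧸ Z)) : Set (G ⧸ Z)) :=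
            h3 ⟨n, hn, rfl⟩
          exact (mem_centralizer_iff.1 h5 (π d) ⟨d, hDE hd, rfl⟩).symm
        have h6 : ⁅⁅N, D⁆, D⁆ = ⊥ := by
          rw [commutator_eq_bot_iff_le_centralizer]
          exact (h4.trans hZ).trans (center_le_centralizer _)
        have h7 := Cfsg.Agent.Lib.Helper21.commutator_eq_bot_of_perfect D N hDperf h6
        rw [commutator_comm, commutator_eq_bot_iff_le_centralizer] at h7
        exact h7

end Cfsg.Agent.S3746
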