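import Cfsg.Statements.S3747
import Cfsg.Agent.Lib.Helper31.GenFitting
import Cfsg.Agent.Lib.Helper22.LayerLemmas

set_option autoImplicit false
open Cfsg

namespace Cfsg.Agent.S3747

open Subgroup Cfsg.Agent.Lib.Helper31
open scoped commutatorElement Pointwise

section
variable {G : Type*} [Group G]

open Classical in
/-- A product of pairwise commuting subgroups with trivial centres has trivial centre. -/
lemma eq_one_of_mem_sup (T : Finset (Subgroup G)) :
    (∀ A ∈ T, ∀ B ∈ T, A ≠ B → B ≤ centralizer (A : Set G)) →
    (∀ A ∈ T, ∀ a ∈ A, a ∈ centralizer (A : Set G) → a = 1) →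
    ∀ x ∈ T.sup id, (∀ A ∈ T, x ∈ centralizer (A : Set G)) → x = 1 := by
  induction T using Finset.induction_on with
  | empty =>
    intro _ _ x hx _
    simpa using hx
  | insert A T hA ih =>
    intro hcomm hZ x hx hc
    rw [Finset.sup_insert, id] at hx
    have hR : T.sup id ≤ centralizer (A : Set G) := by
      apply Finset.sup_le
      intro B hB
      exact hcomm A (Finset.mem_insert_self _ _) B (Finset.mem_insert_of_mem hB)
        (fun h => hA (h ▸ hB))
    have hn : T.sup id ≤ normalizer (A : Set G) := hR.trans (centralizer_le_normalizer _)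
    have h3 : ((A ⊔ T.sup id : Subgroup G) : Set G) = (A : Set G) * ((T.sup id : Subgroup G) : Set G) :=
      coe_mul_of_right_le_normalizer_left A _ hn
    have h4 : x ∈ (A : Set G) * ((T.sup id : Subgroup G) : Set G) := h3 ▸ hx
    obtain ⟨a, ha, r, hr, rfl⟩ := Set.mem_mul.mp h4
    have ha1 : a = 1 := by
      apply hZ A (Finset.mem_insert_self _ _) a ha
      have h5 := hc A (Finset.mem_insert_self _ _)
      have : a = (a * r) * r⁻¹ := by group
      rw [this]
      exact mul_mem h5 (inv_mem (hR hr))
    subst ha1
    rw [one_mul] at hc ⊢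
    exact ih (fun B hB C hC => hcomm B (Finset.mem_insert_of_mem hB) C (Finset.mem_insert_of_mem hC))
      (fun B hB => hZ B (Finset.mem_insert_of_mem hB)) r hr
      (fun B hB => hc B (Finset.mem_insert_of_mem hB))

/-- part (a) -/
lemma partA [Finite G] (K : Subgroup G) (hK : Cfsg.IsComponent K) (hZ : Subgroup.center ↥K = ⊥) :
    Subgroup.normalClosure (K : Set G) ≠ ⊥ ∧ ∀ N : Subgroup G, N.Normal →
      N ≤ Subgroup.normalClosure (K : Set G) → N = ⊥ ∨ N = Subgroup.normalClosure (K : Set G) := by
  classical
  have hKle : K ≤ normalClosure (K : Set G) := le_normalClosure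
  refine ⟨fun h => IsComponent.ne_bot hK (eq_bot_iff.mpr (h ▸ hKle)), ?_⟩
  intro N hN hNM
  rcases IsComponent.le_or_commutator_eq_bot hK hN.isSubnormal with h | h
  · right
    exact le_antisymm hNM (normalClosure_le_normal h)
  · left
    have hNc : N ≤ centralizer (K : Set G) := by
      rw [commutator_comm] at h
      exact commutator_eq_bot_iff_le_centralizer.mp h
    have := Fintype.ofFinite G
    let Kg : G → Subgroup G := fun g => K.map (MulAut.conj g).toMonoidHom
    have hcomp : ∀ g, Cfsg.IsComponent (Kg g) := fun g => IsComponent.map_equiv hK (MulAut.conj g)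
    let T : Finset (Subgroup G) := Finset.univ.image Kg
    have hMT : normalClosure (K : Set G) ≤ T.sup id := by
      unfold normalClosure
      rw [closure_le]
      intro x hx
      obtain ⟨k, hk, hkx⟩ := Group.mem_conjugatesOfSet_iff.mp hx
      obtain ⟨g, rfl⟩ := isConj_iff.mp hkx
      have h1 : Kg g ≤ T.sup id :=
        Finset.le_sup (f := id) (Finset.mem_image_of_mem Kg (Finset.mem_univ g))
      exact h1 ⟨k, hk, rfl⟩
    rw [eq_bot_iff]
    intro x hx
    rw [mem_bot]
    apply eq_one_of_mem_sup T ?_ ?_ x (hMT (hNM hx)) ?_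
    · intro A hA B hB hAB
      obtain ⟨g, -, rfl⟩ := Finset.mem_image.mp hA
      obtain ⟨g', -, rfl⟩ := Finset.mem_image.mp hB
      exact commutator_eq_bot_iff_le_centralizer.mp
        (IsComponent.commutator_eq_bot_of_ne (hcomp g') (hcomp g) (Ne.symm hAB))
    · intro A hA a ha hac
      obtain ⟨g, -, rfl⟩ := Finset.mem_image.mp hA
      obtain ⟨k, hk, rfl⟩ := ha
      have hkc : (⟨k, hk⟩ : K) ∈ center K := by
        rw [mem_center_iff]
        intro k'
        apply Subtype.ext
        have := mem_centralizer_iff.mp hac ((MulAut.conj g).toMonoidHom k'.1) ⟨k'.1, k'.2, rfl⟩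
        have h2 : (MulAut.conj g) (k'.1 * k) = (MulAut.conj g) (k * k'.1) := by
          rw [map_mul, map_mul]; exact this
        exact (MulAut.conj g).injective h2
      rw [hZ, mem_bot] at hkc
      have : k = 1 := congrArg Subtype.val hkc
      rw [this, map_one]
    · intro A hA
      obtain ⟨g, -, rfl⟩ := Finset.mem_image.mp hA
      rw [mem_centralizer_iff]
      rintro _ ⟨k, hk, rfl⟩
      have h1 : g⁻¹ * x * g ∈ N := by
        have := hN.conj_mem x hx g⁻¹
        simpa using this
      have h2 := mem_centralizer_iff.mp (hNc h1) k hk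
      simp only [MulEquiv.coe_toMonoidHom, MulAut.conj_apply]
      calc g * k * g⁻¹ * x = g * (k * (g⁻¹ * x * g)) * g⁻¹ := by group
        _ = g * ((g⁻¹ * x * g) * k) * g⁻¹ := by rw [h2]
        _ = x * (g * k * g⁻¹) := by group

end

/-- Let G be a finite group. (a) If K is a component of G with trivial centre, then the normal closure of K in G is a minimal normal subgroup of G. (b) If the Fitting subgroup of G is trivial, then the layer E(G) is generated by the minimal normal subgroups of G. -/
theorem result {G : Type*} [Group G] [Finite G] : (∀ K : Subgroup G, Cfsg.IsComponent K → Subgroup.center ↥K = ⊥ → (Subgroup.normalClosure (K : Set G) ≠ ⊥ ∧ ∀ N : Subgroup G, N.Normal → N ≤ Subgroup.normalClosure (K : Set G) → N = ⊥ ∨ N = Subgroup.normalClosure (K : Set G))) ∧ (Cfsg.fittingSubgroup G = ⊥ → sSup {N : Subgroup G | N ≠ ⊥ ∧ N.Normal ∧ ∀ N' : Subgroup G, N'.Normal → N' ≤ N → N' = ⊥ ∨ N' = N} = Cfsg.layer G) := by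
  refine ⟨partA, ?_⟩
  intro hF
  have hEn : (Cfsg.layer G).Normal := layer_normal
  apply le_antisymm
  · apply sSup_le
    rintro N ⟨hN1, hNn, hNmin⟩
    have hFs : Cfsg.generalizedFittingSubgroup G = Cfsg.layer G := by
      unfold Cfsg.generalizedFittingSubgroup
      rw [hF, sup_bot_eq]
    rcases hNmin (N ⊓ Cfsg.layer G) inferInstance inf_le_left with h | h
    · exfalso
      apply hN1
      have h1 : ⁅N, Cfsg.layer G⁆ = ⊥ := by
        rw [eq_bot_iff, ← h]
        exact Subgroup.commutator_le_inf N (Cfsg.layer G)
      have h2 : N ≤ centralizer (Cfsg.layer G : Set G) := commutator_eq_bot_iff_le_centralizer.mp h1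
      have h3 := centralizer_genFitting_le (G := G)
      rw [hFs] at h3
      rw [eq_bot_iff, ← h]
      exact le_inf le_rfl (h2.trans h3)
    · exact h ▸ inf_le_right
  · apply sSup_le
    intro K hK
    have hZ : Subgroup.center ↥K = ⊥ := by
      rw [eq_bot_iff]
      intro z hz
      have h1 : (z : G) ∈ Cfsg.layer G ⊓ centralizer (Cfsg.layer G : Set G) := by
        refine ⟨IsComponent.le_layer hK z.2, ?_⟩
        have h2 : Cfsg.layer G ≤ centralizer ({(z : G)} : Set G) := by
          apply sSup_le
          intro L hL
          by_cases hLK : L = K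
          · subst hLK
            intro y hy
            rw [mem_centralizer_singleton_iff]
            exact congrArg Subtype.val (mem_center_iff.mp hz ⟨y, hy⟩)
          · have h3 := commutator_eq_bot_iff_le_centralizer.mp
              (IsComponent.commutator_eq_bot_of_ne hL hK hLK)
            intro y hy
            rw [mem_centralizer_singleton_iff]
            exact (mem_centralizer_iff.mp (h3 hy) z z.2).symm
        change (z : G) ∈ centralizer (Cfsg.layer G : Set G)
        rw [mem_centralizer_iff]
        intro y hy
        exact (mem_centralizer_singleton_iff.mp (h2 hy))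
      have h4 := Cfsg.Agent.Lib.Helper22.layer_inf_centralizer_le_fitting h1
      rw [hF, mem_bot] at h4
      rw [mem_bot]
      exact Subtype.ext h4
    obtain ⟨h1, h2⟩ := partA K hK hZ
    exact le_trans le_normalClosure
      (le_sSup (a := normalClosure (K : Set G)) ⟨h1, normalClosure_normal, fun N' hN' hle => h2 N' hN' hle⟩)

end Cfsg.Agent.S3747
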