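import Cfsg.Statements.S3748
import Cfsg.Agent.Lib.Helper62.Subnormal
import Cfsg.Agent.S0008
import Cfsg.Agent.S0064

set_option autoImplicit false
open Cfsg

namespace Cfsg.Agent.S3748

open Cfsg.Agent.Lib.Lead Cfsg.Agent.Lib.Helper62

/-- Call a proper subgroup M of G primitive when M = N_G(N) for every non-trivial normal subgroup N of M. If M is a primitive subgroup of the finite group G, then no non-trivial subnormal subgroup of G is contained in M; in particular M ∩ F(G) = 1. -/
theorem result {G : Type*} [Group G] [Finite G] (M : Subgroup G) (hM : M ≠ ⊤) (hprim : ∀ N : Subgroup G, N ≤ M → M ≤ Subgroup.normalizer (N : Set G) → N ≠ ⊥ → Subgroup.normalizer (N : Set G) = M) : (∀ L : Subgroup G, L.IsSubnormal → L ≤ M → L = ⊥) ∧ M ⊓ Cfsg.fittingSubgroup G = ⊥ := by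
  have key : ∀ L : Subgroup G, L.IsSubnormal → L ≤ M → L = ⊥ := by
    set 𝓛 : Set (Subgroup G) := {L | L.IsSubnormal ∧ L ≤ M} with h𝓛
    have hN : sSup 𝓛 ∈ 𝓛 := by
      apply sSup_mem_of_sup_closed
      · exact ⟨⊥, Subgroup.IsSubnormal.bot, bot_le⟩
      · rintro A ⟨hA1, hA2⟩ B ⟨hB1, hB2⟩
        exact ⟨isSubnormal_sup hA1 hB1, sup_le hA2 hB2⟩
    set N : Subgroup G := sSup 𝓛 with hNdef
    have hMN : M ≤ Subgroup.normalizer (N : Set G) := by
      apply le_normalizer_sSup_of_stable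
      rintro m hm L ⟨hL1, hL2⟩
      refine ⟨hL1.map (MulAut.conj m).surjective, ?_⟩
      rintro _ ⟨x, hx, rfl⟩
      exact M.mul_mem (M.mul_mem hm (hL2 hx)) (M.inv_mem hm)
    have hN0 : N = ⊥ := by
      by_contra hN0
      have hNM := hprim N hN.2 hMN hN0
      rcases Subgroup.IsSubnormal.iff_eq_top_or_exists.mp hN.1 with h | ⟨K, hNK, hK, hKn⟩
      · apply hM
        rw [← top_le_iff, ← h]
        exact hN.2
      · have h1 : K ≤ M := by
          rw [← hNM]
          exact (Subgroup.normal_subgroupOf_iff_le_normalizer hNK.le).mp hKn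
        have h2 : K ≤ N := le_sSup ⟨hK, h1⟩
        exact absurd hNK (not_lt_of_ge h2)
    intro L hL hLM
    have : L ≤ N := le_sSup ⟨hL, hLM⟩
    rw [hN0] at this
    exact le_bot_iff.mp this
  refine ⟨key, ?_⟩
  apply key _ _ inf_le_left
  have hFn : (Cfsg.fittingSubgroup G).Normal := Subgroup.sSup_normal _ (fun _ h => h.1)
  have hnil : Group.IsNilpotent ↥(Cfsg.fittingSubgroup G) := Cfsg.Agent.S0008.result
  have h1 := (Cfsg.Agent.S0064.result (G := ↥(Cfsg.fittingSubgroup G))).mp hnil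
    ((M ⊓ Cfsg.fittingSubgroup G).subgroupOf (Cfsg.fittingSubgroup G))
  exact Subgroup.IsSubnormal.trans inf_le_right h1 hFn.isSubnormal

end Cfsg.Agent.S3748
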