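import Cfsg.Statements.S3749
import Cfsg.Agent.Lib.Lead.Cores
import Cfsg.Agent.Lib.Helper62.Basic
import Cfsg.Agent.Lib.Helper62.Conj

set_option autoImplicit false
open Cfsg

namespace Cfsg.Agent.S3749

open Cfsg.Agent.Lib.Lead Cfsg.Agent.Lib.Helper62
open scoped Pointwise

/-- Call a proper subgroup M of G primitive when M = N_G(N) for every non-trivial normal subgroup N of M. Let M be a primitive subgroup of the finite group G, p a prime with O_p(M) ≠ 1, and N a normal subgroup of G with M ∩ N = 1. Then p does not divide the order of N; for every prime q there is exactly one Sylow q-subgroup of N normalized by M; and if the order of N has at least two prime divisors then M is not a maximal subgroup of G. -/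
theorem result {G : Type*} [Group G] [Finite G] (M : Subgroup G) (hM : M ≠ ⊤) (hprim : ∀ N : Subgroup G, N ≤ M → M ≤ Subgroup.normalizer (N : Set G) → N ≠ ⊥ → Subgroup.normalizer (N : Set G) = M) {p : ℕ} [Fact p.Prime] (hOp : Cfsg.pCore p ↥M ≠ ⊥) (N : Subgroup G) [N.Normal] (hMN : M ⊓ N = ⊥) : ¬ p ∣ Nat.card N ∧ (∀ q : ℕ, [Fact q.Prime] → ∃! Q : Sylow q ↥N, M ≤ Subgroup.normalizer ((Q : Subgroup ↥N).map N.subtype : Set G)) ∧ ((∃ q r : ℕ, q.Prime ∧ r.Prime ∧ q ≠ r ∧ q ∣ Nat.card N ∧ r ∣ Nat.card N) → ¬ IsCoatom M) := by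
  classical
  set P : Subgroup G := (pCore p ↥M).map M.subtype with hPdef
  have hPM : P ≤ M := Subgroup.map_subtype_le _
  have hPp : IsPGroup p P := (pCore_isPGroup p ↥M).map _
  have hPne : P ≠ ⊥ := by
    intro h
    exact hOp ((Subgroup.map_eq_bot_iff_of_injective _ M.subtype_injective).mp h)
  have hMP : M ≤ Subgroup.normalizer (P : Set G) := by
    rw [Subgroup.le_normalizer_iff]
    rintro m hm _ ⟨x, hx, rfl⟩
    exact ⟨⟨m, hm⟩ * x * ⟨m, hm⟩⁻¹, (pCore_normal p ↥M).conj_mem x hx ⟨m, hm⟩, rfl⟩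
  have hNP : Subgroup.normalizer (P : Set G) = M := hprim P hPM hMP hPne
  -- `P` acts fixed point freely on `N`
  have hfix : ∀ n ∈ N, (∀ g ∈ P, g * n * g⁻¹ = n) → n = 1 := by
    intro n hn h
    have h1 : n ∈ Subgroup.normalizer (P : Set G) :=
      centralizer_le_normalizer P (mem_centralizer_of_conj_eq h)
    have h2 : n ∈ M ⊓ N := Subgroup.mem_inf.mpr ⟨hNP ▸ h1, hn⟩
    rw [hMN] at h2
    exact h2
  let φ : ↥P →* MulAut ↥N := (MulAut.conjNormal (H := N)).comp P.subtype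
  let actN : MulAction ↥P ↥N := MulAction.compHom ↥N φ
  have hsmulN : ∀ (g : ↥P) (n : ↥N), ((g • n : ↥N) : G) = g * n * (g : G)⁻¹ := fun g n => rfl
  have hfix' : ∀ n : ↥N, (∀ g : ↥P, g • n = n) → n = 1 := by
    intro n h
    apply Subtype.ext
    apply hfix n n.2
    intro g hg
    have := congrArg Subtype.val (h ⟨g, hg⟩)
    rwa [hsmulN] at this
  -- (i)
  have hpN : ¬ p ∣ Nat.card N := by
    intro hdvd
    have h1 := hPp.card_modEq_card_fixedPoints ↥N
    have h2 : MulAction.fixedPoints ↥P ↥N = {1} := by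
      ext n
      simp only [MulAction.mem_fixedPoints, Set.mem_singleton_iff]
      constructor
      · exact hfix' n
      · rintro rfl g
        apply Subtype.ext
        rw [hsmulN]
        simp
    rw [h2] at h1
    have h3 : Nat.card ({1} : Set ↥N) = 1 := by simp
    rw [h3] at h1
    have h4 : Nat.card ↥N ≡ 0 [MOD p] := (Nat.modEq_zero_iff_dvd).mpr hdvd
    have h5 : 1 ≡ 0 [MOD p] := h1.symm.trans h4
    have h6 : p ∣ 1 := (Nat.modEq_zero_iff_dvd).mp h5
    exact (Fact.out : p.Prime).one_lt.ne' (Nat.dvd_one.mp h6)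
  -- (ii)
  have hii : ∀ q : ℕ, [Fact q.Prime] → ∃! Q : Sylow q ↥N, M ≤ Subgroup.normalizer ((Q : Subgroup ↥N).map N.subtype : Set G) := by
    intro q _
    let actS : MulAction ↥P (Sylow q ↥N) := MulAction.compHom (Sylow q ↥N) φ
    have hsmulS : ∀ (g : ↥P) (Q : Sylow q ↥N), g • Q = (MulAut.conjNormal (g : G) : MulAut ↥N) • Q :=
      fun g Q => rfl
    -- existence of a `P`-fixed Sylow subgroup
    have hcard : ¬ p ∣ Nat.card (Sylow q ↥N) := by
      intro h
      obtain ⟨Q⟩ : Nonempty (Sylow q ↥N) := inferInstance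
      exact hpN ((h.trans (Sylow.card_dvd_index Q)).trans (Subgroup.index_dvd_card _))
    obtain ⟨Q₀, hQ₀⟩ := hPp.nonempty_fixed_point_of_prime_not_dvd_card (Sylow q ↥N) hcard
    -- uniqueness of `P`-fixed Sylow subgroups
    have huniq : ∀ Q₁ Q₂ : Sylow q ↥N, (∀ g : ↥P, g • Q₁ = Q₁) → (∀ g : ↥P, g • Q₂ = Q₂) → Q₁ = Q₂ := by
      intro Q₁ Q₂ h₁ h₂
      obtain ⟨n₀, hn₀⟩ := MulAction.exists_smul_eq ↥N Q₁ Q₂
      let S : Set ↥N := {n | n • Q₁ = Q₂}
      have hSinv : ∀ g : ↥P, ∀ n ∈ S, g • n ∈ S := by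
        intro g n hn
        have hn' : n • Q₁ = Q₂ := hn
        show (g • n) • Q₁ = Q₂
        have h3 : (MulAut.conj (g • n) : MulAut ↥N) = φ g * MulAut.conj n * (φ g)⁻¹ := by
          ext x
          simp only [MulAut.conj_apply, MulAut.mul_apply, Subgroup.coe_mul, hsmulN, InvMemClass.coe_inv]
          have e1 : ∀ y : ↥N, ((φ g y : ↥N) : G) = g * y * (g : G)⁻¹ := fun y => rfl
          have e2 : ∀ y : ↥N, (((φ g)⁻¹ y : ↥N) : G) = (g : G)⁻¹ * y * g :=
            fun y => MulAut.conjNormal_inv_apply (g : G) y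
          rw [e1]
          simp only [Subgroup.coe_mul, InvMemClass.coe_inv, e2]
          group
        rw [Sylow.smul_def, h3, mul_smul, mul_smul]
        have h4 : (φ g)⁻¹ • Q₁ = Q₁ := by
          rw [inv_smul_eq_iff]
          exact (h₁ g).symm
        rw [h4, ← Sylow.smul_def, hn']
        exact h₂ g
      have hScard : Nat.card S = Nat.card (MulAction.stabilizer ↥N Q₁) := by
        apply Nat.card_congr
        refine ⟨fun n => ⟨n₀⁻¹ * n.1, ?_⟩, fun h => ⟨n₀ * h.1, ?_⟩, ?_, ?_⟩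
        · rw [MulAction.mem_stabilizer_iff, mul_smul]
          have : n.1 • Q₁ = Q₂ := n.2
          rw [this, inv_smul_eq_iff, hn₀]
        · show (n₀ * h.1) • Q₁ = Q₂
          rw [mul_smul, MulAction.mem_stabilizer_iff.mp h.2, hn₀]
        · intro n
          simp
        · intro h
          simp
      have hSp : ¬ p ∣ Nat.card S := by
        rw [hScard]
        intro h
        exact hpN (h.trans (Subgroup.card_subgroup_dvd_card _))
      obtain ⟨n, hnS, hnfix⟩ := exists_fixed_mem hPp S hSinv hSp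
      have hn1 := hfix' n hnfix
      subst hn1
      have : (1 : ↥N) • Q₁ = Q₂ := hnS
      rwa [one_smul] at this
    -- `Q₀` is `M`-invariant
    have hQ₀' : ∀ g : ↥P, g • Q₀ = Q₀ := hQ₀
    have hMQ₀ : ∀ m ∈ M, (MulAut.conjNormal m : MulAut ↥N) • Q₀ = Q₀ := by
      intro m hm
      apply huniq _ _ _ hQ₀'
      intro g
      rw [hsmulS, ← mul_smul, ← map_mul]
      have hg' : m⁻¹ * g * m⁻¹⁻¹ ∈ P :=
        (Subgroup.le_normalizer_iff.mp hMP) m⁻¹ (M.inv_mem hm) g g.2
      have : (g : G) * m = m * (m⁻¹ * g * m⁻¹⁻¹) := by group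
      rw [this, map_mul, mul_smul]
      congr 1
      exact hQ₀' ⟨_, hg'⟩
    refine ⟨Q₀, ?_, ?_⟩
    · intro m hm
      exact (conjNormal_smul_eq_iff N m Q₀).mp (hMQ₀ m hm)
    · intro Q hQ
      apply huniq _ _ _ hQ₀'
      intro g
      rw [hsmulS]
      exact (conjNormal_smul_eq_iff N (g : G) Q).mpr (hQ (hPM g.2))
  refine ⟨hpN, hii, ?_⟩
  -- (iii)
  rintro ⟨q, r, hq, hr, hqr, hqN, hrN⟩ hcoatom
  have : Fact q.Prime := ⟨hq⟩
  obtain ⟨Q, hQ, -⟩ := hii q
  set Q' : Subgroup G := (Q : Subgroup ↥N).map N.subtype with hQ'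
  have hQ'N : Q' ≤ N := Subgroup.map_subtype_le _
  have hQne : Q' ≠ ⊥ := by
    intro h
    have := (Subgroup.map_eq_bot_iff_of_injective _ N.subtype_injective).mp h
    exact Q.ne_bot_of_dvd_card hqN this
  have hlt : M < M ⊔ Q' := by
    refine lt_of_le_of_ne le_sup_left (fun h => hQne ?_)
    have h1 : Q' ≤ M := by rw [h]; exact le_sup_right
    have h2 : Q' ≤ M ⊓ N := le_inf h1 hQ'N
    rw [hMN] at h2
    exact le_bot_iff.mp h2
  have htop := hcoatom.2 _ hlt
  have hNQ : N ≤ Q' := by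
    intro n hn
    have hn' : n ∈ M ⊔ Q' := by rw [htop]; exact Subgroup.mem_top n
    obtain ⟨m, hm, x, hx, rfl⟩ := (mem_sup_of_le_normalizer hQ).mp hn'
    have hmN : m ∈ N := by
      have : m = (m * x) * x⁻¹ := by group
      rw [this]
      exact N.mul_mem hn (N.inv_mem (hQ'N hx))
    have : m ∈ M ⊓ N := Subgroup.mem_inf.mpr ⟨hm, hmN⟩
    rw [hMN, Subgroup.mem_bot] at this
    rw [this, one_mul]
    exact hx
  have hNeq : Q' = N := le_antisymm hQ'N hNQ
  have hcardQ : Nat.card Q' = Nat.card (Q : Subgroup ↥N) :=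
    Subgroup.card_map_of_injective N.subtype_injective
  obtain ⟨k, hk⟩ := (IsPGroup.iff_card).mp Q.isPGroup'
  rw [← hNeq, hcardQ, hk] at hrN
  have := (Nat.prime_dvd_prime_iff_eq hr hq).mp (hr.dvd_of_dvd_pow hrN)
  exact hqr this.symm

end Cfsg.Agent.S3749
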