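import Cfsg.Statements.S3750
import Cfsg.Agent.S3748
import Cfsg.Agent.Lib.Helper29.FStar
import Cfsg.Agent.Lib.Helper31.LocalLayer
import Cfsg.Agent.Lib.Helper62.Subnormal

set_option autoImplicit false
open Cfsg

namespace Cfsg.Agent.S3750

open Cfsg.Agent.Lib.Lead Cfsg.Agent.Lib.Helper62

/-- Call a proper subgroup M of G primitive when M = N_G(N) for every non-trivial normal subgroup N of M. Let M be a primitive subgroup of the finite group G and N a normal subgroup of G with M ∩ F*(N) ≠ 1. Then F(G) = 1 and F*(N) = F*(G) = E(G); in particular every minimal normal subgroup of G is contained in N. -/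
theorem result {G : Type*} [Group G] [Finite G] (M : Subgroup G) (hM : M ≠ ⊤) (hprim : ∀ N : Subgroup G, N ≤ M → M ≤ Subgroup.normalizer (N : Set G) → N ≠ ⊥ → Subgroup.normalizer (N : Set G) = M) (N : Subgroup G) [N.Normal] (hMF : M ⊓ (Cfsg.generalizedFittingSubgroup ↥N).map N.subtype ≠ ⊥) : Cfsg.fittingSubgroup G = ⊥ ∧ (Cfsg.generalizedFittingSubgroup ↥N).map N.subtype = Cfsg.generalizedFittingSubgroup G ∧ Cfsg.generalizedFittingSubgroup G = Cfsg.layer G ∧ ∀ K : Subgroup G, K.Normal → K ≠ ⊥ → (∀ K' : Subgroup G, K'.Normal → K' ≤ K → K' = ⊥ ∨ K' = K) → K ≤ N := by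
  have hNn : N.Normal := inferInstance
  set FN : Subgroup G := (Cfsg.generalizedFittingSubgroup ↥N).map N.subtype with hFN
  have hFNn : FN.Normal := by
    have := Cfsg.Agent.Lib.Helper29.generalizedFittingSubgroup_characteristic ↥N
    exact normal_map_subtype_of_characteristic N _
  have hFNle : FN ≤ N := Subgroup.map_subtype_le _
  -- the centralizer of `F*(N)` is trivial
  have hC : Subgroup.centralizer (FN : Set G) = ⊥ := by
    have hCn : (Subgroup.centralizer (FN : Set G)).Normal := inferInstance
    apply (Cfsg.Agent.S3748.result M hM hprim).1 _ hCn.isSubnormal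
    have hD : M ≤ Subgroup.normalizer ((M ⊓ FN : Subgroup G) : Set G) := by
      apply le_normalizer_inf Subgroup.le_normalizer
      rw [Subgroup.normalizer_eq_top_iff.mpr hFNn]
      exact le_top
    rw [← hprim _ inf_le_left hD hMF]
    refine le_trans ?_ (centralizer_le_normalizer _)
    exact Subgroup.centralizer_le inf_le_right
  have hEN : (Cfsg.layer ↥N).map N.subtype ≤ Cfsg.layer G := by
    rw [Subgroup.map_le_iff_le_comap]
    apply sSup_le
    intro K hK
    rw [← Subgroup.map_le_iff_le_comap]
    exact le_sSup ((Cfsg.Agent.Lib.Helper31.isComponent_map_subtype_iff hNn.isSubnormal K).mp hK)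
  have hFGn : (Cfsg.fittingSubgroup G).Normal := Cfsg.Agent.Lib.Helper29.fittingSubgroup_normal G
  have hFGnil : Group.IsNilpotent ↥(Cfsg.fittingSubgroup G) := Cfsg.Agent.S0008.result
  have hFNN : (Cfsg.fittingSubgroup ↥N).map N.subtype ≤ Cfsg.fittingSubgroup G := by
    apply Cfsg.Agent.Lib.Helper29.le_fittingSubgroup
    · have := Cfsg.Agent.Lib.Helper29.fittingSubgroup_characteristic ↥N
      exact normal_map_subtype_of_characteristic N _
    · have h : Group.IsNilpotent ↥(Cfsg.fittingSubgroup ↥N) := Cfsg.Agent.S0008.result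
      exact (Group.isNilpotent_congr
        ((Cfsg.fittingSubgroup ↥N).equivMapOfInjective N.subtype N.subtype_injective)).mp h
  have hFG : Cfsg.fittingSubgroup G = ⊥ := by
    by_contra hne
    have hnt : Nontrivial ↥(Cfsg.fittingSubgroup G) :=
      (Subgroup.nontrivial_iff_ne_bot _).mpr hne
    apply Group.IsNilpotent.center_ne_bot (G := ↥(Cfsg.fittingSubgroup G))
    have hZ : (Subgroup.center ↥(Cfsg.fittingSubgroup G)).map (Cfsg.fittingSubgroup G).subtype
        ≤ Subgroup.centralizer (FN : Set G) := by
      rw [Subgroup.le_centralizer_iff, hFN]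
      unfold Cfsg.generalizedFittingSubgroup
      rw [Subgroup.map_sup]
      apply sup_le
      · refine hEN.trans ((Cfsg.Agent.Lib.Helper31.layer_le_centralizer_of_isSolvable hFGn
          inferInstance).trans ?_)
        exact Subgroup.centralizer_le (Subgroup.map_subtype_le _)
      · refine hFNN.trans ?_
        intro x hx
        rw [Subgroup.mem_centralizer_iff]
        rintro _ ⟨z, hz, rfl⟩
        have := Subgroup.mem_center_iff.mp hz ⟨x, hx⟩
        exact (congrArg Subtype.val this).symm
    rw [hC, le_bot_iff] at hZ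
    exact (Subgroup.map_eq_bot_iff_of_injective _ (Subgroup.subtype_injective _)).mp hZ
  have hcN : Subgroup.centralizer (N : Set G) = ⊥ := by
    rw [← le_bot_iff, ← hC]
    exact Subgroup.centralizer_le hFNle
  have hEG : Cfsg.layer G ≤ (Cfsg.layer ↥N).map N.subtype := by
    apply sSup_le
    intro L hL
    rcases Cfsg.Agent.Lib.Helper31.IsComponent.le_or_commutator_eq_bot hL hNn.isSubnormal with h | h
    · rw [← Subgroup.map_subgroupOf_eq_of_le h]
      apply Subgroup.map_mono
      exact le_sSup ((Cfsg.Agent.Lib.Helper31.isComponent_subgroupOf_iff hNn.isSubnormal h).mpr hL)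
    · exfalso
      apply Cfsg.Agent.Lib.Helper31.IsComponent.ne_bot hL
      rw [Subgroup.commutator_eq_bot_iff_le_centralizer, hcN, le_bot_iff] at h
      exact h
  have hFNN0 : (Cfsg.fittingSubgroup ↥N).map N.subtype = ⊥ := by
    rw [← le_bot_iff, ← hFG]
    exact hFNN
  have h3 : Cfsg.generalizedFittingSubgroup G = Cfsg.layer G := by
    unfold Cfsg.generalizedFittingSubgroup
    rw [hFG, sup_bot_eq]
  refine ⟨hFG, ?_, h3, ?_⟩
  · rw [h3, hFN]
    unfold Cfsg.generalizedFittingSubgroup
    rw [Subgroup.map_sup, hFNN0, sup_bot_eq]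
    exact le_antisymm hEN hEG
  · intro K hK hK0 hmin
    have hKN : (K ⊓ N).Normal := inferInstance
    rcases hmin _ hKN inf_le_left with h | h
    · exfalso
      apply hK0
      rw [← le_bot_iff, ← hcN]
      apply le_centralizer_of_inf_eq_bot _ _ h
      · rw [Subgroup.normalizer_eq_top_iff.mpr hNn]
        exact le_top
      · rw [Subgroup.normalizer_eq_top_iff.mpr hK]
        exact le_top
    · rw [← h]
      exact inf_le_right

end Cfsg.Agent.S3750
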