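import Cfsg.Statements.S3751
import Cfsg.Agent.Lib.Helper62.Local

set_option autoImplicit false
open Cfsg

namespace Cfsg.Agent.S3751

open Cfsg.Agent.Lib.Lead Cfsg.Agent.Lib.Helper62

variable {G : Type*} [Group G]

/-- `p`-local subgroups -/
def Loc (p : ℕ) (L : Subgroup G) : Prop :=
  ∃ T : Subgroup G, IsPGroup p T ∧ T ≠ ⊥ ∧ L = Subgroup.normalizer (T : Set G)

/-- maximal `p`-local subgroups -/
def MaxLoc (p : ℕ) (M : Subgroup G) : Prop :=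
  Loc p M ∧ ∀ L : Subgroup G, Loc p L → M ≤ L → L = M

theorem char_of_loc {p : ℕ} (hloc : Cfsg.IsOfLocalCharacteristic p G) {L : Subgroup G}
    (hL : Loc p L) : Subgroup.centralizer (pCore p ↥L : Set ↥L) ≤ pCore p ↥L := by
  obtain ⟨T, hT, hT0, rfl⟩ := hL
  exact hloc.2 T hT hT0

theorem normalizer_eq {p : ℕ} (hloc : Cfsg.IsOfLocalCharacteristic p G) {M A : Subgroup G}
    (hM : MaxLoc p M) (hA0 : A ≠ ⊥) (hAM : A ≤ M) (hMA : M ≤ Subgroup.normalizer (A : Set G)) :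
    Subgroup.normalizer (A : Set G) = M := by
  set B : Subgroup G := (pCore p ↥A).map A.subtype with hBdef
  have hB0 : B ≠ ⊥ := by
    intro hB
    set Q : Subgroup G := (pCore p ↥M).map M.subtype with hQdef
    have hAQ : A ⊓ Q = ⊥ := by
      have h1 : A ⊓ Q ≤ B :=
        le_pCore_map_subtype inf_le_left
          (le_normalizer_inf Subgroup.le_normalizer (hAM.trans (le_normalizer_pCore p M)))
          ((pCore_map_subtype_isPGroup p M).to_inf_right)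
      rw [hB] at h1
      exact le_bot_iff.mp h1
    have hcomm : ∀ a ∈ A, ∀ y ∈ Q, y * a = a * y := by
      intro a ha y hy
      have h1 : a * y * a⁻¹ * y⁻¹ ∈ A ⊓ Q := by
        refine Subgroup.mem_inf.mpr ⟨?_, ?_⟩
        · have h2 : y * a⁻¹ * y⁻¹ ∈ A :=
            (Subgroup.le_normalizer_iff.mp hMA) y (pCore_map_subtype_le p M hy) a⁻¹ (A.inv_mem ha)
          have e : a * y * a⁻¹ * y⁻¹ = a * (y * a⁻¹ * y⁻¹) := by group
          rw [e]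
          exact A.mul_mem ha h2
        · have h2 : a * y * a⁻¹ ∈ Q :=
            (Subgroup.le_normalizer_iff.mp (le_normalizer_pCore p M)) a (hAM ha) y hy
          exact Q.mul_mem h2 (Q.inv_mem hy)
      rw [hAQ, Subgroup.mem_bot] at h1
      calc y * a = (a * y * a⁻¹ * y⁻¹)⁻¹ * (a * y) := by group
        _ = a * y := by rw [h1]; simp
    have hAQ' : A ≤ Q := by
      intro a ha
      have h1 : (⟨a, hAM ha⟩ : ↥M) ∈ Subgroup.centralizer (pCore p ↥M : Set ↥M) := by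
        rw [Subgroup.mem_centralizer_iff]
        intro y hy
        apply Subtype.ext
        exact hcomm a ha y ⟨y, hy, rfl⟩
      exact ⟨⟨a, hAM ha⟩, char_of_loc hloc hM.1 h1, rfl⟩
    apply hA0
    rw [← le_bot_iff, ← hAQ]
    exact le_inf le_rfl hAQ'
  have hLoc : Loc p (Subgroup.normalizer (B : Set G)) :=
    ⟨B, pCore_map_subtype_isPGroup p A, hB0, rfl⟩
  have h1 : Subgroup.normalizer (A : Set G) ≤ Subgroup.normalizer (B : Set G) :=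
    normalizer_le_normalizer_pCore p A
  have h2 := hM.2 _ hLoc (hMA.trans h1)
  exact le_antisymm (h1.trans h2.le) hMA

theorem exists_maxLoc_ge [Finite G] {p : ℕ} {L : Subgroup G} (hL : Loc p L) :
    ∃ M : Subgroup G, MaxLoc p M ∧ L ≤ M := by
  have hne : {M : Subgroup G | Loc p M ∧ L ≤ M}.Nonempty := ⟨L, hL, le_rfl⟩
  obtain ⟨M, hM, hMmax⟩ := (wellFounded_gt (α := Subgroup G)).has_min _ hne
  refine ⟨M, ⟨hM.1, ?_⟩, hM.2⟩
  intro L' hL' hML'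
  by_contra hne'
  exact hMmax L' ⟨hL', hM.2.trans hML'⟩ (lt_of_le_of_ne hML' (Ne.symm hne'))

theorem loc_conj {p : ℕ} {L : Subgroup G} (hL : Loc p L) (g : G) :
    Loc p (L.map (MulAut.conj g).toMonoidHom) := by
  obtain ⟨T, hT, hT0, rfl⟩ := hL
  refine ⟨T.map (MulAut.conj g).toMonoidHom, hT.map _, ?_, (normalizer_map_conj g T).symm⟩
  intro h
  exact hT0 ((Subgroup.map_eq_bot_iff_of_injective _ (MulAut.conj g).injective).mp h)

theorem maxLoc_conj {p : ℕ} {M : Subgroup G} (hM : MaxLoc p M) (g : G) :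
    MaxLoc p (M.map (MulAut.conj g).toMonoidHom) := by
  refine ⟨loc_conj hM.1 g, ?_⟩
  intro L hL hML
  have h1 := hM.2 _ (loc_conj hL g⁻¹) ((map_conj_le_iff g M L).mp hML)
  rw [← h1, map_conj_map_conj_inv]

theorem final {p : ℕ} (hloc : Cfsg.IsOfLocalCharacteristic p G) {M₁ M₂ : Subgroup G}
    (h₁ : MaxLoc p M₁) (h₂ : MaxLoc p M₂) (hne : M₁ ≠ M₂)
    (h12 : (pCore p ↥M₁).map M₁.subtype ≤ M₂) (h21 : (pCore p ↥M₂).map M₂.subtype ≤ M₁) :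
    M₁ ≠ M₂ ∧ (∀ A : Subgroup G, A ≠ ⊥ → A ≤ M₁ ⊓ M₂ → (M₁ ≤ Subgroup.normalizer (A : Set G) → M₂ ⊓ Subgroup.normalizer (A : Set G) = M₁ ⊓ M₂) ∧ (M₂ ≤ Subgroup.normalizer (A : Set G) → M₁ ⊓ Subgroup.normalizer (A : Set G) = M₁ ⊓ M₂)) ∧ Subgroup.centralizer (Cfsg.pCore p ↥M₁ : Set ↥M₁) ≤ Cfsg.pCore p ↥M₁ ∧ Subgroup.centralizer (Cfsg.pCore p ↥M₂ : Set ↥M₂) ≤ Cfsg.pCore p ↥M₂ ∧ (Cfsg.pCore p ↥M₁).map M₁.subtype ⊔ (Cfsg.pCore p ↥M₂).map M₂.subtype ≤ M₁ ⊓ M₂ := by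
  refine ⟨hne, ?_, char_of_loc hloc h₁.1, char_of_loc hloc h₂.1, ?_⟩
  · intro A hA0 hA
    constructor
    · intro h
      rw [normalizer_eq hloc h₁ hA0 (hA.trans inf_le_left) h, inf_comm]
    · intro h
      rw [normalizer_eq hloc h₂ hA0 (hA.trans inf_le_right) h]
  · exact sup_le (le_inf (pCore_map_subtype_le p M₁) h12) (le_inf h21 (pCore_map_subtype_le p M₂))

theorem case2 [Finite G] {p : ℕ} [Fact p.Prime] (hloc : Cfsg.IsOfLocalCharacteristic p G)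
    {M₁ M₂ T : Subgroup G} (h₁ : MaxLoc p M₁) (h₂ : MaxLoc p M₂) (hne : M₁ ≠ M₂)
    (hT : IsPGroup p T) (hT0 : T ≠ ⊥) (hTM₁ : T ≤ M₁) (hTM₂ : T ≤ M₂)
    (MP : ∀ M₁' M₂' T' : Subgroup G, MaxLoc p M₁' → MaxLoc p M₂' → M₁' ≠ M₂' → IsPGroup p T' →
      T' ≤ M₁' → T' ≤ M₂' → Nat.card T' ≤ Nat.card T)
    (hnot : ¬ (∀ T' : Subgroup G, IsPGroup p T' → T ≤ T' → T' ≤ M₁ → T' = T)) :
    ∃ M₁' M₂' : Subgroup G, MaxLoc p M₁' ∧ MaxLoc p M₂' ∧ M₁' ≠ M₂' ∧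
      (pCore p ↥M₁').map M₁'.subtype ≤ M₂' ∧ (pCore p ↥M₂').map M₂'.subtype ≤ M₁' := by
  push Not at hnot
  obtain ⟨T', hT'p, hTT', hT'M, hne'⟩ := hnot
  have hlt : T < T' := lt_of_le_of_ne hTT' (Ne.symm hne')
  obtain ⟨x, hxT', hxN, hxT⟩ := exists_mem_normalizer_not_mem hT'p hlt
  set T₁ : Subgroup G := T ⊔ Subgroup.zpowers x with hT₁
  have hT₁T' : T₁ ≤ T' := sup_le hTT' (Subgroup.zpowers_le.mpr hxT')
  have hT₁p : IsPGroup p T₁ := hT'p.to_le hT₁T'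
  have hbig : ∀ M₁' M₂' : Subgroup G, MaxLoc p M₁' → MaxLoc p M₂' → T₁ ≤ M₁' → T₁ ≤ M₂' →
      M₁' = M₂' := by
    intro M₁' M₂' h₁' h₂' hl hr
    by_contra hne''
    have h3 := MP M₁' M₂' T₁ h₁' h₂' hne'' hT₁p hl hr
    have h4 : T = T₁ := Subgroup.eq_of_le_of_card_ge le_sup_left h3
    exact hxT (h4 ▸ Subgroup.mem_sup_right (Subgroup.mem_zpowers x))
  obtain ⟨M₃, hM₃, hNM₃⟩ := exists_maxLoc_ge (p := p) ⟨T, hT, hT0, rfl⟩
  have hT₁N : T₁ ≤ Subgroup.normalizer (T : Set G) :=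
    sup_le Subgroup.le_normalizer (Subgroup.zpowers_le.mpr hxN)
  have hM₃₁ : M₃ = M₁ := hbig M₃ M₁ hM₃ h₁ (hT₁N.trans hNM₃) (hT₁T'.trans hT'M)
  have hNM₁ : Subgroup.normalizer (T : Set G) ≤ M₁ := hM₃₁ ▸ hNM₃
  have hmax₂ : ∀ T'' : Subgroup G, IsPGroup p T'' → T ≤ T'' → T'' ≤ M₂ → T'' = T := by
    intro T'' hp hle hM
    by_contra hne''
    obtain ⟨y, hyT'', hyN, hyT⟩ :=
      exists_mem_normalizer_not_mem hp (lt_of_le_of_ne hle (Ne.symm hne''))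
    have h1 : T ⊔ Subgroup.zpowers y ≤ M₁ := sup_le hTM₁ (Subgroup.zpowers_le.mpr (hNM₁ hyN))
    have h1' : T ⊔ Subgroup.zpowers y ≤ M₂ := sup_le hTM₂ (Subgroup.zpowers_le.mpr (hM hyT''))
    have h2 : IsPGroup p ↥(T ⊔ Subgroup.zpowers y) :=
      hp.to_le (sup_le hle (Subgroup.zpowers_le.mpr hyT''))
    have h3 := MP M₁ M₂ _ h₁ h₂ hne h2 h1 h1'
    have h4 : T = T ⊔ Subgroup.zpowers y := Subgroup.eq_of_le_of_card_ge le_sup_left h3
    exact hyT (h4 ▸ Subgroup.mem_sup_right (Subgroup.mem_zpowers y))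
  have hO₂ : (pCore p ↥M₂).map M₂.subtype ≤ T := pCore_map_subtype_le_of_maximal hT hTM₂ hmax₂
  have hxM₂ : x ∉ M₂ := by
    intro hx
    exact hne (hbig M₁ M₂ h₁ h₂ (hT₁T'.trans hT'M) (sup_le hTM₂ (Subgroup.zpowers_le.mpr hx)))
  have hM₂0 : M₂ ≠ ⊥ := by
    intro h
    rw [h] at hTM₂
    exact hT0 (le_bot_iff.mp hTM₂)
  have hTx : T.map (MulAut.conj x).toMonoidHom = T := map_conj_eq_of_mem_normalizer hxN
  refine ⟨M₂, M₂.map (MulAut.conj x).toMonoidHom, h₂, maxLoc_conj h₂ x, ?_, ?_, ?_⟩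
  · intro heq
    have h1 : x ∈ Subgroup.normalizer (M₂ : Set G) :=
      Subgroup.mem_normalizer_iff_map_conj_eq.mpr heq.symm
    rw [normalizer_eq hloc h₂ hM₂0 le_rfl Subgroup.le_normalizer] at h1
    exact hxM₂ h1
  · calc (pCore p ↥M₂).map M₂.subtype ≤ T := hO₂
      _ = T.map (MulAut.conj x).toMonoidHom := hTx.symm
      _ ≤ M₂.map (MulAut.conj x).toMonoidHom := Subgroup.map_mono hTM₂
  · rw [← pCore_map_subtype_map_equiv p (MulAut.conj x) M₂]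
    calc ((pCore p ↥M₂).map M₂.subtype).map (MulAut.conj x).toMonoidHom
        ≤ T.map (MulAut.conj x).toMonoidHom := Subgroup.map_mono hO₂
      _ = T := hTx
      _ ≤ M₂ := hTM₂

/-- Two distinct subgroups M₁, M₂ of G form a primitive pair when, for {i, j} = {1, 2}, every non-trivial normal subgroup A of M_i contained in M₁ ∩ M₂ satisfies N_{M_j}(A) = M₁ ∩ M₂; the pair has characteristic p when moreover C_{M_i}(O_p(M_i)) ≤ O_p(M_i) for both i and O_p(M₁)O_p(M₂) ≤ M₁ ∩ M₂. Let G be a finite group, p a prime dividing its order, with O_p(G) = 1 and every p-local subgroup of characteristic p. Then either G has a primitive pair of characteristic p, or every maximal p-local subgroup M of G is strongly p-embedded in G: M is a proper subgroup, p divides its order, and for every g ∉ M the order of M ∩ gMg⁻¹ is prime to p. -/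
theorem result {G : Type*} [Group G] [Finite G] {p : ℕ} [Fact p.Prime] (hloc : Cfsg.IsOfLocalCharacteristic p G) (hOp : Cfsg.pCore p G = ⊥) : (∃ M₁ M₂ : Subgroup G, M₁ ≠ M₂ ∧ (∀ A : Subgroup G, A ≠ ⊥ → A ≤ M₁ ⊓ M₂ → (M₁ ≤ Subgroup.normalizer (A : Set G) → M₂ ⊓ Subgroup.normalizer (A : Set G) = M₁ ⊓ M₂) ∧ (M₂ ≤ Subgroup.normalizer (A : Set G) → M₁ ⊓ Subgroup.normalizer (A : Set G) = M₁ ⊓ M₂)) ∧ Subgroup.centralizer (Cfsg.pCore p ↥M₁ : Set ↥M₁) ≤ Cfsg.pCore p ↥M₁ ∧ Subgroup.centralizer (Cfsg.pCore p ↥M₂ : Set ↥M₂) ≤ Cfsg.pCore p ↥M₂ ∧ (Cfsg.pCore p ↥M₁).map M₁.subtype ⊔ (Cfsg.pCore p ↥M₂).map M₂.subtype ≤ M₁ ⊓ M₂) ∨ (∀ M : Subgroup G, (∃ T : Subgroup G, IsPGroup p T ∧ T ≠ ⊥ ∧ M = Subgroup.normalizer (T : Set G)) → (∀ L : Subgroup G, (∃ T : Subgroup G, IsPGroup p T ∧ T ≠ ⊥ ∧ L = Subgroup.normalizer (T : Set G)) → M ≤ L → L = M) → M ≠ ⊤ ∧ p ∣ Nat.card M ∧ ∀ g : G, g ∉ M →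 ¬ p ∣ Nat.card ↥(M ⊓ M.map (MulAut.conj g).toMonoidHom)) := by
  classical
  rw [or_iff_not_imp_right]
  intro hbad
  push Not at hbad
  obtain ⟨M, hMloc, hMmax, hM⟩ := hbad
  have hMM : MaxLoc p M := ⟨hMloc, hMmax⟩
  obtain ⟨T₀, hT₀p, hT₀0, hMT₀⟩ := hMloc
  have hMtop : M ≠ ⊤ := by
    intro h
    rw [hMT₀, Subgroup.normalizer_eq_top_iff] at h
    have := le_pCore h hT₀p
    rw [hOp] at this
    exact hT₀0 (le_bot_iff.mp this)
  have hT₀M : T₀ ≤ M := hMT₀ ▸ Subgroup.le_normalizer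
  have hpM : p ∣ Nat.card M := by
    rcases hT₀p.card_eq_or_dvd with h | h
    · exact absurd (Subgroup.card_eq_one.mp h) hT₀0
    · exact h.trans (Subgroup.card_dvd_of_le hT₀M)
  obtain ⟨g, hgM, hg⟩ := hM hMtop hpM
  have hM0 : M ≠ ⊥ := by
    intro h
    rw [h] at hT₀M
    exact hT₀0 (le_bot_iff.mp hT₀M)
  have hMg : M ≠ M.map (MulAut.conj g).toMonoidHom := by
    intro heq
    have h1 : g ∈ Subgroup.normalizer (M : Set G) :=
      Subgroup.mem_normalizer_iff_map_conj_eq.mpr heq.symm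
    rw [normalizer_eq hloc hMM hM0 le_rfl Subgroup.le_normalizer] at h1
    exact hgM h1
  -- a nontrivial `p`-subgroup of the intersection
  obtain ⟨P⟩ : Nonempty (Sylow p ↥(M ⊓ M.map (MulAut.conj g).toMonoidHom)) := inferInstance
  set T₁ : Subgroup G := (P : Subgroup _).map (M ⊓ M.map (MulAut.conj g).toMonoidHom).subtype with hT₁
  have hT₁p : IsPGroup p T₁ := P.isPGroup'.map _
  have hT₁0 : T₁ ≠ ⊥ := by
    intro h
    exact P.ne_bot_of_dvd_card hg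
      ((Subgroup.map_eq_bot_iff_of_injective _ (Subgroup.subtype_injective _)).mp h)
  have hT₁le : T₁ ≤ M ⊓ M.map (MulAut.conj g).toMonoidHom := Subgroup.map_subtype_le _
  -- choose a maximal configuration
  let S : Set (Subgroup G × Subgroup G × Subgroup G) :=
    {t | MaxLoc p t.1 ∧ MaxLoc p t.2.1 ∧ t.1 ≠ t.2.1 ∧ IsPGroup p t.2.2 ∧ t.2.2 ≤ t.1 ∧ t.2.2 ≤ t.2.1}
  have hSne : S.Nonempty :=
    ⟨(M, M.map (MulAut.conj g).toMonoidHom, T₁), hMM, maxLoc_conj hMM g, hMg, hT₁p,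
      hT₁le.trans inf_le_left, hT₁le.trans inf_le_right⟩
  obtain ⟨⟨M₁, M₂, T⟩, ⟨h₁, h₂, hne, hTp, hTM₁, hTM₂⟩, hmax⟩ :=
    Set.exists_max_image S (fun t => Nat.card t.2.2) (Set.toFinite S) hSne
  simp only at h₁ h₂ hne hTp hTM₁ hTM₂
  have MP : ∀ M₁' M₂' T' : Subgroup G, MaxLoc p M₁' → MaxLoc p M₂' → M₁' ≠ M₂' → IsPGroup p T' →
      T' ≤ M₁' → T' ≤ M₂' → Nat.card T' ≤ Nat.card T := by
    intro M₁' M₂' T' a b c d e f
    exact hmax (M₁', M₂', T') ⟨a, b, c, d, e, f⟩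
  have hT0 : T ≠ ⊥ := by
    intro h
    have h1 := MP _ _ T₁ hMM (maxLoc_conj hMM g) hMg hT₁p (hT₁le.trans inf_le_left)
      (hT₁le.trans inf_le_right)
    rw [h, Subgroup.card_bot] at h1
    have h2 : Nat.card T₁ = 1 := le_antisymm h1 Nat.card_pos
    exact hT₁0 (Subgroup.card_eq_one.mp h2)
  have key : ∃ M₁' M₂' : Subgroup G, MaxLoc p M₁' ∧ MaxLoc p M₂' ∧ M₁' ≠ M₂' ∧
      (pCore p ↥M₁').map M₁'.subtype ≤ M₂' ∧ (pCore p ↥M₂').map M₂'.subtype ≤ M₁' := by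
    by_cases hm₁ : ∀ T' : Subgroup G, IsPGroup p T' → T ≤ T' → T' ≤ M₁ → T' = T
    · by_cases hm₂ : ∀ T' : Subgroup G, IsPGroup p T' → T ≤ T' → T' ≤ M₂ → T' = T
      · exact ⟨M₁, M₂, h₁, h₂, hne,
          (pCore_map_subtype_le_of_maximal hTp hTM₁ hm₁).trans hTM₂,
          (pCore_map_subtype_le_of_maximal hTp hTM₂ hm₂).trans hTM₁⟩
      · exact case2 hloc h₂ h₁ hne.symm hTp hT0 hTM₂ hTM₁ MP hm₂
    · exact case2 hloc h₁ h₂ hne hTp hT0 hTM₁ hTM₂ MP hm₁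
  obtain ⟨M₁', M₂', a, b, c, d, e⟩ := key
  exact ⟨M₁', M₂', final hloc a b c d e⟩

end Cfsg.Agent.S3751
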