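-- Statement S3754 (row 3754), proved by helper61.
import Cfsg.Statements.S3754
import Cfsg.Agent.Lib.Helper22.Generation
import Cfsg.Agent.Lib.Helper47.Frat2
import Cfsg.Agent.Lib.Helper47.Misc
import Cfsg.Agent.Lib.Helper48.PSolvDual
import Cfsg.Agent.Lib.Helper10.Card

set_option autoImplicit false
open Cfsg

namespace Cfsg.Agent.S3754

open Subgroup Cfsg.Agent.Lib.Helper47
open scoped commutatorElement

theorem eq_one_of_coprime_of_pow {H : Type*} [Group H] {p : ℕ} {K : Subgroup H} [Finite K]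
    (hK : (Nat.card K).Coprime p) {y : H} (hy : y ∈ K) {n : ℕ} (h : y ^ (p ^ n) = 1) : y = 1 := by
  have h1 : orderOf y ∣ Nat.card K := by
    have := orderOf_dvd_natCard (⟨y, hy⟩ : K)
    rwa [Subgroup.orderOf_mk] at this
  have h3 : orderOf y ∣ p ^ n := orderOf_dvd_of_pow_eq_one h
  exact orderOf_eq_one_iff.mp (Nat.eq_one_of_dvd_coprimes (hK.pow_right n) h1 h3)

theorem core {M Mb : Type*} [Group M] [Finite M] [Group Mb] [Finite Mb] {p : ℕ} [hp : Fact p.Prime]
    (π : M →* Mb) (hπ : Function.Surjective π) (hker : IsPGroup p π.ker) (K : Subgroup Mb)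
    [hKn : K.Normal] (hKp : (Nat.card K).Coprime p) (hCK : centralizer (K : Set Mb) ≤ K)
    (A : Subgroup M) (hA : IsPGroup p A) (hAc : ∀ a ∈ A, ∀ b ∈ A, π a * π b = π b * π a)
    (hAp : ∀ a ∈ A, π a ^ p = 1) (hnot : ¬ A ≤ π.ker) :
    ∃ x ∈ K.comap π,
      x ∈ pResOf p (A ⊔ A.map (MulAut.conj x).toMonoidHom) ∧
      pResOf p (A ⊔ A.map (MulAut.conj x).toMonoidHom) ≤ K.comap π ∧
      ⁅pResOf p (A ⊔ A.map (MulAut.conj x).toMonoidHom), A⁆ =
        pResOf p (A ⊔ A.map (MulAut.conj x).toMonoidHom) ∧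
      (A ⊓ pCoreOf p (A ⊔ A.map (MulAut.conj x).toMonoidHom)).relIndex A = p ∧
      ⁅A ⊓ pCoreOf p (A ⊔ A.map (MulAut.conj x).toMonoidHom),
        A ⊔ A.map (MulAut.conj x).toMonoidHom⁆ ≤ π.ker := by
  set Ab := A.map π with hAb
  have hAbc : ∀ x ∈ Ab, ∀ y ∈ Ab, x * y = y * x := by
    rintro _ ⟨a, ha, rfl⟩ _ ⟨b, hb, rfl⟩
    exact hAc a ha b hb
  have hAbp : ∀ x ∈ Ab, x ^ p = 1 := by
    rintro _ ⟨a, ha, rfl⟩
    exact hAp a ha
  have hnotc : ¬ K ≤ centralizer (Ab : Set Mb) := by
    intro h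
    rw [le_centralizer_iff] at h
    apply hnot
    intro a ha
    rw [MonoidHom.mem_ker]
    have h1 : π a ∈ K := hCK (h (mem_map_of_mem π ha))
    exact eq_one_of_coprime_of_pow (n := 1) hKp h1 (by rw [pow_one]; exact hAp a ha)
  have hgen := Cfsg.Agent.Lib.Helper22.eq_iSup_centralizer_hyperplane (p := p) Ab K hAbc hAbp
    (by rw [← Nat.Prime.coprime_iff_not_dvd hp.out]; exact hKp.symm) le_normalizer_of_normal
  obtain ⟨⟨Bb, hBle, hBidx⟩, hB⟩ : ∃ B : {B : Subgroup Mb // B ≤ Ab ∧ B.relIndex Ab ≤ p},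
      ¬ K ⊓ centralizer ((B : Subgroup Mb) : Set Mb) ≤ centralizer (Ab : Set Mb) := by
    by_contra hall
    push Not at hall
    apply hnotc
    rw [hgen]
    exact iSup_le hall
  simp only at hB
  have hBne : Bb ≠ Ab := by
    rintro rfl
    exact hB inf_le_right
  have hAbP : IsPGroup p Ab := hA.map π
  have hidx : Bb.relIndex Ab = p := by
    obtain ⟨m, hm⟩ := hAbP.index (Bb.subgroupOf Ab)
    have hm' : Bb.relIndex Ab = p ^ m := hm
    have h1 : Bb.relIndex Ab ≠ 1 := by
      intro h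
      exact hBne (le_antisymm hBle (relIndex_eq_one.mp h))
    rw [hm'] at h1 hBidx ⊢
    rcases m with _ | _ | m
    · simp at h1
    · simp
    · exfalso
      have h2 : p ^ 2 ≤ p ^ (m + 1 + 1) := Nat.pow_le_pow_right hp.out.pos (by omega)
      have h3 : p < p ^ 2 := by
        have := hp.out.one_lt
        nlinarith
      omega
  -- the admissible elements
  let Lf : M → Subgroup M := fun x => A ⊔ A.map (MulAut.conj x).toMonoidHom
  let Adm : Set M := {x | π x ∈ K ⊓ centralizer (Bb : Set Mb) ∧ π x ∉ centralizer (Ab : Set Mb)}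
  have hAdmne : Adm.Nonempty := by
    obtain ⟨k, hk, hkA⟩ := SetLike.not_le_iff_exists.mp hB
    obtain ⟨x, rfl⟩ := hπ k
    exact ⟨x, hk, hkA⟩
  obtain ⟨x₀, hx₀, hmin⟩ := Set.exists_min_image Adm (fun x => Nat.card (Lf x)) (Set.toFinite _) hAdmne
  have hAbCB : Ab ≤ centralizer (Bb : Set Mb) := by
    intro y hy
    rw [mem_centralizer_iff]
    intro b hb
    exact hAbc b (hBle hb) y hy
  have hconjmem : ∀ (x a : M), a ∈ A → x * a * x⁻¹ ∈ Lf x := by
    intro x a ha
    exact (le_sup_right : _ ≤ Lf x) ⟨a, ha, rfl⟩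
  obtain ⟨x, hxAdm, hxR⟩ : ∃ x ∈ Adm, x ∈ pResOf p (Lf x) := by
    have h1 := hx₀.2
    rw [mem_centralizer_iff] at h1
    push Not at h1
    obtain ⟨_, ⟨a, ha, rfl⟩, hax⟩ := h1
    set c := x₀ * a * x₀⁻¹ * a⁻¹ with hc
    have hcL : c ∈ Lf x₀ := mul_mem (hconjmem x₀ a ha) (inv_mem ((le_sup_left : A ≤ Lf x₀) ha))
    have hπc : π c = π x₀ * (π a * (π x₀)⁻¹ * (π a)⁻¹) := by
      rw [hc]; simp only [map_mul, map_inv]; group
    have hcK : π c ∈ K := by
      rw [hπc]
      exact K.mul_mem hx₀.1.1 (hKn.conj_mem _ (K.inv_mem hx₀.1.1) _)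
    have haCB : π a ∈ centralizer (Bb : Set Mb) := hAbCB (mem_map_of_mem π ha)
    have hcCB : π c ∈ centralizer (Bb : Set Mb) := by
      rw [hπc]
      exact mul_mem hx₀.1.2 (mul_mem (mul_mem haCB (inv_mem hx₀.1.2)) (inv_mem haCB))
    have hcne : ¬ Commute (π c) (π a) := by
      intro hcomm
      have e1 : π x₀ * π a * (π x₀)⁻¹ = π c * π a := by rw [hπc]; group
      have e2 : (π c * π a) ^ p = 1 := by
        rw [← e1, conj_pow, hAp a ha]; group
      rw [hcomm.mul_pow, hAp a ha, mul_one] at e2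
      have e3 : π c = 1 := eq_one_of_coprime_of_pow (n := 1) hKp hcK (by rw [pow_one]; exact e2)
      rw [e3, one_mul] at e1
      apply hax
      exact (mul_inv_eq_iff_eq_mul.mp e1).symm
    obtain ⟨k, hk⟩ := exists_pow_coprime (p := p) c
    refine ⟨c ^ (p ^ k), ⟨⟨?_, ?_⟩, ?_⟩, ?_⟩
    · rw [map_pow]; exact K.pow_mem hcK _
    · rw [map_pow]; exact Subgroup.pow_mem _ hcCB _
    · intro h
      apply hcne
      have hord : (orderOf (π c)).Coprime (p ^ k) := by
        have h1 : orderOf (π c) ∣ Nat.card K := by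
          have := orderOf_dvd_natCard (⟨π c, hcK⟩ : K)
          rwa [Subgroup.orderOf_mk] at this
        exact (Nat.Coprime.coprime_dvd_left h1 hKp).pow_right k
      obtain ⟨m, hm⟩ := exists_pow_eq_self_of_coprime (x := π c) (n := p ^ k) hord.symm
      have h2 : Commute (π (c ^ (p ^ k))) (π a) :=
        ((mem_centralizer_iff.mp h) (π a) (mem_map_of_mem π ha)).symm
      rw [map_pow] at h2
      rw [← hm]
      exact h2.pow_left m
    · have hx'L : c ^ (p ^ k) ∈ Lf x₀ := Subgroup.pow_mem _ hcL _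
      have hle : Lf (c ^ (p ^ k)) ≤ Lf x₀ := by
        apply sup_le le_sup_left
        rintro _ ⟨b, hb, rfl⟩
        exact mul_mem (mul_mem hx'L ((le_sup_left : A ≤ Lf x₀) hb)) (inv_mem hx'L)
      have hadm : c ^ (p ^ k) ∈ Adm := by
        refine ⟨⟨?_, ?_⟩, ?_⟩
        · rw [map_pow]; exact K.pow_mem hcK _
        · rw [map_pow]; exact Subgroup.pow_mem _ hcCB _
        · intro h
          apply hcne
          have hord : (orderOf (π c)).Coprime (p ^ k) := by
            have h1 : orderOf (π c) ∣ Nat.card K := by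
              have := orderOf_dvd_natCard (⟨π c, hcK⟩ : K)
              rwa [Subgroup.orderOf_mk] at this
            exact (Nat.Coprime.coprime_dvd_left h1 hKp).pow_right k
          obtain ⟨m, hm⟩ := exists_pow_eq_self_of_coprime (x := π c) (n := p ^ k) hord.symm
          have h2 : Commute (π (c ^ (p ^ k))) (π a) :=
            ((mem_centralizer_iff.mp h) (π a) (mem_map_of_mem π ha)).symm
          rw [map_pow] at h2
          rw [← hm]
          exact h2.pow_left m
      have heq : Lf (c ^ (p ^ k)) = Lf x₀ :=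
        Subgroup.eq_of_le_of_card_ge hle (hmin _ hadm)
      rw [heq]
      exact mem_pResOf hx'L hk
  set L := Lf x with hL
  set R := pResOf p L with hR
  have hAL : A ≤ L := le_sup_left
  have hxL : x ∈ L := pResOf_le L hxR
  have hxK : x ∈ K.comap π := hxAdm.1.1
  have hRn : L ≤ normalizer (R : Set M) := le_normalizer_pResOf L
  have hcomapn : (K.comap π).Normal := inferInstance
  have hLCB : ∀ g ∈ L, π g ∈ centralizer (Bb : Set Mb) := by
    have : L ≤ (centralizer (Bb : Set Mb)).comap π := by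
      apply sup_le
      · intro a ha
        exact hAbCB (mem_map_of_mem π ha)
      · rintro _ ⟨a, ha, rfl⟩
        show π (x * a * x⁻¹) ∈ centralizer (Bb : Set Mb)
        rw [map_mul, map_mul, map_inv]
        exact mul_mem (mul_mem hxAdm.1.2 (hAbCB (mem_map_of_mem π ha))) (inv_mem hxAdm.1.2)
    exact this
  -- (2)
  have h2 : R ≤ K.comap π := by
    apply pResOf_le_of_PQuot
    apply (PQuot_sup (N := K.comap π) (T := A) le_normalizer_of_normal hA).mono_left
    apply sup_le le_sup_right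
    rintro _ ⟨a, ha, rfl⟩
    have hx' : x ∈ K.comap π ⊔ A := (le_sup_left : K.comap π ≤ _) hxK
    exact mul_mem (mul_mem hx' ((le_sup_right : A ≤ K.comap π ⊔ A) ha)) (inv_mem hx')
  -- (3)
  have h3 : ⁅R, A⁆ = R := by
    apply le_antisymm
    · rw [commutator_le]
      intro r hr a ha
      rw [commutatorElement_def]
      have : a * r⁻¹ * a⁻¹ ∈ R := (mem_normalizer_iff.mp (hRn (hAL ha)) _).mp (R.inv_mem hr)
      have h := R.mul_mem hr this
      convert h using 1
      group
    · apply pResOf_le_of_PQuot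
      have hn : A ≤ normalizer ((⁅R, A⁆ : Subgroup M) : Set M) := by
        intro b hb
        apply Subgroup.mem_normalizer_fintype
        have : ⁅R, A⁆ ≤ (⁅R, A⁆).comap (MulAut.conj b).toMonoidHom := by
          rw [commutator_le]
          intro r hr a ha
          show b * ⁅r, a⁆ * b⁻¹ ∈ ⁅R, A⁆
          have e : b * ⁅r, a⁆ * b⁻¹ = ⁅b * r * b⁻¹, b * a * b⁻¹⁆ := by
            simp only [commutatorElement_def]; group
          rw [e]
          exact commutator_mem_commutator ((mem_normalizer_iff.mp (hRn (hAL hb)) _).mp hr)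
            (A.mul_mem (A.mul_mem hb ha) (A.inv_mem hb))
        intro n hn
        exact this hn
      apply (PQuot_sup (N := ⁅R, A⁆) (T := A) hn hA).mono_left
      apply sup_le le_sup_right
      rintro _ ⟨a, ha, rfl⟩
      have e : (MulAut.conj x).toMonoidHom a = ⁅x, a⁆ * a := by
        show x * a * x⁻¹ = _
        rw [commutatorElement_def]; group
      rw [e]
      exact mul_mem ((le_sup_left : ⁅R, A⁆ ≤ _) (commutator_mem_commutator hxR ha))
        ((le_sup_right : A ≤ ⁅R, A⁆ ⊔ A) ha)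
  -- (4)
  have hsub : ∀ a ∈ A ⊓ pCoreOf p L, π a ∈ Bb := by
    intro a' ha'
    by_contra hnB
    have hc' : ⁅x, a'⁆ ∈ pCoreOf p L := by
      rw [commutatorElement_def]
      exact mul_mem ((mem_normalizer_iff.mp (le_normalizer_pCoreOf L hxL) _).mp ha'.2)
        (inv_mem ha'.2)
    obtain ⟨k, hk⟩ := (pCoreOf_isPGroup (p := p) L) ⟨_, hc'⟩
    have hk' : ⁅x, a'⁆ ^ (p ^ k) = 1 := by simpa using congrArg Subtype.val hk
    have hπK : π ⁅x, a'⁆ ∈ K := by
      have e : π ⁅x, a'⁆ = π x * (π a' * (π x)⁻¹ * (π a')⁻¹) := by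
        rw [commutatorElement_def]; simp only [map_mul, map_inv]; group
      rw [e]
      exact K.mul_mem hxAdm.1.1 (hKn.conj_mem _ (K.inv_mem hxAdm.1.1) _)
    have h1 : π ⁅x, a'⁆ = 1 :=
      eq_one_of_coprime_of_pow (n := k) hKp hπK (by rw [← map_pow, hk', map_one])
    have hcomm : π a' * π x = π x * π a' := by
      rw [map_commutatorElement, commutatorElement_eq_one_iff_mul_comm] at h1
      exact h1.symm
    apply hxAdm.2
    set C' := Ab ⊓ centralizer {π x} with hC'
    have hBC' : Bb ≤ C' := by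
      refine le_inf hBle ?_
      intro b hb
      rw [mem_centralizer_singleton_iff]
      exact ((mem_centralizer_iff.mp hxAdm.1.2) b hb)
    have ha'C : π a' ∈ C' := by
      refine mem_inf.mpr ⟨mem_map_of_mem π ha'.1, ?_⟩
      rw [mem_centralizer_singleton_iff]
      exact hcomm
    have hmul := relIndex_mul_relIndex Bb C' Ab hBC' inf_le_left
    rw [hidx] at hmul
    have hne1 : Bb.relIndex C' ≠ 1 := by
      intro h
      exact hnB (relIndex_eq_one.mp h ha'C)
    have h5 : Bb.relIndex C' = p := by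
      rcases (Nat.dvd_prime hp.out).mp (Dvd.intro _ hmul) with h | h
      · exact absurd h hne1
      · exact h
    have h6 : C'.relIndex Ab = 1 := by
      rw [h5] at hmul
      exact Nat.eq_of_mul_eq_mul_left hp.out.pos (by rw [hmul, mul_one])
    have h7 : Ab ≤ C' := relIndex_eq_one.mp h6
    rw [mem_centralizer_iff]
    intro y hy
    have h8 : y ∈ centralizer {π x} := (h7 hy).2
    rw [mem_centralizer_singleton_iff] at h8
    exact h8
  have h4 : (A ⊓ pCoreOf p L).relIndex A = p := by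
    have heq : A ⊓ pCoreOf p L = A ⊓ Bb.comap π := by
      apply le_antisymm
      · intro a ha
        exact mem_inf.mpr ⟨ha.1, hsub a ha⟩
      · refine le_inf inf_le_left ?_
        have hE : L ⊓ Bb.comap π ≤ pCoreOf p L := by
          apply le_pCoreOf inf_le_left
          · intro g hg
            apply Subgroup.mem_normalizer_fintype
            intro e he
            refine mem_inf.mpr ⟨L.mul_mem (L.mul_mem hg he.1) (L.inv_mem hg), ?_⟩
            show π (g * e * g⁻¹) ∈ Bb
            have h1 : π e ∈ Bb := he.2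
            have h2 := (mem_centralizer_iff.mp (hLCB g hg)) (π e) h1
            rw [map_mul, map_mul, map_inv, ← h2]
            simpa using h1
          · rintro ⟨e, he⟩
            have h1 : π e ∈ Bb := he.2
            have h2 : e ^ p ∈ π.ker := by
              rw [MonoidHom.mem_ker, map_pow]
              exact hAbp _ (hBle h1)
            obtain ⟨k, hk⟩ := hker ⟨_, h2⟩
            refine ⟨k + 1, Subtype.ext ?_⟩
            have hk' : (e ^ p) ^ (p ^ k) = 1 := by simpa using congrArg Subtype.val hk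
            simp only [Subgroup.coe_pow, Subgroup.coe_one]
            rw [pow_succ', pow_mul]
            exact hk'
        exact (inf_le_inf_right _ hAL).trans hE
    rw [heq, inf_relIndex_left, relIndex_comap]
    exact hidx
  refine ⟨x, hxK, hxR, h2, h3, h4, ?_⟩
  rw [commutator_le]
  intro b hb g hg
  rw [MonoidHom.mem_ker, map_commutatorElement, commutatorElement_eq_one_iff_mul_comm]
  exact (mem_centralizer_iff.mp (hLCB g hg)) (π b) (hsub b hb)

/-- Let M be a finite p-soluble group and A a p-subgroup of M with Φ(A) ≤ O_p(M) but A ≰ O_p(M). Then there is x ∈ O_{p,p'}(M) such that L = ⟨A, xAx⁻¹⟩ satisfies: x ∈ O^p(L) and O^p(L) ≤ O_{p,p'}(M); [O^p(L), A] = O^p(L); A ∩ O_p(L) has index p in A; and [A ∩ O_p(L), L] ≤ O_p(M). Here O^p(L) is the subgroup generated by the p'-elements of L and O_{p,p'}(M) the preimage of O_{p'}(M/O_p(M)). -/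
theorem result {M : Type*} [Group M] [Finite M] {p : ℕ} [Fact p.Prime] (hM : Cfsg.IsPSolvable p M) (A : Subgroup M) (hA : IsPGroup p A) (hΦ : (frattini ↥A).map A.subtype ≤ Cfsg.pCore p M) (hnot : ¬ A ≤ Cfsg.pCore p M) : ∃ x ∈ (Cfsg.pPrimeCore p (M ⧸ Cfsg.pCore p M)).comap (QuotientGroup.mk' (Cfsg.pCore p M)), x ∈ (Cfsg.pResidual p ↥(A ⊔ A.map (MulAut.conj x).toMonoidHom)).map (A ⊔ A.map (MulAut.conj x).toMonoidHom).subtype ∧ (Cfsg.pResidual p ↥(A ⊔ A.map (MulAut.conj x).toMonoidHom)).map (A ⊔ A.map (MulAut.conj x).toMonoidHom).subtype ≤ (Cfsg.pPrimeCore p (M ⧸ Cfsg.pCore p M)).comap (QuotientGroup.mk' (Cfsg.pCore p M)) ∧ ⁅(Cfsg.pResidual p ↥(A ⊔ A.map (MulAut.conj x).toMonoidHom)).map (A ⊔ A.map (MulAut.conj x).toMonoidHom).subtype, A⁆ = (Cfsg.pResidual p ↥(A ⊔ A.map (MulAut.conj x).toMonoidHom)).map (A ⊔ A.map (MulAut.conj x).toMonoidHom).subtype ∧ (A ⊓ (Cfsg.pCore p ↥(A ⊔ A.map (MulAut.conj x).toMonoidHom)).map (A ⊔ A.map (MulAut.conj x).toMonoidHom).subtype).relIndex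 A = p ∧ ⁅A ⊓ (Cfsg.pCore p ↥(A ⊔ A.map (MulAut.conj x).toMonoidHom)).map (A ⊔ A.map (MulAut.conj x).toMonoidHom).subtype, A ⊔ A.map (MulAut.conj x).toMonoidHom⁆ ≤ Cfsg.pCore p M := by
  have hQn : (pCore p M).Normal := Cfsg.Agent.Lib.Helper47.pCore_normal
  have hπs := QuotientGroup.mk'_surjective (pCore p M)
  have hkereq : (QuotientGroup.mk' (pCore p M)).ker = pCore p M := QuotientGroup.ker_mk' _
  have hKn : (pPrimeCore p (M ⧸ pCore p M)).Normal := (Cfsg.Agent.Lib.Lead.pPrimeCore_mem p).1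
  have hmem : ∀ g : M, QuotientGroup.mk' (pCore p M) g = 1 ↔ g ∈ pCore p M :=
    fun g => QuotientGroup.eq_one_iff g
  have := core (p := p) (QuotientGroup.mk' (pCore p M)) hπs (by rw [hkereq]; exact pCore_isPGroup)
    (pPrimeCore p (M ⧸ pCore p M)) (Cfsg.Agent.Lib.Lead.card_pPrimeCore_coprime p)
    (Cfsg.Agent.Lib.Helper48.centralizer_pPrimeCore_le
      (Cfsg.Agent.Lib.Helper69.isPSolvable_of_surj _ hπs hM)
      (Cfsg.Agent.Lib.Lead.pCore_quotient_pCore p M)) A hA
    (by
      intro a ha b hb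
      have h1 : ⁅a, b⁆ ∈ pCore p M :=
        hΦ (commutator_le_frattiniOf hA (commutator_mem_commutator ha hb))
      rw [← hmem, map_commutatorElement, commutatorElement_eq_one_iff_mul_comm] at h1
      exact h1)
    (by
      intro a ha
      rw [← map_pow, hmem]
      exact hΦ (pow_mem_frattiniOf hA ha))
    (by rw [hkereq]; exact hnot)
  rw [hkereq] at this
  exact this

end Cfsg.Agent.S3754
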