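-- Statement S3755 (row 3755), proved by helper61.
import Cfsg.Statements.S3755
import Cfsg.Agent.Lib.Helper22.Generation
import Cfsg.Agent.Lib.Helper47.AxB
import Cfsg.Agent.Lib.Helper9.PPrimeCoreOf
import Cfsg.Agent.Lib.Helper10.Thompson
import Cfsg.Agent.Lib.Helper61.S4Offender
import Cfsg.Agent.Lib.Helper61.S3Transv

set_option autoImplicit false
open Cfsg

namespace Cfsg.Agent.S3755

open Subgroup
open Cfsg.Agent.Lib.Helper61.S4Offender Cfsg.Agent.Lib.Helper61.S3Transv

theorem main {X : Type*} [Group X] [Finite X] (M V K : Subgroup X)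
    (hVc : ∀ x ∈ V, ∀ y ∈ V, x * y = y * x) (hV2 : ∀ x ∈ V, x * x = 1)
    (hMV : M ≤ normalizer (V : Set X)) (hfaith : M ⊓ centralizer (V : Set X) = ⊥)
    (hKM : K ≤ M) (hKn : M ≤ normalizer (K : Set X)) (hKodd : (Nat.card K).Coprime 2)
    (hcon : M ⊓ centralizer (K : Set X) ≤ K) :
    ∀ n : ℕ, ∀ A : Subgroup X, Nat.card A = n → A ≤ M → (∀ x ∈ A, ∀ y ∈ A, x * y = y * x) →
      (∀ x ∈ A, x * x = 1) → (V ⊓ centralizer (A : Set X)).relIndex V < Nat.card A ^ 2 →
      ∃ d e : X, d ∈ M ∧ e ∈ M ∧ d * d = 1 ∧ e * e = 1 ∧ d * e * d = e * d * e ∧ d ≠ e := by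
  have : Fact (Nat.Prime 2) := ⟨Nat.prime_two⟩
  intro n
  induction n using Nat.strong_induction_on with
  | _ n ih =>
  intro A hn hAM hAc hA2 hsmall
  have hVp : IsPGroup 2 V := by
    rintro ⟨x, hx⟩
    refine ⟨1, Subtype.ext ?_⟩
    simp only [pow_one, Subgroup.coe_one, pow_two]
    exact hV2 x hx
  have hAne : A ≠ ⊥ := by
    rintro rfl
    have h1 : V ⊓ centralizer (((⊥ : Subgroup X) : Subgroup X) : Set X) = V := by
      apply inf_eq_left.mpr
      intro v _
      rw [mem_centralizer_iff]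
      intro x hx
      rw [SetLike.mem_coe, mem_bot] at hx
      rw [hx, one_mul, mul_one]
    rw [h1, relIndex_self, Subgroup.card_bot] at hsmall
    omega
  have hnot : ¬ K ≤ centralizer (A : Set X) := by
    intro h
    rw [le_centralizer_iff] at h
    apply hAne
    rw [eq_bot_iff]
    intro x hx
    rw [mem_bot]
    exact eq_one_of_sq_of_mem hKodd (hcon (mem_inf.mpr ⟨hAM hx, h hx⟩)) (hA2 x hx)
  have hgen := Cfsg.Agent.Lib.Helper22.eq_iSup_centralizer_hyperplane (p := 2) A K hAc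
    (fun x hx => by rw [pow_two]; exact hA2 x hx)
    (by rw [← Nat.Prime.coprime_iff_not_dvd Nat.prime_two]; exact hKodd.symm) (hAM.trans hKn)
  obtain ⟨⟨B, hBle, hBidx⟩, hB⟩ : ∃ B : {B : Subgroup X // B ≤ A ∧ B.relIndex A ≤ 2},
      ¬ K ⊓ centralizer ((B : Subgroup X) : Set X) ≤ centralizer (A : Set X) := by
    by_contra hall
    push Not at hall
    apply hnot
    rw [hgen]
    exact iSup_le hall
  simp only at hB
  have hBne : B ≠ A := by
    rintro rfl
    exact hB inf_le_right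
  have hidx : B.relIndex A = 2 := by
    have h0 : B.relIndex A ≠ 0 := by
      have := Cfsg.Agent.Lib.Helper10.card_mul_relIndex hBle
      intro h
      rw [h, mul_zero] at this
      exact (Nat.card_pos (α := A)).ne this
    have h1 : B.relIndex A ≠ 1 := by
      intro h
      exact hBne (le_antisymm hBle (relIndex_eq_one.mp h))
    omega
  have hcardA : Nat.card A = Nat.card B * 2 := by
    rw [← hidx]; exact (Cfsg.Agent.Lib.Helper10.card_mul_relIndex hBle).symm
  have hBpos : 0 < Nat.card B := Nat.card_pos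
  by_cases hBs : (V ⊓ centralizer (B : Set X)).relIndex V < Nat.card B ^ 2
  · exact ih (Nat.card B) (by omega) B rfl (hBle.trans hAM)
      (fun x hx y hy => hAc x (hBle hx) y (hBle hy)) (fun x hx => hA2 x (hBle hx)) hBs
  push Not at hBs
  set U := V ⊓ centralizer (B : Set X) with hU
  set W := V ⊓ centralizer (A : Set X) with hW
  have hUV : U ≤ V := inf_le_left
  have hWU : W ≤ U := inf_le_inf_left V (centralizer_le hBle)
  have hUp : IsPGroup 2 U := hVp.to_le hUV
  have hWidx : W.relIndex U ≤ 2 := by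
    have h1 := relIndex_mul_relIndex W U V hWU hUV
    have h2 : W.relIndex U < 4 := by
      by_contra hcon4
      push Not at hcon4
      have h3 : 4 * Nat.card B ^ 2 ≤ W.relIndex U * U.relIndex V := Nat.mul_le_mul hcon4 hBs
      rw [h1] at h3
      rw [hcardA] at hsmall
      nlinarith
    obtain ⟨m, hm⟩ := hUp.index (W.subgroupOf U)
    have hm' : W.relIndex U = 2 ^ m := hm
    rw [hm'] at h2 ⊢
    have : m < 2 := by
      by_contra h
      push Not at h
      have := Nat.pow_le_pow_right (n := 2) (by norm_num) h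
      omega
    interval_cases m <;> norm_num
  -- the elements
  obtain ⟨k, hk, hkA⟩ := SetLike.not_le_iff_exists.mp hB
  rw [mem_centralizer_iff] at hkA
  push Not at hkA
  obtain ⟨a, haA, hak⟩ := hkA
  have hkK : k ∈ K := hk.1
  have hkB : k ∈ centralizer (B : Set X) := hk.2
  have haB : a ∉ B := fun h => hak ((mem_centralizer_iff.mp hkB) a h)
  have haa : a * a = 1 := hA2 a haA
  have hainv : a⁻¹ = a := inv_eq_of_mul_eq_one_left haa
  have haM : a ∈ M := hAM haA
  have hkM : k ∈ M := hKM hkK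
  have haCB : a ∈ centralizer (B : Set X) := by
    rw [mem_centralizer_iff]
    intro x hx
    exact hAc x (hBle hx) a haA
  have hnormU : ∀ g ∈ M, g ∈ centralizer (B : Set X) → g ∈ normalizer (U : Set X) := by
    intro g hgM hgB
    apply Subgroup.mem_normalizer_fintype
    intro u hu
    refine mem_inf.mpr ⟨(mem_normalizer_iff.mp (hMV hgM) u).mp hu.1, ?_⟩
    exact mul_mem (mul_mem hgB hu.2) (inv_mem hgB)
  have haU := hnormU a haM haCB
  have hkU := hnormU k hkM hkB
  have hidx' : (B.subgroupOf A).index = 2 := hidx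
  have hmemW : ∀ v ∈ U, v ∈ W ↔ a * v * a⁻¹ = v := by
    intro v hv
    constructor
    · intro h
      have := (mem_centralizer_iff.mp h.2) a haA
      rw [this]; group
    · intro h
      refine mem_inf.mpr ⟨hv.1, ?_⟩
      have hav : a * v = v * a := mul_inv_eq_iff_eq_mul.mp h
      rw [mem_centralizer_iff]
      intro x hx
      by_cases hxB : x ∈ B
      · exact (mem_centralizer_iff.mp hv.2) x hxB
      · have h1 : (⟨a, haA⟩ : A)⁻¹ * ⟨x, hx⟩ ∈ B.subgroupOf A := by
          rw [Subgroup.mul_mem_iff_of_index_two hidx', inv_mem_iff]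
          simp only [mem_subgroupOf]
          exact ⟨fun h => absurd h haB, fun h => absurd h hxB⟩
        have h2 : a⁻¹ * x ∈ B := h1
        have h3 := (mem_centralizer_iff.mp hv.2) _ h2
        calc x * v = a * ((a⁻¹ * x) * v) := by group
          _ = a * (v * (a⁻¹ * x)) := by rw [h3]
          _ = (a * v) * (a⁻¹ * x) := by group
          _ = v * x := by rw [hav]; group
  have hUc : ∀ x ∈ U, ∀ y ∈ U, x * y = y * x := fun x hx y hy => hVc x (hUV hx) y (hUV hy)
  have hU2 : ∀ x ∈ U, x * x = 1 := fun x hx => hV2 x (hUV hx)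
  obtain ⟨β, hβU, htr⟩ : ∃ β ∈ U, ∀ v ∈ U, a * v * a⁻¹ = v ∨ a * v * a⁻¹ = v * β := by
    by_cases hWeq : W = U
    · refine ⟨1, one_mem _, fun v hv => Or.inl ?_⟩
      exact (hmemW v hv).mp (hWeq ▸ hv)
    · have hidxW : (W.subgroupOf U).index = 2 := by
        have h1 := Cfsg.Agent.Lib.Helper10.card_mul_relIndex hWU
        have h0 : W.relIndex U ≠ 1 := fun h => hWeq (le_antisymm hWU (relIndex_eq_one.mp h))
        have h00 : W.relIndex U ≠ 0 := by
          intro h
          rw [h, mul_zero] at h1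
          exact (Nat.card_pos (α := U)).ne h1
        show W.relIndex U = 2
        omega
      obtain ⟨v0, hv0U, hv0W⟩ := SetLike.exists_of_lt (lt_of_le_of_ne hWU hWeq)
      have hconj0 : a * v0 * a⁻¹ ∈ U := (mem_normalizer_iff.mp haU v0).mp hv0U
      refine ⟨v0⁻¹ * (a * v0 * a⁻¹), U.mul_mem (U.inv_mem hv0U) hconj0, ?_⟩
      intro v hv
      by_cases hvW : v ∈ W
      · left; exact (hmemW v hv).mp hvW
      · right
        have h1 : (⟨v0, hv0U⟩ : U)⁻¹ * ⟨v, hv⟩ ∈ W.subgroupOf U := by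
          rw [Subgroup.mul_mem_iff_of_index_two hidxW, inv_mem_iff]
          simp only [mem_subgroupOf]
          exact ⟨fun h => absurd h hv0W, fun h => absurd h hvW⟩
        have h2 : v0⁻¹ * v ∈ W := h1
        have h3 := (hmemW _ (U.mul_mem (U.inv_mem hv0U) hv)).mp h2
        have h4 : a * v * a⁻¹ = (a * v0 * a⁻¹) * (v0⁻¹ * v) := by
          rw [← h3]; group
        rw [h4]
        rw [hUc _ hconj0 _ (U.mul_mem (U.inv_mem hv0U) hv), hUc _ (U.inv_mem hv0U) _ hv]
        group
  set y := k * a * k⁻¹ * a with hy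
  have hyK : y ∈ K := by
    have h1 : y = k * (a * k⁻¹ * a⁻¹) := by rw [hy, hainv]; group
    rw [h1]
    exact K.mul_mem hkK ((mem_normalizer_iff.mp (hKn haM) _).mp (K.inv_mem hkK))
  have hyo : (orderOf y).Coprime 2 := by
    have h1 : orderOf y ∣ Nat.card K := by
      have := orderOf_dvd_natCard (⟨y, hyK⟩ : K)
      rwa [Subgroup.orderOf_mk] at this
    exact Nat.Coprime.coprime_dvd_left h1 hKodd
  have hy3U := cube_centralizes U hUc hU2 a k β haU hkU hβU htr hyo
  have hyM : y ∈ M := hKM hyK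
  have hyB : y ∈ centralizer (B : Set X) := mul_mem (mul_mem (mul_mem hkB haCB) (inv_mem hkB)) haCB
  have hy3o : (orderOf (y ^ 3)).Coprime 2 :=
    Nat.Coprime.coprime_dvd_left (orderOf_pow_dvd 3) hyo
  have hBp : IsPGroup 2 B := by
    rintro ⟨x, hx⟩
    refine ⟨1, Subtype.ext ?_⟩
    simp only [pow_one, Subgroup.coe_one, pow_two]
    exact hA2 x (hBle hx)
  have hAxB := Cfsg.Agent.Lib.Helper47.thompson_AxB (p := 2) (R := V) (B := B) (a := y ^ 3) hVp hBp
    hy3o (hMV (M.pow_mem hyM 3)) ((hBle.trans hAM).trans hMV) (Subgroup.pow_mem _ hyB 3)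
    (fun x hx => ((mem_centralizer_iff.mp hy3U) x hx))
  have hy3 : y ^ 3 = 1 := by
    have h1 : y ^ 3 ∈ M ⊓ centralizer (V : Set X) := by
      refine mem_inf.mpr ⟨M.pow_mem hyM 3, ?_⟩
      rw [mem_centralizer_iff]
      intro v hv
      exact (hAxB v hv).eq
    rw [hfaith, mem_bot] at h1
    exact h1
  refine ⟨k * a * k⁻¹, a, M.mul_mem (M.mul_mem hkM haM) (M.inv_mem hkM), haM, ?_, haa, ?_, ?_⟩
  · calc k * a * k⁻¹ * (k * a * k⁻¹) = k * (a * a) * k⁻¹ := by group
      _ = 1 := by rw [haa]; group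
  · set d := k * a * k⁻¹ with hd
    have hdd : d * d = 1 := by
      calc d * d = k * (a * a) * k⁻¹ := by rw [hd]; group
        _ = 1 := by rw [haa]; group
    have hdinv : d⁻¹ = d := inv_eq_of_mul_eq_one_left hdd
    have h1 : d * a * (d * a) * (d * a) = 1 := by
      rw [← hy3, pow_succ, pow_succ, pow_one]
    calc d * a * d = (d * a * (d * a) * (d * a)) * (a⁻¹ * d⁻¹ * a⁻¹) := by group
      _ = a * d * a := by rw [h1, hainv, hdinv, one_mul]
  · intro h
    apply hak
    have := mul_inv_eq_iff_eq_mul.mp h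
    exact this.symm

/-- Let M and V be subgroups of a finite group with V an elementary abelian 2-group, M normalizing V and acting faithfully on it (M ∩ C(V) = 1), and C_M(O_{2'}(M)) ≤ O_{2'}(M). If some elementary abelian 2-subgroup A of M satisfies |V : C_V(A)| < |A|², then M has a section isomorphic to the symmetric group of degree 3. -/
theorem result {X : Type*} [Group X] [Finite X] (M V : Subgroup X) (hV : Cfsg.IsElementaryAbelian 2 V) (hMV : M ≤ Subgroup.normalizer (V : Set X)) (hfaith : M ⊓ Subgroup.centralizer (V : Set X) = ⊥) (hcon : Subgroup.centralizer (Cfsg.pPrimeCore 2 ↥M : Set ↥M) ≤ Cfsg.pPrimeCore 2 ↥M) (A : Subgroup X) (hAM : A ≤ M) (hA : Cfsg.IsElementaryAbelian 2 A) (hsmall : (V ⊓ Subgroup.centralizer (A : Set X)).relIndex V < Nat.card A ^ 2) : Cfsg.Involves (Equiv.Perm (Fin 3)) ↥M := by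
  obtain ⟨hVc, hV2⟩ := Cfsg.Agent.Lib.Helper10.isEA_iff.mp hV
  obtain ⟨hAc, hA2⟩ := Cfsg.Agent.Lib.Helper10.isEA_iff.mp hA
  have hcon' : M ⊓ centralizer (Cfsg.Agent.Lib.Helper9.pPrimeCoreOf 2 M : Set X) ≤
      Cfsg.Agent.Lib.Helper9.pPrimeCoreOf 2 M := by
    intro x hx
    have h1 : (⟨x, hx.1⟩ : M) ∈ Subgroup.centralizer (Cfsg.pPrimeCore 2 ↥M : Set ↥M) := by
      rw [mem_centralizer_iff]
      intro g hg
      apply Subtype.ext
      exact (mem_centralizer_iff.mp hx.2) (g : X) (mem_map.mpr ⟨g, hg, rfl⟩)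
    exact mem_map.mpr ⟨_, hcon h1, rfl⟩
  obtain ⟨d, e, hd, he, hdd, hee, hbr, hne⟩ := main M V (Cfsg.Agent.Lib.Helper9.pPrimeCoreOf 2 M)
    hVc (fun x hx => by rw [← pow_two]; exact hV2 x hx) hMV hfaith
    (Cfsg.Agent.Lib.Helper9.pPrimeCoreOf_le M) (Cfsg.Agent.Lib.Helper9.le_normalizer_pPrimeCoreOf M)
    (Cfsg.Agent.Lib.Helper9.card_pPrimeCoreOf_coprime M) hcon' _ A rfl hAM hAc
    (fun x hx => by rw [← pow_two]; exact hA2 x hx) hsmall
  exact involves_s3 (⟨d, hd⟩ : M) ⟨e, he⟩ (Subtype.ext hdd) (Subtype.ext hee) (Subtype.ext hbr)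
    (fun h => hne (congrArg Subtype.val h))

end Cfsg.Agent.S3755
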