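import Cfsg.Statements.S3760

set_option autoImplicit false
open Cfsg

namespace Cfsg.Agent.S3760

theorem mem_map_conj {G : Type*} [Group G] (K : Subgroup G) (g y : G) :
    y ∈ K.map (MulAut.conj g).toMonoidHom ↔ g⁻¹ * y * g ∈ K := by
  constructor
  · rintro ⟨k, hk, rfl⟩
    have : g⁻¹ * (MulAut.conj g).toMonoidHom k * g = k := by
      simp [MulAut.conj_apply, mul_assoc]
    rw [this]; exact hk
  · intro h
    refine ⟨g⁻¹ * y * g, h, ?_⟩
    simp [MulAut.conj_apply, mul_assoc]

/-- Let the group G act transitively on a set X, let x ∈ X with stabilizer H = G_x, and let K ≤ H. Then N_G(K) acts transitively on the set of fixed points of K if and only if every G-conjugate of K contained in H is already an H-conjugate of K. -/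
theorem result {G : Type*} [Group G] {X : Type*} [MulAction G X] (htrans : ∀ a b : X, ∃ g : G, g • a = b) (x : X) (K : Subgroup G) (hK : K ≤ MulAction.stabilizer G x) : (∀ a b : X, (∀ k ∈ K, k • a = a) → (∀ k ∈ K, k • b = b) → ∃ g ∈ Subgroup.normalizer (K : Set G), g • a = b) ↔ ∀ g : G, K.map (MulAut.conj g).toMonoidHom ≤ MulAction.stabilizer G x → ∃ h ∈ MulAction.stabilizer G x, K.map (MulAut.conj g).toMonoidHom = K.map (MulAut.conj h).toMonoidHom := by
  constructor
  · intro H g hg
    have hx : ∀ k ∈ K, k • x = x := fun k hk => hK hk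
    have hgx : ∀ k ∈ K, k • (g⁻¹ • x) = g⁻¹ • x := by
      intro k hk
      have h1 : g * k * g⁻¹ ∈ K.map (MulAut.conj g).toMonoidHom := by
        rw [mem_map_conj]
        simpa [mul_assoc] using hk
      have h2 : (g * k * g⁻¹) • x = x := hg h1
      calc k • (g⁻¹ • x) = g⁻¹ • ((g * k * g⁻¹) • x) := by
            simp [smul_smul, mul_assoc]
        _ = g⁻¹ • x := by rw [h2]
    obtain ⟨n, hn, hnx⟩ := H x (g⁻¹ • x) hx hgx
    refine ⟨g * n, ?_, ?_⟩
    · rw [MulAction.mem_stabilizer_iff, mul_smul, hnx, smul_smul]; simp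
    · ext y
      rw [mem_map_conj, mem_map_conj]
      rw [Subgroup.mem_normalizer_iff''] at hn
      rw [hn (g⁻¹ * y * g)]
      simp [mul_assoc]
  · intro H
    have key : ∀ a : X, (∀ k ∈ K, k • a = a) → ∃ n ∈ Subgroup.normalizer (K : Set G), n • x = a := by
      intro a ha
      obtain ⟨g, hg⟩ := htrans a x
      have hga : a = g⁻¹ • x := by rw [← hg, smul_smul]; simp
      have hle : K.map (MulAut.conj g).toMonoidHom ≤ MulAction.stabilizer G x := by
        intro y hy
        rw [mem_map_conj] at hy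
        rw [MulAction.mem_stabilizer_iff]
        have h1 := ha _ hy
        rw [hga] at h1
        have h2 : g • ((g⁻¹ * y * g) • g⁻¹ • x) = g • g⁻¹ • x := by rw [h1]
        simpa [smul_smul, mul_assoc] using h2
      obtain ⟨h, hh, hEq⟩ := H g hle
      refine ⟨g⁻¹ * h, ?_, ?_⟩
      · rw [Subgroup.mem_normalizer_iff'']
        intro k
        have h3 := SetLike.ext_iff.mp hEq (g * k * g⁻¹)
        rw [mem_map_conj, mem_map_conj] at h3
        have e1 : g⁻¹ * (g * k * g⁻¹) * g = k := by group
        have e2 : h⁻¹ * (g * k * g⁻¹) * h = (g⁻¹ * h)⁻¹ * k * (g⁻¹ * h) := by group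
        rw [e1, e2] at h3
        exact h3
      · rw [mul_smul, MulAction.mem_stabilizer_iff.mp hh, hga]
    intro a b ha hb
    obtain ⟨n, hn, hna⟩ := key a ha
    obtain ⟨m, hm, hmb⟩ := key b hb
    refine ⟨m * n⁻¹, Subgroup.mul_mem _ hm (Subgroup.inv_mem _ hn), ?_⟩
    rw [← hna, ← hmb, smul_smul]; simp

end Cfsg.Agent.S3760
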