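import Cfsg.Statements.S3764
import Cfsg.Agent.Lib.Helper46.ESRep6
import Cfsg.Agent.Lib.Helper46.ESBridge

set_option autoImplicit false
open Cfsg

namespace Cfsg.Agent.S3764

open Cfsg.Agent.Lib.Helper46 in
open scoped commutatorElement in
/-- the index formula in group form -/
theorem index_center {G : Type*} [Group G] [Finite G] {p q r : ℕ} (hp : p.Prime) (hq : q.Prime)
    (hr : r.Prime) (hpq : p ≠ q) (hpr : p ≠ r) (hqr : q ≠ r) (X Q V : Subgroup G)
    (hX : Nat.card X = r) (hQ : Cfsg.IsExtraspecial q ↥Q)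
    (hXQ : X ≤ Subgroup.normalizer (Q : Set G))
    (hCQ : Q ⊓ Subgroup.centralizer (X : Set G) = (Subgroup.center ↥Q).map Q.subtype)
    (hV : Cfsg.IsElementaryAbelian p V) (hXV : X ≤ Subgroup.normalizer (V : Set G))
    (hQV : Q ≤ Subgroup.normalizer (V : Set G))
    (hfaith : (X ⊔ Q) ⊓ Subgroup.centralizer (V : Set G) = ⊥)
    (hCV : V ⊓ Subgroup.centralizer (X : Set G) = ⊥) :
    (Subgroup.center ↥Q).index = (r - 1) ^ 2 := by
  classical
  have hpF : Fact p.Prime := ⟨hp⟩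
  have hrF : Fact r.Prime := ⟨hr⟩
  -- a generator of X
  have hcyc : IsCyclic X := isCyclic_of_prime_card hX
  obtain ⟨⟨x₀, hx₀⟩, hgen⟩ := hcyc.exists_generator
  have hXpow : ∀ y ∈ X, ∃ k : ℤ, x₀ ^ k = y := by
    intro y hy
    obtain ⟨k, hk⟩ := Subgroup.mem_zpowers_iff.1 (hgen ⟨y, hy⟩)
    exact ⟨k, by simpa using congrArg Subtype.val hk⟩
  have hx₀r : x₀ ^ r = 1 := by
    have h1 : (⟨x₀, hx₀⟩ : X) ^ r = 1 := by rw [← hX]; exact pow_card_eq_one'
    simpa using congrArg Subtype.val h1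
  have hcentX : ∀ v : G, v * x₀ = x₀ * v → v ∈ Subgroup.centralizer (X : Set G) := by
    intro v hv
    rw [Subgroup.mem_centralizer_iff]
    intro y hy
    obtain ⟨k, rfl⟩ := hXpow y hy
    have : Commute v x₀ := hv
    exact ((this.zpow_right k).eq).symm
  have hCV' : V ⊓ Subgroup.centralizer ({x₀} : Set G) = ⊥ := by
    rw [eq_bot_iff, ← hCV]
    rintro v ⟨hv1, hv2⟩
    have hv2' : v ∈ Subgroup.centralizer ({x₀} : Set G) := hv2
    rw [Subgroup.mem_centralizer_singleton_iff] at hv2'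
    exact ⟨hv1, hcentX v hv2'⟩
  have hxN : x₀ ∈ Subgroup.normalizer (Q : Set G) := hXQ hx₀
  let σ : MulAut Q :=
    { toFun := fun g => ⟨x₀ * g * x₀⁻¹, (Subgroup.mem_normalizer_iff.1 hxN g).1 g.2⟩
      invFun := fun g => ⟨x₀⁻¹ * g * x₀, by
        have := (Subgroup.mem_normalizer_iff.1 (Subgroup.inv_mem _ hxN) g).1 g.2
        simpa using this⟩
      left_inv := by intro g; ext; simp [mul_assoc]
      right_inv := by intro g; ext; simp [mul_assoc]
      map_mul' := by intro g h; ext; simp [mul_assoc] }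
  have hσ : ∀ g : Q, ((σ g : Q) : G) = x₀ * g * x₀⁻¹ := fun _ => rfl
  have hσpow : ∀ (k : ℕ) (g : Q), (((σ ^ k) g : Q) : G) = x₀ ^ k * g * (x₀ ^ k)⁻¹ := by
    intro k
    induction k with
    | zero => intro g; simp
    | succ k ih =>
      intro g
      rw [pow_succ', MulAut.mul_apply, hσ, ih, pow_succ']
      group
  obtain ⟨n, Φ, h1, h2⟩ := ESBridge.exists_rep V hV
  let ρ : Q →* Module.End (AlgebraicClosure (ZMod p)) (Fin n → AlgebraicClosure (ZMod p)) :=
    Φ.comp (Subgroup.inclusion hQV)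
  let x : Module.End (AlgebraicClosure (ZMod p)) (Fin n → AlgebraicClosure (ZMod p)) :=
    Φ ⟨x₀, hXV hx₀⟩
  have hcast : ∀ m : ℕ, m.Prime → p ≠ m → ((m : ℕ) : AlgebraicClosure (ZMod p)) ≠ 0 := by
    intro m hm hpm h
    rw [CharP.cast_eq_zero_iff (AlgebraicClosure (ZMod p)) p m] at h
    exact hpm ((Nat.prime_dvd_prime_iff_eq hp hm).1 h)
  have hcenter : ∀ z : Q, z ∈ Subgroup.center Q ↔ (z : G) * x₀ = x₀ * z := by
    intro z
    constructor
    · intro hz
      have h3 : (z : G) ∈ (Subgroup.center ↥Q).map Q.subtype := ⟨z, hz, rfl⟩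
      rw [← hCQ] at h3
      exact (Subgroup.mem_centralizer_iff.1 h3.2 x₀ hx₀).symm
    · intro hz
      have h3 : (z : G) ∈ Q ⊓ Subgroup.centralizer (X : Set G) := ⟨z.2, hcentX _ hz⟩
      rw [hCQ] at h3
      obtain ⟨w, hw, hwz⟩ := h3
      have : w = z := Subtype.ext hwz
      rwa [← this]
  have hZq : Nat.card (Subgroup.center Q) = q := hQ.2
  have hqF : Fact q.Prime := ⟨hq⟩
  apply ESRep.index_eq_of_rep ρ x σ hr hq
  · -- x ^ r = 1
    show (Φ ⟨x₀, hXV hx₀⟩) ^ r = 1
    rw [← map_pow]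
    have : (⟨x₀, hXV hx₀⟩ : Subgroup.normalizer (V : Set G)) ^ r = 1 := Subtype.ext (by simpa using hx₀r)
    rw [this, map_one]
  · intro g
    show Φ ⟨x₀, hXV hx₀⟩ * Φ (Subgroup.inclusion hQV g)
      = Φ (Subgroup.inclusion hQV (σ g)) * Φ ⟨x₀, hXV hx₀⟩
    rw [← map_mul, ← map_mul]
    congr 1
    apply Subtype.ext
    show x₀ * (g : G) = (x₀ * g * x₀⁻¹) * x₀
    group
  · intro g h
    rw [← hQ.1.2.2, commutator_def]
    exact Subgroup.commutator_mem_commutator (Subgroup.mem_top g) (Subgroup.mem_top h)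
  · intro z hz
    apply Subtype.ext
    rw [hσ, ← (hcenter z).1 hz]
    group
  · -- fixed point free modulo the centre
    intro g hg
    set z : Q := σ g * g⁻¹ with hz
    have hzx : (z : G) * x₀ = x₀ * z := (hcenter z).1 hg
    have hstep : ∀ k : ℕ, x₀ ^ k * (g : G) * (x₀ ^ k)⁻¹ = (z : G) ^ k * g := by
      intro k
      induction k with
      | zero => simp
      | succ k ih =>
        have h3 : x₀ * (g : G) * x₀⁻¹ = z * g := by
          rw [hz]
          show x₀ * (g : G) * x₀⁻¹ = (x₀ * g * x₀⁻¹) * (g : G)⁻¹ * g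
          group
        have hzk : Commute x₀ ((z : G) ^ k) := (Commute.pow_right (show Commute x₀ (z : G) from hzx.symm) k)
        calc x₀ ^ (k + 1) * (g : G) * (x₀ ^ (k + 1))⁻¹
            = x₀ * (x₀ ^ k * (g : G) * (x₀ ^ k)⁻¹) * x₀⁻¹ := by rw [pow_succ']; group
          _ = x₀ * ((z : G) ^ k * g) * x₀⁻¹ := by rw [ih]
          _ = (x₀ * (z : G) ^ k) * g * x₀⁻¹ := by group
          _ = ((z : G) ^ k * x₀) * g * x₀⁻¹ := by rw [hzk.eq]
          _ = (z : G) ^ k * (x₀ * g * x₀⁻¹) := by group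
          _ = (z : G) ^ k * (z * g) := by rw [h3]
          _ = (z : G) ^ (k + 1) * g := by rw [pow_succ]; group
    have h4 := hstep r
    rw [hx₀r] at h4
    have h5 : (z : G) ^ r = 1 := by
      have : (g : G) = (z : G) ^ r * g := by simpa using h4
      exact (mul_eq_right.1 this.symm)
    have h6 : z ^ q = 1 := by
      have : (⟨z, hg⟩ : Subgroup.center Q) ^ q = 1 := by rw [← hZq]; exact pow_card_eq_one'
      simpa using congrArg Subtype.val this
    have h7 : z ^ r = 1 := Subtype.ext (by simpa using h5)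
    have h8 : z = 1 := by
      have hcop : Nat.Coprime q r := (Nat.coprime_primes hq hr).2 hqr
      have := pow_gcd_eq_one.2 ⟨h6, h7⟩
      rw [Nat.Coprime] at hcop
      rwa [hcop, pow_one] at this
    rw [hcenter]
    have h9 : σ g = g := by
      have : σ g * g⁻¹ = 1 := h8
      exact mul_inv_eq_one.1 this
    have h10 : x₀ * (g : G) * x₀⁻¹ = g := by rw [← hσ, h9]
    calc (g : G) * x₀ = (x₀ * (g : G) * x₀⁻¹) * x₀ := by rw [h10]
      _ = x₀ * g := by group
  · obtain ⟨k, hk⟩ := (IsPGroup.iff_card.1 hQ.1.1)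
    rw [hk, Nat.cast_pow]
    exact pow_ne_zero _ (hcast q hq hpq)
  · ext g
    rw [hσpow, hx₀r]
    simp
  · exact hcast r hr hpr
  · intro htop
    have h3 : commutator Q = ⊥ := by
      rw [commutator_def, Subgroup.commutator_eq_bot_iff_le_centralizer]
      intro a _
      rw [Subgroup.mem_centralizer_iff]
      intro b _
      have : a ∈ Subgroup.center Q := by rw [htop]; trivial
      exact Subgroup.mem_center_iff.1 this b
    rw [hQ.1.2.2] at h3
    rw [h3] at hZq
    simp at hZq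
    exact hq.one_lt.ne hZq
  · exact hZq
  · have hnt : Nontrivial (Subgroup.center Q) := by
      rw [← Finite.one_lt_card_iff_nontrivial, hZq]; exact hq.one_lt
    obtain ⟨⟨z, hz⟩, hz1⟩ := exists_ne (1 : Subgroup.center Q)
    refine ⟨z, hz, ?_⟩
    intro h3
    have h4 := h1 _ h3
    have h5 : (z : G) ∈ (X ⊔ Q) ⊓ Subgroup.centralizer (V : Set G) :=
      ⟨(le_sup_right : Q ≤ X ⊔ Q) z.2, h4⟩
    rw [hfaith, Subgroup.mem_bot] at h5
    apply hz1
    exact Subtype.ext (Subtype.ext h5)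
  · exact h2 ⟨x₀, hXV hx₀⟩ hCV'


/-- Let p, q, r be distinct primes and let X, Q, V be subgroups of a finite group with X of order r, Q an extraspecial q-group normalized by X with C_Q(X) = Z(Q), and V an elementary abelian p-group normalized by X and Q on which XQ acts faithfully ((X ⊔ Q) ∩ C(V) = 1). If C_V(X) = 1, then q = 2, r = 2^n + 1 for some n, and Q has order 2^(2n+1). -/
theorem result {G : Type*} [Group G] [Finite G] {p q r : ℕ} (hp : p.Prime) (hq : q.Prime) (hr : r.Prime) (hpq : p ≠ q) (hpr : p ≠ r) (hqr : q ≠ r) (X Q V : Subgroup G) (hX : Nat.card X = r) (hQ : Cfsg.IsExtraspecial q ↥Q) (hXQ : X ≤ Subgroup.normalizer (Q : Set G)) (hCQ : Q ⊓ Subgroup.centralizer (X : Set G) = (Subgroup.center ↥Q).map Q.subtype) (hV : Cfsg.IsElementaryAbelian p V) (hXV : X ≤ Subgroup.normalizer (V : Set G)) (hQV : Q ≤ Subgroup.normalizer (V : Set G)) (hfaith : (X ⊔ Q) ⊓ Subgroup.centralizer (V : Set G) = ⊥) (hCV : V ⊓ Subgroup.centralizer (X : Set G) =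 ⊥) : q = 2 ∧ ∃ n : ℕ, r = 2 ^ n + 1 ∧ Nat.card Q = 2 ^ (2 * n + 1) := by
  have hidx := index_center hp hq hr hpq hpr hqr X Q V hX hQ hXQ hCQ hV hXV hQV hfaith hCV
  have hcard : Nat.card Q = q * (r - 1) ^ 2 := by
    rw [← Subgroup.card_mul_index (Subgroup.center ↥Q), hQ.2, hidx]
  have hqF : Fact q.Prime := ⟨hq⟩
  obtain ⟨k, hk⟩ := IsPGroup.iff_card.1 hQ.1.1
  have hdvd : (r - 1) ∣ q ^ k := by
    rw [← hk, hcard]
    exact Dvd.dvd.mul_left (Dvd.intro_left ((r - 1) ^ 1) (by ring)) q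
  obtain ⟨n, -, hn⟩ := (Nat.dvd_prime_pow hq).1 hdvd
  have hr2 : r ≠ 2 := by
    intro h
    rw [h] at hidx
    have h1 : (Subgroup.center ↥Q).index = 1 := by simpa using hidx
    have htop := Subgroup.index_eq_one.1 h1
    have h3 : commutator Q = ⊥ := by
      rw [commutator_def, Subgroup.commutator_eq_bot_iff_le_centralizer]
      intro a _
      rw [Subgroup.mem_centralizer_iff]
      intro b _
      have : a ∈ Subgroup.center Q := by rw [htop]; trivial
      exact Subgroup.mem_center_iff.1 this b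
    rw [hQ.1.2.2] at h3
    have hZq := hQ.2
    rw [h3] at hZq
    simp at hZq
    exact hq.one_lt.ne hZq
  have hodd : Odd r := hr.odd_of_ne_two hr2
  have heven : 2 ∣ q ^ n := by
    rw [← hn]
    obtain ⟨m, hm⟩ := hodd
    exact ⟨m, by omega⟩
  have hq2 : q = 2 := by
    have := Nat.Prime.dvd_of_dvd_pow Nat.prime_two heven
    exact ((Nat.prime_dvd_prime_iff_eq Nat.prime_two hq).1 this).symm
  refine ⟨hq2, n, ?_, ?_⟩
  · have := hr.one_lt
    rw [← hq2, ← hn]; omega
  · rw [hcard, hn, hq2]; ring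

end Cfsg.Agent.S3764
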