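import Cfsg.Statements.S3766
import Cfsg.Agent.Lib.Helper1.Cores
import Cfsg.Agent.Lib.Helper91.Fitting

set_option autoImplicit false
open Cfsg
open Cfsg.Agent.Lib.Helper91

namespace Cfsg.Agent.S3766

variable {G : Type*} [Group G]

theorem card_lt_of_lt [Finite G] {H K : Subgroup G} (h : H < K) : Nat.card H < Nat.card K := by
  refine lt_of_le_of_ne (Subgroup.card_le_of_le h.le) ?_
  intro he
  exact h.ne (Subgroup.eq_of_le_of_card_ge h.le he.ge)

/-- chief factor -/
def CF (U V : Subgroup G) : Prop :=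
  U.Normal ∧ V.Normal ∧ V < U ∧ ∀ W : Subgroup G, W.Normal → V ≤ W → W ≤ U → W = V ∨ W = U

/-- a nilpotent normal subgroup centralizes every chief factor -/
theorem commutator_le_of_nilpotent (F : Subgroup G) [hF : F.Normal] (hnil : Group.IsNilpotent F)
    (U V : Subgroup G) (h : CF U V) : ⁅U, F⁆ ≤ V := by
  obtain ⟨hU, hV, hlt, hmax⟩ := h
  have hUF : ⁅U, F⁆ ≤ U := Subgroup.commutator_le_left U F
  rcases hmax (⁅U, F⁆ ⊔ V) inferInstance le_sup_right (sup_le hUF hlt.le) with h1 | h1
  · exact h1 ▸ le_sup_left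
  · exfalso
    obtain ⟨n, hn⟩ := (Subgroup.isNilpotent_iff_lowerCentralSeries F).mp hnil
    have key : ∀ k : ℕ, U ≤ iter F U k ⊔ V := by
      intro k
      induction k with
      | zero => exact le_sup_left
      | succ k ih =>
        have := iter_normal F U k
        have := iter_normal F U (k + 1)
        have h2 : ⁅iter F U k ⊔ V, F⁆ ≤ iter F U (k + 1) ⊔ V :=
          sup_commutator_le (le_sup_left (a := iter F U (k + 1)))
            ((Subgroup.commutator_le_left V F).trans le_sup_right)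
        calc U = ⁅U, F⁆ ⊔ V := h1.symm
          _ ≤ ⁅iter F U k ⊔ V, F⁆ ⊔ V := sup_le_sup_right (Subgroup.commutator_mono ih le_rfl) V
          _ ≤ iter F U (k + 1) ⊔ V := sup_le h2 le_sup_right
    have h3 : iter F U (1 + n) = ⊥ := by
      rw [iter_add, eq_bot_iff, ← hn, ← iter_self]
      exact iter_mono F (Subgroup.commutator_le_right U F) n
    have h4 := key (1 + n)
    rw [h3, bot_sup_eq] at h4
    exact (not_le_of_gt hlt) h4

/-- below a nontrivial normal subgroup there is a chief factor -/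
theorem exists_CF [Finite G] (X : Subgroup G) [hX : X.Normal] (hne : X ≠ ⊥) : ∃ V, CF X V := by
  obtain ⟨V, hV⟩ := exists_maximal_of_wellFoundedGT
    (fun V : Subgroup G => V.Normal ∧ V < X) ⟨⊥, inferInstance, bot_lt_iff_ne_bot.mpr hne⟩
  refine ⟨V, hX, hV.1.1, hV.1.2, ?_⟩
  intro W hW hVW hWX
  by_cases h : W = X
  · right; exact h
  · left
    exact le_antisymm (hV.2 ⟨hW, lt_of_le_of_ne hWX h⟩ hVW) hVW

theorem van_of_centralizes [Finite G] (F K : Subgroup G) [K.Normal]
    (hK : ∀ U V : Subgroup G, CF U V → U ≤ F → ⁅U, K⁆ ≤ V) :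
    ∀ X : Subgroup G, X.Normal → X ≤ F → Van K X := by
  intro X
  induction' hk : Nat.card X using Nat.strong_induction_on with k ih generalizing X
  intro hX hXF
  by_cases hne : X = ⊥
  · rw [hne]; exact Van.bot K
  · obtain ⟨V, hV⟩ := exists_CF X hne
    have h1 : ⁅X, K⁆ ≤ V := hK X V hV hXF
    have h2 : ⁅X, K⁆ < X := lt_of_le_of_lt h1 hV.2.2.1
    apply Van.of_commutator
    apply ih _ _ ⁅X, K⁆ rfl inferInstance (h2.le.trans hXF)
    rw [← hk]
    exact card_lt_of_lt h2

theorem nilpotent_of_centralizes [Finite G] (F K : Subgroup G) [hF : F.Normal] [K.Normal]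
    (hK : ∀ U V : Subgroup G, CF U V → U ≤ F → ⁅U, K⁆ ≤ V) (hKK : ⁅K, K⁆ ≤ F) :
    Group.IsNilpotent K := by
  obtain ⟨n, hn⟩ := van_of_centralizes F K hK F hF le_rfl
  rw [Subgroup.isNilpotent_iff_lowerCentralSeries]
  refine ⟨1 + n, ?_⟩
  rw [← iter_self, iter_add, eq_bot_iff, ← hn]
  exact iter_mono K hKK n

theorem le_of_centralizes [Finite G] [Group.IsSolvable G] (F : Subgroup G) [hF : F.Normal]
    (N : Subgroup G)
    (hmax : ∀ D : Subgroup G, D.Normal → D ≤ N → Group.IsNilpotent D → D ≤ F) :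
    ∀ K : Subgroup G, K.Normal → K ≤ N → (∀ U V : Subgroup G, CF U V → U ≤ F → ⁅U, K⁆ ≤ V) → K ≤ F := by
  intro K
  induction' hk : Nat.card K using Nat.strong_induction_on with k ih generalizing K
  intro hKn hKN hK
  by_cases hne : K = ⊥
  · rw [hne]; exact bot_le
  · have h1 : ⁅K, K⁆ < K := Group.IsSolvable.commutator_lt_of_ne_bot hne
    have h2 : ⁅K, K⁆ ≤ F := by
      apply ih _ _ ⁅K, K⁆ rfl inferInstance (h1.le.trans hKN)
      · intro U V hUV hUF
        exact (Subgroup.commutator_mono le_rfl h1.le).trans (hK U V hUV hUF)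
      · rw [← hk]
        exact card_lt_of_lt h1
    exact hmax K hKn hKN (nilpotent_of_centralizes F K hK h2)

/-- the elements centralizing `U / V` -/
def cent (U V : Subgroup G) [V.Normal] : Subgroup G :=
  (Subgroup.centralizer (U.map (QuotientGroup.mk' V) : Set (G ⧸ V))).comap (QuotientGroup.mk' V)

theorem mem_cent (U V : Subgroup G) [V.Normal] (x : G) :
    x ∈ cent U V ↔ ∀ u ∈ U, u * x * u⁻¹ * x⁻¹ ∈ V := by
  rw [cent, Subgroup.mem_comap, Subgroup.mem_centralizer_iff]
  constructor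
  · intro h u hu
    have h1 := h (QuotientGroup.mk' V u) ⟨u, hu, rfl⟩
    rw [← QuotientGroup.eq_one_iff, ← QuotientGroup.mk'_apply]
    simp only [map_mul, map_inv]
    rw [h1]; simp
  · rintro h _ ⟨u, hu, rfl⟩
    have h1 := h u hu
    rw [← QuotientGroup.eq_one_iff, ← QuotientGroup.mk'_apply] at h1
    simp only [map_mul, map_inv] at h1
    have h2 := mul_inv_eq_one.mp h1
    exact mul_inv_eq_iff_eq_mul.mp h2

theorem cent_normal (U V : Subgroup G) [hU : U.Normal] [V.Normal] : (cent U V).Normal := by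
  have : (U.map (QuotientGroup.mk' V)).Normal := hU.map _ (QuotientGroup.mk'_surjective V)
  unfold cent
  infer_instance

theorem result {G : Type*} [Group G] [Finite G] (hG : Group.IsSolvable G) (N : Subgroup G) [N.Normal] (g : G) : (g ∈ (Cfsg.fittingSubgroup ↥N).map N.subtype ↔ g ∈ N ∧ ∀ U V : Subgroup G, (U.Normal ∧ V.Normal ∧ V < U ∧ ∀ W : Subgroup G, W.Normal → V ≤ W → W ≤ U → W = V ∨ W = U) → ∀ u ∈ U, u * g * u⁻¹ * g⁻¹ ∈ V) ∧ (g ∈ (Cfsg.fittingSubgroup ↥N).map N.subtype ↔ g ∈ N ∧ ∀ U V : Subgroup G, (U.Normal ∧ V.Normal ∧ V < U ∧ ∀ W : Subgroup G, W.Normal → V ≤ W → W ≤ U → W = V ∨ W = U) → U ≤ (Cfsg.fittingSubgroup ↥N).map N.subtype → ∀ u ∈ U, u * g * u⁻¹ * g⁻¹ ∈ V) := by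
  set F : Subgroup G := (Cfsg.fittingSubgroup ↥N).map N.subtype with hFdef
  have hFn : F.Normal := ConjAct.normal_of_characteristic_of_normal
  have hFN : F ≤ N := Subgroup.map_subtype_le _
  have hFnil : Group.IsNilpotent F := by
    have h1 : Group.IsNilpotent (Cfsg.fittingSubgroup ↥N) := fittingSubgroup_isNilpotent
    exact Group.nilpotent_of_mulEquiv
      ((Cfsg.fittingSubgroup ↥N).equivMapOfInjective N.subtype N.subtype_injective)
  have hmax : ∀ D : Subgroup G, D.Normal → D ≤ N → Group.IsNilpotent D → D ≤ F := by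
    intro D hD hDN hDnil
    have h1 : (D.subgroupOf N).Normal := inferInstance
    have h2 : Group.IsNilpotent (D.subgroupOf N) :=
      Group.nilpotent_of_mulEquiv (Subgroup.subgroupOfEquivOfLe hDN).symm
    have h3 : D.subgroupOf N ≤ Cfsg.fittingSubgroup ↥N := le_fittingSubgroup _ h2
    rw [← Subgroup.map_subgroupOf_eq_of_le hDN]
    exact Subgroup.map_mono h3
  have partA : g ∈ F → ∀ U V : Subgroup G, CF U V → ∀ u ∈ U, u * g * u⁻¹ * g⁻¹ ∈ V := by
    intro hg U V hUV u hu
    have := commutator_le_of_nilpotent F hFnil U V hUV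
    exact this (Subgroup.commutator_mem_commutator hu hg)
  have partB : g ∈ N → (∀ U V : Subgroup G, CF U V → U ≤ F → ∀ u ∈ U, u * g * u⁻¹ * g⁻¹ ∈ V) → g ∈ F := by
    intro hgN hg
    have hK : Subgroup.normalClosure {g} ≤ F := by
      apply le_of_centralizes F N hmax _ inferInstance
      · exact Subgroup.normalClosure_le_normal (by simpa using hgN)
      · intro U V hUV hUF
        have := hUV.1
        have := hUV.2.1
        have := cent_normal U V
        have h1 : Subgroup.normalClosure {g} ≤ cent U V := by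
          apply Subgroup.normalClosure_le_normal
          rw [Set.singleton_subset_iff, SetLike.mem_coe, mem_cent]
          exact hg U V hUV hUF
        rw [Subgroup.commutator_le]
        intro u hu k hk
        exact (mem_cent U V k).mp (h1 hk) u hu
    exact hK (Subgroup.subset_normalClosure (Set.mem_singleton g))
  refine ⟨⟨fun hg => ⟨hFN hg, partA hg⟩, fun h => partB h.1 (fun U V hUV _ => h.2 U V hUV)⟩,
    ⟨fun hg => ⟨hFN hg, fun U V hUV _ => partA hg U V hUV⟩, fun h => partB h.1 h.2⟩⟩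

end Cfsg.Agent.S3766
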