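import Cfsg.Statements.S3772
import Cfsg.Agent.Lib.Helper2.PGroupFrattini

set_option autoImplicit false
open Cfsg

namespace Cfsg.Agent.S3772

open Cfsg.Agent.Lib.Helper2
open scoped Classical
open scoped commutatorElement

section core
variable {G : Type*} [Group G]

/-- all squares and commutators lie in `{1, z}`, `z` a central involution. -/
structure Dat (z : G) : Prop where
  z_ne : z ≠ 1
  z_sq : z * z = 1
  z_comm : ∀ g : G, g * z = z * g
  sq : ∀ x : G, x * x = 1 ∨ x * x = z
  comm : ∀ x y : G, x * y = y * x ∨ x * y = y * x * z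

/-- sign of the square. -/
noncomputable def eps (x : G) : ℤ := if x * x = 1 then 1 else -1
/-- sign of the commutator. -/
noncomputable def bet (w x : G) : ℤ := if w * x = x * w then 1 else -1
/-- `eps` cut off outside the centre. -/
noncomputable def cen (w : G) : ℤ := if w ∈ Subgroup.center G then eps w else 0

variable {z : G}

theorem ne_of_comm (h : Dat z) {w x : G} (hc : w * x = x * w * z) : w * x ≠ x * w := by
  intro h'
  rw [h'] at hc
  exact h.z_ne (by simpa using hc.symm)

theorem eps_mul (h : Dat z) (x w : G) : eps (x * w) = eps x * eps w * bet w x := by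
  have hz1 : z ≠ 1 := h.z_ne
  rcases h.comm w x with hc | hc
  · have key : (x*w)*(x*w) = (x*x)*(w*w) := by
      calc (x*w)*(x*w) = x*(w*x)*w := by group
        _ = x*(x*w)*w := by rw [hc]
        _ = _ := by group
    have hb : bet w x = 1 := if_pos hc
    rcases h.sq x with hx | hx <;> rcases h.sq w with hw | hw <;>
      simp [eps, key, hx, hw, hb, hz1, h.z_sq]
  · have hne : w * x ≠ x * w := ne_of_comm h hc
    have key : (x*w)*(x*w) = (x*x)*(w*w)*z := by
      calc (x*w)*(x*w) = x*(w*x)*w := by group
        _ = x*(x*w*z)*w := by rw [hc]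
        _ = x*x*w*(z*w) := by group
        _ = x*x*w*(w*z) := by rw [h.z_comm w]
        _ = _ := by group
    have hb : bet w x = -1 := if_neg hne
    rcases h.sq x with hx | hx <;> rcases h.sq w with hw | hw <;>
      simp [eps, key, hx, hw, hb, hz1, h.z_sq]

theorem bet_mul (h : Dat z) (w x g : G) : bet w (x * g) = bet w x * bet w g := by
  rcases h.comm w x with hx | hx <;> rcases h.comm w g with hg | hg
  · have : w * (x * g) = x * g * w := by
      calc w * (x * g) = (w * x) * g := by group
        _ = x * (w * g) := by rw [hx]; group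
        _ = _ := by rw [hg]; group
    rw [bet, bet, bet, if_pos this, if_pos hx, if_pos hg]; rfl
  · have : w * (x * g) = x * g * w * z := by
      calc w * (x * g) = (w * x) * g := by group
        _ = x * (w * g) := by rw [hx]; group
        _ = _ := by rw [hg]; group
    rw [bet, bet, bet, if_neg (ne_of_comm h this), if_pos hx, if_neg (ne_of_comm h hg)]; rfl
  · have : w * (x * g) = x * g * w * z := by
      calc w * (x * g) = (w * x) * g := by group
        _ = x * w * (z * g) := by rw [hx]; group
        _ = x * (w * g) * z := by rw [← h.z_comm g]; group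
        _ = _ := by rw [hg]; group
    rw [bet, bet, bet, if_neg (ne_of_comm h this), if_neg (ne_of_comm h hx), if_pos hg]; rfl
  · have : w * (x * g) = x * g * w := by
      calc w * (x * g) = (w * x) * g := by group
        _ = x * w * (z * g) := by rw [hx]; group
        _ = x * (w * g) * z := by rw [← h.z_comm g]; group
        _ = x * g * w * (z * z) := by rw [hg]; group
        _ = _ := by rw [h.z_sq]; group
    rw [bet, bet, bet, if_pos this, if_neg (ne_of_comm h hx), if_neg (ne_of_comm h hg)]; rfl

theorem eps_sq (x : G) : eps x * eps x = 1 := by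
  unfold eps; split_ifs <;> norm_num

variable [Fintype G]

theorem sum_bet (h : Dat z) (w : G) :
    ∑ x, bet w x = if w ∈ Subgroup.center G then (Fintype.card G : ℤ) else 0 := by
  split_ifs with hw
  · have : ∀ x, bet w x = 1 := by
      intro x
      exact if_pos ((Subgroup.mem_center_iff.mp hw x).symm)
    simp [this]
  · have : ∃ g, w * g ≠ g * w := by
      by_contra hcon
      push Not at hcon
      exact hw (Subgroup.mem_center_iff.mpr (fun g => (hcon g).symm))
    obtain ⟨g, hg⟩ := this
    have hb : bet w g = -1 := if_neg hg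
    have h1 : ∑ x, bet w x = ∑ x, bet w (x * g) :=
      (Equiv.sum_comp (Equiv.mulRight g) (fun y => bet w y)).symm
    have h2 : ∑ x, bet w (x * g) = - ∑ x, bet w x := by
      rw [← Finset.sum_neg_distrib]
      refine Finset.sum_congr rfl (fun x _ => ?_)
      rw [bet_mul h, hb]; ring
    omega

theorem sum_cen_zero (h : Dat z) {g : G} (hg : g ∈ Subgroup.center G) (hg2 : g * g ≠ 1) :
    ∑ w : G, cen w = 0 := by
  have he : eps g = -1 := if_neg hg2
  have h1 : ∑ x : G, cen x = ∑ x : G, cen (x * g) :=
    (Equiv.sum_comp (Equiv.mulRight g) (fun y => cen y)).symm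
  have h2 : ∑ x : G, cen (x * g) = - ∑ x : G, cen x := by
    rw [← Finset.sum_neg_distrib]
    refine Finset.sum_congr rfl (fun x _ => ?_)
    have hiff : x * g ∈ Subgroup.center G ↔ x ∈ Subgroup.center G :=
      Subgroup.mul_mem_cancel_right _ hg
    have hb : bet g x = 1 := if_pos ((Subgroup.mem_center_iff.mp hg x).symm)
    unfold cen
    by_cases hx : x ∈ Subgroup.center G
    · rw [if_pos hx, if_pos (hiff.mpr hx), eps_mul h, he, hb]; ring
    · rw [if_neg hx, if_neg (fun h' => hx (hiff.mp h'))]; ring
  omega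

theorem sum_cen_card (hall : ∀ g ∈ Subgroup.center G, g * g = 1) :
    ∑ w : G, cen w = (Nat.card (Subgroup.center G) : ℤ) := by
  have : ∀ w : G, cen w = if w ∈ Subgroup.center G then 1 else 0 := by
    intro w
    unfold cen
    split_ifs with hw
    · exact if_pos (hall w hw)
    · rfl
  simp_rw [this]
  rw [Finset.sum_boole, Nat.card_eq_fintype_card, Fintype.card_subtype]

theorem T_sq (h : Dat z) :
    (∑ x : G, eps x) * (∑ x : G, eps x) = (Fintype.card G : ℤ) * ∑ w : G, cen w := by
  calc (∑ x : G, eps x) * (∑ y : G, eps y) = ∑ x : G, ∑ y : G, eps x * eps y := Finset.sum_mul_sum _ _ _ _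
    _ = ∑ x, ∑ w, eps x * eps (x * w) := by
        refine Finset.sum_congr rfl (fun x _ => ?_)
        exact (Equiv.sum_comp (Equiv.mulLeft x) (fun y => eps x * eps y)).symm
    _ = ∑ x, ∑ w, eps w * bet w x := by
        refine Finset.sum_congr rfl (fun x _ => Finset.sum_congr rfl (fun w _ => ?_))
        rw [eps_mul h]
        linear_combination (eps w * bet w x) * eps_sq x
    _ = ∑ w, ∑ x, eps w * bet w x := Finset.sum_comm
    _ = ∑ w, eps w * ∑ x, bet w x := by
        refine Finset.sum_congr rfl (fun w _ => ?_)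
        rw [Finset.mul_sum]
    _ = ∑ w, (Fintype.card G : ℤ) * cen w := by
        refine Finset.sum_congr rfl (fun w _ => ?_)
        rw [sum_bet h, cen]
        split_ifs <;> ring
    _ = _ := by rw [Finset.mul_sum]

theorem sum_eps : ∑ x : G, eps x = 2 * (Nat.card {x : G // x ^ 2 = 1} : ℤ) - Fintype.card G := by
  have : ∀ x : G, eps x = 2 * (if x ^ 2 = 1 then 1 else 0) - 1 := by
    intro x
    unfold eps
    rw [pow_two]
    split_ifs <;> norm_num
  simp_rw [this]
  rw [Finset.sum_sub_distrib, ← Finset.mul_sum, Finset.sum_boole, Nat.card_eq_fintype_card,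
    Fintype.card_subtype]
  simp

end core

theorem exists_dat {G : Type*} [Group G] [Finite G] (hG : IsPGroup 2 G)
    (hΦ : Nat.card (frattini G) = 2) :
    ∃ z : G, Dat z ∧ z ∈ frattini G ∧ ∀ y ∈ frattini G, y = 1 ∨ y = z := by
  have : Fact (Nat.Prime 2) := ⟨Nat.prime_two⟩
  obtain ⟨⟨z, hzΦ⟩, hz1, huniq⟩ := (Nat.card_eq_two_iff' (1 : frattini G)).mp hΦ
  have hz1' : z ≠ 1 := fun h => hz1 (Subtype.ext h)
  have hmem : ∀ y ∈ frattini G, y = 1 ∨ y = z := by
    intro y hy
    by_cases h1 : y = 1
    · exact Or.inl h1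
    · right
      have := huniq ⟨y, hy⟩ (fun h => h1 (congrArg Subtype.val h))
      exact congrArg Subtype.val this
  have hcomm : ∀ g : G, g * z = z * g := by
    intro g
    have hn : (frattini G).Normal := inferInstance
    rcases hmem _ (hn.conj_mem z hzΦ g) with h | h
    · exfalso
      apply hz1'
      have : z = g⁻¹ * (g * z * g⁻¹) * g := by group
      rw [this, h]; group
    · calc g * z = (g * z * g⁻¹) * g := by group
        _ = z * g := by rw [h]
  refine ⟨z, ⟨hz1', ?_, hcomm, ?_, ?_⟩, hzΦ, hmem⟩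
  · rcases hmem _ (mul_mem hzΦ hzΦ) with h | h
    · exact h
    · exfalso
      exact hz1' (by simpa using h)
  · intro x
    have := pow_p_mem_frattini hG x
    rw [pow_two] at this
    exact hmem _ this
  · intro x y
    have h1 : ⁅x, y⁆ ∈ frattini G :=
      commutator_le_frattini hG (Subgroup.commutator_mem_commutator (Subgroup.mem_top x) (Subgroup.mem_top y))
    rw [commutatorElement_def] at h1
    rcases hmem _ h1 with h | h
    · left
      calc x * y = (x * y * x⁻¹ * y⁻¹) * (y * x) := by group
        _ = y * x := by rw [h, one_mul]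
    · right
      calc x * y = (x * y * x⁻¹ * y⁻¹) * (y * x) := by group
        _ = z * (y * x) := by rw [h]
        _ = y * x * z := (hcomm _).symm

theorem core {G : Type*} [Group G] [Finite G] (hG : IsPGroup 2 G)
    (hΦ : Nat.card (frattini G) = 2) (d : ℕ) (hd : (frattini G).index = 2 ^ d) :
    ∃ k : ℕ, Nat.card (Subgroup.center G) = 2 ^ k ∧ 1 ≤ k ∧ frattini G ≤ Subgroup.center G ∧
      Nat.card G = 2 ^ (d + 1) ∧
      ((2 * (Nat.card {x : G // x ^ 2 = 1} : ℤ) - 2 ^ (d + 1)) ^ 2 = 0 ∨
       ((2 * (Nat.card {x : G // x ^ 2 = 1} : ℤ) - 2 ^ (d + 1)) ^ 2 = 2 ^ (d + 1 + k) ∧ k ≤ d)) := by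
  have : Fact (Nat.Prime 2) := ⟨Nat.prime_two⟩
  cases nonempty_fintype G
  obtain ⟨z, hz, hzΦ, hmem⟩ := exists_dat hG hΦ
  have hcard : Nat.card G = 2 ^ (d + 1) := by
    rw [← Subgroup.card_mul_index (frattini G), hΦ, hd, pow_succ, mul_comm]
  have hcard' : (Fintype.card G : ℤ) = 2 ^ (d + 1) := by
    rw [← Nat.card_eq_fintype_card, hcard]; norm_cast
  obtain ⟨k, hk⟩ := (hG.to_subgroup (Subgroup.center G)).exists_card_eq
  have hzc : z ∈ Subgroup.center G := Subgroup.mem_center_iff.mpr hz.z_comm
  have hle : frattini G ≤ Subgroup.center G := by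
    intro y hy
    rcases hmem y hy with h | h
    · rw [h]; exact one_mem _
    · rw [h]; exact hzc
  have hk1 : 1 ≤ k := by
    rcases Nat.eq_zero_or_pos k with h0 | h0
    · exfalso
      rw [h0, pow_zero, Subgroup.card_eq_one] at hk
      rw [hk, Subgroup.mem_bot] at hzc
      exact hz.z_ne hzc
    · exact h0
  refine ⟨k, hk, hk1, hle, hcard, ?_⟩
  have hT := T_sq hz
  rw [sum_eps, hcard'] at hT
  by_cases hall : ∀ g ∈ Subgroup.center G, g * g = 1
  · right
    constructor
    · rw [sum_cen_card hall, hk] at hT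
      rw [pow_two, hT, pow_add (2 : ℤ) (d + 1) k]
      norm_cast
    · by_contra hkd
      have hge : Nat.card G ≤ Nat.card (Subgroup.center G) := by
        rw [hcard, hk]
        exact Nat.pow_le_pow_right (by norm_num) (by omega)
      have htop : Subgroup.center G = ⊤ :=
        Subgroup.eq_top_of_card_eq _ (le_antisymm (Subgroup.card_le_card_group _) hge)
      have hbot : frattini G = ⊥ := by
        apply frattini_eq_bot_of_elementary (p := 2)
        · intro x y
          have hx : x ∈ Subgroup.center G := by rw [htop]; trivial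
          exact (Subgroup.mem_center_iff.mp hx y).symm
        · intro x
          rw [pow_two]
          exact hall x (by rw [htop]; trivial)
      rw [hbot] at hΦ
      simp at hΦ
  · left
    push Not at hall
    obtain ⟨g, hg, hg2⟩ := hall
    rw [sum_cen_zero hz hg hg2, mul_zero] at hT
    rw [pow_two, hT]

theorem result {G : Type*} [Group G] [Finite G] (hG : IsPGroup 2 G) (hΦ : Nat.card (frattini G) = 2) (d : ℕ) (hd : (frattini G).index = 2 ^ d) : (Nat.card {x : G // x ^ 2 = 1} = 2 ^ d ∨ ∃ r : ℕ, 1 ≤ r ∧ 2 * r ≤ d ∧ (Nat.card {x : G // x ^ 2 = 1} = 2 ^ d + 2 ^ (d - r) ∨ Nat.card {x : G // x ^ 2 = 1} + 2 ^ (d - r) = 2 ^ d)) ∧ (∀ r : ℕ, d = 2 * r → (Nat.card {x : G // x ^ 2 = 1} = 2 ^ d + 2 ^ r ∨ Nat.card {x : G // x ^ 2 = 1} + 2 ^ r = 2 ^ d) → Cfsg.IsExtraspecial 2 G) := by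
  have : Fact (Nat.Prime 2) := ⟨Nat.prime_two⟩
  obtain ⟨k, hk, hk1, hle, hcard, hcase⟩ := core hG hΦ d hd
  set J := Nat.card {x : G // x ^ 2 = 1} with hJ
  constructor
  · rcases hcase with h0 | ⟨h1, hkd⟩
    · left
      have h2 : 2 * (J : ℤ) - 2 ^ (d + 1) = 0 := by
        exact pow_eq_zero_iff (two_ne_zero) |>.mp h0
      have h3 : (J : ℤ) = 2 ^ d := by
        rw [pow_succ] at h2; linarith
      exact_mod_cast h3
    · right
      obtain ⟨k', rfl⟩ : ∃ k', k = k' + 1 := ⟨k - 1, by omega⟩
      have h2 : ((J : ℤ) - 2 ^ d) ^ 2 = 2 ^ (d + k') := by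
        have e1 : (2 * (J : ℤ) - 2 ^ (d + 1)) ^ 2 = 4 * ((J : ℤ) - 2 ^ d) ^ 2 := by
          rw [pow_succ]; ring
        have e2 : (2 : ℤ) ^ (d + 1 + (k' + 1)) = 4 * 2 ^ (d + k') := by
          have : d + 1 + (k' + 1) = (d + k') + 2 := by ring
          rw [this, pow_add]; ring
        rw [e1, e2] at h1
        linarith
      set a := ((J : ℤ) - 2 ^ d).natAbs with ha
      have h3 : a ^ 2 = 2 ^ (d + k') := by
        have : ((a ^ 2 : ℕ) : ℤ) = ((2 ^ (d + k') : ℕ) : ℤ) := by
          push_cast
          rw [ha, Int.natAbs_sq, h2]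
        exact_mod_cast this
      have h4 : a ∣ 2 ^ (d + k') := by
        rw [← h3]; exact Dvd.intro_left _ (by ring)
      obtain ⟨m, _, hm⟩ := (Nat.dvd_prime_pow Nat.prime_two).mp h4
      rw [hm, ← pow_mul] at h3
      have h5 : m * 2 = d + k' := Nat.pow_right_injective (le_refl 2) h3
      refine ⟨d - m, by omega, by omega, ?_⟩
      have h6 : d - (d - m) = m := by omega
      rw [h6]
      rcases Int.natAbs_eq ((J : ℤ) - 2 ^ d) with h7 | h7
      · left
        rw [← ha, hm] at h7
        have : (J : ℤ) = 2 ^ d + 2 ^ m := by push_cast at h7; linarith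
        exact_mod_cast this
      · right
        rw [← ha, hm] at h7
        have : (J : ℤ) + 2 ^ m = 2 ^ d := by push_cast at h7; linarith
        exact_mod_cast this
  · intro r hdr hJr
    have h1 : (2 * (J : ℤ) - 2 ^ (d + 1)) ^ 2 = 2 ^ (d + 2) := by
      have e : (2 : ℤ) ^ (d + 2) = 4 * (2 ^ r) ^ 2 := by
        rw [hdr, ← pow_mul, pow_add, mul_comm r 2]; ring
      rw [e]
      rcases hJr with h | h
      · have : (J : ℤ) = 2 ^ d + 2 ^ r := by exact_mod_cast h
        rw [this, pow_succ]; ring
      · have : (J : ℤ) + 2 ^ r = 2 ^ d := by exact_mod_cast h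
        have : (J : ℤ) = 2 ^ d - 2 ^ r := by linarith
        rw [this, pow_succ]; ring
    rcases hcase with h0 | ⟨h2, hkd⟩
    · exfalso
      rw [h0] at h1
      have : (0 : ℤ) < 2 ^ (d + 2) := by positivity
      omega
    · rw [h2] at h1
      have h3 : d + 1 + k = d + 2 := by
        have : (2 : ℕ) ^ (d + 1 + k) = 2 ^ (d + 2) := by exact_mod_cast h1
        exact Nat.pow_right_injective (le_refl 2) this
      have hk' : k = 1 := by omega
      rw [hk', pow_one] at hk
      have hfc : frattini G = Subgroup.center G :=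
        Subgroup.eq_of_le_of_card_ge hle (by rw [hk, hΦ])
      refine ⟨⟨hG, hfc, ?_⟩, hk⟩
      have hcl : commutator G ≤ Subgroup.center G := by
        rw [← hfc]; exact commutator_le_frattini hG
      apply Subgroup.eq_of_le_of_card_ge hcl
      rw [hk]
      have hne : commutator G ≠ ⊥ := by
        intro hb
        rw [commutator_eq_bot_iff_center_eq_top] at hb
        rw [hb, Subgroup.card_top, hcard] at hk
        have : (2 : ℕ) ^ (d + 1) = 2 ^ 1 := by rw [hk, pow_one]
        have := Nat.pow_right_injective (le_refl 2) this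
        omega
      have hpos : 0 < Nat.card (commutator G) := Nat.card_pos
      have hne1 : Nat.card (commutator G) ≠ 1 := by
        rw [Ne, Subgroup.card_eq_one]; exact hne
      omega

end Cfsg.Agent.S3772
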