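import Cfsg.Statements.S3774

set_option autoImplicit false
open Cfsg

namespace Cfsg.Agent.S3774

theorem dvd_of_two_pow_sub_one_dvd (a n : ℕ) (h : 2 ^ a - 1 ∣ 2 ^ n - 1) : a ∣ n := by
  have h1 := Nat.pow_sub_one_gcd_pow_sub_one 2 a n
  rw [Nat.gcd_eq_left h] at h1
  have h2 : 2 ^ a = 2 ^ (Nat.gcd a n) := by
    have := Nat.one_le_two_pow (n := a)
    have := Nat.one_le_two_pow (n := Nat.gcd a n)
    omega
  have h3 : a = Nat.gcd a n := Nat.pow_right_injective (le_refl 2) h2
  rw [h3]
  exact Nat.gcd_dvd_right a n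

/-- the involution which is a power of `x` -/
noncomputable def inv2 {G : Type*} [Group G] (x : G) : G := x ^ (orderOf x / 2)

theorem inv2_map {G : Type*} [Group G] (a : MulAut G) (x : G) : inv2 (a x) = a (inv2 x) := by
  unfold inv2
  have : orderOf (a x) = orderOf x := orderOf_injective a.toMonoidHom a.injective x
  rw [this, map_pow]

theorem inv2_spec {G : Type*} [Group G] [Finite G] (hG : IsPGroup 2 G) (x : G) (hx : x ≠ 1) :
    inv2 x ≠ 1 ∧ inv2 x ^ 2 = 1 := by
  haveI : Fact (Nat.Prime 2) := ⟨Nat.prime_two⟩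
  have h2 : 2 ∣ orderOf x := hG.dvd_orderOf hx
  have hpos : 0 < orderOf x := orderOf_pos x
  obtain ⟨m, hm⟩ := h2
  unfold inv2
  have hm2 : orderOf x / 2 = m := by omega
  rw [hm2]
  constructor
  · apply pow_ne_one_of_lt_orderOf <;> omega
  · rw [← pow_mul, mul_comm, ← hm, pow_orderOf_eq_one]

/-- Let G be a nontrivial finite 2-group whose automorphism group permutes the involutions of G transitively. Then every involution of G is central, so that the involutions together with 1 form the subgroup Ω₁(Z(G)), and if this subgroup has order q then |G| is a power of q. -/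
theorem result {G : Type*} [Group G] [Finite G] [Nontrivial G] (hG : IsPGroup 2 G) (htrans : ∀ x y : G, x ≠ 1 → x ^ 2 = 1 → y ≠ 1 → y ^ 2 = 1 → ∃ a : MulAut G, a x = y) : (∀ x : G, x ^ 2 = 1 → x ∈ Subgroup.center G) ∧ ∃ m : ℕ, Nat.card G = Nat.card {z : G // z ^ 2 = 1} ^ m := by
  classical
  haveI : Fact (Nat.Prime 2) := ⟨Nat.prime_two⟩
  -- a central involution
  obtain ⟨z0, hz0c, hz01, hz02⟩ : ∃ z : G, z ∈ Subgroup.center G ∧ z ≠ 1 ∧ z ^ 2 = 1 := by
    haveI := hG.center_nontrivial
    obtain ⟨c, hc⟩ := exists_ne (1 : Subgroup.center G)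
    have hc' : (c : G) ≠ 1 := fun h => hc (Subtype.ext h)
    refine ⟨inv2 (c : G), ?_, (inv2_spec hG _ hc').1, (inv2_spec hG _ hc').2⟩
    exact Subgroup.pow_mem _ c.2 _
  have hcen : ∀ x : G, x ^ 2 = 1 → x ∈ Subgroup.center G := by
    intro x hx
    by_cases hx1 : x = 1
    · rw [hx1]; exact Subgroup.one_mem _
    · obtain ⟨a, ha⟩ := htrans z0 x hz01 hz02 hx1 hx
      rw [← ha]
      rw [Subgroup.mem_center_iff] at hz0c ⊢
      intro g
      have := hz0c (a.symm g)
      have h2 := congrArg a this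
      simpa using h2
  refine ⟨hcen, ?_⟩
  -- the subgroup of involutions
  let Z : Subgroup G :=
    { carrier := {z | z ^ 2 = 1}
      one_mem' := by simp
      mul_mem' := by
        intro a b ha hb
        have hc : Commute a b := by
          have := hcen a ha
          rw [Subgroup.mem_center_iff] at this
          exact (this b).symm
        show (a * b) ^ 2 = 1
        rw [hc.mul_pow, show a ^ 2 = 1 from ha, show b ^ 2 = 1 from hb, one_mul]
      inv_mem' := by
        intro a ha
        show (a⁻¹) ^ 2 = 1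
        rw [inv_pow, show a ^ 2 = 1 from ha, inv_one] }
  have hZcard : Nat.card {z : G // z ^ 2 = 1} = Nat.card Z := rfl
  obtain ⟨a, ha⟩ := (IsPGroup.iff_card (p := 2)).mp (hG.to_subgroup Z)
  obtain ⟨n, hn⟩ := (IsPGroup.iff_card (p := 2)).mp hG
  haveI : Fintype G := Fintype.ofFinite G
  let s : Finset G := Finset.univ.filter (fun x => x ≠ 1)
  let t : Finset G := Finset.univ.filter (fun z => z ≠ 1 ∧ z ^ 2 = 1)
  have hs : s.card = 2 ^ n - 1 := by
    have : s = Finset.univ.erase 1 := by
      ext x; simp [s]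
    rw [this, Finset.card_erase_of_mem (Finset.mem_univ _), Finset.card_univ, ← Nat.card_eq_fintype_card, hn]
  have ht : t.card = 2 ^ a - 1 := by
    have : t = (Finset.univ.filter (fun z : G => z ^ 2 = 1)).erase 1 := by
      ext x; simp [t]
    rw [this, Finset.card_erase_of_mem (by simp), ← Fintype.card_subtype, ← Nat.card_eq_fintype_card, hZcard, ha]
  have hmaps : ∀ x ∈ s, inv2 x ∈ t := by
    intro x hx
    have hx1 : x ≠ 1 := by simpa [s] using hx
    have := inv2_spec hG x hx1
    simpa [t] using this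
  have hfib := Finset.card_eq_sum_card_fiberwise hmaps
  have hle : ∀ z ∈ t, ∀ w ∈ t, (s.filter (fun x => inv2 x = z)).card ≤ (s.filter (fun x => inv2 x = w)).card := by
    intro z hz w hw
    have hz' : z ≠ 1 ∧ z ^ 2 = 1 := by simpa [t] using hz
    have hw' : w ≠ 1 ∧ w ^ 2 = 1 := by simpa [t] using hw
    obtain ⟨f, hf⟩ := htrans z w hz'.1 hz'.2 hw'.1 hw'.2
    apply Finset.card_le_card_of_injOn (fun x => f x)
    · intro x hx
      have hx' : x ≠ 1 ∧ inv2 x = z := by simpa [s] using hx
      have : f x ≠ 1 ∧ inv2 (f x) = w := by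
        refine ⟨?_, ?_⟩
        · intro h
          apply hx'.1
          have := f.injective (h.trans (map_one f).symm)
          exact this
        · rw [inv2_map, hx'.2, hf]
      simpa [s] using this
    · intro x _ y _ hxy
      exact f.injective hxy
  have hconst : ∀ z ∈ t, (s.filter (fun x => inv2 x = z)).card = (s.filter (fun x => inv2 x = z0)).card := by
    intro z hz
    have hz0 : z0 ∈ t := by simp [t, hz01, hz02]
    exact le_antisymm (hle z hz z0 hz0) (hle z0 hz0 z hz)
  rw [Finset.sum_const_nat hconst, hs, ht] at hfib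
  have hdvd : a ∣ n := dvd_of_two_pow_sub_one_dvd a n ⟨_, hfib⟩
  obtain ⟨c, hc⟩ := hdvd
  refine ⟨c, ?_⟩
  rw [hZcard, ha, hn, hc, pow_mul]

end Cfsg.Agent.S3774
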