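import Cfsg.Statements.S3781
import Cfsg.Agent.S4206
import Cfsg.Agent.Lib.Helper91.Fitting

set_option autoImplicit false
open Cfsg

namespace Cfsg.Agent.S3781

open Cfsg.Agent.Lib.Helper91

variable {G : Type*} [Group G]

/-- `[A, G, …, G]` (`k` times). -/
def cm (A : Subgroup G) : ℕ → Subgroup G
  | 0 => A
  | k+1 => ⁅cm A k, (⊤ : Subgroup G)⁆

theorem cm_normal (A : Subgroup G) [hA : A.Normal] (k : ℕ) : (cm A k).Normal := by
  induction k with
  | zero => exact hA
  | succ k ih => exact Subgroup.commutator_normal _ _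

theorem cm_succ_le (A : Subgroup G) [hA : A.Normal] (k : ℕ) : cm A (k+1) ≤ cm A k := by
  have := cm_normal A k
  exact Subgroup.commutator_le_left _ _

theorem cm_le (A : Subgroup G) [hA : A.Normal] (k : ℕ) : cm A k ≤ A := by
  induction k with
  | zero => exact le_rfl
  | succ k ih => exact (cm_succ_le A k).trans ih

theorem cm_mono {A B : Subgroup G} (h : A ≤ B) (k : ℕ) : cm A k ≤ cm B k := by
  induction k with
  | zero => exact h
  | succ k ih => exact Subgroup.commutator_mono ih le_rfl

theorem cm_shift (A : Subgroup G) (k : ℕ) : cm A (k+1) = cm ⁅A, (⊤ : Subgroup G)⁆ k := by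
  induction k with
  | zero => rfl
  | succ k ih =>
    show ⁅cm A (k+1), (⊤ : Subgroup G)⁆ = ⁅cm ⁅A, (⊤ : Subgroup G)⁆ k, (⊤ : Subgroup G)⁆
    rw [ih]

theorem le_of_le_commutator_sup [hnil : Group.IsNilpotent G] (A B : Subgroup G) [hB : B.Normal]
    (h : A ≤ ⁅A, (⊤ : Subgroup G)⁆ ⊔ B) : A ≤ B := by
  have key : ∀ k, A ≤ (⊤ : Subgroup G).lowerCentralSeries k ⊔ B := by
    intro k
    induction k with
    | zero => simp
    | succ k ih =>
      refine h.trans (sup_le ?_ le_sup_right)
      refine (Subgroup.commutator_mono ih le_rfl).trans ?_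
      have hn : ((⊤ : Subgroup G).lowerCentralSeries (k+1) ⊔ B).Normal := inferInstance
      apply sup_commutator_le
      · exact le_sup_left
      · exact (Subgroup.commutator_le_left _ _).trans le_sup_right
  obtain ⟨c, hc⟩ := Subgroup.nilpotent_iff_lowerCentralSeries.mp hnil
  have := key c
  rwa [hc, bot_sup_eq] at this

theorem p_le_relIndex [Finite G] {p : ℕ} [Fact p.Prime] (hG : IsPGroup p G) {H K : Subgroup G}
    (hne : ¬ K ≤ H) : p ≤ H.relIndex K := by
  have hrel : H.relIndex K ≠ 1 := by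
    intro h1
    rw [Subgroup.relIndex_eq_one] at h1
    exact hne h1
  have hKp : IsPGroup p K := hG.to_subgroup K
  obtain ⟨n, hn⟩ := hKp.index (H.subgroupOf K)
  rw [Subgroup.relIndex, hn]
  rw [Subgroup.relIndex, hn] at hrel
  cases n with
  | zero => simp at hrel
  | succ n =>
    calc p = p ^ 1 := (pow_one p).symm
      _ ≤ p ^ (n+1) := Nat.pow_le_pow_right (Fact.out : p.Prime).pos (by omega)

theorem cm_le_of_relIndex_lt [Finite G] {p : ℕ} [Fact p.Prime] (hG : IsPGroup p G) (m : ℕ) :
    ∀ (A B : Subgroup G) [A.Normal] [B.Normal], B ≤ A → B.relIndex A < p ^ (m+1) → cm A m ≤ B := by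
  have hnil : Group.IsNilpotent G := hG.isNilpotent
  induction m with
  | zero =>
    intro A B _ _ hBA hlt
    by_contra hne
    have := p_le_relIndex hG (H := B) (K := A) hne
    simp at hlt
    omega
  | succ m ih =>
    intro A B hA hB hBA hlt
    by_cases hAB : A ≤ B
    · exact (cm_le A _).trans hAB
    · set A' := ⁅A, (⊤ : Subgroup G)⁆ ⊔ B with hA'
      have hA'n : A'.Normal := inferInstance
      have hA'A : A' ≤ A := sup_le (Subgroup.commutator_le_left _ _) hBA
      have hne : ¬ A ≤ A' := fun h => hAB (le_of_le_commutator_sup A B h)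
      have h1 : p ≤ A'.relIndex A := p_le_relIndex hG hne
      have h2 : B.relIndex A' * A'.relIndex A = B.relIndex A :=
        Subgroup.relIndex_mul_relIndex B A' A le_sup_right hA'A
      have h3 : B.relIndex A' < p ^ (m+1) := by
        by_contra hcon
        push Not at hcon
        have : p ^ (m+1) * p ≤ B.relIndex A' * A'.relIndex A := Nat.mul_le_mul hcon h1
        rw [h2, ← pow_succ] at this
        omega
      have h4 := ih A' B le_sup_right h3
      rw [cm_shift]
      exact (cm_mono le_sup_left m).trans h4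

theorem lcs_normal (N : Subgroup G) [hN : N.Normal] (k : ℕ) : (N.lowerCentralSeries k).Normal := by
  induction k with
  | zero => exact hN
  | succ k ih => exact Subgroup.commutator_normal _ _

theorem result {G : Type*} [Group G] [Finite G] {p : ℕ} [Fact p.Prime] (hG : IsPGroup p G) (n : ℕ) (hn : 1 ≤ n) (N : Subgroup G) [N.Normal] (hN : N ≤ (⊤ : Subgroup G).lowerCentralSeries (n - 1)) (i : ℕ) (hi : 1 < i) (hne : N.lowerCentralSeries i ≠ ⊥) : p ^ n ≤ (N.lowerCentralSeries i).relIndex (N.lowerCentralSeries (i - 1)) := by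
  have hnil : Group.IsNilpotent G := hG.isNilpotent
  obtain ⟨j, rfl⟩ : ∃ j, i = j + 1 := ⟨i - 1, by omega⟩
  obtain ⟨m, rfl⟩ : ∃ m, n = m + 1 := ⟨n - 1, by omega⟩
  simp only [Nat.add_sub_cancel] at hN ⊢
  set A := N.lowerCentralSeries j with hA
  set B := N.lowerCentralSeries (j+1) with hB
  have hAn : A.Normal := lcs_normal N j
  have hBn : B.Normal := lcs_normal N (j+1)
  have hBA : B ≤ A := N.lowerCentralSeries_antitone (Nat.le_succ j)
  by_contra hlt
  push Not at hlt
  have h1 : cm A m ≤ B := cm_le_of_relIndex_lt hG m A B hBA hlt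
  have h2 : ⁅A, (⊤ : Subgroup G).lowerCentralSeries m⁆ ≤ cm A (m+1) := by
    have := Cfsg.Agent.S4206.result (cm A) (fun k => cm_normal A k) (fun k => cm_succ_le A k) ⊤
      (fun k => le_rfl) 0 m
    rw [zero_add] at this
    exact this
  have h3 : B ≤ ⁅B, (⊤ : Subgroup G)⁆ := by
    calc B = ⁅A, N⁆ := rfl
      _ ≤ ⁅A, (⊤ : Subgroup G).lowerCentralSeries m⁆ := Subgroup.commutator_mono le_rfl hN
      _ ≤ cm A (m+1) := h2
      _ = ⁅cm A m, (⊤ : Subgroup G)⁆ := rfl
      _ ≤ ⁅B, (⊤ : Subgroup G)⁆ := Subgroup.commutator_mono h1 le_rfl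
  have h4 : B ≤ ⊥ := le_of_le_commutator_sup B ⊥ (by simpa using h3)
  exact hne (eq_bot_iff.mpr h4)

end Cfsg.Agent.S3781
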