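import Cfsg.Statements.S3778
import Cfsg.Agent.S3781

set_option autoImplicit false
open Cfsg

namespace Cfsg.Agent.S3778

open Cfsg.Agent.S3781
open scoped commutatorElement
open scoped Classical

variable {G : Type*} [Group G]

/-- lower central series of the whole group. -/
abbrev L (G : Type*) [Group G] (k : ℕ) : Subgroup G := (⊤ : Subgroup G).lowerCentralSeries k

theorem L_normal (k : ℕ) : (L G k).Normal := lcs_normal ⊤ k

/-- two-step centralizer. -/
def K (G : Type*) [Group G] (i : ℕ) : Subgroup G where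
  carrier := {x | ∀ g ∈ L G i, ⁅g, x⁆ ∈ L G (i+2)}
  one_mem' := by
    intro g _
    rw [commutatorElement_one_right]; exact one_mem _
  mul_mem' := by
    intro a b ha hb g hg
    have hn := L_normal (G := G) (i+2)
    rw [commutatorElement_mul_right_eq_mul_conj]
    have e : ⁅g, a⁆ * a * ⁅g, b⁆ * a⁻¹ = ⁅g, a⁆ * (a * ⁅g, b⁆ * a⁻¹) := by group
    rw [e]
    exact mul_mem (ha g hg) (hn.conj_mem _ (hb g hg) a)
  inv_mem' := by
    intro a ha g hg
    have hn := L_normal (G := G) (i+2)
    rw [commutatorElement_inv_right]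
    have h1 : ⁅a, g⁆ ∈ L G (i+2) := by
      rw [← commutatorElement_inv]; exact inv_mem (ha g hg)
    have := hn.conj_mem _ h1 a⁻¹
    simpa using this

theorem mem_K {i : ℕ} {x : G} : x ∈ K G i ↔ ∀ g ∈ L G i, ⁅g, x⁆ ∈ L G (i+2) := Iff.rfl

theorem K_ne_top [hnil : Group.IsNilpotent G] {i : ℕ} (hi : L G (i+1) ≠ ⊥) : ¬ (⊤ : Subgroup G) ≤ K G i := by
  intro htop
  apply hi
  rw [eq_bot_iff]
  apply le_of_le_commutator_sup (L G (i+1)) ⊥
  rw [sup_bot_eq]
  show ⁅L G i, (⊤ : Subgroup G)⁆ ≤ L G (i+2)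
  rw [Subgroup.commutator_le]
  intro g hg x _
  exact htop (Subgroup.mem_top x) g hg

theorem mem_K_of_le {k : ℕ} {x : G}
    (h : Subgroup.centralizer {x} ⊔ L G k ≤ Subgroup.centralizer {x} ⊔ L G (k+1)) : x ∈ K G k := by
  intro g hg
  have hn1 := L_normal (G := G) (k+1)
  have hn2 := L_normal (G := G) (k+2)
  have hg' : g ∈ Subgroup.centralizer {x} ⊔ L G (k+1) := h (Subgroup.mem_sup_right hg)
  rw [Subgroup.mem_sup_of_normal_right] at hg'
  obtain ⟨c, hc, l, hl, rfl⟩ := hg'
  rw [Subgroup.mem_centralizer_singleton_iff] at hc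
  have h1 : ⁅l, x⁆ ∈ L G (k+2) := Subgroup.commutator_mem_commutator hl (Subgroup.mem_top x)
  have h2 : ⁅c * l, x⁆ = c * ⁅l, x⁆ * c⁻¹ := by
    have hc' : x * c⁻¹ = c⁻¹ * x := by
      calc x * c⁻¹ = c⁻¹ * (c * x) * c⁻¹ := by group
        _ = c⁻¹ * (x * c) * c⁻¹ := by rw [hc]
        _ = c⁻¹ * x := by group
    calc ⁅c * l, x⁆ = c * l * x * l⁻¹ * (c⁻¹ * x⁻¹) := by rw [commutatorElement_def]; group
      _ = c * l * x * l⁻¹ * (x⁻¹ * (x * c⁻¹) * x⁻¹) := by group
      _ = c * l * x * l⁻¹ * (x⁻¹ * (c⁻¹ * x) * x⁻¹) := by rw [hc']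
      _ = c * ⁅l, x⁆ * c⁻¹ := by rw [commutatorElement_def]; group
  rw [h2]
  exact hn2.conj_mem _ h1 c

theorem pow_count_le [Finite G] {p : ℕ} [Fact p.Prime] (hG : IsPGroup p G) (x : G) (k : ℕ) :
    p ^ ((Finset.range k).filter (fun i => x ∉ K G i)).card ≤
      (Subgroup.centralizer {x} ⊔ L G k).index := by
  induction k with
  | zero => simp [L]
  | succ k ih =>
    have hle : Subgroup.centralizer {x} ⊔ L G (k+1) ≤ Subgroup.centralizer {x} ⊔ L G k :=
      sup_le_sup_left ((⊤ : Subgroup G).lowerCentralSeries_antitone (Nat.le_succ k)) _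
    have hmul := Subgroup.relIndex_mul_index hle
    rw [Finset.range_add_one, Finset.filter_insert]
    by_cases hx : x ∉ K G k
    · rw [if_pos hx, Finset.card_insert_of_notMem (by simp), pow_succ, ← hmul, mul_comm]
      apply Nat.mul_le_mul _ ih
      apply p_le_relIndex hG
      intro hcon
      exact hx (mem_K_of_le hcon)
    · rw [if_neg hx]
      refine ih.trans ?_
      rw [← hmul]
      apply Nat.le_mul_of_pos_left
      rcases Nat.eq_zero_or_pos ((Subgroup.centralizer {x} ⊔ L G (k+1)).relIndex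
        (Subgroup.centralizer {x} ⊔ L G k)) with h0 | h0
      · exfalso
        rw [h0, zero_mul] at hmul
        exact Subgroup.index_ne_zero_of_finite hmul.symm
      · exact h0

theorem count_le [Finite G] {p : ℕ} [hp : Fact p.Prime] (hG : IsPGroup p G) (b : ℕ) (x : G)
    (hb : (Subgroup.centralizer ({x} : Set G)).index ≤ p ^ b) (k : ℕ) :
    ((Finset.range k).filter (fun i => x ∉ K G i)).card ≤ b := by
  have h1 := pow_count_le hG x k
  have h2 : (Subgroup.centralizer {x} ⊔ L G k).index ≤ (Subgroup.centralizer ({x} : Set G)).index :=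
    Nat.le_of_dvd (Nat.pos_of_ne_zero Subgroup.index_ne_zero_of_finite)
      (Subgroup.index_dvd_of_le le_sup_left)
  exact (Nat.pow_le_pow_iff_right hp.out.one_lt).mp (h1.trans (h2.trans hb))

theorem main_ineq [Finite G] {p : ℕ} [hp : Fact p.Prime] (hG : IsPGroup p G) (b : ℕ)
    (hb : ∀ x : G, (Subgroup.centralizer ({x} : Set G)).index ≤ p ^ b) (m : ℕ)
    (hm : ∀ i < m, L G (i+1) ≠ ⊥) :
    m * ((p - 1) * Nat.card G) ≤ p * (b * (Nat.card G - 1)) := by
  have hnil : Group.IsNilpotent G := hG.isNilpotent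
  cases nonempty_fintype G
  have hswap : ∑ x : G, ((Finset.range m).filter (fun i => x ∉ K G i)).card =
      ∑ i ∈ Finset.range m, ((Finset.univ : Finset G).filter (fun x => x ∉ K G i)).card :=
    Finset.sum_card_bipartiteAbove_eq_sum_card_bipartiteBelow (fun (x : G) (i : ℕ) => x ∉ K G i)
  have hupper : ∑ x : G, ((Finset.range m).filter (fun i => x ∉ K G i)).card ≤
      b * (Nat.card G - 1) := by
    have h1 : ((Finset.range m).filter (fun i => (1 : G) ∉ K G i)).card = 0 := by
      rw [Finset.card_eq_zero, Finset.filter_eq_empty_iff]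
      intro i _ h
      exact h (one_mem _)
    rw [← Finset.sum_erase (Finset.univ : Finset G)
      (f := fun x => ((Finset.range m).filter (fun i => x ∉ K G i)).card) (a := 1) h1]
    have h2 := Finset.sum_le_card_nsmul ((Finset.univ : Finset G).erase 1)
      (fun x => ((Finset.range m).filter (fun i => x ∉ K G i)).card) b
      (fun x _ => count_le hG b x (hb x) m)
    rw [Finset.card_erase_of_mem (Finset.mem_univ _), Finset.card_univ, smul_eq_mul,
      ← Nat.card_eq_fintype_card, mul_comm] at h2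
    exact h2
  have hlower : ∀ i ∈ Finset.range m, (p - 1) * Nat.card G ≤
      p * ((Finset.univ : Finset G).filter (fun x => x ∉ K G i)).card := by
    intro i hi
    have hi' := hm i (Finset.mem_range.mp hi)
    have h1 : p ≤ (K G i).index := by
      rw [← Subgroup.relIndex_top_right]
      exact p_le_relIndex hG (K_ne_top hi')
    have h2 := (K G i).card_mul_index
    have h3 : ((Finset.univ : Finset G).filter (fun x => x ∈ K G i)).card +
        ((Finset.univ : Finset G).filter (fun x => x ∉ K G i)).card = Nat.card G := by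
      rw [Finset.card_filter_add_card_filter_not, Finset.card_univ, Nat.card_eq_fintype_card]
    have h4 : ((Finset.univ : Finset G).filter (fun x => x ∈ K G i)).card = Nat.card (K G i) := by
      rw [Nat.card_eq_fintype_card, Fintype.card_subtype]
    rw [h4] at h3
    set a := Nat.card G
    set k := Nat.card (K G i)
    set n := ((Finset.univ : Finset G).filter (fun x => x ∉ K G i)).card
    have h5 : k * p ≤ a := by
      rw [← h2]; exact Nat.mul_le_mul_left _ h1
    obtain ⟨q, hq⟩ : ∃ q, p = q + 1 := ⟨p - 1, by have := hp.out.pos; omega⟩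
    rw [hq] at h5 ⊢
    simp only [Nat.add_sub_cancel]
    nlinarith
  calc m * ((p - 1) * Nat.card G) = ∑ i ∈ Finset.range m, (p - 1) * Nat.card G := by simp
    _ ≤ ∑ i ∈ Finset.range m, p * ((Finset.univ : Finset G).filter (fun x => x ∉ K G i)).card :=
        Finset.sum_le_sum hlower
    _ = p * ∑ i ∈ Finset.range m, ((Finset.univ : Finset G).filter (fun x => x ∉ K G i)).card := by
        rw [Finset.mul_sum]
    _ ≤ p * (b * (Nat.card G - 1)) := by
        rw [← hswap]; exact Nat.mul_le_mul_left _ hupper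

theorem result {G : Type*} [Group G] [Finite G] {p : ℕ} [Fact p.Prime] (hG : IsPGroup p G) (b : ℕ) (hb : ∀ x : G, (Subgroup.centralizer ({x} : Set G)).index ≤ p ^ b) : ∃ c : ℕ, (⊤ : Subgroup G).lowerCentralSeries c = ⊥ ∧ (b ≠ 0 → (c - 1) * (p - 1) < b * p ∧ c ≤ 2 * b) ∧ (b = 0 → c ≤ 1) := by
  have hp : p.Prime := Fact.out
  have hnil : Group.IsNilpotent G := hG.isNilpotent
  refine ⟨Group.nilpotencyClass G, Subgroup.lowerCentralSeries_nilpotencyClass, ?_⟩
  set c := Group.nilpotencyClass G with hc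
  have hm : ∀ i < c - 1, L G (i+1) ≠ ⊥ := by
    intro i hi h
    rw [Subgroup.lowerCentralSeries_eq_bot_iff_nilpotencyClass_le] at h
    omega
  have key := main_ineq hG b hb (c - 1) hm
  have hpos : 0 < Nat.card G := Nat.card_pos
  set a := Nat.card G
  have hp2 : 2 ≤ p := hp.two_le
  constructor
  · intro hb0
    have h1 : (c - 1) * (p - 1) < b * p := by
      by_contra hcon
      push Not at hcon
      have h2 : b * p * a ≤ (c - 1) * (p - 1) * a := Nat.mul_le_mul_right _ hcon
      have h3 : p * (b * (a - 1)) < b * p * a := by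
        have : p * (b * (a - 1)) = b * p * (a - 1) := by ring
        rw [this]
        apply Nat.mul_lt_mul_of_pos_left (by omega)
        exact Nat.mul_pos (Nat.pos_of_ne_zero hb0) hp.pos
      have h4 : (c - 1) * ((p - 1) * a) = (c - 1) * (p - 1) * a := by ring
      omega
    refine ⟨h1, ?_⟩
    by_contra hcon
    push Not at hcon
    have h2 : 2 * b ≤ c - 1 := by omega
    have h3 : 2 * b * (p - 1) ≤ (c - 1) * (p - 1) := Nat.mul_le_mul_right _ h2
    obtain ⟨q, hq⟩ : ∃ q, p = q + 2 := ⟨p - 2, by omega⟩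
    rw [hq] at h1 h3
    have e : q + 2 - 1 = q + 1 := by omega
    rw [e] at h1 h3
    nlinarith
  · intro hb0
    rw [hb0] at key
    simp only [zero_mul, mul_zero, Nat.le_zero_eq, mul_eq_zero] at key
    rcases key with h | h | h <;> omega

end Cfsg.Agent.S3778
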