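import Cfsg.Statements.S3780
import Cfsg.Agent.Lib.Helper1.Frattini

set_option autoImplicit false
open Cfsg

namespace Cfsg.Agent.S3780

open Cfsg.Agent.Lib.Helper1

section gen
variable {W : Type*} [Group W]

/-- iterates of an endomorphism. -/
def it (f : W →* W) : ℕ → (W →* W)
  | 0 => MonoidHom.id W
  | k+1 => f.comp (it f k)

variable [Finite W]

theorem card_ker_eq_index_range (f : W →* W) : Nat.card f.ker = f.range.index := by
  have h1 := f.ker.card_mul_index
  have h2 := f.range.card_mul_index
  rw [Subgroup.index_ker] at h1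
  have hpos : 0 < Nat.card f.range := Nat.card_pos
  have : Nat.card f.range * Nat.card f.ker = Nat.card f.range * f.range.index := by
    rw [h2, ← h1, mul_comm]
  exact Nat.eq_of_mul_eq_mul_left hpos this

theorem card_ker_comp_le (f g : W →* W) :
    Nat.card (f.comp g).ker ≤ Nat.card f.ker * Nat.card g.ker := by
  let K := (f.comp g).ker
  let g' : K →* f.ker := (g.comp K.subtype).codRestrict f.ker (fun x => by
    have := x.2
    rw [MonoidHom.mem_ker] at this ⊢
    simpa using this)
  have h1 := g'.ker.card_mul_index
  rw [Subgroup.index_ker] at h1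
  have h2 : Nat.card g'.ker ≤ Nat.card g.ker := by
    refine Nat.card_le_card_of_injective (fun x => ⟨x.1.1, ?_⟩) ?_
    · have := x.2
      rw [MonoidHom.mem_ker] at this ⊢
      have h3 := congrArg Subtype.val this
      simpa [g'] using h3
    · intro x y hxy
      simp only [Subtype.mk.injEq] at hxy
      exact Subtype.ext (Subtype.ext hxy)
  have h3 : Nat.card g'.range ≤ Nat.card f.ker :=
    Nat.card_le_card_of_injective Subtype.val Subtype.val_injective
  calc Nat.card K = Nat.card g'.ker * Nat.card g'.range := h1.symm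
    _ ≤ Nat.card g.ker * Nat.card f.ker := Nat.mul_le_mul h2 h3
    _ = _ := mul_comm _ _

theorem card_ker_it (f : W →* W) (k : ℕ) : Nat.card (it f k).ker ≤ (Nat.card f.ker) ^ k := by
  induction k with
  | zero =>
    have : (it f 0).ker = ⊥ := by
      ext x; simp [it]
    rw [this]; simp
  | succ k ih =>
    calc Nat.card (it f (k+1)).ker ≤ Nat.card f.ker * Nat.card (it f k).ker :=
          card_ker_comp_le f (it f k)
      _ ≤ Nat.card f.ker * (Nat.card f.ker) ^ k := Nat.mul_le_mul_left _ ih
      _ = _ := by rw [pow_succ, mul_comm]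

theorem exists_gen {p : ℕ} [hp : Fact p.Prime] (hW : IsPGroup p W) (m : ℕ)
    (hm : Nat.card W ≤ p ^ m) : ∃ S : Finset W, S.card ≤ m ∧ Subgroup.closure (S : Set W) = ⊤ := by
  classical
  have step : ∀ s : ℕ, ∃ S : Finset W, S.card ≤ s ∧ (Subgroup.closure (S : Set W) = ⊤ ∨
      p ^ s ≤ Nat.card (Subgroup.closure (S : Set W))) := by
    intro s
    induction s with
    | zero => exact ⟨∅, by simp, Or.inr (by simp)⟩
    | succ s ih =>
      obtain ⟨S, hS, hx⟩ := ih
      by_cases htop : Subgroup.closure (S : Set W) = ⊤
      · exact ⟨S, by omega, Or.inl htop⟩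
      · have hx' := hx.resolve_left htop
        obtain ⟨y, hy⟩ : ∃ y, y ∉ Subgroup.closure (S : Set W) := by
          by_contra hcon
          push Not at hcon
          exact htop (eq_top_iff.mpr (fun z _ => hcon z))
        refine ⟨insert y S, (Finset.card_insert_le _ _).trans (by omega), Or.inr ?_⟩
        set H := Subgroup.closure (S : Set W) with hH
        set K := Subgroup.closure ((insert y S : Finset W) : Set W) with hK
        have hle : H ≤ K := Subgroup.closure_mono (by simp)
        have hyK : y ∈ K := Subgroup.subset_closure (by simp)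
        have hrel : H.relIndex K ≠ 1 := by
          intro h1
          rw [Subgroup.relIndex_eq_one] at h1
          exact hy (h1 hyK)
        have hmul : H.relIndex K * Nat.card H = Nat.card K := by
          have := Subgroup.relIndex_mul_relIndex ⊥ H K bot_le hle
          rw [Subgroup.relIndex_bot_left, Subgroup.relIndex_bot_left] at this
          rw [mul_comm]; exact this
        have hdvd : p ∣ H.relIndex K := by
          have hKp : IsPGroup p K := hW.to_subgroup K
          obtain ⟨n, hn⟩ := hKp.index (H.subgroupOf K)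
          rw [Subgroup.relIndex, hn]
          rw [Subgroup.relIndex, hn] at hrel
          cases n with
          | zero => simp at hrel
          | succ n => exact Dvd.intro_left _ (pow_succ p n).symm
        have hpos : 0 < H.relIndex K := by
          rcases Nat.eq_zero_or_pos (H.relIndex K) with h0 | h0
          · rw [h0, zero_mul] at hmul
            have : 0 < Nat.card K := Nat.card_pos
            omega
          · exact h0
        have hple : p ≤ H.relIndex K := Nat.le_of_dvd hpos hdvd
        calc p ^ (s+1) = p * p ^ s := by rw [pow_succ, mul_comm]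
          _ ≤ H.relIndex K * Nat.card H := Nat.mul_le_mul hple hx'
          _ = Nat.card K := hmul
  obtain ⟨S, hS, h⟩ := step m
  refine ⟨S, hS, ?_⟩
  rcases h with h | h
  · exact h
  · apply Subgroup.eq_top_of_card_eq
    apply le_antisymm
    · exact Subgroup.card_le_card_group _
    · exact hm.trans h

end gen

section main

/-- `del a w = a w / w`. -/
def del {W : Type*} [CommGroup W] (a : W →* W) : W →* W := a / MonoidHom.id W

theorem del_apply {W : Type*} [CommGroup W] (a : W →* W) (w : W) : del a w = a w / w := rfl

theorem it_del_eq_one {p : ℕ} [Fact p.Prime] {W : Type*} [CommGroup W] (hexp : ∀ w : W, w ^ p = 1)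
    (a : W →* W) (ha : ∀ w, a^[p] w = w) (w : W) : it (del a) p w = 1 := by
  have h0 : ∀ x : Additive W, p • x = 0 := fun x => by
     show Additive.ofMul (x.toMul ^ p) = 0
     rw [hexp]; rfl
  obtain ⟨inst⟩ : Nonempty (Module (ZMod p) (Additive W)) := ⟨AddCommGroup.zmodModule h0⟩
  let F : Module.End (ZMod p) (Additive W) := (MonoidHom.toAdditive a).toZModLinearMap p
  have hF1 : ∀ x : Additive W, F x = Additive.ofMul (a x.toMul) := fun x => rfl
  have hF : ∀ (k : ℕ) (x : Additive W), (F^k) x = Additive.ofMul (a^[k] x.toMul) := by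
    intro k
    induction k with
    | zero => intro x; simp
    | succ k ih =>
      intro x
      rw [pow_succ', Module.End.mul_apply, ih, hF1, Function.iterate_succ_apply']
      rfl
  have hN : ∀ (k : ℕ) (x : Additive W), ((F - 1)^k) x = Additive.ofMul (it (del a) k x.toMul) := by
    intro k
    induction k with
    | zero => intro x; simp [it]
    | succ k ih =>
      intro x
      rw [pow_succ', Module.End.mul_apply, ih, LinearMap.sub_apply, hF1]
      rfl
  have hpoly : (Polynomial.X - 1 : Polynomial (ZMod p))^p = Polynomial.X^p - 1 := by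
    rw [sub_pow_char, one_pow]
  have h1 := congrArg (Polynomial.aeval F) hpoly
  simp only [map_pow, map_sub, Polynomial.aeval_X, map_one] at h1
  have h2 := hN p (Additive.ofMul w)
  rw [h1, LinearMap.sub_apply, hF] at h2
  simp only [toMul_ofMul, ha, Module.End.one_apply, sub_self] at h2
  exact (Additive.ofMul.injective h2).symm

end main

theorem result {V : Type*} [CommGroup V] [Finite V] {p : ℕ} [Fact p.Prime] (hV : IsPGroup p V) (α : MulAut V) (hα : orderOf α = p) (n : ℕ) (hfix : Nat.card {v : V // α v = v} = p ^ n) : ∃ S : Finset V, S.card ≤ p * n ∧ Subgroup.closure (S : Set V) = ⊤ := by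
  classical
  let P : Subgroup V := (powMonoidHom p : V →* V).range
  let π := QuotientGroup.mk' P
  have hπ : Function.Surjective π := QuotientGroup.mk'_surjective P
  have hPα : P ≤ P.comap α.toMonoidHom := by
    rintro _ ⟨v, rfl⟩
    exact ⟨α v, by simp [map_pow]⟩
  let a : V ⧸ P →* V ⧸ P := QuotientGroup.map P P α.toMonoidHom hPα
  have ha_mk : ∀ v, a (π v) = π (α v) := fun v => rfl
  have hexp : ∀ w : V ⧸ P, w ^ p = 1 := by
    intro w
    obtain ⟨v, rfl⟩ := QuotientGroup.mk_surjective w
    rw [← QuotientGroup.mk_pow, QuotientGroup.eq_one_iff]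
    exact ⟨v, rfl⟩
  have hak : ∀ (k : ℕ) (v : V), a^[k] (π v) = π ((α ^ k) v) := by
    intro k
    induction k with
    | zero => intro v; simp
    | succ k ih =>
      intro v
      rw [Function.iterate_succ_apply', ih, ha_mk, pow_succ', MulAut.mul_apply]
  have ha : ∀ w, a^[p] w = w := by
    intro w
    obtain ⟨v, rfl⟩ := hπ w
    rw [hak, ← hα, pow_orderOf_eq_one, MulAut.one_apply]
  have hker : Nat.card (del a).ker ∣ p ^ n := by
    rw [card_ker_eq_index_range]
    have h0 : (del a).range = (del α.toMonoidHom).range.map π := by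
      ext w
      constructor
      · rintro ⟨u, rfl⟩
        obtain ⟨v, rfl⟩ := hπ u
        refine ⟨del α.toMonoidHom v, ⟨v, rfl⟩, ?_⟩
        rw [del_apply, del_apply, ha_mk, map_div]
        rfl
      · rintro ⟨_, ⟨v, rfl⟩, rfl⟩
        refine ⟨π v, ?_⟩
        rw [del_apply, del_apply, ha_mk, map_div]
        rfl
    rw [h0]
    have h1 := Subgroup.index_map_dvd (del α.toMonoidHom).range hπ
    rw [← card_ker_eq_index_range] at h1
    have h2 : Nat.card (del α.toMonoidHom).ker = p ^ n := by
      rw [← hfix]
      apply Nat.card_congr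
      apply Equiv.subtypeEquivRight
      intro v
      rw [MonoidHom.mem_ker, del_apply, div_eq_one]
      rfl
    rwa [h2] at h1
  have hW : Nat.card (V ⧸ P) ≤ p ^ (p * n) := by
    have htop : (it (del a) p).ker = ⊤ := by
      rw [eq_top_iff]
      intro w _
      exact it_del_eq_one hexp a ha w
    calc Nat.card (V ⧸ P) = Nat.card (it (del a) p).ker := by rw [htop]; simp
     _ ≤ (Nat.card (del a).ker) ^ p := card_ker_it _ _
     _ ≤ (p ^ n) ^ p := Nat.pow_le_pow_left (Nat.le_of_dvd (pow_pos (Fact.out : p.Prime).pos _) hker) _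
     _ = p ^ (p * n) := by rw [← pow_mul, mul_comm]
  obtain ⟨S, hS, hSt⟩ := exists_gen (hV.to_quotient P) (p * n) hW
  let s := Function.surjInv hπ
  refine ⟨S.image s, Finset.card_image_le.trans hS, ?_⟩
  apply frattini_nongenerating
  have hPf : P ≤ frattini V := by
    rw [le_frattini_iff]
    rintro M hM _ ⟨x, rfl⟩
    have hn : M.Normal := IsPGroup.normal_of_isCoatom hV hM
    have hi : M.index = p := IsPGroup.index_of_isCoatom hV hM
    show x ^ p ∈ M
    rw [← QuotientGroup.eq_one_iff, QuotientGroup.mk_pow]
    have : Nat.card (V ⧸ M) = p := by rw [← Subgroup.index_eq_card, hi]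
    rw [← this]
    exact pow_card_eq_one'
  rw [eq_top_iff]
  refine le_trans ?_ (sup_le_sup_left hPf _)
  intro v _
  have hv : π v ∈ Subgroup.closure (S : Set (V ⧸ P)) := by rw [hSt]; trivial
  have hmap : Subgroup.closure (S : Set (V ⧸ P)) = (Subgroup.closure ((S.image s : Finset V) : Set V)).map π := by
    rw [MonoidHom.map_closure]
    congr 1
    ext w
    simp only [Finset.coe_image, Set.mem_image, Finset.mem_coe]
    constructor
    · intro hw
      exact ⟨s w, ⟨w, hw, rfl⟩, Function.surjInv_eq hπ w⟩
    · rintro ⟨_, ⟨u, hu, rfl⟩, rfl⟩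
      rw [Function.surjInv_eq hπ u]
      exact hu
  rw [hmap] at hv
  obtain ⟨u, hu, huv⟩ := hv
  have h3 : u⁻¹ * v ∈ P := by
    rw [← QuotientGroup.eq]
    exact huv
  have : v = u * (u⁻¹ * v) := by group
  rw [this]
  exact Subgroup.mul_mem_sup hu h3

end Cfsg.Agent.S3780
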