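import Cfsg.Statements.S3783
import Cfsg.Agent.Lib.Helper73.HHAbel2

set_option autoImplicit false
open Cfsg
open Cfsg.Agent.Lib.Helper63

namespace Cfsg.Agent.S3783

universe u

theorem aux (p : ℕ) [hp : Fact p.Prime] (n : ℕ) :
    ∀ (G : Type u) [Group G] [Finite G], IsPSolvable p G →
      (∀ (q : ℕ) [Fact q.Prime], q ≠ p → ∀ Q : Sylow q G, IsMulCommutative (Q : Subgroup G)) →
      (∀ (P : Sylow p G), ∀ x ∈ (P : Subgroup G), x ^ p ^ n = 1) → PLengthLE p n G := by
  induction n with
  | zero =>
    intro G _ _ _ _ hexp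
    apply pLengthLE_zero_of_coprime
    have S : Sylow p G := default
    have hS : (S : Subgroup G) = ⊥ := by
      rw [eq_bot_iff]
      intro x hx
      simpa using hexp S x hx
    have h1 := S.not_dvd_index
    rw [hS, Subgroup.index_bot] at h1
    exact ((Nat.Prime.coprime_iff_not_dvd hp.out).mpr h1).symm
  | succ n ih =>
    intro G _ _ hsol hab hexp
    have hsurj := QuotientGroup.mk'_surjective (ups p G 2)
    have hsurj1 := QuotientGroup.mk'_surjective (ups p G 1)
    apply PLengthLE.of_quotient_ups_two hp.out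
    apply ih _ (Cfsg.Agent.Lib.Helper76.isPSolvable_quotient _ hsol)
      (fun q _ hq => Cfsg.Agent.Lib.Helper73.HHAbel.sylow_comm_of_surjective hsurj (hab q hq))
    intro P
    obtain ⟨S, rfl⟩ := Sylow.mapSurjective_surjective hsurj p P
    intro x hx
    obtain ⟨a, ha, rfl⟩ := (Sylow.coe_mapSurjective hsurj S ▸ hx :
      x ∈ (S : Subgroup G).map (QuotientGroup.mk' (ups p G 2)))
    rw [← map_pow]
    apply (QuotientGroup.eq_one_iff _).2
    rw [ups_two_eq, Subgroup.mem_comap, map_pow]
    apply Cfsg.Agent.Lib.Helper73.HHAbel.pow_mem_pCore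
      (Cfsg.Agent.Lib.Helper76.isPSolvable_quotient _ hsol) (pPrimeCore_quotient_ups_one hp.out)
      (fun q _ hq => Cfsg.Agent.Lib.Helper73.HHAbel.sylow_comm_of_surjective hsurj1 (hab q hq)) n
      (Cfsg.Agent.Lib.Helper73.HHAbel.sylow_exp_of_surjective hsurj1 hexp)
      (S.mapSurjective hsurj1)
    rw [Sylow.coe_mapSurjective]
    exact Subgroup.mem_map_of_mem _ ha

/-- Let G be a finite p-soluble group in which, for every prime q ≠ p, the Sylow q-subgroups are abelian. If the Sylow p-subgroups of G have exponent dividing p^n, then G has p-length at most n. -/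
theorem result {G : Type*} [Group G] [Finite G] {p : ℕ} [Fact p.Prime] (hG : Cfsg.IsPSolvable p G) (hab : ∀ (q : ℕ) [Fact q.Prime], q ≠ p → ∀ Q : Sylow q G, IsMulCommutative (Q : Subgroup G)) (n : ℕ) (hexp : ∀ (P : Sylow p G), ∀ x ∈ (P : Subgroup G), x ^ p ^ n = 1) : Cfsg.PLengthLE p n G := by
  exact aux p n G hG hab hexp

end Cfsg.Agent.S3783
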