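import Cfsg.Statements.S3784
import Mathlib.NumberTheory.Multiplicity
import Mathlib.NumberTheory.Fermat

set_option autoImplicit false
open Cfsg

namespace Cfsg.Agent.S3784

/-- odd cofactor lemma -/
theorem odd_cofactor (x y : ℤ) (n k : ℕ) (hxy : (2 : ℤ) ∣ x - y) (hx : ¬ (2 : ℤ) ∣ x) (hn : Odd n)
    (h : x ^ n - y ^ n = 2 ^ k) : x ^ n - y ^ n = x - y ∨ x ^ n - y ^ n = -(x - y) := by
  have hn' : ¬ (2 : ℤ) ∣ (n : ℤ) := by
    intro hd
    have : (2 : ℕ) ∣ n := by exact_mod_cast hd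
    exact (Nat.not_even_iff_odd.mpr hn) (even_iff_two_dvd.mpr this)
  have h1 := not_dvd_geom_sum₂ Int.prime_two hxy hx hn'
  have h2 := geom_sum₂_mul x y n
  set S := ∑ i ∈ Finset.range n, x ^ i * y ^ (n - 1 - i) with hS
  have hSd : S ∣ 2 ^ k := by rw [← h, ← h2]; exact dvd_mul_right _ _
  have hcop : IsCoprime ((2 : ℤ) ^ k) S :=
    ((Int.prime_two.irreducible.coprime_iff_not_dvd).mpr h1).pow_left
  have hu : IsUnit S := hcop.isUnit_of_dvd' hSd dvd_rfl
  rcases Int.isUnit_iff.mp hu with hS1 | hS1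
  · left; rw [← h2, hS1, one_mul]
  · right; rw [← h2, hS1]; ring

theorem case_p_two (q a b : ℕ) (hq : q.Prime) (ha : 1 ≤ a) (hb : 1 ≤ b) (h : 2 ^ a = q ^ b + 1) :
    b = 1 ∧ a.Prime ∧ q + 1 = 2 ^ a := by
  have hqodd : Odd q := by
    by_contra hne
    rw [Nat.not_odd_iff_even] at hne
    have h1 : Even (q ^ b) := hne.pow_of_ne_zero (by omega)
    have h2 : Even (2 ^ a) := (even_two).pow_of_ne_zero (by omega)
    rw [h] at h2
    have : Odd (q ^ b + 1) := h1.add_one
    exact (Nat.not_even_iff_odd.mpr this) h2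
  have hq2 : 2 ≤ q := hq.two_le
  have hb1 : b = 1 := by
    rcases Nat.even_or_odd b with hbe | hbo
    · exfalso
      obtain ⟨c, hc⟩ := hbe
      have h1 : q ^ b = (q ^ c) ^ 2 := by rw [hc, ← pow_mul]; congr 1; ring
      have h2 : Odd (q ^ c) := hqodd.pow
      have h3 : (q ^ c) ^ 2 % 4 = 1 := by
        obtain ⟨m, hm⟩ := h2
        rw [hm]
        have e : (2 * m + 1) ^ 2 = 4 * (m * m + m) + 1 := by ring
        rw [e]; omega
      have h4 : 2 ^ a % 4 = 2 := by rw [h, h1]; omega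
      have h5 : a = 1 := by
        by_contra hne
        obtain ⟨d, rfl⟩ : ∃ d, a = d + 2 := ⟨a - 2, by omega⟩
        rw [pow_add] at h4
        omega
      rw [h5] at h
      have h6 : 2 ≤ q ^ b := le_trans hq2 (Nat.le_self_pow (by omega) q)
      omega
    · have hx : ¬ (2 : ℤ) ∣ (q : ℤ) := by
        intro hd
        have : (2 : ℕ) ∣ q := by exact_mod_cast hd
        exact (Nat.not_even_iff_odd.mpr hqodd) (even_iff_two_dvd.mpr this)
      have hxy : (2 : ℤ) ∣ (q : ℤ) - (-1) := by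
        obtain ⟨m, hm⟩ := hqodd
        exact ⟨m + 1, by rw [hm]; push_cast; ring⟩
      have hz : ((q : ℤ)) ^ b - (-1) ^ b = 2 ^ a := by
        rw [hbo.neg_one_pow]
        have : ((2 ^ a : ℕ) : ℤ) = ((q ^ b + 1 : ℕ) : ℤ) := by rw [h]
        push_cast at this
        rw [this]; ring
      have h1 := odd_cofactor q (-1) b a hxy hx hbo hz
      rw [hbo.neg_one_pow] at h1
      have hpos : (0 : ℤ) < (q : ℤ) ^ b := by positivity
      have hqpos : (0 : ℤ) < (q : ℤ) := by positivity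
      rcases h1 with h1 | h1
      · have h2 : (q : ℤ) ^ b = (q : ℤ) ^ 1 := by rw [pow_one]; linarith
        have h3 : q ^ b = q ^ 1 := by exact_mod_cast h2
        exact Nat.pow_right_injective hq2 h3
      · exfalso; linarith
  subst hb1
  rw [pow_one] at h
  refine ⟨rfl, ?_, h.symm⟩
  have hP : (2 ^ a - 1).Prime := by
    have : 2 ^ a - 1 = q := by omega
    rw [this]; exact hq
  have ha1 : a ≠ 1 := by
    rintro rfl
    exact Nat.not_prime_one (by simpa using hP)
  exact (Nat.prime_of_pow_sub_one_prime ha1 hP).2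

theorem case_q_two (p a b : ℕ) (hp : p.Prime) (ha : 1 ≤ a) (hb : 1 ≤ b) (h : p ^ a = 2 ^ b + 1) :
    (a = 1 ∧ (∃ m : ℕ, b = 2 ^ m) ∧ p = 2 ^ b + 1) ∨ (p ^ a = 9 ∧ 2 ^ b = 8) := by
  have hpodd : Odd p := by
    by_contra hne
    rw [Nat.not_odd_iff_even] at hne
    have h1 : Even (p ^ a) := hne.pow_of_ne_zero (by omega)
    have h2 : Even (2 ^ b) := (even_two).pow_of_ne_zero (by omega)
    rw [h] at h1
    have : Odd (2 ^ b + 1) := h2.add_one
    exact (Nat.not_even_iff_odd.mpr this) h1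
  have hp2 : 2 ≤ p := hp.two_le
  rcases Nat.even_or_odd a with hae | hao
  · right
    obtain ⟨c, hc⟩ := hae
    have h1 : p ^ a = (p ^ c) ^ 2 := by rw [hc, ← pow_mul]; congr 1; ring
    have htodd : Odd (p ^ c) := hpodd.pow
    have ht2 : 2 ≤ p ^ c := le_trans hp2 (Nat.le_self_pow (by omega) p)
    generalize p ^ c = t at h1 htodd ht2
    have hfac : (t - 1) * (t + 1) = 2 ^ b := by
      have : t ^ 2 = 2 ^ b + 1 := by rw [← h1, h]
      obtain ⟨s, rfl⟩ : ∃ s, t = s + 1 := ⟨t - 1, by omega⟩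
      have e : (s + 1 - 1) * (s + 1 + 1) + 1 = (s + 1) ^ 2 := by
        simp only [Nat.add_sub_cancel]; ring
      omega
    obtain ⟨i, _, hi⟩ := (Nat.dvd_prime_pow Nat.prime_two).mp (Dvd.intro _ hfac)
    obtain ⟨j, _, hj⟩ := (Nat.dvd_prime_pow Nat.prime_two).mp (Dvd.intro_left _ hfac)
    have hij : 2 ^ j = 2 ^ i + 2 := by omega
    have hi1 : i = 1 := by
      rcases Nat.lt_or_ge i 1 with hlt | hge
      · have : i = 0 := by omega
        subst this
        obtain ⟨m, hm⟩ := htodd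
        simp at hi
        omega
      · by_contra hne
        obtain ⟨d, rfl⟩ : ∃ d, i = d + 2 := ⟨i - 2, by omega⟩
        have hlt : 2 ^ (d + 2) < 2 ^ j := by omega
        have hdj : d + 2 < j := (Nat.pow_lt_pow_iff_right (by norm_num)).mp hlt
        obtain ⟨e, rfl⟩ : ∃ e, j = e + 2 := ⟨j - 2, by omega⟩
        rw [pow_add, pow_add] at hij
        omega
    subst hi1
    have ht3 : t = 3 := by omega
    rw [h1, ht3] at h ⊢
    constructor
    · norm_num
    · omega
  · left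
    have hx : ¬ (2 : ℤ) ∣ (p : ℤ) := by
      intro hd
      have : (2 : ℕ) ∣ p := by exact_mod_cast hd
      exact (Nat.not_even_iff_odd.mpr hpodd) (even_iff_two_dvd.mpr this)
    have hxy : (2 : ℤ) ∣ (p : ℤ) - 1 := by
      obtain ⟨m, hm⟩ := hpodd
      exact ⟨m, by rw [hm]; push_cast; ring⟩
    have hz : ((p : ℤ)) ^ a - 1 ^ a = 2 ^ b := by
      rw [one_pow]
      have : ((p ^ a : ℕ) : ℤ) = ((2 ^ b + 1 : ℕ) : ℤ) := by rw [h]
      push_cast at this
      rw [this]; ring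
    have h1 := odd_cofactor p 1 a b hxy hx hao hz
    rw [one_pow] at h1
    have hpa : (2 : ℤ) ≤ (p : ℤ) ^ a := by
      have : 2 ≤ p ^ a := le_trans hp2 (Nat.le_self_pow (by omega) p)
      exact_mod_cast this
    have hp2' : (2 : ℤ) ≤ (p : ℤ) := by exact_mod_cast hp2
    have ha1 : a = 1 := by
      rcases h1 with h1 | h1
      · have h2 : (p : ℤ) ^ a = (p : ℤ) ^ 1 := by rw [pow_one]; linarith
        have h3 : p ^ a = p ^ 1 := by exact_mod_cast h2
        exact Nat.pow_right_injective hp2 h3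
      · exfalso; linarith
    subst ha1
    rw [pow_one] at h
    refine ⟨rfl, ?_, h⟩
    exact Nat.pow_of_pow_add_prime (by norm_num) (by omega) (h ▸ hp)

theorem result (p q a b : ℕ) (hp : p.Prime) (hq : q.Prime) (ha : 1 ≤ a) (hb : 1 ≤ b) (h : p ^ a = q ^ b + 1) : (p = 2 ∧ b = 1 ∧ a.Prime ∧ q + 1 = 2 ^ a) ∨ (q = 2 ∧ a = 1 ∧ (∃ m : ℕ, b = 2 ^ m) ∧ p = 2 ^ b + 1) ∨ (p ^ a = 9 ∧ q ^ b = 8) := by
  by_cases hp2 : p = 2
  · subst hp2
    left
    exact ⟨rfl, case_p_two q a b hq ha hb h⟩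
  · have hpodd : Odd p := hp.odd_of_ne_two hp2
    have hq2 : q = 2 := by
      by_contra hne
      have hqodd : Odd q := hq.odd_of_ne_two hne
      have h1 : Odd (p ^ a) := hpodd.pow
      have h2 : Odd (q ^ b) := hqodd.pow
      rw [h] at h1
      have : Even (q ^ b + 1) := h2.add_one
      exact (Nat.not_even_iff_odd.mpr h1) this
    subst hq2
    right
    rcases case_q_two p a b hp ha hb h with h1 | h1
    · left; exact ⟨rfl, h1⟩
    · right; exact h1

end Cfsg.Agent.S3784
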