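import Cfsg.Statements.S3785
import Cfsg.Agent.S0044
import Cfsg.Agent.Lib.Helper1.Fitting
import Cfsg.Agent.Lib.Helper24.PGroup

set_option autoImplicit false
open Cfsg
open Cfsg.Agent.Lib.Helper1

namespace Cfsg.Agent.S3785

variable {G : Type*} [Group G]

/-- the centralizer of the elements of prime order of `F(G)` -/
def C (G : Type*) [Group G] : Subgroup G :=
  Subgroup.centralizer {x : G | x ∈ fittingSubgroup G ∧ (orderOf x).Prime}

theorem mem_C (c : G) : c ∈ C G ↔ ∀ x ∈ fittingSubgroup G, (orderOf x).Prime → c * x = x * c := by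
  rw [C, Subgroup.mem_centralizer_iff]
  constructor
  · intro h x hx hxp
    exact (h x ⟨hx, hxp⟩).symm
  · rintro h x ⟨hx, hxp⟩
    exact (h x hx hxp).symm

theorem C_normal : (C G).Normal := by
  constructor
  intro c hc g
  rw [mem_C] at hc ⊢
  intro x hx hxp
  have hF : (fittingSubgroup G).Normal := fittingSubgroup_normal
  have h1 : g⁻¹ * x * g ∈ fittingSubgroup G := by
    have := hF.conj_mem x hx g⁻¹
    simpa using this
  have h2 : orderOf (g⁻¹ * x * g) = orderOf x := by
    have := orderOf_injective (MulAut.conj g⁻¹).toMonoidHom (MulAut.conj g⁻¹).injective x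
    simpa [MulAut.conj_apply] using this
  have h3 := hc _ h1 (h2 ▸ hxp)
  calc g * c * g⁻¹ * x = g * (c * (g⁻¹ * x * g)) * g⁻¹ := by group
    _ = g * ((g⁻¹ * x * g) * c) * g⁻¹ := by rw [h3]
    _ = x * (g * c * g⁻¹) := by group

/-- a `p'`-element of `C` centralizes `O_p(G)` -/
theorem pCore_le_centralizer [Finite G] (hodd : Odd (Nat.card (fittingSubgroup G))) (p : ℕ)
    [hp : Fact p.Prime] (y : G) (hy : y ∈ C G) (hcop : (orderOf y).Coprime p) :
    pCore p G ≤ Subgroup.centralizer (Subgroup.zpowers y : Set G) := by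
  by_cases hp2 : p = 2
  · subst hp2
    have h1 : Nat.card (pCore 2 G) ∣ Nat.card (fittingSubgroup G) :=
      Subgroup.card_dvd_of_le (pCore_le_fittingSubgroup 2)
    obtain ⟨k, hk⟩ := (IsPGroup.iff_card (p := 2)).mp (pCore_isPGroup (G := G) 2)
    have hk0 : k = 0 := by
      by_contra hne
      have h2 : 2 ∣ Nat.card (pCore 2 G) := by rw [hk]; exact dvd_pow_self 2 hne
      have h3 : 2 ∣ Nat.card (fittingSubgroup G) := h2.trans h1
      exact (Nat.not_even_iff_odd.mpr hodd) (even_iff_two_dvd.mpr h3)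
    rw [hk0, pow_zero, Subgroup.card_eq_one] at hk
    rw [hk]; exact bot_le
  · apply Cfsg.Agent.Lib.Helper24.le_centralizer_of_centralizes_omega p hp2 _ _ _ (pCore_isPGroup p)
    · have : (pCore p G).Normal := inferInstance
      rw [Subgroup.normalizer_eq_top]; exact le_top
    · intro x hx hxp
      rw [← SetLike.mem_coe, ← Set.singleton_subset_iff]
      show ({x} : Set G) ⊆ _
      rw [Set.singleton_subset_iff, SetLike.mem_coe]
      have h1 : Subgroup.zpowers y ≤ Subgroup.centralizer {x} := by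
        rw [Subgroup.zpowers_le, Subgroup.mem_centralizer_singleton_iff]
        by_cases hx1 : x = 1
        · rw [hx1]; simp
        · have h2 : orderOf x = p := orderOf_eq_prime hxp hx1
          exact (mem_C y).mp hy x (pCore_le_fittingSubgroup p hx) (h2 ▸ hp.out)
      rw [Subgroup.mem_centralizer_iff]
      intro z hz
      exact Subgroup.mem_centralizer_singleton_iff.mp (h1 hz)
    · rw [Nat.card_zpowers]; exact hcop

/-- the product of the `O_p(G)`, `p ≠ q` -/
def E (G : Type*) [Group G] (q : ℕ) : Subgroup G :=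
  sSup {N : Subgroup G | ∃ p : ℕ, p.Prime ∧ p ≠ q ∧ N = pCore p G}

theorem E_normal (q : ℕ) : (E G q).Normal :=
  Subgroup.sSup_normal _ (by rintro _ ⟨p, _, _, rfl⟩; exact inferInstance)

theorem fitting_le [Finite G] (q : ℕ) : fittingSubgroup G ≤ E G q ⊔ pCore q G := by
  rw [fittingSubgroup_eq_iSup_pCore]
  refine iSup_le fun p => ?_
  by_cases hpq : (p : ℕ) = q
  · rw [hpq]; exact le_sup_right
  · exact le_sup_of_le_left (le_sSup ⟨p, p.2, hpq, rfl⟩)

theorem mem_centralizer_E [Finite G] (hodd : Odd (Nat.card (fittingSubgroup G))) (q : ℕ) (hq : q.Prime)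
    (h : G) (hh : h ∈ C G) (a : ℕ) (ha : orderOf h = q ^ a) :
    h ∈ Subgroup.centralizer (E G q : Set G) := by
  have h1 : E G q ≤ Subgroup.centralizer (Subgroup.zpowers h : Set G) := by
    apply sSup_le
    rintro _ ⟨p, hp, hpq, rfl⟩
    have : Fact p.Prime := ⟨hp⟩
    apply pCore_le_centralizer hodd p h hh
    rw [ha]
    exact Nat.Coprime.pow_left _ ((Nat.coprime_primes hq hp).mpr (Ne.symm hpq))
  exact Subgroup.le_centralizer_iff.mp h1 (Subgroup.mem_zpowers h)

/-- `q'`-elements of `F(G)` lie in `E` -/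
theorem mem_E_of_coprime [Finite G] (q : ℕ) [hq : Fact q.Prime] (y : G) (hy : y ∈ fittingSubgroup G)
    (hcop : (orderOf y).Coprime q) : y ∈ E G q := by
  have := E_normal (G := G) q
  have h1 : y ∈ E G q ⊔ pCore q G := fitting_le q hy
  rw [← SetLike.mem_coe, Subgroup.normal_mul] at h1
  obtain ⟨e, he, u, hu, heu⟩ := h1
  have heu' : e * u = y := heu
  obtain ⟨k, hk⟩ := (pCore_isPGroup (G := G) q) ⟨u, hu⟩
  have hk' : u ^ q ^ k = 1 := congrArg Subtype.val hk
  have h2 : QuotientGroup.mk' (E G q) y = QuotientGroup.mk' (E G q) u := by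
    have : QuotientGroup.mk' (E G q) e = 1 := (QuotientGroup.eq_one_iff e).mpr he
    rw [← heu', map_mul, this, one_mul]
  have h3 : (QuotientGroup.mk' (E G q) y) ^ q ^ k = 1 := by rw [h2, ← map_pow, hk', map_one]
  have h4 : (QuotientGroup.mk' (E G q) y) ^ orderOf y = 1 := by
    rw [← map_pow, pow_orderOf_eq_one, map_one]
  have h5 := pow_gcd_eq_one.mpr ⟨h4, h3⟩
  have h6 : Nat.gcd (orderOf y) (q ^ k) = 1 := Nat.Coprime.pow_right k hcop
  rw [h6, pow_one] at h5
  exact (QuotientGroup.eq_one_iff y).mp h5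

/-- `K = C ∩ C_G(E)` is nilpotent -/
theorem K_nilpotent [Finite G] [Group.IsSolvable G] (hodd : Odd (Nat.card (fittingSubgroup G))) (q : ℕ)
    [hq : Fact q.Prime] : Group.IsNilpotent ↥(C G ⊓ Subgroup.centralizer (E G q : Set G)) := by
  set K := C G ⊓ Subgroup.centralizer (E G q : Set G) with hK
  apply Group.of_quotient_center_nilpotent
  apply IsPGroup.isNilpotent (p := q)
  intro ybar
  obtain ⟨y, rfl⟩ := QuotientGroup.mk'_surjective _ ybar
  obtain ⟨a, m, hm, hym⟩ := Nat.exists_eq_pow_mul_and_not_dvd (orderOf_pos (y : G)).ne' q hq.out.ne_one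
  refine ⟨a, ?_⟩
  rw [← map_pow, QuotientGroup.mk'_apply, QuotientGroup.eq_one_iff]
  -- `y' = y ^ q ^ a`
  have hyK : (y : G) ∈ K := y.2
  have hy'K : (y : G) ^ q ^ a ∈ K := K.pow_mem hyK _
  obtain ⟨hy'C, hy'E⟩ := Subgroup.mem_inf.mp hy'K
  have hord : orderOf ((y : G) ^ q ^ a) = m := by
    rw [orderOf_pow_of_dvd (pow_ne_zero _ hq.out.ne_zero) (hym ▸ dvd_mul_right _ _), hym]
    exact Nat.mul_div_cancel_left m (pow_pos hq.out.pos a)
  have hcop : (orderOf ((y : G) ^ q ^ a)).Coprime q := by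
    rw [hord]; exact ((Nat.Prime.coprime_iff_not_dvd hq.out).mpr hm).symm
  have h1 := pCore_le_centralizer hodd q _ hy'C hcop
  have h2 : (y : G) ^ q ^ a ∈ Subgroup.centralizer (pCore q G : Set G) :=
    Subgroup.le_centralizer_iff.mp h1 (Subgroup.mem_zpowers _)
  have h3 : (y : G) ^ q ^ a ∈ Subgroup.centralizer (fittingSubgroup G : Set G) := by
    have h4 : E G q ⊔ pCore q G ≤ Subgroup.centralizer (Subgroup.zpowers ((y : G) ^ q ^ a) : Set G) := by
      apply sup_le _ h1
      apply Subgroup.le_centralizer_iff.mp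
      rw [Subgroup.zpowers_le]; exact hy'E
    exact Subgroup.le_centralizer_iff.mp ((fitting_le q).trans h4) (Subgroup.mem_zpowers _)
  have h5 : (y : G) ^ q ^ a ∈ fittingSubgroup G := Cfsg.Agent.S0044.result h3
  have h6 : (y : G) ^ q ^ a ∈ E G q := mem_E_of_coprime q _ h5 hcop
  rw [Subgroup.mem_center_iff]
  intro k
  apply Subtype.ext
  have hk : (k : G) ∈ Subgroup.centralizer (E G q : Set G) := (Subgroup.mem_inf.mp k.2).2
  have := Subgroup.mem_centralizer_iff.mp hk _ h6
  simpa using this.symm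

theorem result {G : Type*} [Group G] [Finite G] (hG : Group.IsSolvable G) (hodd : Odd (Nat.card (Cfsg.fittingSubgroup G))) (g : G) (hg : ∀ x ∈ Cfsg.fittingSubgroup G, (orderOf x).Prime → g * x = x * g) : g ∈ Cfsg.fittingSubgroup G := by
  have hgC : g ∈ C G := (mem_C g).mpr hg
  have hF : (fittingSubgroup G).Normal := fittingSubgroup_normal
  -- prime power order elements of `C` lie in `F(G)`
  have key : ∀ (q : ℕ) (_ : q.Prime) (h : G) (a : ℕ), h ∈ C G → orderOf h = q ^ a → h ∈ fittingSubgroup G := by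
    intro q hq h a hh ha
    have : Fact q.Prime := ⟨hq⟩
    have h1 := mem_centralizer_E hodd q hq h hh a ha
    have := C_normal (G := G)
    have := E_normal (G := G) q
    have h2 : C G ⊓ Subgroup.centralizer (E G q : Set G) ≤ fittingSubgroup G :=
      le_fittingSubgroup inferInstance (K_nilpotent hodd q)
    exact h2 (Subgroup.mem_inf.mpr ⟨hh, h1⟩)
  rw [← QuotientGroup.eq_one_iff]
  by_contra hne
  have hne' : orderOf (g : G ⧸ fittingSubgroup G) ≠ 1 := fun h => hne (orderOf_eq_one_iff.mp h)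
  obtain ⟨q, hq, hqd⟩ := Nat.exists_prime_and_dvd hne'
  obtain ⟨a, m, hm, hgm⟩ := Nat.exists_eq_pow_mul_and_not_dvd (orderOf_pos g).ne' q hq.ne_one
  have hord : orderOf (g ^ m) = q ^ a := by
    have hm0 : m ≠ 0 := by
      rintro rfl
      exact hm (dvd_zero q)
    rw [orderOf_pow_of_dvd hm0 (hgm ▸ dvd_mul_left _ _), hgm]
    exact Nat.mul_div_cancel _ (Nat.pos_of_ne_zero hm0)
  have h1 : g ^ m ∈ fittingSubgroup G := key q hq _ a ((C G).pow_mem hgC m) hord
  have h2 : (g : G ⧸ fittingSubgroup G) ^ m = 1 := by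
    rw [← QuotientGroup.mk_pow, QuotientGroup.eq_one_iff]; exact h1
  exact hm (hqd.trans (orderOf_dvd_of_pow_eq_one h2))

end Cfsg.Agent.S3785
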