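import Cfsg.Statements.S3787
import Cfsg.Agent.Lib.Helper53.HH.W3
import Cfsg.Agent.Lib.Helper53.HH.W1

set_option autoImplicit false
set_option linter.style.haveILetI false
open Cfsg

namespace Cfsg.Agent.S3787

open Cfsg.Agent.Lib.Helper63 Cfsg.Agent.Lib.Helper73.HHAbel Cfsg.Agent.Lib.Helper53.HH
  Cfsg.Agent.Lib.Helper33

theorem involves_le {G : Type*} [Group G] {X : Type*} [Group X] {A B : Subgroup G} (h : A ≤ B)
    (hA : Involves X ↥A) : Involves X ↥B := by
  obtain ⟨L, f, hf⟩ := exists_surjective_of_involves hA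
  let e := L.equivMapOfInjective (Subgroup.inclusion h) (Subgroup.inclusion_injective h)
  exact involves_of_surjective (L.map (Subgroup.inclusion h)) (f.comp e.symm.toMonoidHom)
    (hf.comp e.symm.surjective)

/-- Let G be a finite p-soluble group, p an odd prime not of the form 2^k + 1, and suppose the wreath product C_p ≀ C_p (of order p^(p+1)) is not involved in a Sylow p-subgroup of G: no section of a Sylow p-subgroup is isomorphic to it. Then G has p-length at most 1. -/
theorem result {G : Type*} [Group G] [Finite G] {p : ℕ} [Fact p.Prime] (hp2 : p ≠ 2) (hnf : (¬ ∃ k : ℕ, p = 2 ^ k + 1)) (hG : Cfsg.IsPSolvable p G) (P : Sylow p G) (hwr : ∀ (W : Type) [Group W] [Finite W], (∃ (B : Subgroup W) (t : W), B.Normal ∧ IsMulCommutative B ∧ (∀ b ∈ B, b ^ p = 1) ∧ Nat.card B = p ^ p ∧ orderOf t = p ∧ t ∉ B ∧ Nat.card W = p ^ (p + 1) ∧ Nat.card ↥(B ⊓ Subgroup.centralizer ({t} : Set W)) = p) → ¬ Cfsg.Involves W ↥(P : Subgroup G)) : Cfsg.PLengthLE p 1 G := by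
  have hp := (Fact.out : p.Prime)
  apply PLengthLE.of_quotient_ups_two hp (k := 0)
  apply pLengthLE_zero_of_coprime
  by_contra hcop
  have hdvd : p ∣ Nat.card (G ⧸ ups p G 2) := by
    by_contra h
    exact hcop ((Nat.Prime.coprime_iff_not_dvd hp).2 h).symm
  have hsurj2 := QuotientGroup.mk'_surjective (ups p G 2)
  have hsurj1 := QuotientGroup.mk'_surjective (ups p G 1)
  -- an element of `P` outside `ups 2`
  obtain ⟨a, haP, ha2⟩ : ∃ a ∈ (P : Subgroup G), a ∉ ups p G 2 := by
    by_contra hcon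
    push Not at hcon
    have h1 : ((P.mapSurjective hsurj2 : Sylow p (G ⧸ ups p G 2)) : Subgroup (G ⧸ ups p G 2)) = ⊥ := by
      rw [Sylow.coe_mapSurjective, eq_bot_iff]
      rintro _ ⟨a, ha, rfl⟩
      exact (QuotientGroup.eq_one_iff a).2 (hcon a ha)
    exact Sylow.ne_bot_of_dvd_card (P.mapSurjective hsurj2) hdvd h1
  obtain ⟨b, hbP, hb2, hbp⟩ : ∃ b ∈ (P : Subgroup G), b ∉ ups p G 2 ∧ b ^ p ∈ ups p G 2 := by
    classical
    have hex : ∃ k : ℕ, a ^ p ^ k ∈ ups p G 2 := by
      obtain ⟨k, hk⟩ := P.isPGroup' ⟨a, haP⟩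
      refine ⟨k, ?_⟩
      have : a ^ p ^ k = 1 := by simpa using congrArg Subtype.val hk
      rw [this]
      exact one_mem _
    have hk0 : Nat.find hex ≠ 0 := by
      intro h0
      have := Nat.find_spec hex
      rw [h0] at this
      simp at this
      exact ha2 this
    obtain ⟨k, hk⟩ := Nat.exists_eq_succ_of_ne_zero hk0
    refine ⟨a ^ p ^ k, Subgroup.pow_mem _ haP _, Nat.find_min hex (by omega), ?_⟩
    have := Nat.find_spec hex
    rw [hk, Nat.succ_eq_add_one, pow_succ, pow_mul] at this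
    exact this
  set π := QuotientGroup.mk' (ups p G 1) with hπ
  set R := pCore p (G ⧸ ups p G 1) with hR
  have hsolq : IsPSolvable p (G ⧸ ups p G 1) := Cfsg.Agent.Lib.Helper76.isPSolvable_quotient _ hG
  have hcoreq : pPrimeCore p (G ⧸ ups p G 1) = ⊥ := pPrimeCore_quotient_ups_one hp
  have hRp : IsPGroup p R := Cfsg.Agent.Lib.Lead.pCore_isPGroup p _
  have hxR : π b ∉ R := by
    intro h
    apply hb2
    rw [ups_two_eq]
    exact h
  have hxp : π b ^ p ∈ R := by
    rw [ups_two_eq, Subgroup.mem_comap, map_pow] at hbp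
    exact hbp
  have hord : orderOf (QuotientGroup.mk' R (π b)) = p ^ 1 := by
    rw [pow_one]
    apply orderOf_eq_prime
    · rw [← map_pow]
      exact (QuotientGroup.eq_one_iff _).2 hxp
    · intro h
      exact hxR ((QuotientGroup.eq_one_iff _).1 h)
  have hVp : IsPGroup p (Abelianization R) := hRp.to_quotient _
  rcases thmB_abelian (Cfsg.Agent.Lib.Helper76.isPSolvable_quotient R hsolq)
    (Cfsg.Agent.Lib.Lead.pCore_quotient_pCore p _) hVp (Psibar R) (Psibar_injective hsolq hcoreq)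
    (QuotientGroup.mk' R (π b)) 1 le_rfl hord with ⟨v, hv⟩ | ⟨n₀, q, m, h1, h2, hq, hm, heq, -⟩
  · obtain ⟨r0, rfl⟩ := QuotientGroup.mk_surjective v
    rw [pow_one, Psibar_mk] at hv
    obtain ⟨W, i1, i2, hW, hinv⟩ := wreath_section R hRp (π b) hxR hxp r0 hv
    have hle : R ⊔ Subgroup.zpowers (π b) ≤ (P : Subgroup G).map π := by
      rw [sup_le_iff]
      constructor
      · have := Cfsg.Agent.Lib.Lead.pCore_le_sylow (P.mapSurjective hsurj1)
        rwa [Sylow.coe_mapSurjective] at this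
      · rw [Subgroup.zpowers_le]
        exact ⟨b, hbP, rfl⟩
    have h3 : Involves W ↥((P : Subgroup G).map π) := involves_le hle hinv
    have h4 : Involves W ↥(P : Subgroup G) :=
      involves_of_hom_surj (π.subgroupMap (P : Subgroup G)) (π.subgroupMap_surjective _) h3
    exact hwr W hW h4
  · have hn0 : n₀ = 1 := le_antisymm h2 h1
    subst hn0
    rw [pow_one] at heq
    have hodd : Odd p := hp.odd_of_ne_two hp2
    have h2dvd : 2 ∣ q ^ m := by
      rw [← heq]
      obtain ⟨c, hc⟩ := hodd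
      exact ⟨c, by omega⟩
    have hq2 : q = 2 :=
      ((Nat.prime_dvd_prime_iff_eq Nat.prime_two hq).1 (Nat.prime_two.dvd_of_dvd_pow h2dvd)).symm
    subst hq2
    apply hnf
    refine ⟨m, ?_⟩
    have := hp.pos
    omega

end Cfsg.Agent.S3787
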