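import Cfsg.Statements.S3788
import Cfsg.Agent.Lib.Helper2.CycNormal2

set_option autoImplicit false
open Cfsg

namespace Cfsg.Agent.S3788

/-- Let G be a finite p-soluble group, P a Sylow p-subgroup of G and A a cyclic normal subgroup of P. If p is odd, or if no section of G is isomorphic to the symmetric group of degree 4, then A ≤ O_{p',p}(G). -/
theorem result {G : Type*} [Group G] [Finite G] {p : ℕ} [Fact p.Prime] (hG : Cfsg.IsPSolvable p G) (P : Sylow p G) (A : Subgroup G) (hAP : A ≤ (P : Subgroup G)) (hAn : (P : Subgroup G) ≤ Subgroup.normalizer (A : Set G)) (hA : IsCyclic A) (h : p ≠ 2 ∨ ¬ Cfsg.Involves (Equiv.Perm (Fin 4)) G) : A ≤ Cfsg.pPrimePCore p G := by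
  have hs : Function.Surjective (QuotientGroup.mk' (pPrimeCore p G)) :=
    QuotientGroup.mk'_surjective _
  have hcyc : IsCyclic (A.map (QuotientGroup.mk' (pPrimeCore p G))) :=
    isCyclic_of_surjective ((QuotientGroup.mk' (pPrimeCore p G)).subgroupMap A)
      (MonoidHom.subgroupMap_surjective _ _)
  have h' : p ≠ 2 ∨ ¬ Cfsg.Involves (Equiv.Perm (Fin 4)) (G ⧸ pPrimeCore p G) := by
    rcases h with h | h
    · exact Or.inl h
    · exact Or.inr fun hh => h (Cfsg.Agent.Lib.Helper33.involves_quotient _ hh)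
  have key := Cfsg.Agent.Lib.Helper2.CycNormal.reduced
    (Cfsg.Agent.Lib.Helper76.isPSolvable_quotient (pPrimeCore p G) hG)
    (Cfsg.Agent.Lib.Lead.pPrimeCore_quotient_pPrimeCore p G) (P.mapSurjective hs)
    (A.map (QuotientGroup.mk' (pPrimeCore p G)))
    (by rw [Sylow.coe_mapSurjective]; exact Subgroup.map_mono hAP)
    (by
      rw [Sylow.coe_mapSurjective]
      exact (Subgroup.map_mono hAn).trans (Subgroup.le_normalizer_map _))
    hcyc h'
  intro x hx
  unfold Cfsg.pPrimePCore
  rw [Subgroup.mem_comap]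
  exact key (Subgroup.mem_map_of_mem _ hx)

end Cfsg.Agent.S3788
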