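-- Statement S3789 (row 3789): p-length at most the derived length of a Sylow p-subgroup, p odd.
import Cfsg.Statements.S3789
import Cfsg.Agent.Lib.Helper46.DL.TOP

set_option autoImplicit false
open Cfsg

namespace Cfsg.Agent.S3789

/-- Let p be an odd prime and G a finite p-soluble group whose Sylow p-subgroups have derived length at most d. Then G has p-length at most d. -/
theorem result {G : Type*} [Group G] [Finite G] {p : ℕ} [Fact p.Prime] (hp : p ≠ 2) (hG : Cfsg.IsPSolvable p G) (d : ℕ) (hd : ∀ P : Sylow p G, derivedSeries ↥(P : Subgroup G) d = ⊥) : Cfsg.PLengthLE p d G := by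
  exact Cfsg.Agent.Lib.Helper46.DL.top p hp d G hG
    (fun P => (Cfsg.Agent.Lib.Helper46.DL.dS_bot_iff (P : Subgroup G) d).1 (hd P))

end Cfsg.Agent.S3789
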