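import Cfsg.Statements.S3790
import Cfsg.Agent.Lib.Helper63.PLength

set_option autoImplicit false
open Cfsg
open Cfsg.Agent.Lib.Helper63

namespace Cfsg.Agent.S3790

universe u

theorem aux (p : ℕ) (hp : p.Prime) (r : ℕ) :
    ∀ (G : Type u) [Group G] [Finite G] (q : Fin r → ℕ) (l : Fin r → ℕ),
    (∀ i, (q i).Prime ∧ q i ≠ p) →
    (∀ s : ℕ, s.Prime → s ∣ Nat.card G → s ≠ p → ∃ i, q i = s) →
    (∀ i, PLengthLE (q i) (l i) G) →
    PLengthLE p (Finset.univ.prod fun i => 1 + l i) G := by
  induction r with
  | zero =>
    intro G _ _ q l _ hcover _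
    have hcard : Nat.card G = p ^ (Nat.card G).primeFactorsList.length := by
      apply Nat.eq_prime_pow_of_unique_prime_dvd Nat.card_pos.ne'
      intro s hs hd
      by_contra hne
      obtain ⟨i, _⟩ := hcover s hs hd hne
      exact i.elim0
    have := pLengthLE_one_of_isPGroup hp (IsPGroup.of_card hcard)
    simpa using this
  | succ r ih =>
    intro G _ _ q l hq hcover hl
    set q0 := q 0 with hq0
    have hq0p : q0.Prime := (hq 0).1
    set Pr := Finset.univ.prod fun i : Fin r => 1 + l i.succ with hPr
    have claim : ∀ j : ℕ, PLengthLE p (((j + 1) / 2) * Pr) ↥(ups q0 G j) := by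
      intro j
      induction j with
      | zero =>
        have h1 : (Nat.card ↥(ups q0 G 0)).Coprime p := by
          rw [ups_zero, Subgroup.card_bot]; exact Nat.coprime_one_left p
        have := pLengthLE_zero_of_coprime h1
        simpa using this
      | succ j ihj =>
        have hAB : ups q0 G j ≤ ups q0 G (j + 1) := ups_le_succ q0 j
        have hcardX : Nat.card (↥(ups q0 G (j + 1)) ⧸ (ups q0 G j).subgroupOf (ups q0 G (j + 1))) =
            (ups q0 G j).relIndex (ups q0 G (j + 1)) := (Subgroup.index_eq_card _).symm
        have hstep := ups_stepOK (G := G) hq0p j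
        by_cases hj : Even j
        · have hcop := hstep.1 hj
          have hX : PLengthLE p Pr (↥(ups q0 G (j + 1)) ⧸ (ups q0 G j).subgroupOf (ups q0 G (j + 1))) := by
            apply ih _ (fun i => q i.succ) (fun i => l i.succ) (fun i => hq i.succ)
            · intro s hs hd hne
              have hd' : s ∣ Nat.card G :=
                (hd.trans (Subgroup.card_quotient_dvd_card _)).trans (Subgroup.card_subgroup_dvd_card _)
              obtain ⟨i, hi⟩ := hcover s hs hd' hne
              rcases Fin.eq_zero_or_eq_succ i with h0 | ⟨i', hi'⟩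
              · exfalso
                rw [h0] at hi
                rw [hcardX, ← hi] at hd
                have := Nat.Coprime.eq_one_of_dvd hcop.symm hd
                exact hq0p.one_lt.ne' this
              · exact ⟨i', by rw [← hi', hi]⟩
            · intro i
              exact PLengthLE.of_surjective (hq i.succ).1 (QuotientGroup.mk' _)
                (QuotientGroup.mk'_surjective _) (PLengthLE.subgroup (hq i.succ).1 (hl i.succ) _)
          have := PLengthLE.extension' hp _ _ hAB ihj hX
          have e : (j + 1 + 1) / 2 * Pr = (j + 1) / 2 * Pr + Pr := by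
            obtain ⟨t, ht⟩ := hj
            have e1 : (j + 1 + 1) / 2 = t + 1 := by omega
            have e2 : (j + 1) / 2 = t := by omega
            rw [e1, e2]; ring
          rw [e]; exact this
        · obtain ⟨k, hk⟩ := hstep.2 hj
          have hX : PLengthLE p 0 (↥(ups q0 G (j + 1)) ⧸ (ups q0 G j).subgroupOf (ups q0 G (j + 1))) := by
            apply pLengthLE_zero_of_coprime
            rw [hcardX, hk]
            apply Nat.Coprime.pow_left
            exact (Nat.coprime_primes hq0p hp).mpr (hq 0).2
          have := PLengthLE.extension' hp _ _ hAB ihj hX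
          have e : (j + 1 + 1) / 2 * Pr = (j + 1) / 2 * Pr + 0 := by
            rw [Nat.not_even_iff_odd] at hj
            obtain ⟨t, ht⟩ := hj
            have e1 : (j + 1 + 1) / 2 = t + 1 := by omega
            have e2 : (j + 1) / 2 = t + 1 := by omega
            rw [e1, e2]; ring
          rw [e]; exact this
    have h1 := claim (2 * l 0 + 1)
    have htop : ups q0 G (2 * l 0 + 1) = ⊤ := hl 0
    rw [htop] at h1
    have h2 := PLengthLE.of_surjective hp (Subgroup.topEquiv (G := G)).toMonoidHom
      (Subgroup.topEquiv (G := G)).surjective h1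
    have e : (Finset.univ.prod fun i : Fin (r + 1) => 1 + l i) = (2 * l 0 + 1 + 1) / 2 * Pr := by
      rw [Fin.prod_univ_succ]
      have : (2 * l 0 + 1 + 1) / 2 = 1 + l 0 := by omega
      rw [this]
    rw [e]; exact h2

theorem result {G : Type*} [Group G] [Finite G] (hG : Group.IsSolvable G) (p : ℕ) [Fact p.Prime] (r : ℕ) (q : Fin r → ℕ) (hq : ∀ i, (q i).Prime ∧ q i ≠ p) (hinj : Function.Injective q) (hcover : ∀ s : ℕ, s.Prime → s ∣ Nat.card G → s ≠ p → ∃ i, q i = s) (l : Fin r → ℕ) (hl : ∀ i, Cfsg.PLengthLE (q i) (l i) G) : Cfsg.PLengthLE p (Finset.univ.prod fun i => 1 + l i) G :=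
  aux p Fact.out r G q l hq hcover hl

end Cfsg.Agent.S3790
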