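import Cfsg.Statements.S3791
import Cfsg.Agent.Lib.Helper63.PLength

set_option autoImplicit false
open Cfsg
open Cfsg.Agent.Lib.Helper63

namespace Cfsg.Agent.S3791

universe u

theorem card_ups_one_coprime {G : Type*} [Group G] [Finite G] {p : ℕ} (hp : p.Prime) :
    (Nat.card (ups p G 1)).Coprime p := by
  have := (ups_stepOK (G := G) hp 0).1 (by simp)
  rwa [ups_zero, Subgroup.relIndex_bot_left] at this

/-- `O_{p',p}(G)^{(e)} ≤ O_{p'}(G)` if the Sylow `p`-subgroups have derived length at most `e` -/
theorem ds_ups_two_le {G : Type*} [Group G] [Finite G] {p : ℕ} [hp : Fact p.Prime] (e : ℕ)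
    (h : ∀ S : Sylow p G, ds (S : Subgroup G) e = ⊥) : ds (ups p G 2) e ≤ ups p G 1 := by
  set π := QuotientGroup.mk' (ups p G 1) with hπ
  have hsurj : Function.Surjective π := QuotientGroup.mk'_surjective _
  have h1 : (ups p G 2).map π = pCore p (G ⧸ ups p G 1) := by
    have h0 : ups p G 2 = (pCore p (G ⧸ ups p G 1)).comap π := ups_succ_odd p (n := 1) (by decide)
    rw [h0, Subgroup.map_comap_eq_self_of_surjective hsurj]
  obtain ⟨S⟩ : Nonempty (Sylow p G) := inferInstance
  have h2 : pCore p (G ⧸ ups p G 1) ≤ (S : Subgroup G).map π := by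
    have := Cfsg.Agent.Lib.Helper1.pCore_le_sylow (S.mapSurjective hsurj)
    rwa [Sylow.coe_mapSurjective] at this
  have h3 : (ds (ups p G 2) e).map π ≤ ⊥ := by
    rw [← ds_map, h1]
    refine (ds_mono h2 e).trans ?_
    rw [ds_map, h S, Subgroup.map_bot]
  rw [le_bot_iff, Subgroup.map_eq_bot_iff, hπ, QuotientGroup.ker_mk'] at h3
  exact h3

theorem aux (r : ℕ) (q : Fin r → ℕ) (hq : ∀ i, (q i).Prime) (d : Fin r → ℕ) (t : ℕ) :
    ∀ (G : Type u) [Group G] [Finite G] (l : Fin r → ℕ), (Finset.univ.sum fun i => l i) = t →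
    (∀ s : ℕ, s.Prime → s ∣ Nat.card G → ∃ i, q i = s) →
    (∀ i, ∀ (_ : Fact (q i).Prime) (S : Sylow (q i) G), ds (S : Subgroup G) (d i) = ⊥) →
    (∀ i, PLengthLE (q i) (l i) G) →
    derivedSeries G (Finset.univ.sum fun i => d i * l i) = ⊥ := by
  induction' t using Nat.strong_induction_on with t ih
  intro G _ _ l hsum hcover hd hl
  have key : ∀ i, derivedSeries G (Finset.univ.sum fun i => d i * l i) ≤ ups (q i) G 1 := by
    intro i
    have hpi : Fact (q i).Prime := ⟨hq i⟩
    rcases Nat.eq_zero_or_pos (l i) with h0 | hpos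
    · have h1 : ups (q i) G (2 * l i + 1) = ⊤ := hl i
      rw [h0] at h1
      simp only [mul_zero, zero_add] at h1
      rw [h1]; exact le_top
    · obtain ⟨m, hm⟩ : ∃ m, l i = m + 1 := ⟨l i - 1, by omega⟩
      set l' : Fin r → ℕ := Function.update l i m with hl'
      have hli : ∀ j, l j = l' j + (if j = i then 1 else 0) := by
        intro j
        by_cases hj : j = i
        · subst hj; simp [hl', hm]
        · simp [hl', hj]
      have hsum' : (Finset.univ.sum fun j => l' j) < t := by
        have : (Finset.univ.sum fun j => l j) = (Finset.univ.sum fun j => l' j) + 1 := by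
          rw [Finset.sum_congr rfl (fun j _ => hli j), Finset.sum_add_distrib]
          simp
        omega
      have hD : (Finset.univ.sum fun j => d j * l j) = (Finset.univ.sum fun j => d j * l' j) + d i := by
        have : ∀ j, d j * l j = d j * l' j + (if j = i then d i else 0) := by
          intro j
          rw [hli j]
          by_cases hj : j = i
          · subst hj; simp [mul_add]
          · simp [hj]
        rw [Finset.sum_congr rfl (fun j _ => this j), Finset.sum_add_distrib]
        simp
      set π := QuotientGroup.mk' (ups (q i) G 2) with hπ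
      have hsurj : Function.Surjective π := QuotientGroup.mk'_surjective _
      have h1 := ih _ hsum' (G ⧸ ups (q i) G 2) l' rfl
        (by
          intro s hs hdvd
          exact hcover s hs (hdvd.trans (Subgroup.card_quotient_dvd_card _)))
        (by
          intro j hj Sbar
          obtain ⟨S, rfl⟩ := Sylow.mapSurjective_surjective hsurj (q j) Sbar
          rw [Sylow.coe_mapSurjective, ds_map, hd j hj S, Subgroup.map_bot])
        (by
          intro j
          by_cases hj : j = i
          · subst hj
            have : l' j = m := by simp [hl']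
            rw [this]
            apply PLengthLE.quotient_ups_two (hq j)
            rw [← hm]; exact hl j
          · have : l' j = l j := by simp [hl', hj]
            rw [this]
            exact PLengthLE.of_surjective (hq j) π hsurj (hl j))
      have h2 : derivedSeries G (Finset.univ.sum fun j => d j * l' j) ≤ ups (q i) G 2 := by
        rw [← map_derivedSeries_eq hsurj, Subgroup.map_eq_bot_iff, hπ, QuotientGroup.ker_mk'] at h1
        exact h1
      rw [hD, ← ds_top, ds_add, ds_top]
      exact (ds_mono h2 (d i)).trans (ds_ups_two_le (d i) (hd i hpi))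
  rw [eq_bot_iff]
  intro x hx
  rw [Subgroup.mem_bot]
  by_contra hx1
  have hne : orderOf x ≠ 1 := fun h => hx1 (orderOf_eq_one_iff.mp h)
  obtain ⟨s, hs, hsd⟩ := Nat.exists_prime_and_dvd hne
  obtain ⟨i, hi⟩ := hcover s hs (hsd.trans (orderOf_dvd_natCard x))
  have h1 : x ∈ ups (q i) G 1 := key i hx
  have h2 : orderOf x ∣ Nat.card (ups (q i) G 1) := by
    have := orderOf_dvd_natCard (⟨x, h1⟩ : ups (q i) G 1)
    rwa [← Subgroup.orderOf_coe] at this
  have h3 := card_ups_one_coprime (G := G) (hq i)
  have h4 : q i ∣ Nat.card (ups (q i) G 1) := by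
    rw [← hi] at hsd
    exact hsd.trans h2
  have h5 := Nat.Coprime.eq_one_of_dvd h3.symm h4
  exact (hq i).one_lt.ne' h5

theorem result {G : Type*} [Group G] [Finite G] (hG : Group.IsSolvable G) (r : ℕ) (q : Fin r → ℕ) (hq : ∀ i, (q i).Prime) (hinj : Function.Injective q) (hcover : ∀ s : ℕ, s.Prime → s ∣ Nat.card G → ∃ i, q i = s) (d l : Fin r → ℕ) (hd : ∀ i, ∀ P : Subgroup G, (haveI := Fact.mk (hq i); ∃ S : Sylow (q i) G, (S : Subgroup G) = P) → derivedSeries ↥P (d i) = ⊥) (hl : ∀ i, Cfsg.PLengthLE (q i) (l i) G) : derivedSeries G (Finset.univ.sum fun i => d i * l i) = ⊥ := by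
  apply aux r q hq d _ G l rfl hcover _ hl
  intro i _ S
  rw [ds_eq_bot_iff]
  exact hd i S ⟨S, rfl⟩

end Cfsg.Agent.S3791
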