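import Cfsg.Statements.S3797
import Cfsg.Agent.Lib.Helper63.OCCore
import Cfsg.Agent.Lib.Helper63.PLength
import Cfsg.Agent.Lib.Helper73.OneClassH

set_option autoImplicit false
open Cfsg

namespace Cfsg.Agent.S3797

open Cfsg.Agent.Lib.Helper63 Cfsg.Agent.Lib.Helper63.OneClass

section aux

variable {G : Type*} [Group G] [Finite G]

/-- an element of a normal subgroup of odd order which is a `2`-element is trivial -/
theorem eq_one_of_mem (S : Sylow 2 G) {N : Subgroup G} (hN : Odd (Nat.card N)) {x : G}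
    (hxN : x ∈ N) (hxS : x ∈ S) : x = 1 := by
  apply eq_one_of_odd_of_two_pow
  · have h1 : orderOf (⟨x, hxN⟩ : N) ∣ Nat.card N := orderOf_dvd_natCard _
    rw [Subgroup.orderOf_mk] at h1
    exact Odd.of_dvd_nat hN h1
  · obtain ⟨k, hk⟩ := S.isPGroup' ⟨x, hxS⟩
    exact ⟨k, by simpa using congrArg Subtype.val hk⟩

/-- involutions lift modulo a normal subgroup of odd order -/
theorem lift_invol (N : Subgroup G) [N.Normal] (hN : Odd (Nat.card N)) (a : G ⧸ N) (ha1 : a ≠ 1)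
    (ha2 : a ^ 2 = 1) : ∃ x : G, (QuotientGroup.mk x : G ⧸ N) = a ∧ x ≠ 1 ∧ x ^ 2 = 1 := by
  induction a using QuotientGroup.induction_on with
  | H x =>
    obtain ⟨t, ht⟩ := hN
    have hx2 : x ^ 2 ∈ N := by
      rw [← QuotientGroup.eq_one_iff, QuotientGroup.mk_pow]
      exact ha2
    have himg : (QuotientGroup.mk (x ^ Nat.card N) : G ⧸ N) = QuotientGroup.mk x := by
      rw [QuotientGroup.mk_pow, ht, pow_succ, pow_mul, ha2, one_pow, one_mul]
    refine ⟨x ^ Nat.card N, himg, ?_, ?_⟩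
    · intro h1
      apply ha1
      rw [← himg, h1]
      rfl
    · rw [← pow_mul, mul_comm, pow_mul]
      have := pow_card_eq_one' (G := N) (x := ⟨x ^ 2, hx2⟩)
      exact congrArg Subtype.val this

end aux

/-- Let G be a finite solvable group of even order whose Sylow 2-subgroups contain more than one involution, and suppose all involutions of G are conjugate. Then G has 2-length at most 1, and a Sylow 2-subgroup S of G is either homocyclic (a direct product of cyclic groups of one common order) or a non-abelian 2-group with more than one involution admitting a solvable group of automorphisms transitive on its involutions. -/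
theorem result {G : Type*} [Group G] [Finite G] (hG : Group.IsSolvable G) (heven : Even (Nat.card G)) (S : Sylow 2 G) (htwo : ∃ x y : G, x ∈ (S : Subgroup G) ∧ y ∈ (S : Subgroup G) ∧ x ≠ y ∧ x ≠ 1 ∧ x ^ 2 = 1 ∧ y ≠ 1 ∧ y ^ 2 = 1) (hconj : ∀ x y : G, x ≠ 1 → x ^ 2 = 1 → y ≠ 1 → y ^ 2 = 1 → IsConj x y) : Cfsg.PLengthLE 2 1 G ∧ ((∃ m r : ℕ, Nonempty (↥(S : Subgroup G) ≃* (Fin r → Multiplicative (ZMod (2 ^ m))))) ∨ (¬ IsMulCommutative (S : Subgroup G) ∧ ∃ Y : Subgroup (MulAut ↥(S : Subgroup G)), Group.IsSolvable Y ∧ ∀ x y : ↥(S : Subgroup G), x ≠ 1 → x ^ 2 = 1 → y ≠ 1 → y ^ 2 = 1 → ∃ a ∈ Y, a x = y)) := by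
  have hp2 : Fact (Nat.Prime 2) := ⟨Nat.prime_two⟩
  obtain ⟨x0, y0, hx0S, hy0S, hxy0, hx01, hx02, hy01, hy02⟩ := htwo
  -- the quotient by `O(G)`
  set N := Cfsg.pPrimeCore 2 G with hNdef
  have hNn : N.Normal := Cfsg.Agent.Lib.Helper1.pPrimeCore_normal 2
  have hNodd : Odd (Nat.card N) :=
    Nat.coprime_two_right.mp (Cfsg.Agent.Lib.Lead.card_pPrimeCore_coprime 2)
  have hsolQ : Group.IsSolvable (G ⧸ N) := inferInstance
  have hOQ : ∀ M : Subgroup (G ⧸ N), M.Normal → Odd (Nat.card M) → M = ⊥ := by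
    intro M hM hMo
    have h1 : M ≤ Cfsg.pPrimeCore 2 (G ⧸ N) :=
      Cfsg.Agent.Lib.Lead.le_pPrimeCore hM (Nat.coprime_two_right.mpr hMo)
    rw [Cfsg.Agent.Lib.Lead.pPrimeCore_quotient_pPrimeCore] at h1
    exact le_bot_iff.mp h1
  have hconjQ : ∀ a b : G ⧸ N, a ≠ 1 → a ^ 2 = 1 → b ≠ 1 → b ^ 2 = 1 → IsConj a b := by
    intro a b ha1 ha2 hb1 hb2
    obtain ⟨x, rfl, hx1, hx2⟩ := lift_invol N hNodd a ha1 ha2
    obtain ⟨y, rfl, hy1, hy2⟩ := lift_invol N hNodd b hb1 hb2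
    exact (QuotientGroup.mk' N).map_isConj (hconj x y hx1 hx2 hy1 hy2)
  have hmk1 : ∀ x ∈ S, x ≠ 1 → (QuotientGroup.mk x : G ⧸ N) ≠ 1 := by
    intro x hx hx1 h1
    exact hx1 (eq_one_of_mem S hNodd ((QuotientGroup.eq_one_iff x).mp h1) hx)
  have h2Q : ∃ a b : G ⧸ N, a ≠ b ∧ a ≠ 1 ∧ a ^ 2 = 1 ∧ b ≠ 1 ∧ b ^ 2 = 1 := by
    refine ⟨QuotientGroup.mk x0, QuotientGroup.mk y0, ?_, hmk1 x0 hx0S hx01, ?_, hmk1 y0 hy0S hy01, ?_⟩
    · intro h1
      have h2 := QuotientGroup.eq.mp h1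
      have h3 := eq_one_of_mem S hNodd h2 (mul_mem (inv_mem hx0S) hy0S)
      exact hxy0 (inv_mul_eq_one.mp h3)
    · rw [← QuotientGroup.mk_pow, hx02]; rfl
    · rw [← QuotientGroup.mk_pow, hy02]; rfl
  set SQ : Sylow 2 (G ⧸ N) := Sylow.mapSurjective (QuotientGroup.mk'_surjective N) S with hSQ
  have hSQn : (SQ : Subgroup (G ⧸ N)).Normal := core hsolQ hOQ hconjQ h2Q SQ
  -- involutions of `S` are central in `S`
  have hcent : ∀ x ∈ S, x ^ 2 = 1 → ∀ s ∈ S, s * x = x * s := by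
    obtain ⟨a, b, -, ha1, ha2, -⟩ := h2Q
    obtain ⟨VQ, -, hVQ, hSVQ⟩ := Cfsg.Agent.Lib.Helper73.OneClass.sylow_centralizes hsolQ hOQ hconjQ ⟨a, ha1, ha2⟩
    intro x hx hx2 s hs
    have h1 : (QuotientGroup.mk s : G ⧸ N) * QuotientGroup.mk x =
        QuotientGroup.mk x * QuotientGroup.mk s := by
      apply hSVQ SQ
      · show (QuotientGroup.mk s : G ⧸ N) ∈ (SQ : Subgroup (G ⧸ N))
        rw [hSQ, Sylow.coe_mapSurjective]
        exact Subgroup.mem_map_of_mem (QuotientGroup.mk' N) hs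
      · rw [hVQ, ← QuotientGroup.mk_pow, hx2]; rfl
    rw [← QuotientGroup.mk_mul, ← QuotientGroup.mk_mul] at h1
    have h2 := QuotientGroup.eq.mp h1
    have h3 := eq_one_of_mem S hNodd h2 (mul_mem (inv_mem (mul_mem hs hx)) (mul_mem hx hs))
    exact inv_mul_eq_one.mp h3
  -- transitivity of `N_G(S)`
  have htr : ∀ x y : ↥(S : Subgroup G), x ≠ 1 → x ^ 2 = 1 → y ≠ 1 → y ^ 2 = 1 →
      ∃ a ∈ (Subgroup.normalizerMonoidHom (S : Subgroup G)).range, a x = y := by
    intro x y hx1 hx2 hy1 hy2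
    have hx2' : (x : G) ^ 2 = 1 := by simpa using congrArg Subtype.val hx2
    have hy2' : (y : G) ^ 2 = 1 := by simpa using congrArg Subtype.val hy2
    obtain ⟨c, hc⟩ := isConj_iff.mp (hconj x y (fun h => hx1 (Subtype.ext h)) hx2'
      (fun h => hy1 (Subtype.ext h)) hy2')
    have hcen : ∀ w ∈ S, w ^ 2 = 1 → w ∈ Subgroup.centralizer ((S : Subgroup G) : Set G) := by
      intro w hw hw2
      rw [Subgroup.mem_centralizer_iff]
      intro s hs
      exact hcent w hw hw2 s hs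
    obtain ⟨n, hn, hn'⟩ := S.conj_eq_normalizer_conj_of_mem_centralizer x c⁻¹ (hcen x x.2 hx2')
      (by rw [inv_inv, hc]; exact hcen y y.2 hy2')
    rw [inv_inv, hc] at hn'
    refine ⟨_, ⟨⟨n⁻¹, inv_mem hn⟩, rfl⟩, Subtype.ext ?_⟩
    show n⁻¹ * (x : G) * n⁻¹⁻¹ = y
    rw [inv_inv, hn']
  refine ⟨?_, ?_⟩
  · -- the `2`-length
    have hQ : PLengthLE 2 1 (G ⧸ N) := by
      have h1 : PLengthLE 2 1 (SQ : Subgroup (G ⧸ N)) :=
        pLengthLE_one_of_isPGroup Nat.prime_two SQ.isPGroup'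
      have h0 : PLengthLE 2 0 ((G ⧸ N) ⧸ (SQ : Subgroup (G ⧸ N))) := by
        apply pLengthLE_zero_of_coprime
        have : Nat.card ((G ⧸ N) ⧸ (SQ : Subgroup (G ⧸ N))) = (SQ : Subgroup (G ⧸ N)).index := rfl
        rw [this]
        exact (Nat.coprime_comm.mp ((Nat.Prime.coprime_iff_not_dvd Nat.prime_two).mpr SQ.not_dvd_index))
      exact PLengthLE.extension Nat.prime_two (SQ : Subgroup (G ⧸ N)) h1 h0
    have hN0 : PLengthLE 2 0 N :=
      pLengthLE_zero_of_coprime (Cfsg.Agent.Lib.Lead.card_pPrimeCore_coprime 2)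
    have := PLengthLE.extension Nat.prime_two N hN0 hQ
    simpa using this
  · by_cases hab : IsMulCommutative (S : Subgroup G)
    · left
      apply Cfsg.Agent.Lib.Helper73.OneClass.homocyclic_of_trans S.isPGroup' (fun x y => mul_comm' x y)
      intro x y hx1 hx2 hy1 hy2
      obtain ⟨a, -, ha⟩ := htr x y hx1 hx2 hy1 hy2
      exact ⟨a, ha⟩
    · right
      refine ⟨hab, (Subgroup.normalizerMonoidHom (S : Subgroup G)).range, ?_, htr⟩
      exact Group.isSolvable_of_surjective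
        (Subgroup.normalizerMonoidHom (S : Subgroup G)).rangeRestrict_surjective

end Cfsg.Agent.S3797
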