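import Cfsg.Statements.S3798
import Cfsg.Agent.Lib.Helper63.PLength2
import Cfsg.Agent.Lib.Helper69.PSolv
import Cfsg.Agent.Lib.Helper25.SZAmbient
import Cfsg.Agent.Lib.Helper24.PGroup

set_option autoImplicit false
open Cfsg

namespace Cfsg.Agent.S3798

open Cfsg.Agent.Lib.Helper63

/-- a characteristic subgroup is mapped into itself by automorphisms (elementwise) -/
theorem char_mem {G : Type*} [Group G] (H : Subgroup G) [hH : H.Characteristic] (a : MulAut G) {x : G}
    (hx : x ∈ H) : a x ∈ H := by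
  have h := Subgroup.characteristic_iff_map_le.mp hH a
  exact h (Subgroup.mem_map_of_mem _ hx)

/-- the centralizer of a characteristic subgroup is mapped into itself by automorphisms -/
theorem char_centralizer_mem {G : Type*} [Group G] (H : Subgroup G) [hH : H.Characteristic]
    (a : MulAut G) {x : G} (hx : x ∈ Subgroup.centralizer (H : Set G)) :
    a x ∈ Subgroup.centralizer (H : Set G) := by
  rw [Subgroup.mem_centralizer_iff] at hx ⊢
  intro t ht
  have h1 : a.symm t ∈ H := char_mem H a.symm ht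
  have h2 := hx _ h1
  have h3 := congrArg a h2
  simpa using h3

/-- transitivity on subgroups of order `p`, elementwise -/
theorem trans_elt {G : Type*} [Group G] {p : ℕ}
    (htrans : ∀ U V : Subgroup G, Nat.card U = p → Nat.card V = p →
      ∃ a : MulAut G, U.map a.toMonoidHom = V) {z x : G} (hz : orderOf z = p) (hx : orderOf x = p) :
    ∃ (a : MulAut G) (k : ℤ), x = a (z ^ k) := by
  obtain ⟨a, ha⟩ := htrans (Subgroup.zpowers z) (Subgroup.zpowers x)
    (by rw [Nat.card_zpowers, hz]) (by rw [Nat.card_zpowers, hx])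
  have h1 : x ∈ (Subgroup.zpowers z).map a.toMonoidHom := by
    rw [ha]; exact Subgroup.mem_zpowers x
  obtain ⟨y, hy, hyx⟩ := h1
  obtain ⟨k, rfl⟩ := Subgroup.mem_zpowers_iff.mp hy
  exact ⟨a, k, hyx.symm⟩

/-- a nontrivial `p`-subgroup contains an element of order `p` -/
theorem exists_order_p {G : Type*} [Group G] [Finite G] {p : ℕ} [hp : Fact p.Prime] (H : Subgroup G)
    (hH : IsPGroup p H) (hne : H ≠ ⊥) : ∃ x ∈ H, orderOf x = p := by
  have : Nontrivial H := (Subgroup.nontrivial_iff_ne_bot H).mpr hne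
  obtain ⟨n, hn0, hn⟩ := hH.nontrivial_iff_card.mp this
  have hd : p ∣ Nat.card H := by rw [hn]; exact dvd_pow_self p (by omega)
  obtain ⟨x, hx⟩ := exists_prime_orderOf_dvd_card' p hd
  exact ⟨x, x.2, by rw [← hx, Subgroup.orderOf_coe]⟩

theorem key {G : Type*} [Group G] [Finite G] {p : ℕ} [hpf : Fact p.Prime] (hp : p ≠ 2)
    (hdvd : p ∣ Nat.card G) (hG : IsPSolvable p G) (hcore : pPrimeCore p G = ⊥)
    (htrans : ∀ U V : Subgroup G, Nat.card U = p → Nat.card V = p →
      ∃ a : MulAut G, U.map a.toMonoidHom = V) : PLengthLE p 1 G := by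
  have hpp : p.Prime := hpf.out
  set T := pCore p G with hT
  have hTp : IsPGroup p T := Cfsg.Agent.Lib.Lead.pCore_isPGroup p G
  have hTc : T.Characteristic := Cfsg.Agent.Lib.Lead.pCore_characteristic p G
  have hTn : T.Normal := inferInstance
  have hCT : Subgroup.centralizer (T : Set G) ≤ T :=
    Cfsg.Agent.Lib.Helper76.centralizer_pCore_le hG hcore
  -- `T ≠ 1`
  have hTne : T ≠ ⊥ := by
    intro h
    have h1 : (⊤ : Subgroup G) ≤ T := by
      refine le_trans ?_ hCT
      rw [h]; simp
    rw [h] at h1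
    have h2 : Nat.card G = 1 := by
      rw [← Subgroup.card_top, ← top_le_iff.mp h1, Subgroup.card_bot]
    rw [h2] at hdvd
    exact hpp.one_lt.ne' (Nat.dvd_one.mp hdvd)
  -- an element of order `p` in `Z(T)`
  obtain ⟨z, hzC, hz⟩ : ∃ z ∈ Subgroup.centralizer (T : Set G), orderOf z = p := by
    have : Nontrivial T := (Subgroup.nontrivial_iff_ne_bot T).mpr hTne
    have hZ : Nontrivial (Subgroup.center T) := hTp.center_nontrivial
    have hZne : (Subgroup.center T).map T.subtype ≠ ⊥ := by
      rw [Ne, Subgroup.map_eq_bot_iff_of_injective _ T.subtype_injective]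
      exact (Subgroup.nontrivial_iff_ne_bot _).mp hZ
    obtain ⟨x, hx, hxo⟩ := exists_order_p ((Subgroup.center T).map T.subtype)
      (hTp.to_le (Subgroup.map_subtype_le _)) hZne
    refine ⟨x, ?_, hxo⟩
    obtain ⟨y, hy, rfl⟩ := hx
    rw [Subgroup.mem_centralizer_iff]
    intro t ht
    have := Subgroup.mem_center_iff.mp hy ⟨t, ht⟩
    exact congrArg Subtype.val this
  -- all elements of order `p` lie in `Z(T)`
  have hA : ∀ x : G, orderOf x = p → x ∈ Subgroup.centralizer (T : Set G) := by
    intro x hx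
    obtain ⟨a, k, rfl⟩ := trans_elt htrans hz hx
    exact char_centralizer_mem T a (Subgroup.zpow_mem _ hzC k)
  -- the case `T = G`
  by_cases hTtop : T = ⊤
  · apply pLengthLE_one_of_isPGroup hpp
    rw [hTtop] at hTp
    exact hTp.of_equiv Subgroup.topEquiv
  -- `T = ups 2`
  have hu1 : ups p G 1 = ⊥ := by rw [ups_one_eq hpp, hcore]
  have hTu : T ≤ ups p G 2 := by
    apply le_ups_succ_of_pow p (n := 1) (by decide) T
    rw [hu1, Subgroup.relIndex_bot_left]
    exact (IsPGroup.iff_card).mp hTp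
  have huT : ups p G 2 ≤ T := by
    apply Cfsg.Agent.Lib.Lead.le_pCore inferInstance
    obtain ⟨m, hm⟩ := (ups_stepOK (G := G) hpp 1).2 (by decide)
    rw [hu1, Subgroup.relIndex_bot_left] at hm
    exact IsPGroup.of_card hm
  have hu2 : ups p G 2 = T := le_antisymm huT hTu
  set K := ups p G 3 with hK
  have hKc : K.Characteristic := ups_characteristic hpp 3
  have hKn : K.Normal := inferInstance
  have hTK : T ≤ K := by rw [← hu2]; exact ups_le_succ p 2
  have hKcop : (T.relIndex K).Coprime p := by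
    have := (ups_stepOK (G := G) hpp 2).1 (by decide)
    rwa [hu2] at this
  -- `K ≠ T`
  have hKT : K ≠ T := by
    intro hKT
    have hnt : Nontrivial (G ⧸ T) := by
      rw [← Finite.one_lt_card_iff_nontrivial, ← Subgroup.index_eq_card]
      have h0 : T.index ≠ 0 := Subgroup.index_ne_zero_of_finite
      have h1 : T.index ≠ 1 := fun h => hTtop (Subgroup.index_eq_one.mp h)
      omega
    obtain ⟨N, hNn, hNne, hN⟩ := Cfsg.Agent.Lib.Helper69.exists_normal_of_isPSolvable
      (Cfsg.Agent.Lib.Helper76.isPSolvable_quotient T hG)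
    rcases hN with ⟨m, hm⟩ | hc
    · have h1 : N ≤ pCore p (G ⧸ T) := Cfsg.Agent.Lib.Lead.le_pCore hNn (IsPGroup.of_card hm)
      have h2 : pCore p (G ⧸ T) = ⊥ := Cfsg.Agent.Lib.Lead.pCore_quotient_pCore p G
      rw [h2] at h1
      exact hNne (le_bot_iff.mp h1)
    · have hMn : (N.comap (QuotientGroup.mk' T)).Normal := inferInstance
      have h1 : N.comap (QuotientGroup.mk' T) ≤ ups p G (2 + 1) := by
        apply le_ups_succ hpp T _ hTu
        refine ⟨fun _ => ?_, fun h => absurd (by decide) h⟩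
        rw [relIndex_comap_mk']; exact hc
      have h2 : N.comap (QuotientGroup.mk' T) ≤ T := h1.trans hKT.le
      apply hNne
      rw [← Subgroup.map_comap_eq_self_of_surjective (QuotientGroup.mk'_surjective T) N, eq_bot_iff,
        ← QuotientGroup.map_mk'_self T]
      exact Subgroup.map_mono h2
  -- a complement `Q` of `T` in `K`
  obtain ⟨Q, hQK, hQcard, hTQ⟩ : ∃ Q : Subgroup G, Q ≤ K ∧ Nat.card Q = T.relIndex K ∧ T ⊔ Q = K := by
    have hn : (T.subgroupOf K).Normal := inferInstance
    have hcop : Nat.Coprime (Nat.card (T.subgroupOf K)) (T.subgroupOf K).index := by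
      obtain ⟨m, hm⟩ := (IsPGroup.iff_card).mp (hTp.comap_subtype (K := K))
      have hm' : Nat.card (T.subgroupOf K) = p ^ m := hm
      rw [hm']
      exact Nat.Coprime.pow_left m hKcop.symm
    obtain ⟨Q', hQ'⟩ := Subgroup.exists_right_complement'_of_coprime hcop
    refine ⟨Q'.map K.subtype, Subgroup.map_subtype_le _, ?_, ?_⟩
    · rw [Subgroup.card_map_of_injective K.subtype_injective]
      exact hQ'.symm.index_eq_card.symm
    · have h1 := congrArg (Subgroup.map K.subtype) hQ'.sup_eq_top
      rw [Subgroup.map_sup, Subgroup.subgroupOf_map_subtype, inf_eq_left.mpr hTK,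
        ← MonoidHom.range_eq_map, Subgroup.range_subtype] at h1
      exact h1
  have hQcop : (Nat.card Q).Coprime p := by rw [hQcard]; exact hKcop
  have hQT : Q ⊓ T = ⊥ := by
    obtain ⟨m, hm⟩ := (IsPGroup.iff_card).mp hTp
    have : Nat.Coprime (Nat.card Q) (Nat.card T) := by
      rw [hm]; exact Nat.Coprime.pow_right m hQcop
    exact (Subgroup.disjoint_of_coprime_natCard this).eq_bot
  -- Frattini argument
  have hfrat : ∀ g : G, ∃ t ∈ T, ∃ n ∈ Subgroup.normalizer (Q : Set G), g = t * n := by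
    intro g
    have h1 : Q.map (MulAut.conj g).toMonoidHom ≤ T ⊔ Q := by
      rw [hTQ]
      rintro _ ⟨q, hq, rfl⟩
      exact hKn.conj_mem q (hQK hq) g
    obtain ⟨x, hx, hxe⟩ := Cfsg.Agent.Lib.Helper25.sz_conj_ambient T Q (Q.map (MulAut.conj g).toMonoidHom)
      (by rw [Subgroup.normalizer_eq_top]; exact le_top) h1
      (by
        obtain ⟨m, hm⟩ := (IsPGroup.iff_card).mp hTp
        rw [hm]; exact Nat.Coprime.pow_left m hQcop.symm)
      (Subgroup.card_map_of_injective (MulAut.conj g).injective)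
      (Or.inl (by have := hTp.isNilpotent; infer_instance))
    refine ⟨x, hx, x⁻¹ * g, ?_, by group⟩
    rw [Subgroup.mem_normalizer_iff_map_conj_eq]
    have h2 : Q.map (MulAut.conj (x⁻¹ * g)).toMonoidHom =
        (Q.map (MulAut.conj g).toMonoidHom).map (MulAut.conj x⁻¹).toMonoidHom := by
      rw [Subgroup.map_map, map_mul]; rfl
    show Q.map (MulAut.conj (x⁻¹ * g)).toMonoidHom = Q
    rw [h2, hxe, Subgroup.map_map]
    ext y
    have e : ∀ q : G, x⁻¹ * (x * q * x⁻¹) * x = q := fun q => by group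
    simp [e]
  set N := Subgroup.normalizer (Q : Set G) with hN
  -- `N ∩ T` centralizes `Q`
  have hNT : ∀ t ∈ N ⊓ T, t ∈ Subgroup.centralizer (Q : Set G) := by
    intro t ht
    rw [Subgroup.mem_centralizer_iff]
    intro q hq
    have h1 : t * q * t⁻¹ * q⁻¹ ∈ Q :=
      Q.mul_mem ((Subgroup.mem_normalizer_iff.mp ht.1 q).mp hq) (Q.inv_mem hq)
    have h2 : t * q * t⁻¹ * q⁻¹ ∈ T := by
      have : t * q * t⁻¹ * q⁻¹ = t * (q * t⁻¹ * q⁻¹) := by group
      rw [this]
      exact T.mul_mem ht.2 (hTn.conj_mem _ (T.inv_mem ht.2) q)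
    have h3 : t * q * t⁻¹ * q⁻¹ ∈ Q ⊓ T := ⟨h1, h2⟩
    rw [hQT, Subgroup.mem_bot] at h3
    have : t * q = q * t := by
      calc t * q = (t * q * t⁻¹ * q⁻¹) * (q * t) := by group
        _ = q * t := by rw [h3, one_mul]
    exact this.symm
  -- no element of order `p` centralizes `K`
  have hno : ∀ w : G, orderOf w = p → w ∉ Subgroup.centralizer (K : Set G) := by
    intro w hw hwK
    have hall : ∀ x : G, orderOf x = p → x ∈ Subgroup.centralizer (K : Set G) := by
      intro x hx
      obtain ⟨a, k, rfl⟩ := trans_elt htrans hw hx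
      exact char_centralizer_mem K a (Subgroup.zpow_mem _ hwK k)
    have h1 : T ≤ Subgroup.centralizer (Q : Set G) := by
      apply Cfsg.Agent.Lib.Helper24.le_centralizer_of_centralizes_omega p hp Q hQcop T hTp
        (by rw [Subgroup.normalizer_eq_top]; exact le_top)
      intro x _ hxp
      by_cases hx1 : x = 1
      · rw [hx1]; exact Subgroup.one_mem _
      · exact Subgroup.centralizer_le (by exact_mod_cast hQK) (hall x (orderOf_eq_prime hxp hx1))
    have h2 : Q ≤ Subgroup.centralizer (T : Set G) := Subgroup.le_centralizer_iff.mp h1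
    have h3 : Q ≤ Q ⊓ T := le_inf le_rfl (h2.trans hCT)
    rw [hQT, le_bot_iff] at h3
    rw [h3, sup_bot_eq] at hTQ
    exact hKT hTQ.symm
  -- `N ∩ T = 1`
  have hNT1 : N ⊓ T = ⊥ := by
    by_contra hne
    obtain ⟨w, hw, hwo⟩ := exists_order_p (N ⊓ T) (hTp.to_le inf_le_right) hne
    apply hno w hwo
    rw [← hTQ]
    have h1 : T ⊔ Q ≤ Subgroup.centralizer (Subgroup.zpowers w : Set G) := by
      apply sup_le
      · apply Subgroup.le_centralizer_iff.mp
        rw [Subgroup.zpowers_le]; exact hA w hwo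
      · apply Subgroup.le_centralizer_iff.mp
        rw [Subgroup.zpowers_le]; exact hNT w hw
    exact Subgroup.le_centralizer_iff.mp h1 (Subgroup.mem_zpowers w)
  -- `p ∤ |G : T|`
  have hidx : ¬ p ∣ T.index := by
    intro hd
    rw [Subgroup.index_eq_card] at hd
    obtain ⟨gb, hgb⟩ := exists_prime_orderOf_dvd_card' p hd
    obtain ⟨g, rfl⟩ := QuotientGroup.mk'_surjective T gb
    obtain ⟨t, ht, n, hn, rfl⟩ := hfrat g
    have e1 : QuotientGroup.mk' T (t * n) = QuotientGroup.mk' T n := by
      have e0 : QuotientGroup.mk' T t = 1 := (QuotientGroup.eq_one_iff t).mpr ht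
      rw [map_mul, e0, one_mul]
    rw [e1] at hgb
    have h1 : n ^ p ∈ T := by
      rw [← QuotientGroup.eq_one_iff]
      have := pow_orderOf_eq_one (QuotientGroup.mk' T n)
      rw [hgb] at this
      exact this
    have h2 : n ∉ T := by
      intro h
      have : QuotientGroup.mk' T n = 1 := (QuotientGroup.eq_one_iff n).mpr h
      rw [this, orderOf_one] at hgb
      exact hpp.one_lt.ne hgb
    have h3 : n ^ p ∈ N ⊓ T := ⟨N.pow_mem hn p, h1⟩
    rw [hNT1, Subgroup.mem_bot] at h3
    have h4 : orderOf n = p := orderOf_eq_prime h3 (fun h => h2 (h ▸ T.one_mem))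
    exact h2 (hCT (hA n h4))
  have hfin : (⊤ : Subgroup G) ≤ ups p G (2 + 1) := by
    apply le_ups_succ hpp T ⊤ hTu
    refine ⟨fun _ => ?_, fun h => absurd (by decide) h⟩
    rw [Subgroup.relIndex_top_right]
    exact ((Nat.Prime.coprime_iff_not_dvd hpp).mpr hidx).symm
  exact top_le_iff.mp hfin

/-- subgroups of order `p` lift through a quotient by a normal `p'`-subgroup -/
theorem lift_order_p {G : Type*} [Group G] [Finite G] {p : ℕ} [hpf : Fact p.Prime] (N : Subgroup G)
    [N.Normal] (hN : (Nat.card N).Coprime p) (Ub : Subgroup (G ⧸ N)) (hU : Nat.card Ub = p) :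
    ∃ U : Subgroup G, Nat.card U = p ∧ U.map (QuotientGroup.mk' N) = Ub := by
  have hpp : p.Prime := hpf.out
  have hd : p ∣ Nat.card Ub := by rw [hU]
  obtain ⟨ub, hub⟩ := exists_prime_orderOf_dvd_card' p hd
  obtain ⟨g, hg⟩ := QuotientGroup.mk'_surjective N (ub : G ⧸ N)
  have hgo : orderOf (QuotientGroup.mk' N g) = p := by rw [hg, Subgroup.orderOf_coe, hub]
  set m := Nat.card N with hm
  have h1 : g ^ p ∈ N := by
    rw [← QuotientGroup.eq_one_iff]
    have := pow_orderOf_eq_one (QuotientGroup.mk' N g)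
    rw [hgo] at this
    exact this
  have h2 : (g ^ m) ^ p = 1 := by
    rw [← pow_mul, mul_comm, pow_mul]
    have := pow_card_eq_one' (x := (⟨g ^ p, h1⟩ : N))
    exact congrArg Subtype.val this
  have h3 : g ^ m ∉ N := by
    intro h
    have h4 : (QuotientGroup.mk' N g) ^ m = 1 := by
      rw [← map_pow]; exact (QuotientGroup.eq_one_iff _).mpr h
    have h5 := orderOf_dvd_of_pow_eq_one h4
    rw [hgo] at h5
    exact hpp.one_lt.ne' (Nat.dvd_one.mp (hN ▸ Nat.dvd_gcd h5 dvd_rfl))
  have h4 : orderOf (g ^ m) = p := orderOf_eq_prime h2 (fun h => h3 (h ▸ N.one_mem))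
  refine ⟨Subgroup.zpowers (g ^ m), by rw [Nat.card_zpowers, h4], ?_⟩
  rw [MonoidHom.map_zpowers]
  have h5 : Subgroup.zpowers (QuotientGroup.mk' N (g ^ m)) ≤ Ub := by
    rw [Subgroup.zpowers_le, map_pow, hg]
    exact Ub.pow_mem ub.2 m
  apply Subgroup.eq_of_le_of_card_ge h5
  rw [hU, Nat.card_zpowers]
  apply le_of_eq
  symm
  apply orderOf_eq_prime
  · rw [← map_pow, h2, map_one]
  · intro h
    exact h3 ((QuotientGroup.eq_one_iff _).mp h)

/-- The Gaschütz–Yen Theorem: let G be a finite p-soluble group, p an odd prime dividing its order, such that the automorphism group of G permutes the subgroups of G of order p transitively. Then G has p-length at most 1. -/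
theorem result {G : Type*} [Group G] [Finite G] {p : ℕ} [Fact p.Prime] (hp : p ≠ 2) (hdvd : p ∣ Nat.card G) (hG : Cfsg.IsPSolvable p G) (htrans : ∀ U V : Subgroup G, Nat.card U = p → Nat.card V = p → ∃ a : MulAut G, U.map a.toMonoidHom = V) : Cfsg.PLengthLE p 1 G := by
  have hpp : p.Prime := Fact.out
  set N := ups p G 1 with hN
  have hNc : N.Characteristic := ups_characteristic hpp 1
  have hNcop : (Nat.card N).Coprime p := card_ups_one_coprime hpp
  have hQ : PLengthLE p 1 (G ⧸ N) := by
    apply key hp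
    · rw [← Subgroup.index_eq_card]
      have h1 := N.card_mul_index
      rw [← h1] at hdvd
      exact (Nat.Coprime.dvd_mul_left hNcop.symm).mp hdvd
    · exact Cfsg.Agent.Lib.Helper76.isPSolvable_quotient N hG
    · exact pPrimeCore_quotient_ups_one hpp
    · intro Ub Vb hU hV
      obtain ⟨U, hUc, rfl⟩ := lift_order_p N hNcop Ub hU
      obtain ⟨V, hVc, rfl⟩ := lift_order_p N hNcop Vb hV
      obtain ⟨a, ha⟩ := htrans U V hUc hVc
      have hNa : N.map a.toMonoidHom = N := Subgroup.characteristic_iff_map_eq.mp hNc a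
      refine ⟨QuotientGroup.congr N N a hNa, ?_⟩
      rw [← ha, Subgroup.map_map, Subgroup.map_map]
      congr 1
  have h0 : PLengthLE p 0 N := pLengthLE_zero_of_coprime hNcop
  have := PLengthLE.extension hpp N h0 hQ
  simpa using this

end Cfsg.Agent.S3798
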