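import Cfsg.Statements.S3799
import Cfsg.Agent.S0012
import Cfsg.Agent.Lib.Helper47.Frat

set_option autoImplicit false
open Cfsg

namespace Cfsg.Agent.S3799

open Matrix
open scoped commutatorElement

/-- The Heisenberg group of rank `n` over `ZMod p`. -/
@[ext] structure Hs (n p : ℕ) where
  x : Fin n → ZMod p
  y : Fin n → ZMod p
  z : ZMod p

namespace Hs

variable {n p : ℕ}

instance : Mul (Hs n p) := ⟨fun a b => ⟨a.x + b.x, a.y + b.y, a.z + b.z + a.x ⬝ᵥ b.y⟩⟩
instance : One (Hs n p) := ⟨⟨0, 0, 0⟩⟩
instance : Inv (Hs n p) := ⟨fun a => ⟨-a.x, -a.y, -a.z + a.x ⬝ᵥ a.y⟩⟩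

@[simp] lemma mul_x (a b : Hs n p) : (a * b).x = a.x + b.x := rfl
@[simp] lemma mul_y (a b : Hs n p) : (a * b).y = a.y + b.y := rfl
@[simp] lemma mul_z (a b : Hs n p) : (a * b).z = a.z + b.z + a.x ⬝ᵥ b.y := rfl
@[simp] lemma one_x : (1 : Hs n p).x = 0 := rfl
@[simp] lemma one_y : (1 : Hs n p).y = 0 := rfl
@[simp] lemma one_z : (1 : Hs n p).z = 0 := rfl
@[simp] lemma inv_x (a : Hs n p) : (a⁻¹).x = -a.x := rfl
@[simp] lemma inv_y (a : Hs n p) : (a⁻¹).y = -a.y := rfl
@[simp] lemma inv_z (a : Hs n p) : (a⁻¹).z = -a.z + a.x ⬝ᵥ a.y := rfl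

instance : Group (Hs n p) :=
  Group.ofLeftAxioms
    (fun a b c => by
      ext1
      · simp [add_assoc]
      · simp [add_assoc]
      · simp only [mul_z, mul_x, mul_y, add_dotProduct, dotProduct_add]; ring)
    (fun a => by
      ext1
      · simp
      · simp
      · simp)
    (fun a => by
      ext1
      · simp
      · simp
      · simp)

lemma pow_x (a : Hs n p) (k : ℕ) : (a ^ k).x = k • a.x := by
  induction k with
  | zero => simp
  | succ k ih => rw [pow_succ, mul_x, ih, succ_nsmul]

lemma pow_y (a : Hs n p) (k : ℕ) : (a ^ k).y = k • a.y := by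
  induction k with
  | zero => simp
  | succ k ih => rw [pow_succ, mul_y, ih, succ_nsmul]

lemma pow_z (a : Hs n p) (k : ℕ) :
    (a ^ k).z = k * a.z + (k.choose 2 : ℕ) * (a.x ⬝ᵥ a.y) := by
  induction k with
  | zero => simp
  | succ k ih =>
    rw [pow_succ, mul_z, ih, pow_x, Nat.choose_succ_succ' k 1, Nat.choose_one_right,
      smul_dotProduct]
    push_cast
    simp only [nsmul_eq_mul]
    ring

lemma pow_p [hp : Fact p.Prime] (h2 : p ≠ 2) (a : Hs n p) : a ^ p = 1 := by
  have hlt : 2 < p := lt_of_le_of_ne hp.out.two_le (Ne.symm h2)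
  ext1
  · rw [pow_x]
    ext i
    simp
  · rw [pow_y]
    ext i
    simp
  · rw [pow_z]
    have : ((p.choose 2 : ℕ) : ZMod p) = 0 := by
      rw [ZMod.natCast_eq_zero_iff]
      exact hp.out.dvd_choose_self (by norm_num) hlt
    rw [this]
    simp

/-- underlying product. -/
def equivProd : Hs n p ≃ (Fin n → ZMod p) × (Fin n → ZMod p) × ZMod p where
  toFun a := (a.x, a.y, a.z)
  invFun t := ⟨t.1, t.2.1, t.2.2⟩
  left_inv _ := rfl
  right_inv _ := rfl

lemma card_eq [Fact p.Prime] : Nat.card (Hs n p) = p ^ (1 + 2 * n) := by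
  rw [Nat.card_congr equivProd, Nat.card_prod, Nat.card_prod, Nat.card_fun, Nat.card_zmod,
    Nat.card_eq_fintype_card, Fintype.card_fin]
  ring

instance [Fact p.Prime] : Finite (Hs n p) := Finite.of_equiv _ equivProd.symm

lemma mem_center_iff [Fact p.Prime] (a : Hs n p) :
    a ∈ Subgroup.center (Hs n p) ↔ a.x = 0 ∧ a.y = 0 := by
  rw [Subgroup.mem_center_iff]
  constructor
  · intro h
    constructor
    · ext i
      have := congrArg Hs.z (h ⟨0, Pi.single i 1, 0⟩)
      simpa using this.symm
    · ext i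
      have := congrArg Hs.z (h ⟨Pi.single i 1, 0, 0⟩)
      simpa using this
  · rintro ⟨hx, hy⟩ b
    ext1
    · simp [hx]
    · simp [hy]
    · simp [hx, hy, add_comm]

/-- the centre is `ZMod p`. -/
def centerEquiv [Fact p.Prime] : Subgroup.center (Hs n p) ≃ ZMod p where
  toFun a := a.1.z
  invFun t := ⟨⟨0, 0, t⟩, (mem_center_iff _).mpr ⟨rfl, rfl⟩⟩
  left_inv a := by
    obtain ⟨hx, hy⟩ := (mem_center_iff _).mp a.2
    apply Subtype.ext
    ext1
    · exact hx.symm
    · exact hy.symm
    · rfl
  right_inv _ := rfl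

lemma card_center [Fact p.Prime] : Nat.card (Subgroup.center (Hs n p)) = p := by
  rw [Nat.card_congr centerEquiv, Nat.card_zmod]

lemma comm_mem_center [Fact p.Prime] (a b : Hs n p) : ⁅a, b⁆ ∈ Subgroup.center (Hs n p) := by
  rw [mem_center_iff, commutatorElement_def]
  constructor
  · simp
  · simp

lemma isExtraspecial [hp : Fact p.Prime] (h2 : p ≠ 2) (hn : 1 ≤ n) :
    Cfsg.IsExtraspecial p (Hs n p) := by
  have hP : IsPGroup p (Hs n p) := IsPGroup.of_card card_eq
  have hcle : commutator (Hs n p) ≤ Subgroup.center (Hs n p) := by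
    rw [commutator_eq_closure, Subgroup.closure_le]
    rintro _ ⟨a, b, rfl⟩
    exact comm_mem_center a b
  have hcm : commutator (Hs n p) = Subgroup.center (Hs n p) := by
    -- the commutator subgroup is a nontrivial subgroup of a group of order `p`
    have hne : commutator (Hs n p) ≠ ⊥ := by
      intro hbot
      let i0 : Fin n := ⟨0, hn⟩
      have hm : ⁅(⟨Pi.single i0 1, 0, 0⟩ : Hs n p), ⟨0, Pi.single i0 1, 0⟩⁆ ∈ commutator (Hs n p) :=
        Subgroup.commutator_mem_commutator (Subgroup.mem_top _) (Subgroup.mem_top _)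
      rw [hbot, Subgroup.mem_bot, commutatorElement_eq_one_iff_mul_comm] at hm
      have := congrArg Hs.z hm
      simp at this
    have hdvd : Nat.card (commutator (Hs n p)) ∣ p := by
      have := Subgroup.card_dvd_of_le hcle
      rwa [card_center] at this
    rcases (Nat.dvd_prime hp.out).mp hdvd with h1 | h1
    · exact absurd (Subgroup.card_eq_one.mp h1) hne
    · exact Subgroup.eq_of_le_of_card_ge hcle (by rw [h1, card_center])
  refine ⟨⟨hP, le_antisymm ?_ ?_, hcm⟩, card_center⟩
  · apply Cfsg.Agent.Lib.Helper47.frattini_le_of_elementary (p := p)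
    · exact comm_mem_center
    · intro a
      rw [pow_p h2]
      exact Subgroup.one_mem _
  · rw [← hcm]
    exact (Cfsg.Agent.S0012.result p hP).1

/-- the natural module. -/
abbrev W (n p : ℕ) := ZMod p × (Fin n → ZMod p) × ZMod p

/-- action on the natural module. -/
def T (a : Hs n p) : Module.End (ZMod p) (W n p) where
  toFun w := (w.1 + a.x ⬝ᵥ w.2.1 + a.z * w.2.2, w.2.1 + w.2.2 • a.y, w.2.2)
  map_add' u v := by
    ext1
    · simp only [Prod.fst_add, Prod.snd_add, dotProduct_add]; ring
    · ext1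
      · simp only [Prod.fst_add, Prod.snd_add, add_smul]; abel
      · rfl
  map_smul' c u := by
    ext1
    · simp only [Prod.smul_fst, Prod.smul_snd, dotProduct_smul, smul_eq_mul, RingHom.id_apply]; ring
    · ext1
      · simp only [Prod.smul_fst, Prod.smul_snd, smul_eq_mul, RingHom.id_apply, smul_add, mul_smul]
      · rfl

lemma T_apply (a : Hs n p) (w : W n p) :
    T a w = (w.1 + a.x ⬝ᵥ w.2.1 + a.z * w.2.2, w.2.1 + w.2.2 • a.y, w.2.2) := rfl

/-- `T` as a monoid homomorphism. -/
def Thom (n p : ℕ) : Hs n p →* Module.End (ZMod p) (W n p) where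
  toFun := T
  map_one' := by
    apply LinearMap.ext
    intro w
    rw [T_apply]
    simp
  map_mul' a b := by
    apply LinearMap.ext
    intro w
    rw [Module.End.mul_apply, T_apply, T_apply, T_apply]
    ext1
    · simp only [mul_x, mul_z, add_dotProduct, dotProduct_add, dotProduct_smul, smul_eq_mul]; ring
    · ext1
      · simp only [mul_y, smul_add]; abel
      · rfl

lemma Thom_injective : Function.Injective (Thom n p) := by
  intro a b h
  have h' : ∀ w, T a w = T b w := fun w => by
    have := congrArg (fun f : Module.End (ZMod p) (W n p) => f w) h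
    exact this
  ext1
  · ext i
    have := congrArg Prod.fst (h' (0, Pi.single i 1, 0))
    simpa [T_apply] using this
  · have := congrArg (fun w : W n p => w.2.1) (h' (0, 0, 1))
    simpa [T_apply] using this
  · have := congrArg Prod.fst (h' (0, 0, 1))
    simpa [T_apply] using this

end Hs

theorem isExtraspecial_of_equiv' {A B : Type*} [Group A] [Group B] {p : ℕ} (e : A ≃* B)
    (h : IsExtraspecial p A) : IsExtraspecial p B := by
  obtain ⟨⟨h1, h2, h3⟩, h4⟩ := h
  have hcen : ∀ b : B, b ∈ Subgroup.center B ↔ e.symm b ∈ Subgroup.center A := by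
    intro b
    rw [Subgroup.mem_center_iff, Subgroup.mem_center_iff]
    constructor
    · intro hb a
      apply e.injective
      rw [map_mul, map_mul, e.apply_symm_apply]
      exact hb (e a)
    · intro hb c
      apply e.symm.injective
      rw [map_mul, map_mul]
      exact hb (e.symm c)
  have hfr : ∀ b : B, b ∈ frattini B ↔ e.symm b ∈ frattini A := by
    intro b
    constructor
    · intro hb
      exact frattini_le_comap_frattini_of_surjective (φ := e.symm.toMonoidHom) e.symm.surjective hb
    · intro hb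
      have := frattini_le_comap_frattini_of_surjective (φ := e.toMonoidHom) e.surjective hb
      simpa using this
  have hco : ∀ b : B, b ∈ commutator B ↔ e.symm b ∈ commutator A := by
    intro b
    have h5 : commutator B = (commutator A).map e.toMonoidHom := by
      rw [commutator_def, commutator_def, Subgroup.map_commutator,
        Subgroup.map_top_of_surjective _ e.surjective]
    rw [h5, Subgroup.mem_map]
    constructor
    · rintro ⟨a, ha, rfl⟩
      simpa using ha
    · intro hb
      exact ⟨_, hb, by simp⟩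
  refine ⟨⟨h1.of_equiv e, ?_, ?_⟩, ?_⟩
  · ext b
    rw [hfr, hcen, h2]
  · ext b
    rw [hco, hcen, h3]
  · rw [← h4]
    exact Nat.card_congr (Subgroup.centerCongr e).symm.toEquiv

/-- For every odd prime p and every n ≥ 1 there is an extraspecial p-group of order p^(1+2n) and exponent p; concretely, the general linear group of degree n + 2 over the field with p elements contains such a subgroup. -/
theorem result (p : ℕ) [Fact p.Prime] (hp : p ≠ 2) (n : ℕ) (hn : 1 ≤ n) : ∃ E : Subgroup (Matrix.GeneralLinearGroup (Fin (n + 2)) (ZMod p)), Cfsg.IsExtraspecial p ↥E ∧ Nat.card E = p ^ (1 + 2 * n) ∧ ∀ x ∈ E, x ^ p = 1 := by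
  have hfr : Module.finrank (ZMod p) (Hs.W n p) = Module.finrank (ZMod p) (Fin (n + 2) → ZMod p) := by
    simp [Module.finrank_prod]; ring
  let e : Hs.W n p ≃ₗ[ZMod p] (Fin (n + 2) → ZMod p) := LinearEquiv.ofFinrankEq _ _ hfr
  let ψ : Hs n p →* Matrix (Fin (n + 2)) (Fin (n + 2)) (ZMod p) :=
    ((LinearMap.toMatrixAlgEquiv' (R := ZMod p) (n := Fin (n + 2))).toAlgHom.toRingHom.toMonoidHom.comp
      (e.conjRingEquiv.toRingHom.toMonoidHom)).comp (Hs.Thom n p)
  have hψ : Function.Injective ψ := by
    intro a b h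
    apply Hs.Thom_injective
    apply e.conjRingEquiv.injective
    exact (LinearMap.toMatrixAlgEquiv' (R := ZMod p) (n := Fin (n + 2))).injective h
  let φ : Hs n p →* Matrix.GeneralLinearGroup (Fin (n + 2)) (ZMod p) := ψ.toHomUnits
  have hφ : Function.Injective φ := by
    intro a b h
    apply hψ
    have := congrArg Units.val h
    simpa [φ] using this
  refine ⟨φ.range, isExtraspecial_of_equiv' (MonoidHom.ofInjective hφ) (Hs.isExtraspecial hp hn),
    ?_, ?_⟩
  · rw [← Nat.card_congr (MonoidHom.ofInjective hφ).toEquiv, Hs.card_eq]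
  · rintro _ ⟨a, rfl⟩
    rw [← map_pow, Hs.pow_p hp, map_one]

end Cfsg.Agent.S3799
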