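import Cfsg.Statements.S3950
import Cfsg.Agent.Lib.Helper35.Heis
import Cfsg.Agent.S3979

set_option autoImplicit false
open Cfsg

namespace Cfsg.Agent.S3950

open Cfsg.Agent.Lib.Helper35

/-- a finite abelian group that is not cyclic maps onto `Z/p × Z/p` for some prime `p`. -/
theorem exists_surjective_of_not_isCyclic {G : Type*} [CommGroup G] [Finite G] (h : ¬ IsCyclic G) :
    ∃ (p : ℕ) (_ : p.Prime) (f : G →* Multiplicative (ZMod p × ZMod p)), Function.Surjective f := by
  classical
  obtain ⟨ι, _, n, hn, ⟨e⟩⟩ := CommGroup.equiv_prod_multiplicative_zmod_of_finite G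
  by_cases hcop : Pairwise (Function.onFun Nat.Coprime n)
  · exfalso
    apply h
    let e2 : Multiplicative (ZMod (∏ i, n i)) ≃* ((i : ι) → Multiplicative (ZMod (n i))) :=
      (AddEquiv.toMultiplicative (ZMod.prodEquivPi n hcop).toAddEquiv).trans
        (MulEquiv.piMultiplicative _)
    exact isCyclic_of_surjective (e2.trans e.symm) (e2.trans e.symm).surjective
  · rw [Pairwise] at hcop
    push Not at hcop
    obtain ⟨i, j, hij, hc⟩ := hcop
    obtain ⟨p, hp, hpi, hpj⟩ := Nat.Prime.not_coprime_iff_dvd.mp hc
    let f1 : ((i : ι) → Multiplicative (ZMod (n i))) →* Multiplicative (ZMod p × ZMod p) :=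
      { toFun := fun g => Multiplicative.ofAdd
          (ZMod.castHom hpi (ZMod p) (g i).toAdd, ZMod.castHom hpj (ZMod p) (g j).toAdd)
        map_one' := by
          apply Multiplicative.toAdd.injective
          apply Prod.ext <;> simp
        map_mul' := by
          intro g g'
          apply Multiplicative.toAdd.injective
          apply Prod.ext
          · exact map_add (ZMod.castHom hpi (ZMod p)) _ _
          · exact map_add (ZMod.castHom hpj (ZMod p)) _ _ }
    refine ⟨p, hp, f1.comp e.toMonoidHom, ?_⟩
    suffices hs : Function.Surjective f1 from hs.comp e.surjective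
    intro t
    obtain ⟨x, hx⟩ := ZMod.castHom_surjective hpi t.toAdd.1
    obtain ⟨y, hy⟩ := ZMod.castHom_surjective hpj t.toAdd.2
    refine ⟨Function.update (Function.update 1 i (Multiplicative.ofAdd x)) j (Multiplicative.ofAdd y), ?_⟩
    apply Multiplicative.toAdd.injective
    apply Prod.ext
    · show ZMod.castHom hpi (ZMod p) _ = _
      rw [Function.update_of_ne hij, Function.update_self]
      exact hx
    · show ZMod.castHom hpj (ZMod p) _ = _
      rw [Function.update_self]
      exact hy


/-- A finite abelian group has trivial Schur multiplier if and only if it is cyclic. -/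
theorem result {G : Type*} [CommGroup G] [Finite G] : Cfsg.HasCyclicSchurMultiplier G 1 ↔ IsCyclic G := by
  constructor
  · intro h
    by_contra hc
    obtain ⟨p, hp, f, hf⟩ := exists_surjective_of_not_isCyclic hc
    haveI : NeZero p := ⟨hp.ne_zero⟩
    rw [Cfsg.Agent.Lib.Helper66.hasCyclicSchurMultiplier_one_iff] at h
    have h1 := h (pullback (Heis.proj (R := ZMod p)) f) (pullbackHom _ _)
      (pullback_isStem Heis.proj_isStem hf)
    have e := (pullbackKerEquiv (Heis.proj (R := ZMod p)) f).trans Heis.kerEquiv
    have h2 : Nat.card (pullbackHom (Heis.proj (R := ZMod p)) f).ker = p := by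
      rw [Nat.card_congr e.toEquiv]
      simp
    rw [h1] at h2
    simp at h2
    exact hp.one_lt.ne h2
  · intro h
    exact Cfsg.Agent.S3979.result

end Cfsg.Agent.S3950
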