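import Cfsg.Statements.S3951
import Cfsg.Agent.Lib.Helper35.Heis
import Cfsg.Agent.Lib.Helper35.TwoGen

set_option autoImplicit false
open Cfsg

namespace Cfsg.Agent.S3951

open Cfsg.Agent.Lib.Helper35

theorem closure_gens (m n : ℕ) :
    Subgroup.closure {(Multiplicative.ofAdd ((1 : ZMod m), (0 : ZMod n))),
      (Multiplicative.ofAdd ((0 : ZMod m), (1 : ZMod n)))} = ⊤ := by
  rw [eq_top_iff]
  intro g _
  obtain ⟨i, hi⟩ := ZMod.intCast_surjective g.toAdd.1
  obtain ⟨j, hj⟩ := ZMod.intCast_surjective g.toAdd.2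
  have : g = (Multiplicative.ofAdd ((1 : ZMod m), (0 : ZMod n))) ^ i *
      (Multiplicative.ofAdd ((0 : ZMod m), (1 : ZMod n))) ^ j := by
    rw [← ofAdd_zsmul, ← ofAdd_zsmul, ← ofAdd_add]
    apply Multiplicative.toAdd.injective
    apply Prod.ext
    · simp [hi]
    · simp [hj]
  rw [this]
  exact Subgroup.mul_mem _ (Subgroup.zpow_mem _ (Subgroup.subset_closure (by simp)) i)
    (Subgroup.zpow_mem _ (Subgroup.subset_closure (by simp)) j)

/-- reduction of the first coordinate -/
noncomputable def redHom (m n : ℕ) (hnm : n ∣ m) :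
    Multiplicative (ZMod m × ZMod n) →* Multiplicative (ZMod n × ZMod n) :=
  AddMonoidHom.toMultiplicative
    ((ZMod.castHom hnm (ZMod n)).toAddMonoidHom.prodMap (AddMonoidHom.id (ZMod n)))

theorem redHom_surjective (m n : ℕ) (hnm : n ∣ m) : Function.Surjective (redHom m n hnm) := by
  intro t
  obtain ⟨x, hx⟩ := ZMod.castHom_surjective hnm t.toAdd.1
  refine ⟨Multiplicative.ofAdd (x, t.toAdd.2), ?_⟩
  apply Multiplicative.toAdd.injective
  apply Prod.ext
  · exact hx
  · rfl


/-- For positive integers `m` and `n` with `n` dividing `m`, the Schur multiplier of the abelian group `ZMod m × ZMod n` (written multiplicatively) is cyclic of order `n`. In particular the elementary abelian group of order `p ^ 2` has multiplier of order `p`. -/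
theorem result (m n : ℕ) [NeZero m] [NeZero n] (hnm : n ∣ m) : Cfsg.HasCyclicSchurMultiplier (Multiplicative (ZMod m × ZMod n)) n := by
  refine ⟨⟨pullback (Heis.proj (R := ZMod n)) (redHom m n hnm), inferInstance, inferInstance,
    pullbackHom _ _, pullback_isStem Heis.proj_isStem (redHom_surjective m n hnm),
    ⟨(pullbackKerEquiv _ _).trans Heis.kerEquiv⟩⟩, ?_⟩
  intro Γ _ _ σ hσ
  obtain ⟨a, ha⟩ := hσ.1 (Multiplicative.ofAdd ((1 : ZMod m), (0 : ZMod n)))
  obtain ⟨b, hb⟩ := hσ.1 (Multiplicative.ofAdd ((0 : ZMod m), (1 : ZMod n)))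
  obtain ⟨hc, hd⟩ := ker_cyclic_of_two_gen hσ (a := a) (b := b) (n := n)
    (by rw [ha, hb]; exact closure_gens m n)
    (by
      rw [hb, ← ofAdd_nsmul]
      apply Multiplicative.toAdd.injective
      apply Prod.ext <;> simp)
  exact exists_surjective_of_isCyclic hd

end Cfsg.Agent.S3951
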