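import Mathlib
import Cfsg.Statements.S3952
import Cfsg.Agent.Lib.Helper15.Clifford2
import Cfsg.Agent.Lib.Helper81.Schur
import Cfsg.Agent.Lib.Helper80.Induced
import Cfsg.Agent.Lib.Helper78.ClassAlg

set_option autoImplicit false
open Cfsg

namespace Cfsg.Agent.S3952

open Cfsg.Agent.Lib.Helper15 Cfsg.Agent.Lib.Helper74 Cfsg.Agent.Lib.Helper78
open scoped ComplexConjugate

/-- a central element of the commutator subgroup acts in an irreducible representation of degree `d`
as a scalar `c` with `c ^ d = 1` (determinant argument). -/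
theorem pow_degree_eq_one {Γ : Type*} [Group Γ] [Finite Γ] (χ : IrrCharacter Γ) (a : Γ)
    (hz : a ∈ Subgroup.center Γ) (hc : a ∈ commutator Γ) (c : ℂ)
    (hχ : (χ : Γ → ℂ) a = (χ : Γ → ℂ) 1 * c) : c ^ charDegree (χ : Γ → ℂ) = 1 := by
  obtain ⟨χ, n, ρ, hirr, rfl⟩ := χ
  haveI := hirr
  simp only at hχ ⊢
  rw [charDegree_rep]
  obtain ⟨c', hc'⟩ := Cfsg.Agent.Lib.Helper81.schur_scalar ρ (ρ a) (fun g => by
    have h1 : ρ a * ρ g = ρ g * ρ a := by
      rw [← map_mul, ← map_mul, Subgroup.mem_center_iff.mp hz g]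
    exact h1)
  have hn : 0 < n := by
    have := Cfsg.Agent.Lib.Helper81.finrank_pos_of_irreducible ρ
    simpa using this
  have h1 : ρ.character a = n * c' := by
    unfold Representation.character
    rw [hc']
    simp [mul_comm]
  have h2 : ρ.character 1 = n := by
    rw [Representation.char_one]; simp
  have hcc : c' = c := by
    rw [h1, h2] at hχ
    exact mul_left_cancel₀ (by exact_mod_cast hn.ne') hχ
  -- determinant
  let f : Γ →* ℂ := (LinearMap.det : Module.End ℂ (Fin n → ℂ) →* ℂ).comp ρ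
  have h3 : f.toHomUnits a = 1 := by
    have := Abelianization.commutator_subset_ker f.toHomUnits hc
    exact this
  have h4 : f a = 1 := by
    have := congrArg Units.val h3
    simpa using this
  have h5 : f a = c' ^ n := by
    show LinearMap.det (ρ a) = c' ^ n
    rw [hc', LinearMap.det_smul]
    simp
  rw [← hcc, ← h5, h4]

/-- If `A` is the Schur multiplier of the finite group `Q`, then the square of the exponent of `A` divides the order of `Q`. -/
theorem result {Q : Type*} [Group Q] [Finite Q] {A : Type*} [CommGroup A] (hA : Cfsg.HasSchurMultiplier Q A) : Monoid.exponent A ^ 2 ∣ Nat.card Q := by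
  classical
  obtain ⟨⟨Γ, _, _, σ, hσ, ⟨e⟩⟩, -⟩ := hA
  have := Fintype.ofFinite Γ
  have : Fintype σ.ker := Fintype.ofFinite σ.ker
  have hAfin : Finite A := Finite.of_equiv _ e.toEquiv
  have hne : NeZero (Monoid.exponent A) := ⟨Monoid.exponent_ne_zero_of_finite⟩
  obtain ⟨E⟩ := CommGroup.monoidHom_mulEquiv_of_hasEnoughRootsOfUnity A ℂ
  obtain ⟨a0, ha0⟩ := Monoid.exists_orderOf_eq_exponent (G := A)
    (Monoid.exponent_ne_zero.mp Monoid.exponent_ne_zero_of_finite)
  set lamA : A →* ℂˣ := E.symm a0 with hlamA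
  have hord : orderOf lamA = Monoid.exponent A := by
    rw [hlamA, MulEquiv.orderOf_eq, ha0]
  set lam : σ.ker →* ℂˣ := lamA.comp e.toMonoidHom with hlam
  let θ : IrrCharacter σ.ker := ⟨fun k => (lam k : ℂ), isIrrCharacter_of_hom lam⟩
  have hinv : ∀ g : Γ, cj σ.ker g (θ : σ.ker → ℂ) = θ := by
    intro g
    funext k
    rw [cj_apply]
    have h1 : (⟨g * k * g⁻¹, (inferInstance : σ.ker.Normal).conj_mem k k.2 g⟩ : σ.ker) = k := by
      apply Subtype.ext
      show g * k * g⁻¹ = k
      rw [Subgroup.mem_center_iff.mp (hσ.2.1 k.2) g]; group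
    rw [h1]
  have hind := Cfsg.Agent.Lib.Helper3.isCharacter_indFun σ.ker (IrrCharacter.isCharacter θ)
  have hsum := congrFun (IsCharacter.eq_sum_classInner hind) 1
  rw [Cfsg.Agent.Lib.Helper3.indFun_one, Finset.sum_apply] at hsum
  have hθ1 : (θ : σ.ker → ℂ) 1 = 1 := by simp [θ]
  rw [hθ1, mul_one] at hsum
  have hterm : ∀ ψ : IrrCharacter Γ, ∃ k : ℕ,
      (classInner (indFun σ.ker (θ : σ.ker → ℂ)) (ψ : Γ → ℂ) • (ψ : Γ → ℂ)) 1 =
        ((Monoid.exponent A ^ 2 * k : ℕ) : ℂ) := by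
    intro ψ
    by_cases h0 : classInner (indFun σ.ker (θ : σ.ker → ℂ)) (ψ : Γ → ℂ) = 0
    · exact ⟨0, by rw [h0]; simp⟩
    · have h1 := (Cfsg.Agent.Lib.Helper80.classInner_indFun_ne_zero_iff σ.ker _
        (irr_isClassFunction ψ)).mp h0
      have h2 := restrict_eq_smul_of_invariant σ.ker ψ.2 θ.2 h1 hinv
      have h3 : (ψ : Γ → ℂ) 1 = classInner (fun n : σ.ker => (ψ : Γ → ℂ) n) (θ : σ.ker → ℂ) := by
        have := congrFun h2 1
        simp only [Pi.smul_apply, smul_eq_mul, hθ1, mul_one] at this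
        exact this
      have h4 : ∀ k : σ.ker, (ψ : Γ → ℂ) k = (ψ : Γ → ℂ) 1 * (lam k : ℂ) := by
        intro k
        have := congrFun h2 k
        simp only [Pi.smul_apply, smul_eq_mul] at this
        rw [this, ← h3]
      have h5 : lamA ^ charDegree (ψ : Γ → ℂ) = 1 := by
        ext a
        obtain ⟨k, rfl⟩ := e.surjective a
        have := pow_degree_eq_one ψ k (hσ.2.1 k.2) (hσ.2.2 k.2) _ (h4 k)
        simpa [hlam] using this
      obtain ⟨r, hr⟩ := hord ▸ orderOf_dvd_of_pow_eq_one h5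
      refine ⟨r ^ 2, ?_⟩
      rw [Cfsg.Agent.Lib.Helper3.frobenius_reciprocity _ _ (irr_isClassFunction ψ),
        ← Cfsg.Agent.Lib.Helper74.classInner_conj_symm, ← h3, irr_conj_one, Pi.smul_apply, smul_eq_mul, irr_one_eq, hr]
      push_cast
      ring
  choose k hk using hterm
  simp only [hk] at hsum
  rw [← Nat.cast_sum] at hsum
  have hidx : σ.ker.index = ∑ ψ : IrrCharacter Γ, Monoid.exponent A ^ 2 * k ψ := by
    exact_mod_cast hsum
  have hQ : σ.ker.index = Nat.card Q := by
    rw [Subgroup.index_ker, MonoidHom.range_eq_top.mpr hσ.1]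
    exact Nat.card_congr Subgroup.topEquiv.toEquiv
  rw [← hQ, hidx, ← Finset.mul_sum]
  exact Dvd.intro _ rfl

end Cfsg.Agent.S3952
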