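import Cfsg.Statements.S3955
import Cfsg.Agent.Lib.Helper66.ProjLift

set_option autoImplicit false
open Cfsg

namespace Cfsg.Agent.S3955

open Cfsg.Agent.Lib.Helper66

/-- Let `Q` be a finite group with Schur multiplier `A`, and let `σ : Γ →* Q` be a finite stem extension whose kernel is isomorphic to `A` (a Schur covering group of `Q`). Then every homomorphism `γ` from `Q` to the quotient of `GL n ℂ` by its centre lifts along `σ`: there is a homomorphism `ρ : Γ →* GL n ℂ` which, followed by the quotient map, equals `γ ∘ σ`. -/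
theorem result {Q : Type*} [Group Q] [Finite Q] {A : Type*} [CommGroup A] (hA : Cfsg.HasSchurMultiplier Q A) {Γ : Type*} [Group Γ] [Finite Γ] (σ : Γ →* Q) (hσ : Cfsg.IsStemExtension σ) (hk : Nonempty (σ.ker ≃* A)) (n : ℕ) (γ : Q →* (GL (Fin n) ℂ ⧸ Subgroup.center (GL (Fin n) ℂ))) : ∃ ρ : Γ →* GL (Fin n) ℂ, (QuotientGroup.mk' (Subgroup.center (GL (Fin n) ℂ))).comp ρ = γ.comp σ := by
  apply exists_lift_of_fibre
  set q := QuotientGroup.mk' (Subgroup.center (GL (Fin n) ℂ)) with hq
  set δ := γ.comp σ with hδ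
  have hqs : Function.Surjective q := QuotientGroup.mk'_surjective _
  have hqk : q.ker ≤ Subgroup.center (GL (Fin n) ℂ) := by rw [hq, QuotientGroup.ker_mk']
  let ξ : fibre δ q →* Q := σ.comp (fibreFst δ q)
  have hξs : Function.Surjective ξ := hσ.1.comp (fibreFst_surjective δ q hqs)
  have hξc : ξ.ker ≤ Subgroup.center (fibre δ q) := by
    rintro ⟨⟨x, g⟩, hxg⟩ hw
    have hx : σ x = 1 := hw
    have hg : g ∈ Subgroup.center (GL (Fin n) ℂ) := by
      apply hqk
      rw [MonoidHom.mem_ker]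
      have : δ x = q g := hxg
      rw [← this, hδ, MonoidHom.comp_apply, hx, map_one]
    rw [Subgroup.mem_center_iff]
    rintro ⟨⟨x', g'⟩, hxg'⟩
    apply Subtype.ext
    apply Prod.ext
    · exact (Subgroup.mem_center_iff.mp (hσ.2.1 hx)) x'
    · exact (Subgroup.mem_center_iff.mp hg) g'
  obtain ⟨f, hf⟩ := HasSchurMultiplier.exists_surj_of_central hA ξ hξs hξc
  have hAfin : Finite A := HasSchurMultiplier.finite hA
  have hfin : Finite ↥(ξ.ker ⊓ commutator (fibre δ q)) := Finite.of_surjective f hf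
  obtain ⟨e⟩ := hk
  let φ : ↥(ξ.ker ⊓ commutator (fibre δ q)) →* σ.ker :=
    ((fibreFst δ q).comp (Subgroup.subtype _)).codRestrict σ.ker (fun w => w.2.1)
  have hφs : Function.Surjective φ := by
    rintro ⟨x, hx⟩
    have hx' : x ∈ commutator Γ := hσ.2.2 hx
    rw [← map_commutator_eq_of_surjective _ (fibreFst_surjective δ q hqs)] at hx'
    obtain ⟨w, hw, rfl⟩ := hx'
    exact ⟨⟨w, hx, hw⟩, rfl⟩
  have hcard : Nat.card ↥(ξ.ker ⊓ commutator (fibre δ q)) ≤ Nat.card σ.ker := by
    rw [Nat.card_congr e.toEquiv]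
    exact Nat.card_le_card_of_surjective f hf
  have hφb : Function.Bijective φ := hφs.bijective_of_nat_card_le hcard
  rw [eq_bot_iff]
  rintro w ⟨hw1, hw2⟩
  have hw1' : fibreFst δ q w = 1 := hw1
  have hwξ : w ∈ ξ.ker := by
    rw [MonoidHom.mem_ker]
    change σ (fibreFst δ q w) = 1
    rw [hw1', map_one]
  have : (⟨w, hwξ, hw2⟩ : ↥(ξ.ker ⊓ commutator (fibre δ q))) = 1 := by
    apply hφb.1
    apply Subtype.ext
    exact hw1'
  rw [Subgroup.mem_bot]
  exact congrArg Subtype.val this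

end Cfsg.Agent.S3955
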