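import Cfsg.Statements.S3956
import Cfsg.Agent.Lib.Helper66.IndRep

set_option autoImplicit false
universe u v
open Cfsg

namespace Cfsg.Agent.S3956

open Cfsg.Agent.Lib.Helper66

/-- Let `σ : Γ →* Q` be a finite stem extension of the finite group `Q` such that every homomorphism from `Q` to the quotient of `GL n ℂ` by its centre, for every `n`, lifts along `σ` to a homomorphism `Γ →* GL n ℂ`. Then `σ` is a Schur covering group of `Q`: for every finite stem extension `τ : Δ →* Q` with `Δ` in the same universe as `Q`, the kernel of `τ` is a homomorphic image of the kernel of `σ`. -/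
theorem result {Q : Type u} [Group Q] [Finite Q] {Γ : Type v} [Group Γ] [Finite Γ] (σ : Γ →* Q) (hσ : Cfsg.IsStemExtension σ) (hlift : ∀ (n : ℕ) (γ : Q →* (GL (Fin n) ℂ ⧸ Subgroup.center (GL (Fin n) ℂ))), ∃ ρ : Γ →* GL (Fin n) ℂ, (QuotientGroup.mk' (Subgroup.center (GL (Fin n) ℂ))).comp ρ = γ.comp σ) (Δ : Type u) [Group Δ] [Finite Δ] (τ : Δ →* Q) (hτ : Cfsg.IsStemExtension τ) : ∃ π : σ.ker →* τ.ker, Function.Surjective π := by
  apply exists_surj_ker_of_fibre σ τ hσ hτ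
  rw [eq_bot_iff]
  rintro ⟨⟨x, k⟩, hxk⟩ ⟨hw1, hw2⟩
  have hx : x = 1 := hw1
  subst hx
  have hk : k ∈ τ.ker := by
    rw [MonoidHom.mem_ker]
    have : σ 1 = τ k := hxk
    rw [← this, map_one]
  by_contra hne
  have hk1 : k ≠ 1 := by
    rintro rfl
    exact hne (Subgroup.mem_bot.mpr rfl)
  obtain ⟨n, ρ, hρ1, hρ2⟩ := exists_rep_central_ne_one τ.ker hτ.2.1 k hk hk1
  set q := QuotientGroup.mk' (Subgroup.center (GL (Fin n) ℂ)) with hq
  have hqk : q.ker ≤ Subgroup.center (GL (Fin n) ℂ) := by rw [hq, QuotientGroup.ker_mk']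
  have hker : τ.ker ≤ (q.comp ρ).ker := by
    intro k' hk'
    rw [MonoidHom.mem_ker]
    exact (QuotientGroup.eq_one_iff _).mpr (hρ1 k' hk')
  let γ : Q →* (GL (Fin n) ℂ ⧸ Subgroup.center (GL (Fin n) ℂ)) :=
    MonoidHom.liftOfSurjective τ hτ.1 ⟨q.comp ρ, hker⟩
  have hγ : γ.comp τ = q.comp ρ := MonoidHom.liftOfRightInverse_comp _ _ _ _
  obtain ⟨ρ', hρ'⟩ := hlift n γ
  have hle := commutator_le_eqLocus_of_central q hqk (ρ'.comp (fibreFst σ τ)) (ρ.comp (fibreSnd σ τ)) (by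
    rw [← MonoidHom.comp_assoc, ← MonoidHom.comp_assoc, hρ', ← hγ]
    ext w
    change γ (σ (fibreFst σ τ w)) = γ (τ (fibreSnd σ τ w))
    rw [fibre_comm])
  have h1 : ρ' 1 = ρ k := hle hw2
  rw [map_one] at h1
  exact hρ2 h1.symm

end Cfsg.Agent.S3956
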