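import Cfsg.Statements.S3957
import Cfsg.Agent.Lib.Helper66.SchurMain

set_option autoImplicit false
universe u v
open Cfsg

namespace Cfsg.Agent.S3957

open Cfsg.Agent.Lib.Helper66

/-- Let `Q` be a finite group with Schur multiplier `A` and let `τ : Δ →* Q` be a finite stem extension, `Δ` in the universe of `Q`. Then there is a finite stem extension `σ : Γ →* Q` with kernel isomorphic to `A` (a Schur covering group) and a surjective homomorphism `β : Γ →* Δ` with `τ ∘ β = σ`. -/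
theorem result {Q : Type u} [Group Q] [Finite Q] {A : Type v} [CommGroup A] (hA : Cfsg.HasSchurMultiplier Q A) {Δ : Type u} [Group Δ] [Finite Δ] (τ : Δ →* Q) (hτ : Cfsg.IsStemExtension τ) : ∃ (Γ : Type u) (_ : Group Γ) (_ : Finite Γ) (σ : Γ →* Q), Cfsg.IsStemExtension σ ∧ Nonempty (σ.ker ≃* A) ∧ ∃ β : Γ →* Δ, Function.Surjective β ∧ τ.comp β = σ := by
  obtain ⟨η, hη⟩ := exists_lift_of_central Q τ hτ.1 hτ.2.1
  have hη' : ∀ e, τ (η e) = fcProj Q e := fun e => by rw [← hη]; rfl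
  have hηsurj : Function.Surjective η := by
    rw [← MonoidHom.range_eq_top]
    apply IsStemExtension.eq_top_of_map_eq_top hτ
    rw [eq_top_iff]
    intro q _
    obtain ⟨e, he⟩ := fcProj_surjective Q q
    exact ⟨η e, ⟨e, rfl⟩, by rw [hη', he]⟩
  have hT : η.ker ≤ (fcProj Q).ker := by
    intro e he
    rw [MonoidHom.mem_ker] at he ⊢
    rw [← hη', he, map_one]
  have hTM : η.ker ⊔ schurM Q = (fcProj Q).ker := by
    apply le_antisymm (sup_le hT inf_le_left)
    intro k hk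
    obtain ⟨f, hf, hfη⟩ := exists_surj_ker_inf_commutator (fcProj Q) (fcProj_surjective Q) τ hτ.2.1 η hη
    have hk1 : η k ∈ τ.ker := by
      rw [MonoidHom.mem_ker, hη']; exact hk
    obtain ⟨m, hm⟩ := hf ⟨η k, hk1, hτ.2.2 hk1⟩
    have hm' : η m = η k := by rw [← hfη, hm]
    have : k = (k * (m : FreeCentral Q)⁻¹) * m := by group
    rw [this]
    apply Subgroup.mul_mem_sup _ m.2
    rw [MonoidHom.mem_ker, map_mul, map_inv, hm', mul_inv_cancel]
  obtain ⟨S, hSn, hST, hfin, σ, hσmk, hstem, ⟨e⟩⟩ := exists_cover Q η.ker hT hTM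
  obtain ⟨e'⟩ := HasSchurMultiplier.nonempty_mulEquiv_schurM hA
  refine ⟨FreeCentral Q ⧸ S, inferInstance, hfin, σ, hstem, ⟨e.trans e'.symm⟩,
    QuotientGroup.lift S η hST, ?_, ?_⟩
  · intro d
    obtain ⟨x, rfl⟩ := hηsurj d
    exact ⟨QuotientGroup.mk x, rfl⟩
  · apply QuotientGroup.monoidHom_ext
    apply MonoidHom.ext
    intro x
    change τ (η x) = σ (QuotientGroup.mk x)
    rw [hη', hσmk]

end Cfsg.Agent.S3957
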