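import Cfsg.Statements.S3959
import Cfsg.Agent.Lib.Helper66.SchurMain
import Cfsg.Agent.Lib.Helper66.BilinExt

set_option autoImplicit false
universe u v w
open Cfsg

namespace Cfsg.Agent.S3959

open Cfsg.Agent.Lib.Helper66
open scoped commutatorElement TensorProduct

section part1

variable {Q₁ : Type u} {Q₂ : Type v} [Group Q₁] [Group Q₂]
variable {Γ₁ : Type u} {Γ₂ : Type v} [Group Γ₁] [Group Γ₂] (σ₁ : Γ₁ →* Q₁) (σ₂ : Γ₂ →* Q₂)

/-- the tensor product of the abelianizations, multiplicatively -/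
abbrev Ten (Q₁ : Type u) (Q₂ : Type v) [Group Q₁] [Group Q₂] : Type (max u v) :=
  Multiplicative (TensorProduct ℤ (Additive (Abelianization Q₁)) (Additive (Abelianization Q₂)))

/-- class in the additive abelianization -/
def cl {Γ : Type*} {Q : Type*} [Group Γ] [Group Q] (σ : Γ →* Q) (x : Γ) : Additive (Abelianization Q) :=
  Additive.ofMul (Abelianization.of (σ x))

theorem cl_mul {Γ : Type*} {Q : Type*} [Group Γ] [Group Q] (σ : Γ →* Q) (x y : Γ) :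
    cl σ (x * y) = cl σ x + cl σ y := by
  simp [cl]

theorem cl_one {Γ : Type*} {Q : Type*} [Group Γ] [Group Q] (σ : Γ →* Q) : cl σ 1 = 0 := by
  simp [cl]

theorem cl_ker {Γ : Type*} {Q : Type*} [Group Γ] [Group Q] (σ : Γ →* Q) {x : Γ} (hx : σ x = 1) :
    cl σ x = 0 := by
  simp [cl, hx]

/-- the cocycle -/
def coc : (Γ₁ × Γ₂) →* (Γ₁ × Γ₂) →* Ten Q₁ Q₂ :=
  MonoidHom.mk' (fun p => MonoidHom.mk' (fun p' => Multiplicative.ofAdd (cl σ₁ p.1 ⊗ₜ[ℤ] cl σ₂ p'.2))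
    (by intro a b; simp only [Prod.snd_mul, cl_mul, TensorProduct.tmul_add, ofAdd_add]))
    (by
      intro a b
      apply MonoidHom.ext
      intro y
      simp only [MonoidHom.mk'_apply, MonoidHom.mul_apply, Prod.fst_mul, cl_mul, TensorProduct.add_tmul,
        ofAdd_add])

theorem coc_apply (p p' : Γ₁ × Γ₂) :
    coc σ₁ σ₂ p p' = Multiplicative.ofAdd (cl σ₁ p.1 ⊗ₜ[ℤ] cl σ₂ p'.2) := rfl

/-- the covering map -/
def cov : BilinExt (coc σ₁ σ₂) →* Q₁ × Q₂ := (σ₁.prodMap σ₂).comp (BilinExt.proj _)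

theorem cov_apply (x : BilinExt (coc σ₁ σ₂)) : cov σ₁ σ₂ x = (σ₁ x.snd.1, σ₂ x.snd.2) := rfl

theorem mem_ker_cov {x : BilinExt (coc σ₁ σ₂)} :
    x ∈ (cov σ₁ σ₂).ker ↔ σ₁ x.snd.1 = 1 ∧ σ₂ x.snd.2 = 1 := by
  rw [MonoidHom.mem_ker, cov_apply, Prod.mk_eq_one]

/-- embedding of the first factor -/
def ι₁ : Γ₁ →* BilinExt (coc σ₁ σ₂) where
  toFun x := ⟨1, (x, 1)⟩
  map_one' := rfl
  map_mul' x y := by
    apply BilinExt.ext'
    · simp [coc_apply, cl_one]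
    · simp

/-- embedding of the second factor -/
def ι₂ : Γ₂ →* BilinExt (coc σ₁ σ₂) where
  toFun y := ⟨1, (1, y)⟩
  map_one' := rfl
  map_mul' x y := by
    apply BilinExt.ext'
    · simp [coc_apply, cl_one]
    · simp

/-- embedding of the tensor factor -/
def ι₃ : Ten Q₁ Q₂ →* BilinExt (coc σ₁ σ₂) where
  toFun t := ⟨t, 1⟩
  map_one' := rfl
  map_mul' x y := by
    apply BilinExt.ext'
    · simp
    · simp

theorem ι₃_mem (hσ₁ : Function.Surjective σ₁) (hσ₂ : Function.Surjective σ₂) (t : Ten Q₁ Q₂) :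
    ι₃ σ₁ σ₂ t ∈ commutator (BilinExt (coc σ₁ σ₂)) := by
  have key : ∀ s : TensorProduct ℤ (Additive (Abelianization Q₁)) (Additive (Abelianization Q₂)),
      ι₃ σ₁ σ₂ (Multiplicative.ofAdd s) ∈ commutator (BilinExt (coc σ₁ σ₂)) := by
    intro s
    induction s using TensorProduct.induction_on with
    | zero => rw [ofAdd_zero, map_one]; exact one_mem _
    | add a b ha hb => rw [ofAdd_add, map_mul]; exact mul_mem ha hb
    | tmul a b =>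
      obtain ⟨q₁, hq₁⟩ := QuotientGroup.mk_surjective (Additive.toMul a)
      obtain ⟨q₂, hq₂⟩ := QuotientGroup.mk_surjective (Additive.toMul b)
      obtain ⟨x, rfl⟩ := hσ₁ q₁
      obtain ⟨y, rfl⟩ := hσ₂ q₂
      have : ι₃ σ₁ σ₂ (Multiplicative.ofAdd (a ⊗ₜ[ℤ] b)) = ⁅ι₁ σ₁ σ₂ x, ι₂ σ₁ σ₂ y⁆ := by
        apply BilinExt.ext'
        · rw [BilinExt.commutatorElement_fst, coc_apply, coc_apply]
          have ha : cl σ₁ x = a := congrArg Additive.ofMul hq₁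
          have hb : cl σ₂ y = b := congrArg Additive.ofMul hq₂
          simp [ι₁, ι₂, ι₃, ha, hb, cl_one]
        · rw [BilinExt.commutatorElement_snd]
          simp [ι₁, ι₂, ι₃, commutatorElement_def]
          rfl
      rw [this, commutator_eq_closure]
      exact Subgroup.subset_closure ⟨_, _, rfl⟩
  exact key t.toAdd

theorem decomp {x : BilinExt (coc σ₁ σ₂)} (hx : x ∈ (cov σ₁ σ₂).ker) :
    x = ι₃ σ₁ σ₂ x.fst * ι₁ σ₁ σ₂ x.snd.1 * ι₂ σ₁ σ₂ x.snd.2 := by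
  rw [mem_ker_cov] at hx
  apply BilinExt.ext'
  · simp [ι₁, ι₂, ι₃, coc_apply, cl_one, cl_ker σ₁ hx.1]
  · simp [ι₁, ι₂, ι₃]

theorem stem (hσ₁ : IsStemExtension σ₁) (hσ₂ : IsStemExtension σ₂) : IsStemExtension (cov σ₁ σ₂) := by
  refine ⟨?_, ?_, ?_⟩
  · rintro ⟨q₁, q₂⟩
    obtain ⟨x, rfl⟩ := hσ₁.1 q₁
    obtain ⟨y, rfl⟩ := hσ₂.1 q₂
    exact ⟨⟨1, (x, y)⟩, rfl⟩
  · intro x hx
    rw [mem_ker_cov] at hx
    rw [Subgroup.mem_center_iff]
    intro g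
    apply BilinExt.ext'
    · simp [coc_apply, cl_ker σ₁ hx.1, cl_ker σ₂ hx.2, mul_comm]
    · apply Prod.ext
      · exact (Subgroup.mem_center_iff.mp (hσ₁.2.1 hx.1)) g.snd.1
      · exact (Subgroup.mem_center_iff.mp (hσ₂.2.1 hx.2)) g.snd.2
  · intro x hx
    rw [decomp σ₁ σ₂ hx]
    rw [mem_ker_cov] at hx
    refine mul_mem (mul_mem (ι₃_mem σ₁ σ₂ hσ₁.1 hσ₂.1 _) ?_) ?_
    · exact map_commutator_le (ι₁ σ₁ σ₂) ⟨_, hσ₁.2.2 hx.1, rfl⟩
    · exact map_commutator_le (ι₂ σ₁ σ₂) ⟨_, hσ₂.2.2 hx.2, rfl⟩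

/-- the kernel -/
def kerEquiv : (cov σ₁ σ₂).ker ≃* σ₁.ker × σ₂.ker × Ten Q₁ Q₂ where
  toFun x := (⟨x.1.snd.1, ((mem_ker_cov σ₁ σ₂).mp x.2).1⟩, ⟨x.1.snd.2, ((mem_ker_cov σ₁ σ₂).mp x.2).2⟩, x.1.fst)
  invFun p := ⟨⟨p.2.2, (p.1.1, p.2.1.1)⟩, (mem_ker_cov σ₁ σ₂).mpr ⟨p.1.2, p.2.1.2⟩⟩
  left_inv x := rfl
  right_inv p := rfl
  map_mul' := by
    rintro ⟨x, hx⟩ ⟨y, hy⟩
    rw [mem_ker_cov] at hx hy
    apply Prod.ext
    · rfl
    · apply Prod.ext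
      · rfl
      · simp [coc_apply, cl_ker σ₁ hx.1]

end part1

section part2

variable {Q₁ : Type u} {Q₂ : Type v} [Group Q₁] [Group Q₂]

theorem part2 {Δ : Type (max u v)} [Group Δ] (σ : Δ →* Q₁ × Q₂) (hσ : IsStemExtension σ)
    {K' : Type (max u v)} [CommGroup K'] (e : K' ≃* σ.ker)
    {A B : Type w} [CommGroup A] [CommGroup B] (hA : Cfsg.HasSchurMultiplier Q₁ A)
    (hB : Cfsg.HasSchurMultiplier Q₂ B) :
    ∃ π : A × B × Ten Q₁ Q₂ →* K', Function.Surjective π := by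
  classical
  have hcen : ∀ k ∈ σ.ker, ∀ g : Δ, g * k = k * g := fun k hk g =>
    (Subgroup.mem_center_iff.mp (hσ.2.1 hk)) g
  set D₁ : Subgroup Δ := ((MonoidHom.snd Q₁ Q₂).comp σ).ker with hD₁
  set D₂ : Subgroup Δ := ((MonoidHom.fst Q₁ Q₂).comp σ).ker with hD₂
  have memD₁ : ∀ d : Δ, d ∈ D₁ ↔ (σ d).2 = 1 := fun d => Iff.rfl
  have memD₂ : ∀ d : Δ, d ∈ D₂ ↔ (σ d).1 = 1 := fun d => Iff.rfl
  have hc : ∀ d₁ d₂ : Δ, d₁ ∈ D₁ → d₂ ∈ D₂ → ⁅d₁, d₂⁆ ∈ σ.ker := by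
    intro d₁ d₂ h1 h2
    rw [memD₁] at h1
    rw [memD₂] at h2
    rw [MonoidHom.mem_ker, map_commutatorElement, commutatorElement_eq_one_iff_mul_comm]
    apply Prod.ext
    · simp [h2]
    · simp [h1]
  -- the pairing
  let sec : Q₁ × Q₂ → Δ := Function.surjInv hσ.1
  have hsec : ∀ q, σ (sec q) = q := Function.surjInv_eq hσ.1
  have hsec1 : ∀ q₁ : Q₁, sec (q₁, 1) ∈ D₁ := fun q₁ => by rw [memD₁, hsec]
  have hsec2 : ∀ q₂ : Q₂, sec (1, q₂) ∈ D₂ := fun q₂ => by rw [memD₂, hsec]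
  let c : Q₁ → Q₂ → K' := fun q₁ q₂ => e.symm ⟨⁅sec (q₁, 1), sec (1, q₂)⁆, hc _ _ (hsec1 q₁) (hsec2 q₂)⟩
  have hc' : ∀ (d₁ d₂ : Δ) (q₁ : Q₁) (q₂ : Q₂), σ d₁ = (q₁, 1) → σ d₂ = (1, q₂) →
      ((e (c q₁ q₂) : σ.ker) : Δ) = ⁅d₁, d₂⁆ := by
    intro d₁ d₂ q₁ q₂ h1 h2
    simp only [c, MulEquiv.apply_symm_apply]
    apply commutatorElement_eq_of_central σ hσ.2.1
    · rw [hsec, h1]
    · rw [hsec, h2]
  have hmul1 : ∀ (q₁ q₁' : Q₁) (q₂ : Q₂), c (q₁ * q₁') q₂ = c q₁ q₂ * c q₁' q₂ := by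
    intro q₁ q₁' q₂
    apply e.injective
    apply Subtype.ext
    rw [map_mul, Subgroup.coe_mul,
      hc' (sec (q₁, 1) * sec (q₁', 1)) (sec (1, q₂)) (q₁ * q₁') q₂ (by rw [map_mul, hsec, hsec]; simp)
        (hsec _),
      hc' (sec (q₁, 1)) (sec (1, q₂)) q₁ q₂ (hsec _) (hsec _),
      hc' (sec (q₁', 1)) (sec (1, q₂)) q₁' q₂ (hsec _) (hsec _),
      commutatorElement_mul_left_eq_conj_mul]
    have h1 := hcen _ (hc _ _ (hsec1 q₁') (hsec2 q₂))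
    rw [h1 (sec (q₁, 1)), mul_inv_cancel_right, ← h1]
  have hmul2 : ∀ (q₁ : Q₁) (q₂ q₂' : Q₂), c q₁ (q₂ * q₂') = c q₁ q₂ * c q₁ q₂' := by
    intro q₁ q₂ q₂'
    apply e.injective
    apply Subtype.ext
    rw [map_mul, Subgroup.coe_mul,
      hc' (sec (q₁, 1)) (sec (1, q₂) * sec (1, q₂')) q₁ (q₂ * q₂') (hsec _)
        (by rw [map_mul, hsec, hsec]; simp),
      hc' (sec (q₁, 1)) (sec (1, q₂)) q₁ q₂ (hsec _) (hsec _),
      hc' (sec (q₁, 1)) (sec (1, q₂')) q₁ q₂' (hsec _) (hsec _),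
      commutatorElement_mul_right_eq_mul_conj]
    have h1 := hcen _ (hc _ _ (hsec1 q₁) (hsec2 q₂'))
    rw [mul_assoc, mul_assoc, ← mul_assoc (sec (1, q₂)), h1 (sec (1, q₂)), mul_inv_cancel_right]
  let m₀ : Q₁ →* Q₂ →* K' := MonoidHom.mk' (fun q₁ => MonoidHom.mk' (c q₁) (hmul2 q₁))
    (by intro a b; apply MonoidHom.ext; intro y; exact hmul1 a b y)
  let m₁ : Abelianization Q₁ →* Q₂ →* K' := Abelianization.lift m₀
  let m₂ : Abelianization Q₂ →* Abelianization Q₁ →* K' := Abelianization.lift m₁.flip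
  let m : Abelianization Q₁ →* Abelianization Q₂ →* K' := m₂.flip
  have hm : ∀ q₁ q₂, m (Abelianization.of q₁) (Abelianization.of q₂) = c q₁ q₂ := by
    intro q₁ q₂
    simp only [m, m₂, m₁, MonoidHom.flip_apply, Abelianization.lift_apply_of]
    rfl
  let F : Additive (Abelianization Q₁) →+ Additive (Abelianization Q₂) →+ Additive K' :=
    AddMonoidHom.mk' (fun a => MonoidHom.toAdditive (m a.toMul))
      (by
        intro a b; apply AddMonoidHom.ext; intro y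
        change Additive.ofMul (m (a + b).toMul y.toMul) =
          Additive.ofMul (m a.toMul y.toMul) + Additive.ofMul (m b.toMul y.toMul)
        rw [toMul_add, map_mul, MonoidHom.mul_apply, ofMul_mul])
  have hF : ∀ a b, F a b = Additive.ofMul (m a.toMul b.toMul) := fun a b => rfl
  let g₃a : TensorProduct ℤ (Additive (Abelianization Q₁)) (Additive (Abelianization Q₂)) →+ Additive K' :=
    TensorProduct.liftAddHom F (by
      intro r a b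
      rw [map_zsmul, map_zsmul]; rfl)
  let g₃ : Ten Q₁ Q₂ →* K' := AddMonoidHom.toMultiplicativeLeft g₃a
  have hg₃ : ∀ q₁ q₂, g₃ (Multiplicative.ofAdd
      ((Additive.ofMul (Abelianization.of q₁)) ⊗ₜ[ℤ] (Additive.ofMul (Abelianization.of q₂)))) = c q₁ q₂ := by
    intro q₁ q₂
    change (g₃a _).toMul = _
    simp only [g₃a, TensorProduct.liftAddHom_tmul, hF]
    exact hm q₁ q₂
  -- the two multiplier parts
  let s₁ : D₁ →* Q₁ := ((MonoidHom.fst Q₁ Q₂).comp σ).comp D₁.subtype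
  have hs₁surj : Function.Surjective s₁ := by
    intro q₁
    exact ⟨⟨sec (q₁, 1), hsec1 q₁⟩, by simp [s₁, hsec]⟩
  have hs₁ker : ∀ d : D₁, d ∈ s₁.ker → (d : Δ) ∈ σ.ker := by
    intro d hd
    rw [MonoidHom.mem_ker]
    exact Prod.ext hd d.2
  have hs₁cen : s₁.ker ≤ Subgroup.center D₁ := by
    intro d hd
    rw [Subgroup.mem_center_iff]
    intro g
    apply Subtype.ext
    exact hcen _ (hs₁ker d hd) g
  obtain ⟨f₁, hf₁⟩ := HasSchurMultiplier.exists_surj_of_central hA s₁ hs₁surj hs₁cen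
  let s₂ : D₂ →* Q₂ := ((MonoidHom.snd Q₁ Q₂).comp σ).comp D₂.subtype
  have hs₂surj : Function.Surjective s₂ := by
    intro q₂
    exact ⟨⟨sec (1, q₂), hsec2 q₂⟩, by simp [s₂, hsec]⟩
  have hs₂ker : ∀ d : D₂, d ∈ s₂.ker → (d : Δ) ∈ σ.ker := by
    intro d hd
    rw [MonoidHom.mem_ker]
    exact Prod.ext d.2 hd
  have hs₂cen : s₂.ker ≤ Subgroup.center D₂ := by
    intro d hd
    rw [Subgroup.mem_center_iff]
    intro g
    apply Subtype.ext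
    exact hcen _ (hs₂ker d hd) g
  obtain ⟨f₂, hf₂⟩ := HasSchurMultiplier.exists_surj_of_central hB s₂ hs₂surj hs₂cen
  let j₁ : ↥(s₁.ker ⊓ commutator D₁) →* σ.ker :=
    (D₁.subtype.comp (Subgroup.subtype _)).codRestrict σ.ker (fun x => hs₁ker x.1 x.2.1)
  let j₂ : ↥(s₂.ker ⊓ commutator D₂) →* σ.ker :=
    (D₂.subtype.comp (Subgroup.subtype _)).codRestrict σ.ker (fun x => hs₂ker x.1 x.2.1)
  let g₁ : A →* K' := e.symm.toMonoidHom.comp (j₁.comp f₁)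
  let g₂ : B →* K' := e.symm.toMonoidHom.comp (j₂.comp f₂)
  have hg₁ : ∀ a, ((e (g₁ a) : σ.ker) : Δ) = ((f₁ a : ↥(s₁.ker ⊓ commutator D₁)) : D₁) := by
    intro a; simp [g₁, j₁]; rfl
  have hg₂ : ∀ b, ((e (g₂ b) : σ.ker) : Δ) = ((f₂ b : ↥(s₂.ker ⊓ commutator D₂)) : D₂) := by
    intro b; simp [g₂, j₂]; rfl
  refine ⟨g₁.coprod (g₂.coprod g₃), ?_⟩
  -- surjectivity
  have hD₁n : D₁.Normal := MonoidHom.normal_ker _
  have hD₂n : D₂.Normal := MonoidHom.normal_ker _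
  have hgen : Subgroup.closure ((D₁ : Set Δ) ∪ (D₂ : Set Δ)) = ⊤ := by
    rw [eq_top_iff]
    intro d _
    have h1 : d * (sec (1, (σ d).2))⁻¹ ∈ D₁ := by
      rw [memD₁, map_mul, map_inv, hsec]; simp
    have : d = d * (sec (1, (σ d).2))⁻¹ * sec (1, (σ d).2) := by group
    rw [this]
    exact mul_mem (Subgroup.subset_closure (Or.inl h1)) (Subgroup.subset_closure (Or.inr (hsec2 _)))
  have hcomm : commutator Δ ≤ ⁅D₁, D₁⁆ ⊔ ⁅D₂, D₂⁆ ⊔ ⁅D₁, D₂⁆ := by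
    apply commutator_le_of_closure _ hgen
    rintro s (hs | hs) t (ht | ht)
    · exact (le_sup_left.trans le_sup_left : ⁅D₁, D₁⁆ ≤ ⁅D₁, D₁⁆ ⊔ ⁅D₂, D₂⁆ ⊔ ⁅D₁, D₂⁆)
        (Subgroup.commutator_mem_commutator hs ht)
    · exact le_sup_right (a := ⁅D₁, D₁⁆ ⊔ ⁅D₂, D₂⁆) (Subgroup.commutator_mem_commutator hs ht)
    · apply le_sup_right (a := ⁅D₁, D₁⁆ ⊔ ⁅D₂, D₂⁆)
      rw [← commutatorElement_inv]
      exact inv_mem (Subgroup.commutator_mem_commutator ht hs)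
    · exact (le_sup_right.trans le_sup_left : ⁅D₂, D₂⁆ ≤ ⁅D₁, D₁⁆ ⊔ ⁅D₂, D₂⁆ ⊔ ⁅D₁, D₂⁆)
        (Subgroup.commutator_mem_commutator hs ht)
  have h12ker : ⁅D₁, D₂⁆ ≤ σ.ker := Subgroup.commutator_le.mpr (fun a ha b hb => hc a b ha hb)
  have h12 : ∀ d ∈ ⁅D₁, D₂⁆, ∃ t : Ten Q₁ Q₂, ((e (g₃ t) : σ.ker) : Δ) = d := by
    have : ⁅D₁, D₂⁆ ≤ (σ.ker.subtype.comp (e.toMonoidHom.comp g₃)).range := by
      rw [Subgroup.commutator_le]
      intro a ha b hb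
      refine ⟨Multiplicative.ofAdd ((Additive.ofMul (Abelianization.of (σ a).1)) ⊗ₜ[ℤ]
        (Additive.ofMul (Abelianization.of (σ b).2))), ?_⟩
      change ((e (g₃ _) : σ.ker) : Δ) = _
      rw [hg₃]
      exact hc' a b _ _ (Prod.ext rfl ha) (Prod.ext hb rfl)
    intro d hd
    obtain ⟨t, ht⟩ := this hd
    exact ⟨t, ht⟩
  intro k'
  have hk : ((e k' : σ.ker) : Δ) ∈ ⁅D₁, D₁⁆ ⊔ ⁅D₂, D₂⁆ ⊔ ⁅D₁, D₂⁆ := hcomm (hσ.2.2 (e k').2)
  obtain ⟨d₁₂, hd₁₂, d₃, hd₃, hk3⟩ := Subgroup.mem_sup_of_normal_right.mp hk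
  obtain ⟨d₁, hd₁, d₂, hd₂, rfl⟩ := Subgroup.mem_sup_of_normal_right.mp hd₁₂
  have hd₁' : d₁ ∈ D₁ := Subgroup.commutator_le_left D₁ D₁ hd₁
  have hd₂' : d₂ ∈ D₂ := Subgroup.commutator_le_left D₂ D₂ hd₂
  have hσ3 : σ d₃ = 1 := h12ker hd₃
  have hσk : σ d₁ * σ d₂ = 1 := by
    have : σ (d₁ * d₂ * d₃) = 1 := by rw [hk3]; exact (e k').2
    rwa [map_mul, map_mul, hσ3, mul_one] at this
  have hσ1 : (σ d₁).1 = 1 := by
    have := congrArg Prod.fst hσk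
    rw [Prod.fst_mul, (memD₂ d₂).mp hd₂', mul_one] at this
    exact this
  have hσ2 : (σ d₂).2 = 1 := by
    have := congrArg Prod.snd hσk
    rw [Prod.snd_mul, (memD₁ d₁).mp hd₁', one_mul] at this
    exact this
  rw [← Subgroup.map_subtype_commutator] at hd₁ hd₂
  obtain ⟨w₁, hw₁, hw₁d⟩ := hd₁
  obtain ⟨w₂, hw₂, hw₂d⟩ := hd₂
  have hw₁k : w₁ ∈ s₁.ker := by
    rw [MonoidHom.mem_ker]
    change (σ (D₁.subtype w₁)).1 = 1
    rw [hw₁d]; exact hσ1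
  have hw₂k : w₂ ∈ s₂.ker := by
    rw [MonoidHom.mem_ker]
    change (σ (D₂.subtype w₂)).2 = 1
    rw [hw₂d]; exact hσ2
  obtain ⟨a, ha⟩ := hf₁ ⟨w₁, hw₁k, hw₁⟩
  obtain ⟨b, hb⟩ := hf₂ ⟨w₂, hw₂k, hw₂⟩
  obtain ⟨t, ht⟩ := h12 d₃ hd₃
  refine ⟨(a, b, t), ?_⟩
  apply e.injective
  apply Subtype.ext
  rw [MonoidHom.coprod_apply, MonoidHom.coprod_apply, map_mul, map_mul, Subgroup.coe_mul, Subgroup.coe_mul,
    hg₁, hg₂, ht, ha, hb, ← hk3, ← hw₁d, ← hw₂d, mul_assoc]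
  rfl

end part2

/-- commutative group structure on a central kernel -/
@[instance_reducible] def kerCommGroup {Γ : Type*} {G : Type*} [Group Γ] [Group G] (σ : Γ →* G) (h : σ.ker ≤ Subgroup.center Γ) :
    CommGroup σ.ker :=
  { σ.ker.toGroup with
    mul_comm := by
      rintro ⟨x, hx⟩ ⟨y, hy⟩
      apply Subtype.ext
      exact (Subgroup.mem_center_iff.mp (h hy)) x }

/-- Let `Q₁` and `Q₂` be finite groups with Schur multipliers `A` and `B`. Then the Schur multiplier of `Q₁ × Q₂` is isomorphic to `A × B × (Q₁ᵃᵇ ⊗ Q₂ᵃᵇ)`, the last factor being the tensor product over the integers of the commutator quotients, written multiplicatively. -/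
theorem result {Q₁ : Type u} {Q₂ : Type v} [Group Q₁] [Group Q₂] [Finite Q₁] [Finite Q₂] {A B : Type w} [CommGroup A] [CommGroup B] (hA : Cfsg.HasSchurMultiplier Q₁ A) (hB : Cfsg.HasSchurMultiplier Q₂ B) : Cfsg.HasSchurMultiplier (Q₁ × Q₂) (A × B × Multiplicative (TensorProduct ℤ (Additive (Abelianization Q₁)) (Additive (Abelianization Q₂)))) := by
  constructor
  · obtain ⟨⟨Γ₁, _, _, σ₁, hσ₁, ⟨e₁⟩⟩, -⟩ := hA
    obtain ⟨⟨Γ₂, _, _, σ₂, hσ₂, ⟨e₂⟩⟩, -⟩ := hB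
    have hfinT : Finite (Ten Q₁ Q₂) := by
      have : Finite (TensorProduct ℤ (Additive (Abelianization Q₁)) (Additive (Abelianization Q₂))) := by
        have h : Module.Finite ℤ
            (TensorProduct ℤ (Additive (Abelianization Q₁)) (Additive (Abelianization Q₂))) :=
          Module.Finite.tensorProduct ℤ (Additive (Abelianization Q₁)) (Additive (Abelianization Q₂))
        refine @Module.finite_of_fg_torsion _ _ _ h ?_
        intro x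
        refine ⟨⟨(Nat.card (Additive (Abelianization Q₁)) : ℤ), ?_⟩, ?_⟩
        · apply mem_nonZeroDivisors_of_ne_zero
          exact_mod_cast Nat.card_pos.ne'
        · change (Nat.card (Additive (Abelianization Q₁)) : ℤ) • x = 0
          induction x using TensorProduct.induction_on with
          | zero => simp
          | add a b ha hb => rw [smul_add, ha, hb, add_zero]
          | tmul a b =>
            rw [TensorProduct.smul_tmul', natCast_zsmul, card_nsmul_eq_zero', TensorProduct.zero_tmul]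
      infer_instance
    refine ⟨BilinExt (coc σ₁ σ₂), inferInstance, inferInstance, cov σ₁ σ₂, stem σ₁ σ₂ hσ₁ hσ₂,
      ⟨(kerEquiv σ₁ σ₂).trans (MulEquiv.prodCongr e₁ (MulEquiv.prodCongr e₂ (MulEquiv.refl _)))⟩⟩
  · intro Δ _ _ σ hσ
    letI := kerCommGroup σ hσ.2.1
    exact part2 σ hσ (MulEquiv.refl _) hA hB

end Cfsg.Agent.S3959
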