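import Cfsg.Statements.S3960
import Cfsg.Agent.Lib.Helper66.SchurMain
import Cfsg.Agent.Lib.Helper66.PerfectLemmas

set_option autoImplicit false
universe u
open Cfsg

namespace Cfsg.Agent.S3960

open Cfsg.Agent.Lib.Helper66

/-- A finite perfect group `Q` has a universal central extension: a finite perfect group `G` in the universe of `Q` and a surjective homomorphism `π : G →* Q` with central kernel such that for every group `X` in that universe and every surjective homomorphism `ξ : X →* Q` with central kernel there is exactly one homomorphism `η : G →* X` with `ξ ∘ η = π`. -/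
theorem result {Q : Type u} [Group Q] [Finite Q] (hQ : Group.IsPerfect Q) : ∃ (G : Type u) (_ : Group G) (_ : Finite G) (π : G →* Q), Group.IsPerfect G ∧ Function.Surjective π ∧ π.ker ≤ Subgroup.center G ∧ ∀ (X : Type u) [Group X] (ξ : X →* Q), Function.Surjective ξ → ξ.ker ≤ Subgroup.center X → ∃! η : G →* X, ξ.comp η = π := by
  have hQ' : commutator Q = ⊤ := hQ.commutator_eq_top
  have hperf : Group.IsPerfect ↥(commutator (FreeCentral Q)) := by
    rw [Subgroup.isPerfect_iff]
    exact commutator_perfect_of_central hQ' (fcProj Q) (fcProj_surjective Q) (ker_fcProj_le_center Q)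
  refine ⟨↥(commutator (FreeCentral Q)), inferInstance,
    finite_commutator_of_central (fcProj Q) (ker_fcProj_le_center Q),
    (fcProj Q).comp (Subgroup.subtype _), hperf, ?_, ?_, ?_⟩
  · intro q
    have : q ∈ commutator Q := by rw [hQ']; trivial
    rw [← map_commutator_eq_of_surjective _ (fcProj_surjective Q)] at this
    obtain ⟨c, hc, rfl⟩ := this
    exact ⟨⟨c, hc⟩, rfl⟩
  · intro x hx
    have h1 : (x : FreeCentral Q) ∈ Subgroup.center (FreeCentral Q) := ker_fcProj_le_center Q hx
    rw [Subgroup.mem_center_iff]
    intro g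
    apply Subtype.ext
    exact (Subgroup.mem_center_iff.mp h1) g
  · intro X _ ξ hsurj hξ
    obtain ⟨η, hη⟩ := exists_lift_of_central Q ξ hsurj hξ
    refine ⟨η.comp (Subgroup.subtype _), ?_, ?_⟩
    · change ξ.comp (η.comp _) = _
      rw [← MonoidHom.comp_assoc, hη]
    · intro η' hη'
      apply hom_eq_of_perfect_of_central hperf.commutator_eq_top ξ hξ
      rw [hη', ← MonoidHom.comp_assoc, hη]

end Cfsg.Agent.S3960
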