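import Cfsg.Statements.S3962

set_option autoImplicit false
open Cfsg
open scoped IsMulCommutative

namespace Cfsg.Agent.S3962

/-- Let `G` be a perfect group and `π : G →* Q` a surjective homomorphism whose kernel is central. Then `π` maps the centre of `G` onto the centre of `Q`. Taking `π` to be the map to `G ⧸ Z(G)` shows that the central quotient of a perfect group has trivial centre. -/
theorem result {G Q : Type*} [Group G] [Group Q] (hG : Group.IsPerfect G) (π : G →* Q) (hπ : Function.Surjective π) (hker : π.ker ≤ Subgroup.center G) : (Subgroup.center G).map π = Subgroup.center Q := by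
  apply le_antisymm
  · rintro _ ⟨z, hz, rfl⟩
    rw [SetLike.mem_coe, Subgroup.mem_center_iff] at hz
    rw [Subgroup.mem_center_iff]
    intro q
    obtain ⟨g, rfl⟩ := hπ q
    rw [← map_mul, ← map_mul, hz g]
  · intro q hq
    obtain ⟨z, rfl⟩ := hπ q
    refine ⟨z, ?_, rfl⟩
    have hc : ∀ g : G, g * z * g⁻¹ * z⁻¹ ∈ Subgroup.center G := by
      intro g
      apply hker
      rw [MonoidHom.mem_ker]
      simp only [map_mul, map_inv]
      have := (Subgroup.mem_center_iff.mp hq) (π g)
      rw [this]; group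
    obtain ⟨φ, hφ⟩ : ∃ φ : G →* Subgroup.center G, ∀ g, (φ g : G) = g * z * g⁻¹ * z⁻¹ := by
      refine ⟨{ toFun := fun g => ⟨g * z * g⁻¹ * z⁻¹, hc g⟩
                map_one' := by ext; simp
                map_mul' := ?_ }, fun g => rfl⟩
      intro g h
      ext
      simp only [Subgroup.coe_mul]
      have h1 := (Subgroup.mem_center_iff.mp (hc h)) g
      calc g * h * z * (g * h)⁻¹ * z⁻¹ = g * (h * z * h⁻¹ * z⁻¹) * z * g⁻¹ * z⁻¹ := by group
        _ = (h * z * h⁻¹ * z⁻¹) * g * z * g⁻¹ * z⁻¹ := by rw [h1]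
        _ = (h * z * h⁻¹ * z⁻¹) * (g * z * g⁻¹ * z⁻¹) := by group
        _ = g * z * g⁻¹ * z⁻¹ * (h * z * h⁻¹ * z⁻¹) := 
            ((Subgroup.mem_center_iff.mp (hc h)) _).symm
    have h1 : commutator G ≤ φ.ker := Abelianization.commutator_subset_ker φ
    rw [hG.commutator_eq_top] at h1
    rw [SetLike.mem_coe, Subgroup.mem_center_iff]
    intro g
    have h2 : φ g = 1 := h1 (Subgroup.mem_top g)
    have h3 : g * z * g⁻¹ * z⁻¹ = 1 := by rw [← hφ, h2]; rfl
    calc g * z = (g * z * g⁻¹ * z⁻¹) * z * g := by group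
      _ = z * g := by rw [h3, one_mul]

end Cfsg.Agent.S3962
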