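import Cfsg.Statements.S3961
import Cfsg.Agent.Lib.Helper66.SchurMain
import Cfsg.Agent.Lib.Helper66.PerfectLemmas
import Cfsg.Agent.S3962

set_option autoImplicit false
universe u v
open Cfsg

namespace Cfsg.Agent.S3961

open Cfsg.Agent.Lib.Helper66

/-- Let `π : G →* Q` be a surjective homomorphism with central kernel from a finite perfect group `G` (a perfect cover of `Q`). Then `π` is universal, in the sense that every surjective homomorphism `ξ : X →* Q` with central kernel from a group `X` in the universe of `G` admits a homomorphism `η : G →* X` with `ξ ∘ η = π`, if and only if `G` has trivial Schur multiplier. -/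
theorem result {G : Type u} {Q : Type v} [Group G] [Group Q] [Finite G] (hG : Group.IsPerfect G) (π : G →* Q) (hπ : Function.Surjective π) (hker : π.ker ≤ Subgroup.center G) : (∀ (X : Type u) [Group X] (ξ : X →* Q), Function.Surjective ξ → ξ.ker ≤ Subgroup.center X → ∃ η : G →* X, ξ.comp η = π) ↔ Cfsg.HasCyclicSchurMultiplier G 1 := by
  have hG' : commutator G = ⊤ := hG.commutator_eq_top
  constructor
  · intro h
    rw [hasCyclicSchurMultiplier_one_iff]
    intro Δ _ _ τ hτ
    have hΔ : commutator Δ = ⊤ := by
      apply IsStemExtension.eq_top_of_map_eq_top hτ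
      rw [map_commutator_eq_of_surjective τ hτ.1, hG']
    have hcen : (π.comp τ).ker ≤ Subgroup.center Δ := by
      intro z hz
      have h1 : τ z ∈ Subgroup.center G := hker hz
      rw [← Cfsg.Agent.S3962.result ⟨hΔ⟩ τ hτ.1 hτ.2.1] at h1
      obtain ⟨z', hz', hzz⟩ := h1
      have h2 : z'⁻¹ * z ∈ Subgroup.center Δ := by
        apply hτ.2.1
        rw [MonoidHom.mem_ker, map_mul, map_inv, hzz, inv_mul_cancel]
      have : z = z' * (z'⁻¹ * z) := by group
      rw [this]
      exact mul_mem hz' h2
    obtain ⟨η, hη⟩ := h Δ (π.comp τ) (hπ.comp hτ.1) hcen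
    have hid : τ.comp η = MonoidHom.id G := by
      apply hom_eq_of_perfect_of_central hG' π hker
      rw [← MonoidHom.comp_assoc, hη]; rfl
    have hid' : ∀ g, τ (η g) = g := fun g => DFunLike.congr_fun hid g
    have hrange : η.range = ⊤ := by
      apply IsStemExtension.eq_top_of_map_eq_top hτ
      rw [eq_top_iff]
      intro g _
      exact ⟨η g, ⟨g, rfl⟩, hid' g⟩
    rw [eq_bot_iff]
    intro k hk
    have : k ∈ η.range := by rw [hrange]; trivial
    obtain ⟨g, rfl⟩ := this
    rw [MonoidHom.mem_ker, hid'] at hk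
    rw [hk, map_one]
    exact Subgroup.mem_bot.mpr rfl
  · intro h X _ ξ hsurj hξ
    have h1 := ker_inf_commutator_eq_bot_of_trivial h (fibreFst π ξ) (fibreFst_surjective π ξ hsurj)
      (ker_fibreFst_le_center π ξ hξ)
    obtain ⟨s, hs⟩ := exists_section_of_perfect hG' (fibreFst π ξ) (fibreFst_surjective π ξ hsurj) h1
    refine ⟨(fibreSnd π ξ).comp s, ?_⟩
    ext g
    change ξ (fibreSnd π ξ (s g)) = π g
    rw [← fibre_comm]
    have : fibreFst π ξ (s g) = g := DFunLike.congr_fun hs g
    rw [this]

end Cfsg.Agent.S3961
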