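import Cfsg.Statements.S3964
import Cfsg.Agent.Lib.Helper35.Stem

set_option autoImplicit false
open Cfsg

namespace Cfsg.Agent.S3964

open Cfsg.Agent.Lib.Helper35 DihedralGroup

theorem closure_gens (n : ℕ) : Subgroup.closure {(r 1 : DihedralGroup n), sr 0} = ⊤ := by
  rw [eq_top_iff]
  intro g _
  have hr : ∀ i : ZMod n, (r i : DihedralGroup n) ∈ Subgroup.closure {(r 1 : DihedralGroup n), sr 0} := by
    intro i
    obtain ⟨k, rfl⟩ := ZMod.intCast_surjective i
    rw [← r_one_zpow]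
    exact Subgroup.zpow_mem _ (Subgroup.subset_closure (by simp)) k
  cases g with
  | r i => exact hr i
  | sr i =>
    have : (sr i : DihedralGroup n) = sr 0 * r i := by simp
    rw [this]
    exact Subgroup.mul_mem _ (Subgroup.subset_closure (by simp)) (hr i)


/-- For odd `n` the dihedral group of order `2 n` has trivial Schur multiplier. -/
theorem result (n : ℕ) (hn : Odd n) : Cfsg.HasCyclicSchurMultiplier (DihedralGroup n) 1 := by
  haveI : NeZero n := ⟨fun h => by subst h; simp at hn⟩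
  rw [Cfsg.Agent.Lib.Helper66.hasCyclicSchurMultiplier_one_iff]
  intro Γ _ _ σ hσ
  obtain ⟨a, ha⟩ := hσ.1 (r 1)
  obtain ⟨b, hb⟩ := hσ.1 (sr 0)
  rw [eq_bot_iff]
  intro x hx
  obtain ⟨k, hk, hk2⟩ := exists_zpow_of_mem_ker hσ (a := a) (b := b)
    (by rw [ha, hb]; exact closure_gens n) (by rw [ha, hb]; simp) hx
  rw [ha, r_one_zpow, ← r_zero, r.injEq] at hk2
  have h1 : (n : ℤ) ∣ 2 * k := by
    rw [← ZMod.intCast_zmod_eq_zero_iff_dvd]; exact hk2
  have h2 : (n : ℤ) ∣ k := by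
    apply IsCoprime.dvd_of_dvd_mul_left _ h1
    rw [Int.isCoprime_iff_gcd_eq_one]
    have := Nat.Coprime.symm (Nat.coprime_two_left.mpr hn)
    simpa [Int.gcd] using this
  obtain ⟨j, rfl⟩ := h2
  have hz : b * a * b⁻¹ * a ∈ σ.ker := by
    rw [MonoidHom.mem_ker]; simp [ha, hb]
  have hcomm : Commute b (a ^ n) := by
    have : a ^ n ∈ σ.ker := by
      rw [MonoidHom.mem_ker, map_pow, ha, r_one_pow_n]
    exact (Subgroup.mem_center_iff.mp (hσ.2.1 this) b)
  have hc := comm_pow_eq_one (hσ.2.1 hz) (by rw [mul_inv_cancel_right]) hcomm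
  rw [Subgroup.mem_bot, ← hk, zpow_mul, zpow_natCast, hc, one_zpow]

end Cfsg.Agent.S3964
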