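import Cfsg.Statements.S3966
import Mathlib

set_option autoImplicit false
open Cfsg

namespace Cfsg.Agent.S3966

open QuaternionGroup DihedralGroup
open scoped commutatorElement

/-- reduction mod `n` -/
noncomputable def red (n : ℕ) : ZMod (2 * n) →+* ZMod n := ZMod.castHom (dvd_mul_left n 2) (ZMod n)

theorem red_n (n : ℕ) : red n (n : ZMod (2 * n)) = 0 := by
  rw [map_natCast, ZMod.natCast_self]

/-- the covering map from the dicyclic group of order `4n` onto the dihedral group of order `2n`. -/
noncomputable def cover (n : ℕ) : QuaternionGroup n →* DihedralGroup n :=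
  MonoidHom.mk' (fun g => match g with
    | a i => r (red n i)
    | xa i => sr (red n i)) (by
      rintro (i | i) (j | j) <;> simp [red_n])

theorem cover_a (n : ℕ) (i : ZMod (2 * n)) : cover n (a i) = r (red n i) := rfl
theorem cover_xa (n : ℕ) (i : ZMod (2 * n)) : cover n (xa i) = sr (red n i) := rfl

theorem cover_surjective (n : ℕ) : Function.Surjective (cover n) := by
  intro g
  cases g with
  | r i =>
    obtain ⟨j, hj⟩ := ZMod.castHom_surjective (dvd_mul_left n 2) i
    exact ⟨a j, by rw [cover_a]; exact congrArg r hj⟩
  | sr i =>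
    obtain ⟨j, hj⟩ := ZMod.castHom_surjective (dvd_mul_left n 2) i
    exact ⟨xa j, by rw [cover_xa]; exact congrArg sr hj⟩

theorem two_n (n : ℕ) : (n : ZMod (2 * n)) + n = 0 := by
  have : ((2 * n : ℕ) : ZMod (2 * n)) = 0 := ZMod.natCast_self _
  rw [← this]; push_cast; ring

theorem mem_ker (n : ℕ) [NeZero n] (g : QuaternionGroup n) (hg : g ∈ (cover n).ker) :
    g = 1 ∨ g = a n := by
  rw [MonoidHom.mem_ker] at hg
  cases g with
  | a i =>
    rw [cover_a, ← r_zero, r.injEq] at hg
    have hi : i = ((i.val : ℕ) : ZMod (2 * n)) := (ZMod.natCast_zmod_val i).symm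
    rw [hi, map_natCast, ZMod.natCast_eq_zero_iff] at hg
    have hlt : i.val < 2 * n := ZMod.val_lt i
    obtain ⟨c, hc⟩ := hg
    have hn : 0 < n := Nat.pos_of_ne_zero (NeZero.ne n)
    have hc2 : c < 2 := by
      by_contra h
      push Not at h
      have : n * 2 ≤ n * c := Nat.mul_le_mul_left n h
      omega
    interval_cases c
    · left
      rw [hi, hc]; simp
    · right
      rw [hi, hc]; simp
  | xa i =>
    rw [cover_xa, DihedralGroup.one_def] at hg
    exact absurd hg (by intro h; cases h)

theorem a_n_central (n : ℕ) : (a n : QuaternionGroup n) ∈ Subgroup.center (QuaternionGroup n) := by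
  rw [Subgroup.mem_center_iff]
  have h2 := two_n n
  rintro (j | j)
  · simp [add_comm]
  · simp only [xa_mul_a, a_mul_xa, xa.injEq]
    linear_combination h2

theorem a_n_comm (n : ℕ) (hn : Even n) : (a n : QuaternionGroup n) ∈ commutator (QuaternionGroup n) := by
  obtain ⟨m, hm⟩ := hn
  have h2 := two_n n
  have : (a n : QuaternionGroup n) = ⁅(xa 0 : QuaternionGroup n), (a m : QuaternionGroup n)⁆ := by
    rw [commutatorElement_def, eq_mul_inv_iff_mul_eq, eq_mul_inv_iff_mul_eq]
    simp only [a_mul_a, a_mul_xa, xa_mul_a, xa.injEq]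
    rw [hm] at h2 ⊢
    push_cast at h2 ⊢
    linear_combination (-1 : ZMod (2 * (m + m))) * h2
  rw [this, commutator_def]
  exact Subgroup.commutator_mem_commutator (Subgroup.mem_top _) (Subgroup.mem_top _)

theorem cover_isStem (n : ℕ) [NeZero n] (hn : Even n) : Cfsg.IsStemExtension (cover n) := by
  refine ⟨cover_surjective n, ?_, ?_⟩
  · intro g hg
    rcases mem_ker n g hg with rfl | rfl
    · exact one_mem _
    · exact a_n_central n
  · intro g hg
    rcases mem_ker n g hg with rfl | rfl
    · exact one_mem _
    · exact a_n_comm n hn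

theorem card_ker (n : ℕ) [NeZero n] : Nat.card (cover n).ker = 2 := by
  have h1 := (cover n).ker.card_mul_index
  rw [Subgroup.index_ker, MonoidHom.range_eq_top.mpr (cover_surjective n), Subgroup.card_top,
    DihedralGroup.nat_card, Nat.card_eq_fintype_card (α := QuaternionGroup n), QuaternionGroup.card] at h1
  have hn : 0 < n := Nat.pos_of_ne_zero (NeZero.ne n)
  have : Nat.card (cover n).ker * (2 * n) = 2 * (2 * n) := by rw [h1]; ring
  exact Nat.eq_of_mul_eq_mul_right (by omega) this


/-- For even `n ≥ 2` the dicyclic group of order `4 n` is a stem extension of the dihedral group of order `2 n` with kernel of order `2`: there is a surjective homomorphism `QuaternionGroup n →* DihedralGroup n` whose kernel is central, lies in the commutator subgroup and has two elements. Together with the order of the multiplier this exhibits the dicyclic group as a Schur covering group of the dihedral group. -/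
theorem result (n : ℕ) [NeZero n] (hn : Even n) : ∃ σ : QuaternionGroup n →* DihedralGroup n, Cfsg.IsStemExtension σ ∧ Nat.card σ.ker = 2 := by
  exact ⟨cover n, cover_isStem n hn, card_ker n⟩

end Cfsg.Agent.S3966
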