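import Cfsg.Statements.S3965
import Cfsg.Agent.Lib.Helper35.Stem
import Cfsg.Agent.S3964
import Cfsg.Agent.S3966

set_option autoImplicit false
open Cfsg

namespace Cfsg.Agent.S3965

open Cfsg.Agent.Lib.Helper35 DihedralGroup


/-- For even `n ≥ 2` the dihedral group of order `2 n` has Schur multiplier cyclic of order `2`. -/
theorem result (n : ℕ) [NeZero n] (hn : Even n) : Cfsg.HasCyclicSchurMultiplier (DihedralGroup n) 2 := by
  apply hasCyclicSchurMultiplier_of
  · refine ⟨QuaternionGroup n, inferInstance, inferInstance, Cfsg.Agent.S3966.cover n,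
      Cfsg.Agent.S3966.cover_isStem n hn, ?_, Cfsg.Agent.S3966.card_ker n⟩
    haveI : Fact (Nat.Prime 2) := ⟨Nat.prime_two⟩
    exact isCyclic_of_prime_card (p := 2) (Cfsg.Agent.S3966.card_ker n)
  · intro Γ _ _ σ hσ
    obtain ⟨a, ha⟩ := hσ.1 (r 1)
    obtain ⟨b, hb⟩ := hσ.1 (sr 0)
    obtain ⟨m, hm⟩ := hn
    have hm0 : m ≠ 0 := by
      rintro rfl
      exact NeZero.ne n (by omega)
    have hz : b * a * b⁻¹ * a ∈ σ.ker := by
      rw [MonoidHom.mem_ker]; simp [ha, hb]
    have hcomm : Commute b (a ^ n) := by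
      have : a ^ n ∈ σ.ker := by
        rw [MonoidHom.mem_ker, map_pow, ha, r_one_pow_n]
      exact (Subgroup.mem_center_iff.mp (hσ.2.1 this) b)
    have hc := comm_pow_eq_one (hσ.2.1 hz) (by rw [mul_inv_cancel_right]) hcomm
    set c := b * a * b⁻¹ * a⁻¹ with hcdef
    have hle : σ.ker ≤ Subgroup.zpowers (c ^ m) := by
      intro x hx
      obtain ⟨k, hk, hk2⟩ := exists_zpow_of_mem_ker hσ (a := a) (b := b)
        (by rw [ha, hb]; exact Cfsg.Agent.S3964.closure_gens n) (by rw [ha, hb]; simp) hx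
      rw [ha, r_one_zpow, ← r_zero, r.injEq] at hk2
      have h1 : (n : ℤ) ∣ 2 * k := by
        rw [← ZMod.intCast_zmod_eq_zero_iff_dvd]; exact hk2
      have h2 : (m : ℤ) ∣ k := by
        rw [hm] at h1
        push_cast at h1
        rw [← two_mul] at h1
        exact (mul_dvd_mul_iff_left (by norm_num)).mp h1
      obtain ⟨j, rfl⟩ := h2
      rw [Subgroup.mem_zpowers_iff]
      exact ⟨j, by rw [← hk, zpow_mul, zpow_natCast]⟩
    have hw : (c ^ m) ^ 2 = 1 := by
      rw [← pow_mul, mul_two, ← hm, hc]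
    refine ⟨Subgroup.isCyclic_of_le hle, ?_⟩
    calc Nat.card σ.ker ∣ Nat.card (Subgroup.zpowers (c ^ m)) := Subgroup.card_dvd_of_le hle
      _ = orderOf (c ^ m) := Nat.card_zpowers _
      _ ∣ 2 := orderOf_dvd_of_pow_eq_one hw

end Cfsg.Agent.S3965
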