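import Cfsg.Statements.S3967
import Cfsg.Agent.Lib.Helper66.MetaMain

set_option autoImplicit false
open Cfsg

namespace Cfsg.Agent.S3967

/-- Let `m, n ≥ 1`, `r ≥ 1` with `r ^ n ≡ 1 (mod m)`, and `l` a natural number; put `d = gcd(m, r - 1)`, `t = m l / d` and `h = d · gcd(m, 1 + r + ⋯ + r^(n-1)) / m`. The group presented by generators `a, b` and relations `a ^ m = 1`, `b ^ n = a ^ t`, `b a b⁻¹ = a ^ r` (a metacyclic group of order `m n`) has Schur multiplier cyclic of order `gcd(l, h)`. -/
theorem result (m n r l : ℕ) (hm : 0 < m) (hn : 0 < n) (hr : 0 < r) (hrn : r ^ n ≡ 1 [MOD m]) : Cfsg.HasCyclicSchurMultiplier (PresentedGroup ({FreeGroup.of true ^ m, (FreeGroup.of false) ^ n * (FreeGroup.of true ^ (m * l / Nat.gcd m (r - 1)))⁻¹, FreeGroup.of false * FreeGroup.of true * (FreeGroup.of false)⁻¹ * (FreeGroup.of true ^ r)⁻¹} : Set (FreeGroup Bool))) (Nat.gcd l (Nat.gcd m (r - 1) * Nat.gcd m (∑ i ∈ Finset.range n, r ^ i) / m)) := by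
  apply Cfsg.Agent.Lib.Helper66.metacyclic_main (PresentedGroup.of true) (PresentedGroup.of false)
    m n r l hm hn hr hrn
  · rw [eq_top_iff, ← PresentedGroup.closure_range_of, Subgroup.closure_le]
    rintro _ ⟨x, rfl⟩
    apply Subgroup.subset_closure
    cases x
    · right; rfl
    · left; rfl
  · have h := PresentedGroup.one_of_mem (rels := ({FreeGroup.of true ^ m, (FreeGroup.of false) ^ n * (FreeGroup.of true ^ (m * l / Nat.gcd m (r - 1)))⁻¹, FreeGroup.of false * FreeGroup.of true * (FreeGroup.of false)⁻¹ * (FreeGroup.of true ^ r)⁻¹} : Set (FreeGroup Bool))) (x := FreeGroup.of true ^ m) (by simp)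
    rw [map_pow] at h
    exact h
  · have h := PresentedGroup.one_of_mem (rels := ({FreeGroup.of true ^ m, (FreeGroup.of false) ^ n * (FreeGroup.of true ^ (m * l / Nat.gcd m (r - 1)))⁻¹, FreeGroup.of false * FreeGroup.of true * (FreeGroup.of false)⁻¹ * (FreeGroup.of true ^ r)⁻¹} : Set (FreeGroup Bool))) (x := (FreeGroup.of false) ^ n * (FreeGroup.of true ^ (m * l / Nat.gcd m (r - 1)))⁻¹) (by simp)
    rw [map_mul, map_inv, map_pow, map_pow, mul_inv_eq_one] at h
    exact h
  · have h := PresentedGroup.one_of_mem (rels := ({FreeGroup.of true ^ m, (FreeGroup.of false) ^ n * (FreeGroup.of true ^ (m * l / Nat.gcd m (r - 1)))⁻¹, FreeGroup.of false * FreeGroup.of true * (FreeGroup.of false)⁻¹ * (FreeGroup.of true ^ r)⁻¹} : Set (FreeGroup Bool))) (x := FreeGroup.of false * FreeGroup.of true * (FreeGroup.of false)⁻¹ * (FreeGroup.of true ^ r)⁻¹) (by simp)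
    rw [map_mul, map_inv, map_pow, mul_inv_eq_one, map_mul, map_mul, map_inv] at h
    exact h
  · intro Y _ x y h1 h2 h3
    refine ⟨PresentedGroup.toGroup (f := fun c => if c then x else y) ?_, ?_, ?_⟩
    · intro q hq
      rcases hq with rfl | rfl | hq
      · simp [h1]
      · simp [h2]
      · rw [Set.mem_singleton_iff] at hq
        subst hq
        simp [h3]
    · simp
    · simp

end Cfsg.Agent.S3967
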