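import Cfsg.Statements.S3968
import Cfsg.Agent.Lib.Helper80.Constituent
import Cfsg.Agent.Lib.Helper80.Linear
import Cfsg.Agent.Lib.Helper80.CoreDvd
import Cfsg.Agent.Lib.Helper15.Extraspecial
import Cfsg.Agent.S0138
import Cfsg.Agent.S0139
import Cfsg.Agent.S0142

set_option autoImplicit false
open Cfsg

namespace Cfsg.Agent.S3968

open Cfsg.Agent.Lib.Helper74 Cfsg.Agent.Lib.Helper80
open scoped ComplexConjugate

/-- For a faithful character, the elements with `|χ(z)| = χ(1)` are central. -/
theorem mem_center_of_norm_eq {G : Type*} [Group G] [Finite G] {n : ℕ}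
    (ρ : Representation ℂ G (Fin n → ℂ)) (hfaith : ∀ g : G, ρ.character g = ρ.character 1 → g = 1)
    (z : G) (hz : ‖ρ.character z‖ = (Module.finrank ℂ (Fin n → ℂ) : ℝ)) : z ∈ Subgroup.center G := by
  obtain ⟨ω, hω⟩ := (Cfsg.Agent.S0138.result ρ z).1 hz
  rw [Subgroup.mem_center_iff]
  intro g
  have h1 : ρ (g * z * g⁻¹ * z⁻¹) = LinearMap.id := by
    have h2 : ρ (g * z) = ρ (z * g) := by
      rw [map_mul, map_mul, hω]
      ext v
      simp
    have h3 : g * z * g⁻¹ * z⁻¹ = (g * z) * (z * g)⁻¹ := by group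
    rw [h3, map_mul, h2, ← map_mul, mul_inv_cancel, map_one]
    rfl
  have h4 := (Cfsg.Agent.S0139.result ρ _).2 h1
  rw [← Representation.char_one ρ] at h4
  have h5 := hfaith _ h4
  have h6 : g * z = (g * z * g⁻¹ * z⁻¹) * (z * g) := by group
  rw [h6, h5, one_mul]

/-- Let `p` be a prime and `G` a finite group with a faithful irreducible complex character of degree `p` (so `G` is an irreducible linear group in `p` variables). If `p ^ 2` divides the order of `G`, then the centre of `G` is nontrivial. -/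
theorem result {G : Type*} [Group G] [Finite G] (p : ℕ) (hp : p.Prime) (χ : Cfsg.IrrCharacter G) (hdeg : χ.1 1 = p) (hfaith : ∀ g : G, χ.1 g = χ.1 1 → g = 1) (hdiv : p ^ 2 ∣ Nat.card G) : Subgroup.center G ≠ ⊥ := by
  classical
  have : Fact p.Prime := ⟨hp⟩
  have := Fintype.ofFinite G
  intro hcen
  obtain ⟨χ, n, ρ, hρ, rfl⟩ := χ
  change ρ.character 1 = p at hdeg
  change ∀ g : G, ρ.character g = ρ.character 1 → g = 1 at hfaith
  have hn : Module.finrank ℂ (Fin n → ℂ) = p := by
    rw [Representation.char_one] at hdeg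
    exact_mod_cast hdeg
  have hχ : IsIrrCharacter G ρ.character := ⟨n, ρ, hρ, rfl⟩
  have hχc := isCharacter_of_irr hχ
  obtain ⟨P⟩ : Nonempty (Sylow p G) := inferInstance
  obtain ⟨a, ha⟩ := IsPGroup.iff_card.1 P.2
  set Q : Subgroup G := (P : Subgroup G) with hQ
  have ha2 : 2 ≤ a := by
    have h1 : p ^ 2 ∣ Nat.card P := by
      rw [P.card_eq_multiplicity]
      exact pow_dvd_pow _ ((hp.pow_dvd_iff_le_factorization Nat.card_pos.ne').1 hdiv)
    rw [ha] at h1
    exact (Nat.pow_dvd_pow_iff_le_right hp.one_lt).1 h1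
  have hres : IsCharacter Q (fun x : Q => ρ.character x) := IsCharacter.restrict hχc _
  have hnocen : ∀ z : G, z ≠ 1 → ‖ρ.character z‖ ≠ (Module.finrank ℂ (Fin n → ℂ) : ℝ) := by
    intro z hz h
    have := mem_center_of_norm_eq ρ hfaith z h
    rw [hcen] at this
    exact hz this
  by_cases hlin : ∃ θ : IrrCharacter Q,
      classInner (fun x : Q => ρ.character x) (θ : Q → ℂ) ≠ 0 ∧ (θ : Q → ℂ) 1 ≠ 1
  · -- the restriction is irreducible
    obtain ⟨θ, hθ1, hθ2⟩ := hlin
    have h1 := charDegree_le_of_constituent hres θ hθ1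
    have h2 : charDegree (fun x : Q => ρ.character x) = p := by
      have h3 := char_one_eq_charDegree hres
      have h4 : (fun x : Q => ρ.character x) 1 = (p : ℂ) := hdeg
      have h5 := h4.symm.trans h3
      exact_mod_cast h5.symm
    have h3 := charDegree_dvd_card θ
    rw [ha] at h3
    obtain ⟨k, -, hk⟩ := (Nat.dvd_prime_pow hp).1 h3
    have hk0 : k ≠ 0 := by
      rintro rfl
      apply hθ2
      rw [char_one_eq_charDegree (isCharacter_of_irr θ.2), hk]
      simp
    have h4 : p ≤ p ^ k := Nat.le_self_pow hk0 p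
    have h5 : charDegree (fun x : Q => ρ.character x) = charDegree (θ : Q → ℂ) := by omega
    have h6 := eq_of_constituent_of_degree hres θ hθ1 h5
    have hnt : Nontrivial Q := by
      rw [← Finite.one_lt_card_iff_nontrivial, ha]
      exact Nat.one_lt_pow (by omega) hp.one_lt
    have := IsPGroup.center_nontrivial P.2
    obtain ⟨z, hz⟩ := exists_ne (1 : Subgroup.center Q)
    have h7 := Cfsg.Agent.Lib.Helper15.irr_central_norm θ.2 z.2
    rw [← h6] at h7
    apply hnocen ((z : Q) : G)
    · intro h
      apply hz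
      exact Subtype.ext (Subtype.ext h)
    · have h8 : ρ.character ((z : Q) : G) * conj (ρ.character ((z : Q) : G)) = (p : ℂ) * p := by
        rw [← hdeg]
        exact h7
      rw [Complex.mul_conj, Complex.normSq_eq_norm_sq] at h8
      have h9 : ‖ρ.character ((z : Q) : G)‖ ^ 2 = (p : ℝ) ^ 2 := by
        have : ((‖ρ.character ((z : Q) : G)‖ ^ 2 : ℝ) : ℂ) = (((p : ℝ) ^ 2 : ℝ) : ℂ) := by
          rw [h8]
          push_cast
          ring
        exact_mod_cast this
      rw [hn]
      exact (pow_left_inj₀ (norm_nonneg _) (Nat.cast_nonneg _) (by norm_num)).1 h9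
  · -- all constituents linear: `P` abelian
    push Not at hlin
    obtain ⟨m, hm, hsum, -⟩ := exists_mult_spec hres
    have hab : ∀ x y : Q, x * y = y * x := by
      intro x y
      have hc : x * y * x⁻¹ * y⁻¹ ∈ commutator Q := Subgroup.commutator_mem_commutator
        (Subgroup.mem_top x) (Subgroup.mem_top y)
      have h1 : (fun x : Q => ρ.character x) (x * y * x⁻¹ * y⁻¹) =
          (fun x : Q => ρ.character x) 1 := by
        rw [hsum]
        simp only [Finset.sum_apply, Pi.smul_apply, smul_eq_mul]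
        apply Finset.sum_congr rfl
        intro ψ _
        by_cases hψ : m ψ = 0
        · simp [hψ]
        · have h2 := hlin ψ (by rw [hm]; exact_mod_cast hψ)
          rw [char_eq_one_of_mem_commutator (isCharacter_of_irr ψ.2) h2 hc]
      have h2 := hfaith _ h1
      have h3 : x * y * x⁻¹ * y⁻¹ = 1 := Subtype.ext h2
      have h4 : x * y = (x * y * x⁻¹ * y⁻¹) * (y * x) := by group
      rw [h4, h3, one_mul]
    have hzero : ∀ x : Q, x ≠ 1 → ρ.character (x : G) = 0 := by
      intro x hx
      have hle : Q ≤ Subgroup.centralizer ({(x : G)} : Set G) := by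
        intro y hy
        rw [Subgroup.mem_centralizer_singleton_iff]
        exact congrArg Subtype.val (hab ⟨y, hy⟩ x)
      have hcop : Nat.Coprime (Module.finrank ℂ (Fin n → ℂ))
          (Subgroup.centralizer ({(x : G)} : Set G)).index := by
        rw [hn, hp.coprime_iff_not_dvd]
        intro h
        exact P.not_dvd_index (h.trans (Subgroup.index_dvd_of_le hle))
      rcases Cfsg.Agent.S0142.result ρ (x : G) hcop with h | h
      · exact h
      · exact absurd h (hnocen _ (fun h' => hx (Subtype.ext h')))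
    obtain ⟨k, hk⟩ := IsCharacter.classInner_irr_nat hres
      (⟨fun _ => 1, isIrrCharacter_one⟩ : IrrCharacter Q)
    unfold classInner at hk
    have hk2 : ∑ g : Q, (fun x : Q => ρ.character x) g *
        (starRingEnd ℂ) (((⟨fun _ => 1, isIrrCharacter_one⟩ : IrrCharacter Q) : Q → ℂ) g) = (p : ℂ) := by
      rw [Finset.sum_eq_single (1 : Q) (fun x _ hx => by
        beta_reduce
        rw [hzero x hx, zero_mul])
        (fun h => absurd (Finset.mem_univ _) h)]
      simp only [map_one, mul_one]
      exact hdeg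
    rw [hk2, ha] at hk
    have hpa : ((p ^ a : ℕ) : ℂ) ≠ 0 := by exact_mod_cast (pow_pos hp.pos a).ne'
    rw [inv_mul_eq_iff_eq_mul₀ hpa] at hk
    have hk' : p = p ^ a * k := by exact_mod_cast hk
    have h1 : p ^ 2 ∣ p := by
      conv_rhs => rw [hk']
      exact Dvd.dvd.mul_right (pow_dvd_pow p ha2) k
    have h2 := Nat.le_of_dvd hp.pos h1
    have h3 := hp.one_lt
    nlinarith

end Cfsg.Agent.S3968
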