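import Cfsg.Statements.S3969
import Cfsg.Agent.Lib.Helper66.AbelianAut

set_option autoImplicit false
open Cfsg

namespace Cfsg.Agent.S3969

open Cfsg.Agent.Lib.Helper66

theorem normalizer_le_centralizer {G : Type*} [Group G] [Finite G] (p : ℕ) [Fact p.Prime] (P : Sylow p G) (hab : IsMulCommutative (P : Subgroup G)) (hcop : Nat.Coprime (Nat.card G) (∏ i ∈ Finset.Icc 1 (Group.rank (P : Subgroup G)), (p ^ i - 1))) :
    Subgroup.normalizer ((P : Subgroup G) : Set G) ≤ Subgroup.centralizer ((P : Subgroup G) : Set G) := by
  set N := Subgroup.normalizer ((P : Subgroup G) : Set G) with hN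
  set c := (P : Subgroup G).normalizerMonoidHom with hc
  have hker : c.ker = (Subgroup.centralizer ((P : Subgroup G) : Set G)).subgroupOf N :=
    Subgroup.normalizerMonoidHom_ker _
  have hcard : Nat.card c.range = 1 := by
    by_contra hne
    obtain ⟨q, hq, hqd⟩ := Nat.exists_prime_and_dvd hne
    have : Fact q.Prime := ⟨hq⟩
    obtain ⟨α, hα⟩ := exists_prime_orderOf_dvd_card' q hqd
    have hα' : orderOf (α : MulAut (P : Subgroup G)) = q := by rw [Subgroup.orderOf_coe]; exact hα
    have hidx : Nat.card c.range ∣ (P : Subgroup G).index := by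
      rw [← Subgroup.index_ker, hker]
      have h1 : (P : Subgroup G).subgroupOf N ≤ (Subgroup.centralizer ((P : Subgroup G) : Set G)).subgroupOf N :=
        Subgroup.subgroupOf_mono _ (Subgroup.le_centralizer _)
      have h2 := Subgroup.index_dvd_of_le h1
      have h3 : ((P : Subgroup G).subgroupOf N).index ∣ (P : Subgroup G).index := by
        have := Subgroup.relIndex_mul_index (H := (P : Subgroup G)) (K := N) Subgroup.le_normalizer
        exact Dvd.intro _ this
      exact h2.trans h3
    have hqp : q ≠ p := by
      rintro rfl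
      exact P.not_dvd_index (hqd.trans hidx)
    have hqG : q ∣ Nat.card G := (hqd.trans hidx).trans (Subgroup.index_dvd_card _)
    letI : CommGroup (P : Subgroup G) :=
      { (P : Subgroup G).toGroup with mul_comm := fun a b => mul_comm' a b }
    obtain ⟨i, hi1, hi2, hi3⟩ := exists_dvd_pow_sub_one P.isPGroup' (α : MulAut (P : Subgroup G)) hα' hqp
    have hqprod : q ∣ ∏ i ∈ Finset.Icc 1 (Group.rank (P : Subgroup G)), (p ^ i - 1) :=
      hi3.trans (Finset.dvd_prod_of_mem _ (Finset.mem_Icc.mpr ⟨hi1, hi2⟩))
    have := Nat.dvd_gcd hqG hqprod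
    rw [hcop, Nat.dvd_one] at this
    exact hq.one_lt.ne' this
  have hbot : c.range = ⊥ := Subgroup.card_eq_one.mp hcard
  have htop : c.ker = ⊤ := by
    rw [eq_top_iff]
    intro x _
    rw [MonoidHom.mem_ker]
    have : c x ∈ c.range := ⟨x, rfl⟩
    rw [hbot, Subgroup.mem_bot] at this
    exact this
  rw [hker, Subgroup.subgroupOf_eq_top] at htop
  exact htop

/-- Let `P` be an abelian Sylow `p`-subgroup of the finite group `G`, generated by `d` elements (`d` its minimal number of generators). If the order of `G` is coprime to `(p - 1)(p ^ 2 - 1) ⋯ (p ^ d - 1)`, then `G` has a normal `p`-complement. (The classical statement needs only the largest number of cyclic factors of `P` of equal order in place of `d`; the form here follows from it.) -/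
theorem result {G : Type*} [Group G] [Finite G] (p : ℕ) [Fact p.Prime] (P : Sylow p G) (hab : IsMulCommutative (P : Subgroup G)) (hcop : Nat.Coprime (Nat.card G) (∏ i ∈ Finset.Icc 1 (Group.rank (P : Subgroup G)), (p ^ i - 1))) : Cfsg.HasNormalPComplement p G := by
  have hNC := normalizer_le_centralizer p P hab hcop
  exact ⟨P, (MonoidHom.transferSylow P hNC).ker, MonoidHom.normal_ker _,
    MonoidHom.ker_transferSylow_isComplement' P hNC⟩

end Cfsg.Agent.S3969
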