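import Cfsg.Statements.S3970
import Cfsg.Agent.S3969

set_option autoImplicit false
open Cfsg

namespace Cfsg.Agent.S3970

universe u

theorem rank_le_one_of_card_prime {H : Type*} [Group H] [Finite H] {p : ℕ} (hp : p.Prime)
    (h : Nat.card H = p) : Group.rank H ≤ 1 := by
  have : Fact p.Prime := ⟨hp⟩
  have hc : IsCyclic H := isCyclic_of_prime_card h
  obtain ⟨g, hg⟩ := hc.exists_generator
  have : Subgroup.closure (({g} : Finset H) : Set H) = ⊤ := by
    rw [eq_top_iff]
    intro x _
    have := hg x
    rw [Finset.coe_singleton, ← Subgroup.zpowers_eq_closure]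
    exact this
  simpa using Group.rank_le this

theorem aux (n : ℕ) : ∀ (G : Type u) [Group G] [Finite G], Nat.card G = n →
    (∀ p : ℕ, p.Prime → p ∣ Nat.card G → (∃ q : ℕ, q.Prime ∧ q ∣ Nat.card G ∧ p < q) →
      ∀ P : Sylow p G, IsMulCommutative (P : Subgroup G) ∧ Group.rank (P : Subgroup G) ≤ 2) →
    ¬ 12 ∣ Nat.card G → Group.IsSolvable G := by
  induction n using Nat.strong_induction_on with
  | _ n ih =>
  intro G _ _ hn h h12
  by_cases h1 : Nat.card G = 1
  · have : Subsingleton G := (Nat.card_eq_one_iff_unique.mp h1).1
    infer_instance
  set p := (Nat.card G).minFac with hp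
  have hpp : p.Prime := Nat.minFac_prime h1
  have : Fact p.Prime := ⟨hpp⟩
  have hpd : p ∣ Nat.card G := Nat.minFac_dvd _
  have hmin : ∀ r : ℕ, r.Prime → r ∣ Nat.card G → p ≤ r := fun r hr hrd =>
    Nat.minFac_le_of_dvd hr.two_le hrd
  by_cases hq : ∃ q : ℕ, q.Prime ∧ q ∣ Nat.card G ∧ p < q
  · let P : Sylow p G := default
    obtain ⟨hab, hrk⟩ := h p hpp hpd hq P
    have hc1 : Nat.Coprime (Nat.card G) (p - 1) := by
      apply Nat.Coprime.symm
      apply Nat.coprime_of_dvd
      intro r hr hr1 hr2
      have h3 := hmin r hr hr2
      have h4 := Nat.le_of_dvd (by have := hpp.two_le; omega) hr1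
      have := hpp.two_le
      omega
    have hcop : Nat.Coprime (Nat.card G)
        (∏ i ∈ Finset.Icc 1 (Group.rank (P : Subgroup G)), (p ^ i - 1)) := by
      apply Nat.Coprime.prod_right
      intro i hi
      rw [Finset.mem_Icc] at hi
      have hi' : i = 1 ∨ i = 2 := by omega
      rcases hi' with rfl | rfl
      · simpa using hc1
      · have hfac : p ^ 2 - 1 = (p - 1) * (p + 1) := by
          obtain ⟨k, hk⟩ : ∃ k, p = k + 1 := ⟨p - 1, by have := hpp.two_le; omega⟩
          rw [hk]
          simp only [Nat.add_sub_cancel]
          have : (k + 1) ^ 2 = k * (k + 1 + 1) + 1 := by ring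
          rw [this]
          simp
        rw [hfac]
        apply Nat.Coprime.mul_right hc1
        apply Nat.Coprime.symm
        apply Nat.coprime_of_dvd
        intro r hr hr1 hr2
        have h3 := hmin r hr hr2
        have h4 := Nat.le_of_dvd (by omega) hr1
        have h5 : r = p ∨ r = p + 1 := by omega
        rcases h5 with h5 | h5
        · have : r ∣ 1 := by
            rw [← h5] at hr1
            exact (Nat.dvd_add_right (dvd_refl r)).mp hr1
          exact hr.one_lt.ne' (Nat.dvd_one.mp this)
        · -- p and p+1 both prime
          have hp2 : p = 2 := by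
            rcases hpp.eq_two_or_odd' with h6 | h6
            · exact h6
            · have h7 : Even r := by rw [h5]; exact h6.add_one
              have h8 : r = 2 := (Nat.Prime.even_iff hr).mp h7
              have := hpp.two_le
              omega
          have hr3 : r = 3 := by omega
          apply h12
          have hcardP : Nat.card (P : Subgroup G) = p ^ (Nat.card G).factorization p :=
            P.card_eq_multiplicity
          have hk : 2 ≤ (Nat.card G).factorization p := by
            by_contra hlt
            have hk1 : (Nat.card G).factorization p = 1 := by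
              have : 0 < (Nat.card G).factorization p :=
                hpp.factorization_pos_of_dvd (Nat.card_pos.ne') hpd
              omega
            rw [hk1, pow_one] at hcardP
            have := rank_le_one_of_card_prime hpp hcardP
            omega
          have h4d : 4 ∣ Nat.card G := by
            have h9 : p ^ 2 ∣ p ^ (Nat.card G).factorization p := pow_dvd_pow p hk
            have h10 : p ^ (Nat.card G).factorization p ∣ Nat.card G :=
              Nat.ordProj_dvd _ _
            have := h9.trans h10
            rw [hp2] at this
            simpa using this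
          have h3d : 3 ∣ Nat.card G := hr3 ▸ hr2
          have : 4 * 3 ∣ Nat.card G := Nat.Coprime.mul_dvd_of_dvd_of_dvd (by norm_num) h4d h3d
          simpa using this
    obtain ⟨P', N, hN, hcompl⟩ := Cfsg.Agent.S3969.result p P hab hcop
    have hcard : Nat.card N * Nat.card (P' : Subgroup G) = Nat.card G := hcompl.card_mul_card
    have hP'card : Nat.card (P' : Subgroup G) = p ^ (Nat.card G).factorization p :=
      P'.card_eq_multiplicity
    have hkpos : 0 < (Nat.card G).factorization p :=
      hpp.factorization_pos_of_dvd (Nat.card_pos.ne') hpd
    have hP'gt : 1 < Nat.card (P' : Subgroup G) := by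
      rw [hP'card]
      exact Nat.one_lt_pow hkpos.ne' hpp.one_lt
    have hNlt : Nat.card N < n := by
      rw [← hn, ← hcard]
      have : 0 < Nat.card N := Nat.card_pos
      nlinarith
    have hNdvd : Nat.card N ∣ Nat.card G := Subgroup.card_subgroup_dvd_card N
    have hNp : ¬ p ∣ Nat.card N := by
      have h1 : Nat.card N = (P' : Subgroup G).index := by
        have := (P' : Subgroup G).card_mul_index
        have h2 : 0 < Nat.card (P' : Subgroup G) := Nat.card_pos
        nlinarith
      rw [h1]
      exact P'.not_dvd_index
    have hNsol : Group.IsSolvable N := by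
      apply ih (Nat.card N) hNlt N rfl
      · intro r hr hrd ⟨q, hq1, hq2, hq3⟩ R
        have : Fact r.Prime := ⟨hr⟩
        have hrp : r ≠ p := by rintro rfl; exact hNp hrd
        have hfact : (Nat.card G).factorization r = (Nat.card N).factorization r := by
          rw [← hcard, Nat.factorization_mul Nat.card_pos.ne' Nat.card_pos.ne', hP'card,
            Nat.Prime.factorization_pow hpp]
          simp [hrp.symm]
        have hRcard : Nat.card ((R : Subgroup N).map N.subtype) =
            r ^ (Nat.card G).factorization r := by
          rw [Subgroup.card_map_of_injective N.subtype_injective, hfact]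
          exact R.card_eq_multiplicity
        let Q : Sylow r G := Sylow.ofCard ((R : Subgroup N).map N.subtype) hRcard
        obtain ⟨hQ1, hQ2⟩ := h r hr (hrd.trans hNdvd) ⟨q, hq1, hq2.trans hNdvd, hq3⟩ Q
        let e : (R : Subgroup N) ≃* (Q : Subgroup G) :=
          (R : Subgroup N).equivMapOfInjective N.subtype N.subtype_injective
        refine ⟨⟨⟨fun a b => ?_⟩⟩, ?_⟩
        · apply e.injective
          rw [map_mul, map_mul]
          exact mul_comm' _ _
        · rw [Group.rank_congr e]
          exact hQ2
      · exact fun h => h12 (h.trans hNdvd)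
    have hQsol : Group.IsSolvable (G ⧸ N) := by
      have hpg : IsPGroup p (G ⧸ N) := by
        apply IsPGroup.of_card (n := (Nat.card G).factorization p)
        rw [← hP'card]
        have h1 := N.card_eq_card_quotient_mul_card_subgroup
        have h2 : 0 < Nat.card N := Nat.card_pos
        nlinarith
      have := hpg.isNilpotent
      infer_instance
    exact (Group.isSolvable_iff_subgroup_quotient N).mpr ⟨hNsol, hQsol⟩
  · have hpg : IsPGroup p G := by
      have : Nat.card G = p ^ (Nat.card G).primeFactorsList.length := by
        apply Nat.eq_prime_pow_of_unique_prime_dvd Nat.card_pos.ne'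
        intro r hr hrd
        by_contra hne
        apply hq
        exact ⟨r, hr, hrd, lt_of_le_of_ne (hmin r hr hrd) (Ne.symm hne)⟩
      exact IsPGroup.of_card this
    have := hpg.isNilpotent
    infer_instance

/-- Let `G` be a finite group such that for every prime `p` dividing its order, other than the largest such prime, the Sylow `p`-subgroups are abelian and generated by at most two elements, and suppose `12` does not divide the order of `G`. Then `G` is solvable. In particular a group of cube-free order not divisible by `12` is solvable. -/
theorem result {G : Type*} [Group G] [Finite G] (h : ∀ p : ℕ, p.Prime → p ∣ Nat.card G → (∃ q : ℕ, q.Prime ∧ q ∣ Nat.card G ∧ p < q) → ∀ P : Sylow p G, IsMulCommutative (P : Subgroup G) ∧ Group.rank (P : Subgroup G) ≤ 2) (h12 : ¬ 12 ∣ Nat.card G) : Group.IsSolvable G :=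
  aux _ G rfl h h12

end Cfsg.Agent.S3970
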