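import Cfsg.Statements.S3973
import Cfsg.Agent.Lib.Helper66.SchurMain
import Cfsg.Agent.Lib.Helper66.FibreProd

set_option autoImplicit false
open Cfsg

namespace Cfsg.Agent.S3973

open Cfsg.Agent.Lib.Helper66
open scoped commutatorElement

/-- abelianization of the free group, additively -/
def ab {n : ℕ} (f : FreeGroup (Fin n)) : FreeAbelianGroup (Fin n) :=
  (Additive.ofMul (Abelianization.of f) : Additive (Abelianization (FreeGroup (Fin n))))

theorem ab_mul {n : ℕ} (f g : FreeGroup (Fin n)) : ab (f * g) = ab f + ab g := rfl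
theorem ab_one {n : ℕ} : ab (1 : FreeGroup (Fin n)) = 0 := rfl
theorem ab_inv {n : ℕ} (f : FreeGroup (Fin n)) : ab f⁻¹ = - ab f := rfl
theorem ab_pow {n : ℕ} (f : FreeGroup (Fin n)) (k : ℕ) : ab (f ^ k) = k • ab f := by
  induction k with
  | zero => simp [ab_one]
  | succ k ih => rw [pow_succ, ab_mul, ih, succ_nsmul]
theorem ab_surj {n : ℕ} (w : FreeAbelianGroup (Fin n)) : ∃ f, ab f = w := by
  obtain ⟨f, hf⟩ := QuotientGroup.mk_surjective (Additive.toMul (show Additive (Abelianization (FreeGroup (Fin n))) from w))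
  exact ⟨f, congrArg Additive.ofMul hf⟩
theorem ab_eq_zero {n : ℕ} {f : FreeGroup (Fin n)} (hf : f ∈ commutator (FreeGroup (Fin n))) : ab f = 0 := by
  have h1 : Abelianization.of f = 1 := (QuotientGroup.eq_one_iff f).mpr hf
  change (Additive.ofMul (Abelianization.of f) : Additive (Abelianization (FreeGroup (Fin n)))) = 0
  rw [h1]; rfl

/-- If a finite group is presented by `n` generators and a finite set of `r` relators, then its Schur multiplier can be generated by `r - n` elements. In particular a finite group with a presentation having as many relators as generators has trivial Schur multiplier. -/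
theorem result (n : ℕ) (rels : Finset (FreeGroup (Fin n))) [Finite (PresentedGroup (rels : Set (FreeGroup (Fin n))))] {A : Type*} [CommGroup A] [Finite A] (hA : Cfsg.HasSchurMultiplier (PresentedGroup (rels : Set (FreeGroup (Fin n)))) A) : Group.rank A ≤ rels.card - n := by
  classical
  obtain ⟨⟨Γ, _, _, σ, hσ, ⟨e⟩⟩, -⟩ := hA
  set G := PresentedGroup (rels : Set (FreeGroup (Fin n))) with hG
  set R := Subgroup.normalClosure (rels : Set (FreeGroup (Fin n))) with hR
  let mk : FreeGroup (Fin n) →* G := PresentedGroup.mk (rels : Set (FreeGroup (Fin n)))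
  have hmk : ∀ f, mk f = 1 ↔ f ∈ R := fun f => QuotientGroup.eq_one_iff f
  have hmks : Function.Surjective mk := QuotientGroup.mk_surjective
  let x : Fin n → Γ := fun i => Function.surjInv hσ.1 (mk (FreeGroup.of i))
  let φ : FreeGroup (Fin n) →* Γ := FreeGroup.lift x
  have hφ : σ.comp φ = mk := by
    apply FreeGroup.ext_hom
    intro i
    simp [φ, x, Function.surjInv_eq hσ.1]
  have hφ' : ∀ f, σ (φ f) = mk f := fun f => DFunLike.congr_fun hφ f
  have hφs : Function.Surjective φ := by
    rw [← MonoidHom.range_eq_top]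
    apply IsStemExtension.eq_top_of_map_eq_top hσ
    rw [eq_top_iff]
    intro g _
    obtain ⟨f, rfl⟩ := hmks g
    exact ⟨φ f, ⟨f, rfl⟩, hφ' f⟩
  have hRker : ∀ f ∈ R, φ f ∈ σ.ker := by
    intro f hf
    rw [MonoidHom.mem_ker, hφ', hmk]; exact hf
  have hrelR : ∀ j : rels, (j : FreeGroup (Fin n)) ∈ R := fun j => Subgroup.subset_normalClosure j.2
  let κ : (rels →₀ ℤ) →ₗ[ℤ] FreeAbelianGroup (Fin n) :=
    Finsupp.linearCombination ℤ (fun j : rels => ab (j : FreeGroup (Fin n)))
  let ψ : (rels →₀ ℤ) →ₗ[ℤ] Additive A :=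
    Finsupp.linearCombination ℤ (fun j : rels => Additive.ofMul (e ⟨φ j, hRker _ (hrelR j)⟩))
  -- key property of elements of R
  let N : Subgroup (FreeGroup (Fin n)) :=
    { carrier := {f | ∃ (h : φ f ∈ σ.ker) (v : rels →₀ ℤ), Additive.ofMul (e ⟨φ f, h⟩) = ψ v ∧ ab f = κ v}
      one_mem' := by
        refine ⟨by rw [map_one]; exact one_mem _, 0, ?_, ?_⟩
        · rw [map_zero]
          have : (⟨φ 1, by rw [map_one]; exact one_mem _⟩ : σ.ker) = 1 := Subtype.ext (map_one φ)
          rw [this, map_one]; rfl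
        · rw [map_zero]; rfl
      mul_mem' := by
        rintro f g ⟨hf, v, hv1, hv2⟩ ⟨hg, w, hw1, hw2⟩
        refine ⟨by rw [map_mul]; exact mul_mem hf hg, v + w, ?_, ?_⟩
        · rw [map_add, ← hv1, ← hw1, ← ofMul_mul, ← map_mul e]
          congr 2
          exact Subtype.ext (map_mul φ f g)
        · rw [map_add, ← hv2, ← hw2, ab_mul]
      inv_mem' := by
        rintro f ⟨hf, v, hv1, hv2⟩
        refine ⟨by rw [map_inv]; exact inv_mem hf, -v, ?_, ?_⟩
        · rw [map_neg, ← hv1, ← ofMul_inv, ← map_inv e]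
          congr 2
          exact Subtype.ext (map_inv φ f)
        · rw [map_neg, ← hv2, ab_inv] }
  have hNn : N.Normal := by
    constructor
    rintro f ⟨hf, v, hv1, hv2⟩ g
    have hconj : φ (g * f * g⁻¹) = φ f := by
      rw [map_mul, map_mul, map_inv, (Subgroup.mem_center_iff.mp (hσ.2.1 hf)) (φ g), mul_inv_cancel_right]
    refine ⟨by rw [hconj]; exact hf, v, ?_, ?_⟩
    · rw [← hv1]
      congr 2
      exact Subtype.ext hconj
    · rw [← hv2, ab_mul, ab_mul, ab_inv]; abel
  have hRN : R ≤ N := by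
    apply Subgroup.normalClosure_le_normal
    intro f hf
    refine ⟨hRker f (Subgroup.subset_normalClosure hf), Finsupp.single ⟨f, hf⟩ 1, ?_, ?_⟩
    · simp [ψ]
    · simp [κ]
  -- surjectivity of ψ on ker κ
  have hsurj : ∀ a : A, ∃ v ∈ LinearMap.ker κ, ψ v = Additive.ofMul a := by
    intro a
    have hk : ((e.symm a : σ.ker) : Γ) ∈ commutator Γ := hσ.2.2 (e.symm a).2
    rw [← map_commutator_eq_of_surjective φ hφs] at hk
    obtain ⟨f, hf, hfa⟩ := hk
    have hfR : f ∈ R := by
      rw [← hmk, ← hφ', hfa]; exact (e.symm a).2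
    obtain ⟨h, v, hv1, hv2⟩ := hRN hfR
    refine ⟨v, ?_, ?_⟩
    · rw [LinearMap.mem_ker, ← hv2]; exact ab_eq_zero hf
    · rw [← hv1]
      congr 1
      have : (⟨φ f, h⟩ : σ.ker) = e.symm a := Subtype.ext hfa
      rw [this, MulEquiv.apply_symm_apply]
  -- ranks
  have hfrW : Module.finrank ℤ (FreeAbelianGroup (Fin n)) = n := by
    rw [Module.finrank_eq_card_basis (FreeAbelianGroup.basis (Fin n)), Fintype.card_fin]
  have : Module.Finite ℤ (FreeAbelianGroup (Fin n)) := Module.Finite.of_basis (FreeAbelianGroup.basis (Fin n))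
  have hq0 : Module.finrank ℤ (FreeAbelianGroup (Fin n) ⧸ LinearMap.range κ) = 0 := by
    rw [Module.finrank_eq_zero_iff]
    intro y
    obtain ⟨w, rfl⟩ := Submodule.Quotient.mk_surjective _ y
    obtain ⟨f, rfl⟩ := ab_surj w
    refine ⟨(Nat.card G : ℤ), by exact_mod_cast Nat.card_pos.ne', ?_⟩
    rw [← Submodule.Quotient.mk_smul, Submodule.Quotient.mk_eq_zero, natCast_zsmul, ← ab_pow]
    have hfR : f ^ Nat.card G ∈ R := by
      rw [← hmk, map_pow, pow_card_eq_one']
    obtain ⟨h, v, hv1, hv2⟩ := hRN hfR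
    exact ⟨v, hv2.symm⟩
  have hrange : Module.finrank ℤ (LinearMap.range κ) = n := by
    have := Submodule.finrank_quotient_add_finrank (LinearMap.range κ)
    rw [hq0, zero_add, hfrW] at this
    exact this
  have hker : Module.finrank ℤ (LinearMap.ker κ) = rels.card - n := by
    have h1 := Submodule.finrank_quotient_add_finrank (LinearMap.ker κ)
    rw [LinearEquiv.finrank_eq κ.quotKerEquivRange, hrange, Module.finrank_finsupp_self,
      Fintype.card_coe] at h1
    omega
  let b := Module.finBasis ℤ (LinearMap.ker κ)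
  let S : Finset A := Finset.univ.image (fun i => (ψ (b i : rels →₀ ℤ)).toMul)
  have hScard : S.card ≤ rels.card - n := by
    calc S.card ≤ (Finset.univ : Finset (Fin (Module.finrank ℤ (LinearMap.ker κ)))).card :=
          Finset.card_image_le
      _ = rels.card - n := by rw [Finset.card_univ, Fintype.card_fin, hker]
  have hScl : Subgroup.closure (S : Set A) = ⊤ := by
    rw [eq_top_iff]
    intro a _
    obtain ⟨v, hv, hva⟩ := hsurj a
    have h1 := b.sum_repr ⟨v, hv⟩
    have h2 : v = ∑ i, (b.repr ⟨v, hv⟩ i) • (b i : rels →₀ ℤ) := by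
      have := congrArg (fun z : LinearMap.ker κ => (z : rels →₀ ℤ)) h1
      simp only [AddSubmonoidClass.coe_finsetSum, Submodule.coe_smul] at this
      exact this.symm
    have h3 : a = ∏ i, ((ψ (b i : rels →₀ ℤ)).toMul) ^ (b.repr ⟨v, hv⟩ i) := by
      have : Additive.ofMul a = ∑ i, (b.repr ⟨v, hv⟩ i) • ψ (b i : rels →₀ ℤ) := by
        rw [← hva]
        conv_lhs => rw [h2]
        rw [map_sum]
        simp only [map_smul]
      have h4 := congrArg Additive.toMul this
      rw [toMul_ofMul, toMul_sum] at h4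
      rw [h4]
      rfl
    rw [h3]
    apply Subgroup.prod_mem
    intro i _
    apply zpow_mem
    apply Subgroup.subset_closure
    exact Finset.mem_coe.mpr (Finset.mem_image.mpr ⟨i, Finset.mem_univ _, rfl⟩)
  exact (Group.rank_le hScl).trans hScard

end Cfsg.Agent.S3973
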