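import Cfsg.Statements.S3976
import Mathlib
import Cfsg.Agent.S3975

set_option autoImplicit false
open Cfsg

namespace Cfsg.Agent.S3976

/-- conjugation action of `G` on the set of its subgroups of order `k`. -/
@[reducible] def conjAction (G : Type*) [Group G] (k : ℕ) : MulAction G {H : Subgroup G // Nat.card H = k} where
  smul g H := ⟨H.1.map (MulAut.conj g).toMonoidHom, by
    rw [Subgroup.card_map_of_injective (MulAut.conj g).injective]; exact H.2⟩
  one_smul H := by
    apply Subtype.ext
    show H.1.map (MulAut.conj (1 : G)).toMonoidHom = H.1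
    rw [map_one]
    exact Subgroup.map_id _
  mul_smul g h H := by
    apply Subtype.ext
    show H.1.map (MulAut.conj (g * h)).toMonoidHom =
      (H.1.map (MulAut.conj h).toMonoidHom).map (MulAut.conj g).toMonoidHom
    rw [Subgroup.map_map, map_mul]
    rfl


/-- Let `p` be a prime and `G` a group of order `p ^ m`. For every `s ≤ m` the number of normal subgroups of `G` of order `p ^ s` is congruent to `1` modulo `p`. -/
theorem result {G : Type*} [Group G] [Finite G] (p m s : ℕ) (hp : p.Prime) (hG : Nat.card G = p ^ m) (hs : s ≤ m) : Nat.card {H : Subgroup G // H.Normal ∧ Nat.card H = p ^ s} ≡ 1 [MOD p] := by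
  letI := conjAction G (p ^ s)
  haveI : Fact p.Prime := ⟨hp⟩
  have hG' : IsPGroup p G := IsPGroup.of_card hG
  have h1 := hG'.card_modEq_card_fixedPoints {H : Subgroup G // Nat.card H = p ^ s}
  have h2 := Cfsg.Agent.S3975.result (G := G) p s hp (by rw [hG]; exact pow_dvd_pow p hs)
  have h3 : Nat.card (MulAction.fixedPoints G {H : Subgroup G // Nat.card H = p ^ s}) =
      Nat.card {H : Subgroup G // H.Normal ∧ Nat.card H = p ^ s} := by
    apply Nat.card_congr
    refine
      { toFun := fun H => ⟨H.1.1, ?_, H.1.2⟩
        invFun := fun H => ⟨⟨H.1, H.2.2⟩, ?_⟩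
        left_inv := fun H => rfl
        right_inv := fun H => rfl }
    · rw [Subgroup.normal_iff_map_conj_eq]
      intro g
      exact congrArg Subtype.val (H.2 g)
    · intro g
      apply Subtype.ext
      exact (Subgroup.normal_iff_map_conj_eq.mp H.2.1) g
  rw [← h3]
  exact h1.symm.trans h2

end Cfsg.Agent.S3976
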