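import Cfsg.Statements.S3980
import Cfsg.Agent.Lib.Helper66.SchurMain
import Cfsg.Agent.S3959

set_option autoImplicit false
universe u v w
open Cfsg

namespace Cfsg.Agent.S3980

open Cfsg.Agent.Lib.Helper66

/-- Let `Q₁` and `Q₂` be finite groups whose commutator quotients have coprime orders, with Schur multipliers `A` and `B`. Then the Schur multiplier of `Q₁ × Q₂` is isomorphic to `A × B`. -/
theorem result {Q₁ : Type u} {Q₂ : Type v} [Group Q₁] [Group Q₂] [Finite Q₁] [Finite Q₂] {A B : Type w} [CommGroup A] [CommGroup B] (hA : Cfsg.HasSchurMultiplier Q₁ A) (hB : Cfsg.HasSchurMultiplier Q₂ B) (hcop : Nat.Coprime (Nat.card (Abelianization Q₁)) (Nat.card (Abelianization Q₂))) : Cfsg.HasSchurMultiplier (Q₁ × Q₂) (A × B) := by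
  have h := Cfsg.Agent.S3959.result hA hB
  have hzero : ∀ x : TensorProduct ℤ (Additive (Abelianization Q₁)) (Additive (Abelianization Q₂)), x = 0 := by
    intro x
    induction x using TensorProduct.induction_on with
    | zero => rfl
    | add a b ha hb => rw [ha, hb, add_zero]
    | tmul a b =>
      have h1 : (Nat.card (Abelianization Q₁) : ℤ) • (a ⊗ₜ[ℤ] b) = 0 := by
        rw [TensorProduct.smul_tmul', natCast_zsmul]
        have : Nat.card (Abelianization Q₁) • a = 0 := card_nsmul_eq_zero' (G := Additive (Abelianization Q₁))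
        rw [this, TensorProduct.zero_tmul]
      have h2 : (Nat.card (Abelianization Q₂) : ℤ) • (a ⊗ₜ[ℤ] b) = 0 := by
        rw [← TensorProduct.tmul_smul, natCast_zsmul]
        have : Nat.card (Abelianization Q₂) • b = 0 := card_nsmul_eq_zero' (G := Additive (Abelianization Q₂))
        rw [this, TensorProduct.tmul_zero]
      have h3 : IsCoprime (Nat.card (Abelianization Q₁) : ℤ) (Nat.card (Abelianization Q₂) : ℤ) :=
        Nat.isCoprime_iff_coprime.mpr hcop
      obtain ⟨r, s, hrs⟩ := h3
      calc a ⊗ₜ[ℤ] b = (1 : ℤ) • (a ⊗ₜ[ℤ] b) := (one_smul _ _).symm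
        _ = (r * (Nat.card (Abelianization Q₁) : ℤ) + s * (Nat.card (Abelianization Q₂) : ℤ)) • (a ⊗ₜ[ℤ] b) := by
            rw [hrs]
        _ = 0 := by rw [add_smul, mul_smul, mul_smul, h1, h2, smul_zero, smul_zero, add_zero]
  let e : A × B × Multiplicative (TensorProduct ℤ (Additive (Abelianization Q₁)) (Additive (Abelianization Q₂)))
      ≃* A × B :=
    { toFun := fun p => (p.1, p.2.1)
      invFun := fun p => (p.1, p.2, 1)
      left_inv := by
        rintro ⟨a, b, t⟩
        have : t = 1 := hzero t.toAdd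
        rw [this]
      right_inv := fun p => rfl
      map_mul' := fun p q => rfl }
  exact HasSchurMultiplier.congr e h

end Cfsg.Agent.S3980
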