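import Cfsg.Statements.S3992
import Cfsg.Agent.Lib.Helper66.CPGroups

set_option autoImplicit false
open Cfsg

namespace Cfsg.Agent.S3992

open Cfsg.Agent.Lib.Helper66

/-- Let G be a finite non-solvable group in which every element has prime-power order, and let R be its largest solvable normal subgroup. Then R is a p-group for some prime p; G/R has a non-abelian simple normal subgroup contained in every nontrivial normal subgroup of G/R (its unique minimal normal subgroup); and the order of every solvable subgroup of G has at most two prime divisors. -/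
theorem result {G : Type*} [Group G] [Finite G] (hns : ¬ Group.IsSolvable G) (hpp : ∀ g : G, g ≠ 1 → IsPrimePow (orderOf g))
    (R : Subgroup G) [R.Normal] (hRs : Group.IsSolvable ↥R) (hRmax : ∀ N : Subgroup G, N.Normal → Group.IsSolvable ↥N → N ≤ R) :
    (∃ p : ℕ, p.Prime ∧ IsPGroup p ↥R) ∧
      (∃ M : Subgroup (G ⧸ R), M.Normal ∧ IsSimpleGroup ↥M ∧ ¬ IsMulCommutative ↥M ∧
        ∀ N : Subgroup (G ⧸ R), N.Normal → N ≠ ⊥ → M ≤ N) ∧
      ∀ H : Subgroup G, Group.IsSolvable ↥H → (Nat.card ↥H).primeFactors.card ≤ 2 := by
  have hcp : CP G := fun g => by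
    by_cases hg : g = 1
    · exact Or.inr hg
    · exact Or.inl (hpp g hg)
  refine ⟨hcp.radical_isPGroup hns R hRs, ?_, ?_⟩
  · have hnt : Nontrivial (G ⧸ R) := by
      by_contra hcon
      rw [not_nontrivial_iff_subsingleton] at hcon
      exact hns ((Group.isSolvable_iff_subgroup_quotient R).mpr ⟨hRs, inferInstance⟩)
    apply (hcp.quotient R).exists_simple_min_normal
    intro N hN hNs
    have hcn : (N.comap (QuotientGroup.mk' R)).Normal := hN.comap _
    have hcs : Group.IsSolvable (N.comap (QuotientGroup.mk' R)) := by
      let g : (N.comap (QuotientGroup.mk' R)) →* N :=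
        ((QuotientGroup.mk' R).comp (Subgroup.subtype _)).codRestrict N (fun x => x.2)
      have hle : R ≤ N.comap (QuotientGroup.mk' R) := by
        intro x hx
        rw [Subgroup.mem_comap]
        have : QuotientGroup.mk' R x = 1 := (QuotientGroup.eq_one_iff x).mpr hx
        rw [this]; exact one_mem N
      apply Group.isSolvable_of_ker_le_range (Subgroup.inclusion hle) g
      intro x hx
      have h1 : QuotientGroup.mk' R (x : G) = 1 := congrArg Subtype.val hx
      have h2 : (x : G) ∈ R := (QuotientGroup.eq_one_iff _).mp h1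
      exact ⟨⟨x, h2⟩, Subtype.ext rfl⟩
    have hle := hRmax _ hcn hcs
    rw [eq_bot_iff]
    intro y hy
    obtain ⟨x, rfl⟩ := QuotientGroup.mk'_surjective R y
    rw [Subgroup.mem_bot]
    exact (QuotientGroup.eq_one_iff x).mpr (hle hy)
  · intro H hH
    exact Cfsg.Agent.S1475.result (G := H) (hcp.subgroup H)

end Cfsg.Agent.S3992
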