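import Cfsg.Statements.S3994
import Cfsg.Agent.S3993

set_option autoImplicit false
open Cfsg

namespace Cfsg.Agent.S3994

open Cfsg.Agent.S3993

/-- weighted class counting for the conjugation action. -/
theorem dvd_sum_conj {G : Type*} [Group G] (d : ℕ) (w : G → ℕ)
    (hw : ∀ c x : G, w (c * x * c⁻¹) = w x) (Y : Finset G)
    (hY : ∀ c : G, ∀ y ∈ Y, c * y * c⁻¹ ∈ Y)
    (hd : ∀ y ∈ Y, d ∣ (Subgroup.centralizer ({y} : Set G)).index * w y) :
    d ∣ ∑ y ∈ Y, w y := by
  let act : MulAction G G := MulAction.compHom G (MulAut.conj (G := G))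
  refine @dvd_sum_of_invariant G G _ act d w (fun c x => hw c x) Y (fun c y hy => hY c y hy) ?_
  intro y hy
  have : @MulAction.stabilizer G G _ act y = Subgroup.centralizer ({y} : Set G) := by
    ext c
    rw [Subgroup.mem_centralizer_singleton_iff]
    change c * y * c⁻¹ = y ↔ _
    rw [mul_inv_eq_iff_eq_mul]
  rw [this]
  exact hd y hy

theorem coprime_compl (N n : ℕ) (hN : 0 < N) :
    Nat.Coprime n (N / Nat.gcd N (n ^ N)) := by
  rcases Nat.eq_zero_or_pos n with rfl | hn
  · rw [zero_pow hN.ne', Nat.gcd_zero_right, Nat.div_self hN]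
    exact Nat.coprime_one_right 0
  apply Nat.coprime_of_dvd
  intro p hp hpn hpd
  have hg : Nat.gcd N (n ^ N) ∣ N := Nat.gcd_dvd_left _ _
  have hgpos : 0 < Nat.gcd N (n ^ N) := Nat.gcd_pos_of_pos_left _ hN
  have h1 : (N / Nat.gcd N (n ^ N)).factorization p = 0 := by
    rw [Nat.factorization_div hg, Finsupp.tsub_apply,
      Nat.factorization_gcd hN.ne' (pow_ne_zero _ hn.ne'), Finsupp.inf_apply,
      Nat.factorization_pow, Finsupp.smul_apply]
    have h2 : N.factorization p < N := Nat.factorization_lt p hN.ne'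
    have h3 : 1 ≤ n.factorization p := hp.factorization_pos_of_dvd hn.ne' hpn
    have h4 : N ≤ N • n.factorization p := by
      rw [smul_eq_mul]; nlinarith
    rw [min_eq_left (h2.le.trans h4)]
    simp
  have h5 : 0 < (N / Nat.gcd N (n ^ N)).factorization p :=
    hp.factorization_pos_of_dvd (Nat.div_pos (Nat.le_of_dvd hN hg) hgpos).ne' hpd
  omega

/-- Let G be a finite group and n a positive integer. The number of elements of G whose order is divisible by n is either 0 or divisible by the largest divisor of the order of G that is coprime to n. -/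
theorem result {G : Type*} [Group G] [Finite G] (n : ℕ) (hn : 0 < n) :
    Nat.card {g : G // n ∣ orderOf g} = 0 ∨
      (Nat.card G / Nat.gcd (Nat.card G) (n ^ Nat.card G)) ∣ Nat.card {g : G // n ∣ orderOf g} := by
  classical
  right
  have := Fintype.ofFinite G
  set N := Nat.card G with hN
  have hNpos : 0 < N := Nat.card_pos
  set a := Nat.gcd N (n ^ N) with ha
  set d := N / a with hd
  have haN : a ∣ N := Nat.gcd_dvd_left _ _
  have had : a * d = N := Nat.mul_div_cancel' haN
  have hnd : Nat.Coprime n d := coprime_compl N n hNpos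
  have hcop : Nat.Coprime a d := by
    have h1 : Nat.Coprime (n ^ N) d := Nat.Coprime.pow_left _ hnd
    exact Nat.Coprime.coprime_dvd_left (Nat.gcd_dvd_right _ _) h1
  obtain ⟨k, hk1, hk2⟩ := Nat.chineseRemainder hcop 1 0
  obtain ⟨k', hk1', hk2'⟩ := Nat.chineseRemainder hcop 0 1
  have hdk : d ∣ k := (Nat.modEq_zero_iff_dvd).mp hk2
  have hak' : a ∣ k' := (Nat.modEq_zero_iff_dvd).mp hk1'
  have hpowN : ∀ g : G, g ^ N = 1 := fun g => pow_card_eq_one'
  have hsum : k + k' ≡ 1 [MOD N] := by
    rw [← had]
    apply (Nat.modEq_and_modEq_iff_modEq_mul hcop).mp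
    exact ⟨by simpa using hk1.add hk1', by simpa using hk2.add hk2'⟩
  have hsplit : ∀ g : G, g ^ k * g ^ k' = g := by
    intro g
    rw [← pow_add, pow_eq_of_modEq (hpowN g) hsum, pow_one]
  have hxa : ∀ g : G, (g ^ k) ^ a = 1 := by
    intro g
    obtain ⟨c, rfl⟩ := hdk
    rw [← pow_mul, mul_comm d c, mul_assoc, mul_comm d a, had, mul_comm, pow_mul, hpowN, one_pow]
  have hyd : ∀ g : G, (g ^ k') ^ d = 1 := by
    intro g
    obtain ⟨c, rfl⟩ := hak'
    rw [← pow_mul, mul_comm a c, mul_assoc, had, mul_comm, pow_mul, hpowN, one_pow]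
  have hord : ∀ g : G, n ∣ orderOf g ↔ n ∣ orderOf (g ^ k) := by
    intro g
    have h1 : orderOf (g ^ k) ∣ a := orderOf_dvd_of_pow_eq_one (hxa g)
    have h2 : orderOf (g ^ k') ∣ d := orderOf_dvd_of_pow_eq_one (hyd g)
    have h3 : Nat.Coprime (orderOf (g ^ k)) (orderOf (g ^ k')) :=
      Nat.Coprime.coprime_dvd_left h1 (Nat.Coprime.coprime_dvd_right h2 hcop)
    have hcomm : Commute (g ^ k) (g ^ k') := (Commute.refl g).pow_pow k k'
    have h4 := hcomm.orderOf_mul_eq_mul_orderOf_of_coprime h3
    rw [hsplit] at h4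
    rw [h4]
    exact (Nat.Coprime.dvd_mul_right (Nat.Coprime.coprime_dvd_right h2 hnd))
  let Y : Finset G := Finset.univ.filter (fun x => n ∣ orderOf x ∧ x ^ a = 1)
  let w : G → ℕ := fun x => (Finset.univ.filter (fun g : G => g ^ k = x)).card
  have hA : Nat.card {g : G // n ∣ orderOf g} = ∑ x ∈ Y, w x := by
    rw [Nat.card_eq_fintype_card, Fintype.card_subtype]
    rw [Finset.card_eq_sum_card_fiberwise (f := fun g => g ^ k) (t := Y)]
    · apply Finset.sum_congr rfl
      intro x hx
      congr 1
      ext g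
      simp only [Finset.mem_filter, Finset.mem_univ, true_and]
      constructor
      · exact fun h => h.2
      · intro h
        refine ⟨?_, h⟩
        rw [hord, h]
        exact (Finset.mem_filter.mp hx).2.1
    · intro g hg
      have hg' : n ∣ orderOf g := by simpa using hg
      simp only [Y, Finset.coe_filter, Finset.mem_univ, true_and, Set.mem_ofPred_eq]
      exact ⟨(hord g).mp hg', hxa g⟩
  rw [hA]
  apply dvd_sum_conj
  · intro c x
    apply Finset.card_bij (fun g _ => c⁻¹ * g * c)
    · intro g hg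
      simp only [Finset.mem_filter, Finset.mem_univ, true_and] at hg ⊢
      have : c⁻¹ * g * c = c⁻¹ * g * c⁻¹⁻¹ := by rw [inv_inv]
      rw [this, conj_pow, hg]
      group
    · intro g₁ _ g₂ _ h
      simpa using h
    · intro g hg
      simp only [Finset.mem_filter, Finset.mem_univ, true_and] at hg ⊢
      refine ⟨c * g * c⁻¹, ?_, by group⟩
      rw [conj_pow, hg]
  · intro c y hy
    simp only [Y, Finset.mem_filter, Finset.mem_univ, true_and] at hy ⊢
    refine ⟨?_, ?_⟩
    · have : orderOf (c * y * c⁻¹) = orderOf y := by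
        have := (MulAut.conj c).orderOf_eq y
        simpa using this
      rw [this]; exact hy.1
    · rw [conj_pow, hy.2]; group
  · intro x hx
    have hx' : x ^ a = 1 := (Finset.mem_filter.mp hx).2.2
    set C := Subgroup.centralizer ({x} : Set G) with hC
    have hw : w x = Nat.card {y : C // y ^ d = 1} := by
      have h1 : w x = Nat.card {g : G // g ^ k = x} := by
        rw [Nat.card_eq_fintype_card, Fintype.card_subtype]
      rw [h1]
      apply Nat.card_congr
      refine ⟨fun g => ⟨⟨g.1 ^ k', ?_⟩, ?_⟩, fun y => ⟨x * y.1.1, ?_⟩, ?_, ?_⟩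
      · rw [hC, Subgroup.mem_centralizer_singleton_iff]
        have := ((Commute.refl g.1).pow_pow k' k).eq
        rwa [g.2] at this
      · apply Subtype.ext
        exact hyd g.1
      · have hy1 : Commute x y.1.1 :=
          (Subgroup.mem_centralizer_singleton_iff.mp y.1.2).symm
        have hy2 : (y.1.1 : G) ^ d = 1 := congrArg Subtype.val y.2
        rw [hy1.mul_pow, pow_eq_of_modEq hx' hk1, pow_eq_of_modEq hy2 hk2]
        simp
      · intro g
        apply Subtype.ext
        change x * g.1 ^ k' = g.1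
        have := hsplit g.1
        rwa [g.2] at this
      · intro y
        apply Subtype.ext
        apply Subtype.ext
        change (x * y.1.1) ^ k' = y.1.1
        have hy1 : Commute x y.1.1 :=
          (Subgroup.mem_centralizer_singleton_iff.mp y.1.2).symm
        have hy2 : (y.1.1 : G) ^ d = 1 := congrArg Subtype.val y.2
        rw [hy1.mul_pow, pow_eq_of_modEq hx' hk1', pow_eq_of_modEq hy2 hk2']
        simp
    rw [hw, card_sol_gcd]
    have hfrob := Cfsg.Agent.S3993.result (G := C) (Nat.gcd d (Nat.card C)) (Nat.gcd_dvd_right _ _)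
    refine Dvd.dvd.trans ?_ (Nat.mul_dvd_mul_left _ hfrob)
    rw [← Nat.gcd_mul_left]
    apply Nat.dvd_gcd (Dvd.intro_left _ rfl)
    rw [mul_comm, Subgroup.card_mul_index, ← hN, ← had]
    exact Dvd.intro_left _ rfl

end Cfsg.Agent.S3994
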