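import Cfsg.Statements.S3995
import Cfsg.Agent.Lib.Helper66.OrderType
import Cfsg.Agent.S0016
import Cfsg.Agent.S0721

set_option autoImplicit false
open Cfsg

namespace Cfsg.Agent.S3995

open Cfsg.Agent.Lib.Helper66

structure Hyp (G : Type*) [Group G] (n : ℕ) : Prop where
  occ : ∀ g : G, nOrd G (orderOf g) = 1 ∨ nOrd G (orderOf g) = n
  ex : ∃ g : G, nOrd G (orderOf g) = n
  ne : n ≠ 1

variable {G : Type*} [Group G] [Finite G] {n : ℕ}

theorem Hyp.big (H : Hyp G n) {m : ℕ} (hm : 2 < m) : nOrd G m = 0 ∨ nOrd G m = n := by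
  by_cases h0 : nOrd G m = 0
  · exact Or.inl h0
  · right
    obtain ⟨g, rfl⟩ := nOrd_ne_zero_iff.mp h0
    rcases H.occ g with h | h
    · have := even_nOrd (G := G) hm
      rw [h] at this
      exact absurd this (by decide)
    · exact h

theorem Hyp.two (H : Hyp G n) : nOrd G 2 = 0 ∨ nOrd G 2 = 1 ∨ nOrd G 2 = n := by
  by_cases h0 : nOrd G 2 = 0
  · exact Or.inl h0
  · right
    obtain ⟨g, hg⟩ := nOrd_ne_zero_iff.mp h0
    have := H.occ g
    rwa [hg] at this

theorem Hyp.n_ne_zero (H : Hyp G n) : n ≠ 0 := by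
  obtain ⟨g, hg⟩ := H.ex
  rw [← hg]
  exact nOrd_ne_zero_iff.mpr ⟨g, rfl⟩

theorem nOrd_prime_ne_zero {p : ℕ} (hp : p.Prime) (hpd : p ∣ Nat.card G) : nOrd G p ≠ 0 := by
  have : Fact p.Prime := ⟨hp⟩
  obtain ⟨g, hg⟩ := exists_prime_orderOf_dvd_card' p hpd
  exact nOrd_ne_zero_iff.mpr ⟨g, hg⟩

theorem Hyp.odd_prime (H : Hyp G n) {p : ℕ} (hp : p.Prime) (hp2 : 2 < p) (hpd : p ∣ Nat.card G) :
    nOrd G p = n ∧ p ∣ n + 1 ∧ Even n := by
  have h1 : nOrd G p = n := by
    rcases H.big hp2 with h | h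
    · exact absurd h (nOrd_prime_ne_zero hp hpd)
    · exact h
  refine ⟨h1, ?_, ?_⟩
  · have := dvd_sum_nOrd (G := G) hpd
    rwa [Nat.Prime.sum_divisors hp, h1, nOrd_one] at this
  · rw [← h1]; exact even_nOrd hp2

theorem dvd_card_of_nOrd_ne_zero {m : ℕ} (h : nOrd G m ≠ 0) : m ∣ Nat.card G := by
  obtain ⟨g, rfl⟩ := nOrd_ne_zero_iff.mp h
  exact orderOf_dvd_natCard g

theorem Hyp.no_sq (H : Hyp G n) {p : ℕ} (hp : p.Prime) (hp2 : 2 < p) (hpd : p ∣ Nat.card G) :
    nOrd G (p ^ 2) = 0 := by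
  obtain ⟨h1, h2, -⟩ := H.odd_prime hp hp2 hpd
  by_contra h0
  have h3 : nOrd G (p ^ 2) = n := by
    rcases H.big (m := p ^ 2) (by nlinarith) with h | h
    · exact absurd h h0
    · exact h
  have h4 := dvd_sum_nOrd (G := G) (dvd_card_of_nOrd_ne_zero h0)
  rw [Nat.sum_divisors_prime_pow hp] at h4
  simp only [Finset.sum_range_succ, Finset.sum_range_zero, pow_zero, pow_one, zero_add, nOrd_one,
    h1, h3] at h4
  have h5 : p ∣ 2 * n + 1 := by
    have : p ∣ 1 + n + n := (dvd_pow_self p two_ne_zero).trans h4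
    have e : 1 + n + n = 2 * n + 1 := by ring
    rwa [e] at this
  exact arith_false (by omega) h2 h5 (Or.inl rfl)

theorem Hyp.only_prime (H : Hyp G n) {p q : ℕ} (hp : p.Prime) (hp2 : 2 < p) (hpd : p ∣ Nat.card G)
    (hq : q.Prime) (hqd : q ∣ Nat.card G) : q = 2 ∨ q = p := by
  by_contra hcon
  push Not at hcon
  have hq2 : 2 < q := lt_of_le_of_ne hq.two_le (Ne.symm hcon.1)
  obtain ⟨h1, h2, -⟩ := H.odd_prime hp hp2 hpd
  obtain ⟨h1', -, -⟩ := H.odd_prime hq hq2 hqd
  have hcop : Nat.Coprime p q := (Nat.coprime_primes hp hq).mpr (Ne.symm hcon.2)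
  have h4 := dvd_sum_nOrd (G := G) (Nat.Coprime.mul_dvd_of_dvd_of_dvd hcop hpd hqd)
  rw [sum_divisors_mul_coprime hcop, Nat.Prime.sum_divisors hp, Nat.Prime.sum_divisors hq,
    Nat.Prime.sum_divisors hq] at h4
  simp only [mul_one, one_mul, nOrd_one, h1, h1'] at h4
  have h5 : p ∣ nOrd G (p * q) + n + (n + 1) := (Dvd.intro _ rfl).trans h4
  rcases H.big (m := p * q) (by nlinarith) with h | h
  · rw [h] at h5
    have e : 0 + n + (n + 1) = 2 * n + 1 := by ring
    rw [e] at h5
    exact arith_false (by omega) h2 h5 (Or.inl rfl)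
  · rw [h] at h5
    have e : n + n + (n + 1) = 3 * n + 1 := by ring
    rw [e] at h5
    exact arith_false (by omega) h2 h5 (Or.inr (Or.inl rfl))

theorem pow_prime_eq_one {p : ℕ} (hsq : nOrd G (p ^ 2) = 0) (g : G)
    (hg : ∃ k, orderOf g = p ^ k) : g ^ p = 1 := by
  obtain ⟨k, hk⟩ := hg
  have hk1 : k ≤ 1 := by
    by_contra hlt
    have : p ^ 2 ∣ orderOf g := by rw [hk]; exact pow_dvd_pow p (by omega)
    exact nOrd_ne_zero_of_dvd this hsq
  rw [← orderOf_dvd_iff_pow_eq_one, hk]
  calc p ^ k ∣ p ^ 1 := pow_dvd_pow p hk1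
    _ = p := pow_one p

theorem exponent_eq_prime {H : Type*} [Group H] [Nontrivial H] {p : ℕ} (hp : p.Prime)
    (h : ∀ g : H, g ^ p = 1) : Monoid.exponent H = p := by
  have h1 : Monoid.exponent H ∣ p := Monoid.exponent_dvd_of_forall_pow_eq_one h
  rcases (Nat.dvd_prime hp).mp h1 with h2 | h2
  · exfalso
    have := Monoid.exp_eq_one_iff.mp h2
    exact not_subsingleton H this
  · exact h2

theorem Hyp.two_eq_one (H : Hyp G n) (hn : Even n) (h2 : 2 ∣ Nat.card G) : nOrd G 2 = 1 := by
  have h3 := dvd_sum_nOrd (G := G) h2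
  rw [Nat.Prime.sum_divisors Nat.prime_two, nOrd_one] at h3
  rcases H.two with h | h | h
  · rw [h] at h3; omega
  · exact h
  · rw [h] at h3
    obtain ⟨c, hc⟩ := hn
    omega

theorem Hyp.not_four (H : Hyp G n) {p : ℕ} (hp : p.Prime) (hp2 : 2 < p) (hpd : p ∣ Nat.card G) :
    ¬ 4 ∣ Nat.card G := by
  intro h4
  obtain ⟨h1, h2, hev⟩ := H.odd_prime hp hp2 hpd
  have h2d : 2 ∣ Nat.card G := (by norm_num : 2 ∣ 4).trans h4
  have hs2 := H.two_eq_one hev h2d
  have hs4 : nOrd G 4 = n := by
    rcases H.big (m := 4) (by norm_num) with h | h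
    · exfalso
      have h5 := dvd_sum_nOrd (G := G) h4
      have e : (4 : ℕ) = 2 ^ 2 := by norm_num
      rw [e, Nat.sum_divisors_prime_pow Nat.prime_two] at h5
      simp only [Finset.sum_range_succ, Finset.sum_range_zero, pow_zero, pow_one, zero_add,
        nOrd_one, hs2] at h5
      norm_num at h5
      rw [h] at h5
      omega
    · exact h
  have hcop : Nat.Coprime 2 p := (Nat.coprime_primes Nat.prime_two hp).mpr (by omega)
  have hs2p : nOrd G (2 * p) = n := by
    rcases H.big (m := 2 * p) (by omega) with h | h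
    · exfalso
      have h5 := dvd_sum_nOrd (G := G) (Nat.Coprime.mul_dvd_of_dvd_of_dvd hcop h2d hpd)
      rw [sum_divisors_mul_coprime hcop, Nat.Prime.sum_divisors Nat.prime_two,
        Nat.Prime.sum_divisors hp, Nat.Prime.sum_divisors hp] at h5
      simp only [mul_one, one_mul, nOrd_one, h1, hs2, h] at h5
      have h6 : p ∣ 0 + 1 + (n + 1) := (Dvd.intro_left _ rfl).trans h5
      have e : 0 + 1 + (n + 1) = 1 * n + 2 := by ring
      rw [e] at h6
      exact arith_false (by omega) h2 h6 (Or.inr (Or.inr rfl))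
    · exact h
  have hcop4 : Nat.Coprime (2 ^ 2) p := Nat.Coprime.pow_left 2 hcop
  have h5 := dvd_sum_nOrd (G := G) (Nat.Coprime.mul_dvd_of_dvd_of_dvd hcop4 (by simpa using h4) hpd)
  rw [sum_divisors_mul_coprime hcop4, Nat.sum_divisors_prime_pow Nat.prime_two] at h5
  simp only [Finset.sum_range_succ, Finset.sum_range_zero, pow_zero, pow_one, zero_add,
    Nat.Prime.sum_divisors hp, mul_one, one_mul, nOrd_one, h1, hs2, hs2p] at h5
  norm_num at h5
  rw [hs4] at h5
  have h6 : p ∣ n + 1 + (n + 1) + (nOrd G (4 * p) + n) := (Dvd.intro_left _ rfl).trans h5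
  rcases H.big (m := 4 * p) (by omega) with h | h
  · rw [h] at h6
    have e : n + 1 + (n + 1) + (0 + n) = 3 * n + 2 := by ring
    rw [e] at h6
    exact arith_false (by omega) h2 h6 (Or.inl rfl)
  · rw [h] at h6
    have e : n + 1 + (n + 1) + (n + n) = 4 * n + 2 := by ring
    rw [e] at h6
    exact arith_false (by omega) h2 h6 (Or.inr (Or.inl rfl))

omit [Finite G] in
theorem eq_of_orderOf_two (h : nOrd G 2 = 1) {x y : G} (hx : orderOf x = 2) (hy : orderOf y = 2) :
    x = y := by
  have := (Nat.card_eq_one_iff_unique.mp h).1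
  exact congrArg Subtype.val (Subsingleton.elim (⟨x, hx⟩ : {g : G // orderOf g = 2}) ⟨y, hy⟩)

theorem Hyp.caseA_even (H : Hyp G n) {p : ℕ} (hp : p.Prime) (hp2 : 2 < p) (hpd : p ∣ Nat.card G)
    (h2d : 2 ∣ Nat.card G) :
    ∃ (p : ℕ) (P : Type) (_ : Group P) (_ : Finite P), p.Prime ∧ p ≠ 2 ∧ IsPGroup p P ∧
      Monoid.exponent P = p ∧ Nonempty (G ≃* Multiplicative (ZMod 2) × P) := by
  have : Fact p.Prime := ⟨hp⟩
  have : Fact (Nat.Prime 2) := ⟨Nat.prime_two⟩
  obtain ⟨h1, h2, hev⟩ := H.odd_prime hp hp2 hpd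
  have hs2 := H.two_eq_one hev h2d
  have h4 := H.not_four hp hp2 hpd
  have hsq := H.no_sq hp hp2 hpd
  let P : Sylow p G := default
  have hcardP : Nat.card (P : Subgroup G) = p ^ (Nat.card G).factorization p := P.card_eq_multiplicity
  have hmul := (P : Subgroup G).card_mul_index
  have hidx : (P : Subgroup G).index = 2 := by
    have hi0 : (P : Subgroup G).index ≠ 0 := Subgroup.index_ne_zero_of_finite
    have hpow : (P : Subgroup G).index = 2 ^ ((P : Subgroup G).index).primeFactorsList.length := by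
      apply Nat.eq_prime_pow_of_unique_prime_dvd hi0
      intro q hq hqd
      rcases H.only_prime hp hp2 hpd hq (hqd.trans (Subgroup.index_dvd_card _)) with h | h
      · exact h
      · exact absurd (h ▸ hqd) P.not_dvd_index
    set k := ((P : Subgroup G).index).primeFactorsList.length
    have hk1 : k ≤ 1 := by
      by_contra hlt
      apply h4
      have h5 : (2 : ℕ) ^ 2 ∣ 2 ^ k := pow_dvd_pow 2 (by omega)
      rw [← hpow] at h5
      exact (by norm_num : (4 : ℕ) = 2 ^ 2) ▸ h5.trans (Subgroup.index_dvd_card _)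
    have hk0 : k ≠ 0 := by
      intro h0
      rw [h0, pow_zero] at hpow
      rw [hpow, mul_one, hcardP] at hmul
      rw [← hmul] at h2d
      have := (Nat.prime_dvd_prime_iff_eq Nat.prime_two hp).mp (Nat.prime_two.dvd_of_dvd_pow h2d)
      omega
    have : k = 1 := by omega
    rw [hpow, this, pow_one]
  obtain ⟨z, hz⟩ := exists_prime_orderOf_dvd_card' 2 h2d
  have hzc : ∀ g : G, g * z = z * g := by
    intro g
    have h5 : orderOf (g * z * g⁻¹) = 2 := by
      have := (MulAut.conj g).orderOf_eq z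
      rw [← hz]
      simpa using this
    have h6 := eq_of_orderOf_two hs2 h5 hz
    calc g * z = (g * z * g⁻¹) * g := by group
      _ = z * g := by rw [h6]
  have hcardM : Nat.card (Subgroup.zpowers z) = 2 := by rw [Nat.card_zpowers, hz]
  have hd : Subgroup.zpowers z ⊓ (P : Subgroup G) = ⊥ := by
    apply disjoint_iff.mp
    apply Subgroup.disjoint_of_coprime_natCard
    rw [hcardM, hcardP]
    exact Nat.Coprime.pow_right _ ((Nat.coprime_primes Nat.prime_two hp).mpr (by omega))
  have hc : ∀ m ∈ Subgroup.zpowers z, ∀ x ∈ (P : Subgroup G), m * x = x * m := by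
    intro m hm x _
    obtain ⟨k, rfl⟩ := Subgroup.mem_zpowers_iff.mp hm
    have : Commute x z := hzc x
    exact (this.zpow_right k).eq.symm
  obtain ⟨e₁⟩ := Cfsg.Agent.S0721.nonempty_prod_equiv_sup _ _ hc hd
  have htop : Subgroup.zpowers z ⊔ (P : Subgroup G) = ⊤ := by
    apply Subgroup.eq_top_of_card_eq
    rw [← Nat.card_congr e₁.toEquiv, Nat.card_prod, hcardM, ← hmul, hidx, mul_comm]
  obtain ⟨P', hP'g, ⟨e₂⟩⟩ := Cfsg.Agent.S0721.exists_small (P : Subgroup G)
  have hfin : Finite P' := Finite.of_equiv _ e₂.symm.toEquiv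
  have hnt : Nontrivial P' := by
    have h5 : 1 < Nat.card P' := by
      rw [Nat.card_congr e₂.toEquiv, hcardP]
      exact Nat.one_lt_pow (hp.factorization_pos_of_dvd Nat.card_pos.ne' hpd).ne' hp.one_lt
    exact Finite.one_lt_card_iff_nontrivial.mp h5
  refine ⟨p, P', hP'g, hfin, hp, by omega, P.isPGroup'.of_equiv e₂.symm, ?_, ?_⟩
  · apply exponent_eq_prime hp
    intro g
    apply e₂.injective
    rw [map_pow, map_one]
    apply Subtype.ext
    rw [Subgroup.coe_pow, Subgroup.coe_one]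
    apply pow_prime_eq_one hsq
    obtain ⟨k, hk⟩ := (IsPGroup.iff_orderOf.mp P.isPGroup') (e₂ g)
    exact ⟨k, by rw [← hk, Subgroup.orderOf_coe]⟩
  · have e₃ : Subgroup.zpowers z ≃* Multiplicative (ZMod 2) :=
      mulEquivOfPrimeCardEq (p := 2) hcardM (by simp [Nat.card_eq_fintype_card])
    have e₄ : (Subgroup.zpowers z ⊔ (P : Subgroup G) : Subgroup G) ≃* G :=
      (MulEquiv.subgroupCongr htop).trans Subgroup.topEquiv
    exact ⟨e₄.symm.trans (e₁.symm.trans (MulEquiv.prodCongr e₃ e₂.symm))⟩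

omit [Group G] in
theorem nontrivial_of_three_le (h : 3 ≤ Nat.card G) : Nontrivial G :=
  Finite.one_lt_card_iff_nontrivial.mp (by omega)

theorem Hyp.caseB (H : Hyp G n) (hG : IsPGroup 2 G) :
    (∃ p : ℕ, p.Prime ∧ IsPGroup p G ∧ 3 ≤ Nat.card G ∧ Monoid.exponent G = p) ∨
      Nonempty (G ≃* QuaternionGroup 2) ∨ (IsCyclic G ∧ Nat.card G = 4) := by
  have : Fact (Nat.Prime 2) := ⟨Nat.prime_two⟩
  by_cases h4 : nOrd G 4 = 0
  · left
    have hsq : nOrd G (2 ^ 2) = 0 := by norm_num; exact h4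
    have hpow : ∀ g : G, g ^ 2 = 1 := fun g => pow_prime_eq_one hsq g (IsPGroup.iff_orderOf.mp hG g)
    have h3 : 3 ≤ Nat.card G := by
      obtain ⟨g₀, hg₀⟩ := H.ex
      have h5 : orderOf g₀ ∣ 2 := orderOf_dvd_of_pow_eq_one (hpow g₀)
      have h6 : nOrd G 2 = n := by
        rcases (Nat.dvd_prime Nat.prime_two).mp h5 with h | h
        · rw [h, nOrd_one] at hg₀
          exact absurd hg₀.symm H.ne
        · rwa [h] at hg₀
      have h7 := sum_nOrd_le (G := G) (d := 2) (by norm_num)
      rw [Nat.Prime.sum_divisors Nat.prime_two, nOrd_one, h6] at h7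
      have := H.ne
      have := H.n_ne_zero
      omega
    have := nontrivial_of_three_le h3
    exact ⟨2, Nat.prime_two, hG, h3, exponent_eq_prime Nat.prime_two hpow⟩
  · right
    have hs4 : nOrd G 4 = n := by
      rcases H.big (m := 4) (by norm_num) with h | h
      · exact absurd h h4
      · exact h
    have hev : Even n := hs4 ▸ even_nOrd (by norm_num)
    have h4d : 4 ∣ Nat.card G := dvd_card_of_nOrd_ne_zero h4
    have h2d : 2 ∣ Nat.card G := (by norm_num : 2 ∣ 4).trans h4d
    have hs2 := H.two_eq_one hev h2d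
    have hs8 : nOrd G 8 = 0 := by
      by_contra h8
      have hs8 : nOrd G 8 = n := by
        rcases H.big (m := 8) (by norm_num) with h | h
        · exact absurd h h8
        · exact h
      have h5 := dvd_sum_nOrd (G := G) (dvd_card_of_nOrd_ne_zero h8)
      have e : (8 : ℕ) = 2 ^ 3 := by norm_num
      rw [e, Nat.sum_divisors_prime_pow Nat.prime_two] at h5
      simp only [Finset.sum_range_succ, Finset.sum_range_zero, pow_zero, pow_one, zero_add,
        nOrd_one, hs2] at h5
      norm_num at h5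
      rw [hs4, hs8] at h5
      obtain ⟨c, hc⟩ := hev
      omega
    have huniq : ∀ A B : Subgroup G, Nat.card A = 2 → Nat.card B = 2 → A = B := by
      have key : ∀ A : Subgroup G, Nat.card A = 2 → ∃ x : G, orderOf x = 2 ∧ A = Subgroup.zpowers x := by
        intro A hA
        obtain ⟨x, hx⟩ := exists_prime_orderOf_dvd_card' (G := A) 2 (by rw [hA])
        rw [← Subgroup.orderOf_coe] at hx
        refine ⟨x, hx, ?_⟩
        refine (Subgroup.eq_of_le_of_card_ge (Subgroup.zpowers_le.mpr x.2) ?_).symm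
        rw [Nat.card_zpowers, hx, hA]
      intro A B hA hB
      obtain ⟨x, hx, rfl⟩ := key A hA
      obtain ⟨y, hy, rfl⟩ := key B hB
      rw [eq_of_orderOf_two hs2 hx hy]
    rcases Cfsg.Agent.S0016.result 2 hG huniq with hcyc | ⟨-, k, ⟨e⟩⟩
    · right
      refine ⟨hcyc, ?_⟩
      obtain ⟨g, hg⟩ := hcyc.exists_generator
      have hord : orderOf g = Nat.card G := orderOf_eq_card_of_forall_mem_zpowers hg
      obtain ⟨a, ha⟩ := IsPGroup.iff_card.mp hG
      have h8 : ¬ 8 ∣ Nat.card G := by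
        intro h8
        rw [← hord] at h8
        exact nOrd_ne_zero_of_dvd h8 hs8
      rw [ha] at h4d h8 ⊢
      have ha2 : 2 ≤ a := by
        have : (2 : ℕ) ^ 2 ∣ 2 ^ a := by norm_num; exact h4d
        exact (Nat.pow_dvd_pow_iff_le_right (by norm_num)).mp this
      have ha3 : a < 3 := by
        by_contra hlt
        apply h8
        have : (2 : ℕ) ^ 3 ∣ 2 ^ a := pow_dvd_pow 2 (by omega)
        norm_num at this
        exact this
      have : a = 2 := by omega
      rw [this]; norm_num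
    · have hord : orderOf (e.symm (QuaternionGroup.a 1)) = 2 * 2 ^ k := by
        rw [MulEquiv.orderOf_eq, QuaternionGroup.orderOf_a_one]
      have hk : k < 2 := by
        by_contra hlt
        have : 8 ∣ orderOf (e.symm (QuaternionGroup.a 1)) := by
          rw [hord]
          have h5 : (2 : ℕ) ^ 2 ∣ 2 ^ k := pow_dvd_pow 2 (by omega)
          have h6 : 2 * (2 : ℕ) ^ 2 ∣ 2 * 2 ^ k := Nat.mul_dvd_mul_left 2 h5
          norm_num at h6
          exact h6
        exact nOrd_ne_zero_of_dvd this hs8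
      interval_cases k
      · right
        rw [pow_zero] at e
        have hc := QuaternionGroup.quaternionGroup_one_isCyclic
        refine ⟨isCyclic_of_surjective e.symm e.symm.surjective, ?_⟩
        rw [Nat.card_congr e.toEquiv, Nat.card_eq_fintype_card, QuaternionGroup.card, mul_one]
      · left
        rw [pow_one] at e
        exact ⟨e⟩

/-- Let G be a finite group such that the numbers of elements of each order that occurs in G (the numbers #{g : o(g) = m}, m ranging over the element orders of G) take exactly two values, 1 and some n ≠ 1. Then either G is a p-group of exponent p and order at least 3 for some prime p, or G is the quaternion group of order 8, or G is cyclic of order 4, or G ≅ Z₂ × P for a p-group P of exponent p with p an odd prime. -/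
theorem result {G : Type*} [Group G] [Finite G] (n : ℕ) (hn : n ≠ 1) (h : ((fun m : ℕ => Nat.card {g : G // orderOf g = m}) '' Set.range (orderOf : G → ℕ)) = {1, n}) :
    (∃ p : ℕ, p.Prime ∧ IsPGroup p G ∧ 3 ≤ Nat.card G ∧ Monoid.exponent G = p) ∨
      Nonempty (G ≃* QuaternionGroup 2) ∨ (IsCyclic G ∧ Nat.card G = 4) ∨
      (∃ (p : ℕ) (P : Type) (_ : Group P) (_ : Finite P), p.Prime ∧ p ≠ 2 ∧ IsPGroup p P ∧ Monoid.exponent P = p ∧
        Nonempty (G ≃* Multiplicative (ZMod 2) × P)) := by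
  have H : Hyp G n := by
    refine ⟨fun g => ?_, ?_, hn⟩
    · have : nOrd G (orderOf g) ∈ ({1, n} : Set ℕ) := by
        rw [← h]
        exact ⟨orderOf g, ⟨g, rfl⟩, rfl⟩
      simpa using this
    · have : n ∈ ((fun m : ℕ => Nat.card {g : G // orderOf g = m}) '' Set.range (orderOf : G → ℕ)) := by
        rw [h]; simp
      obtain ⟨_, ⟨g, rfl⟩, hg⟩ := this
      exact ⟨g, hg⟩
  by_cases hodd : ∃ p : ℕ, p.Prime ∧ 2 < p ∧ p ∣ Nat.card G
  · obtain ⟨p, hp, hp2, hpd⟩ := hodd
    by_cases h2d : 2 ∣ Nat.card G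
    · right; right; right
      exact H.caseA_even hp hp2 hpd h2d
    · left
      have : Fact p.Prime := ⟨hp⟩
      have hG : IsPGroup p G := by
        have : Nat.card G = p ^ (Nat.card G).primeFactorsList.length := by
          apply Nat.eq_prime_pow_of_unique_prime_dvd Nat.card_pos.ne'
          intro q hq hqd
          rcases H.only_prime hp hp2 hpd hq hqd with h | h
          · exact absurd (h ▸ hqd) h2d
          · exact h
        exact IsPGroup.of_card this
      have h3 : 3 ≤ Nat.card G := by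
        have := Nat.le_of_dvd Nat.card_pos hpd
        omega
      have := nontrivial_of_three_le h3
      exact ⟨p, hp, hG, h3, exponent_eq_prime hp
        (fun g => pow_prime_eq_one (H.no_sq hp hp2 hpd) g (IsPGroup.iff_orderOf.mp hG g))⟩
  · have hG : IsPGroup 2 G := by
      have : Nat.card G = 2 ^ (Nat.card G).primeFactorsList.length := by
        apply Nat.eq_prime_pow_of_unique_prime_dvd Nat.card_pos.ne'
        intro q hq hqd
        by_contra hne
        exact hodd ⟨q, hq, lt_of_le_of_ne hq.two_le (Ne.symm hne), hqd⟩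
      exact IsPGroup.of_card this
    rcases H.caseB hG with h | h | h
    · exact Or.inl h
    · exact Or.inr (Or.inl h)
    · exact Or.inr (Or.inr (Or.inl h))

end Cfsg.Agent.S3995
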