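import Cfsg.Statements.S4005
import Cfsg.Agent.Lib.Helper90.Extraspecial

set_option autoImplicit false
set_option linter.unusedSimpArgs false
open Cfsg

namespace Cfsg.Agent.S4005

theorem ring_lemma {R : Type*} [Ring R] (h2 : ∀ r : R, r + r = 0) (x y z : R) (hyz : y * z = 1)
    (hx : x*x + x + 1 = 0) (hy : y*y + y + 1 = 0) (hxy : (x*y)*(x*y) + x*y + 1 = 0)
    (hxz : (x*z)*(x*z) + x*z + 1 = 0) : x = 0 := by
  have hz : z = 1 + y := by
    have h1 : (y*y + y + 1) * z = 0 := by rw [hy, zero_mul]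
    have h3 : (y*y + y + 1) * z = y * (y * z) + y * z + z := by noncomm_ring
    rw [h3, hyz] at h1
    have h4 : z = (y * 1 + 1 + z) + ((1 + y) + (1 + y)) - (1 + y) - ((1 + y) + (1 + y)) := by
      noncomm_ring
    rw [h4, h1, h2]
    have h5 := h2 (1 + y)
    have h6 : -(1 + y) = 1 + y := neg_eq_of_add_eq_zero_left h5
    simp only [zero_add, zero_sub, sub_zero, h6]
  subst hz
  have key : x = (((x*(1+y))*(x*(1+y)) + x*(1+y) + 1) - (x*x + x + 1) - (x*x + x + 1)*y
      - ((x*y)*(x*y) + x*y + 1))*y + x*(y*y + y + 1) + (y*y + y + 1) - ((x*y)*(x*y) + x*y + 1) := by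
    noncomm_ring
  rw [key, hx, hy, hxy, hxz]
  simp

theorem abstract_lemma {G V : Type*} [Group G] [CommGroup V] (h2 : ∀ v : V, v * v = 1)
    (φ : G →* MulAut V) (x y : G)
    (hx : ∀ v, v * φ x v * φ x (φ x v) = 1) (hy : ∀ v, v * φ y v * φ y (φ y v) = 1)
    (hxy : ∀ v, v * φ (x*y) v * φ (x*y) (φ (x*y) v) = 1)
    (hxz : ∀ v, v * φ (x*y⁻¹) v * φ (x*y⁻¹) (φ (x*y⁻¹) v) = 1) (v : V) : v = 1 := by
  let ψ : G → AddMonoid.End (Additive V) := fun g =>
    { toFun := fun v => Additive.ofMul (φ g (Additive.toMul v))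
      map_zero' := by
        show Additive.ofMul (φ g 1) = 0
        rw [map_one]; rfl
      map_add' := by
        intro a b
        show Additive.ofMul (φ g (Additive.toMul a * Additive.toMul b)) = _
        rw [map_mul]; rfl }
  have hψ : ∀ g h, ψ (g * h) = ψ g * ψ h := by
    intro g h
    ext v
    show Additive.ofMul (φ (g * h) (Additive.toMul v)) = Additive.ofMul (φ g (φ h (Additive.toMul v)))
    rw [map_mul]; rfl
  have hψ1 : ψ 1 = 1 := by
    ext v
    show Additive.ofMul (φ 1 (Additive.toMul v)) = v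
    rw [map_one]; rfl
  have hrel : ∀ g, (∀ v, v * φ g v * φ g (φ g v) = 1) → ψ g * ψ g + ψ g + 1 = 0 := by
    intro g hg
    ext v
    have := hg (Additive.toMul v)
    show Additive.ofMul (φ g (φ g (Additive.toMul v)) * φ g (Additive.toMul v) * Additive.toMul v) = 
      Additive.ofMul 1
    rw [← this]
    congr 1
    rw [mul_comm, mul_comm (φ g (φ g (Additive.toMul v))), mul_assoc]
  have h0 := ring_lemma (R := AddMonoid.End (Additive V)) (by
      intro r
      ext v
      show Additive.ofMul (Additive.toMul (r v) * Additive.toMul (r v)) = Additive.ofMul 1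
      rw [h2]) (ψ x) (ψ y) (ψ y⁻¹) (by rw [← hψ, mul_inv_cancel, hψ1]) (hrel x hx) (hrel y hy)
      (by rw [← hψ]; exact hrel _ hxy) (by rw [← hψ]; exact hrel _ hxz)
  have h1 : φ x v = 1 := by
    have := congrArg (fun f => Additive.toMul (f (Additive.ofMul v))) h0
    exact this
  simpa using h1

theorem braid {G : Type*} [Group G] (x y : G) (hx : x * x = 1) (hy : y * y = 1)
    (h : (x * y) ^ 3 = 1) : x * y * x = y * x * y := by
  have hxi : x⁻¹ = x := inv_eq_of_mul_eq_one_right hx
  have hyi : y⁻¹ = y := inv_eq_of_mul_eq_one_right hy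
  have h1 : x * y * x * (y * x * y) = 1 := by
    rw [← h]
    simp only [pow_succ, pow_zero, one_mul, mul_assoc]
  have h2 := eq_inv_of_mul_eq_one_left h1
  rw [h2]
  simp only [mul_inv_rev, hxi, hyi, mul_assoc]

theorem rel_trick {G : Type*} [Group G] (a b c : G) (ha : a * a = 1) (hb : b * b = 1)
    (hc : c * c = 1) (hab : a * b = b * a) (h1 : (a * c) ^ 3 = 1) (h2 : (b * c) ^ 3 = 1)
    (h3 : (a * b * c) ^ 3 = 1) : c = a * b := by
  have hd : (a * b) * (a * b) = 1 := by
    calc (a * b) * (a * b) = a * (b * a) * b := by simp only [mul_assoc]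
      _ = a * (a * b) * b := by rw [hab]
      _ = (a * a) * (b * b) := by simp only [mul_assoc]
      _ = 1 := by rw [ha, hb, one_mul]
  have e1 := braid a c ha hc h1
  have e2 := braid b c hb hc h2
  have e3 := braid (a * b) c hd hc h3
  have haba : a * b * a = b := by rw [hab, mul_assoc, ha, mul_one]
  have key : (a * b) * c * (a * b) = a * b := by
    calc (a * b) * c * (a * b) = (a * b) * c * (b * a) := by rw [hab]
      _ = a * (b * c * b) * a := by simp only [mul_assoc]
      _ = a * (c * b * c) * a := by rw [e2]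
      _ = a * c * (a * a) * b * (a * a) * c * a := by rw [ha]; simp only [mul_assoc, mul_one, one_mul]
      _ = (a * c * a) * (a * b * a) * (a * c * a) := by simp only [mul_assoc]
      _ = (c * a * c) * b * (c * a * c) := by rw [e1, haba]
      _ = c * a * (c * b * c) * a * c := by simp only [mul_assoc]
      _ = c * a * (b * c * b) * a * c := by rw [e2]
      _ = c * ((a * b) * c * (b * a)) * c := by simp only [mul_assoc]
      _ = c * ((a * b) * c * (a * b)) * c := by rw [hab]
      _ = c * (c * (a * b) * c) * c := by rw [e3]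
      _ = (c * c) * (a * b) * (c * c) := by simp only [mul_assoc]
      _ = a * b := by rw [hc, one_mul, mul_one]
  have h4 : c * (a * b) = 1 := by
    have : (a * b) * (c * (a * b)) = (a * b) * 1 := by rw [mul_one, ← mul_assoc, key]
    exact mul_left_cancel this
  calc c = c * ((a * b) * (a * b)) := by rw [hd, mul_one]
    _ = (c * (a * b)) * (a * b) := by simp only [mul_assoc]
    _ = a * b := by rw [h4, one_mul]

theorem comm_of_sq {G : Type*} [Group G] (x y : G) (hx : x * x = 1) (hy : y * y = 1)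
    (hxy : (x * y) * (x * y) = 1) : x * y = y * x := by
  calc x * y = x * ((x * y) * (x * y)) * y := by rw [hxy, mul_one]
    _ = (x * x) * (y * x) * (y * y) := by simp only [mul_assoc]
    _ = y * x := by rw [hx, hy, one_mul, mul_one]

theorem caseB {G : Type*} [Group G] [Finite G] (hord : ∀ g : G, g * g = 1 ∨ g ^ 3 = 1)
    (hP : ∀ x g : G, x * x = 1 → x ≠ 1 → x * g = g * x → g * g = 1) (u : G) (hu3 : u ^ 3 = 1)
    (hu2 : u * u ≠ 1) (a b : G) (ha : a * a = 1) (hb : b * b = 1) (ha1 : a ≠ 1) (hb1 : b ≠ 1)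
    (hab : a ≠ b) (hc : a * b = b * a) :
    ∃ N : Subgroup G, N.Normal ∧ Cfsg.IsElementaryAbelian 2 N ∧ N.index = 3 := by
  have hd : (a * b) * (a * b) = 1 := by
    calc (a * b) * (a * b) = a * (b * a) * b := by simp only [mul_assoc]
      _ = a * (a * b) * b := by rw [hc]
      _ = (a * a) * (b * b) := by simp only [mul_assoc]
      _ = 1 := by rw [ha, hb, one_mul]
  have hd1 : a * b ≠ 1 := by
    intro h
    apply hab
    calc a = a * (b * b) := by rw [hb, mul_one]
      _ = (a * b) * b := by rw [mul_assoc]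
      _ = b := by rw [h, one_mul]
  have had : a * (a * b) = (a * b) * a := by rw [mul_assoc, ← hc]
  have hall : ∀ c : G, c * c = 1 → a * c = c * a := by
    intro c hc2
    by_contra hne
    have h1 : (a * c) ^ 3 = 1 := (hord (a * c)).resolve_left (fun h => hne (comm_of_sq a c ha hc2 h))
    have aux : ∀ d : G, d * d = 1 → d ≠ 1 → a * d = d * a → (d * c) ^ 3 = 1 := by
      intro d hd hd1 had
      refine (hord (d * c)).resolve_left (fun h => hne ?_)
      have hdc : d * c = c * d := comm_of_sq d c hd hc2 h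
      have h5 : d * (a * c) = (a * c) * d := by rw [← mul_assoc, ← had, mul_assoc, hdc, mul_assoc]
      exact comm_of_sq a c ha hc2 (hP d (a * c) hd hd1 h5)
    have h2 := aux b hb hb1 hc
    have h3 := aux (a * b) hd hd1 had
    have h4 := rel_trick a b c ha hb hc2 hc h1 h2 h3
    rw [h4] at hne
    exact hne had
  let T : Subgroup G := Subgroup.centralizer {a}
  have hT : ∀ g : G, g ∈ T ↔ g * g = 1 := by
    intro g
    constructor
    · intro hg
      exact hP a g ha ha1 (Subgroup.mem_centralizer_singleton_iff.1 hg).symm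
    · intro hg
      exact Subgroup.mem_centralizer_singleton_iff.2 (hall g hg).symm
  have hTn : T.Normal := by
    constructor
    intro n hn g
    rw [hT] at hn ⊢
    calc g * n * g⁻¹ * (g * n * g⁻¹) = g * (n * n) * g⁻¹ := by group
      _ = 1 := by rw [hn]; group
  have hTc : ∀ x y : T, x * y = y * x := by
    rintro ⟨x, hx⟩ ⟨y, hy⟩
    apply Subtype.ext
    exact comm_of_sq x y ((hT x).1 hx) ((hT y).1 hy) ((hT _).1 (T.mul_mem hx hy))
  refine ⟨T, hTn, ⟨⟨⟨hTc⟩⟩, fun x hx => by rw [pow_two]; exact (hT x).1 hx⟩, ?_⟩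
  letI : CommGroup T := { (inferInstance : Group T) with mul_comm := hTc }
  have hrel : ∀ g : G, g ∉ T → ∀ v : T, v * MulAut.conjNormal g v *
      MulAut.conjNormal g (MulAut.conjNormal g v) = 1 := by
    intro g hg v
    have hg3 : g ^ 3 = 1 := (hord g).resolve_left (fun h => hg ((hT g).2 h))
    by_contra hw
    set w : T := v * MulAut.conjNormal g v * MulAut.conjNormal g (MulAut.conjNormal g v) with hwdef
    have h3 : MulAut.conjNormal g (MulAut.conjNormal g (MulAut.conjNormal g v)) = v := by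
      apply Subtype.ext
      simp only [MulAut.conjNormal_apply]
      calc g * (g * (g * (v : G) * g⁻¹) * g⁻¹) * g⁻¹ = g ^ 3 * v * (g ^ 3)⁻¹ := by
            simp only [pow_succ, pow_zero, one_mul, mul_inv_rev, mul_assoc]
        _ = v := by rw [hg3]; simp
    have h4 : MulAut.conjNormal g w = w := by
      rw [hwdef, map_mul, map_mul, h3]
      rw [mul_comm, mul_assoc]
    have h5 : g * (w : G) * g⁻¹ = w := by
      rw [← MulAut.conjNormal_apply, h4]
    have h6 : (w : G) * g = g * w := by
      calc (w : G) * g = (g * w * g⁻¹) * g := by rw [h5]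
        _ = g * w := by group
    exact hg ((hT g).2 (hP w g ((hT _).1 w.2) (fun h => hw (Subtype.ext h)) h6))
  have huT : u ∉ T := fun h => hu2 ((hT u).1 h)
  have hcos : ∀ y : G, y ∉ T → y * u ∈ T ∨ y * u⁻¹ ∈ T := by
    intro y hy
    by_contra hcon
    push Not at hcon
    have := abstract_lemma (V := T) (fun v => Subtype.ext ((hT _).1 v.2)) MulAut.conjNormal y u
      (hrel y hy) (hrel u huT) (hrel _ hcon.1) (hrel _ hcon.2) ⟨a, (hT a).2 ha⟩
    exact ha1 (congrArg Subtype.val this)
  rw [Subgroup.index_eq_card]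
  have hgen : ∀ q : G ⧸ T, q ∈ Subgroup.zpowers (u : G ⧸ T) := by
    intro q
    induction q using QuotientGroup.induction_on with
    | H y =>
      by_cases hy : y ∈ T
      · rw [(QuotientGroup.eq_one_iff y).2 hy]
        exact Subgroup.one_mem _
      · rcases hcos y hy with h | h
        · have h1 : (y : G ⧸ T) * (u : G ⧸ T) = 1 := by
            rw [← QuotientGroup.mk_mul]; exact (QuotientGroup.eq_one_iff _).2 h
          rw [eq_inv_of_mul_eq_one_left h1]
          exact Subgroup.inv_mem _ (Subgroup.mem_zpowers _)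
        · have h1 : (y : G ⧸ T) * (u : G ⧸ T)⁻¹ = 1 := by
            rw [← QuotientGroup.mk_inv, ← QuotientGroup.mk_mul]
            exact (QuotientGroup.eq_one_iff _).2 h
          rw [mul_inv_eq_one.1 h1]
          exact Subgroup.mem_zpowers _
  rw [← orderOf_eq_card_of_forall_mem_zpowers hgen]
  have : Fact (Nat.Prime 3) := ⟨Nat.prime_three⟩
  apply orderOf_eq_prime
  · rw [← QuotientGroup.mk_pow, hu3]; rfl
  · rw [Ne, QuotientGroup.eq_one_iff]; exact huT

theorem caseA {G : Type*} [Group G] [Finite G] (hord : ∀ g : G, g * g = 1 ∨ g ^ 3 = 1)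
    (hP : ∀ x g : G, x * x = 1 → x ≠ 1 → x * g = g * x → g * g = 1) (t : G) (ht2 : t * t = 1)
    (ht1 : t ≠ 1)
    (hA : ∀ a b : G, a * a = 1 → b * b = 1 → a ≠ 1 → b ≠ 1 → a * b = b * a → a = b) :
    ∃ N : Subgroup G, N.Normal ∧ Cfsg.IsElementaryAbelian 3 N ∧ N.index = 2 := by
  have : Fact (Nat.Prime 2) := ⟨Nat.prime_two⟩
  have hot : orderOf t = 2 := orderOf_eq_prime (by rw [pow_two, ht2]) ht1
  have hz : IsPGroup 2 (Subgroup.zpowers t) := by
    apply IsPGroup.of_card (n := 1)
    rw [Nat.card_zpowers, hot, pow_one]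
  obtain ⟨P, hPt⟩ := hz.exists_le_sylow
  have htP : t ∈ (P : Subgroup G) := hPt (Subgroup.mem_zpowers t)
  have hP2 : ∀ x ∈ (P : Subgroup G), x * x = 1 := by
    intro x hx
    rcases hord x with h | h
    · exact h
    · obtain ⟨k, hk⟩ := P.2 ⟨x, hx⟩
      have hk' : x ^ 2 ^ k = 1 := by simpa using congrArg Subtype.val hk
      have h1 : orderOf x ∣ Nat.gcd (2 ^ k) 3 :=
        Nat.dvd_gcd (orderOf_dvd_of_pow_eq_one hk') (orderOf_dvd_of_pow_eq_one h)
      have h2 : Nat.gcd (2 ^ k) 3 = 1 := Nat.Coprime.pow_left k (by norm_num)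
      rw [h2, Nat.dvd_one, orderOf_eq_one_iff] at h1
      rw [h1, one_mul]
  have hPe : ∀ x ∈ (P : Subgroup G), x = 1 ∨ x = t := by
    intro x hx
    by_cases hx1 : x = 1
    · exact Or.inl hx1
    · right
      exact hA x t (hP2 x hx) ht2 hx1 ht1
        (comm_of_sq x t (hP2 x hx) ht2 (hP2 _ (Subgroup.mul_mem _ hx htP)))
  have hNC : Subgroup.normalizer ((P : Subgroup G) : Set G) ≤
      Subgroup.centralizer ((P : Subgroup G) : Set G) := by
    intro g hg
    rw [Subgroup.mem_centralizer_iff]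
    intro x hx
    rcases hPe x hx with rfl | rfl
    · simp
    · have h1 : g * x * g⁻¹ ∈ (P : Subgroup G) := (Subgroup.mem_normalizer_iff.1 hg x).1 hx
      rcases hPe _ h1 with h2 | h2
      · exfalso
        apply ht1
        have : x = g⁻¹ * (g * x * g⁻¹) * g := by group
        rw [this, h2]; group
      · calc x * g = (g * x * g⁻¹) * g := by rw [h2]
          _ = g * x := by group
  have hcomp := MonoidHom.ker_transferSylow_isComplement' P hNC
  set K : Subgroup G := (MonoidHom.transferSylow P hNC).ker with hK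
  have hKn : K.Normal := by rw [hK]; infer_instance
  have hcardP : Nat.card (P : Subgroup G) = 2 := by
    have : (P : Subgroup G) = Subgroup.zpowers t := by
      apply le_antisymm _ hPt
      intro x hx
      rcases hPe x hx with rfl | rfl
      · exact Subgroup.one_mem _
      · exact Subgroup.mem_zpowers _
    rw [this, Nat.card_zpowers, hot]
  have hKi : K.index = 2 := by rw [hcomp.symm.index_eq_card, hcardP]
  have hKodd : Nat.Coprime 2 (Nat.card K) := by
    have := P.card_coprime_index
    rwa [hcardP, hcomp.index_eq_card] at this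
  have hK1 : ∀ k ∈ K, k * k = 1 → k = 1 := by
    intro k hk hk2
    have h1 : orderOf (⟨k, hk⟩ : K) ∣ 2 := orderOf_dvd_of_pow_eq_one (by
      apply Subtype.ext
      simp [pow_two, hk2])
    have h2 : orderOf (⟨k, hk⟩ : K) ∣ Nat.card K := orderOf_dvd_natCard _
    have h3 := Nat.dvd_gcd h1 h2
    rw [hKodd, Nat.dvd_one, orderOf_eq_one_iff] at h3
    exact congrArg Subtype.val h3
  have hK3 : ∀ k ∈ K, k ^ 3 = 1 := by
    intro k hk
    rcases hord k with h | h
    · rw [hK1 k hk h, one_pow]
    · exact h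
  have hinv := Cfsg.Agent.Lib.Helper90.inverts_of_fixedPointFree K t ht2
    (fun k hk => hKn.conj_mem k hk t) (fun k hk h => hK1 k hk (hP t k ht2 ht1 h))
  refine ⟨K, hKn, ⟨⟨⟨?_⟩⟩, hK3⟩, hKi⟩
  rintro ⟨k, hk⟩ ⟨l, hl⟩
  apply Subtype.ext
  show k * l = l * k
  have h1 := hinv (k * l) (K.mul_mem hk hl)
  have h2 : t * (k * l) * t⁻¹ = (t * k * t⁻¹) * (t * l * t⁻¹) := by group
  rw [h2, hinv k hk, hinv l hl] at h1
  have h3 : (l * k)⁻¹ = (k * l)⁻¹ := by rw [← h1]; group
  exact (inv_injective h3).symm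

/-- A finite group whose set of element orders is exactly {1, 2, 3} has either a normal elementary abelian 3-subgroup of index 2 or a normal elementary abelian 2-subgroup of index 3. -/
theorem result {G : Type*} [Group G] [Finite G] (h : Set.range (orderOf : G → ℕ) = {k : ℕ | 1 ≤ k ∧ k ≤ 3}) :
    (∃ N : Subgroup G, N.Normal ∧ Cfsg.IsElementaryAbelian 3 N ∧ N.index = 2) ∨
      (∃ N : Subgroup G, N.Normal ∧ Cfsg.IsElementaryAbelian 2 N ∧ N.index = 3) := by
  have hord : ∀ g : G, g * g = 1 ∨ g ^ 3 = 1 := by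
    intro g
    have h1 : orderOf g ∈ {k : ℕ | 1 ≤ k ∧ k ≤ 3} := h ▸ Set.mem_range_self g
    obtain ⟨h1, h2⟩ := h1
    have h3 := pow_orderOf_eq_one g
    have h4 : orderOf g = 1 ∨ orderOf g = 2 ∨ orderOf g = 3 := by omega
    rcases h4 with h4 | h4 | h4
    · left
      rw [h4, pow_one] at h3
      rw [h3, one_mul]
    · left
      rw [h4, pow_two] at h3
      exact h3
    · right
      rw [h4] at h3
      exact h3
  obtain ⟨t, ht⟩ : ∃ t : G, orderOf t = 2 := by
    have : (2 : ℕ) ∈ Set.range (orderOf : G → ℕ) := by rw [h]; exact ⟨by norm_num, by norm_num⟩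
    exact this
  obtain ⟨u, hu⟩ : ∃ u : G, orderOf u = 3 := by
    have : (3 : ℕ) ∈ Set.range (orderOf : G → ℕ) := by rw [h]; exact ⟨by norm_num, by norm_num⟩
    exact this
  have ht2 : t * t = 1 := by rw [← pow_two, ← ht]; exact pow_orderOf_eq_one t
  have ht1 : t ≠ 1 := by
    rintro rfl
    simp at ht
  have hu3 : u ^ 3 = 1 := by rw [← hu]; exact pow_orderOf_eq_one u
  have hu2 : u * u ≠ 1 := by
    intro h2
    have := orderOf_dvd_of_pow_eq_one (show u ^ 2 = 1 by rw [pow_two, h2])
    rw [hu] at this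
    omega
  -- an element commuting with an involution has square one
  have hP : ∀ x g : G, x * x = 1 → x ≠ 1 → x * g = g * x → g * g = 1 := by
    intro x g hx hx1 hxg
    rcases hord g with hg | hg
    · exact hg
    · have hc : Commute x g := hxg
      rcases hord (x * g) with h1 | h1
      · rw [← pow_two, hc.mul_pow, pow_two, hx, one_mul, pow_two] at h1
        exact h1
      · rw [hc.mul_pow, hg, mul_one, pow_succ, pow_two, hx, one_mul] at h1
        exact absurd h1 hx1
  by_cases hB : ∃ a b : G, a * a = 1 ∧ b * b = 1 ∧ a ≠ 1 ∧ b ≠ 1 ∧ a ≠ b ∧ a * b = b * a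
  · obtain ⟨a, b, ha, hb, ha1, hb1, hab, hc⟩ := hB
    exact Or.inr (caseB hord hP u hu3 hu2 a b ha hb ha1 hb1 hab hc)
  · refine Or.inl (caseA hord hP t ht2 ht1 ?_)
    intro a b ha hb ha1 hb1 hc
    by_contra hab
    exact hB ⟨a, b, ha, hb, ha1, hb1, hab, hc⟩

end Cfsg.Agent.S4005
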