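import Cfsg.Statements.S4198
import Mathlib

set_option autoImplicit false
open Cfsg

namespace Cfsg.Agent.S4198

open Equiv Equiv.Perm

/-- a chosen element of a nonzero multiset -/
noncomputable def pick (m : Multiset ℕ) : ℕ := by
  classical exact if h : m = 0 then 0 else (Multiset.exists_mem_of_ne_zero h).choose

theorem pick_mem {m : Multiset ℕ} (h : m ≠ 0) : pick m ∈ m := by
  unfold pick
  rw [dif_neg h]
  exact (Multiset.exists_mem_of_ne_zero h).choose_spec

theorem eq_zero_of_small {m : Multiset ℕ} (h2 : ∀ x ∈ m, 2 ≤ x) (hs : m.sum ≤ 1) : m = 0 := by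
  by_contra h
  have h1 := pick_mem h
  have h3 := Multiset.single_le_sum (fun x _ => Nat.zero_le x) _ h1
  have := h2 _ h1
  omega

theorem card_le_fib : ∀ (n : ℕ) (T : Finset (Multiset ℕ)),
    (∀ m ∈ T, (∀ x ∈ m, 2 ≤ x) ∧ m.sum ≤ n) → T.card ≤ Nat.fib (n + 1) := by
  intro n
  induction n using Nat.twoStepInduction with
  | zero =>
    intro T hT
    have : T ⊆ {0} := by
      intro m hm
      rw [Finset.mem_singleton]
      exact eq_zero_of_small (hT m hm).1 (by have := (hT m hm).2; omega)
    simpa using Finset.card_le_card this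
  | one =>
    intro T hT
    have : T ⊆ {0} := by
      intro m hm
      rw [Finset.mem_singleton]
      exact eq_zero_of_small (hT m hm).1 (hT m hm).2
    simpa using Finset.card_le_card this
  | more n ih0 ih1 =>
    intro T hT
    classical
    have h1 := ih1 (T.filter (fun m => m.sum ≤ n + 1)) (by
      intro m hm
      rw [Finset.mem_filter] at hm
      exact ⟨(hT m hm.1).1, hm.2⟩)
    have hinj : Set.InjOn (fun m : Multiset ℕ => m.erase (pick m))
        (T.filter (fun m => ¬ m.sum ≤ n + 1) : Finset (Multiset ℕ)) := by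
      intro m hm m' hm' h
      simp only [Finset.coe_filter, Set.mem_ofPred_eq] at hm hm'
      have hs : m.sum = n + 2 := by have := (hT m hm.1).2; omega
      have hs' : m'.sum = n + 2 := by have := (hT m' hm'.1).2; omega
      have hne : m ≠ 0 := by rintro rfl; simp at hs
      have hne' : m' ≠ 0 := by rintro rfl; simp at hs'
      have e := Multiset.cons_erase (pick_mem hne)
      have e' := Multiset.cons_erase (pick_mem hne')
      have s := congrArg Multiset.sum e
      have s' := congrArg Multiset.sum e'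
      rw [Multiset.sum_cons] at s s'
      simp only at h
      rw [h] at s
      have hp : pick m = pick m' := by omega
      rw [← e, ← e', h, hp]
    have h0 := ih0 ((T.filter (fun m => ¬ m.sum ≤ n + 1)).image (fun m => m.erase (pick m))) (by
      intro m' hm'
      rw [Finset.mem_image] at hm'
      obtain ⟨m, hm, rfl⟩ := hm'
      rw [Finset.mem_filter] at hm
      have hs : m.sum = n + 2 := by have := (hT m hm.1).2; omega
      have hne : m ≠ 0 := by rintro rfl; simp at hs
      have e := Multiset.cons_erase (pick_mem hne)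
      have s := congrArg Multiset.sum e
      rw [Multiset.sum_cons] at s
      have := (hT m hm.1).1 _ (pick_mem hne)
      exact ⟨fun x hx => (hT m hm.1).1 x (Multiset.mem_of_mem_erase hx), by omega⟩)
    rw [Finset.card_image_of_injOn hinj] at h0
    have := Finset.card_filter_add_card_filter_not (s := T) (fun m => m.sum ≤ n + 1)
    have hf : Nat.fib (n + 2 + 1) = Nat.fib (n + 1) + Nat.fib (n + 1 + 1) := Nat.fib_add_two
    omega

theorem fib_le_pow : ∀ k : ℕ, Nat.fib (k + 6) ≤ 2 ^ (k + 3) ∧ Nat.fib (k + 7) ≤ 2 ^ (k + 4) := by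
  intro k
  induction k with
  | zero => exact ⟨by decide, by decide⟩
  | succ k ih =>
    refine ⟨ih.2, ?_⟩
    have : Nat.fib (k + 1 + 7) = Nat.fib (k + 6) + Nat.fib (k + 7) := Nat.fib_add_two
    rw [this]
    have h1 : 2 ^ (k + 1 + 4) = 2 * 2 ^ (k + 4) := by ring
    have h2 : 2 ^ (k + 4) = 2 * 2 ^ (k + 3) := by ring
    omega

variable {n : ℕ}

/-- cycle type of a class of the symmetric group -/
def ctS (n : ℕ) : ConjClasses (Perm (Fin n)) → Multiset ℕ :=
  Quotient.lift (fun σ : Perm (Fin n) => σ.cycleType) (fun _ _ h => isConj_iff_cycleType_eq.1 h)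

theorem ctS_injective : Function.Injective (ctS n) := by
  intro a b
  induction a using Quotient.inductionOn
  induction b using Quotient.inductionOn
  rename_i a b
  intro h
  exact Quotient.sound (isConj_iff_cycleType_eq.2 h)

theorem isConj_coe {a b : alternatingGroup (Fin n)} (h : IsConj a b) :
    IsConj (a : Perm (Fin n)) (b : Perm (Fin n)) := by
  obtain ⟨c, hc⟩ := isConj_iff.1 h
  exact isConj_iff.2 ⟨c, by rw [← hc]; rfl⟩

/-- cycle type of a class of the alternating group -/
def ctA (n : ℕ) : ConjClasses (alternatingGroup (Fin n)) → Multiset ℕ :=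
  Quotient.lift (fun σ : alternatingGroup (Fin n) => (σ : Perm (Fin n)).cycleType)
    (fun _ _ h => isConj_iff_cycleType_eq.1 (isConj_coe h))

/-- sign attached to a cycle type -/
def sgn (m : Multiset ℕ) : ℤˣ := (m.map fun k => -(-1 : ℤˣ) ^ k).prod

/-- the cycle types of splitting classes -/
def Sp (n : ℕ) (m : Multiset ℕ) : Prop :=
  (∀ c ∈ m, Odd c) ∧ n ≤ m.sum + 1 ∧ ∀ i, m.count i ≤ 1

theorem sgn_ctA (x : ConjClasses (alternatingGroup (Fin n))) : sgn (ctA n x) = 1 := by
  induction x using Quotient.inductionOn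
  rename_i σ
  show sgn (σ : Perm (Fin n)).cycleType = 1
  unfold sgn
  rw [← sign_of_cycleType']
  exact σ.2

theorem mul_mem_alt {g h : Perm (Fin n)} (hg : g ∉ alternatingGroup (Fin n))
    (hh : h ∉ alternatingGroup (Fin n)) : g * h ∈ alternatingGroup (Fin n) := by
  rw [mem_alternatingGroup] at *
  rw [Perm.sign_mul]
  rcases Int.units_eq_one_or (sign g) with h1 | h1
  · exact absurd h1 hg
  rcases Int.units_eq_one_or (sign h) with h2 | h2
  · exact absurd h2 hh
  rw [h1, h2]; rfl

theorem inv_notMem_alt {g : Perm (Fin n)} (hg : g ∉ alternatingGroup (Fin n)) :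
    g⁻¹ ∉ alternatingGroup (Fin n) := fun h => hg (by simpa using inv_mem h)

theorem fibre_le_two [Fintype (ConjClasses (alternatingGroup (Fin n)))] [DecidableEq (Multiset ℕ)] (m : Multiset ℕ) :
    (Finset.univ.filter (fun x => ctA n x = m)).card ≤ 2 := by
  by_contra hcon
  push Not at hcon
  obtain ⟨a, b, c, ha, hb, hc, hab, hac, hbc⟩ := Finset.two_lt_card_iff.1 hcon
  simp only [Finset.mem_filter, Finset.mem_univ, true_and] at ha hb hc
  obtain ⟨σ, rfl⟩ := ConjClasses.exists_rep a
  obtain ⟨τ, rfl⟩ := ConjClasses.exists_rep b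
  obtain ⟨ρ, rfl⟩ := ConjClasses.exists_rep c
  have h1 : IsConj (σ : Perm (Fin n)) (τ : Perm (Fin n)) := isConj_iff_cycleType_eq.2 (ha.trans hb.symm)
  have h2 : IsConj (σ : Perm (Fin n)) (ρ : Perm (Fin n)) := isConj_iff_cycleType_eq.2 (ha.trans hc.symm)
  obtain ⟨g, hg⟩ := isConj_iff.1 h1
  obtain ⟨h, hh⟩ := isConj_iff.1 h2
  by_cases hgA : g ∈ alternatingGroup (Fin n)
  · exact hab (ConjClasses.mk_eq_mk_iff_isConj.2 (isConj_iff.2 ⟨⟨g, hgA⟩, Subtype.ext hg⟩))
  by_cases hhA : h ∈ alternatingGroup (Fin n)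
  · exact hac (ConjClasses.mk_eq_mk_iff_isConj.2 (isConj_iff.2 ⟨⟨h, hhA⟩, Subtype.ext hh⟩))
  refine hbc (ConjClasses.mk_eq_mk_iff_isConj.2 (isConj_iff.2 ⟨⟨h * g⁻¹, mul_mem_alt hhA (inv_notMem_alt hgA)⟩, Subtype.ext ?_⟩))
  show h * g⁻¹ * τ * (h * g⁻¹)⁻¹ = ρ
  rw [← hg, ← hh]; group

theorem fibre_le_one [Fintype (ConjClasses (alternatingGroup (Fin n)))] [DecidableEq (Multiset ℕ)] (m : Multiset ℕ)
    (hm : ¬ Sp n m) : (Finset.univ.filter (fun x => ctA n x = m)).card ≤ 1 := by
  rw [Finset.card_le_one]
  intro a ha b hb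
  simp only [Finset.mem_filter, Finset.mem_univ, true_and] at ha hb
  obtain ⟨σ, rfl⟩ := ConjClasses.exists_rep a
  obtain ⟨τ, rfl⟩ := ConjClasses.exists_rep b
  have h1 : IsConj (σ : Perm (Fin n)) (τ : Perm (Fin n)) := isConj_iff_cycleType_eq.2 (ha.trans hb.symm)
  obtain ⟨g, hg⟩ := isConj_iff.1 h1
  by_cases hgA : g ∈ alternatingGroup (Fin n)
  · exact ConjClasses.mk_eq_mk_iff_isConj.2 (isConj_iff.2 ⟨⟨g, hgA⟩, Subtype.ext hg⟩)
  have hcen : ¬ Subgroup.centralizer {(σ : Perm (Fin n))} ≤ alternatingGroup (Fin n) := by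
    intro h
    rw [centralizer_le_alternating_iff] at h
    apply hm
    have ha' : (σ : Perm (Fin n)).cycleType = m := ha
    rw [ha', Fintype.card_fin] at h
    exact h
  obtain ⟨z, hz, hzA⟩ := SetLike.not_le_iff_exists.1 hcen
  rw [Subgroup.mem_centralizer_singleton_iff] at hz
  refine ConjClasses.mk_eq_mk_iff_isConj.2 (isConj_iff.2 ⟨⟨g * z, mul_mem_alt hgA hzA⟩, Subtype.ext ?_⟩)
  show g * z * σ * (g * z)⁻¹ = τ
  rw [← hg, mul_assoc g z, hz]; group


/-- replace a chosen (odd) part by its predecessor -/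
noncomputable def theta (m : Multiset ℕ) : Multiset ℕ := (pick m - 1) ::ₘ m.erase (pick m)

theorem Sp.ne_zero (hn : 5 ≤ n) {m : Multiset ℕ} (h : Sp n m) : m ≠ 0 := by
  rintro rfl
  have := h.2.1
  simp at this
  omega

theorem sgn_theta (hn : 5 ≤ n) {m : Multiset ℕ} (h : Sp n m) : sgn (theta m) = -1 := by
  have hne := h.ne_zero hn
  have ha := h.1 _ (pick_mem hne)
  unfold sgn theta
  rw [Multiset.map_cons, Multiset.prod_cons]
  have h1 : ((m.erase (pick m)).map fun k => -(-1 : ℤˣ) ^ k).prod = 1 := by
    apply Multiset.prod_eq_one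
    intro x hx
    rw [Multiset.mem_map] at hx
    obtain ⟨c, hc, rfl⟩ := hx
    rw [(h.1 c (Multiset.mem_of_mem_erase hc)).neg_one_pow, neg_neg]
  have h2 : Even (pick m - 1) := by
    obtain ⟨k, hk⟩ := ha
    exact ⟨k, by omega⟩
  rw [h1, h2.neg_one_pow, mul_one]

theorem theta_injOn (hn : 5 ≤ n) {m m' : Multiset ℕ} (h : Sp n m) (h' : Sp n m')
    (e : theta m = theta m') : m = m' := by
  have hne := h.ne_zero hn
  have hne' := h'.ne_zero hn
  have ha := h.1 _ (pick_mem hne)
  have ha' := h'.1 _ (pick_mem hne')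
  have h1 : pick m - 1 ∈ theta m' := by rw [← e]; exact Multiset.mem_cons_self _ _
  unfold theta at h1
  rw [Multiset.mem_cons] at h1
  have hp : pick m = pick m' := by
    rcases h1 with h1 | h1
    · obtain ⟨k, hk⟩ := ha
      obtain ⟨k', hk'⟩ := ha'
      omega
    · have := h'.1 _ (Multiset.mem_of_mem_erase h1)
      obtain ⟨k, hk⟩ := ha
      obtain ⟨k', hk'⟩ := this
      omega
  unfold theta at e
  rw [hp] at e
  have e2 := (Multiset.cons_inj_right _).1 e
  have e3 := Multiset.cons_erase (pick_mem hne)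
  have e4 := Multiset.cons_erase (pick_mem hne')
  rw [hp, e2] at e3
  exact e3.symm.trans e4

/-- For n ≥ 5 the alternating group of degree n has strictly fewer conjugacy classes than the symmetric group of degree n, and the symmetric group of degree n (whose classes correspond to the partitions of n) has at most 2^(n−2) conjugacy classes. -/
theorem result (n : ℕ) (hn : 5 ≤ n) : Nat.card (ConjClasses (alternatingGroup (Fin n))) < Nat.card (ConjClasses (Equiv.Perm (Fin n))) ∧ Nat.card (ConjClasses (Equiv.Perm (Fin n))) ≤ 2 ^ (n - 2) := by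
  classical
  have : Fintype (ConjClasses (alternatingGroup (Fin n))) := Fintype.ofFinite _
  have : Fintype (ConjClasses (Perm (Fin n))) := Fintype.ofFinite _
  let CT : Finset (Multiset ℕ) := Finset.univ.image (ctS n)
  have hCT : ∀ m, m ∈ CT ↔ (m.sum ≤ n ∧ ∀ a ∈ m, 2 ≤ a) := by
    intro m
    have h1 := exists_with_cycleType_iff (Fin n) (m := m)
    rw [Fintype.card_fin] at h1
    rw [← h1]
    simp only [CT, Finset.mem_image, Finset.mem_univ, true_and]
    constructor
    · rintro ⟨x, rfl⟩
      obtain ⟨σ, rfl⟩ := ConjClasses.exists_rep x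
      exact ⟨σ, rfl⟩
    · rintro ⟨σ, rfl⟩
      exact ⟨ConjClasses.mk σ, rfl⟩
  have hkS : Nat.card (ConjClasses (Perm (Fin n))) = CT.card := by
    rw [Nat.card_eq_fintype_card, Finset.card_image_of_injective _ ctS_injective, Finset.card_univ]
  constructor
  · have hkA : Nat.card (ConjClasses (alternatingGroup (Fin n))) =
        ∑ m ∈ CT, (Finset.univ.filter (fun x => ctA n x = m)).card := by
      rw [Nat.card_eq_fintype_card, ← Finset.card_univ]
      apply Finset.card_eq_sum_card_fiberwise
      intro x _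
      obtain ⟨σ, rfl⟩ := ConjClasses.exists_rep x
      exact Finset.mem_coe.2 (Finset.mem_image.2 ⟨ConjClasses.mk (σ : Perm (Fin n)), Finset.mem_univ _, rfl⟩)
    have hbound : ∀ m ∈ CT, (Finset.univ.filter (fun x => ctA n x = m)).card ≤
        (if sgn m = 1 then 1 else 0) + (if Sp n m then 1 else 0) := by
      intro m _
      by_cases h1 : sgn m = 1
      · by_cases h2 : Sp n m
        · rw [if_pos h1, if_pos h2]; exact fibre_le_two m
        · rw [if_pos h1, if_neg h2]; exact fibre_le_one m h2
      · have : (Finset.univ.filter (fun x => ctA n x = m)) = ∅ := by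
          rw [Finset.filter_eq_empty_iff]
          intro x _ hx
          exact h1 (hx ▸ sgn_ctA x)
        rw [this]; simp
    have hsum := Finset.sum_le_sum hbound
    rw [Finset.sum_add_distrib, ← Finset.card_filter, ← Finset.card_filter] at hsum
    have hsplit := Finset.card_filter_add_card_filter_not (s := CT) (fun m => sgn m = 1)
    have h2mem : ({2} : Multiset ℕ) ∈ CT.filter (fun m => ¬ sgn m = 1) := by
      rw [Finset.mem_filter, hCT]
      refine ⟨⟨by simp; omega, by simp⟩, by decide⟩
    have hsub : (CT.filter (fun m => Sp n m)).image theta ⊆ (CT.filter (fun m => ¬ sgn m = 1)).erase {2} := by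
      intro m' hm'
      rw [Finset.mem_image] at hm'
      obtain ⟨m, hm, rfl⟩ := hm'
      rw [Finset.mem_filter, hCT] at hm
      obtain ⟨⟨hs, h2⟩, hSp⟩ := hm
      have hne := hSp.ne_zero hn
      have hpm := pick_mem hne
      have hodd := hSp.1 _ hpm
      have h2p := h2 _ hpm
      have h3p : 3 ≤ pick m := by
        obtain ⟨k, hk⟩ := hodd
        omega
      have e := Multiset.cons_erase hpm
      have s := congrArg Multiset.sum e
      rw [Multiset.sum_cons] at s
      rw [Finset.mem_erase, Finset.mem_filter, hCT]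
      refine ⟨?_, ⟨?_, ?_⟩, ?_⟩
      · intro h
        unfold theta at h
        have hc := congrArg Multiset.card h
        rw [Multiset.card_cons, Multiset.card_singleton] at hc
        have h0 : m.erase (pick m) = 0 := Multiset.card_eq_zero.1 (by omega)
        rw [h0] at h s
        have h5 : pick m - 1 = 2 := by
          have : pick m - 1 ∈ ({2} : Multiset ℕ) := by rw [← h]; exact Multiset.mem_cons_self _ _
          simpa using this
        have := hSp.2.1
        simp at s
        omega
      · unfold theta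
        rw [Multiset.sum_cons]
        omega
      · intro a ha
        unfold theta at ha
        rw [Multiset.mem_cons] at ha
        rcases ha with rfl | ha
        · omega
        · exact h2 a (Multiset.mem_of_mem_erase ha)
      · rw [sgn_theta hn hSp]; decide
    have hcard := Finset.card_le_card hsub
    rw [Finset.card_image_of_injOn (by
      intro m hm m' hm' e
      simp only [Finset.coe_filter, Set.mem_ofPred_eq] at hm hm'
      exact theta_injOn hn hm.2 hm'.2 e), Finset.card_erase_of_mem h2mem] at hcard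
    have hpos : 0 < (CT.filter (fun m => ¬ sgn m = 1)).card := Finset.card_pos.2 ⟨_, h2mem⟩
    rw [hkA, hkS]
    omega
  · rw [hkS]
    have h1 := card_le_fib n CT (fun m hm => ⟨((hCT m).1 hm).2, ((hCT m).1 hm).1⟩)
    obtain ⟨k, rfl⟩ : ∃ k, n = k + 5 := ⟨n - 5, by omega⟩
    have h2 := (fib_le_pow k).1
    have h3 : k + 5 - 2 = k + 3 := by omega
    rw [h3]
    exact h1.trans h2

end Cfsg.Agent.S4198
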