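import Cfsg.Statements.S4200
import Mathlib

set_option autoImplicit false
open Cfsg

namespace Cfsg.Agent.S4200
variable {X : Type*} [Group X]

/-- number of commuting pairs in `A × B` -/
noncomputable def cc (A B : X → Prop) : ℕ := Nat.card {p : X × X // A p.1 ∧ B p.2 ∧ Commute p.1 p.2}

theorem cc_symm (A B : X → Prop) : cc A B = cc B A := by
  apply Nat.card_congr
  exact
  { toFun := fun p => ⟨(p.1.2, p.1.1), p.2.2.1, p.2.1, p.2.2.2.symm⟩
    invFun := fun p => ⟨(p.1.2, p.1.1), p.2.2.1, p.2.1, p.2.2.2.symm⟩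
    left_inv := fun p => by simp
    right_inv := fun p => by simp }

theorem cc_eq_sum [Finite X] (A B : X → Prop) [Fintype {x // A x}] :
    cc A B = ∑ x : {x // A x}, Nat.card {z : X // B z ∧ Commute x.1 z} := by
  rw [← Nat.card_sigma]
  apply Nat.card_congr
  exact
  { toFun := fun p => ⟨⟨p.1.1, p.2.1⟩, ⟨p.1.2, p.2.2⟩⟩
    invFun := fun p => ⟨(p.1.1, p.2.1), p.1.2, p.2.2⟩
    left_inv := fun p => by simp
    right_inv := fun p => by simp }

theorem cc_le [Finite X] (A B B' : X → Prop) (n : ℕ)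
    (h : ∀ x, A x → Nat.card {z : X // B z ∧ Commute x z} ≤ n * Nat.card {z : X // B' z ∧ Commute x z}) :
    cc A B ≤ n * cc A B' := by
  classical
  have : Fintype {x // A x} := Fintype.ofFinite _
  rw [cc_eq_sum, cc_eq_sum, Finset.mul_sum]
  exact Finset.sum_le_sum (fun x _ => h x.1 x.2)

theorem cc_lt [Finite X] (A B B' : X → Prop) (n : ℕ)
    (h : ∀ x, A x → Nat.card {z : X // B z ∧ Commute x z} ≤ n * Nat.card {z : X // B' z ∧ Commute x z})
    (h' : ∃ x, A x ∧ Nat.card {z : X // B z ∧ Commute x z} < n * Nat.card {z : X // B' z ∧ Commute x z}) :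
    cc A B < n * cc A B' := by
  classical
  have : Fintype {x // A x} := Fintype.ofFinite _
  rw [cc_eq_sum, cc_eq_sum, Finset.mul_sum]
  obtain ⟨x, hx, hx'⟩ := h'
  exact Finset.sum_lt_sum (fun x _ => h x.1 x.2) ⟨⟨x, hx⟩, Finset.mem_univ _, hx'⟩

/-- base lemma -/
theorem card_fiber_le [Finite X] (Y : Subgroup X) (t : X) (q : X ⧸ Y) :
    Nat.card {z : X // (z : X ⧸ Y) = q ∧ Commute t z} ≤ Nat.card {z : X // z ∈ Y ∧ Commute t z} := by
  by_cases h : Nonempty {z : X // (z : X ⧸ Y) = q ∧ Commute t z}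
  · obtain ⟨⟨z0, hq, hz0⟩⟩ := h
    refine Nat.card_le_card_of_injective
      (fun z => ⟨z0⁻¹ * z.1, ?_, ?_⟩) ?_
    · exact QuotientGroup.eq.mp (hq.trans z.2.1.symm)
    · exact (hz0.inv_right).mul_right z.2.2
    · intro a b hab
      simp only [Subtype.mk.injEq, mul_right_inj] at hab
      exact Subtype.ext hab
  · rw [not_nonempty_iff] at h
    simp

theorem card_le_mul_of_fiber {α β : Type*} [Finite α] [Finite β] (f : α → β) (n : ℕ)
    (h : ∀ b, Nat.card {a // f a = b} ≤ n) : Nat.card α ≤ Nat.card β * n := by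
  classical
  have : Fintype β := Fintype.ofFinite _
  rw [← Nat.card_congr (Equiv.sigmaFiberEquiv f), Nat.card_sigma]
  calc ∑ b, Nat.card {a // f a = b} ≤ ∑ _b : β, n := Finset.sum_le_sum (fun b _ => h b)
    _ = Nat.card β * n := by simp

theorem card_lt_mul_of_fiber {α β : Type*} [Finite α] [Finite β] (f : α → β) (n : ℕ)
    (h : ∀ b, Nat.card {a // f a = b} ≤ n) (h' : ∃ b, Nat.card {a // f a = b} < n) :
    Nat.card α < Nat.card β * n := by
  classical
  have : Fintype β := Fintype.ofFinite _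
  rw [← Nat.card_congr (Equiv.sigmaFiberEquiv f), Nat.card_sigma]
  obtain ⟨b, hb⟩ := h'
  calc ∑ b, Nat.card {a // f a = b} < ∑ _b : β, n :=
        Finset.sum_lt_sum (fun b _ => h b) ⟨b, Finset.mem_univ _, hb⟩
    _ = Nat.card β * n := by simp

theorem card_fiber_eq [Finite X] (Y : Subgroup X) (t : X) (q : X ⧸ Y) :
    Nat.card {a : {z : X // True ∧ Commute t z} // (a.1 : X ⧸ Y) = q} =
    Nat.card {z : X // (z : X ⧸ Y) = q ∧ Commute t z} := by
  apply Nat.card_congr
  exact
  { toFun := fun a => ⟨a.1.1, a.2, a.1.2.2⟩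
    invFun := fun a => ⟨⟨a.1, trivial, a.2.2⟩, a.2.1⟩
    left_inv := fun p => by simp
    right_inv := fun p => by simp }

theorem card_centralizer_le [Finite X] (Y : Subgroup X) (t : X) :
    Nat.card {z : X // True ∧ Commute t z} ≤ Y.index * Nat.card {z : X // z ∈ Y ∧ Commute t z} := by
  apply card_le_mul_of_fiber (fun z => (z.1 : X ⧸ Y))
  intro q
  rw [card_fiber_eq]
  exact card_fiber_le Y t q

theorem card_centralizer_lt [Finite X] (Y : Subgroup X) (t : X) (b : X)
    (hb : ∀ z, Commute t z → (z : X ⧸ Y) ≠ (b : X ⧸ Y)) :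
    Nat.card {z : X // True ∧ Commute t z} < Y.index * Nat.card {z : X // z ∈ Y ∧ Commute t z} := by
  apply card_lt_mul_of_fiber (fun z => (z.1 : X ⧸ Y))
  · intro q
    rw [card_fiber_eq]
    exact card_fiber_le Y t q
  · refine ⟨(b : X ⧸ Y), ?_⟩
    rw [card_fiber_eq]
    have : IsEmpty {z : X // (z : X ⧸ Y) = (b : X ⧸ Y) ∧ Commute t z} := ⟨fun z => hb z.1 z.2.2 z.2.1⟩
    rw [Nat.card_of_isEmpty]
    apply Nat.card_pos_iff.mpr
    exact ⟨⟨⟨1, Y.one_mem, Commute.one_right t⟩⟩, inferInstance⟩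

theorem cc_top (X : Type*) [Group X] : cc (fun _ : X => True) (fun _ => True) = Nat.card (ConjClasses X) * Nat.card X := by
  rw [← card_comm_eq_card_conjClasses_mul_card]
  apply Nat.card_congr
  exact Equiv.subtypeEquivRight (fun p => by simp)

theorem cc_subgroup (Y : Subgroup X) : cc (fun x => x ∈ Y) (fun x => x ∈ Y) = Nat.card (ConjClasses Y) * Nat.card Y := by
  rw [← card_comm_eq_card_conjClasses_mul_card]
  apply Nat.card_congr
  exact
  { toFun := fun p => ⟨(⟨p.1.1, p.2.1⟩, ⟨p.1.2, p.2.2.1⟩), Subtype.ext p.2.2.2⟩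
    invFun := fun p => ⟨(p.1.1.1, p.1.2.1), p.1.1.2, p.1.2.2, congrArg Subtype.val p.2⟩
    left_inv := fun p => by simp
    right_inv := fun p => by simp }


/-- Let Y be a subgroup of the finite group X, of index m. Then the numbers of conjugacy classes satisfy k(Y) ≤ m·k(X) and k(X) ≤ m·k(Y), and the second inequality is strict unless Y is normal in X. -/
theorem result {X : Type*} [Group X] [Finite X] (Y : Subgroup X) : Nat.card (ConjClasses Y) ≤ Y.index * Nat.card (ConjClasses X) ∧ Nat.card (ConjClasses X) ≤ Y.index * Nat.card (ConjClasses Y) ∧ (¬ Y.Normal → Nat.card (ConjClasses X) < Y.index * Nat.card (ConjClasses Y)) := by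
  have hXpos : 0 < Nat.card X := Nat.card_pos
  have hYpos : 0 < Nat.card Y := Nat.card_pos
  have hidx : Nat.card Y * Y.index = Nat.card X := Y.card_mul_index
  have h1 : cc (fun _ : X => True) (fun _ => True) ≤ Y.index * cc (fun _ : X => True) (fun x => x ∈ Y) :=
    cc_le _ _ _ _ (fun x _ => card_centralizer_le Y x)
  have h2 : cc (fun x : X => x ∈ Y) (fun _ => True) ≤ Y.index * cc (fun x : X => x ∈ Y) (fun x => x ∈ Y) :=
    cc_le _ _ _ _ (fun x _ => card_centralizer_le Y x)
  rw [cc_top, cc_symm] at h1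
  rw [cc_subgroup] at h2
  refine ⟨?_, ?_, ?_⟩
  · -- commuting pairs of Y inject in those of X
    have h3 : cc (fun x : X => x ∈ Y) (fun x => x ∈ Y) ≤ cc (fun _ : X => True) (fun _ => True) := by
      apply Nat.card_le_card_of_injective (fun p => ⟨p.1, trivial, trivial, p.2.2.2⟩)
      intro a b hab
      simp only [Subtype.mk.injEq] at hab
      exact Subtype.ext hab
    rw [cc_top, cc_subgroup, ← hidx] at h3
    have : Nat.card (ConjClasses Y) * Nat.card Y ≤ (Y.index * Nat.card (ConjClasses X)) * Nat.card Y := by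
      calc _ ≤ _ := h3
        _ = _ := by ring
    exact Nat.le_of_mul_le_mul_right this hYpos
  · have : Nat.card (ConjClasses X) * Nat.card X ≤ (Y.index * Nat.card (ConjClasses Y)) * Nat.card X := by
      calc _ ≤ _ := h1
        _ ≤ Y.index * (Y.index * (Nat.card (ConjClasses Y) * Nat.card Y)) := Nat.mul_le_mul_left _ h2
        _ = _ := by rw [← hidx]; ring
    exact Nat.le_of_mul_le_mul_right this hXpos
  · intro hn
    have h2' : cc (fun x : X => x ∈ Y) (fun _ => True) < Y.index * cc (fun x : X => x ∈ Y) (fun x => x ∈ Y) := by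
      apply cc_lt _ _ _ _ (fun x _ => card_centralizer_le Y x)
      by_contra hcon
      push Not at hcon
      apply hn
      constructor
      intro y hy b
      by_contra hyb
      have := hcon y hy
      refine absurd (card_centralizer_lt Y y b⁻¹ ?_) (not_lt.mpr this)
      intro z hz hzb
      apply hyb
      have h5 : z⁻¹ * b⁻¹ ∈ Y := QuotientGroup.eq.mp hzb
      have h6 : b * y * b⁻¹ = (z⁻¹ * b⁻¹)⁻¹ * y * (z⁻¹ * b⁻¹) := by
        have : z * y * z⁻¹ = y := by rw [← hz.eq]; group
        calc b * y * b⁻¹ = b * (z * y * z⁻¹) * b⁻¹ := by rw [this]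
          _ = _ := by group
      rw [h6]
      exact Y.mul_mem (Y.mul_mem (Y.inv_mem h5) hy) h5
    rw [cc_subgroup] at h2'
    have hipos : 0 < Y.index := Nat.pos_of_ne_zero Y.index_ne_zero_of_finite
    have : Nat.card (ConjClasses X) * Nat.card X < (Y.index * Nat.card (ConjClasses Y)) * Nat.card X := by
      calc _ ≤ _ := h1
        _ < Y.index * (Y.index * (Nat.card (ConjClasses Y) * Nat.card Y)) := Nat.mul_lt_mul_of_pos_left h2' hipos
        _ = _ := by rw [← hidx]; ring
    exact Nat.lt_of_mul_lt_mul_right this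

end Cfsg.Agent.S4200
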