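import Cfsg.Statements.S4201
import Mathlib
import Cfsg.Agent.S4200

set_option autoImplicit false
open Cfsg

namespace Cfsg.Agent.S4201

open Cfsg.Agent.S4200 in
/-- If N is a normal subgroup of the finite group X then k(X) ≤ k(N)·k(X ⧸ N), where k denotes the number of conjugacy classes. -/
theorem result {X : Type*} [Group X] [Finite X] (N : Subgroup X) [N.Normal] : Nat.card (ConjClasses X) ≤ Nat.card (ConjClasses N) * Nat.card (ConjClasses (X ⧸ N)) := by
  have hXpos : 0 < Nat.card X := Nat.card_pos
  have hidx : Nat.card N * Nat.card (X ⧸ N) = Nat.card X := N.card_mul_index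
  have key : ∀ a b : X ⧸ N, cc (fun x : X => (x : X ⧸ N) = a) (fun x : X => (x : X ⧸ N) = b) ≤
      cc (fun x : X => x ∈ N) (fun x : X => x ∈ N) := by
    intro a b
    have h1 : cc (fun x : X => (x : X ⧸ N) = a) (fun x : X => (x : X ⧸ N) = b) ≤
        1 * cc (fun x : X => (x : X ⧸ N) = a) (fun x : X => x ∈ N) :=
      cc_le _ _ _ _ (fun x _ => by rw [one_mul]; exact card_fiber_le N x b)
    have h2 : cc (fun x : X => x ∈ N) (fun x : X => (x : X ⧸ N) = a) ≤
        1 * cc (fun x : X => x ∈ N) (fun x : X => x ∈ N) :=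
      cc_le _ _ _ _ (fun x _ => by rw [one_mul]; exact card_fiber_le N x a)
    rw [one_mul] at h1 h2
    rw [cc_symm (fun x : X => (x : X ⧸ N) = a) (fun x : X => x ∈ N)] at h1
    exact h1.trans h2
  have main : cc (fun _ : X => True) (fun _ => True) ≤
      Nat.card {p : (X ⧸ N) × (X ⧸ N) // Commute p.1 p.2} * cc (fun x : X => x ∈ N) (fun x : X => x ∈ N) := by
    apply card_le_mul_of_fiber
      (fun p : {p : X × X // True ∧ True ∧ Commute p.1 p.2} =>
        (⟨((p.1.1 : X ⧸ N), (p.1.2 : X ⧸ N)), by
          have := p.2.2.2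
          exact this.map (QuotientGroup.mk' N)⟩ : {p : (X ⧸ N) × (X ⧸ N) // Commute p.1 p.2}))
    rintro ⟨⟨a, b⟩, hab⟩
    refine le_trans (le_of_eq ?_) (key a b)
    apply Nat.card_congr
    exact
    { toFun := fun p => ⟨p.1.1, by
        have := congrArg Subtype.val p.2
        have h1 := congrArg Prod.fst this
        have h2 := congrArg Prod.snd this
        exact ⟨h1, h2, p.1.2.2.2⟩⟩
      invFun := fun p => ⟨⟨p.1, trivial, trivial, p.2.2.2⟩, by
        apply Subtype.ext
        exact Prod.ext p.2.1 p.2.2.1⟩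
      left_inv := fun p => by simp
      right_inv := fun p => by simp }
  rw [cc_top, cc_subgroup, card_comm_eq_card_conjClasses_mul_card] at main
  have : Nat.card (ConjClasses X) * Nat.card X ≤
      (Nat.card (ConjClasses N) * Nat.card (ConjClasses (X ⧸ N))) * Nat.card X := by
    calc _ ≤ _ := main
      _ = _ := by rw [← hidx]; ring
  exact Nat.le_of_mul_le_mul_right this hXpos

end Cfsg.Agent.S4201
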