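import Cfsg.Statements.S4203
import Mathlib
import Cfsg.Agent.Lib.Helper72.SylowCount

set_option autoImplicit false
open Cfsg

namespace Cfsg.Agent.S4203

open scoped commutatorElement
open Equiv Equiv.Perm
open Cfsg.Agent.Lib.Helper72

universe u

def V4set : Finset (Perm (Fin 4)) :=
  {1, swap 0 1 * swap 2 3, swap 0 2 * swap 1 3, swap 0 3 * swap 1 2}

set_option maxRecDepth 100000 in
theorem V4_comm : ∀ a ∈ V4set, ∀ b ∈ V4set, a * b = b * a := by decide +kernel

set_option maxRecDepth 100000 in
theorem V4_mul : ∀ a ∈ V4set, ∀ b ∈ V4set, a * b ∈ V4set := by decide +kernel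

set_option maxRecDepth 100000 in
theorem V4_inv : ∀ a ∈ V4set, a⁻¹ ∈ V4set := by decide +kernel

set_option maxRecDepth 100000 in
theorem A4_comm : ∀ a b : Perm (Fin 4), sign a = 1 → sign b = 1 → a * b * a⁻¹ * b⁻¹ ∈ V4set := by
  decide +kernel

def V4 : Subgroup (Perm (Fin 4)) where
  carrier := {a | a ∈ V4set}
  one_mem' := by simp [V4set]
  mul_mem' := fun {a b} ha hb => V4_mul a ha b hb
  inv_mem' := fun {a} ha => V4_inv a ha

theorem isSolvable_perm_fin_four : Group.IsSolvable (Perm (Fin 4)) := by
  refine ⟨⟨3, ?_⟩⟩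
  have h1 : derivedSeries (Perm (Fin 4)) 1 ≤ alternatingGroup (Fin 4) := by
    rw [derivedSeries_succ, derivedSeries_zero, Subgroup.commutator_le]
    intro a _ b _
    rw [Equiv.Perm.mem_alternatingGroup, commutatorElement_def]
    simp only [map_mul, map_inv, Int.units_inv_eq_self]
    have ha := Int.units_mul_self (sign a)
    have hb := Int.units_mul_self (sign b)
    calc sign a * sign b * sign a * sign b = (sign a * sign a) * (sign b * sign b) := by ac_rfl
      _ = 1 := by rw [ha, hb, one_mul]
  have h2 : derivedSeries (Perm (Fin 4)) 2 ≤ V4 := by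
    rw [derivedSeries_succ]
    refine (Subgroup.commutator_mono h1 h1).trans ?_
    rw [Subgroup.commutator_le]
    intro a ha b hb
    exact A4_comm a b ha hb
  rw [derivedSeries_succ, eq_bot_iff]
  refine (Subgroup.commutator_mono h2 h2).trans ?_
  rw [Subgroup.commutator_le]
  intro a ha b hb
  rw [Subgroup.mem_bot, commutatorElement_eq_one_iff_mul_comm]
  exact V4_comm a ha b hb

theorem isSolvable_perm_of_card_eq_four {α : Type*} [Finite α] (h : Nat.card α = 4) :
    Group.IsSolvable (Perm α) := by
  have e : α ≃ Fin 4 := Finite.equivFinOfCardEq h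
  have := isSolvable_perm_fin_four
  exact Group.isSolvable_of_isSolvable_injective (f := (e.permCongrHom).toMonoidHom) (e.permCongrHom).injective

def Hyp (G : Type u) [Group G] : Prop :=
  ∀ M : Subgroup G, IsCoatom M → ∃ p : ℕ, p.Prime ∧ (M.index = p ∨ M.index = p ^ 2)

theorem hyp_quotient {G : Type u} [Group G] (N : Subgroup G) [N.Normal] (h : Hyp G) : Hyp (G ⧸ N) := by
  intro M hM
  have hco : IsCoatom (M.comap (QuotientGroup.mk' N)) :=
    Subgroup.isCoatom_comap_of_surjective (QuotientGroup.mk'_surjective N) hM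
  obtain ⟨p, hp, hi⟩ := h _ hco
  refine ⟨p, hp, ?_⟩
  rwa [Subgroup.index_comap_of_surjective _ (QuotientGroup.mk'_surjective N)] at hi

theorem card_quotient_lt {G : Type u} [Group G] [Finite G] (N : Subgroup G) (hN : N ≠ ⊥) :
    Nat.card (G ⧸ N) < Nat.card G := by
  have h1 := N.card_mul_index
  have h2 : 1 < Nat.card N := by
    rw [Finite.one_lt_card_iff_nontrivial]
    exact (Subgroup.nontrivial_iff_ne_bot N).mpr hN
  have h3 : 0 < N.index := Nat.pos_of_ne_zero N.index_ne_zero_of_finite
  rw [← h1]
  show N.index < _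
  nlinarith

/-- arithmetic part -/
theorem arith {p q m : ℕ} (hp : p.Prime) (hq : q.Prime) (hqp : q ≤ p) (hm : m = q ∨ m = q ^ 2)
    (hmod : m ≡ 1 [MOD p]) : m = 4 := by
  have hq2' := hq.two_le
  have h1 : 1 ≤ m := by
    rcases hm with rfl | rfl
    · exact hq.one_lt.le
    · exact Nat.one_le_pow _ _ hq.pos
  have hdvd : p ∣ m - 1 := (Nat.modEq_iff_dvd' h1).mp hmod.symm
  rcases hm with rfl | rfl
  · exfalso
    have := Nat.le_of_dvd (by have := hq.two_le; omega) hdvd
    omega
  · have e : q ^ 2 - 1 = (q - 1) * (q + 1) := by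
      obtain ⟨k, rfl⟩ : ∃ k, q = k + 1 := ⟨q - 1, by have := hq.two_le; omega⟩
      simp only [Nat.add_sub_cancel]
      have : (k + 1) ^ 2 = k * (k + 1 + 1) + 1 := by ring
      omega
    rw [e] at hdvd
    rcases (Nat.Prime.dvd_mul hp).mp hdvd with h | h
    · exfalso
      have := Nat.le_of_dvd (by have := hq.two_le; omega) h
      omega
    · have h2 := Nat.le_of_dvd (by omega) h
      have hq1 : q + 1 = p := by
        rcases Nat.lt_or_ge q p with h3 | h3
        · omega
        · have : q = p := le_antisymm hqp h3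
          subst this
          exfalso
          have : q ∣ 1 := (Nat.dvd_add_right (dvd_refl q)).mp h
          exact hq.one_lt.ne' (Nat.dvd_one.mp this)
      -- q and q+1 both prime
      have hq2 : q = 2 := by
        rcases hq.eq_two_or_odd' with h3 | h3
        · exact h3
        · exfalso
          have hpe : Even p := by rw [← hq1]; exact h3.add_one
          have : p = 2 := (Nat.Prime.even_iff hp).mp hpe
          have := hq.two_le
          omega
      subst hq2
      norm_num

theorem main (n : ℕ) : ∀ (G : Type u) [Group G] [Finite G], Nat.card G = n → Hyp G → Group.IsSolvable G := by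
  induction n using Nat.strong_induction_on with
  | _ n ih =>
  intro G _ _ hn hG
  subst hn
  by_cases htriv : Subsingleton G
  · infer_instance
  rw [not_subsingleton_iff_nontrivial] at htriv
  -- quotients are solvable
  have hquot : ∀ (N : Subgroup G) [N.Normal], N ≠ ⊥ → Group.IsSolvable (G ⧸ N) := by
    intro N _ hN
    exact ih _ (card_quotient_lt N hN) (G ⧸ N) rfl (hyp_quotient N hG)
  -- minimal normal subgroup
  obtain ⟨N, hNmin⟩ := exists_minimal_of_wellFoundedLT (fun N : Subgroup G => N.Normal ∧ N ≠ ⊥)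
    ⟨⊤, inferInstance, top_ne_bot⟩
  obtain ⟨⟨hNn, hNbot⟩, hNle⟩ := hNmin
  have hGN := hquot N hNbot
  suffices hNs : Group.IsSolvable N from (Group.isSolvable_iff_subgroup_quotient N).mpr ⟨hNs, hGN⟩
  by_cases hB : ∀ N2 : Subgroup G, N2.Normal → N2 ≠ ⊥ → N ≤ N2
  swap
  · push Not at hB
    obtain ⟨N2, hN2n, hN2bot, hN2⟩ := hB
    have hinf : N ⊓ N2 = ⊥ := by
      by_contra hne
      exact hN2 ((hNle ⟨inferInstance, hne⟩ inf_le_left).trans inf_le_right)
    have := hquot N2 hN2bot
    apply Group.isSolvable_of_isSolvable_injective (f := (QuotientGroup.mk' N2).comp N.subtype)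
    rw [injective_iff_map_eq_one]
    intro x hx
    have hx2 : (x : G) ∈ N2 := by
      rw [← QuotientGroup.eq_one_iff]
      exact hx
    have : (x : G) ∈ N ⊓ N2 := ⟨x.2, hx2⟩
    rw [hinf, Subgroup.mem_bot] at this
    exact Subtype.ext this
  -- unique minimal normal subgroup
  have hcardN : 1 < Nat.card N := by
    rw [Finite.one_lt_card_iff_nontrivial]
    exact (Subgroup.nontrivial_iff_ne_bot N).mpr hNbot
  have hne : (Nat.card N).primeFactors.Nonempty := by
    rw [Nat.nonempty_primeFactors]
    exact hcardN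
  set p := (Nat.card N).primeFactors.max' hne with hp_def
  have hpmem : p ∈ (Nat.card N).primeFactors := Finset.max'_mem _ hne
  have hp : p.Prime := Nat.prime_of_mem_primeFactors hpmem
  have hpdvd : p ∣ Nat.card N := Nat.dvd_of_mem_primeFactors hpmem
  have hpmax : ∀ q : ℕ, q.Prime → q ∣ Nat.card N → q ≤ p := by
    intro q hq hqd
    apply Finset.le_max'
    exact Nat.mem_primeFactors.mpr ⟨hq, hqd, by omega⟩
  have : Fact p.Prime := ⟨hp⟩
  let P : Sylow p N := default
  set R : Subgroup G := (P : Subgroup N).map N.subtype with hR_def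
  have hR : IsSylowIn p R N := isSylowIn_of_sylow P
  have hRbot : R ≠ ⊥ := by
    intro h
    apply hR.2.2
    rw [h, Subgroup.relIndex_bot_left]
    exact hpdvd
  by_cases hRn : Subgroup.normalizer (R : Set G) = ⊤
  · have hRnormal : R.Normal := Subgroup.normalizer_eq_top_iff.mp hRn
    have hNR : N = R := le_antisymm (hB R hRnormal hRbot) hR.1
    have hNp : IsPGroup p N := by rw [hNR]; exact hR.2.1
    have := hNp.isNilpotent
    infer_instance
  · obtain ⟨M, hM, hle⟩ := (eq_top_or_exists_le_coatom _).resolve_left hRn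
    have hsup : Subgroup.normalizer (R : Set G) ⊔ N = ⊤ := Sylow.normalizer_sup_eq_top P
    have hMN : M ⊔ N = ⊤ := top_le_iff.mp (hsup ▸ sup_le_sup_right hle N)
    have hNM : ¬ N ≤ M := fun h => hM.1 (by rw [← hMN]; exact (sup_eq_left.mpr h).symm)
    have hidx : M.relIndex N = M.index := by
      rw [← Subgroup.relIndex_top_right]
      apply relIndex_eq_of_forall_exists M N ⊤ le_top
      intro l _
      have hl : l ∈ (↑(N ⊔ M) : Set G) := by
        rw [sup_comm, hMN]; trivial
      rw [Subgroup.normal_mul] at hl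
      obtain ⟨x, hx, m, hm, rfl⟩ := Set.mem_mul.mp hl
      exact ⟨x, hx, by simpa using hm⟩
    have hRL : R ≤ M ⊓ N := le_inf (Subgroup.le_normalizer.trans hle) hR.1
    have hRL' : IsSylowIn p R (M ⊓ N) := ⟨hRL, hR.2.1, fun hd => hR.2.2 (hd.trans
      (Dvd.intro _ (Subgroup.relIndex_mul_relIndex R (M ⊓ N) N hRL inf_le_right)))⟩
    have c1 := hR.card_sylow
    have c2 := hRL'.card_sylow
    have m1 : Nat.card (Sylow p N) ≡ 1 [MOD p] := card_sylow_modEq_one p N
    have m2 : Nat.card (Sylow p ↥(M ⊓ N)) ≡ 1 [MOD p] := card_sylow_modEq_one p _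
    rw [c1] at m1
    rw [c2] at m2
    have hmul : (Subgroup.normalizer (R : Set G)).relIndex (M ⊓ N) * M.relIndex N =
        (Subgroup.normalizer (R : Set G)).relIndex N := by
      have := Subgroup.relIndex_inf_mul_relIndex (Subgroup.normalizer (R : Set G)) M N
      rwa [inf_of_le_left hle] at this
    have hmod : M.index ≡ 1 [MOD p] := by
      rw [← hidx]
      calc M.relIndex N = 1 * M.relIndex N := (one_mul _).symm
        _ ≡ (Subgroup.normalizer (R : Set G)).relIndex (M ⊓ N) * M.relIndex N [MOD p] :=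
            Nat.ModEq.mul_right _ m2.symm
        _ = (Subgroup.normalizer (R : Set G)).relIndex N := hmul
        _ ≡ 1 [MOD p] := m1
    obtain ⟨q, hq, hqi⟩ := hG M hM
    have hdN : M.index ∣ Nat.card N := hidx ▸ Subgroup.relIndex_dvd_card M N
    have hqN : q ∣ Nat.card N := by
      rcases hqi with h | h
      · exact h ▸ hdN
      · exact dvd_trans (dvd_pow_self q two_ne_zero) (h ▸ hdN)
    have h4 : M.index = 4 := arith hp hq (hpmax q hq hqN) hqi hmod
    have hcore : M.normalCore = ⊥ := by
      by_contra hne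
      exact hNM ((hB _ inferInstance hne).trans M.normalCore_le)
    have hinj : Function.Injective (MulAction.toPermHom G (G ⧸ M)) := by
      rw [← MonoidHom.ker_eq_bot_iff, ← Subgroup.normalCore_eq_ker, hcore]
    have := isSolvable_perm_of_card_eq_four (α := G ⧸ M) h4
    have hGs : Group.IsSolvable G := Group.isSolvable_of_isSolvable_injective hinj
    infer_instance


/-- A finite group in which every maximal subgroup has index a prime or the square of a prime is solvable. -/
theorem result {G : Type*} [Group G] [Finite G] (h : ∀ M : Subgroup G, IsCoatom M → ∃ p : ℕ, p.Prime ∧ (M.index = p ∨ M.index = p ^ 2)) : Group.IsSolvable G := by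
  exact main _ G rfl h

end Cfsg.Agent.S4203
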