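import Cfsg.Statements.S4204
import Mathlib

set_option autoImplicit false
open Cfsg

namespace Cfsg.Agent.S4204

open scoped commutatorElement

theorem commutator_le_iff_le_comap {G : Type*} [Group G] (X Y N : Subgroup G) [N.Normal] :
    ⁅X, Y⁆ ≤ N ↔ X ≤ (Subgroup.centralizer ((Y.map (QuotientGroup.mk' N) : Subgroup (G ⧸ N)) : Set (G ⧸ N))).comap
      (QuotientGroup.mk' N) := by
  have key : ∀ K : Subgroup G, K ≤ N ↔ K.map (QuotientGroup.mk' N) = ⊥ := by
    intro K
    rw [Subgroup.map_eq_bot_iff, QuotientGroup.ker_mk']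
  rw [key, Subgroup.map_commutator, Subgroup.commutator_eq_bot_iff_le_centralizer,
    Subgroup.map_le_iff_le_comap]

theorem iSup_commutator_le {G : Type*} [Group G] {ι : Sort*} (X : ι → Subgroup G) (Y N : Subgroup G)
    [N.Normal] (h : ∀ i, ⁅X i, Y⁆ ≤ N) : ⁅⨆ i, X i, Y⁆ ≤ N := by
  rw [commutator_le_iff_le_comap]
  apply iSup_le
  intro i
  rw [← commutator_le_iff_le_comap]
  exact h i

theorem commutator_sup_le {G : Type*} [Group G] (X Y₁ Y₂ N : Subgroup G)
    [N.Normal] (h₁ : ⁅X, Y₁⁆ ≤ N) (h₂ : ⁅X, Y₂⁆ ≤ N) : ⁅X, Y₁ ⊔ Y₂⁆ ≤ N := by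
  rw [Subgroup.commutator_comm, commutator_le_iff_le_comap]
  apply sup_le
  · rw [← commutator_le_iff_le_comap, Subgroup.commutator_comm]; exact h₁
  · rw [← commutator_le_iff_le_comap, Subgroup.commutator_comm]; exact h₂

theorem lcs_normal {G : Type*} [Group G] (H : Subgroup G) [H.Normal] (n : ℕ) :
    (H.lowerCentralSeries n).Normal := by
  induction n with
  | zero => simpa using (inferInstance : H.Normal)
  | succ n ih =>
    rw [Subgroup.lowerCentralSeries_succ]
    infer_instance

/-- shifted lower central series: `⊤, H, ⁅H,H⁆, …` -/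
def sh {G : Type*} [Group G] (H : Subgroup G) : ℕ → Subgroup G
  | 0 => ⊤
  | n + 1 => H.lowerCentralSeries n

theorem sh_normal {G : Type*} [Group G] (H : Subgroup G) [H.Normal] (n : ℕ) : (sh H n).Normal := by
  cases n with
  | zero => exact (inferInstance : (⊤ : Subgroup G).Normal)
  | succ n => exact lcs_normal H n

theorem sh_commutator_le {G : Type*} [Group G] (H : Subgroup G) [H.Normal] (n : ℕ) :
    ⁅sh H n, H⁆ ≤ sh H (n + 1) := by
  cases n with
  | zero => exact Subgroup.commutator_le_right _ _
  | succ n => exact le_of_eq (Subgroup.lowerCentralSeries_succ H n).symm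

theorem key {G : Type*} [Group G] (H K : Subgroup G) [H.Normal] [K.Normal] (n : ℕ) :
    (H ⊔ K).lowerCentralSeries n ≤ ⨆ q : {q : ℕ × ℕ // q.1 + q.2 = n + 1}, sh H q.1.1 ⊓ sh K q.1.2 := by
  have hnH := sh_normal H
  have hnK := sh_normal K
  induction n with
  | zero =>
    rw [Subgroup.lowerCentralSeries_zero]
    apply sup_le
    · refine le_trans ?_ (le_iSup _ ⟨(1, 0), rfl⟩)
      simp [sh]
    · refine le_trans ?_ (le_iSup _ ⟨(0, 1), rfl⟩)
      simp [sh]
  | succ n ih =>
    rw [Subgroup.lowerCentralSeries_succ]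
    refine (Subgroup.commutator_mono ih le_rfl).trans ?_
    have hN : (⨆ q : {q : ℕ × ℕ // q.1 + q.2 = n + 1 + 1}, sh H q.1.1 ⊓ sh K q.1.2).Normal := by
      have : ∀ q : {q : ℕ × ℕ // q.1 + q.2 = n + 1 + 1}, (sh H q.1.1 ⊓ sh K q.1.2).Normal := by
        intro q
        have := hnH q.1.1
        have := hnK q.1.2
        infer_instance
      infer_instance
    apply iSup_commutator_le
    rintro ⟨⟨i, j⟩, hij⟩
    simp only at hij
    have := hnH i
    have := hnK j
    apply commutator_sup_le
    · refine le_trans ?_ (le_iSup _ ⟨(i + 1, j), by simp only; omega⟩)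
      apply le_inf
      · exact (Subgroup.commutator_mono inf_le_left le_rfl).trans (sh_commutator_le H i)
      · exact (Subgroup.commutator_mono inf_le_right le_rfl).trans (Subgroup.commutator_le_left _ _)
    · refine le_trans ?_ (le_iSup _ ⟨(i, j + 1), by simp only; omega⟩)
      apply le_inf
      · exact (Subgroup.commutator_mono inf_le_left le_rfl).trans (Subgroup.commutator_le_left _ _)
      · exact (Subgroup.commutator_mono inf_le_right le_rfl).trans (sh_commutator_le K j)


/-- If `H` and `K` are normal subgroups of a finite group with `H` nilpotent of class at most `c` and `K` nilpotent of class at most `d` (the terms with index `c`, respectively `d`, of their lower central series are trivial, indices starting at `0`), then `HK` is nilpotent of class at most `c + d`. -/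
theorem result {G : Type*} [Group G] [Finite G] (H K : Subgroup G) [H.Normal] [K.Normal] (c d : ℕ) (hH : H.lowerCentralSeries c = ⊥) (hK : K.lowerCentralSeries d = ⊥) : (H ⊔ K).lowerCentralSeries (c + d) = ⊥ := by
  rw [eq_bot_iff]
  refine (key H K (c + d)).trans ?_
  apply iSup_le
  rintro ⟨⟨i, j⟩, hij⟩
  simp only at hij
  by_cases hi : c + 1 ≤ i
  · obtain ⟨i', rfl⟩ := Nat.exists_eq_add_of_le hi
    refine inf_le_left.trans ?_
    have e : c + 1 + i' = (c + i') + 1 := by ring
    show sh H (c + 1 + i') ≤ ⊥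
    rw [e]
    show H.lowerCentralSeries (c + i') ≤ ⊥
    rw [← hH]
    exact H.lowerCentralSeries_antitone (by omega)
  · have hj : d + 1 ≤ j := by omega
    obtain ⟨j', rfl⟩ := Nat.exists_eq_add_of_le hj
    refine inf_le_right.trans ?_
    have e : d + 1 + j' = (d + j') + 1 := by ring
    show sh K (d + 1 + j') ≤ ⊥
    rw [e]
    show K.lowerCentralSeries (d + j') ≤ ⊥
    rw [← hK]
    exact K.lowerCentralSeries_antitone (by omega)

end Cfsg.Agent.S4204
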