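import Cfsg.Statements.S4211
import Cfsg.Agent.Lib.Helper24.PGroup
import Cfsg.Agent.Lib.Helper5.Quaternion

set_option autoImplicit false
open Cfsg

namespace Cfsg.Agent.S4211

open scoped commutatorElement
open Subgroup

section
variable {G : Type*} [Group G]

lemma comm_mem_left (hn : ∀ H : Subgroup G, H.Normal) (x y : G) : ⁅x, y⁆ ∈ zpowers x := by
  have h1 : y * x⁻¹ * y⁻¹ ∈ zpowers x := (hn _).conj_mem x⁻¹ (inv_mem (mem_zpowers x)) y
  have := mul_mem (mem_zpowers x) h1
  simpa [commutatorElement_def, mul_assoc] using this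

lemma comm_mem_right (hn : ∀ H : Subgroup G, H.Normal) (x y : G) : ⁅x, y⁆ ∈ zpowers y := by
  have h1 : x * y * x⁻¹ ∈ zpowers y := (hn _).conj_mem y (mem_zpowers y) x
  have := mul_mem h1 (inv_mem (mem_zpowers y))
  simpa [commutatorElement_def] using this

lemma commute_of_mem_zpowers {x c : G} (h : c ∈ zpowers x) : Commute c x := by
  obtain ⟨k, rfl⟩ := h
  exact (Commute.refl x).zpow_left k

lemma comm_pow_eq_one_iff (hn : ∀ H : Subgroup G, H.Normal) (a b : G) (n : ℕ) :
    ⁅a, b⁆ ^ n = 1 ↔ Commute (a ^ n) b := by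
  have h := Cfsg.Agent.Lib.Helper24.pow_mul_eq_of_commute b a
    (commute_of_mem_zpowers (comm_mem_right hn a b)) (commute_of_mem_zpowers (comm_mem_left hn a b)) n
  constructor
  · intro h1
    rw [h1, one_mul] at h
    exact h
  · intro h1
    rw [h1.eq, mul_assoc] at h
    exact (mul_eq_right.1 h.symm)

lemma comm_pow_eq_one_iff' (hn : ∀ H : Subgroup G, H.Normal) (a b : G) (n : ℕ) :
    ⁅a, b⁆ ^ n = 1 ↔ Commute a (b ^ n) := by
  rw [← commutatorElement_inv, inv_pow, inv_eq_one, comm_pow_eq_one_iff hn]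
  exact ⟨Commute.symm, Commute.symm⟩

lemma nt (p n : ℕ) (hp : p.Prime) (h : ¬ p ∣ (p ^ n).choose 2) : p = 2 ∧ n = 1 := by
  have h2 : (p ^ n).choose 2 * 2 = p ^ n * (p ^ n - 1) := by
    rw [Nat.choose_two_right]
    exact Nat.div_mul_cancel (Nat.even_mul_pred_self _).two_dvd
  rcases n with _ | t
  · exact absurd (by simp) h
  · have hp2 : p = 2 := by
      by_contra hne
      apply h
      have h3 : p ∣ (p ^ (t + 1)).choose 2 * 2 := by
        rw [h2]
        exact Dvd.dvd.mul_right (dvd_pow_self p (by omega)) _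
      rcases (Nat.Prime.dvd_mul hp).1 h3 with h4 | h4
      · exact h4
      · exact absurd ((Nat.prime_dvd_prime_iff_eq hp Nat.prime_two).1 h4) hne
    subst hp2
    refine ⟨rfl, ?_⟩
    rcases t with _ | s
    · rfl
    · exfalso
      apply h
      have h3 : (2 ^ (s + 1 + 1)).choose 2 = 2 * (2 ^ s * (2 ^ (s + 1 + 1) - 1)) := by
        have : (2 ^ (s + 1 + 1)).choose 2 * 2 = 2 * (2 ^ s * (2 ^ (s + 1 + 1) - 1)) * 2 := by
          rw [h2]
          ring
        exact Nat.eq_of_mul_eq_mul_right (by norm_num) this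
      rw [h3]
      exact Dvd.intro _ rfl

lemma eq_sq_of_mem {x c : G} (hx : orderOf x = 4) (hc : c ∈ zpowers x) (hc2 : c ^ 2 = 1)
    (hc1 : c ≠ 1) : c = x ^ 2 := by
  obtain ⟨i, rfl⟩ := hc
  have hx4 : x ^ (4 : ℤ) = 1 := by
    have := pow_orderOf_eq_one x
    rw [hx] at this
    exact_mod_cast this
  have h1 : x ^ i = x ^ (i % 4) := zpow_eq_zpow_emod i hx4
  have h2 : 0 ≤ i % 4 := Int.emod_nonneg _ (by norm_num)
  have h3 : i % 4 < 4 := Int.emod_lt_of_pos _ (by norm_num)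
  have hx2 : x ^ 2 ≠ 1 := by
    intro h
    have := orderOf_dvd_of_pow_eq_one h
    rw [hx] at this
    omega
  simp only at hc2 hc1 ⊢
  rw [h1] at hc2 hc1 ⊢
  generalize i % 4 = r at *
  have hx4' : x ^ 4 = 1 := by exact_mod_cast hx4
  interval_cases r
  · simp at hc1
  · simp at hc2
    exact absurd hc2 hx2
  · exact_mod_cast rfl
  · exfalso
    have : (x ^ (3 : ℤ)) ^ 2 = x ^ 4 * x ^ 2 := by
      have : x ^ (3 : ℤ) = x ^ 3 := by exact_mod_cast rfl
      rw [this, ← pow_mul, ← pow_add]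
    rw [this, hx4', one_mul] at hc2
    exact hx2 hc2


lemma key [Finite G] (hn : ∀ H : Subgroup G, H.Normal) (x y : G) (hxy : ¬ Commute x y)
    (hmin : ∀ x' y' : G, ¬ Commute x' y' → orderOf x + orderOf y ≤ orderOf x' + orderOf y')
    (hle : orderOf y ≤ orderOf x) :
    orderOf x = 4 ∧ orderOf y = 4 ∧ x ^ 2 = y ^ 2 ∧ ⁅x, y⁆ = x ^ 2 := by
  set c := ⁅x, y⁆ with hc
  have hc1 : c ≠ 1 := by
    intro h
    exact hxy (commutatorElement_eq_one_iff_commute.1 h)
  have hcx : c ∈ zpowers x := comm_mem_left hn x y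
  have hcy : c ∈ zpowers y := comm_mem_right hn x y
  have M1 : ∀ p : ℕ, p.Prime → p ∣ orderOf x → c ^ p = 1 := by
    intro p hp hpx
    rw [hc, comm_pow_eq_one_iff hn]
    by_contra hcon
    have h1 := hmin _ _ hcon
    rw [orderOf_pow_of_dvd hp.ne_zero hpx] at h1
    have := Nat.div_lt_self (orderOf_pos x) hp.one_lt
    omega
  have M2 : ∀ p : ℕ, p.Prime → p ∣ orderOf y → c ^ p = 1 := by
    intro p hp hpx
    rw [hc, comm_pow_eq_one_iff' hn]
    by_contra hcon
    have h1 := hmin _ _ hcon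
    rw [orderOf_pow_of_dvd hp.ne_zero hpx] at h1
    have := Nat.div_lt_self (orderOf_pos y) hp.one_lt
    omega
  have hx1 : orderOf x ≠ 1 := by
    intro h
    rw [orderOf_eq_one_iff] at h
    exact hxy (h ▸ Commute.one_left y)
  have hy1 : orderOf y ≠ 1 := by
    intro h
    rw [orderOf_eq_one_iff] at h
    exact hxy (h ▸ Commute.one_right x)
  obtain ⟨p, hp, hcp⟩ : ∃ p : ℕ, p.Prime ∧ orderOf c = p := by
    refine ⟨(orderOf x).minFac, Nat.minFac_prime hx1, ?_⟩
    have h1 := orderOf_dvd_of_pow_eq_one (M1 _ (Nat.minFac_prime hx1) (Nat.minFac_dvd _))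
    rcases (Nat.dvd_prime (Nat.minFac_prime hx1)).1 h1 with h2 | h2
    · exact absurd (orderOf_eq_one_iff.1 h2) hc1
    · exact h2
  have hcpp : c ^ p = 1 := hcp ▸ pow_orderOf_eq_one c
  have U1 : ∀ {q : ℕ}, q.Prime → q ∣ orderOf x → q = p := by
    intro q hq hqx
    have h1 := orderOf_dvd_of_pow_eq_one (M1 q hq hqx)
    rw [hcp] at h1
    exact ((Nat.prime_dvd_prime_iff_eq hp hq).1 h1).symm
  have U2 : ∀ {q : ℕ}, q.Prime → q ∣ orderOf y → q = p := by
    intro q hq hqx
    have h1 := orderOf_dvd_of_pow_eq_one (M2 q hq hqx)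
    rw [hcp] at h1
    exact ((Nat.prime_dvd_prime_iff_eq hp hq).1 h1).symm
  have hxm := Nat.eq_prime_pow_of_unique_prime_dvd (orderOf_pos x).ne' U1
  have hyn := Nat.eq_prime_pow_of_unique_prime_dvd (orderOf_pos y).ne' U2
  generalize (orderOf x).primeFactorsList.length = m at hxm
  generalize (orderOf y).primeFactorsList.length = n at hyn
  have hnm : n ≤ m := by
    rw [hxm, hyn] at hle
    exact (Nat.pow_le_pow_iff_right hp.one_lt).1 hle
  rcases n with _ | n
  · exact absurd (by simpa using hyn) hy1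
  have hyx : orderOf y ∣ orderOf x := by
    rw [hxm, hyn]; exact pow_dvd_pow p hnm
  set k := p ^ n with hk
  set z := y ^ k with hz
  have hzp : z ^ p = 1 := by
    rw [hz, ← pow_mul, hk, ← pow_succ, ← hyn, pow_orderOf_eq_one]
  have hpZ : (p : ℤ) ≠ 0 := by exact_mod_cast hp.ne_zero
  -- generic divisibility step
  have step : ∀ (t : G) (j : ℤ), orderOf y ∣ orderOf t → (t ^ j) ^ p = 1 → ((k : ℕ) : ℤ) ∣ j := by
    intro t j ht h
    rw [← zpow_natCast, ← zpow_mul] at h
    have h1 := orderOf_dvd_iff_zpow_eq_one.2 h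
    have h2 : ((orderOf y : ℕ) : ℤ) ∣ j * p := (Int.natCast_dvd_natCast.2 ht).trans h1
    rw [hyn, pow_succ] at h2
    push_cast at h2
    have := (mul_dvd_mul_iff_right hpZ).1 h2
    rw [hk]; push_cast; exact this
  have hcz : c ∈ zpowers z := by
    obtain ⟨s, hs⟩ := hcy
    simp only at hs
    obtain ⟨s', rfl⟩ := step y s dvd_rfl (by rw [hs]; exact hcpp)
    refine ⟨s', ?_⟩
    simp only
    rw [← hs, hz, zpow_mul, zpow_natCast]
  have hzc : zpowers c = zpowers z := by
    apply Subgroup.eq_of_le_of_card_ge ((zpowers_le).2 hcz)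
    rw [Nat.card_zpowers, Nat.card_zpowers, hcp]
    exact Nat.le_of_dvd hp.pos (orderOf_dvd_of_pow_eq_one hzp)
  have hzx : z ∈ zpowers x := by
    have : z ∈ zpowers c := hzc ▸ mem_zpowers z
    exact (zpowers_le.2 hcx) this
  obtain ⟨w, hwx, hwk⟩ : ∃ w ∈ zpowers x, w ^ k = z := by
    obtain ⟨j, hj⟩ := hzx
    simp only at hj
    obtain ⟨j', rfl⟩ := step x j hyx (by rw [hj]; exact hzp)
    refine ⟨x ^ j', ⟨j', rfl⟩, ?_⟩
    rw [← hj, ← zpow_natCast, ← zpow_mul, mul_comm]
  have hwc : Commute w x := commute_of_mem_zpowers hwx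
  have hy1' : ¬ Commute x (y * w⁻¹) := by
    intro h
    apply hxy
    have := h.mul_right hwc.symm
    simpa using this
  set d := ⁅w⁻¹, y⁆ with hd
  have hpow := Cfsg.Agent.Lib.Helper24.mul_pow_of_commute y w⁻¹
    (commute_of_mem_zpowers (comm_mem_right hn w⁻¹ y))
    (commute_of_mem_zpowers (comm_mem_left hn w⁻¹ y)) k
  rw [inv_pow, hwk, ← hz, mul_inv_cancel, one_mul, ← hd] at hpow
  have hdp : d ^ p = 1 := by
    rw [hd, comm_pow_eq_one_iff' hn]
    have h1 : Commute x (y ^ p) := (comm_pow_eq_one_iff' hn x y p).1 hcpp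
    obtain ⟨j, rfl⟩ := hwx
    exact (h1.zpow_left j).inv_left
  have hy1le : orderOf y ≤ orderOf (y * w⁻¹) := by
    have := hmin _ _ hy1'
    omega
  have hkpos : 0 < k := pow_pos hp.pos n
  have hklt : k < orderOf y := by
    rw [hyn, hk]; exact Nat.pow_lt_pow_right hp.one_lt (Nat.lt_succ_self n)
  have hne : (y * w⁻¹) ^ k ≠ 1 := by
    intro h
    have := Nat.le_of_dvd hkpos (orderOf_dvd_of_pow_eq_one h)
    omega
  have hndvd : ¬ p ∣ (p ^ n).choose 2 := by
    rintro ⟨t, ht⟩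
    apply hne
    rw [hpow, hk, ht, pow_mul, hdp, one_pow]
  obtain ⟨rfl, rfl⟩ := nt p n hp hndvd
  have hy4 : orderOf y = 4 := by rw [hyn]; norm_num
  have hk2 : k = 2 := by rw [hk]; norm_num
  rw [hk2] at hpow hne hwk
  have hd1 : d ≠ 1 := by
    intro h
    apply hne
    rw [hpow, h, one_pow]
  have hwy : ¬ Commute w⁻¹ y := by
    intro h
    exact hd1 (commutatorElement_eq_one_iff_commute.2 h)
  have hxw : orderOf x ≤ orderOf w := by
    have := hmin _ _ hwy
    rw [orderOf_inv] at this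
    omega
  have hw4 : w ^ 4 = 1 := by
    have : w ^ 4 = (w ^ 2) ^ 2 := by rw [← pow_mul]
    rw [this, hwk, hz, hk2, ← pow_mul]
    have h4 := pow_orderOf_eq_one y
    rw [hy4] at h4
    exact h4
  have hw4' : orderOf w ≤ 4 := Nat.le_of_dvd (by norm_num) (orderOf_dvd_of_pow_eq_one hw4)
  have hx4 : orderOf x = 4 := by omega
  have e1 := eq_sq_of_mem hx4 hcx hcpp hc1
  have e2 := eq_sq_of_mem hy4 hcy hcpp hc1
  exact ⟨hx4, hy4, e1 ▸ e2, e1⟩

lemma exists_pair [Finite G] (hn : ∀ H : Subgroup G, H.Normal) (h : ∃ x y : G, ¬ Commute x y) :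
    ∃ x y : G, orderOf x = 4 ∧ orderOf y = 4 ∧ x ^ 2 = y ^ 2 ∧ ⁅x, y⁆ = x ^ 2 := by
  classical
  have hex : ∃ N : ℕ, ∃ x y : G, ¬ Commute x y ∧ orderOf x + orderOf y = N := by
    obtain ⟨x, y, hxy⟩ := h
    exact ⟨_, x, y, hxy, rfl⟩
  obtain ⟨x, y, hxy, hN⟩ := Nat.find_spec hex
  have hmin : ∀ x' y' : G, ¬ Commute x' y' → orderOf x + orderOf y ≤ orderOf x' + orderOf y' := by
    intro x' y' h'
    rw [hN]
    exact Nat.find_min' hex ⟨x', y', h', rfl⟩
  rcases le_total (orderOf y) (orderOf x) with hle | hle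
  · exact ⟨x, y, key hn x y hxy hmin hle⟩
  · refine ⟨y, x, key hn y x (fun h => hxy h.symm) ?_ hle⟩
    intro x' y' h'
    rw [add_comm]
    exact hmin x' y' h'

lemma sq_ne_one {x : G} (hx : orderOf x = 4) : x ^ 2 ≠ 1 := by
  intro h
  have := orderOf_dvd_of_pow_eq_one h
  rw [hx] at this
  omega

lemma pow_four {x : G} (hx : orderOf x = 4) : x ^ 4 = 1 := by
  have := pow_orderOf_eq_one x
  rwa [hx] at this

lemma pow_three {x : G} (hx : x ^ 4 = 1) : x ^ 3 = x⁻¹ := by
  rw [eq_inv_iff_mul_eq_one, ← pow_succ]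
  exact hx

/-- an element of `zpowers u` with `u^4=1` is one of four. -/
lemma mem_zpowers_four {u v : G} (hu : u ^ 4 = 1) (hv : v ∈ zpowers u) :
    v = 1 ∨ v = u ∨ v = u ^ 2 ∨ v = u ^ 3 := by
  obtain ⟨i, rfl⟩ := hv
  have hx4 : u ^ (4 : ℤ) = 1 := by exact_mod_cast hu
  have h1 : u ^ i = u ^ (i % 4) := zpow_eq_zpow_emod i hx4
  have h2 : 0 ≤ i % 4 := Int.emod_nonneg _ (by norm_num)
  have h3 : i % 4 < 4 := Int.emod_lt_of_pos _ (by norm_num)
  simp only
  rw [h1]
  generalize i % 4 = r at *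
  interval_cases r
  · left; simp
  · right; left; simp
  · right; right; left; exact_mod_cast rfl
  · right; right; right; exact_mod_cast rfl

lemma conj_cases (hn : ∀ H : Subgroup G, H.Normal) {x : G} (hx : orderOf x = 4) (g : G) :
    SemiconjBy g x x ∨ SemiconjBy g x x⁻¹ := by
  have h1 : g * x * g⁻¹ ∈ zpowers x := (hn _).conj_mem x (mem_zpowers x) g
  have hx4 := pow_four hx
  rcases mem_zpowers_four hx4 h1 with h | h | h | h
  · exfalso
    have : x = 1 := by
      have := conj_eq_one_iff.1 h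
      exact this
    rw [this] at hx
    simp at hx
  · left
    exact mul_inv_eq_iff_eq_mul.1 h
  · exfalso
    have h2 : (g * x * g⁻¹) ^ 2 = 1 := by
      rw [h, ← pow_mul]; exact hx4
    rw [conj_pow] at h2
    exact sq_ne_one hx (conj_eq_one_iff.1 h2)
  · right
    rw [pow_three hx4] at h
    exact mul_inv_eq_iff_eq_mul.1 h

lemma no_order_four (hn : ∀ H : Subgroup G, H.Normal) {x y g : G} (hy : orderOf y = 4)
    (hxy : SemiconjBy x y y⁻¹) (hgx : Commute g x) (hgy : Commute g y) (hg4 : g ^ 4 = 1) :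
    g ^ 2 = 1 := by
  have hy4 := pow_four hy
  have hy2 := sq_ne_one hy
  have hncomm : ¬ Commute x y := by
    intro h
    have h1 : y * x = y⁻¹ * x := by rw [← h.eq]; exact hxy.eq
    have h2 : y = y⁻¹ := mul_right_cancel h1
    apply hy2
    rw [sq]
    nth_rewrite 1 [h2]
    simp
  have hu4 : (g * y) ^ 4 = 1 := by rw [hgy.mul_pow, hg4, hy4, one_mul]
  have h1 : x * (g * y) * x⁻¹ ∈ zpowers (g * y) := (hn _).conj_mem _ (mem_zpowers _) x
  have h2 : x * (g * y) * x⁻¹ = g * y⁻¹ := by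
    rw [← mul_assoc, ← hgx.eq, mul_assoc g, hxy.eq, mul_assoc, mul_assoc, mul_inv_cancel, mul_one]
  rw [h2] at h1
  rcases mem_zpowers_four hu4 h1 with h | h | h | h
  · exfalso
    have : g = y := by
      rw [mul_inv_eq_one] at h; exact h
    exact hncomm (this ▸ hgx).symm
  · exfalso
    have h3 : y⁻¹ = y := mul_left_cancel h
    apply hy2
    rw [sq]
    nth_rewrite 1 [← h3]
    simp
  · exfalso
    rw [hgy.mul_pow, sq g, mul_assoc] at h
    have h3 : y⁻¹ = g * y ^ 2 := mul_left_cancel h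
    have h4 : g = y := by
      have : g = y⁻¹ * (y ^ 2)⁻¹ := by rw [h3]; group
      rw [this, ← pow_three hy4, ← inv_pow, ← pow_three hy4, ← pow_mul, ← pow_add]
      have : y ^ (3 + 3 * 2) = (y ^ 4) ^ 2 * y := by rw [← pow_mul, ← pow_succ]
      rw [this, hy4, one_pow, one_mul]
    exact hncomm (h4 ▸ hgx).symm
  · rw [hgy.mul_pow, pow_three hy4] at h
    have h3 : g = g ^ 3 := mul_right_cancel h
    have h4 : g * 1 = g * g ^ 2 := by
      rw [mul_one, ← pow_succ']; exact h3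
    exact (mul_left_cancel h4).symm

lemma q8_pow_four (t : QuaternionGroup 2) : t ^ 4 = 1 := by
  revert t; decide

lemma q8_sq (t : QuaternionGroup 2) (h : t ^ 2 = 1) : t = 1 ∨ t = .a 2 := by
  revert t; decide

end

/-- A finite non-abelian group in which every subgroup is normal is the internal direct product of a subgroup isomorphic to the quaternion group of order `8`, an elementary abelian `2`-subgroup and an abelian subgroup of odd order. -/
theorem result {G : Type*} [Group G] [Finite G] (hna : ¬ IsMulCommutative G) (hn : ∀ H : Subgroup G, H.Normal) : ∃ Q E A : Subgroup G, Nonempty (Q ≃* QuaternionGroup 2) ∧ Cfsg.IsElementaryAbelian 2 E ∧ IsMulCommutative A ∧ Odd (Nat.card A) ∧ E ⊓ A = ⊥ ∧ Q ⊓ (E ⊔ A) = ⊥ ∧ Q ⊔ (E ⊔ A) = ⊤ := by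
  classical
  have hex : ∃ x y : G, ¬ Commute x y := by
    by_contra h
    push Not at h
    exact hna ⟨⟨fun a b => h a b⟩⟩
  obtain ⟨x, y, hx, hy, hsq, hcomm⟩ := exists_pair hn hex
  have hx4 := pow_four hx
  have hy4 := pow_four hy
  have hx2 := sq_ne_one hx
  have h0 : x * y = x ^ 2 * y * x := by
    rw [← hcomm, commutatorElement_def]; group
  have hxy : SemiconjBy x y y⁻¹ := by
    change x * y = y⁻¹ * x
    rw [h0, hsq, ← pow_succ, pow_three hy4]
  have hyx : SemiconjBy y x x⁻¹ := by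
    change y * x = x⁻¹ * y
    have h1 : x * y = x * (x * y * x) := h0.trans (by rw [sq]; simp only [mul_assoc])
    have h2 : y = x * y * x := mul_left_cancel h1
    nth_rewrite 2 [h2]
    group
  have h3 : y⁻¹ * x * y = x⁻¹ := by
    have : x * y = y * x⁻¹ := by
      have := hyx.inv_right.eq
      rw [inv_inv] at this
      exact this.symm
    rw [mul_assoc, this]; group
  have hyx' : y ∉ zpowers x := by
    intro h
    have h1 := commute_of_mem_zpowers h
    have h2 : ⁅x, y⁆ = 1 := commutatorElement_eq_one_iff_commute.2 h1.symm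
    exact hx2 (hcomm ▸ h2)
  have hx' : orderOf x = 2 * 2 := hx
  have hinj := Cfsg.Agent.Lib.Helper5.quaternionLift_injective x y hx' hsq.symm h3 hyx'
  have hQe := Cfsg.Agent.Lib.Helper5.quaternionLift_range_equiv x y hx' hsq.symm h3 hyx'
  set φ := Cfsg.Agent.Lib.Helper5.quaternionLift x y (hx' ▸ pow_orderOf_eq_one x) hsq.symm h3 with hφ
  set Q := φ.range with hQ
  have hxQ : x ∈ Q := ⟨.a 1, by
    rw [hφ, Cfsg.Agent.Lib.Helper5.quaternionLift_a]
    exact pow_one x⟩
  have hyQ : y ∈ Q := ⟨.xa 0, by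
    rw [hφ, Cfsg.Agent.Lib.Helper5.quaternionLift_xa]
    exact (congrArg (y * ·) (pow_zero x)).trans (mul_one y)⟩
  have hQ4 : ∀ q ∈ Q, q ^ 4 = 1 := by
    rintro _ ⟨t, rfl⟩
    rw [← map_pow, q8_pow_four, map_one]
  have hQ2 : ∀ q ∈ Q, q ^ 2 = 1 → q = 1 ∨ q = x ^ 2 := by
    rintro _ ⟨t, rfl⟩ h
    rw [← map_pow, map_eq_one_iff _ hinj] at h
    rcases q8_sq t h with rfl | rfl
    · left; exact map_one _
    · right
      rw [hφ, Cfsg.Agent.Lib.Helper5.quaternionLift_a]
      rfl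
  set C := centralizer ({x, y} : Set G) with hCdef
  have hC : ∀ g, g ∈ C ↔ Commute g x ∧ Commute g y := by
    intro g
    rw [hCdef, mem_centralizer_iff]
    constructor
    · intro h
      exact ⟨(h x (by simp)).symm, (h y (by simp)).symm⟩
    · rintro ⟨h1, h2⟩ h hh
      rcases hh with rfl | rfl
      · exact h1.eq.symm
      · exact h2.eq.symm
  have hCno4 : ∀ g ∈ C, g ^ 4 = 1 → g ^ 2 = 1 := by
    intro g hg hg4
    exact no_order_four hn hy hxy ((hC g).1 hg).1 ((hC g).1 hg).2 hg4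
  have hCcomm : ∀ a ∈ C, ∀ b ∈ C, Commute a b := by
    by_contra hcon
    push Not at hcon
    obtain ⟨a, ha, b, hb, hab⟩ := hcon
    have hnC : ∀ H : Subgroup ↥C, H.Normal := fun H => by
      have := (hn (H.map C.subtype)).comap C.subtype
      rwa [Subgroup.comap_map_eq_self_of_injective C.subtype_injective] at this
    obtain ⟨x', y', hx', -⟩ := exists_pair hnC ⟨⟨a, ha⟩, ⟨b, hb⟩, fun h => hab (by
      have := congrArg Subtype.val h.eq
      exact this)⟩
    have h4 : (x' : G) ^ 4 = 1 := by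
      have := congrArg Subtype.val (pow_four hx')
      simpa using this
    have h2 := hCno4 x' x'.2 h4
    exact sq_ne_one hx' (Subtype.ext (by simpa using h2))
  have hdec : ∀ k ∈ C, ∃ e a, e ∈ C ∧ e ^ 2 = 1 ∧ a ∈ C ∧ Odd (orderOf a) ∧ k = e * a := by
    intro k hk
    obtain ⟨s, u, hu, ho⟩ := Nat.exists_eq_two_pow_mul_odd (orderOf_pos k).ne'
    have hupos : 0 < u := hu.pos
    have hs : s ≤ 1 := by
      by_contra hs
      obtain ⟨r, rfl⟩ : ∃ r, s = r + 2 := ⟨s - 2, by omega⟩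
      have h4 : (k ^ (2 ^ r * u)) ^ 4 = 1 := by
        rw [← pow_mul]
        have : 2 ^ r * u * 4 = orderOf k := by rw [ho]; ring
        rw [this, pow_orderOf_eq_one]
      have h2 := hCno4 _ (pow_mem hk _) h4
      rw [← pow_mul] at h2
      have h5 := Nat.le_of_dvd (by positivity) (orderOf_dvd_of_pow_eq_one h2)
      rw [ho] at h5
      have h6 : 0 < 2 ^ r * u := by positivity
      have h7 : 2 ^ (r + 2) * u = 2 ^ r * u * 4 := by ring
      omega
    have h2u : k ^ (2 * u) = 1 := by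
      apply orderOf_dvd_iff_pow_eq_one.1
      rw [ho]
      interval_cases s
      · simp
      · simp
    obtain ⟨t, rfl⟩ := hu
    refine ⟨k ^ (2 * t + 1), (k ^ (2 * t))⁻¹, pow_mem hk _, ?_, inv_mem (pow_mem hk _), ?_, ?_⟩
    · rw [← pow_mul, mul_comm]; exact h2u
    · have : ((k ^ (2 * t))⁻¹) ^ (2 * t + 1) = 1 := by
        rw [inv_pow, inv_eq_one, ← pow_mul]
        have : 2 * t * (2 * t + 1) = 2 * (2 * t + 1) * t := by ring
        rw [this, pow_mul, h2u, one_pow]
      exact Odd.of_dvd_nat ⟨t, rfl⟩ (orderOf_dvd_of_pow_eq_one this)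
    · rw [pow_succ']; group
  let A : Subgroup G :=
    { carrier := {g | g ∈ C ∧ Odd (orderOf g)}
      one_mem' := ⟨one_mem _, by simp⟩
      inv_mem' := by
        rintro g ⟨h1, h2⟩
        exact ⟨inv_mem h1, by rwa [orderOf_inv]⟩
      mul_mem' := by
        rintro g h ⟨h1, h2⟩ ⟨h3, h4⟩
        exact ⟨mul_mem h1 h3, Odd.of_dvd_nat (h2.mul h4) (hCcomm g h1 h h3).orderOf_mul_dvd_mul_orderOf⟩ }
  have hA : ∀ g, g ∈ A ↔ g ∈ C ∧ Odd (orderOf g) := fun g => Iff.rfl
  let S : Set (Subgroup G) := {H | H ≤ C ∧ (∀ g ∈ H, g ^ 2 = 1) ∧ x ^ 2 ∉ H}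
  obtain ⟨E, hE⟩ := (Set.toFinite S).exists_maximal ⟨⊥, bot_le, by
    intro g hg
    rw [mem_bot] at hg
    rw [hg, one_pow], by
    rw [mem_bot]; exact hx2⟩
  obtain ⟨hEC, hE2, hEc⟩ := hE.prop
  have hEmax : ∀ e ∈ C, e ^ 2 = 1 → e ∈ E ∨ x ^ 2 * e ∈ E := by
    intro e heC he2
    by_cases he : e ∈ E
    · exact Or.inl he
    right
    have := hn (zpowers e)
    have hz : ∀ b ∈ zpowers e, b = 1 ∨ b = e := by
      intro b hb
      have he4 : e ^ 4 = 1 := by
        have : e ^ 4 = (e ^ 2) ^ 2 := by rw [← pow_mul]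
        rw [this, he2, one_pow]
      rcases mem_zpowers_four he4 hb with h | h | h | h
      · exact Or.inl h
      · exact Or.inr h
      · exact Or.inl (h.trans he2)
      · right
        rw [h, pow_succ, he2, one_mul]
    have hHS : x ^ 2 ∈ E ⊔ zpowers e := by
      by_contra hnot
      have hH : E ⊔ zpowers e ∈ S := by
        refine ⟨sup_le hEC (zpowers_le.2 heC), ?_, hnot⟩
        intro g hg
        obtain ⟨a, ha, b, hb, rfl⟩ := mem_sup_of_normal_right.1 hg
        have hbC : b ∈ C := (zpowers_le.2 heC) hb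
        rw [(hCcomm a (hEC ha) b hbC).mul_pow, hE2 a ha, one_mul]
        rcases hz b hb with rfl | rfl
        · exact one_pow _
        · exact he2
      have : E = E ⊔ zpowers e := hE.eq_of_le hH le_sup_left
      exact he (this ▸ (mem_sup_right (mem_zpowers e)))
    obtain ⟨a, ha, b, hb, hab⟩ := mem_sup_of_normal_right.1 hHS
    rcases hz b hb with rfl | rfl
    · rw [mul_one] at hab
      exact absurd (hab ▸ ha) hEc
    · have : x ^ 2 * b = a := by
        rw [← hab, mul_assoc, ← sq, he2, mul_one]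
      exact this ▸ ha
  refine ⟨Q, E, A, hQe, ⟨⟨⟨?_⟩⟩, hE2⟩, ⟨⟨?_⟩⟩, ?_, ?_, ?_, ?_⟩
  · rintro ⟨a, ha⟩ ⟨b, hb⟩
    exact Subtype.ext (hCcomm a (hEC ha) b (hEC hb)).eq
  · rintro ⟨a, ha⟩ ⟨b, hb⟩
    exact Subtype.ext (hCcomm a ha.1 b hb.1).eq
  · by_contra hodd
    rw [Nat.not_odd_iff_even] at hodd
    obtain ⟨a, ha⟩ := exists_prime_orderOf_dvd_card' (G := ↥A) 2 hodd.two_dvd
    have h1 : Odd (orderOf (a : G)) := a.2.2
    rw [Subgroup.orderOf_coe, ha] at h1
    exact absurd h1 (by decide)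
  · rw [eq_bot_iff]
    rintro g ⟨hgE, hgA⟩
    rw [mem_bot]
    have h1 := orderOf_dvd_of_pow_eq_one (hE2 g hgE)
    have h2 : Odd (orderOf g) := hgA.2
    rcases (Nat.dvd_prime Nat.prime_two).1 h1 with h | h
    · exact orderOf_eq_one_iff.1 h
    · rw [h] at h2
      exact absurd h2 (by decide)
  · rw [eq_bot_iff]
    rintro g ⟨hgQ, hgEA⟩
    rw [mem_bot]
    have := hn A
    obtain ⟨e, he, a, ha, rfl⟩ := mem_sup_of_normal_right.1 hgEA
    have h4 := hQ4 _ hgQ
    have he4 : e ^ 4 = 1 := by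
      have : e ^ 4 = (e ^ 2) ^ 2 := by rw [← pow_mul]
      rw [this, hE2 e he, one_pow]
    rw [(hCcomm e (hEC he) a ha.1).mul_pow, he4, one_mul] at h4
    have ha1 : a = 1 := by
      have h5 := orderOf_dvd_of_pow_eq_one h4
      have h6 : Odd (orderOf a) := ha.2
      have h7 : Nat.Coprime (orderOf a) (2 ^ 2) := (Nat.Coprime.pow_right 2 h6.coprime_two_right)
      exact orderOf_eq_one_iff.1 (Nat.Coprime.eq_one_of_dvd h7 h5)
    subst ha1
    rw [mul_one] at hgQ ⊢
    rcases hQ2 e hgQ (hE2 e he) with h | h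
    · exact h
    · exact absurd (h ▸ he) hEc
  · rw [eq_top_iff]
    intro g _
    have hQT : Q ≤ Q ⊔ (E ⊔ A) := le_sup_left
    have hET : E ≤ Q ⊔ (E ⊔ A) := le_sup_left.trans le_sup_right
    have hAT : A ≤ Q ⊔ (E ⊔ A) := le_sup_right.trans le_sup_right
    have hCT : C ≤ Q ⊔ (E ⊔ A) := by
      intro k hk
      obtain ⟨e, a, heC, he2, haC, hao, rfl⟩ := hdec k hk
      refine mul_mem ?_ (hAT ⟨haC, hao⟩)
      rcases hEmax e heC he2 with h | h
      · exact hET h
      · have : e = (x ^ 2)⁻¹ * (x ^ 2 * e) := by group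
        rw [this]
        exact mul_mem (inv_mem (hQT (pow_mem hxQ 2))) (hET h)
    obtain ⟨q, hq, hgq⟩ : ∃ q ∈ Q, g * q ∈ C := by
      have hxx : SemiconjBy x x x := (Commute.refl x)
      have hyy : SemiconjBy y y y := (Commute.refl y)
      rcases conj_cases hn hx g with h1 | h1 <;> rcases conj_cases hn hy g with h2 | h2
      · exact ⟨1, one_mem _, by rw [mul_one]; exact (hC g).2 ⟨h1, h2⟩⟩
      · refine ⟨x, hxQ, (hC _).2 ⟨h1.mul_left hxx, ?_⟩⟩
        have := h2.inv_right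
        rw [inv_inv] at this
        exact this.mul_left hxy
      · refine ⟨y, hyQ, (hC _).2 ⟨?_, h2.mul_left hyy⟩⟩
        have := h1.inv_right
        rw [inv_inv] at this
        exact this.mul_left hyx
      · refine ⟨x * y, mul_mem hxQ hyQ, (hC _).2 ⟨?_, ?_⟩⟩
        · have := h1.inv_right
          rw [inv_inv] at this
          exact this.mul_left (hxx.inv_right.mul_left hyx)
        · have := h2.inv_right
          rw [inv_inv] at this
          exact this.mul_left (hxy.mul_left hyy)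
    have : g = (g * q) * q⁻¹ := by group
    rw [this]
    exact mul_mem (hCT hgq) (inv_mem (hQT hq))

end Cfsg.Agent.S4211
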