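import Cfsg.Statements.S4214
import Cfsg.Agent.Lib.Helper1.Hall
import Cfsg.Agent.Lib.Helper1.MinimalNormal
import Cfsg.Agent.Lib.Helper9.Schmidt

set_option autoImplicit false
open Cfsg

namespace Cfsg.Agent.S4214

open Subgroup Cfsg.Agent.Lib.Helper1
open scoped Pointwise

/-- products of numbers congruent to `1` modulo a prime divisor of `m`. -/
def PP (m c : ℕ) : Prop :=
  ∃ l : List ℕ, l.prod = c ∧ ∀ x ∈ l, ∃ q : ℕ, q.Prime ∧ q ∣ m ∧ x ≡ 1 [MOD q]

lemma PP_one (m : ℕ) : PP m 1 := ⟨[], rfl, by simp⟩

lemma PP.mul {m a b : ℕ} (ha : PP m a) (hb : PP m b) : PP m (a * b) := by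
  obtain ⟨l, rfl, hl⟩ := ha
  obtain ⟨l', rfl, hl'⟩ := hb
  refine ⟨l ++ l', List.prod_append, ?_⟩
  intro x hx
  rcases List.mem_append.1 hx with h | h
  · exact hl x h
  · exact hl' x h

lemma PP.mono {m m' a : ℕ} (h : m ∣ m') (ha : PP m a) : PP m' a := by
  obtain ⟨l, rfl, hl⟩ := ha
  refine ⟨l, rfl, fun x hx => ?_⟩
  obtain ⟨q, hq, hqm, hx'⟩ := hl x hx
  exact ⟨q, hq, hqm.trans h, hx'⟩

lemma PP_single {m x q : ℕ} (hq : q.Prime) (hqm : q ∣ m) (hx : x ≡ 1 [MOD q]) : PP m x :=
  ⟨[x], by simp, by
    intro y hy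
    rw [List.mem_singleton] at hy
    exact ⟨q, hq, hqm, hy ▸ hx⟩⟩

variable {G : Type*} [Group G] [Finite G]

/-- one step: `H₁ ⊴ H` of prime index `r`. -/
lemma step_modEq (N H H₁ : Subgroup G) (hHN : H ≤ normalizer (N : Set G)) (h₁ : H₁ ≤ H)
    (hn : H ≤ normalizer (H₁ : Set G)) {r : ℕ} (hr : r.Prime) (hidx : H₁.relIndex H = r)
    (hcop : r.Coprime (Nat.card N)) :
    (N ⊓ centralizer (H : Set G)).relIndex (N ⊓ centralizer (H₁ : Set G)) ≡ 1 [MOD r] := by
  classical
  have : Fact r.Prime := ⟨hr⟩
  set N₁ := N ⊓ centralizer (H₁ : Set G) with hN₁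
  set C := N ⊓ centralizer (H : Set G) with hC
  have hCN₁ : C ≤ N₁ := inf_le_inf_left N (centralizer_le h₁)
  -- pick x
  obtain ⟨x, hxH, hxH₁⟩ : ∃ x ∈ H, x ∉ H₁ := by
    by_contra hcon
    push Not at hcon
    have : H ≤ H₁ := hcon
    have h1 : H₁.relIndex H = 1 := relIndex_eq_one.2 this
    rw [hidx] at h1
    exact hr.one_lt.ne' h1
  have hnorm : (H₁.subgroupOf H).Normal := (normal_subgroupOf_iff_le_normalizer h₁).2 hn
  have hxr : x ^ r ∈ H₁ := by
    have := Subgroup.pow_index_mem (H₁.subgroupOf H) (⟨x, hxH⟩ : H)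
    rw [mem_subgroupOf] at this
    have h2 : (H₁.subgroupOf H).index = r := hidx
    rw [h2] at this
    simpa using this
  have hconj : ∀ a ∈ N₁, x * a * x⁻¹ ∈ N₁ := by
    intro a ha
    refine ⟨?_, ?_⟩
    · exact (mem_normalizer_iff.1 (hHN hxH) a).1 ha.1
    · change x * a * x⁻¹ ∈ centralizer (H₁ : Set G)
      rw [mem_centralizer_iff]
      intro h hh
      have h1 : x⁻¹ * h * x ∈ H₁ := by
        have := (mem_normalizer_iff.1 (hn (inv_mem hxH)) h).1 hh
        simpa using this
      have h2 := (mem_centralizer_iff.1 ha.2) _ h1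
      calc h * (x * a * x⁻¹) = x * ((x⁻¹ * h * x) * a) * x⁻¹ := by group
        _ = x * (a * (x⁻¹ * h * x)) * x⁻¹ := by rw [h2]
        _ = x * a * x⁻¹ * h := by group
  have hconj' : ∀ a ∈ N₁, x⁻¹ * a * x ∈ N₁ := by
    intro a ha
    refine ⟨?_, ?_⟩
    · have := (mem_normalizer_iff.1 (hHN (inv_mem hxH)) a).1 ha.1
      simpa using this
    · change x⁻¹ * a * x ∈ centralizer (H₁ : Set G)
      rw [mem_centralizer_iff]
      intro h hh
      have h1 : x * h * x⁻¹ ∈ H₁ := (mem_normalizer_iff.1 (hn hxH) h).1 hh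
      have h2 := (mem_centralizer_iff.1 ha.2) _ h1
      calc h * (x⁻¹ * a * x) = x⁻¹ * ((x * h * x⁻¹) * a) * x := by group
        _ = x⁻¹ * (a * (x * h * x⁻¹)) * x := by rw [h2]
        _ = x⁻¹ * a * x * h := by group
  have := Fintype.ofFinite ↥N₁
  let f : Equiv.Perm ↥N₁ :=
    { toFun := fun a => ⟨x * a * x⁻¹, hconj a a.2⟩
      invFun := fun a => ⟨x⁻¹ * a * x, hconj' a a.2⟩
      left_inv := fun a => Subtype.ext (by simp [mul_assoc])
      right_inv := fun a => Subtype.ext (by simp [mul_assoc]) }
  have hf1 : ∀ a : ↥N₁, ((f a : ↥N₁) : G) = x * a * x⁻¹ := fun a => rfl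
  have hfk : ∀ (k : ℕ) (a : ↥N₁), (((f ^ k) a : ↥N₁) : G) = x ^ k * a * (x ^ k)⁻¹ := by
    intro k
    induction k with
    | zero => intro a; simp
    | succ k ih =>
      intro a
      rw [pow_succ', Equiv.Perm.mul_apply, hf1, ih, pow_succ']
      group
  have hf : f ^ r ^ 1 = 1 := by
    ext a
    rw [pow_one, hfk]
    have h2 := (mem_centralizer_iff.1 a.2.2) _ hxr
    rw [h2]
    simp
  have key := (Equiv.Perm.card_compl_support_modEq hf).symm
  have hfix : (f.support)ᶜ.card = Nat.card C := by
    rw [← Fintype.card_coe, ← Nat.card_eq_fintype_card]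
    have hmem : ∀ a : ↥N₁, a ∈ (f.support)ᶜ ↔ x * a * x⁻¹ = a := by
      intro a
      rw [Finset.mem_compl, Equiv.Perm.mem_support, not_not]
      exact ⟨fun h => congrArg Subtype.val h, fun h => Subtype.ext h⟩
    refine Nat.card_congr ⟨fun a => ⟨a.1.1, ?_⟩, fun c => ⟨⟨c.1, hCN₁ c.2⟩, ?_⟩, fun a => rfl, fun c => rfl⟩
    · refine ⟨a.1.2.1, ?_⟩
      -- the centralizer of a in H is everything
      have hfa : x * a.1.1 * x⁻¹ = a.1.1 := (hmem a.1).1 a.2
      let K : Subgroup H := (centralizer ({a.1.1} : Set G)).subgroupOf H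
      have hK : K = ⊤ := by
        have h3 : K.index ∣ r := by
          have h4 : H₁.subgroupOf H ≤ K := by
            intro y hy
            rw [mem_subgroupOf] at hy ⊢
            rw [mem_centralizer_singleton_iff]
            exact ((mem_centralizer_iff.1 a.1.2.2) _ hy)
          have := Subgroup.index_dvd_of_le h4
          rwa [show (H₁.subgroupOf H).index = r from hidx] at this
        rcases (Nat.dvd_prime hr).1 h3 with h5 | h5
        · exact index_eq_one.1 h5
        · exfalso
          have h4 : H₁.subgroupOf H ≤ K := by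
            intro y hy
            rw [mem_subgroupOf] at hy ⊢
            rw [mem_centralizer_singleton_iff]
            exact ((mem_centralizer_iff.1 a.1.2.2) _ hy)
          have h6 : H₁.subgroupOf H = K := by
            apply Subgroup.eq_of_le_of_card_ge h4
            have e1 := (H₁.subgroupOf H).card_mul_index
            have e2 := K.card_mul_index
            rw [show (H₁.subgroupOf H).index = r from hidx] at e1
            rw [h5, ← e1] at e2
            exact (Nat.eq_of_mul_eq_mul_right hr.pos e2).le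
          have h7 : (⟨x, hxH⟩ : H) ∈ K := by
            rw [mem_subgroupOf, mem_centralizer_singleton_iff]
            change x * a.1.1 = a.1.1 * x
            exact mul_inv_eq_iff_eq_mul.1 hfa
          rw [← h6, mem_subgroupOf] at h7
          exact hxH₁ h7
      change a.1.1 ∈ centralizer (H : Set G)
      rw [mem_centralizer_iff]
      intro h hh
      have : (⟨h, hh⟩ : H) ∈ K := hK ▸ mem_top _
      rw [mem_subgroupOf, mem_centralizer_singleton_iff] at this
      exact this
    · rw [hmem]
      change x * c.1 * x⁻¹ = c.1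
      have := (mem_centralizer_iff.1 c.2.2) x hxH
      rw [this]
      group
  rw [hfix, ← Nat.card_eq_fintype_card, ← relIndex_mul_card hCN₁] at key
  have hcopC : Nat.gcd r (Nat.card C) = 1 :=
    Nat.Coprime.coprime_dvd_right (card_dvd_of_le inf_le_left) hcop
  have key' : C.relIndex N₁ * Nat.card C ≡ 1 * Nat.card C [MOD r] := by
    rw [one_mul]; exact key
  exact Nat.ModEq.cancel_right_of_coprime hcopC key'

lemma PP_relIndex (N : Subgroup G) : ∀ (k : ℕ) (H : Subgroup G), Nat.card H = k →
    Group.IsSolvable H → H ≤ normalizer (N : Set G) → (Nat.card H).Coprime (Nat.card N) →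
    PP (Nat.card H) ((N ⊓ centralizer (H : Set G)).relIndex N) := by
  intro k
  induction k using Nat.strong_induction_on with
  | _ k ih =>
    intro H hk hs hHN hcop
    by_cases hbot : H = ⊥
    · subst hbot
      have : N ⊓ centralizer ((⊥ : Subgroup G) : Set G) = N := by
        rw [inf_eq_left]
        intro a _
        rw [mem_centralizer_iff]
        intro h hh
        have : h = 1 := hh
        rw [this]; simp
      rw [this, relIndex_self]
      exact PP_one _
    · have hnt : Nontrivial H := (nontrivial_iff_ne_bot H).2 hbot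
      obtain ⟨M, hMn, hMp⟩ := Cfsg.Agent.Lib.Helper9.exists_normal_prime_index (G := H)
      set H₁ := M.map H.subtype with hH₁
      have h₁ : H₁ ≤ H := map_subtype_le M
      have hsub : H₁.subgroupOf H = M := by
        rw [hH₁, subgroupOf, comap_map_eq_self_of_injective H.subtype_injective]
      have hidx : H₁.relIndex H = M.index := by rw [relIndex, hsub]
      have hn : H ≤ normalizer (H₁ : Set G) := by
        rw [← normal_subgroupOf_iff_le_normalizer h₁, hsub]; exact hMn
      have hcard : M.index * Nat.card H₁ = Nat.card H := by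
        rw [← hidx]; exact relIndex_mul_card h₁
      have hlt : Nat.card H₁ < k := by
        rw [← hk, ← hcard]
        have : 0 < Nat.card H₁ := Nat.card_pos
        have := hMp.one_lt
        nlinarith
      have hd1 : Nat.card H₁ ∣ Nat.card H := card_dvd_of_le h₁
      have hd2 : M.index ∣ Nat.card H := Dvd.intro _ hcard
      have ih1 := ih _ hlt H₁ rfl (isSolvable_of_le h₁ hs) (h₁.trans hHN)
        (Nat.Coprime.coprime_dvd_left hd1 hcop)
      have h2 := step_modEq N H H₁ hHN h₁ hn hMp hidx (Nat.Coprime.coprime_dvd_left hd2 hcop)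
      have h3 := relIndex_mul_relIndex (N ⊓ centralizer (H : Set G)) (N ⊓ centralizer (H₁ : Set G)) N
        (inf_le_inf_left N (centralizer_le h₁)) inf_le_left
      rw [← h3]
      exact (PP_single hMp hd2 h2).mul (ih1.mono hd1)

/-- the number of Hall subgroups is the index of the normalizer. -/
lemma hall_count [Group.IsSolvable G] (m n : ℕ) (hG : Nat.card G = m * n) (hmn : m.Coprime n)
    (H : Subgroup G) (hH : Nat.card H = m) :
    Nat.card {H' : Subgroup G // Nat.card H' = m} = (normalizer (H : Set G)).index := by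
  symm
  rw [Subgroup.index]
  let φ : G ⧸ normalizer (H : Set G) → {H' : Subgroup G // Nat.card H' = m} :=
    Quotient.lift (fun g => ⟨MulAut.conj g • H, by rw [card_conj_smul, hH]⟩) (by
      intro a b hab
      have hab' : a⁻¹ * b ∈ normalizer (H : Set G) := QuotientGroup.leftRel_apply.1 hab
      apply Subtype.ext
      change MulAut.conj a • H = MulAut.conj b • H
      rw [mem_normalizer_iff_conj_smul, conj_mul_smul, conj_inv_smul_eq_iff] at hab'
      exact hab'.symm)
  refine Nat.card_congr (Equiv.ofBijective φ ⟨?_, ?_⟩)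
  · intro a b
    refine Quotient.inductionOn₂ a b ?_
    intro a b hab
    have h1 : MulAut.conj a • H = MulAut.conj b • H := congrArg Subtype.val hab
    apply Quotient.sound
    change QuotientGroup.leftRel _ a b
    rw [QuotientGroup.leftRel_apply, mem_normalizer_iff_conj_smul, conj_mul_smul,
      conj_inv_smul_eq_iff]
    exact h1.symm
  · rintro ⟨K, hK⟩
    obtain ⟨g, hg⟩ := hall_conj m n hG hmn H K hH hK
    exact ⟨Quotient.mk _ g, Subtype.ext hg⟩

omit [Finite G] in
lemma normalizer_le_normalizer_sup (H N : Subgroup G) [N.Normal] :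
    normalizer (H : Set G) ≤ normalizer ((H ⊔ N : Subgroup G) : Set G) := by
  intro g hg
  rw [mem_normalizer_iff_conj_smul] at hg ⊢
  rw [Subgroup.smul_sup, hg, Subgroup.Normal.conj_smul_eq_self]

lemma c_eq (H N : Subgroup G) [N.Normal] (hs : Group.IsSolvable (H ⊔ N : Subgroup G))
    (hcop : (Nat.card H).Coprime (Nat.card N)) :
    (normalizer (H : Set G)).relIndex (normalizer ((H ⊔ N : Subgroup G) : Set G)) =
      (N ⊓ centralizer (H : Set G)).relIndex N := by
  set A := normalizer (H : Set G) with hA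
  set B := normalizer ((H ⊔ N : Subgroup G) : Set G) with hB
  have hAB : A ≤ B := normalizer_le_normalizer_sup H N
  have hdisj : Disjoint H N := disjoint_of_coprime_natCard hcop
  have hHn : H ≤ normalizer (N : Set G) := le_normalizer_of_normal
  have hrel : H.relIndex (H ⊔ N) = Nat.card N := by
    have h1 := relIndex_mul_card (le_sup_left : H ≤ H ⊔ N)
    rw [card_sup_of_disjoint hHn hdisj, mul_comm] at h1
    exact Nat.eq_of_mul_eq_mul_left Nat.card_pos h1
  have hBle : B ≤ A ⊔ N := by
    intro g hg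
    have hg' := mem_normalizer_iff_conj_smul.1 hg
    have h1 : MulAut.conj g • H ≤ H ⊔ N := by
      conv_rhs => rw [← hg']
      exact pointwise_smul_le_pointwise_smul_iff.2 le_sup_left
    obtain ⟨l, hl, hl'⟩ := hall_conj_rel (H ⊔ N) hs H (MulAut.conj g • H) le_sup_left h1
      (by rw [hrel]; exact hcop) (card_conj_smul g H)
    have h2 : l⁻¹ * g ∈ A := by
      rw [hA, mem_normalizer_iff_conj_smul, conj_mul_smul, conj_inv_smul_eq_iff, hl']
    have h3 : g = l * (l⁻¹ * g) := by group
    rw [h3]
    have h4 : H ⊔ N ≤ A ⊔ N := sup_le_sup_right le_normalizer N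
    exact mul_mem (h4 hl) (mem_sup_left h2)
  have hBeq : B = A ⊔ N := by
    apply le_antisymm hBle
    refine sup_le hAB ?_
    exact (le_sup_right : N ≤ H ⊔ N).trans le_normalizer
  have hinf : A ⊓ N = N ⊓ centralizer (H : Set G) := by
    apply le_antisymm
    · rintro a ⟨haA, haN⟩
      refine ⟨haN, ?_⟩
      change a ∈ centralizer (H : Set G)
      rw [mem_centralizer_iff]
      intro h hh
      have h1 : a * h * a⁻¹ * h⁻¹ ∈ H :=
        mul_mem ((mem_normalizer_iff.1 haA h).1 hh) (inv_mem hh)
      have h2 : a * h * a⁻¹ * h⁻¹ ∈ N := by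
        have : a * h * a⁻¹ * h⁻¹ = a * (h * a⁻¹ * h⁻¹) := by group
        rw [this]
        exact mul_mem haN (‹N.Normal›.conj_mem _ (inv_mem haN) h)
      have h3 : a * h * a⁻¹ * h⁻¹ = 1 := by
        have : a * h * a⁻¹ * h⁻¹ ∈ H ⊓ N := ⟨h1, h2⟩
        rw [hdisj.eq_bot] at this
        exact this
      have h4 : a * h = h * a := by
        have := mul_inv_eq_one.1 h3
        exact mul_inv_eq_iff_eq_mul.1 this
      exact h4.symm
    · rintro a ⟨haN, haC⟩
      refine ⟨?_, haN⟩
      change a ∈ normalizer (H : Set G)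
      rw [mem_normalizer_iff]
      intro h
      have hc : ∀ y ∈ H, y * a = a * y := fun y hy => (mem_centralizer_iff.1 haC) y hy
      constructor
      · intro hh
        have : a * h * a⁻¹ = h := by rw [← hc h hh]; group
        rw [this]; exact hh
      · intro hh
        have h5 := hc _ hh
        have : h = a * h * a⁻¹ := by
          have h6 : a * h * a⁻¹ * a = a * (a * h * a⁻¹) := h5
          have h7 : a * h = a * (a * h * a⁻¹) := by
            rw [← h6]; group
          exact mul_left_cancel h7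
        rw [this]; exact hh
  have e1 := card_sup_mul_card_inf (H := A) (K := N) le_normalizer_of_normal
  have e2 := relIndex_mul_card hAB
  have e3 := relIndex_mul_card (inf_le_left : N ⊓ centralizer (H : Set G) ≤ N)
  rw [← hBeq, hinf, ← e2, ← e3] at e1
  have hpos1 : 0 < Nat.card A := Nat.card_pos
  have hpos2 : 0 < Nat.card (N ⊓ centralizer (H : Set G) : Subgroup G) := Nat.card_pos
  have e4 : A.relIndex B * (Nat.card A * Nat.card (N ⊓ centralizer (H : Set G) : Subgroup G)) =
      (N ⊓ centralizer (H : Set G)).relIndex N *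
        (Nat.card A * Nat.card (N ⊓ centralizer (H : Set G) : Subgroup G)) := by
    calc _ = A.relIndex B * Nat.card A * Nat.card (N ⊓ centralizer (H : Set G) : Subgroup G) := by ring
      _ = _ := e1
      _ = _ := by ring
  exact Nat.eq_of_mul_eq_mul_right (Nat.mul_pos hpos1 hpos2) e4

/-- the conditions on a single factor. -/
def Good (G : Type*) [Group G] (m x : ℕ) : Prop :=
  (∃ q e : ℕ, q.Prime ∧ x = q ^ e) ∧ (∃ K L : Subgroup G, K.Normal ∧ L.Normal ∧ K < L ∧ (∀ M : Subgroup G, M.Normal → K ≤ M → M ≤ L → M = K ∨ M = L) ∧ x ∣ K.relIndex L) ∧ (∃ q : ℕ, q.Prime ∧ q ∣ m ∧ x ≡ 1 [MOD q])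

omit [Finite G] in
lemma Good.lift (N : Subgroup G) [N.Normal] {m' m x : ℕ} (hm : m' ∣ m) (h : Good (G ⧸ N) m' x) :
    Good G m x := by
  obtain ⟨h1, ⟨K, L, hK, hL, hKL, hmax, hx⟩, ⟨q, hq, hqm, hxq⟩⟩ := h
  have hsurj := QuotientGroup.mk'_surjective N
  refine ⟨h1, ⟨K.comap (QuotientGroup.mk' N), L.comap (QuotientGroup.mk' N), hK.comap _,
    hL.comap _, (comap_lt_comap_of_surjective hsurj).2 hKL, ?_, ?_⟩, ⟨q, hq, hqm.trans hm, hxq⟩⟩
  · intro M hM hKM hML
    have hker : (QuotientGroup.mk' N).ker ≤ M := (ker_le_comap _ K).trans hKM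
    have hMeq : (M.map (QuotientGroup.mk' N)).comap (QuotientGroup.mk' N) = M := by
      rw [comap_map_eq, sup_eq_left]; exact hker
    have h2 : K ≤ M.map (QuotientGroup.mk' N) := by
      have := map_mono (f := QuotientGroup.mk' N) hKM
      rwa [map_comap_eq_self_of_surjective hsurj] at this
    have h3 : M.map (QuotientGroup.mk' N) ≤ L := map_le_iff_le_comap.2 hML
    rcases hmax _ (hM.map _ hsurj) h2 h3 with h4 | h4
    · left; rw [← hMeq, h4]
    · right; rw [← hMeq, h4]
  · rw [relIndex_comap, map_comap_eq_self_of_surjective hsurj]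
    exact hx

universe u

theorem main : ∀ (k : ℕ) (G : Type u) [Group G] [Finite G] [Group.IsSolvable G], Nat.card G = k →
    ∀ (H : Subgroup G), (Nat.card H).Coprime H.index →
    ∃ l : List ℕ, l.prod = (normalizer (H : Set G)).index ∧ ∀ x ∈ l, Good G (Nat.card H) x := by
  intro k
  induction k using Nat.strong_induction_on with
  | _ k ih =>
    intro G _ _ _ hk H hcop
    by_cases hnt : Nontrivial G
    swap
    · rw [not_nontrivial_iff_subsingleton] at hnt
      refine ⟨[], ?_, by simp⟩
      have : normalizer (H : Set G) = ⊤ := Subsingleton.elim _ _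
      rw [this, index_top]; rfl
    obtain ⟨N, hNn, hNbot, hNmin⟩ := exists_minimal_normal (G := G)
    obtain ⟨-, q, hq, hNq⟩ := minimal_normal_elementary_abelian N inferInstance hNbot hNmin
    have : Fact q.Prime := ⟨hq⟩
    obtain ⟨e, he⟩ := (IsPGroup.iff_card).1 (isPGroup_of_forall_pow_eq_one hNq)
    have hsurj := QuotientGroup.mk'_surjective N
    set H' := H.map (QuotientGroup.mk' N) with hH'
    have hd1 : Nat.card H' ∣ Nat.card H := card_map_dvd _ _
    have hd2 : H'.index ∣ H.index := index_map_dvd H hsurj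
    obtain ⟨l', hl', hgood'⟩ := ih (Nat.card (G ⧸ N)) (hk ▸ card_quotient_lt_of_ne_bot hNbot) (G ⧸ N) rfl H'
      (Nat.Coprime.coprime_dvd_left hd1 (Nat.Coprime.coprime_dvd_right hd2 hcop))
    have hidx' : (normalizer (H' : Set (G ⧸ N))).index =
        (normalizer ((H ⊔ N : Subgroup G) : Set G)).index := by
      rw [← index_comap_of_surjective _ hsurj, comap_normalizer_eq_of_surjective _ hsurj, hH',
        comap_map_eq, QuotientGroup.ker_mk']
    have hmul := relIndex_mul_index (normalizer_le_normalizer_sup H N)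
    by_cases hNH : N ≤ H
    · refine ⟨l', ?_, fun x hx => (hgood' x hx).lift N hd1⟩
      rw [hl', hidx', sup_eq_left.2 hNH]
    · have hGc : Nat.card G = Nat.card H * H.index := (card_mul_index H).symm
      have hcopN : (Nat.card H).Coprime (Nat.card N) := by
        have h1 : q ^ e ∣ Nat.card H * H.index := by
          rw [← hGc, ← he]; exact card_subgroup_dvd_card N
        rcases prime_pow_dvd_or_dvd hq h1 hcop with h2 | h2
        · exact absurd (normal_le_of_card_dvd hGc hcop (he ▸ h2) rfl) hNH
        · rw [he]; exact Nat.Coprime.coprime_dvd_right h2 hcop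
      have hc := c_eq H N inferInstance hcopN
      obtain ⟨lc, hlc, hlc'⟩ := PP_relIndex N _ H rfl inferInstance le_normalizer_of_normal hcopN
      refine ⟨lc ++ l', ?_, ?_⟩
      · rw [List.prod_append, hlc, hl', hidx', ← hc, hmul]
      · intro x hx
        rcases List.mem_append.1 hx with h | h
        · have hxd : x ∣ Nat.card N := by
            have h1 : x ∣ lc.prod := List.dvd_prod h
            rw [hlc] at h1
            exact h1.trans (Dvd.intro _ (relIndex_mul_card (inf_le_left : N ⊓ centralizer (H : Set G) ≤ N)))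
          refine ⟨?_, ⟨⊥, N, inferInstance, hNn, bot_lt_iff_ne_bot.2 hNbot, ?_, ?_⟩, hlc' x h⟩
          · rw [he] at hxd
            obtain ⟨j, -, hj⟩ := (Nat.dvd_prime_pow hq).1 hxd
            exact ⟨q, j, hq, hj⟩
          · intro M hM _ hMN
            exact hNmin M hM hMN
          · rw [relIndex_bot_left]; exact hxd
        · exact (hgood' x h).lift N hd1

/-- Let `G` be a finite solvable group of order `mn` with `gcd(m, n) = 1`. Then the number of subgroups of order `m` is a product of natural numbers each of which is a power of a prime, divides the order of some chief factor of `G` (a quotient `L/K` of normal subgroups `K < L` of `G` with no normal subgroup of `G` strictly between them), and is congruent to `1` modulo some prime divisor of `m`. -/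
theorem result {G : Type*} [Group G] [Finite G] [Group.IsSolvable G] (m n : ℕ) (hG : Nat.card G = m * n) (hmn : Nat.Coprime m n) : ∃ (k : ℕ) (f : Fin k → ℕ), Nat.card {H : Subgroup G // Nat.card H = m} = ∏ i, f i ∧ ∀ i, (∃ q e : ℕ, q.Prime ∧ f i = q ^ e) ∧ (∃ K L : Subgroup G, K.Normal ∧ L.Normal ∧ K < L ∧ (∀ M : Subgroup G, M.Normal → K ≤ M → M ≤ L → M = K ∨ M = L) ∧ f i ∣ K.relIndex L) ∧ (∃ q : ℕ, q.Prime ∧ q ∣ m ∧ f i ≡ 1 [MOD q]) := by
  obtain ⟨H, hH⟩ := hall_exists m n hG hmn
  have hidx : H.index = n := by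
    have h1 := card_mul_index H
    rw [hH, hG] at h1
    have hm : 0 < m := by rw [← hH]; exact Nat.card_pos
    exact Nat.eq_of_mul_eq_mul_left hm h1
  obtain ⟨l, hl, hgood⟩ := main _ G rfl H (by rw [hH, hidx]; exact hmn)
  refine ⟨l.length, l.get, ?_, fun i => ?_⟩
  · rw [hall_count m n hG hmn H hH, ← hl, ← List.prod_ofFn, List.ofFn_get]
  · have := hgood _ (List.get_mem l i)
    rw [hH] at this
    exact this

end Cfsg.Agent.S4214
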