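import Cfsg.Statements.S4217
import Mathlib
import Cfsg.Agent.S0051

set_option autoImplicit false
open Cfsg

namespace Cfsg.Agent.S4217

/-- the `n`-torsion of an abelian subgroup. -/
def tors {G : Type*} [Group G] (A : Subgroup G) (hA : IsMulCommutative A) (n : ℕ) : Subgroup G where
  carrier := {x | x ∈ A ∧ x ^ n = 1}
  one_mem' := ⟨one_mem _, one_pow _⟩
  mul_mem' := by
    rintro a b ⟨ha, ha'⟩ ⟨hb, hb'⟩
    refine ⟨mul_mem ha hb, ?_⟩
    have hcomm : Commute a b := setLike_mul_comm ha hb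
    rw [hcomm.mul_pow, ha', hb', one_mul]
  inv_mem' := by
    rintro a ⟨ha, ha'⟩
    exact ⟨inv_mem ha, by rw [inv_pow, ha', inv_one]⟩

variable {G : Type*} [Group G] (A : Subgroup G) (hA : IsMulCommutative A)

theorem mem_tors {n : ℕ} {x : G} : x ∈ tors A hA n ↔ x ∈ A ∧ x ^ n = 1 := Iff.rfl

theorem tors_le (n : ℕ) : tors A hA n ≤ A := fun _ hx => hx.1

theorem tors_normal [hN : A.Normal] (n : ℕ) : (tors A hA n).Normal := by
  constructor
  rintro x ⟨hx, hx'⟩ g
  exact ⟨hN.conj_mem x hx g, by rw [conj_pow, hx', mul_one, mul_inv_cancel]⟩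

theorem tors_comm (n : ℕ) : IsMulCommutative (tors A hA n) := by
  refine ⟨⟨fun a b => ?_⟩⟩
  apply Subtype.ext
  exact setLike_mul_comm a.2.1 b.2.1

theorem tors_inf_tors {m n : ℕ} (h : m.Coprime n) : tors A hA m ⊓ tors A hA n = ⊥ := by
  rw [eq_bot_iff]
  rintro x ⟨⟨-, h1⟩, ⟨-, h2⟩⟩
  rw [Subgroup.mem_bot]
  have h3 := pow_gcd_eq_one.mpr ⟨h1, h2⟩
  rwa [Nat.Coprime.gcd_eq_one h, pow_one] at h3

theorem tors_sup_tors [Finite G] {m n : ℕ} (h : m.Coprime n) (hmn : m * n = Nat.card A) :
    tors A hA m ⊔ tors A hA n = A := by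
  apply le_antisymm (sup_le (tors_le A hA m) (tors_le A hA n))
  intro x hx
  have hxc : x ^ (m * n) = 1 := by
    have h1 : (⟨x, hx⟩ : ↥A) ^ Nat.card A = 1 := pow_card_eq_one'
    rw [hmn]
    exact congrArg Subtype.val h1
  have hb := Nat.gcd_eq_gcd_ab m n
  rw [Nat.Coprime.gcd_eq_one h] at hb
  have hx1 : x = (x ^ n) ^ (Nat.gcdB m n) * (x ^ m) ^ (Nat.gcdA m n) := by
    rw [← zpow_natCast, ← zpow_natCast, ← zpow_mul, ← zpow_mul, ← zpow_add]
    have : (n : ℤ) * m.gcdB n + (m : ℤ) * m.gcdA n = 1 := by rw [add_comm]; exact_mod_cast hb.symm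
    rw [this, zpow_one]
  rw [hx1]
  apply mul_mem
  · apply Subgroup.mem_sup_left
    apply zpow_mem
    exact ⟨pow_mem hx n, by rw [← pow_mul, mul_comm, hxc]⟩
  · apply Subgroup.mem_sup_right
    apply zpow_mem
    exact ⟨pow_mem hx m, by rw [← pow_mul, hxc]⟩

theorem exists_compl_tors [Finite G] [A.Normal] (p : ℕ) (hp : p.Prime)
    (hyp : p ∣ A.index → ∃ (S : Sylow p (G ⧸ A)) (K : Subgroup G), K ⊓ A = ⊥ ∧
      K ⊔ A = (S : Subgroup (G ⧸ A)).comap (QuotientGroup.mk' A)) :
    ∃ M : Subgroup G,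
      Subgroup.IsComplement' (tors A hA (p ^ (Nat.card A).factorization p)) M := by
  have : Fact p.Prime := ⟨hp⟩
  set a := (Nat.card A).factorization p with ha
  set m := Nat.card A / p ^ a with hm
  have hmn : p ^ a * m = Nat.card A := Nat.ordProj_mul_ordCompl_eq_self _ _
  have hcop : (p ^ a).Coprime m := (Nat.coprime_ordCompl hp Nat.card_pos.ne').pow_left a
  have hn1 : (tors A hA (p ^ a)).Normal := tors_normal A hA _
  have hn2 : (tors A hA m).Normal := tors_normal A hA _
  have hc1 : IsMulCommutative (tors A hA (p ^ a)) := tors_comm A hA _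
  have hpg : IsPGroup p (tors A hA (p ^ a)) := fun x => ⟨a, Subtype.ext x.2.2⟩
  obtain ⟨i, hi⟩ := IsPGroup.iff_card.mp hpg
  have hinf := tors_inf_tors A hA hcop
  have hsup := tors_sup_tors A hA hcop hmn
  by_cases hpi : p ∣ A.index
  · obtain ⟨S, K, hKA, hKU⟩ := hyp hpi
    apply Cfsg.Agent.S0051.result (tors A hA (p ^ a))
      ((S : Subgroup (G ⧸ A)).comap (QuotientGroup.mk' A)) ?_ ?_ (K ⊔ tors A hA m) ?_ ?_ ?_
    · rw [← hKU]; exact (tors_le A hA _).trans le_sup_right
    · rw [hi, Subgroup.index_comap_of_surjective _ (QuotientGroup.mk'_surjective A)]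
      exact Nat.Coprime.pow_left _ ((Nat.Prime.coprime_iff_not_dvd hp).mpr S.not_dvd_index)
    · rw [← hKU]; exact sup_le le_sup_left ((tors_le A hA _).trans le_sup_right)
    · rw [eq_bot_iff]
      rintro x ⟨hx1, hx2⟩
      have hx1' : x ∈ K ⊔ tors A hA m := hx1
      rw [Subgroup.mem_sup_of_normal_right] at hx1'
      obtain ⟨k, hk, b, hb, rfl⟩ := hx1'
      have hkA : k ∈ A := by
        have h1 : k * b ∈ A := tors_le A hA _ hx2
        have h2 : b ∈ A := tors_le A hA _ hb
        have := mul_mem h1 (inv_mem h2)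
        rwa [mul_inv_cancel_right] at this
      have hk1 : k = 1 := by
        have : k ∈ K ⊓ A := ⟨hk, hkA⟩
        rwa [hKA, Subgroup.mem_bot] at this
      rw [hk1, one_mul] at hx2 ⊢
      rw [← hinf]
      exact ⟨hx2, hb⟩
    · rw [← hKU]
      calc tors A hA (p ^ a) ⊔ (K ⊔ tors A hA m)
          = K ⊔ (tors A hA (p ^ a) ⊔ tors A hA m) := by rw [sup_left_comm]
        _ = K ⊔ A := by rw [hsup]
  · apply Cfsg.Agent.S0051.result (tors A hA (p ^ a)) A (tors_le A hA _) ?_ (tors A hA m)
      (tors_le A hA _) ?_ hsup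
    · rw [hi]
      exact Nat.Coprime.pow_left _ ((Nat.Prime.coprime_iff_not_dvd hp).mpr hpi)
    · rw [inf_comm]; exact hinf

theorem card_tors_le [Finite G] (p : ℕ) (hp : p.Prime) :
    Nat.card (tors A hA (p ^ (Nat.card A).factorization p)) ≤ p ^ (Nat.card A).factorization p := by
  have : Fact p.Prime := ⟨hp⟩
  have hpg : IsPGroup p (tors A hA (p ^ (Nat.card A).factorization p)) :=
    fun x => ⟨_, Subtype.ext x.2.2⟩
  obtain ⟨i, hi⟩ := IsPGroup.iff_card.mp hpg
  have h1 : p ^ i ∣ Nat.card A := hi ▸ Subgroup.card_dvd_of_le (tors_le A hA _)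
  rw [hi]
  exact Nat.pow_le_pow_right hp.pos ((Nat.Prime.pow_dvd_iff_le_factorization hp Nat.card_pos.ne').mp h1)


/-- Let `A` be an abelian normal subgroup of the finite group `G`. Then `A` has a complement in `G` if and only if, for every prime `p` dividing the index of `A`, there are a Sylow `p`-subgroup `S` of `G/A` and a subgroup `K` of `G` with `K ∩ A = 1` and `KA` equal to the preimage of `S` (that is, `A` has a complement in the preimage of a Sylow `p`-subgroup of `G/A`). -/
theorem result {G : Type*} [Group G] [Finite G] (A : Subgroup G) [A.Normal] (hA : IsMulCommutative A) : (∃ K : Subgroup G, K.IsComplement' A) ↔ ∀ p : ℕ, p.Prime → p ∣ A.index → ∃ (S : Sylow p (G ⧸ A)) (K : Subgroup G), K ⊓ A = ⊥ ∧ K ⊔ A = (S : Subgroup (G ⧸ A)).comap (QuotientGroup.mk' A) := by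
  constructor
  · rintro ⟨K, hK⟩ p hp hpi
    have : Fact p.Prime := ⟨hp⟩
    obtain ⟨S⟩ : Nonempty (Sylow p (G ⧸ A)) := inferInstance
    refine ⟨S, K ⊓ (S : Subgroup (G ⧸ A)).comap (QuotientGroup.mk' A), ?_, ?_⟩
    · rw [inf_right_comm, hK.disjoint.eq_bot, bot_inf_eq]
    · have hAU : A ≤ (S : Subgroup (G ⧸ A)).comap (QuotientGroup.mk' A) := by
        intro x hx
        rw [Subgroup.mem_comap]
        have : QuotientGroup.mk' A x = 1 := (QuotientGroup.eq_one_iff x).mpr hx
        rw [this]; exact one_mem _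
      apply le_antisymm (sup_le inf_le_right hAU)
      intro u hu
      have h1 : u ∈ K ⊔ A := by rw [hK.sup_eq_top]; trivial
      rw [Subgroup.mem_sup_of_normal_right] at h1
      obtain ⟨k, hk, b, hb, rfl⟩ := h1
      refine mul_mem (Subgroup.mem_sup_left ⟨hk, ?_⟩) (Subgroup.mem_sup_right hb)
      have := mul_mem hu (inv_mem (hAU hb))
      rwa [mul_inv_cancel_right] at this
  · intro hyp
    have hex : ∀ p : (Nat.card A).primeFactors, ∃ M : Subgroup G,
        Subgroup.IsComplement' (tors A hA (p.1 ^ (Nat.card A).factorization p.1)) M :=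
      fun p => exists_compl_tors A hA p.1 (Nat.prime_of_mem_primeFactors p.2)
        (hyp p.1 (Nat.prime_of_mem_primeFactors p.2))
    choose M hM using hex
    refine ⟨⨅ p, M p, ?_⟩
    have hdisj : Disjoint (⨅ p, M p) A := by
      rw [Subgroup.disjoint_def]
      intro x hxL hxA
      by_contra hx1
      have hord : orderOf x ≠ 1 := by rwa [Ne, orderOf_eq_one_iff]
      obtain ⟨p, hp, hpx⟩ := Nat.exists_prime_and_dvd hord
      have hpA : p ∣ Nat.card A := by
        have h1 := orderOf_dvd_natCard (⟨x, hxA⟩ : ↥A)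
        rw [Subgroup.orderOf_mk] at h1
        exact hpx.trans h1
      have hpm : p ∈ (Nat.card A).primeFactors :=
        Nat.mem_primeFactors.mpr ⟨hp, hpA, Nat.card_pos.ne'⟩
      obtain ⟨k, hk⟩ := hpx
      have hy : (x ^ k) ^ p = 1 := by rw [← pow_mul, mul_comm, ← hk, pow_orderOf_eq_one]
      have hy1 : x ^ k ≠ 1 := by
        intro h
        have h1 := orderOf_dvd_of_pow_eq_one h
        have h0 : 0 < orderOf x := orderOf_pos x
        have hk0 : 0 < k := by
          rcases Nat.eq_zero_or_pos k with h2 | h2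
          · rw [h2, mul_zero] at hk; omega
          · exact h2
        have h2 := Nat.le_of_dvd hk0 h1
        have h3 := hp.two_le
        nlinarith
      have hyM : x ^ k ∈ M ⟨p, hpm⟩ := pow_mem ((Subgroup.mem_iInf.mp hxL) _) k
      have hyT : x ^ k ∈ tors A hA (p ^ (Nat.card A).factorization p) := by
        refine ⟨pow_mem hxA k, ?_⟩
        have ha : (Nat.card A).factorization p ≠ 0 :=
          (Nat.Prime.factorization_pos_of_dvd hp Nat.card_pos.ne' hpA).ne'
        obtain ⟨j, hj⟩ := dvd_pow_self p ha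
        rw [hj, pow_mul, hy, one_pow]
      exact hy1 ((Subgroup.disjoint_def.mp (hM ⟨p, hpm⟩).disjoint) hyT hyM)
    apply Subgroup.isComplement'_of_card_mul_and_disjoint _ hdisj
    have hidx : (⨅ p, M p).index ≤ Nat.card A := by
      calc (⨅ p, M p).index ≤ ∏ p, (M p).index := Subgroup.index_iInf_le M
        _ ≤ ∏ p : (Nat.card A).primeFactors, p.1 ^ (Nat.card A).factorization p.1 := by
            apply Finset.prod_le_prod'
            intro p _
            rw [(hM p).index_eq_card]
            exact card_tors_le A hA p.1 (Nat.prime_of_mem_primeFactors p.2)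
        _ = Nat.card A := by
            rw [Finset.prod_coe_sort (f := fun p => p ^ (Nat.card A).factorization p)]
            exact Nat.prod_factorization_pow_eq_self Nat.card_pos.ne'
    have hle : Nat.card (⨅ p, M p : Subgroup G) * Nat.card A ≤ Nat.card G := by
      rw [← Nat.card_prod]
      exact Nat.card_le_card_of_injective _ (Subgroup.mul_injective_of_disjoint hdisj)
    apply le_antisymm hle
    rw [← Subgroup.card_mul_index (⨅ p, M p)]
    exact Nat.mul_le_mul_left _ hidx

end Cfsg.Agent.S4217
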