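import Cfsg.Statements.S4223
import Mathlib

set_option autoImplicit false
open Cfsg

namespace Cfsg.Agent.S4223

lemma exists_idem {M : Type*} [Monoid M] [Finite M] (a : M) :
    ∃ N, 0 < N ∧ a ^ N * a ^ N = a ^ N := by
  obtain ⟨i, j, hij, h⟩ := Finite.exists_ne_map_eq_of_infinite (fun k : ℕ => a ^ k)
  wlog hlt : i < j generalizing i j
  · exact this j i hij.symm h.symm (by omega)
  obtain ⟨d, rfl⟩ : ∃ d, j = i + d := ⟨j - i, by omega⟩
  have hd : 0 < d := by omega
  have h1 : ∀ t, a ^ (i + t * d) = a ^ i := by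
    intro t
    induction t with
    | zero => simp
    | succ t ih => rw [add_mul, one_mul, ← add_assoc, pow_add, ih, ← pow_add, ← h]
  refine ⟨(i + 1) * d, by positivity, ?_⟩
  obtain ⟨r, hr⟩ : ∃ r, (i + 1) * d = i + r := ⟨(i + 1) * d - i, by
    have : i + 1 ≤ (i + 1) * d := Nat.le_mul_of_pos_right _ hd
    omega⟩
  have h2 : a ^ ((i + 1) * d) * a ^ ((i + 1) * d) = a ^ (i + (i + 1) * d) * a ^ r := by
    rw [← pow_add, ← pow_add]
    congr 1
    omega
  rw [h2, h1, ← pow_add, hr]

lemma core2 {H : Type*} [Group H] [Finite H]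
    (hH : ∀ K L : Subgroup H, K.Normal → L.Normal → K ⊓ L = ⊥ → K ⊔ L = ⊤ → K = ⊥ ∨ L = ⊥)
    (φ ψ : H →* H) (hsum : ∀ x, φ x * ψ x = x) (hcomm : ∀ x y, Commute (φ x) (ψ y)) :
    Function.Bijective φ ∨ Function.Bijective ψ := by
  have hnorm : ∀ g x, φ (g * x * g⁻¹) = g * φ x * g⁻¹ := by
    intro g x
    have h0 : g * φ x * g⁻¹ = φ g * ψ g * φ x * (φ g * ψ g)⁻¹ := by rw [hsum]
    have h1 := (hcomm x g).eq
    rw [h0, map_mul, map_mul, map_inv, mul_inv_rev, mul_assoc (φ g) (ψ g), ← h1]
    group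
  have : Finite (Monoid.End H) :=
    Finite.of_injective (fun f : H →* H => (f : H → H)) DFunLike.coe_injective
  let Φ : Monoid.End H := φ
  obtain ⟨N, hN, hidem⟩ := exists_idem Φ
  have hpn : ∀ (k : ℕ) (g x : H), φ^[k] (g * x * g⁻¹) = g * φ^[k] x * g⁻¹ := by
    intro k
    induction k with
    | zero => intro g x; simp
    | succ k ih =>
      intro g x
      rw [Function.iterate_succ_apply, Function.iterate_succ_apply, hnorm, ih]
  let ε : H →* H := Φ ^ N
  have hε : ∀ x, ε x = φ^[N] x := fun x => rfl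
  have hεε : ∀ x, ε (ε x) = ε x := fun x => DFunLike.congr_fun hidem x
  have hrn : ε.range.Normal := ⟨by
    rintro _ ⟨x, rfl⟩ g
    exact ⟨g * x * g⁻¹, hpn N g x⟩⟩
  have hinf : ε.ker ⊓ ε.range = ⊥ := by
    rw [eq_bot_iff]
    rintro _ ⟨h1, ⟨x, rfl⟩⟩
    have h2 : ε (ε x) = 1 := h1
    rw [hεε] at h2
    rw [Subgroup.mem_bot]
    exact h2
  have hsup : ε.ker ⊔ ε.range = ⊤ := by
    rw [eq_top_iff]
    intro g _
    have : g = (g * (ε g)⁻¹) * ε g := by group
    rw [this]
    refine Subgroup.mul_mem_sup ?_ ⟨g, rfl⟩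
    rw [MonoidHom.mem_ker, map_mul, map_inv, hεε, mul_inv_cancel]
  rcases hH _ _ inferInstance hrn hinf hsup with h | h
  · left
    rw [← Finite.injective_iff_bijective]
    have hεi : Function.Injective ε := (MonoidHom.ker_eq_bot_iff ε).1 h
    intro a b hab
    apply hεi
    obtain ⟨N', rfl⟩ : ∃ N', N = N' + 1 := ⟨N - 1, by omega⟩
    rw [hε, hε, Function.iterate_succ_apply, Function.iterate_succ_apply, hab]
  · right
    rw [← Finite.injective_iff_bijective, injective_iff_map_eq_one]
    intro x hx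
    have h1 : φ x = x := by
      have := hsum x
      rwa [hx, mul_one] at this
    have h2 : φ^[N] x = x := Function.iterate_fixed h1 N
    have h3 : ε x ∈ ε.range := ⟨x, rfl⟩
    rw [h, Subgroup.mem_bot, hε, h2] at h3
    exact h3

lemma exchange {H X U Y : Type*} [Group H] [Group X] [Group U] [Group Y]
    [Finite H] [Finite X] [Finite U] [Finite Y]
    (e : H × X ≃* U × Y) (hinj : ∀ u : U, (e.symm (u, 1)).1 = 1 → u = 1)
    (hcard : Nat.card H = Nat.card U) : Nonempty (X ≃* Y) := by
  let f : X →* Y := (MonoidHom.snd U Y).comp (e.toMonoidHom.comp (MonoidHom.inr H X))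
  have hf : ∀ x, f x = (e (1, x)).2 := fun x => rfl
  have hfi : Function.Injective f := by
    rw [injective_iff_map_eq_one]
    intro x hx
    rw [hf] at hx
    have h1 : e (1, x) = ((e (1, x)).1, 1) := Prod.ext rfl hx
    have h2 : e.symm ((e (1, x)).1, 1) = (1, x) := by rw [← h1, e.symm_apply_apply]
    have h3 := hinj _ (by rw [h2])
    rw [h3] at h1
    have h4 : e (1, x) = 1 := h1
    rw [map_eq_one_iff e e.injective] at h4
    exact (Prod.ext_iff.1 h4).2
  have hc : Nat.card X = Nat.card Y := by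
    have h1 := Nat.card_congr e.toEquiv
    rw [Nat.card_prod, Nat.card_prod, hcard] at h1
    exact Nat.eq_of_mul_eq_mul_left Nat.card_pos h1
  exact ⟨MulEquiv.ofBijective f ((Nat.bijective_iff_injective_and_card f).2 ⟨hfi, hc⟩)⟩

section nary
variable {J : Type*} [DecidableEq J] {B : J → Type*} [∀ j, Group (B j)]

/-- restriction of a tuple to a finite set of coordinates. -/
def piRes (S : Finset J) : ((j : J) → B j) →* ((j : J) → B j) where
  toFun f := fun j => if j ∈ S then f j else 1
  map_one' := by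
    funext j
    simp
  map_mul' f g := by
    funext j
    by_cases h : j ∈ S <;> simp [h]

lemma piRes_apply (S : Finset J) (f : (j : J) → B j) (j : J) :
    piRes S f j = if j ∈ S then f j else 1 := rfl

lemma piRes_insert {S : Finset J} {j : J} (hj : j ∉ S) (f : (j : J) → B j) :
    piRes {j} f * piRes S f = piRes (insert j S) f := by
  funext k
  rw [Pi.mul_apply, piRes_apply, piRes_apply, piRes_apply]
  by_cases h1 : k = j
  · subst h1
    simp [hj]
  · by_cases h2 : k ∈ S <;> simp [h1, h2]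

lemma piRes_commute {S : Finset J} {j : J} (hj : j ∉ S) (f g : (j : J) → B j) :
    Commute (piRes {j} f) (piRes S g) := by
  funext k
  rw [Pi.mul_apply, Pi.mul_apply, piRes_apply, piRes_apply]
  by_cases h1 : k = j
  · subst h1
    simp [hj]
  · simp [h1]

lemma piRes_singleton (j : J) (f : (j : J) → B j) : piRes {j} f = Pi.mulSingle j (f j) := by
  funext k
  rw [piRes_apply]
  by_cases h1 : k = j
  · subst h1
    simp
  · simp [h1]

lemma nary {H : Type*} [Group H] [Finite H] [Nontrivial H]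
    (hH : ∀ K L : Subgroup H, K.Normal → L.Normal → K ⊓ L = ⊥ → K ⊔ L = ⊤ → K = ⊥ ∨ L = ⊥)
    (α : H →* ((j : J) → B j)) (β : ((j : J) → B j) →* H) (S : Finset J) :
    Function.Bijective (fun x => β (piRes S (α x))) →
      ∃ j ∈ S, Function.Bijective (fun x => β (piRes {j} (α x))) := by
  induction S using Finset.induction_on with
  | empty =>
    intro h
    exfalso
    obtain ⟨a, b, hab⟩ := exists_pair_ne H
    apply hab
    apply h.1
    have : ∀ f : (j : J) → B j, piRes ∅ f = 1 := by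
      intro f
      funext k
      simp [piRes_apply]
    simp only [this]
  | insert j S hj ih =>
    intro h
    let θ : H →* H := β.comp ((piRes (insert j S)).comp α)
    let Θ : H ≃* H := MulEquiv.ofBijective θ h
    have hΘ : ∀ x, Θ x = β (piRes (insert j S) (α x)) := fun x => rfl
    let φ : H →* H := Θ.symm.toMonoidHom.comp (β.comp ((piRes {j}).comp α))
    let ψ : H →* H := Θ.symm.toMonoidHom.comp (β.comp ((piRes S).comp α))
    have hφ : ∀ x, φ x = Θ.symm (β (piRes {j} (α x))) := fun x => rfl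
    have hψ : ∀ x, ψ x = Θ.symm (β (piRes S (α x))) := fun x => rfl
    have hsum : ∀ x, φ x * ψ x = x := by
      intro x
      rw [hφ, hψ, ← map_mul, ← map_mul, piRes_insert hj, ← hΘ, Θ.symm_apply_apply]
    have hcomm : ∀ x y, Commute (φ x) (ψ y) := by
      intro x y
      rw [hφ, hψ]
      exact ((piRes_commute hj (α x) (α y)).map β).map Θ.symm
    rcases core2 hH φ ψ hsum hcomm with h1 | h1
    · refine ⟨j, Finset.mem_insert_self j S, ?_⟩
      have : (fun x => β (piRes {j} (α x))) = Θ ∘ φ := by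
        funext x
        rw [Function.comp_apply, hφ, Θ.apply_symm_apply]
      rw [this]
      exact Θ.bijective.comp h1
    · have : (fun x => β (piRes S (α x))) = Θ ∘ ψ := by
        funext x
        rw [Function.comp_apply, hψ, Θ.apply_symm_apply]
      obtain ⟨k, hk, hk'⟩ := ih (by rw [this]; exact Θ.bijective.comp h1)
      exact ⟨k, Finset.mem_insert_of_mem hk, hk'⟩

lemma factor {H : Type*} [Group H] [Nontrivial H]
    (α : H →* ((j : J) → B j)) (β : ((j : J) → B j) →* H) (hα : α.range.Normal) (j : J)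
    (hB : ∀ K L : Subgroup (B j), K.Normal → L.Normal → K ⊓ L = ⊥ → K ⊔ L = ⊤ → K = ⊥ ∨ L = ⊥)
    (h : Function.Bijective (fun x => β (piRes {j} (α x)))) :
    Function.Bijective (fun b : B j => β (Pi.mulSingle j b)) := by
  simp only [piRes_singleton] at h
  let αj : H →* B j := (Pi.evalMonoidHom B j).comp α
  let βj : B j →* H := β.comp (MonoidHom.mulSingle B j)
  have hαj : ∀ x, αj x = α x j := fun x => rfl
  have hβj : ∀ b, βj b = β (Pi.mulSingle j b) := fun b => rfl
  have hsurj : Function.Surjective βj := by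
    intro y
    obtain ⟨x, hx⟩ := h.2 y
    exact ⟨α x j, hx⟩
  have hK : αj.range.Normal := ⟨by
    rintro _ ⟨x, rfl⟩ b
    obtain ⟨x', hx'⟩ := hα.conj_mem (α x) ⟨x, rfl⟩ (Pi.mulSingle j b)
    refine ⟨x', ?_⟩
    rw [hαj, hx', hαj]
    simp⟩
  have hinf : αj.range ⊓ βj.ker = ⊥ := by
    rw [eq_bot_iff]
    rintro _ ⟨⟨x, rfl⟩, h1⟩
    have h2 : β (Pi.mulSingle j (α x j)) = 1 := h1
    have h3 : x = 1 := h.1 (by simp only [h2, map_one, Pi.one_apply, Pi.mulSingle_one])
    rw [h3, map_one]
    exact one_mem _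
  have hsup : αj.range ⊔ βj.ker = ⊤ := by
    rw [eq_top_iff]
    intro b _
    obtain ⟨x, hx⟩ := h.2 (βj b)
    have : b = αj x * ((αj x)⁻¹ * b) := by group
    rw [this]
    refine Subgroup.mul_mem_sup ⟨x, rfl⟩ ?_
    rw [MonoidHom.mem_ker, map_mul, map_inv, ← hx]
    exact inv_mul_cancel _
  rcases hB _ _ hK inferInstance hinf hsup with h1 | h1
  · exfalso
    obtain ⟨a, b, hab⟩ := exists_pair_ne H
    apply hab
    apply h.1
    have h2 : ∀ x, α x j = 1 := by
      intro x
      have : αj x ∈ αj.range := ⟨x, rfl⟩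
      rw [h1, Subgroup.mem_bot] at this
      exact this
    simp only [h2]
  · exact ⟨(MonoidHom.ker_eq_bot_iff βj).1 h1, hsurj⟩

end nary

lemma conj_mulSingle {J : Type*} [DecidableEq J] {B : J → Type*} [∀ j, Group (B j)] (j : J)
    (x : B j) (f : (j : J) → B j) :
    f * Pi.mulSingle j x * f⁻¹ = Pi.mulSingle j (f j * x * (f j)⁻¹) := by
  funext k
  by_cases h : k = j
  · subst h
    simp
  · simp [h]

/-- splitting off a coordinate. -/
def piSplit {n : ℕ} (α : Fin (n + 1) → Type*) [∀ i, Group (α i)] (p : Fin (n + 1)) :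
    ((i : Fin (n + 1)) → α i) ≃* α p × ((k : Fin n) → α (p.succAbove k)) :=
  { (Fin.insertNthEquiv α p).symm with map_mul' := fun _ _ => rfl }

lemma piSplit_apply {n : ℕ} (α : Fin (n + 1) → Type*) [∀ i, Group (α i)] (p : Fin (n + 1))
    (f : (i : Fin (n + 1)) → α i) : piSplit α p f = (f p, fun k => f (p.succAbove k)) := rfl

lemma piSplit_symm_left {n : ℕ} (α : Fin (n + 1) → Type*) [∀ i, Group (α i)] (p : Fin (n + 1))
    (u : α p) : (piSplit α p).symm (u, 1) = Pi.mulSingle p u := by
  rw [MulEquiv.symm_apply_eq, piSplit_apply]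
  refine Prod.ext (by simp) ?_
  funext k
  simp [Fin.succAbove_ne]

universe u v

theorem main : ∀ (m n : ℕ) (A : Fin m → Type u) (B : Fin n → Type v) [∀ i, Group (A i)]
    [∀ j, Group (B j)] [∀ i, Finite (A i)] [∀ j, Finite (B j)]
    (_ : ∀ i, Nontrivial (A i) ∧ ∀ H K : Subgroup (A i), H.Normal → K.Normal → H ⊓ K = ⊥ →
      H ⊔ K = ⊤ → H = ⊥ ∨ K = ⊥)
    (_ : ∀ j, Nontrivial (B j) ∧ ∀ H K : Subgroup (B j), H.Normal → K.Normal → H ⊓ K = ⊥ →
      H ⊔ K = ⊤ → H = ⊥ ∨ K = ⊥)
    (_ : ((i : Fin m) → A i) ≃* ((j : Fin n) → B j)),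
    ∃ σ : Fin m ≃ Fin n, ∀ i, Nonempty (A i ≃* B (σ i)) := by
  intro m
  induction m with
  | zero =>
    intro n A B _ _ _ _ hA hB e
    rcases n with _ | n
    · exact ⟨Equiv.refl _, fun i => i.elim0⟩
    · exfalso
      obtain ⟨hnt, -⟩ := hB 0
      obtain ⟨b, hb⟩ := exists_ne (1 : B 0)
      have h1 : e.symm (Pi.mulSingle 0 b) = e.symm 1 := Subsingleton.elim _ _
      have h2 := congrFun (e.symm.injective h1) 0
      rw [Pi.mulSingle_eq_same] at h2
      exact hb h2
  | succ m ih =>
    intro n A B _ _ _ _ hA hB e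
    rcases n with _ | n
    · exfalso
      obtain ⟨hnt, -⟩ := hA 0
      obtain ⟨b, hb⟩ := exists_ne (1 : A 0)
      have h1 : e (Pi.mulSingle 0 b) = e 1 := Subsingleton.elim _ _
      have h2 := congrFun (e.injective h1) 0
      rw [Pi.mulSingle_eq_same] at h2
      exact hb h2
    let α : A 0 →* ((j : Fin (n + 1)) → B j) := e.toMonoidHom.comp (MonoidHom.mulSingle A 0)
    let β : ((j : Fin (n + 1)) → B j) →* A 0 := (Pi.evalMonoidHom A 0).comp e.symm.toMonoidHom
    have hα : ∀ x, α x = e (Pi.mulSingle 0 x) := fun x => rfl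
    have hβ : ∀ w, β w = e.symm w 0 := fun w => rfl
    have hβα : ∀ x, β (α x) = x := by
      intro x
      rw [hα, hβ, e.symm_apply_apply, Pi.mulSingle_eq_same]
    have hαn : α.range.Normal := ⟨by
      rintro _ ⟨x, rfl⟩ w
      refine ⟨e.symm w 0 * x * (e.symm w 0)⁻¹, ?_⟩
      rw [hα, hα, ← conj_mulSingle, map_mul, map_mul, map_inv, e.apply_symm_apply]⟩
    have := (hA 0).1
    obtain ⟨j0, -, hj0⟩ := nary (hA 0).2 α β Finset.univ (by
      have : ∀ f : (j : Fin (n + 1)) → B j, piRes Finset.univ f = f := by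
        intro f
        funext k
        simp [piRes_apply]
      simp only [this, hβα]
      exact Function.bijective_id)
    have hbij := factor α β hαn j0 (hB j0).2 hj0
    let E0 : B j0 ≃* A 0 := MulEquiv.ofBijective (β.comp (MonoidHom.mulSingle B j0)) hbij
    let e' : A 0 × ((k : Fin m) → A ((0 : Fin (m + 1)).succAbove k)) ≃*
        B j0 × ((k : Fin n) → B (j0.succAbove k)) :=
      (piSplit A 0).symm.trans (e.trans (piSplit B j0))
    obtain ⟨e''⟩ := exchange e' (by
      intro u hu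
      have h1 : (e'.symm (u, 1)).1 = β (Pi.mulSingle j0 u) := by
        rw [← piSplit_symm_left]
        rfl
      rw [h1] at hu
      apply hbij.1
      simp only [hu, Pi.mulSingle_one, map_one]) (Nat.card_congr E0.symm.toEquiv)
    obtain ⟨σ', hσ'⟩ := ih n (fun k => A ((0 : Fin (m + 1)).succAbove k))
      (fun k => B (j0.succAbove k)) (fun k => hA _) (fun k => hB _) e''
    refine ⟨(finSuccEquiv' 0).trans ((Equiv.optionCongr σ').trans (finSuccEquiv' j0).symm), ?_⟩
    intro i
    rcases Fin.eq_self_or_eq_succAbove 0 i with rfl | ⟨k, rfl⟩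
    · have h0 : ((finSuccEquiv' 0).trans ((Equiv.optionCongr σ').trans (finSuccEquiv' j0).symm)) 0
          = j0 := by
        simp
      rw [h0]
      exact ⟨E0.symm⟩
    · have h0 : ((finSuccEquiv' 0).trans ((Equiv.optionCongr σ').trans (finSuccEquiv' j0).symm))
          ((0 : Fin (m + 1)).succAbove k) = j0.succAbove (σ' k) := by
        rw [Equiv.trans_apply, finSuccEquiv'_succAbove]
        simp
      rw [h0]
      exact hσ' k

/-- If a finite group is isomorphic both to a direct product of `m` directly indecomposable nontrivial groups and to a direct product of `n` such groups (a group is directly indecomposable when it is not the internal direct product of two nontrivial normal subgroups), then `m = n` and the factors are isomorphic in pairs after a suitable matching. -/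
theorem result {m n : ℕ} {A : Fin m → Type*} {B : Fin n → Type*} [∀ i, Group (A i)] [∀ j, Group (B j)] [∀ i, Finite (A i)] [∀ j, Finite (B j)] (hA : ∀ i, Nontrivial (A i) ∧ ∀ H K : Subgroup (A i), H.Normal → K.Normal → H ⊓ K = ⊥ → H ⊔ K = ⊤ → H = ⊥ ∨ K = ⊥) (hB : ∀ j, Nontrivial (B j) ∧ ∀ H K : Subgroup (B j), H.Normal → K.Normal → H ⊓ K = ⊥ → H ⊔ K = ⊤ → H = ⊥ ∨ K = ⊥) (e : ((i : Fin m) → A i) ≃* ((j : Fin n) → B j)) : ∃ σ : Fin m ≃ Fin n, ∀ i, Nonempty (A i ≃* B (σ i)) := by
  exact main m n A B hA hB e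

end Cfsg.Agent.S4223
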