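import Cfsg.Statements.S4275

set_option autoImplicit false
open Cfsg

namespace Cfsg.Agent.S4275

open MulAction

theorem exists_perm_of_fixes {Ω : Type*} [Finite Ω] (G : Subgroup (Equiv.Perm Ω))
    (htr : MulAction.IsPretransitive G Ω) (o : Ω) (α : G ≃* G) (ω : Ω)
    (hω : ∀ g ∈ (MulAction.stabilizer G o).map α.toMonoidHom, g • ω = ω) :
    ∃ σ : Equiv.Perm Ω, σ ∈ Subgroup.normalizer (G : Set (Equiv.Perm Ω)) ∧
      ∀ g : G, ((α g : G) : Equiv.Perm Ω) = σ * (g : Equiv.Perm Ω) * σ⁻¹ := by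
  classical
  choose γ hγ using fun y : Ω => htr.exists_smul_eq o y
  let f : Ω → Ω := fun y => α (γ y) • ω
  have hf : ∀ g : G, f (g • o) = α g • ω := by
    intro g
    have h1 : (γ (g • o))⁻¹ * g ∈ MulAction.stabilizer G o := by
      rw [mem_stabilizer_iff, mul_smul, inv_smul_eq_iff, hγ]
    have h2 := hω (α ((γ (g • o))⁻¹ * g)) ⟨_, h1, rfl⟩
    rw [map_mul, map_inv, mul_smul, inv_smul_eq_iff] at h2
    exact h2.symm
  have hfe : ∀ (g : G) (y : Ω), f (g • y) = α g • f y := by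
    intro g y
    obtain ⟨g', rfl⟩ := htr.exists_smul_eq o y
    rw [← mul_smul, hf, hf, map_mul, mul_smul]
  have hsurj : Function.Surjective f := by
    intro z
    obtain ⟨g', rfl⟩ := htr.exists_smul_eq ω z
    refine ⟨α.symm g' • o, ?_⟩
    rw [hf, MulEquiv.apply_symm_apply]
  have hbij : Function.Bijective f := ⟨Finite.injective_iff_surjective.2 hsurj, hsurj⟩
  let σ : Equiv.Perm Ω := Equiv.ofBijective f hbij
  have hσ : ∀ g : G, ((α g : G) : Equiv.Perm Ω) = σ * (g : Equiv.Perm Ω) * σ⁻¹ := by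
    intro g
    rw [eq_mul_inv_iff_mul_eq]
    ext y
    exact (hfe g y).symm
  refine ⟨σ, ?_, hσ⟩
  rw [Subgroup.mem_normalizer_iff]
  intro h
  constructor
  · intro hh
    have := hσ ⟨h, hh⟩
    show σ * h * σ⁻¹ ∈ G
    rw [← this]
    exact (α ⟨h, hh⟩).2
  · intro hh
    have hh' : σ * h * σ⁻¹ ∈ G := hh
    have h1 := hσ (α.symm ⟨_, hh'⟩)
    rw [MulEquiv.apply_symm_apply] at h1
    have h2 : h = ((α.symm ⟨_, hh'⟩ : G) : Equiv.Perm Ω) := by
      have h3 : σ * h * σ⁻¹ = σ * ((α.symm ⟨_, hh'⟩ : G) : Equiv.Perm Ω) * σ⁻¹ := h1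
      have h4 := mul_right_cancel h3
      exact mul_left_cancel h4
    show h ∈ G
    rw [h2]
    exact (α.symm ⟨_, hh'⟩).2

/-- Let G be a transitive group of permutations of a finite set Ω, let o ∈ Ω, and let α be an automorphism of G. Then α is induced by conjugation by a permutation of Ω normalizing G if and only if the image under α of the stabilizer of o fixes some point of Ω. -/
theorem result {Ω : Type*} [Fintype Ω] (G : Subgroup (Equiv.Perm Ω)) (htr : MulAction.IsPretransitive G Ω) (o : Ω) (α : G ≃* G) : (∃ σ : Equiv.Perm Ω, σ ∈ Subgroup.normalizer (G : Set (Equiv.Perm Ω)) ∧ ∀ g : G, ((α g : G) : Equiv.Perm Ω) = σ * (g : Equiv.Perm Ω) * σ⁻¹) ↔ ∃ ω : Ω, ∀ g ∈ (MulAction.stabilizer G o).map α.toMonoidHom, g • ω = ω := by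
  constructor
  · rintro ⟨σ, -, hσ⟩
    refine ⟨σ o, ?_⟩
    rintro _ ⟨h, hh, rfl⟩
    show ((α h : G) : Equiv.Perm Ω) (σ o) = σ o
    rw [hσ h]
    have h1 : (h : Equiv.Perm Ω) o = o := hh
    simp [h1]
  · rintro ⟨ω, hω⟩
    exact exists_perm_of_fixes G htr o α ω hω

end Cfsg.Agent.S4275
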