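import Cfsg.Statements.S4276
import Cfsg.Agent.Lib.Helper95.DesignAut
import Cfsg.Agent.S4275

set_option autoImplicit false
open Cfsg

namespace Cfsg.Agent.S4276

open MulAction Cfsg.Agent.Lib.Helper95

theorem orbit_card {G Ω : Type*} [Group G] [MulAction G Ω] [Fintype Ω]
    (h2 : IsMultiplyPretransitive G Ω 2) (o : Ω) (α : MulAut G) (hα : Odd (orderOf α)) (ω : Ω)
    (hk : (Nat.card (orbit ((stabilizer G o).map α.toMonoidHom) ω)).Coprime (Fintype.card Ω)) :
    Nat.card (orbit ((stabilizer G o).map α.toMonoidHom) ω) = 1 ∨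
      Nat.card (orbit ((stabilizer G o).map α.toMonoidHom) ω) = Fintype.card Ω - 1 := by
  classical
  set K : Subgroup G := (stabilizer G o).map α.toMonoidHom with hK
  set O : Set Ω := orbit K ω with hO
  have hOinv : ∀ κ ∈ K, ∀ z ∈ O, κ • z ∈ O := by
    rintro κ hκ _ ⟨κ', rfl⟩
    refine ⟨⟨κ, hκ⟩ * κ', ?_⟩
    show ((⟨κ, hκ⟩ * κ' : K)) • ω = κ • (κ' • ω)
    rw [mul_smul]; rfl
  have hk1 : 1 ≤ Nat.card O := by
    have : Nonempty O := ⟨⟨ω, mem_orbit_self ω⟩⟩
    exact Nat.card_pos
  have hkn : Nat.card O ≤ Fintype.card Ω := by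
    rw [← Nat.card_eq_fintype_card]
    exact Nat.card_le_card_of_injective _ Subtype.val_injective
  by_cases hn : 2 ≤ Fintype.card Ω
  · have htr : IsPretransitive G Ω := isPretransitive_of_is_two_pretransitive
    let M : Matrix Ω Ω ℤ := fun x y => if ∃ g : G, g • o = y ∧ (α g)⁻¹ • x ∈ O then 1 else 0
    have hchar : ∀ (g : G) (x : Ω), (∃ g' : G, g' • o = g • o ∧ (α g')⁻¹ • x ∈ O) ↔
        (α g)⁻¹ • x ∈ O := by
      intro g x
      constructor
      · rintro ⟨g', hg', hx⟩
        have h1 : g⁻¹ * g' ∈ stabilizer G o := by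
          rw [mem_stabilizer_iff, mul_smul, hg', inv_smul_smul]
        have h3 : α (g⁻¹ * g') ∈ K := ⟨_, h1, rfl⟩
        have h4 := hOinv _ h3 _ hx
        rw [map_mul, map_inv, mul_smul, smul_inv_smul] at h4
        exact h4
      · intro hx
        exact ⟨g, rfl, hx⟩
    have hM : ∀ (g : G) (x : Ω), M x (g • o) = if (α g)⁻¹ • x ∈ O then 1 else 0 := by
      intro g x
      show (if ∃ g' : G, g' • o = g • o ∧ (α g')⁻¹ • x ∈ O then (1 : ℤ) else 0) = _
      simp only [hchar]
    have hinv : ∀ (g : G) (x y : Ω), M (α g • x) (g • y) = M x y := by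
      intro g x y
      obtain ⟨g', rfl⟩ := htr.exists_smul_eq o y
      rw [← mul_smul, hM, hM, map_mul, mul_inv_rev, mul_smul, inv_smul_smul]
    have hcol0 : ∑ x, M x o = (Nat.card O : ℤ) := by
      have h1 : ∀ x, M x o = if x ∈ O then 1 else 0 := by
        intro x
        have := hM 1 x
        rwa [one_smul, map_one, inv_one, one_smul] at this
      simp only [h1, Finset.sum_boole]
      rw [Nat.card_eq_fintype_card, Fintype.card_subtype]
    have hcol : ∀ y, ∑ x, M x y = (Nat.card O : ℤ) := by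
      intro y
      obtain ⟨g, rfl⟩ := htr.exists_smul_eq o y
      rw [← hcol0, ← Equiv.sum_comp (MulAction.toPerm (α g))]
      apply Finset.sum_congr rfl
      intro x _
      rw [MulAction.toPerm_apply, hinv]
    have h01 : ∀ x y, M x y * M x y = M x y := by
      intro x y
      show (if _ then (1 : ℤ) else 0) * (if _ then (1 : ℤ) else 0) = if _ then (1 : ℤ) else 0
      split_ifs <;> simp
    exact design_aut h2 hn α hα M h01 hinv (Nat.card O) hcol hk1 hkn hk
  · left
    omega

/-- Let G be a doubly transitive group of permutations of a finite set Ω of size n, let o ∈ Ω, and let α be an automorphism of G of odd order. Suppose that the image under α of the stabilizer of o has an orbit on Ω whose length k is coprime to n. Then α is induced by conjugation by a permutation of Ω normalizing G, and k = 1 or k = n − 1. -/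
theorem result {Ω : Type*} [Fintype Ω] (G : Subgroup (Equiv.Perm Ω)) (h2 : MulAction.IsMultiplyPretransitive G Ω 2) (o : Ω) (α : MulAut G) (hα : Odd (orderOf α)) (ω : Ω) (hk : (Nat.card (MulAction.orbit ((MulAction.stabilizer G o).map α.toMonoidHom) ω)).Coprime (Fintype.card Ω)) : (∃ σ : Equiv.Perm Ω, σ ∈ Subgroup.normalizer (G : Set (Equiv.Perm Ω)) ∧ ∀ g : G, ((α g : G) : Equiv.Perm Ω) = σ * (g : Equiv.Perm Ω) * σ⁻¹) ∧ (Nat.card (MulAction.orbit ((MulAction.stabilizer G o).map α.toMonoidHom) ω) = 1 ∨ Nat.card (MulAction.orbit ((MulAction.stabilizer G o).map α.toMonoidHom) ω) = Fintype.card Ω - 1) := by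
  classical
  have hcard := orbit_card h2 o α hα ω hk
  refine ⟨?_, hcard⟩
  have htr : IsPretransitive G Ω := isPretransitive_of_is_two_pretransitive
  set K : Subgroup G := (stabilizer G o).map α.toMonoidHom with hK
  suffices h : ∃ ω' : Ω, ∀ g ∈ K, g • ω' = ω' by
    obtain ⟨ω', hω'⟩ := h
    exact Cfsg.Agent.S4275.exists_perm_of_fixes G htr o α ω' hω'
  rcases hcard with h1 | h1
  · refine ⟨ω, fun g hg => ?_⟩
    rw [Nat.card_eq_one_iff_unique] at h1
    have := h1.1.elim (⟨g • ω, ⟨⟨g, hg⟩, rfl⟩⟩ : orbit K ω) ⟨ω, mem_orbit_self ω⟩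
    exact congrArg Subtype.val this
  · have hpos : 0 < Fintype.card Ω := Fintype.card_pos_iff.2 ⟨o⟩
    have hfil : (Finset.univ.filter (fun x => x ∈ orbit K ω)).card = Fintype.card Ω - 1 := by
      rw [← h1, Nat.card_eq_fintype_card, Fintype.card_subtype]
    obtain ⟨ω', hω'⟩ : ∃ ω', ω' ∉ orbit K ω := by
      by_contra hcon
      push Not at hcon
      rw [Finset.filter_true_of_mem (fun x _ => hcon x), Finset.card_univ] at hfil
      omega
    refine ⟨ω', fun g hg => ?_⟩
    by_contra hne
    have hg' : g • ω' ∉ orbit K ω := by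
      rintro ⟨κ, hκ⟩
      apply hω'
      refine ⟨⟨g, hg⟩⁻¹ * κ, ?_⟩
      have hκ' : κ • ω = g • ω' := hκ
      show ((⟨g, hg⟩⁻¹ * κ : K)) • ω = ω'
      rw [mul_smul, hκ']
      show g⁻¹ • g • ω' = ω'
      rw [inv_smul_smul]
    have hsub : Finset.univ.filter (fun x => x ∈ orbit K ω) ⊆ Finset.univ \ {ω', g • ω'} := by
      intro x hx
      rw [Finset.mem_filter] at hx
      simp only [Finset.mem_sdiff, Finset.mem_univ, true_and, Finset.mem_insert,
        Finset.mem_singleton, not_or]
      exact ⟨by rintro rfl; exact hω' hx.2, by rintro rfl; exact hg' hx.2⟩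
    have h3 := Finset.card_le_card hsub
    rw [hfil, Finset.card_sdiff_of_subset (Finset.subset_univ _), Finset.card_univ,
      Finset.card_pair (Ne.symm hne)] at h3
    have h4 : 2 ≤ Fintype.card Ω := by
      rw [← Finset.card_pair (Ne.symm hne)]
      exact Finset.card_le_univ _
    omega

end Cfsg.Agent.S4276
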