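import Cfsg.Statements.S4283
import Cfsg.Agent.S0034
import Cfsg.Agent.Lib.Helper69.ClassSize

set_option autoImplicit false
open Cfsg Cfsg.Agent.Lib.Helper69
open scoped Pointwise

namespace Cfsg.Agent.S4283

/-- Let G be a finite group with centre Z and let K, H be abelian subgroups of G containing Z such that G/Z is a Frobenius group with complement H/Z and kernel K/Z. Then the conjugacy class sizes of G are exactly 1, [G : K] and [G : H], and these two indices are coprime. (This is the converse half of the characterization of finite groups whose conjugacy class sizes are exactly 1, m and n with m and n coprime.) -/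
theorem result {G : Type*} [Group G] [Finite G] (K H : Subgroup G) (hZK : Subgroup.center G ≤ K) (hZH : Subgroup.center G ≤ H) (hK : IsMulCommutative K) (hH : IsMulCommutative H) (hFrob : Cfsg.IsFrobeniusComplement (H.map (QuotientGroup.mk' (Subgroup.center G)))) (hker : Cfsg.frobeniusKernel (H.map (QuotientGroup.mk' (Subgroup.center G))) = (K.map (QuotientGroup.mk' (Subgroup.center G)) : Set (G ⧸ Subgroup.center G))) : Set.range (fun x : G => (Subgroup.centralizer ({x} : Set G)).index) = ({1, K.index, H.index} : Set ℕ) ∧ K.index.Coprime H.index := by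
  classical
  set Z := Subgroup.center G with hZ
  set π := QuotientGroup.mk' Z with hπ
  have hπ1 : ∀ g : G, π g = 1 ↔ g ∈ Z := fun g => QuotientGroup.eq_one_iff g
  have hmem : ∀ A : Subgroup G, Z ≤ A → ∀ g : G, π g ∈ A.map π ↔ g ∈ A := by
    intro A hA g
    constructor
    · rintro ⟨c, hc, hcg⟩
      have h1 : c⁻¹ * g ∈ Z := by
        rw [← hπ1, map_mul, map_inv, hcg, inv_mul_cancel]
      have h2 := A.mul_mem hc (hA h1)
      rwa [mul_inv_cancel_left] at h2
    · intro hg
      exact ⟨g, hg, rfl⟩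
  have hcard := Cfsg.Agent.S0034.result _ hFrob
  obtain ⟨hbot, htop, hmal⟩ := hFrob
  have hconjmem : ∀ γ g : G, π g ∈ MulAut.conj (π γ) • H.map π ↔ γ⁻¹ * g * γ ∈ H := by
    intro γ g
    rw [Subgroup.mem_pointwise_smul_iff_inv_smul_mem, MulAut.smul_def, ← map_inv, MulAut.conj_apply,
      ← map_inv, ← map_mul, ← map_inv, ← map_mul, hmem H hZH, inv_inv]
  have hZn : ∀ g γ : G, γ * g * γ⁻¹ ∈ Z → g ∈ Z := by
    intro g γ h1
    have := (inferInstance : Z.Normal).conj_mem _ h1 γ⁻¹
    have e : γ⁻¹ * (γ * g * γ⁻¹) * γ⁻¹⁻¹ = g := by group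
    rwa [e] at this
  have hmal' : ∀ g h : G, h ∈ H → h ∉ Z → g * h * g⁻¹ ∈ H → g ∈ H := by
    intro g h hh hhZ hgh
    by_contra hg
    have h1 := hmal (π g) (fun h2 => hg ((hmem H hZH g).1 h2))
    have h2 : π (g * h * g⁻¹) ∈ H.map π ⊓ (MulAut.conj (π g) • H.map π) := by
      refine Subgroup.mem_inf.2 ⟨(hmem H hZH _).2 hgh, ?_⟩
      rw [hconjmem]
      have e : g⁻¹ * (g * h * g⁻¹) * g = h := by group
      rw [e]; exact hh
    rw [h1, Subgroup.mem_bot, hπ1] at h2
    exact hhZ (hZn _ _ h2)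
  have hkerK : ∀ g : G, π g ∈ Cfsg.frobeniusKernel (H.map π) ↔ g ∈ K := by
    intro g
    rw [hker, SetLike.mem_coe, hmem K hZK]
  have hcommK : ∀ a ∈ K, ∀ b ∈ K, a * b = b * a := fun a ha b hb =>
    congrArg Subtype.val (hK.is_comm.comm ⟨a, ha⟩ ⟨b, hb⟩)
  have hcommH : ∀ a ∈ H, ∀ b ∈ H, a * b = b * a := fun a ha b hb =>
    congrArg Subtype.val (hH.is_comm.comm ⟨a, ha⟩ ⟨b, hb⟩)
  -- every element is in `K` or conjugate into `H \ Z`
  have hcases : ∀ g : G, g ∈ K ∨ ∃ γ : G, γ⁻¹ * g * γ ∈ H ∧ γ⁻¹ * g * γ ∉ Z := by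
    intro g
    by_cases hg : g ∈ K
    · exact Or.inl hg
    · right
      rw [← hkerK] at hg
      have hg' : ¬ (π g = 1 ∨ ∀ γ, π g ∉ MulAut.conj γ • H.map π) := hg
      push Not at hg'
      obtain ⟨hg1, γb, hγ⟩ := hg'
      obtain ⟨γ, rfl⟩ := QuotientGroup.mk'_surjective Z γb
      refine ⟨γ, (hconjmem γ g).1 hγ, fun h1 => hg1 ((hπ1 g).2 ?_)⟩
      have := hZn g γ⁻¹ (by rwa [inv_inv])
      exact this
  have hCH : ∀ h ∈ H, h ∉ Z → Subgroup.centralizer ({h} : Set G) = H := by
    intro h hh hhZ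
    apply le_antisymm
    · intro g hg
      rw [mem_cent_singleton] at hg
      apply hmal' g h hh hhZ
      rw [hg, mul_inv_cancel_right]; exact hh
    · intro g hg
      exact mem_cent_singleton.2 (hcommH g hg h hh)
  have hCK : ∀ k ∈ K, k ∉ Z → Subgroup.centralizer ({k} : Set G) = K := by
    intro k hk hkZ
    apply le_antisymm
    · intro g hg
      rw [mem_cent_singleton] at hg
      rcases hcases g with h1 | ⟨γ, h1, h2⟩
      · exact h1
      · exfalso
        have h3 : (γ⁻¹ * k * γ) * (γ⁻¹ * g * γ) * (γ⁻¹ * k * γ)⁻¹ = γ⁻¹ * g * γ := by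
          calc (γ⁻¹ * k * γ) * (γ⁻¹ * g * γ) * (γ⁻¹ * k * γ)⁻¹ = γ⁻¹ * (k * g) * k⁻¹ * γ := by group
            _ = γ⁻¹ * (g * k) * k⁻¹ * γ := by rw [hg]
            _ = γ⁻¹ * g * γ := by group
        have h4 : γ⁻¹ * k * γ ∈ H := hmal' _ _ h1 h2 (by rw [h3]; exact h1)
        have h5 : π k ∈ Cfsg.frobeniusKernel (H.map π) := (hkerK k).2 hk
        rcases h5 with h5 | h5
        · exact hkZ ((hπ1 k).1 h5)
        · exact h5 (π γ) ((hconjmem γ k).2 h4)
    · intro g hg
      exact mem_cent_singleton.2 (hcommK g hg k hk)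
  have hHi : (H.map π).index = H.index :=
    Subgroup.index_map_eq _ (QuotientGroup.mk'_surjective Z) (by rw [QuotientGroup.ker_mk']; exact hZH)
  have hKi : (K.map π).index = K.index :=
    Subgroup.index_map_eq _ (QuotientGroup.mk'_surjective Z) (by rw [QuotientGroup.ker_mk']; exact hZK)
  have hKc : Nat.card (K.map π) = H.index := by
    rw [← hHi, ← hcard.1, hker]; rfl
  have hKH : K.index = Nat.card (H.map π) := by
    have h1 := (K.map π).card_mul_index
    have h2 := (H.map π).card_mul_index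
    rw [hKc, hKi] at h1
    rw [hHi, ← h1, mul_comm] at h2
    exact (Nat.eq_of_mul_eq_mul_left (Nat.pos_of_ne_zero Subgroup.index_ne_zero_of_finite) h2).symm
  refine ⟨?_, ?_⟩
  · ext v
    simp only [Set.mem_range, Set.mem_insert_iff, Set.mem_singleton_iff]
    constructor
    · rintro ⟨g, rfl⟩
      by_cases hgZ : g ∈ Z
      · exact Or.inl ((index_centralizer_eq_one_iff g).2 hgZ)
      · rcases hcases g with h1 | ⟨γ, h1, h2⟩
        · right; left
          rw [hCK g h1 hgZ]
        · right; right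
          have h3 := index_centralizer_conj g γ⁻¹
          rw [inv_inv] at h3
          rw [← h3, hCH _ h1 h2]
    · rintro (rfl | rfl | rfl)
      · exact ⟨1, (index_centralizer_eq_one_iff 1).2 (Subgroup.one_mem _)⟩
      · have : ∃ k ∈ K, k ∉ Z := by
          by_contra hcon
          push Not at hcon
          have h1 : K.map π = ⊥ := by
            rw [eq_bot_iff]
            rintro _ ⟨k, hk, rfl⟩
            rw [Subgroup.mem_bot, hπ1]; exact hcon k hk
          rw [h1, Subgroup.card_bot] at hKc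
          rw [← hKc] at hHi
          exact htop (Subgroup.index_eq_one.1 hHi)
        obtain ⟨k, hk, hkZ⟩ := this
        exact ⟨k, by rw [hCK k hk hkZ]⟩
      · have : ∃ h ∈ H, h ∉ Z := by
          by_contra hcon
          push Not at hcon
          apply hbot
          rw [eq_bot_iff]
          rintro _ ⟨h, hh, rfl⟩
          rw [Subgroup.mem_bot, hπ1]; exact hcon h hh
        obtain ⟨h, hh, hhZ⟩ := this
        exact ⟨h, by rw [hCH h hh hhZ]⟩
  · rw [hKH, ← hHi]
    have h1 : (H.map π).index ≡ 1 [MOD Nat.card (H.map π)] := hcard.2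
    have h2 := h1.gcd_eq
    rw [Nat.gcd_one_left] at h2
    exact (Nat.coprime_comm.1 h2)

end Cfsg.Agent.S4283
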