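import Mathlib
import Cfsg.Statements.S4293
import Cfsg.Agent.Lib.Helper56.FrobComplement

set_option autoImplicit false
open Cfsg

namespace Cfsg.Agent.S4293

open Cfsg.Agent.Lib.Helper56

section core
variable {D : Type*} [DivisionRing D]

/-- core computation: `x` of finite order prime to `p` acts without fixed points modulo `p`. -/
theorem fpf_core (N : Submodule ℤ D) (x : D) (hinv : ∀ a ∈ N, x * a ∈ N) (n : ℕ) (hx : x ^ n = 1)
    (hx1 : x ≠ 1) (p : ℕ) (hcop : Nat.Coprime n p) (a : D) (ha : a ∈ N) (w : D) (hw : w ∈ N)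
    (h : x * a - a = (p : ℤ) • w) : ∃ w' ∈ N, a = (p : ℤ) • w' := by
  have hstep : ∀ i : ℕ, ∃ u ∈ N, x ^ i * a = a + (p : ℤ) • u := by
    intro i
    induction i with
    | zero => exact ⟨0, N.zero_mem, by simp⟩
    | succ i ih =>
      obtain ⟨u, hu, hui⟩ := ih
      refine ⟨w + x * u, N.add_mem hw (hinv u hu), ?_⟩
      have hxa : x * a = a + (p : ℤ) • w := by rw [← h]; abel
      rw [pow_succ', mul_assoc, hui, mul_add, hxa, mul_smul_comm, smul_add, add_assoc]
  choose u hu hui using hstep
  have hsum0 : (∑ i ∈ Finset.range n, x ^ i) = 0 := by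
    have h1 := geom_sum_mul x n
    rw [hx, sub_self] at h1
    rcases mul_eq_zero.1 h1 with h2 | h2
    · exact h2
    · exact absurd (sub_eq_zero.1 h2) hx1
  have hsum : (∑ i ∈ Finset.range n, x ^ i) * a = (n : ℤ) • a + (p : ℤ) • ∑ i ∈ Finset.range n, u i := by
    rw [Finset.sum_mul, Finset.sum_congr rfl (fun i _ => hui i), Finset.sum_add_distrib,
      Finset.sum_const, Finset.card_range, Finset.smul_sum, natCast_zsmul]
  rw [hsum0, zero_mul] at hsum
  have hU : ∑ i ∈ Finset.range n, u i ∈ N := N.sum_mem (fun i _ => hu i)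
  have hna : (n : ℤ) • a = (p : ℤ) • (-∑ i ∈ Finset.range n, u i) := by
    rw [smul_neg, eq_neg_iff_add_eq_zero]; exact hsum.symm
  obtain ⟨α, β, hαβ⟩ := (Nat.isCoprime_iff_coprime.2 hcop)
  refine ⟨α • (-∑ i ∈ Finset.range n, u i) + β • a, ?_, ?_⟩
  · exact N.add_mem (N.smul_mem _ (N.neg_mem hU)) (N.smul_mem _ ha)
  · calc a = (α * (n : ℤ) + β * (p : ℤ)) • a := by rw [hαβ, one_smul]
      _ = α • ((n : ℤ) • a) + (p : ℤ) • (β • a) := by
          rw [add_smul, mul_smul, mul_comm β, mul_smul]
      _ = (p : ℤ) • (α • (-∑ i ∈ Finset.range n, u i) + β • a) := by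
          rw [hna, smul_add, smul_comm α]

end core

section construction
variable {D : Type*} [DivisionRing D] (H : Subgroup Dˣ)

/-- the ℤ-span of `H` in `D` -/
def spanH : Submodule ℤ D := Submodule.span ℤ ((fun h : Dˣ => (h : D)) '' (H : Set Dˣ))

theorem one_mem_spanH : (1 : D) ∈ spanH H :=
  Submodule.subset_span ⟨1, H.one_mem, rfl⟩

theorem mul_mem_spanH {h : Dˣ} (hh : h ∈ H) {a : D} (ha : a ∈ spanH H) : (h : D) * a ∈ spanH H := by
  induction ha using Submodule.span_induction with
  | mem x hx =>
    obtain ⟨g, hg, rfl⟩ := hx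
    exact Submodule.subset_span ⟨h * g, H.mul_mem hh hg, by simp⟩
  | zero => simp
  | add x y _ _ hx hy => rw [mul_add]; exact (spanH H).add_mem hx hy
  | smul c x _ hx => rw [mul_smul_comm]; exact (spanH H).smul_mem c hx

theorem mul_mem_spanH' {b a : D} (hb : b ∈ spanH H) (ha : a ∈ spanH H) : b * a ∈ spanH H := by
  induction hb using Submodule.span_induction with
  | mem x hx =>
    obtain ⟨g, hg, rfl⟩ := hx
    exact mul_mem_spanH H hg ha
  | zero => simp
  | add x y _ _ hx hy => rw [add_mul]; exact (spanH H).add_mem hx hy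
  | smul c x _ hx => rw [smul_mul_assoc]; exact (spanH H).smul_mem c hx

/-- left multiplication by `h ∈ H` on the span -/
def lmul (h : H) : spanH H →ₗ[ℤ] spanH H :=
  (LinearMap.mulLeft ℤ ((h : Dˣ) : D)).restrict (fun _ ha => mul_mem_spanH H h.2 ha)

theorem lmul_coe (h : H) (a : spanH H) : ((lmul H h a : spanH H) : D) = ((h : Dˣ) : D) * a := rfl

/-- `p • span` -/
def pSub (p : ℕ) : Submodule ℤ (spanH H) := LinearMap.range ((p : ℤ) • (LinearMap.id : spanH H →ₗ[ℤ] spanH H))

theorem mem_pSub {p : ℕ} {x : spanH H} : x ∈ pSub H p ↔ ∃ w : spanH H, (p : ℤ) • w = x := by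
  simp [pSub, LinearMap.mem_range]

theorem pSub_le_comap (p : ℕ) (f : spanH H →ₗ[ℤ] spanH H) : pSub H p ≤ (pSub H p).comap f := by
  intro x hx
  obtain ⟨w, rfl⟩ := (mem_pSub H).1 hx
  rw [Submodule.mem_comap, map_smul]
  exact (mem_pSub H).2 ⟨f w, rfl⟩

/-- the action of `H` on `span / p span` -/
@[instance_reducible]
def actionV (p : ℕ) : DistribMulAction H (spanH H ⧸ pSub H p) where
  smul h v := (pSub H p).mapQ (pSub H p) (lmul H h) (pSub_le_comap H p _) v
  one_smul v := by
    induction v using Submodule.Quotient.induction_on with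
    | H a =>
      change (pSub H p).mapQ (pSub H p) (lmul H 1) (pSub_le_comap H p _) (Submodule.Quotient.mk a) = _
      rw [Submodule.mapQ_apply]
      congr 1
      apply Subtype.ext
      rw [lmul_coe]
      simp
  mul_smul g h v := by
    induction v using Submodule.Quotient.induction_on with
    | H a =>
      change (pSub H p).mapQ (pSub H p) (lmul H (g * h)) (pSub_le_comap H p _) (Submodule.Quotient.mk a) =
        (pSub H p).mapQ (pSub H p) (lmul H g) (pSub_le_comap H p _)
          ((pSub H p).mapQ (pSub H p) (lmul H h) (pSub_le_comap H p _) (Submodule.Quotient.mk a))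
      rw [Submodule.mapQ_apply, Submodule.mapQ_apply, Submodule.mapQ_apply]
      congr 1
      apply Subtype.ext
      rw [lmul_coe, lmul_coe, lmul_coe]
      simp [mul_assoc]
  smul_zero h := map_zero _
  smul_add h v w := map_add _ v w

theorem main [Finite H] (hH : H ≠ ⊥) (p : ℕ) (hp : p.Prime)
    (hfp : ∀ h ∈ H, h ≠ 1 → ∀ a ∈ spanH H, ∀ w ∈ spanH H, (h : D) * a - a = (p : ℤ) • w →
      ∃ w' ∈ spanH H, a = (p : ℤ) • w')
    (hnt : ¬ ∃ w ∈ spanH H, (1 : D) = (p : ℤ) • w) :
    ∃ (L : Type) (_ : Group L) (_ : Finite L) (C : Subgroup L),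
      Cfsg.IsFrobeniusComplement C ∧ Nonempty (H ≃* C) := by
  let _ := actionV H p
  have hfg : (spanH H).FG := by
    apply Submodule.fg_span
    exact Set.Finite.image _ (Set.toFinite _)
  have hmf : Module.Finite ℤ (spanH H) := Module.Finite.of_fg hfg
  have hfin : Finite (spanH H ⧸ pSub H p) := by
    apply Module.finite_of_fg_torsion
    intro v
    refine ⟨⟨(p : ℤ), ?_⟩, ?_⟩
    · rw [mem_nonZeroDivisors_iff_ne_zero]
      exact_mod_cast hp.ne_zero
    · induction v using Submodule.Quotient.induction_on with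
      | H a =>
        change (p : ℤ) • (Submodule.Quotient.mk a : spanH H ⧸ pSub H p) = 0
        rw [← Submodule.Quotient.mk_smul, Submodule.Quotient.mk_eq_zero]
        exact (mem_pSub H).2 ⟨a, rfl⟩
  have hntV : Nontrivial (spanH H ⧸ pSub H p) := by
    refine ⟨⟨Submodule.Quotient.mk ⟨1, one_mem_spanH H⟩, 0, ?_⟩⟩
    rw [Ne, Submodule.Quotient.mk_eq_zero]
    intro h
    obtain ⟨w, hw⟩ := (mem_pSub H).1 h
    apply hnt
    refine ⟨w, w.2, ?_⟩
    have := congrArg Subtype.val hw
    simpa using this.symm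
  have hntH : Nontrivial H := by
    rw [Subgroup.nontrivial_iff_ne_bot]
    exact hH
  apply exists_frobenius_of_fpf_add (V := spanH H ⧸ pSub H p) (H := H)
  intro h hh v hv
  induction v using Submodule.Quotient.induction_on with
  | H a =>
    change (pSub H p).mapQ (pSub H p) (lmul H h) (pSub_le_comap H p _) (Submodule.Quotient.mk a) = _ at hv
    rw [Submodule.mapQ_apply, Submodule.Quotient.eq] at hv
    obtain ⟨w, hw⟩ := (mem_pSub H).1 hv
    have hw' : ((h : Dˣ) : D) * a - a = (p : ℤ) • (w : D) := by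
      have := congrArg Subtype.val hw
      simpa [lmul_coe] using this.symm
    have hh' : (h : Dˣ) ≠ 1 := fun e => hh (Subtype.ext e)
    obtain ⟨w', hw'N, hw'a⟩ := hfp h h.2 hh' a a.2 w w.2 hw'
    rw [Submodule.Quotient.mk_eq_zero]
    refine (mem_pSub H).2 ⟨⟨w', hw'N⟩, ?_⟩
    apply Subtype.ext
    simpa using hw'a.symm

end construction

/-- A nontrivial finite subgroup of the multiplicative group of a division ring occurs as a Frobenius complement of some finite Frobenius group. -/
theorem result {D : Type*} [DivisionRing D] (H : Subgroup Dˣ) [Finite H] (hH : H ≠ ⊥) :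
    ∃ (L : Type) (_ : Group L) (_ : Finite L) (C : Subgroup L), Cfsg.IsFrobeniusComplement C ∧ Nonempty (H ≃* C) := by
  by_cases hchar : ∃ ℓ : ℕ, ℓ.Prime ∧ (ℓ : D) = 0
  · obtain ⟨p, hp, hp0⟩ := hchar
    have hsm : ∀ w : D, (p : ℤ) • w = 0 := by
      intro w
      rw [zsmul_eq_mul]
      simp [hp0]
    apply main H hH p hp
    · intro h _ hh1 a _ w _ haw
      rw [hsm] at haw
      refine ⟨0, Submodule.zero_mem _, ?_⟩
      rw [smul_zero]
      have h1 : ((h : D) - 1) * a = 0 := by rw [sub_mul, one_mul]; exact haw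
      rcases mul_eq_zero.1 h1 with h2 | h2
      · exfalso
        apply hh1
        apply Units.ext
        simpa using sub_eq_zero.1 h2
      · exact h2
    · rintro ⟨w, _, hw⟩
      rw [hsm] at hw
      exact one_ne_zero hw
  · have hc0 : CharZero D := by
      have hcp : CharP D (ringChar D) := inferInstance
      rcases CharP.char_is_prime_or_zero D (ringChar D) with h | h
      · exfalso
        exact hchar ⟨ringChar D, h, CharP.cast_eq_zero D (ringChar D)⟩
      · rw [h] at hcp
        exact CharP.charP_to_charZero D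
    obtain ⟨p, hpge, hp⟩ := Nat.exists_infinite_primes (Nat.card H + 1)
    apply main H hH p hp
    · intro h hhH hh1 a ha w hw haw
      have hord : orderOf (⟨h, hhH⟩ : H) ∣ Nat.card H := orderOf_dvd_natCard _
      have hpos : 0 < Nat.card H := Nat.card_pos
      have hle := Nat.le_of_dvd hpos hord
      rw [Subgroup.orderOf_mk] at hord hle
      apply fpf_core (spanH H) (h : D) (fun a ha => mul_mem_spanH H hhH ha) (orderOf h) _ _ p _ a ha w hw haw
      · rw [← Units.val_pow_eq_pow_val, pow_orderOf_eq_one]; rfl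
      · intro e
        apply hh1
        apply Units.ext
        simpa using e
      · apply Nat.Coprime.symm
        rw [hp.coprime_iff_not_dvd]
        intro hd
        have hop : 0 < orderOf h := Nat.pos_of_dvd_of_pos hord hpos
        have := Nat.le_of_dvd hop hd
        omega
    · rintro ⟨w, hw, h1w⟩
      have hfg : (spanH H).FG := by
        apply Submodule.fg_span
        exact Set.Finite.image _ (Set.toFinite _)
      have hle : spanH H ≤ (Ideal.span {(p : ℤ)}) • spanH H := by
        intro a ha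
        have : a = (p : ℤ) • (w * a) := by
          rw [← smul_mul_assoc, ← h1w, one_mul]
        rw [this]
        exact Submodule.smul_mem_smul (Ideal.subset_span rfl) (mul_mem_spanH' H hw ha)
      obtain ⟨r, hr1, hr2⟩ := Submodule.exists_sub_one_mem_and_smul_eq_zero_of_fg_of_le_smul _ _ hfg hle
      have h3 := hr2 1 (one_mem_spanH H)
      rw [zsmul_eq_mul, mul_one] at h3
      have hr0 : r = 0 := by exact_mod_cast h3
      rw [hr0, Ideal.mem_span_singleton] at hr1
      have : (p : ℤ) ∣ 1 := by simpa using hr1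
      have h4 := Int.eq_one_of_dvd_one (by positivity) this
      have : p = 1 := by exact_mod_cast h4
      exact hp.one_lt.ne' this

end Cfsg.Agent.S4293
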