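import Mathlib
import Cfsg.Statements.S4295
import Cfsg.Agent.S0034
import Cfsg.Agent.Lib.Helper60.QuatFrob
import Cfsg.Agent.Lib.Helper60.QuatLift

set_option autoImplicit false
open Cfsg

namespace Cfsg.Agent.S4295

open Cfsg.Agent.Lib.Helper60

/-- quaternion module data of order `n²` -/
def QMod (n : ℕ) : Prop :=
  ∃ (A : Type) (_ : AddCommGroup A) (_ : Finite A) (I J : A →+ A), Nat.card A = n ^ 2 ∧
    (∀ x, I (I x) = -x) ∧ (∀ x, J (J x) = -x) ∧ (∀ x, I (J x) = - J (I x))

theorem qmod_one : QMod 1 :=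
  ⟨PUnit, inferInstance, inferInstance, 0, 0, by simp, fun _ => rfl, fun _ => rfl, fun _ => rfl⟩

theorem qmod_mul {m n : ℕ} (hm : QMod m) (hn : QMod n) : QMod (m * n) := by
  obtain ⟨A, _, _, I, J, hc, hI, hJ, hIJ⟩ := hm
  obtain ⟨B, _, _, I', J', hc', hI', hJ', hIJ'⟩ := hn
  refine ⟨A × B, inferInstance, inferInstance, I.prodMap I', J.prodMap J', ?_, ?_, ?_, ?_⟩
  · rw [Nat.card_prod, hc, hc']; ring
  · rintro ⟨x, y⟩; simp [hI, hI']
  · rintro ⟨x, y⟩; simp [hJ, hJ']
  · rintro ⟨x, y⟩; simp [hIJ, hIJ']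

theorem qmod_prime (r : ℕ) (hr : r.Prime) : QMod r := by
  have : Fact r.Prime := ⟨hr⟩
  obtain ⟨a, b, hab⟩ := ZMod.sq_add_sq r (-1)
  let I : ZMod r × ZMod r →+ ZMod r × ZMod r :=
    AddMonoidHom.mk' (fun x => (-x.2, x.1)) (by
      rintro ⟨x, y⟩ ⟨x', y'⟩; ext <;> simp <;> ring)
  let J : ZMod r × ZMod r →+ ZMod r × ZMod r :=
    AddMonoidHom.mk' (fun x => (a * x.1 + b * x.2, b * x.1 - a * x.2)) (by
      rintro ⟨x, y⟩ ⟨x', y'⟩; ext <;> simp <;> ring)
  refine ⟨ZMod r × ZMod r, inferInstance, inferInstance, I, J, ?_, ?_, ?_, ?_⟩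
  · rw [Nat.card_prod, Nat.card_zmod]; ring
  · rintro ⟨x, y⟩; rfl
  · rintro ⟨x, y⟩
    change (a * (a * x + b * y) + b * (b * x - a * y), b * (a * x + b * y) - a * (b * x - a * y))
      = (-x, -y)
    ext
    · linear_combination x * hab
    · linear_combination y * hab
  · rintro ⟨x, y⟩
    change (-(b * x - a * y), a * x + b * y) = -(a * (-y) + b * x, b * (-y) - a * x)
    ext <;> simp <;> ring

theorem qmod_odd (n : ℕ) : n ≠ 0 → QMod n := by
  induction n using Nat.recOnMul with
  | zero => intro h; exact absurd rfl h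
  | one => intro _; exact qmod_one
  | prime p hp => intro _; exact qmod_prime p hp
  | mul a b ha hb =>
    intro h
    exact qmod_mul (ha (by rintro rfl; simp at h)) (hb (by rintro rfl; simp at h))

theorem q8_sq : ∀ g : QuaternionGroup 2, g ≠ 1 →
    g = QuaternionGroup.a ((2 : ℕ) : ZMod (2 * 2)) ∨ g * g = QuaternionGroup.a ((2 : ℕ) : ZMod (2 * 2)) := by
  decide

theorem build (A : Type) [AddCommGroup A] [Finite A] (I J : A →+ A)
    (hI : ∀ x, I (I x) = -x) (hJ : ∀ x, J (J x) = -x) (hIJ : ∀ x, I (J x) = - J (I x))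
    (hodd : Odd (Nat.card A)) (hnt : 1 < Nat.card A) :
    ∃ (L : Type) (_ : Group L) (_ : Finite L) (H : Subgroup L), Cfsg.IsFrobeniusComplement H ∧
        Nonempty (H ≃* QuaternionGroup 2) ∧ Nat.card (Cfsg.frobeniusKernel H) = Nat.card A := by
  let eI : A ≃+ A :=
    { toFun := I, invFun := fun x => - I x, left_inv := fun x => by simp [hI],
      right_inv := fun x => by simp [hI], map_add' := map_add I }
  let eJ : A ≃+ A :=
    { toFun := J, invFun := fun x => - J x, left_inv := fun x => by simp [hJ],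
      right_inv := fun x => by simp [hJ], map_add' := map_add J }
  let u : MulAut (Multiplicative A) := AddEquiv.toMultiplicative eI
  let v : MulAut (Multiplicative A) := AddEquiv.toMultiplicative eJ
  have hu_apply : ∀ x : Multiplicative A, u x = Multiplicative.ofAdd (I x.toAdd) := fun x => rfl
  have hv_apply : ∀ x : Multiplicative A, v x = Multiplicative.ofAdd (J x.toAdd) := fun x => rfl
  have hu2 : ∀ x : Multiplicative A, (u ^ 2) x = x⁻¹ := by
    intro x
    rw [pow_two, MulAut.mul_apply, hu_apply, hu_apply]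
    simp only [toAdd_ofAdd, hI]
    rfl
  have hu : u ^ (2 * 2) = 1 := by
    ext x
    rw [pow_mul, pow_two, MulAut.mul_apply, hu2, hu2, inv_inv]; rfl
  have hv : v * v = u ^ 2 := by
    ext x
    rw [hu2, MulAut.mul_apply, hv_apply, hv_apply]
    simp only [toAdd_ofAdd, hJ]
    rfl
  have huv : u * v * u = v := by
    ext x
    rw [MulAut.mul_apply, MulAut.mul_apply, hu_apply, hv_apply, hu_apply, hv_apply]
    simp only [toAdd_ofAdd]
    rw [hIJ, hI, map_neg, neg_neg]
  let φ : QuaternionGroup 2 →* MulAut (Multiplicative A) := quatLift 2 u v hu hv huv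
  have hφ2 : ∀ x, φ (QuaternionGroup.a ((2 : ℕ) : ZMod (2 * 2))) x = x⁻¹ := by
    intro x
    have : φ (QuaternionGroup.a ((2 : ℕ) : ZMod (2 * 2))) = u ^ 2 := quatLift_a 2 u v hu hv huv 2
    rw [this, hu2]
  have hcardM : Nat.card (Multiplicative A) = Nat.card A := rfl
  have hsq1 : ∀ x : Multiplicative A, x⁻¹ = x → x = 1 := by
    intro x hx
    have h2 : x ^ 2 = 1 := by rw [pow_two]; nth_rewrite 1 [← hx]; simp
    have h3 : x ^ Nat.card (Multiplicative A) = 1 := pow_card_eq_one'
    obtain ⟨m, hm⟩ := hodd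
    rw [hcardM, hm, pow_succ, pow_mul, h2, one_pow, one_mul] at h3
    exact h3
  have hfix : ∀ g : QuaternionGroup 2, g ≠ 1 → ∀ x, φ g x = x → x = 1 := by
    intro g hg x hx
    rcases q8_sq g hg with h | h
    · rw [h, hφ2] at hx; exact hsq1 x hx
    · have : φ (g * g) x = x := by rw [map_mul, MulAut.mul_apply, hx, hx]
      rw [h, hφ2] at this; exact hsq1 x this
  let L := Multiplicative A ⋊[φ] QuaternionGroup 2
  have hfin : Finite L := Finite.of_equiv _ SemidirectProduct.equivProd.symm
  let Kn : Subgroup L := (SemidirectProduct.inl : Multiplicative A →* L).range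
  let Hc : Subgroup L := (SemidirectProduct.inr : QuaternionGroup 2 →* L).range
  have hKn : Kn.Normal := by
    change ((SemidirectProduct.inl : Multiplicative A →* L).range).Normal
    rw [SemidirectProduct.range_inl_eq_ker_rightHom]; infer_instance
  have hcompl : Subgroup.IsComplement' Kn Hc := by
    apply Subgroup.isComplement'_of_disjoint_and_mul_eq_univ
    · rw [Subgroup.disjoint_def]
      rintro x ⟨n, rfl⟩ ⟨g, hg⟩
      have := congrArg SemidirectProduct.left hg
      simp only [SemidirectProduct.left_inr, SemidirectProduct.left_inl] at this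
      rw [← this, map_one]
    · rw [Set.eq_univ_iff_forall]
      intro x
      exact ⟨SemidirectProduct.inl x.left, ⟨_, rfl⟩, SemidirectProduct.inr x.right, ⟨_, rfl⟩,
        SemidirectProduct.inl_left_mul_inr_right x⟩
  have hcardKn : Nat.card Kn = Nat.card A :=
    (Nat.card_congr (MonoidHom.ofInjective SemidirectProduct.inl_injective).toEquiv).symm
  have hKbot : Kn ≠ ⊥ := by
    intro h
    rw [h, Subgroup.card_bot] at hcardKn
    omega
  have hHbot : Hc ≠ ⊥ := by
    intro h
    have h1 : (SemidirectProduct.inr (QuaternionGroup.xa 0 : QuaternionGroup 2) : L) ∈ Hc := ⟨_, rfl⟩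
    rw [h, Subgroup.mem_bot] at h1
    have h2 := SemidirectProduct.inr_injective (h1.trans (map_one _).symm)
    exact absurd h2 (by decide)
  have hF : Cfsg.IsFrobeniusComplement Hc := by
    rw [Cfsg.Agent.S0039.result Kn Hc hcompl hKbot hHbot]
    rintro h ⟨g, rfl⟩ hg1
    rw [eq_bot_iff]
    intro k hk
    obtain ⟨⟨x, rfl⟩, hk2⟩ := Subgroup.mem_inf.1 hk
    rw [Subgroup.mem_centralizer_singleton_iff] at hk2
    have hg : g ≠ 1 := by rintro rfl; exact hg1 (map_one _)
    have : (SemidirectProduct.inl (φ g x) : L) = SemidirectProduct.inl x := by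
      rw [SemidirectProduct.inl_aut, map_inv, mul_inv_eq_iff_eq_mul]
      exact hk2.symm
    have hx := hfix g hg x (SemidirectProduct.inl_injective this)
    rw [hx, map_one]; exact Subgroup.mem_bot.2 rfl
  refine ⟨L, inferInstance, hfin, Hc, hF,
    ⟨(MonoidHom.ofInjective SemidirectProduct.inr_injective).symm⟩, ?_⟩
  rw [(Cfsg.Agent.S0034.result Hc hF).1, hcompl.index_eq_card, hcardKn]

/-- For a natural number m the following are equivalent: (a) some finite group has a Frobenius complement isomorphic to the quaternion group of order 8 whose Frobenius kernel (the identity together with the elements lying in no conjugate of the complement) has exactly m elements; (b) m is an odd perfect square greater than 1. -/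
theorem result (m : ℕ) :
    (∃ (L : Type) (_ : Group L) (_ : Finite L) (H : Subgroup L), Cfsg.IsFrobeniusComplement H ∧
        Nonempty (H ≃* QuaternionGroup 2) ∧ Nat.card (Cfsg.frobeniusKernel H) = m) ↔
    (Odd m ∧ IsSquare m ∧ 1 < m) := by
  constructor
  · rintro ⟨L, _, _, H, hF, ⟨e⟩, rfl⟩
    obtain ⟨i, j, h1, h2, h3, h4⟩ :
        ∃ i j : QuaternionGroup 2, j * j = i * i ∧ i * i ≠ 1 ∧ (i * i) * (i * i) = 1 ∧
          j * i * j⁻¹ = i⁻¹ := quat_pair 0
    let f : QuaternionGroup 2 →* L := H.subtype.comp e.symm.toMonoidHom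
    have hfinj : Function.Injective f := by
      intro x y hxy
      exact e.symm.injective (Subtype.ext hxy)
    have hfH : ∀ x, f x ∈ H := fun x => (e.symm x).2
    have := frob_kernel_square H hF (f i) (f j) (hfH i) (hfH j)
      (by rw [← map_mul, ← map_mul, h1])
      (by
        rw [← map_mul]
        intro h
        exact h2 (hfinj (h.trans (map_one f).symm)))
      (by rw [← map_mul, ← map_mul, h3, map_one])
      (by rw [← map_inv, ← map_inv, ← map_mul, ← map_mul, h4])
    refine ⟨this.1, this.2, ?_⟩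
    rw [(Cfsg.Agent.S0034.result H hF).1]
    have h0 : H.index ≠ 0 := Subgroup.index_ne_zero_of_finite
    have h1 : H.index ≠ 1 := fun h => hF.2.1 (Subgroup.index_eq_one.1 h)
    omega
  · rintro ⟨hodd, ⟨n, rfl⟩, hlt⟩
    have hn0 : n ≠ 0 := by rintro rfl; simp at hlt
    obtain ⟨A, _, _, I, J, hc, hI, hJ, hIJ⟩ := qmod_odd n hn0
    have hc' : Nat.card A = n * n := by rw [hc]; ring
    obtain ⟨L, i1, i2, H, hF, he, hk⟩ := build A I J hI hJ hIJ (hc' ▸ hodd) (hc' ▸ hlt)
    exact ⟨L, i1, i2, H, hF, he, hk.trans hc'⟩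

end Cfsg.Agent.S4295
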