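import Mathlib
import Cfsg.Statements.S4296
import Cfsg.Agent.S0040
import Cfsg.Agent.Lib.Helper60.QuatFrob

set_option autoImplicit false
open Cfsg

namespace Cfsg.Agent.S4296

/-- Let H be a Frobenius complement in a finite group, and suppose some Sylow subgroup of H is not cyclic. Then the number of elements of the Frobenius kernel (the identity together with the elements lying in no conjugate of H) is an odd perfect square. -/
theorem result {L : Type*} [Group L] [Finite L] (H : Subgroup L) (hF : Cfsg.IsFrobeniusComplement H)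
    (hZ : ∃ (p : ℕ) (_ : Fact p.Prime) (P : Sylow p H), ¬ IsCyclic P) :
    Odd (Nat.card (Cfsg.frobeniusKernel H)) ∧ IsSquare (Nat.card (Cfsg.frobeniusKernel H)) := by
  obtain ⟨p, hp, P, hP⟩ := hZ
  obtain ⟨N, hN, hNn, hc⟩ := Cfsg.Agent.S0035.result H hF
  have hNbot : N ≠ ⊥ := by
    intro h
    rw [h, Subgroup.isComplement'_bot_left] at hc
    exact hF.2.1 hc
  have hfpf := (Cfsg.Agent.S0039.result N H hc hNbot hF.1).1 hF
  rcases Cfsg.Agent.S0040.result N H hc hNbot hfpf p P with h | ⟨n, ⟨e⟩⟩
  · exact absurd h hP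
  cases n with
  | zero =>
    exfalso
    apply hP
    have : IsCyclic (QuaternionGroup (2 ^ 0)) := by
      rw [pow_zero]; exact QuaternionGroup.quaternionGroup_one_isCyclic
    exact isCyclic_of_surjective e.symm e.symm.surjective
  | succ n =>
    obtain ⟨i, j, h1, h2, h3, h4⟩ := Cfsg.Agent.Lib.Helper60.quat_pair n
    let f : QuaternionGroup (2 ^ (n + 1)) →* L :=
      H.subtype.comp ((P : Subgroup H).subtype.comp e.symm.toMonoidHom)
    have hfinj : Function.Injective f := by
      intro x y hxy
      exact e.symm.injective (Subtype.ext (Subtype.ext hxy))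
    have hfH : ∀ x, f x ∈ H := fun x => ((e.symm x : P) : H).2
    refine Cfsg.Agent.Lib.Helper60.frob_kernel_square H hF (f i) (f j) (hfH i) (hfH j) ?_ ?_ ?_ ?_
    · rw [← map_mul, ← map_mul, h1]
    · rw [← map_mul]
      intro h
      exact h2 (hfinj (h.trans (map_one f).symm))
    · rw [← map_mul, ← map_mul, h3, map_one]
    · rw [← map_inv, ← map_inv, ← map_mul, ← map_mul, h4]

end Cfsg.Agent.S4296
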