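import Mathlib
import Cfsg.Statements.S4297
import Cfsg.Agent.S4293

set_option autoImplicit false
open Cfsg

namespace Cfsg.Agent.S4297

open Quaternion

/-- the quaternion `j` -/
noncomputable def J : ℍ[ℝ] := ⟨0, 0, 1, 0⟩

theorem J_re : J.re = 0 := rfl
theorem J_imI : J.imI = 0 := rfl
theorem J_imJ : J.imJ = 1 := rfl
theorem J_imK : J.imK = 0 := rfl

theorem coe_mul_J (z : ℂ) : (z : ℍ[ℝ]) * J = J * ((starRingEnd ℂ z : ℂ) : ℍ[ℝ]) := by
  ext <;> simp [J_re, J_imI, J_imJ, J_imK]

theorem J_mul_J : J * J = -1 := by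
  ext <;> simp [J_re, J_imI, J_imJ, J_imK]

theorem coe_neg_one : ((-1 : ℂ) : ℍ[ℝ]) = -1 := by
  ext <;> simp

section
variable (n : ℕ) [NeZero n]

noncomputable def ψ : AddChar (ZMod (2 * n)) ℂ := ZMod.stdAddChar

theorem ψ_n : ψ n (n : ZMod (2 * n)) = -1 := by
  have h := ZMod.stdAddChar_coe (N := 2 * n) (n : ℤ)
  have hn : (n : ℂ) ≠ 0 := by exact_mod_cast NeZero.ne n
  have h2 : 2 * (Real.pi : ℂ) * Complex.I * ((n : ℤ) : ℂ) / ((2 * n : ℕ) : ℂ) = Real.pi * Complex.I := by
    push_cast
    field_simp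
  rw [h2, Complex.exp_pi_mul_I] at h
  simpa [ψ] using h

noncomputable def f : QuaternionGroup n → ℍ[ℝ]
  | QuaternionGroup.a k => ((ψ n k : ℂ) : ℍ[ℝ])
  | QuaternionGroup.xa k => J * ((ψ n k : ℂ) : ℍ[ℝ])

theorem f_mul (x y : QuaternionGroup n) : f n (x * y) = f n x * f n y := by
  rcases x with i | i <;> rcases y with j | j
  · rw [QuaternionGroup.a_mul_a]
    simp only [f]
    rw [AddChar.map_add_eq_mul, coeComplex_mul]
  · rw [QuaternionGroup.a_mul_xa]
    simp only [f]
    rw [← mul_assoc, coe_mul_J, mul_assoc, ← coeComplex_mul, ← AddChar.map_neg_eq_conj,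
      ← AddChar.map_add_eq_mul]
    congr 3
    ring
  · rw [QuaternionGroup.xa_mul_a]
    simp only [f]
    rw [AddChar.map_add_eq_mul, coeComplex_mul, mul_assoc]
  · rw [QuaternionGroup.xa_mul_xa]
    simp only [f]
    have h1 : J * ((ψ n i : ℂ) : ℍ[ℝ]) * (J * ((ψ n j : ℂ) : ℍ[ℝ]))
        = J * (((ψ n i : ℂ) : ℍ[ℝ]) * J) * ((ψ n j : ℂ) : ℍ[ℝ]) := by
      simp only [mul_assoc]
    rw [h1, coe_mul_J, ← mul_assoc, J_mul_J, mul_assoc, ← coeComplex_mul, ← AddChar.map_neg_eq_conj,
      ← AddChar.map_add_eq_mul, ← coe_neg_one, ← coeComplex_mul, ← ψ_n n, ← AddChar.map_add_eq_mul]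
    congr 2
    ring

noncomputable def fHom : QuaternionGroup n →* ℍ[ℝ] where
  toFun := f n
  map_one' := by
    change f n (QuaternionGroup.a 0) = 1
    simp only [f]
    rw [AddChar.map_zero_eq_one, coeComplex_one]
  map_mul' := f_mul n

theorem fHom_injective : Function.Injective (fHom n).toHomUnits := by
  rw [injective_iff_map_eq_one]
  intro g hg
  have hg' : f n g = 1 := congrArg Units.val hg
  rcases g with k | k
  · simp only [f] at hg'
    have h1 : ψ n k = 1 := by
      have hre := congrArg QuaternionAlgebra.re hg'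
      have him := congrArg QuaternionAlgebra.imI hg'
      simp only [re_coeComplex, imI_coeComplex, Quaternion.re_one, Quaternion.imI_one] at hre him
      exact Complex.ext hre him
    have h2 : k = 0 := by
      apply ZMod.injective_stdAddChar
      rw [AddChar.map_zero_eq_one]
      exact h1
    rw [h2]; rfl
  · exfalso
    simp only [f] at hg'
    have hre := congrArg QuaternionAlgebra.re hg'
    simp [J_re, J_imI, J_imJ, J_imK] at hre

end

/-- For every n ≥ 2 the dicyclic group of order 4n (generated by an element a of order 2n and an element x with x² = aⁿ and x a x⁻¹ = a⁻¹) occurs as a Frobenius complement of some finite Frobenius group. -/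
theorem result (n : ℕ) (hn : 2 ≤ n) :
    ∃ (L : Type) (_ : Group L) (_ : Finite L) (H : Subgroup L), Cfsg.IsFrobeniusComplement H ∧ Nonempty (H ≃* QuaternionGroup n) := by
  have : NeZero n := ⟨by omega⟩
  have e : QuaternionGroup n ≃* (fHom n).toHomUnits.range := MonoidHom.ofInjective (fHom_injective n)
  have hfin : Finite (fHom n).toHomUnits.range := Finite.of_equiv _ e.toEquiv
  have hne : (fHom n).toHomUnits.range ≠ ⊥ := by
    intro h
    have h1 : (fHom n).toHomUnits (QuaternionGroup.xa 0) ∈ (fHom n).toHomUnits.range := ⟨_, rfl⟩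
    rw [h, Subgroup.mem_bot] at h1
    have h2 := fHom_injective n (h1.trans (map_one _).symm)
    cases h2
  obtain ⟨L, hg, hf, H, hH, ⟨e'⟩⟩ := S4293.result (fHom n).toHomUnits.range hne
  exact ⟨L, hg, hf, H, hH, ⟨(e.trans e').symm⟩⟩

end Cfsg.Agent.S4297
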