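import Mathlib
import Cfsg.Statements.S4299
import Cfsg.Agent.S4293

set_option autoImplicit false
open Cfsg

namespace Cfsg.Agent.S4299

/-- Every nontrivial finite cyclic group occurs as a Frobenius complement of some finite Frobenius group. -/
theorem result {C : Type*} [Group C] [Finite C] [IsCyclic C] [Nontrivial C] :
    ∃ (L : Type) (_ : Group L) (_ : Finite L) (H : Subgroup L), Cfsg.IsFrobeniusComplement H ∧ Nonempty (C ≃* H) := by
  have hn : NeZero (Nat.card C) := ⟨Nat.card_pos.ne'⟩
  have hcard : Nat.card (rootsOfUnity (Nat.card C) ℂ) = Nat.card C := by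
    rw [Complex.card_rootsOfUnity]
  have hne : rootsOfUnity (Nat.card C) ℂ ≠ ⊥ := by
    intro h
    rw [h] at hcard
    have : 1 < Nat.card C := Finite.one_lt_card
    simp at hcard
    omega
  obtain ⟨L, hg, hf, H, hH, ⟨e⟩⟩ := S4293.result (rootsOfUnity (Nat.card C) ℂ) hne
  exact ⟨L, hg, hf, H, hH, ⟨(mulEquivOfCyclicCardEq hcard.symm).trans e⟩⟩

end Cfsg.Agent.S4299
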