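import Cfsg.Statements.S4300

set_option autoImplicit false
open Cfsg

namespace Cfsg.Agent.S4300

/-- Let G act faithfully and primitively on a set X, and suppose the stabilizer of some point is a simple group. Then either G is simple, or G has a normal subgroup, neither trivial nor the whole group, that acts regularly on X (transitively with trivial point stabilizers). -/
theorem result {G : Type*} [Group G] {X : Type*} [MulAction G X] [FaithfulSMul G X]
    (hprim : MulAction.IsPreprimitive G X) (x : X) (hsimple : IsSimpleGroup (MulAction.stabilizer G x)) :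
    IsSimpleGroup G ∨ ∃ N : Subgroup G, N.Normal ∧ N ≠ ⊥ ∧ N ≠ ⊤ ∧
      MulAction.IsPretransitive N X ∧ ∀ y : X, MulAction.stabilizer N y = ⊥ := by
  by_cases hs : IsSimpleGroup G
  · exact Or.inl hs
  right
  have hnt : Nontrivial G := by
    obtain ⟨a, b, hab⟩ := hsimple.toNontrivial.exists_pair_ne
    exact ⟨⟨a, b, fun h => hab (Subtype.ext h)⟩⟩
  obtain ⟨N, hNn, hNbot, hNtop⟩ : ∃ N : Subgroup G, N.Normal ∧ N ≠ ⊥ ∧ N ≠ ⊤ := by
    by_contra hcon
    push Not at hcon
    apply hs
    refine ⟨fun H hH => ?_⟩
    by_cases hb : H = ⊥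
    · exact Or.inl hb
    · exact Or.inr (hcon H hH hb)
  have htr : MulAction.IsPretransitive N X := by
    apply MulAction.IsQuasiPreprimitive.isPretransitive_of_normal (G := G)
    intro huniv
    apply hNbot
    rw [eq_bot_iff]
    intro n hn
    rw [Subgroup.mem_bot]
    apply FaithfulSMul.eq_of_smul_eq_smul (α := X)
    intro y
    have hy : y ∈ MulAction.fixedPoints N X := huniv ▸ Set.mem_univ y
    rw [one_smul]
    exact hy ⟨n, hn⟩
  have hinf : N ⊓ MulAction.stabilizer G x = ⊥ := by
    have hn' : (N.subgroupOf (MulAction.stabilizer G x)).Normal := inferInstance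
    rcases hsimple.eq_bot_or_eq_top_of_normal _ hn' with h | h
    · rw [Subgroup.subgroupOf_eq_bot, disjoint_iff] at h
      exact h
    · exfalso
      rw [Subgroup.subgroupOf_eq_top] at h
      apply hNtop
      rw [eq_top_iff]
      intro g _
      obtain ⟨n, hn⟩ := htr.exists_smul_eq x (g • x)
      have h1 : (n : G)⁻¹ * g ∈ MulAction.stabilizer G x := by
        rw [MulAction.mem_stabilizer_iff, mul_smul, ← hn]
        show (n : G)⁻¹ • ((n : G) • x) = x
        rw [inv_smul_smul]
      have h2 := N.mul_mem n.2 (h h1)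
      simpa using h2
  refine ⟨N, hNn, hNbot, hNtop, htr, fun y => ?_⟩
  rw [eq_bot_iff]
  intro n hn
  rw [Subgroup.mem_bot]
  obtain ⟨g, rfl⟩ := hprim.toIsPretransitive.exists_smul_eq x y
  have hn' : (n : G) • (g • x) = g • x := hn
  have h1 : g⁻¹ * (n : G) * g ∈ N ⊓ MulAction.stabilizer G x := by
    refine ⟨?_, ?_⟩
    · have := hNn.conj_mem n n.2 g⁻¹
      simpa using this
    · show (g⁻¹ * (n : G) * g) • x = x
      rw [mul_smul, mul_smul, hn', inv_smul_smul]
  rw [hinf, Subgroup.mem_bot] at h1
  apply Subtype.ext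
  have : (n : G) = g * (g⁻¹ * (n : G) * g) * g⁻¹ := by group
  rw [this, h1]; simp

end Cfsg.Agent.S4300
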