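import Mathlib
import Cfsg.Statements.S4301
import Cfsg.Agent.Lib.Helper12.Witt

set_option autoImplicit false
open Cfsg

namespace Cfsg.Agent.S4301

/-- One-point extension of a multiply transitive group. Let X be a set and G a group of permutations of Option X (the set X with one extra point ∗ = none) all of whose elements fix ∗, such that G is k-transitive on the points of X for some k ≥ 2, X having at least k points. Suppose a permutation h of Option X and an element g of G satisfy: h interchanges ∗ with a point x of X and fixes a point y of X; g interchanges x and y; (g h)³ and h² lie in G; and for every f in G fixing x, the product h f h lies in G and fixes x. Then an element of the group generated by G and h fixes ∗ exactly when it lies in G, and that group acts (k+1)-transitively on Option X. -/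
theorem result {X : Type*} (G : Subgroup (Equiv.Perm (Option X))) (hfix : ∀ f ∈ G, f none = none)
    (k : ℕ) (hk : 2 ≤ k) (hkX : Nonempty (Fin k ↪ X))
    (htrans : ∀ a b : Fin k ↪ X, ∃ f ∈ G, ∀ i, f (some (a i)) = some (b i))
    (h g : Equiv.Perm (Option X)) (hg : g ∈ G) (x y : X)
    (h1 : h none = some x) (h2 : h (some x) = none) (h3 : h (some y) = some y)
    (h4 : g (some x) = some y) (h5 : g (some y) = some x)
    (h6 : (g * h) ^ 3 ∈ G) (h7 : h ^ 2 ∈ G)
    (h8 : ∀ f ∈ G, f (some x) = some x → h * f * h ∈ G ∧ (h * f * h) (some x) = some x) :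
    (∀ f ∈ Subgroup.closure ((G : Set (Equiv.Perm (Option X))) ∪ {h}), f none = none ↔ f ∈ G) ∧
      MulAction.IsMultiplyPretransitive (Subgroup.closure ((G : Set (Equiv.Perm (Option X))) ∪ {h})) (Option X) (k + 1) := by
  classical
  have hxy : x ≠ y := by
    rintro rfl
    rw [h2] at h3
    exact absurd h3 (by simp)
  have hsome : ∀ f ∈ G, ∀ z : X, ∃ w : X, f (some z) = some w := by
    intro f hf z
    apply Option.ne_none_iff_exists'.mp
    intro hz
    rw [← hfix f hf] at hz
    exact absurd (f.injective hz) (by simp)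
  obtain ⟨e⟩ := hkX
  have h2t : ∀ u v u' v' : X, u ≠ v → u' ≠ v' →
      ∃ f ∈ G, f (some u) = some u' ∧ f (some v) = some v' := by
    have hext : ∀ u v : X, u ≠ v → ∃ e' : Fin k ↪ X, e' ⟨0, by omega⟩ = u ∧ e' ⟨1, by omega⟩ = v := by
      intro u v huv
      set σ₁ := Equiv.swap (e ⟨0, by omega⟩) u with hσ₁
      set w := σ₁ (e ⟨1, by omega⟩) with hw
      have h0 : σ₁ (e ⟨0, by omega⟩) = u := Equiv.swap_apply_left _ _
      have hwu : w ≠ u := by
        rw [hw, ← h0]
        intro h
        have := e.injective (σ₁.injective h)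
        simp at this
      refine ⟨e.trans ((Equiv.swap w v * σ₁).toEmbedding), ?_, ?_⟩
      · simp only [Function.Embedding.trans_apply, Equiv.coe_toEmbedding, Equiv.Perm.mul_apply, h0]
        exact Equiv.swap_apply_of_ne_of_ne hwu.symm huv
      · simp only [Function.Embedding.trans_apply, Equiv.coe_toEmbedding, Equiv.Perm.mul_apply]
        exact Equiv.swap_apply_left _ _
    intro u v u' v' huv huv'
    obtain ⟨e₁, h10, h11⟩ := hext u v huv
    obtain ⟨e₂, h20, h21⟩ := hext u' v' huv'
    obtain ⟨f, hf, hfe⟩ := htrans e₁ e₂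
    refine ⟨f, hf, ?_, ?_⟩
    · rw [← h10, ← h20]; exact hfe _
    · rw [← h11, ← h21]; exact hfe _
  set M : Subgroup (Equiv.Perm (Option X)) :=
    G ⊓ MulAction.stabilizer (Equiv.Perm (Option X)) (some x) with hM
  have hh2 : h ^ 2 ∈ M := by
    refine ⟨h7, ?_⟩
    change (h ^ 2) (some x) = some x
    rw [pow_two, Equiv.Perm.mul_apply, h2, h1]
  have hdec : ∀ f ∈ G, f ∈ M ∨ ∃ a ∈ M, ∃ b ∈ M, f = a * g * b := by
    intro f hf
    by_cases hfx : f (some x) = some x
    · exact Or.inl ⟨hf, hfx⟩
    · right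
      obtain ⟨z, hz⟩ := hsome f hf x
      have hzx : x ≠ z := by
        rintro rfl
        exact hfx hz
      obtain ⟨a, ha, hax, hay⟩ := h2t x y x z hxy hzx
      refine ⟨a, ⟨ha, hax⟩, (a * g)⁻¹ * f, ⟨G.mul_mem (G.inv_mem (G.mul_mem ha hg)) hf, ?_⟩,
        by group⟩
      change ((a * g)⁻¹ * f) (some x) = some x
      rw [Equiv.Perm.mul_apply, Equiv.Perm.inv_eq_iff_eq, Equiv.Perm.mul_apply, h4, hay, hz]
  have hnorm : ∀ f ∈ M, h * f * h⁻¹ ∈ M := by
    intro f hf
    have : h * f * h⁻¹ = (h * f * h) * (h ^ 2)⁻¹ := by group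
    rw [this]
    exact M.mul_mem ⟨(h8 f hf.1 hf.2).1, (h8 f hf.1 hf.2).2⟩ (M.inv_mem hh2)
  have hope := Cfsg.Agent.Lib.Helper12.Witt.ope G M g h inf_le_left hg hdec hh2 h6 hnorm
  constructor
  · intro f hf
    refine ⟨fun hfn => ?_, fun hfG => hfix f hfG⟩
    rcases hope f hf with hfG | ⟨a, ha, b, hb, rfl⟩
    · exact hfG
    · exfalso
      rw [Equiv.Perm.mul_apply, Equiv.Perm.mul_apply, hfix b hb, h1] at hfn
      obtain ⟨w, hw⟩ := hsome a ha x
      rw [hw] at hfn
      exact absurd hfn (by simp)
  · apply Cfsg.Agent.Lib.Helper12.Witt.MT.isMultiplyPretransitive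
    have hMT : Cfsg.Agent.Lib.Helper12.Witt.MT G (insert none ∅) k := by
      intro u v hu hv huF hvF
      have hu' : ∀ i, ∃ w : X, u i = some w := fun i =>
        Option.ne_none_iff_exists'.mp (fun hn => huF i (Or.inl hn))
      have hv' : ∀ i, ∃ w : X, v i = some w := fun i =>
        Option.ne_none_iff_exists'.mp (fun hn => hvF i (Or.inl hn))
      choose u' hu' using hu'
      choose v' hv' using hv'
      obtain ⟨f, hf, hfe⟩ := htrans
        ⟨u', fun i j hij => hu (by rw [hu', hu', hij])⟩ ⟨v', fun i j hij => hv (by rw [hv', hv', hij])⟩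
      refine ⟨f, hf, fun i => ?_⟩
      rw [hu', hv']
      exact hfe i
    apply hMT.step
    · exact fun f hf => Subgroup.subset_closure (Or.inl hf)
    · exact hfix
    · intro _ _ z hz
      exact absurd hz (Set.notMem_empty z)
    · intro b _
      rcases b with _ | z
      · exact ⟨1, Subgroup.one_mem _, rfl⟩
      · have hh : h ∈ Subgroup.closure ((G : Set (Equiv.Perm (Option X))) ∪ {h}) :=
          Subgroup.subset_closure (Or.inr rfl)
        by_cases hzx : z = x
        · exact ⟨h, hh, by rw [hzx, h2]⟩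
        · obtain ⟨f, hf, hfz, -⟩ := h2t z x x z hzx (Ne.symm hzx)
          exact ⟨h * f, Subgroup.mul_mem _ hh (Subgroup.subset_closure (Or.inl hf)), by
            rw [Equiv.Perm.mul_apply, hfz, h2]⟩

end Cfsg.Agent.S4301
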