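import Cfsg.Statements.S4304
import Cfsg.Agent.Lib.Helper61.SylowCount

set_option autoImplicit false
set_option linter.unusedSectionVars false
open Cfsg

namespace Cfsg.Agent.S4304

open MulAction Subgroup Equiv.Perm
open scoped Pointwise
open Cfsg.Agent.Lib.Helper61

instance fact7 : Fact (Nat.Prime 7) := ⟨by norm_num⟩

section Act
variable {G : Type*} [Group G] {Ω : Type*} [Fintype Ω] [DecidableEq Ω] [MulAction G Ω]

theorem isPretransitive_of_isCycle (g : G) (hgc : (toPerm g : Equiv.Perm Ω).IsCycle) :
    IsPretransitive (fixingSubgroup G (((toPerm g : Equiv.Perm Ω).support : Set Ω)ᶜ))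
      (SubMulAction.ofFixingSubgroup G (((toPerm g : Equiv.Perm Ω).support : Set Ω)ᶜ)) := by
  obtain ⟨a, _, hgc⟩ := hgc
  have hs : ∀ x : Ω, (toPerm g : Equiv.Perm Ω) x ≠ x ↔
    x ∈ SubMulAction.ofFixingSubgroup G (((toPerm g : Equiv.Perm Ω).support : Set Ω)ᶜ) := by
    intro x
    simp [SubMulAction.mem_ofFixingSubgroup_iff]
  suffices ∀ x ∈ SubMulAction.ofFixingSubgroup G (((toPerm g : Equiv.Perm Ω).support : Set Ω)ᶜ),
      ∃ k : fixingSubgroup G (((toPerm g : Equiv.Perm Ω).support : Set Ω)ᶜ), x = k • a by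
    rw [isPretransitive_iff]
    rintro ⟨x, hx⟩ ⟨y, hy⟩
    obtain ⟨k, hk⟩ := this x hx
    obtain ⟨k', hk'⟩ := this y hy
    use k' * k⁻¹
    rw [← SetLike.coe_eq_coe]
    simp only [SetLike.mk_smul_mk]
    rw [hk, hk', smul_smul, inv_mul_cancel_right]
  intro x hx
  have hg' : g ∈ fixingSubgroup G (((toPerm g : Equiv.Perm Ω).support : Set Ω)ᶜ) := by
    rw [mem_fixingSubgroup_iff G]
    intro y hy
    simpa only [Set.mem_compl_iff, Finset.mem_coe, notMem_support] using! hy
  let g' : fixingSubgroup G (((toPerm g : Equiv.Perm Ω).support : Set Ω)ᶜ) := ⟨g, hg'⟩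
  obtain ⟨i, hi⟩ := hgc ((hs x).mpr hx)
  refine ⟨g' ^ i, ?_⟩
  rw [← hi]
  have : ((toPerm g : Equiv.Perm Ω) ^ i) = toPerm (g ^ i) := by
    rw [← MulAction.toPermHom_apply, ← map_zpow]; rfl
  rw [this]; rfl

theorem stab_prim_of_cycle (hΩ : Fintype.card Ω = 15) (hprim : IsPreprimitive G Ω) (g : G)
    (hc : (toPerm g : Equiv.Perm Ω).IsCycle) (hs : (toPerm g : Equiv.Perm Ω).support.card = 7) (a : Ω) :
    IsPreprimitive (stabilizer G a) (SubMulAction.ofStabilizer G a) := by
  set s : Set Ω := (((toPerm g : Equiv.Perm Ω).support : Set Ω)ᶜ) with hsdef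
  have hsn : s.ncard = 7 + 1 := by
    rw [hsdef, Set.ncard_compl, Set.ncard_coe_finset, hs, Nat.card_eq_fintype_card, hΩ]
  have hsn' : 7 + 2 < Nat.card Ω := by rw [Nat.card_eq_fintype_card, hΩ]; norm_num
  have htr := isPretransitive_of_isCycle g hc
  have hcard : Nat.card (SubMulAction.ofFixingSubgroup G s) = 7 := by
    have : Nat.card (SubMulAction.ofFixingSubgroup G s) = (sᶜ).ncard := rfl
    rw [this, hsdef, compl_compl, Set.ncard_coe_finset, hs]
  have hpr : IsPreprimitive (fixingSubgroup G s) (SubMulAction.ofFixingSubgroup G s) :=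
    IsPreprimitive.of_prime_card (by rw [hcard]; norm_num)
  have h2 := hprim.is_two_preprimitive hsn hsn' hpr
  rw [← is_one_preprimitive_iff]
  rw [← isMultiplyPreprimitive_succ_iff_ofStabilizer]
  · exact h2
  · norm_num

/-- orbit of a 7-group of size at most 6 is a point -/
theorem fixed_of_small (P : Subgroup G) (hP : IsPGroup 7 P) (x : Ω) (B : Set Ω)
    (hB : orbit P x ⊆ B) (hc : B.ncard < 7) : ∀ g ∈ P, g • x = x := by
  obtain ⟨n, hn⟩ := hP.card_orbit x
  have h1 : Nat.card (orbit P x) ≤ B.ncard := by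
    rw [Nat.card_coe_set_eq]
    exact Set.ncard_le_ncard hB (Set.toFinite _)
  have hn0 : n = 0 := by
    by_contra h
    have : 7 ^ 1 ≤ 7 ^ n := Nat.pow_le_pow_right (by norm_num) (Nat.one_le_iff_ne_zero.mpr h)
    omega
  rw [hn0, pow_zero, Nat.card_eq_one_iff_unique] at hn
  intro g hg
  have := hn.1.elim ⟨(⟨g, hg⟩ : P) • x, mem_orbit _ _⟩ ⟨x, mem_orbit_self _⟩
  simpa using congrArg Subtype.val this

theorem prim (hΩ : Fintype.card Ω = 15) [htr : IsPretransitive G Ω] (P : Subgroup G)
    (hP : IsPGroup 7 P) (a : Ω) (hPa : P ≤ stabilizer G a)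
    (hfix : ∀ x : Ω, (∀ g ∈ P, g • x = x) → x = a) : IsPreprimitive G Ω := by
  apply IsPreprimitive.of_isTrivialBlock_base a
  intro B haB hB
  have hdvd : B.ncard ∣ 15 := by
    have := hB.ncard_dvd_card ⟨a, haB⟩
    rwa [Nat.card_eq_fintype_card, hΩ] at this
  have hle : B.ncard ≤ 15 := Nat.le_of_dvd (by norm_num) hdvd
  by_cases h15 : B.ncard = 15
  · right
    rw [Set.eq_univ_iff_ncard, h15, Nat.card_eq_fintype_card, hΩ]
  · left
    have hlt : B.ncard < 7 := by
      interval_cases h : B.ncard <;> simp_all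
    intro x hx y hy
    have key : ∀ z ∈ B, z = a := by
      intro z hz
      apply hfix
      apply fixed_of_small P hP z B _ hlt
      rintro _ ⟨g, rfl⟩
      have hg : (g : G) • B = B := by
        apply hB.smul_eq_of_mem haB
        have : (g : G) • a = a := hPa g.2
        rw [this]
        exact haB
      rw [← hg]
      exact Set.smul_mem_smul_set (a := (g : G)) hz
    rw [key x hx, key y hy]

theorem no_cycle (hΩ : Fintype.card Ω = 15) [htr : IsPretransitive G Ω] (P : Subgroup G)
    (hP : IsPGroup 7 P) (a : Ω) (hstab : stabilizer G a = normalizer (P : Set G))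
    (hfix : ∀ x : Ω, (∀ g ∈ P, g • x = x) → x = a) (g : G)
    (hc : (toPerm g : Equiv.Perm Ω).IsCycle) (hs : (toPerm g : Equiv.Perm Ω).support.card = 7) :
    False := by
  have hPa : P ≤ stabilizer G a := hstab ▸ le_normalizer
  have hprim := prim hΩ P hP a hPa hfix
  have h1 := stab_prim_of_cycle hΩ hprim g hc hs a
  have hN : (P.subgroupOf (stabilizer G a)).Normal := by
    rw [hstab]; exact normal_in_normalizer
  have hcard : Nat.card (SubMulAction.ofStabilizer G a) = 14 := by
    have := SubMulAction.nat_card_ofStabilizer_add_one_eq G a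
    rw [Nat.card_eq_fintype_card (α := Ω), hΩ] at this
    omega
  have hne : Nonempty (SubMulAction.ofStabilizer G a) := by
    apply (Nat.card_pos_iff.mp (by rw [hcard]; norm_num)).1
  obtain ⟨x⟩ := hne
  have hnf : fixedPoints (P.subgroupOf (stabilizer G a)) (SubMulAction.ofStabilizer G a) ≠ Set.univ := by
    intro h
    have hx : x ∈ fixedPoints (P.subgroupOf (stabilizer G a)) (SubMulAction.ofStabilizer G a) := by
      rw [h]; trivial
    apply x.2
    show (x : Ω) = a
    apply hfix
    intro g hg
    have := hx ⟨⟨g, hPa hg⟩, hg⟩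
    exact congrArg Subtype.val this
  have htr2 := IsQuasiPreprimitive.isPretransitive_of_normal (G := stabilizer G a)
    (X := SubMulAction.ofStabilizer G a) (N := P.subgroupOf (stabilizer G a)) hnf
  have hP' : IsPGroup 7 (P.subgroupOf (stabilizer G a)) :=
    hP.comap_subtype
  obtain ⟨n, hn⟩ := hP'.card_orbit x
  rw [orbit_eq_univ, Nat.card_coe_set_eq, Set.ncard_univ, hcard] at hn
  rcases n with _ | _ | n
  · norm_num at hn
  · norm_num at hn
  · have : 7 ^ 2 ≤ 7 ^ (n + 1 + 1) := Nat.pow_le_pow_right (by norm_num) (by omega)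
    omega

theorem card_fix_add_support (c : G) :
    Fintype.card {x : Ω // c • x = x} + (toPerm c : Equiv.Perm Ω).support.card = Fintype.card Ω := by
  rw [Fintype.card_subtype]
  have : (toPerm c : Equiv.Perm Ω).support = Finset.univ.filter (fun x : Ω => ¬ c • x = x) := by
    ext x; simp
  rw [this]
  exact Finset.card_filter_add_card_filter_not _

theorem fix_mod (c z : G) (hcz : Commute c z) (hz : z ^ 7 = 1) (R : Ω)
    (hR : ∀ x : Ω, z • x = x ↔ x = R) : Fintype.card {x : Ω // c • x = x} % 7 = 1 := by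
  have hcR : c • R = R := by
    rw [← hR, smul_smul, ← hcz.eq, mul_smul, (hR R).mpr rfl]
  let f : Function.End {x : Ω // c • x = x} := fun x =>
    ⟨z • x.1, by rw [smul_smul, hcz.eq, mul_smul, x.2]⟩
  have hfn : ∀ (n : ℕ) (x : {x : Ω // c • x = x}), ((f ^ n) x).1 = z ^ n • x.1 := by
    intro n
    induction n with
    | zero => intro x; rw [pow_zero, pow_zero, one_smul]; rfl
    | succ n ih =>
      intro x
      rw [pow_succ']
      show z • ((f ^ n) x).1 = _
      rw [ih, smul_smul, ← pow_succ']
  have hf : f ^ 7 ^ 1 = 1 := by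
    funext x
    apply Subtype.ext
    rw [pow_one, hfn, hz, one_smul]; rfl
  have h1 := Equiv.Perm.card_fixedPoints_modEq (p := 7) (n := 1) hf
  have h2 : Fintype.card (Function.fixedPoints f) = 1 := by
    rw [Fintype.card_eq_one_iff]
    refine ⟨⟨⟨R, hcR⟩, ?_⟩, ?_⟩
    · show f _ = _
      apply Subtype.ext
      exact (hR R).mpr rfl
    · rintro ⟨⟨y, hy⟩, hy'⟩
      apply Subtype.ext
      apply Subtype.ext
      show y = R
      rw [← hR]
      exact congrArg Subtype.val hy'
  rw [h2] at h1
  exact h1

structure Setup (G : Type*) [Group G] (Ω : Type*) [Fintype Ω] [MulAction G Ω]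
    (P : Subgroup G) (a : Ω) : Prop where
  card : Fintype.card Ω = 15
  faithful : FaithfulSMul G Ω
  trans : IsPretransitive G Ω
  pgroup : IsPGroup 7 P
  stab : stabilizer G a = normalizer (P : Set G)
  fix : ∀ x : Ω, (∀ g ∈ P, g • x = x) → x = a

variable {P : Subgroup G} {a : Ω}

theorem orderOf_toPerm (h : Setup G Ω P a) (z : G) :
    orderOf (toPerm z : Equiv.Perm Ω) = orderOf z := by
  have := h.faithful
  exact orderOf_injective (toPermHom G Ω) toPerm_injective z

theorem Setup.support_card (h : Setup G Ω P a) (z : G) (hz : orderOf z = 7) :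
    (toPerm z : Equiv.Perm Ω).support.card = 14 := by
  have ho := orderOf_toPerm h z
  rw [hz] at ho
  obtain ⟨n, hn⟩ := cycleType_prime_order (σ := (toPerm z : Equiv.Perm Ω)) (by rw [ho]; norm_num)
  have hsum := sum_cycleType (toPerm z : Equiv.Perm Ω)
  rw [hn, ho, Multiset.sum_replicate, smul_eq_mul] at hsum
  have hle : (toPerm z : Equiv.Perm Ω).support.card ≤ 15 := by
    rw [← h.card]; exact Finset.card_le_univ _
  rcases n with _ | _ | n
  · exfalso
    have := h.trans
    apply no_cycle h.card P h.pgroup a h.stab h.fix z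
    · rw [← card_cycleType_eq_one, hn]; simp
    · omega
  · omega
  · omega

theorem Setup.exists_unique_fix (h : Setup G Ω P a) (z : G) (hz : orderOf z = 7) :
    ∃ R : Ω, ∀ x : Ω, z • x = x ↔ x = R := by
  have h1 := card_fix_add_support (Ω := Ω) z
  rw [h.support_card z hz, h.card] at h1
  have h2 : Fintype.card {x : Ω // z • x = x} = 1 := by omega
  rw [Fintype.card_eq_one_iff] at h2
  obtain ⟨⟨R, hR⟩, hR'⟩ := h2
  refine ⟨R, fun x => ⟨fun hx => ?_, fun hx => hx ▸ hR⟩⟩
  exact congrArg Subtype.val (hR' ⟨x, hx⟩)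

theorem Setup.eq_one_of_fix [Finite G] (h : Setup G Ω P a) (z : G) (hz : orderOf z = 7) (c : G)
    (hcz : Commute c z) (Q R : Ω) (hQR : Q ≠ R) (hQ : c • Q = Q) (hR : c • R = R) : c = 1 := by
  by_contra hc
  have hoc : orderOf c ≠ 1 := fun h' => hc (orderOf_eq_one_iff.mp h')
  set r := (orderOf c).minFac with hr
  have hrp : r.Prime := Nat.minFac_prime hoc
  set w := c ^ (orderOf c / r) with hw
  have how : orderOf w = r :=
    orderOf_pow_orderOf_div (orderOf_pos c).ne' (Nat.minFac_dvd _)
  have hwz : Commute w z := hcz.pow_left _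
  have hfixpow : ∀ (x : Ω), c • x = x → w • x = x := by
    intro x hx
    rw [hw]
    generalize orderOf c / r = m
    induction m with
    | zero => simp
    | succ m ih => rw [pow_succ, mul_smul, hx, ih]
  obtain ⟨R0, hR0⟩ := h.exists_unique_fix z hz
  have hmod := fix_mod w z hwz (by rw [← hz]; exact pow_orderOf_eq_one z) R0 hR0
  have hge : 1 < Fintype.card {x : Ω // w • x = x} := by
    rw [Fintype.one_lt_card_iff_nontrivial]
    exact ⟨⟨Q, hfixpow Q hQ⟩, ⟨R, hfixpow R hR⟩, fun h' => hQR (congrArg Subtype.val h')⟩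
  have hsum0 := card_fix_add_support (Ω := Ω) w
  rw [h.card] at hsum0
  have ho := orderOf_toPerm h w
  rw [how] at ho
  obtain ⟨n, hn⟩ := cycleType_prime_order (σ := (toPerm w : Equiv.Perm Ω)) (by rw [ho]; exact hrp)
  have hsum := sum_cycleType (toPerm w : Equiv.Perm Ω)
  rw [hn, ho, Multiset.sum_replicate, smul_eq_mul] at hsum
  have hpos : 0 < (n + 1) * r := Nat.mul_pos (Nat.succ_pos _) hrp.pos
  have h7 : (n + 1) * r = 7 := by omega
  have hr7 : r = 7 := by
    have : r ∣ 7 := ⟨n + 1, by rw [← h7]; ring⟩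
    exact (Nat.prime_dvd_prime_iff_eq hrp (by norm_num)).mp this
  have := h.support_card w (by rw [how, hr7])
  omega

/-- Sylow subgroup of order exactly `r`. -/
theorem card_sylow_eq_prime {G : Type*} [Group G] [Finite G] {r m : ℕ} [Fact r.Prime]
    (hG : Nat.card G = r * m) (hm : ¬ r ∣ m) (S : Sylow r G) : Nat.card S = r := by
  have hr : r.Prime := Fact.out
  have hm0 : m ≠ 0 := fun h => hm (h ▸ dvd_zero r)
  rw [Sylow.card_eq_multiplicity, hG, Nat.factorization_mul hr.ne_zero hm0]
  simp [hr.factorization_self, Nat.factorization_eq_zero_of_not_dvd hm]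

/-- an involution with exactly one fixed point on 15 points is odd -/
theorem sign_of_invol (h : Setup G Ω P a) (t : G) (ht : orderOf t = 2)
    (hs : (toPerm t : Equiv.Perm Ω).support.card = 14) :
    Equiv.Perm.sign (toPerm t : Equiv.Perm Ω) = -1 := by
  have ho := orderOf_toPerm h t
  rw [ht] at ho
  obtain ⟨n, hn⟩ := cycleType_prime_order (σ := (toPerm t : Equiv.Perm Ω)) (by rw [ho]; norm_num)
  have hsum := sum_cycleType (toPerm t : Equiv.Perm Ω)
  rw [hn, ho, Multiset.sum_replicate, smul_eq_mul, hs] at hsum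
  have hn6 : n = 6 := by omega
  rw [sign_of_cycleType, hn, ho, hn6]
  simp
  decide

theorem Setup.exists_normal [Finite G] (S : Sylow 7 G) (h : Setup G Ω (S : Subgroup G) a) :
    ∃ K : Subgroup G, K.Normal ∧ K ≠ ⊤ ∧ K.index.Coprime 7 := by
  have hfa := h.faithful
  have htr := h.trans
  -- a second point
  obtain ⟨Q, hQa⟩ : ∃ Q : Ω, Q ≠ a := by
    have : 1 < Fintype.card Ω := by rw [h.card]; norm_num
    exact Fintype.exists_ne_of_one_lt_card this a
  -- S is nontrivial
  have hSnt : Nontrivial S := by
    by_contra hnt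
    rw [not_nontrivial_iff_subsingleton] at hnt
    apply hQa
    apply h.fix
    intro g hg
    have : (⟨g, hg⟩ : S) = 1 := Subsingleton.elim _ _
    have hg1 : g = 1 := congrArg Subtype.val this
    rw [hg1, one_smul]
  -- central element of order 7
  have hcnt : Nontrivial (center S) := S.2.center_nontrivial
  have hc7 : 7 ∣ Nat.card (center S) := by
    have hpc : IsPGroup 7 (center S) := S.2.to_subgroup _
    obtain ⟨k, hk⟩ := hpc.exists_card_eq
    rcases k with _ | k
    · exfalso
      rw [pow_zero, Nat.card_eq_one_iff_unique] at hk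
      exact not_subsingleton _ hk.1
    · rw [hk, pow_succ]; exact dvd_mul_left _ _
  obtain ⟨z', hz'⟩ := exists_prime_orderOf_dvd_card' 7 hc7
  set z : G := ((z' : S) : G) with hzdef
  have hz : orderOf z = 7 := by
    rw [hzdef, Subgroup.orderOf_coe, Subgroup.orderOf_coe, hz']
  have hzS : z ∈ (S : Subgroup G) := (z' : S).2
  have hSz : ∀ g ∈ (S : Subgroup G), Commute g z := by
    intro g hg
    have := (Subgroup.mem_center_iff.mp z'.2) ⟨g, hg⟩
    exact congrArg Subtype.val this
  have hSa : (S : Subgroup G) ≤ stabilizer G a := h.stab ▸ le_normalizer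
  have hza : z • a = a := hSa hzS
  obtain ⟨R0, hR0⟩ := h.exists_unique_fix z hz
  have hR0a : R0 = a := ((hR0 a).mp hza).symm
  subst hR0a
  -- centralizer of z
  set C : Subgroup G := centralizer {z} with hC
  have hCz : ∀ c ∈ C, Commute c z := by
    intro c hc
    exact (Subgroup.mem_centralizer_singleton_iff.mp hc)
  have hCa : ∀ c ∈ C, c • R0 = R0 := by
    intro c hc
    rw [← hR0, smul_smul, ← (hCz c hc).eq, mul_smul, hza]
  have hinj : Function.Injective (fun c : C => (⟨(c : G) • Q, by
      intro h'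
      apply hQa
      have : (c : G) • Q = (c : G) • R0 := by rw [hCa c c.2]; exact h'
      exact MulAction.injective _ this⟩ : {x : Ω // x ≠ R0})) := by
    intro c d hcd
    have h1 : (c : G) • Q = (d : G) • Q := congrArg Subtype.val hcd
    have h2 : ((d : G)⁻¹ * c) • Q = Q := by rw [mul_smul, h1, inv_smul_smul]
    have h3 : ((d : G)⁻¹ * c) ∈ C := C.mul_mem (C.inv_mem d.2) c.2
    have h4 := h.eq_one_of_fix z hz _ (hCz _ h3) Q R0 hQa h2 (hCa _ h3)
    apply Subtype.ext
    exact (inv_mul_eq_one.mp h4).symm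
  have hCle : Nat.card C ≤ 14 := by
    have := Nat.card_le_card_of_injective _ hinj
    have h2 : Nat.card {x : Ω // x ≠ R0} = 14 := by
      rw [Nat.card_eq_fintype_card, Fintype.card_subtype_compl, h.card]
      simp
    omega
  have hzC : z ∈ C := Subgroup.mem_centralizer_singleton_iff.mpr rfl
  have h7C : 7 ∣ Nat.card C := by
    have := orderOf_dvd_natCard (⟨z, hzC⟩ : C)
    rwa [← Subgroup.orderOf_coe, hz] at this
  have hCpos : 0 < Nat.card C := Nat.card_pos
  have hSC : (S : Subgroup G) ≤ C := fun g hg =>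
    Subgroup.mem_centralizer_singleton_iff.mpr (hSz g hg).eq
  have hC714 : Nat.card C = 7 ∨ Nat.card C = 14 := by
    obtain ⟨k, hk⟩ := h7C
    omega
  rcases hC714 with hC7 | hC14
  · -- C = S has order 7
    have hS7 : Nat.card S = 7 := by
      have h1 : Nat.card S ∣ 7 := (Subgroup.card_dvd_of_le hSC).trans (dvd_of_eq hC7)
      rcases (Nat.dvd_prime (by norm_num : Nat.Prime 7)).mp h1 with h1 | h1
      · exfalso
        rw [Nat.card_eq_one_iff_unique] at h1
        exact not_subsingleton _ h1.1
      · exact h1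
    set CS : Subgroup G := centralizer (S : Set G) with hCS
    have hCSC : CS ≤ C := Subgroup.centralizer_le (by
      intro x hx
      rw [Set.mem_singleton_iff] at hx
      rw [hx]; exact hzS)
    have hzCS : z ∈ CS := by
      rw [hCS, Subgroup.mem_centralizer_iff]
      intro g hg
      exact (hSz g hg).eq
    have hCS7 : Nat.card CS = 7 := by
      have h1 : Nat.card CS ∣ 7 := (Subgroup.card_dvd_of_le hCSC).trans (dvd_of_eq hC7)
      have h2 : 7 ∣ Nat.card CS := by
        have := orderOf_dvd_natCard (⟨z, hzCS⟩ : CS)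
        rwa [← Subgroup.orderOf_coe, hz] at this
      exact Nat.dvd_antisymm h1 h2
    have hcyc : IsCyclic S := isCyclic_of_prime_card hS7
    have key := card_dvd_of_injective _
      (QuotientGroup.kerLift_injective (S : Subgroup G).normalizerMonoidHom)
    rw [normalizerMonoidHom_ker, ← index, ← relIndex, hcyc.card_mulAut, hS7,
      Nat.totient_prime (by norm_num)] at key
    have hN : Nat.card CS * CS.relIndex (normalizer ((S : Subgroup G) : Set G)) =
        Nat.card (normalizer ((S : Subgroup G) : Set G)) := by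
      have := Subgroup.relIndex_mul_relIndex ⊥ CS (normalizer ((S : Subgroup G) : Set G)) bot_le
        (Subgroup.centralizer_le_normalizer _)
      rwa [Subgroup.relIndex_bot_left, Subgroup.relIndex_bot_left] at this
    have hG1 : Nat.card (stabilizer G R0) * (stabilizer G R0).index = Nat.card G :=
      Subgroup.card_mul_index _
    rw [MulAction.index_stabilizer_of_transitive, Nat.card_eq_fintype_card (α := Ω), h.card,
      h.stab, ← hN, hCS7] at hG1
    generalize CS.relIndex (normalizer ((S : Subgroup G) : Set G)) = k at key hG1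
    have hk6 : k = 1 ∨ k = 2 ∨ k = 3 ∨ k = 6 := by
      have hle : k ≤ 6 := Nat.le_of_dvd (by norm_num) key
      clear hG1
      interval_cases k <;> omega
    have two : ∀ m : ℕ, Nat.card G = 2 * m → ¬ 2 ∣ m →
        ∃ K : Subgroup G, K.Normal ∧ K ≠ ⊤ ∧ K.index.Coprime 7 := by
      intro m hm hm2
      have : Fact (Nat.Prime 2) := ⟨by norm_num⟩
      obtain ⟨K, hK1, hK2⟩ := exists_normal_index_prime (default : Sylow 2 G)
        (card_sylow_eq_prime hm hm2 _) (by simp)
      refine ⟨K, hK1, ?_, by rw [hK2]; norm_num⟩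
      intro h'; rw [h', Subgroup.index_top] at hK2; omega
    have five : ∀ m : ℕ, Nat.card G = 5 * m → ¬ 5 ∣ m → (Nat.card G).Coprime 4 →
        ∃ K : Subgroup G, K.Normal ∧ K ≠ ⊤ ∧ K.index.Coprime 7 := by
      intro m hm hm2 hc
      have : Fact (Nat.Prime 5) := ⟨by norm_num⟩
      obtain ⟨K, hK1, hK2⟩ := exists_normal_index_prime (default : Sylow 5 G)
        (card_sylow_eq_prime hm hm2 _) hc
      refine ⟨K, hK1, ?_, by rw [hK2]; norm_num⟩
      intro h'; rw [h', Subgroup.index_top] at hK2; omega
    rcases hk6 with hk | hk | hk | hk <;> rw [hk] at hG1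
    · exact five 21 (by omega) (by norm_num) (by rw [← hG1]; norm_num)
    · exact two 105 (by omega) (by norm_num)
    · exact five 63 (by omega) (by norm_num) (by rw [← hG1]; norm_num)
    · exact two 315 (by omega) (by norm_num)
  · -- an involution in C is an odd permutation
    have : Fact (Nat.Prime 2) := ⟨by norm_num⟩
    obtain ⟨t', ht'⟩ := exists_prime_orderOf_dvd_card' (G := C) 2 (by rw [hC14]; norm_num)
    set t : G := (t' : G) with htdef
    have ht : orderOf t = 2 := by rw [htdef, Subgroup.orderOf_coe, ht']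
    have htC : t ∈ C := t'.2
    have ht1 : t ≠ 1 := by
      intro h'; rw [h', orderOf_one] at ht; omega
    have hfix1 : Fintype.card {x : Ω // t • x = x} = 1 := by
      rw [Fintype.card_eq_one_iff]
      refine ⟨⟨R0, hCa t htC⟩, ?_⟩
      rintro ⟨y, hy⟩
      apply Subtype.ext
      show y = R0
      by_contra hne
      exact ht1 (h.eq_one_of_fix z hz t (hCz t htC) y R0 hne hy (hCa t htC))
    have hsupp : (toPerm t : Equiv.Perm Ω).support.card = 14 := by
      have := card_fix_add_support (Ω := Ω) t
      rw [hfix1, h.card] at this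
      omega
    have hsign := sign_of_invol h t ht hsupp
    let ε : G →* ℤˣ := Equiv.Perm.sign.comp (toPermHom G Ω)
    refine ⟨ε.ker, inferInstance, ?_, ?_⟩
    · intro h'
      have : t ∈ ε.ker := by rw [h']; trivial
      rw [MonoidHom.mem_ker] at this
      have h2 : ε t = -1 := hsign
      rw [h2] at this
      exact absurd this (by decide)
    · have h1 : ε.ker.index ∣ 2 := by
        rw [Subgroup.index_ker]
        have := Subgroup.card_subgroup_dvd_card ε.range
        rwa [Nat.card_eq_fintype_card (α := ℤˣ), Fintype.card_units_int] at this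
      exact Nat.Coprime.coprime_dvd_left h1 (by norm_num)

end Act

theorem main (n : ℕ) : ∀ (G : Type*) [Group G] [Finite G], Nat.card G = n →
    Nat.card (Sylow 7 G) ≠ 15 := by
  induction n using Nat.strong_induction_on with
  | _ n ih =>
    intro G _ _ hn h15
    classical
    let _ : Fintype (Sylow 7 G) := Fintype.ofFinite _
    set K0 : Subgroup G := (toPermHom G (Sylow 7 G)).ker with hK0
    have hK0n : ∀ P : Sylow 7 G, K0 ≤ normalizer ((P : Subgroup G) : Set G) := by
      intro P g hg
      have : toPermHom G (Sylow 7 G) g = 1 := hg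
      have h2 : g • P = P := congrArg (fun σ : Equiv.Perm (Sylow 7 G) => σ P) this
      exact Sylow.smul_eq_iff_mem_normalizer.mp h2
    by_cases hbot : K0 = ⊥
    · -- faithful
      have hfa : FaithfulSMul G (Sylow 7 G) := by
        refine ⟨fun {g₁ g₂} h => ?_⟩
        have : toPermHom G (Sylow 7 G) g₁ = toPermHom G (Sylow 7 G) g₂ := by
          ext P : 1; exact h P
        exact (MonoidHom.ker_eq_bot_iff _).mp hbot this
      let S : Sylow 7 G := default
      have hset : Setup G (Sylow 7 G) (S : Subgroup G) S :=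
        { card := by rw [← Nat.card_eq_fintype_card]; exact h15
          faithful := hfa
          trans := inferInstance
          pgroup := S.2
          stab := Sylow.stabilizer_eq_normalizer S
          fix := by
            intro x hx
            have h1 : x ∈ fixedPoints (S : Subgroup G) (Sylow 7 G) := fun g => hx g g.2
            have h2 := (S.2.sylow_mem_fixedPoints_iff).mp h1
            exact Sylow.ext (S.3 x.2 h2) }
      obtain ⟨K, hK1, hK2, hK3⟩ := Setup.exists_normal S hset
      have hlt : Nat.card K < n := by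
        rw [← hn]
        have h1 := Subgroup.card_mul_index K
        have h2 : K.index ≠ 1 := fun h => hK2 (Subgroup.index_eq_one.mp h)
        have h3 : K.index ≠ 0 := Subgroup.index_ne_zero_of_finite
        have h4 : 0 < Nat.card K := Nat.card_pos
        nlinarith [Nat.two_le_iff K.index |>.mpr ⟨h3, h2⟩]
      exact ih _ hlt K rfl ((card_sylow_of_normal_of_coprime_index K hK3).trans h15)
    · have hlt : Nat.card (G ⧸ K0) < n := by
        rw [← hn, ← Subgroup.index_eq_card]
        have h1 := Subgroup.card_mul_index K0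
        have h2 : Nat.card K0 ≠ 1 := fun h => hbot (Subgroup.card_eq_one.mp h)
        have h3 : K0.index ≠ 0 := Subgroup.index_ne_zero_of_finite
        have h4 : 0 < Nat.card K0 := Nat.card_pos
        have h5 : 2 ≤ Nat.card K0 := by omega
        have h6 : 0 < K0.index := Nat.pos_of_ne_zero h3
        nlinarith
      exact ih _ hlt (G ⧸ K0) rfl ((card_sylow_quotient K0 hK0n).trans h15)

/-- No finite group has exactly 15 Sylow 7-subgroups. -/
theorem result {G : Type*} [Group G] [Finite G] : Nat.card (Sylow 7 G) ≠ 15 := by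
  exact main _ G rfl

end Cfsg.Agent.S4304
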