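import Cfsg.Statements.S4314

set_option autoImplicit false
open Cfsg
open scoped commutatorElement

namespace Cfsg.Agent.S4314

variable {G : Type*} [Group G]

theorem mem_C {y g : G} : g ∈ Subgroup.centralizer ({y} : Set G) ↔ g * y = y * g :=
  Subgroup.mem_centralizer_singleton_iff

theorem C_eq_top_iff {y : G} : Subgroup.centralizer ({y} : Set G) = ⊤ ↔ y ∈ Subgroup.center G := by
  rw [Subgroup.mem_center_iff, Subgroup.eq_top_iff']
  simp only [mem_C]

/-- A subgroup of prime index is maximal. -/
theorem eq_of_le_of_prime_index {M T : Subgroup G} (hM : (M.index).Prime) (hle : M ≤ T)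
    (hT : T ≠ ⊤) : T = M := by
  have h1 := Subgroup.relIndex_mul_index hle
  have h2 : T.index ∣ M.index := Dvd.intro_left _ h1
  rcases (Nat.dvd_prime hM).1 h2 with h3 | h3
  · exact absurd (Subgroup.index_eq_one.1 h3) hT
  · rw [h3] at h1
    have h4 : M.relIndex T = 1 := by
      have hpos : 0 < M.index := hM.pos
      exact Nat.eq_of_mul_eq_mul_right hpos (by rw [h1, one_mul])
    exact le_antisymm (Subgroup.relIndex_eq_one.1 h4) hle

/-- The cosets `t^i M` cover `G`. -/
theorem exists_pow_mul [Finite G] {M : Subgroup G} {p : ℕ} (hp : p.Prime) (hM : M.index = p) {t : G}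
    (htM : t ∉ M) (htp : t ^ p ∈ M) (g : G) : ∃ i : ℕ, ∃ m ∈ M, g = t ^ i * m := by
  let f : Fin p → G ⧸ M := fun i => QuotientGroup.mk (t ^ (i : ℕ))
  have key : ∀ d : ℕ, 0 < d → d < p → t ^ d ∉ M := by
    intro d hd0 hdp hd
    apply htM
    have hcop : Nat.Coprime d p := (Nat.coprime_of_lt_prime hd0.ne' hdp hp).symm
    have h1 := Nat.gcd_eq_gcd_ab d p
    rw [hcop.gcd_eq_one] at h1
    have h2 : t = (t ^ d) ^ (Nat.gcdA d p) * (t ^ p) ^ (Nat.gcdB d p) := by
      rw [← zpow_natCast t d, ← zpow_natCast t p, ← zpow_mul, ← zpow_mul, ← zpow_add, ← h1]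
      simp
    rw [h2]
    exact M.mul_mem (M.zpow_mem hd _) (M.zpow_mem htp _)
  have aux : ∀ i j : Fin p, i < j → f i ≠ f j := by
    intro i j hij hf
    have h1 : (t ^ (i : ℕ))⁻¹ * t ^ (j : ℕ) ∈ M := QuotientGroup.eq.1 hf
    have h2 : (t ^ (i : ℕ))⁻¹ * t ^ (j : ℕ) = t ^ ((j : ℕ) - (i : ℕ)) := by
      have hle : (i : ℕ) ≤ (j : ℕ) := le_of_lt hij
      rw [inv_mul_eq_iff_eq_mul, ← pow_add, Nat.add_sub_cancel' hle]
    rw [h2] at h1
    have hij' : (i : ℕ) < (j : ℕ) := hij
    exact key _ (by omega) (by have := j.2; omega) h1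
  have hinj : Function.Injective f := by
    intro i j hf
    by_contra hne
    rcases lt_or_gt_of_ne hne with h | h
    · exact aux i j h hf
    · exact aux j i h hf.symm
  have hbij := hinj.bijective_of_nat_card_le (by
    have h1 : Nat.card (G ⧸ M) = p := hM
    rw [h1]
    simp)
  obtain ⟨i, hi⟩ := hbij.2 (QuotientGroup.mk g)
  refine ⟨i, (t ^ (i : ℕ))⁻¹ * g, QuotientGroup.eq.1 hi, by group⟩

/-- The key lemma: for `t ∉ M` with `t^p` in the core `K` of `M`, the centralizer of `t`
is the preimage of `⟨tK⟩`. -/
theorem key_lemma [Finite G]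
    (h : ∀ x : G, (Subgroup.centralizer ({x} : Set G)).index = 1 ∨
      ((Subgroup.centralizer ({x} : Set G)).index).Prime)
    {M : Subgroup G} {p : ℕ} (hp : p.Prime) (hM : M.index = p) (hMn : ¬ M.Normal)
    (hZM : Subgroup.center G ≤ M) {t : G}
    (htM : t ∉ M) (htp : t ^ p ∈ M.normalCore) :
    Subgroup.centralizer ({t} : Set G) =
      (Subgroup.zpowers (QuotientGroup.mk' M.normalCore t)).comap (QuotientGroup.mk' M.normalCore) ∧
    M.normalCore.index = p * (Subgroup.centralizer ({t} : Set G)).index ∧
    ((Subgroup.centralizer ({t} : Set G)).index).Prime := by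
  set K := M.normalCore with hK
  set π := QuotientGroup.mk' K with hπ
  have hs : Function.Surjective π := QuotientGroup.mk'_surjective K
  set T := (Subgroup.zpowers (π t)).comap π with hT
  have hKM : K ≤ M := M.normalCore_le
  have htK : t ∉ K := fun h' => htM (hKM h')
  have : Fact p.Prime := ⟨hp⟩
  have hord : orderOf (π t) = p := by
    apply orderOf_eq_prime
    · rw [← map_pow]; exact (QuotientGroup.eq_one_iff _).2 htp
    · intro h1; exact htK ((QuotientGroup.eq_one_iff _).1 h1)
  have hidx : K.index = p * T.index := by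
    rw [hT, Subgroup.index_comap_of_surjective _ hs, ← hord, ← Nat.card_zpowers,
      Subgroup.card_mul_index]
    rfl
  have hle : Subgroup.centralizer ({t} : Set G) ≤ T := by
    intro c hc
    rw [mem_C] at hc
    obtain ⟨i, m, hm, rfl⟩ := exists_pow_mul hp hM htM (hKM htp) c
    have hmt : Commute m t := by
      have h1 : Commute (t ^ i * m) t := hc
      have h2 : Commute ((t ^ i)⁻¹ * (t ^ i * m)) t :=
        (((Commute.refl t).pow_left i).inv_left).mul_left h1
      simpa using h2
    have hmK : m ∈ K := by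
      intro b
      obtain ⟨j, m', hm', hb⟩ := exists_pow_mul hp hM htM (hKM htp) b⁻¹
      have hb' : b = m'⁻¹ * (t ^ j)⁻¹ := by
        rw [← inv_inv b, hb]; group
      have e : b * m * b⁻¹ = m'⁻¹ * m * m' := by
        rw [hb, hb']
        have h3 : Commute m (t ^ j) := hmt.pow_right j
        calc m'⁻¹ * (t ^ j)⁻¹ * m * (t ^ j * m') = m'⁻¹ * (t ^ j)⁻¹ * (m * t ^ j) * m' := by group
          _ = m'⁻¹ * (t ^ j)⁻¹ * (t ^ j * m) * m' := by rw [h3.eq]
          _ = m'⁻¹ * m * m' := by group
      rw [e]
      exact M.mul_mem (M.mul_mem (M.inv_mem hm') hm) hm'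
    have hm1 : π m = 1 := (QuotientGroup.eq_one_iff m).2 hmK
    rw [hT, Subgroup.mem_comap, map_mul, hm1, mul_one, map_pow]
    exact Subgroup.pow_mem _ (Subgroup.mem_zpowers _) i
  have hTtop : T ≠ ⊤ := by
    intro htop
    rw [htop, Subgroup.index_top, mul_one] at hidx
    apply hMn
    have h1 := Subgroup.relIndex_mul_index hKM
    rw [hidx, hM] at h1
    have h2 : K.relIndex M = 1 := Nat.eq_of_mul_eq_mul_right hp.pos (by rw [h1, one_mul])
    have h3 : M = K := le_antisymm (Subgroup.relIndex_eq_one.1 h2) hKM
    rw [h3]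
    infer_instance
  have htZ : t ∉ Subgroup.center G := fun h' => htM (hZM h')
  have hprime : ((Subgroup.centralizer ({t} : Set G)).index).Prime := by
    rcases h t with h1 | h1
    · exact absurd (C_eq_top_iff.1 (Subgroup.index_eq_one.1 h1)) htZ
    · exact h1
  have heq : T = Subgroup.centralizer ({t} : Set G) := eq_of_le_of_prime_index hprime hle hTtop
  exact ⟨heq.symm, by rw [← heq]; exact hidx, hprime⟩

/-- Let `G` be a finite group every conjugacy class of which has size 1 or a prime. Then either `G` is nilpotent of class at most 2, or `G/Z(G)` is a non-abelian group of order `pq` for distinct primes `p, q` (a Frobenius group of order `pq`). -/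
theorem result {G : Type*} [Group G] [Finite G]
    (h : ∀ x : G, (Subgroup.centralizer ({x} : Set G)).index = 1 ∨ ((Subgroup.centralizer ({x} : Set G)).index).Prime) :
    Subgroup.upperCentralSeries G 2 = ⊤ ∨
      ∃ p q : ℕ, p.Prime ∧ q.Prime ∧ p ≠ q ∧ Nat.card (G ⧸ Subgroup.center G) = p * q ∧ ¬ IsMulCommutative (G ⧸ Subgroup.center G) := by
  by_cases hall : ∀ x : G, (Subgroup.centralizer ({x} : Set G)).Normal
  · left
    rw [Subgroup.eq_top_iff']
    intro a
    rw [Subgroup.mem_upperCentralSeries_succ_iff]
    intro b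
    rw [Subgroup.upperCentralSeries_one, Subgroup.mem_center_iff]
    intro x
    -- ⁅a, b⁆ ∈ C(x)
    have hmem : ⁅a, b⁆ ∈ Subgroup.centralizer ({x} : Set G) := by
      have hn := hall x
      rcases h x with h1 | h1
      · rw [Subgroup.index_eq_one.1 h1]; exact Subgroup.mem_top _
      · have : Fact ((Subgroup.centralizer ({x} : Set G)).index).Prime := ⟨h1⟩
        have hcyc : IsCyclic (G ⧸ Subgroup.centralizer ({x} : Set G)) :=
          isCyclic_of_prime_card (p := (Subgroup.centralizer ({x} : Set G)).index) rfl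
        rw [← QuotientGroup.eq_one_iff, commutatorElement_def]
        simp only [QuotientGroup.mk_mul, QuotientGroup.mk_inv]
        rw [mul_comm' (a : G ⧸ Subgroup.centralizer ({x} : Set G)) b]
        group
    exact (mem_C.1 hmem).symm
  · right
    push Not at hall
    obtain ⟨x, hMn⟩ := hall
    set M := Subgroup.centralizer ({x} : Set G) with hMdef
    have hMp : (M.index).Prime := by
      rcases h x with h1 | h1
      · exfalso
        apply hMn
        rw [hMdef, Subgroup.index_eq_one.1 h1]
        infer_instance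
      · exact h1
    set p := M.index with hp
    have : Fact p.Prime := ⟨hMp⟩
    set Z := Subgroup.center G with hZ
    have hZM : Z ≤ M := by
      intro z hz
      rw [hMdef, mem_C]
      exact (Subgroup.mem_center_iff.1 hz x).symm
    set K := M.normalCore with hK
    have hKM : K ≤ M := M.normalCore_le
    have hZK : Z ≤ K := Subgroup.normal_le_normalCore.2 hZM
    -- an element of order p modulo K
    have hpK : p ∣ Nat.card (G ⧸ K) := Subgroup.index_dvd_of_le hKM
    obtain ⟨tbar, htbar⟩ := exists_prime_orderOf_dvd_card' (G := G ⧸ K) p hpK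
    obtain ⟨t0, rfl⟩ := QuotientGroup.mk_surjective tbar
    have ht0p : t0 ^ p ∈ K := by
      rw [← QuotientGroup.eq_one_iff, QuotientGroup.mk_pow, ← htbar, pow_orderOf_eq_one]
    have ht0K : t0 ∉ K := by
      intro h1
      rw [(QuotientGroup.eq_one_iff t0).2 h1, orderOf_one] at htbar
      exact hMp.one_lt.ne htbar
    obtain ⟨b, hb⟩ : ∃ b : G, b * t0 * b⁻¹ ∉ M := by
      by_contra hcon
      push Not at hcon
      exact ht0K hcon
    set t := b * t0 * b⁻¹ with ht
    have htp : t ^ p ∈ K := by
      rw [ht, conj_pow]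
      exact (inferInstance : K.Normal).conj_mem _ ht0p b
    obtain ⟨hCt, hidx, hq⟩ := key_lemma h hMp rfl hMn hZM hb htp
    set T := Subgroup.centralizer ({t} : Set G) with hT
    set q := T.index with hqdef
    have hKT : K ≤ T := by
      intro k hk
      have hk1 : QuotientGroup.mk' K k = 1 := (QuotientGroup.eq_one_iff k).2 hk
      rw [hCt, Subgroup.mem_comap, hk1]
      exact Subgroup.one_mem _
    -- K is abelian
    have hKab : ∀ k ∈ K, ∀ k' ∈ K, k' * k = k * k' := by
      intro k hk k' hk'
      have htk : t * k ∉ M := by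
        intro h1
        apply hb
        have := M.mul_mem h1 (M.inv_mem (hKM hk))
        simpa using this
      have hπ : QuotientGroup.mk' K (t * k) = QuotientGroup.mk' K t := by
        have hk1 : QuotientGroup.mk' K k = 1 := (QuotientGroup.eq_one_iff k).2 hk
        rw [map_mul, hk1, mul_one]
      have htkp : (t * k) ^ p ∈ K := by
        rw [← QuotientGroup.eq_one_iff, ← QuotientGroup.mk'_apply, map_pow, hπ, ← map_pow]
        exact (QuotientGroup.eq_one_iff _).2 htp
      obtain ⟨hCtk, -, -⟩ := key_lemma h hMp rfl hMn hZM htk htkp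
      rw [hπ, ← hCt] at hCtk
      have h1 : k' ∈ Subgroup.centralizer ({t * k} : Set G) := hCtk ▸ hKT hk'
      have h2 : k' ∈ T := hKT hk'
      rw [mem_C] at h1
      rw [hT, mem_C] at h2
      have h3 : Commute k' (t⁻¹ * (t * k)) := (Commute.inv_right h2).mul_right h1
      simpa using h3.eq
    have htT : t ∈ T := by rw [hT, mem_C]
    have hxT : x ∉ T := by
      intro h1
      rw [hT, mem_C] at h1
      apply hb
      rw [hMdef, mem_C]
      exact h1.symm
    -- K is central
    have hKZ : K ≤ Z := by
      intro k hk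
      rw [hZ, ← C_eq_top_iff]
      by_contra hne
      have hTle : T ≤ Subgroup.centralizer ({k} : Set G) := by
        intro a ha
        have ha' := ha
        rw [hCt, Subgroup.mem_comap] at ha'
        obtain ⟨i, hi⟩ := Subgroup.mem_zpowers_iff.1 ha'
        rw [← map_zpow] at hi
        have h1 : (t ^ i)⁻¹ * a ∈ K := by
          rw [← QuotientGroup.eq_one_iff, ← QuotientGroup.mk'_apply, map_mul, map_inv, hi]
          exact inv_mul_cancel _
        have h2 : Commute ((t ^ i)⁻¹ * a) k := hKab k hk _ h1
        have h3 : Commute t k := by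
          have := hKT hk
          rw [hT, mem_C] at this
          exact this.symm
        have h4 : Commute (t ^ i * ((t ^ i)⁻¹ * a)) k := (h3.zpow_left i).mul_left h2
        rw [mem_C]
        simpa using h4.eq
      have h5 := eq_of_le_of_prime_index hq hTle hne
      apply hxT
      rw [← h5, mem_C]
      have := hKM hk
      rw [hMdef, mem_C] at this
      exact this.symm
    have hKeq : K = Z := le_antisymm hKZ hZK
    have hcard : Nat.card (G ⧸ Z) = p * q := by
      rw [← hKeq]; exact hidx
    have hnc : ¬ IsMulCommutative (G ⧸ Z) := by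
      intro hc
      apply hMn
      constructor
      intro n hn g
      have h1 : g * n * g⁻¹ * n⁻¹ ∈ Z := by
        rw [← QuotientGroup.eq_one_iff]
        simp only [QuotientGroup.mk_mul, QuotientGroup.mk_inv]
        rw [mul_comm' (g : G ⧸ Z) n]
        group
      have h2 := M.mul_mem (hZM h1) hn
      simpa using h2
    refine ⟨p, q, hMp, hq, ?_, hcard, hnc⟩
    intro hpq
    apply hnc
    apply IsPGroup.isMulCommutative_of_card_eq_prime_sq (p := p)
    rw [hcard, ← hpq, pow_two]

end Cfsg.Agent.S4314
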