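import Cfsg.Statements.S4320

set_option autoImplicit false
open Cfsg

namespace Cfsg.Agent.S4320

open MonoidAlgebra
open scoped commutatorElement

section DetTrick
variable {R : Type*} [CommRing R] {M : Type*} [AddCommGroup M] [Module R M]
  {ι : Type*} [Fintype ι] [DecidableEq ι]

theorem det_smul_eq_zero (μ : Matrix ι ι R) (m : ι → M) (h : ∀ i, ∑ j, μ j i • m j = 0) (k : ι) :
    μ.det • m k = 0 := by
  have h1 : ∑ i, μ.adjugate i k • ∑ j, μ j i • m j = 0 := by simp [h]
  have h2 : ∑ i, μ.adjugate i k • ∑ j, μ j i • m j = ∑ j, (μ * μ.adjugate) j k • m j := by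
    simp_rw [Finset.smul_sum, smul_smul]
    rw [Finset.sum_comm]
    refine Finset.sum_congr rfl fun j _ => ?_
    rw [Matrix.mul_apply, Finset.sum_smul]
    refine Finset.sum_congr rfl fun i _ => ?_
    rw [mul_comm]
  rw [h2, Matrix.mul_adjugate] at h1
  simpa [Matrix.smul_apply, Matrix.one_apply, ite_smul] using h1

theorem exists_annihilator (ε : R →+* ℤ) (m : ι → M) (c : ι → R)
    (h : ∀ i, c i • m i ∈ (RingHom.ker ε) • Submodule.span R (Set.range m)) :
    ∃ d : R, ε d = ∏ i, ε (c i) ∧ ∀ k, d • m k = 0 := by
  have h' : ∀ i, ∃ r : ι → R, (∀ j, ε (r j) = 0) ∧ c i • m i = ∑ j, r j • m j := by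
    intro i
    obtain ⟨a, ha, hs⟩ := (Submodule.mem_ideal_smul_span_iff_exists_sum _ _ _).1 (h i)
    refine ⟨a, fun j => ha j, ?_⟩
    rw [← hs, Finsupp.sum_fintype]
    intro j; simp
  choose r hr0 hr using h'
  obtain ⟨μ, hμ⟩ : ∃ μ : Matrix ι ι R, ∀ j i, μ j i = (if j = i then c i else 0) - r i j :=
    ⟨Matrix.of fun j i => (if j = i then c i else 0) - r i j, fun _ _ => rfl⟩
  refine ⟨μ.det, ?_, det_smul_eq_zero μ m ?_⟩
  · rw [RingHom.map_det]
    have : ε.mapMatrix μ = Matrix.diagonal (fun i => ε (c i)) := by
      ext j i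
      rw [RingHom.mapMatrix_apply, Matrix.map_apply, hμ, map_sub, hr0, sub_zero,
        Matrix.diagonal_apply]
      split_ifs with hji
      · rw [hji]
      · simp
    rw [this, Matrix.det_diagonal]
  · intro i
    simp only [hμ, sub_smul, Finset.sum_sub_distrib, ite_smul, zero_smul, ← hr]
    simp

end DetTrick


section Norm
variable {Q : Type*} [Group Q] [Fintype Q]

/-- the augmentation -/
noncomputable def aug (Q : Type*) [Group Q] : MonoidAlgebra ℤ Q →+* ℤ :=
  (MonoidAlgebra.lift ℤ ℤ Q (1 : Q →* ℤ)).toRingHom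

omit [Fintype Q] in
theorem aug_of (q : Q) : aug Q (of ℤ Q q) = 1 := by
  simp [aug]

theorem aug_eq_sum (d : MonoidAlgebra ℤ Q) : aug Q d = ∑ q, d.coeff q := by
  have : aug Q d = d.coeff.sum fun a b => b • (1 : Q →* ℤ) a := MonoidAlgebra.lift_apply _ _
  rw [this, Finsupp.sum_fintype]
  · simp
  · intro i; simp

theorem eq_norm (d : MonoidAlgebra ℤ Q) (hd : ∀ q : Q, of ℤ Q q * d = d)
    (hε : aug Q d = Fintype.card Q) : d = ∑ q, of ℤ Q q := by
  classical
  have h1 : ∀ x : Q, d.coeff x = d.coeff 1 := by
    intro x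
    have := congrArg (fun y => y.coeff x) (hd x)
    simp only [of_apply, coeff_single_mul_apply, inv_mul_cancel, one_mul] at this
    exact this.symm
  have h2 : d.coeff 1 = 1 := by
    rw [aug_eq_sum] at hε
    simp_rw [h1] at hε
    rw [Finset.sum_const, Finset.card_univ, nsmul_eq_mul] at hε
    have hpos : (Fintype.card Q : ℤ) ≠ 0 := by exact_mod_cast Fintype.card_ne_zero
    exact mul_left_cancel₀ hpos (by rw [hε, mul_one])
  ext x
  rw [h1, h2, coeff_sum, Finsupp.finsetSum_apply]
  simp [Finsupp.single_apply]

end Norm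


section Gen

theorem mulSingle_pow_card {ι' : Type*} [DecidableEq ι'] (n : ι' → ℕ) (i : ι') :
    (Pi.mulSingle i (Multiplicative.ofAdd (1 : ZMod (n i))) :
      (i : ι') → Multiplicative (ZMod (n i))) ^ (n i) = 1 := by
  rw [← Pi.mulSingle_pow, ← ofAdd_nsmul, nsmul_one, ZMod.natCast_self, ofAdd_zero,
    Pi.mulSingle_one]

theorem closure_range_mulSingle {ι' : Type*} [Fintype ι'] [DecidableEq ι'] (n : ι' → ℕ)
    (hn : ∀ i, 1 < n i) :
    Subgroup.closure (Set.range fun i => (Pi.mulSingle i (Multiplicative.ofAdd (1 : ZMod (n i))) :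
      (i : ι') → Multiplicative (ZMod (n i)))) = ⊤ := by
  rw [eq_top_iff]
  intro f _
  rw [← Finset.univ_prod_mulSingle f]
  refine Subgroup.prod_mem _ fun i _ => ?_
  have : NeZero (n i) := ⟨by have := hn i; omega⟩
  have : Pi.mulSingle i (f i) = (Pi.mulSingle i (Multiplicative.ofAdd (1 : ZMod (n i))) :
      (i : ι') → Multiplicative (ZMod (n i))) ^ ((Multiplicative.toAdd (f i)).val) := by
    rw [← Pi.mulSingle_pow, ← ofAdd_nsmul, nsmul_one, ZMod.natCast_zmod_val, ofAdd_toAdd]
  rw [this]
  exact Subgroup.pow_mem _ (Subgroup.subset_closure (Set.mem_range_self i)) _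

end Gen

section Main
variable {G : Type*} [Group G]

/-- image of a group element in the group ring of the abelianization -/
noncomputable def bar (g : G) : MonoidAlgebra ℤ (Abelianization G) :=
  of ℤ _ (Abelianization.of g)

theorem bar_mul (g g' : G) : bar (g * g') = bar g * bar g' := by simp [bar]

theorem bar_one : bar (1 : G) = 1 := by rw [bar, map_one, map_one]

theorem bar_inv_mul (g : G) : bar g⁻¹ * bar g = 1 := by
  rw [← bar_mul, inv_mul_cancel, bar_one]

theorem aug_bar (g : G) : aug _ (bar g) = 1 := aug_of _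

variable {M : Type*} [AddCommGroup M] [Module (MonoidAlgebra ℤ (Abelianization G)) M]
  {D : G → M}

theorem der_one (hD : ∀ g g', D (g * g') = bar g' • D g + D g') : D 1 = 0 := by
  have := hD 1 1
  rw [mul_one, bar_one, one_smul] at this
  exact left_eq_add.1 this

theorem der_inv (hD : ∀ g g', D (g * g') = bar g' • D g + D g') (g : G) :
    D g⁻¹ = - (bar g⁻¹ • D g) := by
  have := hD g g⁻¹
  rw [mul_inv_cancel, der_one hD] at this
  exact eq_neg_of_add_eq_zero_right this.symm

theorem der_pow (hD : ∀ g g', D (g * g') = bar g' • D g + D g') (g : G) (k : ℕ) :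
    D (g ^ k) = (∑ j ∈ Finset.range k, bar g ^ j) • D g := by
  induction k with
  | zero => simp [der_one hD]
  | succ k ih =>
    rw [pow_succ, hD, ih, Finset.sum_range_succ', add_smul, pow_zero, one_smul, smul_smul,
      Finset.mul_sum]
    simp_rw [pow_succ']

theorem der_mem_of_closure (hD : ∀ g g', D (g * g') = bar g' • D g + D g')
    (N : Submodule (MonoidAlgebra ℤ (Abelianization G)) M) (S : Set G)
    (hS : ∀ s ∈ S, D s ∈ N) {g : G} (hg : g ∈ Subgroup.closure S) : D g ∈ N := by
  induction hg using Subgroup.closure_induction with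
  | mem x hx => exact hS x hx
  | one => rw [der_one hD]; exact N.zero_mem
  | mul x y _ _ hx hy => rw [hD]; exact N.add_mem (N.smul_mem _ hx) hy
  | inv x _ hx => rw [der_inv hD]; exact N.neg_mem (N.smul_mem _ hx)

theorem der_commutator_mem (hD : ∀ g g', D (g * g') = bar g' • D g + D g')
    (N : Submodule (MonoidAlgebra ℤ (Abelianization G)) M) (hN : ∀ g, D g ∈ N)
    {h : G} (hh : h ∈ commutator G) :
    D h ∈ (RingHom.ker (aug (Abelianization G))) • N := by
  rw [commutator_eq_closure] at hh
  refine der_mem_of_closure hD _ _ ?_ hh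
  rintro c ⟨a, b, rfl⟩
  have hI : ∀ g : G, bar g - 1 ∈ RingHom.ker (aug (Abelianization G)) := by
    intro g
    rw [RingHom.mem_ker, map_sub, aug_bar, map_one, sub_self]
  have h1 : a * b = ⁅a, b⁆ * (b * a) := by
    rw [commutatorElement_def]; group
  have h2 : bar (b * a) • D ⁅a, b⁆ = (bar b - 1) • D a - (bar a - 1) • D b := by
    have e1 := hD a b
    rw [h1, hD ⁅a, b⁆ (b * a), hD b a] at e1
    rw [sub_smul, sub_smul, one_smul, one_smul]
    have : bar (b * a) • D ⁅a, b⁆ = bar b • D a + D b - (bar a • D b + D a) := by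
      rw [← e1]; abel
    rw [this]; abel
  have h3 : D ⁅a, b⁆ = bar (b * a)⁻¹ • ((bar b - 1) • D a - (bar a - 1) • D b) := by
    rw [← h2, smul_smul, bar_inv_mul, one_smul]
  rw [h3]
  refine Submodule.smul_mem _ _ (Submodule.sub_mem _ ?_ ?_)
  · exact Submodule.smul_mem_smul (hI b) (hN a)
  · exact Submodule.smul_mem_smul (hI a) (hN b)


theorem norm_smul_aux [Finite G] [Fintype (Abelianization G)]
    (hD : ∀ g g', D (g * g') = bar g' • D g + D g')
    (pr : M →ₗ[MonoidAlgebra ℤ (Abelianization G)] MonoidAlgebra ℤ (Abelianization G))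
    (hpr : ∀ g, pr (D g) = bar g - 1) (g : G) :
    (∑ q, of ℤ (Abelianization G) q) • D g = 0 := by
  classical
  obtain ⟨ι', _, n, hn, ⟨e⟩⟩ :=
    CommGroup.equiv_prod_multiplicative_zmod_of_finite (Abelianization G)
  have hsurj : Function.Surjective (Abelianization.of : G →* Abelianization G) :=
    QuotientGroup.mk_surjective
  have hx' : ∀ i : ι', ∃ x : G, Abelianization.of x =
      e.symm (Pi.mulSingle i (Multiplicative.ofAdd (1 : ZMod (n i)))) := fun i => hsurj _
  choose x' hx' using hx'
  have hker : ∀ y : G, Abelianization.of y = 1 → y ∈ commutator G := by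
    intro y hy
    exact (QuotientGroup.eq_one_iff y).1 hy
  have : Fintype ↥(commutator G) := Fintype.ofFinite _
  -- the generating family
  let x : ι' ⊕ ↥(commutator G) → G := Sum.elim x' (fun h => (h : G))
  let c : ι' ⊕ ↥(commutator G) → MonoidAlgebra ℤ (Abelianization G) :=
    Sum.elim (fun i => ∑ j ∈ Finset.range (n i), bar (x' i) ^ j) (fun _ => 1)
  let m : ι' ⊕ ↥(commutator G) → M := fun i => D (x i)
  set N := Submodule.span (MonoidAlgebra ℤ (Abelianization G)) (Set.range m) with hNdef
  -- generation
  have hgen : Subgroup.closure (Set.range x) = ⊤ := by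
    rw [eq_top_iff]
    intro y _
    have h1 : (Subgroup.closure (Set.range x)).map (Abelianization.of) = ⊤ := by
      rw [eq_top_iff]
      have h2 : (⊤ : Subgroup (Abelianization G)) =
          (Subgroup.closure (Set.range fun i => (Pi.mulSingle i
            (Multiplicative.ofAdd (1 : ZMod (n i))) :
            (i : ι') → Multiplicative (ZMod (n i))))).map e.symm.toMonoidHom := by
        rw [closure_range_mulSingle n hn, ← MonoidHom.range_eq_map]
        exact (MonoidHom.range_eq_top.2 e.symm.surjective).symm
      rw [h2, MonoidHom.map_closure, Subgroup.closure_le]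
      rintro _ ⟨_, ⟨i, rfl⟩, rfl⟩
      refine ⟨x' i, Subgroup.subset_closure ⟨Sum.inl i, rfl⟩, ?_⟩
      exact hx' i
    have h3 : Abelianization.of y ∈ (Subgroup.closure (Set.range x)).map (Abelianization.of) := by
      rw [h1]; trivial
    obtain ⟨k, hk, hky⟩ := h3
    have h4 : k⁻¹ * y ∈ commutator G := by
      apply hker
      rw [map_mul, map_inv, hky, inv_mul_cancel]
    have h5 : k⁻¹ * y ∈ Subgroup.closure (Set.range x) :=
      Subgroup.subset_closure ⟨Sum.inr ⟨_, h4⟩, rfl⟩
    have := Subgroup.mul_mem _ hk h5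
    rwa [mul_inv_cancel_left] at this
  have hN : ∀ y, D y ∈ N := by
    intro y
    refine der_mem_of_closure hD N (Set.range x) ?_ (by rw [hgen]; trivial)
    rintro _ ⟨i, rfl⟩
    exact Submodule.subset_span ⟨i, rfl⟩
  have hc : ∀ i, c i • m i ∈ (RingHom.ker (aug (Abelianization G))) • N := by
    rintro (i | h)
    · change (∑ j ∈ Finset.range (n i), bar (x' i) ^ j) • D (x' i) ∈ _
      rw [← der_pow hD]
      apply der_commutator_mem hD N hN
      apply hker
      rw [map_pow, hx', ← map_pow, mulSingle_pow_card, map_one]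
    · change (1 : MonoidAlgebra ℤ (Abelianization G)) • D (h : G) ∈ _
      rw [one_smul]
      exact der_commutator_mem hD N hN h.2
  obtain ⟨d, hd1, hd2⟩ := exists_annihilator (aug (Abelianization G)) m c hc
  have hd3 : ∀ y, d • D y = 0 := by
    intro y
    have : N ≤ LinearMap.ker (LinearMap.lsmul (MonoidAlgebra ℤ (Abelianization G)) M d) := by
      rw [hNdef, Submodule.span_le]
      rintro _ ⟨i, rfl⟩
      exact hd2 i
    exact this (hN y)
  have hd4 : ∀ q : Abelianization G, of ℤ _ q * d = d := by
    intro q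
    obtain ⟨y, rfl⟩ := hsurj q
    have := congrArg pr (hd3 y)
    rw [map_smul, hpr, map_zero, smul_eq_mul, mul_sub, mul_one, sub_eq_zero] at this
    rw [mul_comm]; exact this
  have hd5 : aug _ d = Fintype.card (Abelianization G) := by
    rw [hd1, Fintype.prod_sum_type]
    have h1 : ∀ i : ι', aug _ (c (Sum.inl i)) = n i := by
      intro i
      change aug _ (∑ j ∈ Finset.range (n i), bar (x' i) ^ j) = n i
      rw [map_sum]
      simp [aug_bar]
    have h2 : ∀ h : ↥(commutator G), aug _ (c (Sum.inr h)) = 1 := by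
      intro h
      change aug _ 1 = 1
      rw [map_one]
    simp_rw [h1, h2]
    rw [Finset.prod_const_one, mul_one, ← Nat.card_eq_fintype_card, Nat.card_congr e.toEquiv,
      Nat.card_pi]
    push_cast
    refine Finset.prod_congr rfl fun i _ => ?_
    rw [Nat.card_congr Multiplicative.toAdd, Nat.card_zmod]
  rw [← eq_norm d hd4 hd5]
  exact hd3 g

theorem norm_smul [Finite G] [Fintype (Abelianization G)]
    (hD : ∀ g g', D (g * g') = bar g' • D g + D g') (g : G) :
    (∑ q, of ℤ (Abelianization G) q) • D g = 0 := by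
  have h := norm_smul_aux (D := fun g => ((D g, bar g - 1) :
      M × MonoidAlgebra ℤ (Abelianization G))) (by
        intro g g'
        ext1
        · exact hD g g'
        · change bar (g * g') - 1 = bar g' • (bar g - 1) + (bar g' - 1)
          rw [bar_mul, smul_eq_mul]; ring)
      (LinearMap.snd _ _ _) (fun g => rfl) g
  exact congrArg Prod.fst h

end Main


theorem sum_rho {G : Type*} [Group G] [Finite G] [Fintype (Abelianization G)]
    {M : Type*} [AddCommGroup M]
    (ρ : Abelianization G →* Module.End ℤ M) (D : G → M)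
    (hD : ∀ g g', D (g * g') = ρ (Abelianization.of g') (D g) + D g') (g : G) :
    ∑ q, ρ q (D g) = 0 := by
  let _ : Module (MonoidAlgebra ℤ (Abelianization G)) M :=
    Module.compHom M ((MonoidAlgebra.lift ℤ (Module.End ℤ M) (Abelianization G) ρ).toRingHom)
  have hsm : ∀ (q : Abelianization G) (m : M), of ℤ _ q • m = ρ q m := by
    intro q m
    change (MonoidAlgebra.lift ℤ (Module.End ℤ M) (Abelianization G) ρ (of ℤ _ q)) m = ρ q m
    rw [MonoidAlgebra.lift_of]
  have := norm_smul (D := D) (by intro g g'; rw [bar, hsm]; exact hD g g') g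
  rw [Finset.sum_smul] at this
  simp_rw [hsm] at this
  exact this

open Subgroup Subgroup.leftTransversals in
theorem transfer_trivial {G : Type*} [Group G] [Finite G] :
    MonoidHom.transfer (Abelianization.of : ↥(commutator G) →* Abelianization ↥(commutator G)) =
      (1 : G →* Abelianization ↥(commutator G)) := by
  classical
  ext g
  let _ : Fintype (G ⧸ commutator G) := (commutator G).fintypeQuotientOfFiniteIndex
  let _ : Fintype (Abelianization G) := (commutator G).fintypeQuotientOfFiniteIndex
  let T : (commutator G).LeftTransversal := default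
  let t : G ⧸ commutator G → G := fun q => (T.2.leftQuotientEquiv q : G)
  have ht : ∀ q, ((t q : G) : G ⧸ commutator G) = q :=
    fun q => T.2.quotientGroupMk_leftQuotientEquiv q
  have hmem : ∀ (g : G) (q : G ⧸ commutator G), (t (g • q))⁻¹ * (g * t q) ∈ commutator G := by
    intro g q
    rw [← QuotientGroup.eq, ht]
    conv_lhs => rw [← ht q]
    rfl
  have hsm : ∀ (g : G) (q : Abelianization G),
      (Abelianization.of g * q : Abelianization G) =
        @HSMul.hSMul G (G ⧸ commutator G) (G ⧸ commutator G) _ g q := by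
    intro g q
    induction q using QuotientGroup.induction_on
    rfl
  let D : G → (Abelianization G → Additive (Abelianization ↥(commutator G))) :=
    fun g q => Additive.ofMul (Abelianization.of ⟨_, hmem g q⟩)
  let ρ : Abelianization G →* Module.End ℤ (Abelianization G → Additive (Abelianization ↥(commutator G))) :=
    { toFun := fun q => LinearMap.funLeft ℤ _ (fun q' => q * q')
      map_one' := by ext f q'; simp [LinearMap.funLeft_apply]
      map_mul' := by
        intro a b
        refine LinearMap.ext fun f => funext fun q' => ?_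
        change f (a * b * q') = f (b * (a * q'))
        rw [mul_comm a b, mul_assoc] }
  have hD : ∀ g g', D (g * g') = ρ (Abelianization.of g') (D g) + D g' := by
    intro g g'
    funext q
    change D (g * g') q = D g (Abelianization.of g' * q) + D g' q
    rw [hsm g' q]
    obtain ⟨q, rfl⟩ : ∃ q' : G ⧸ commutator G, q' = q := ⟨q, rfl⟩
    change Additive.ofMul _ = Additive.ofMul _ + Additive.ofMul _
    rw [← ofMul_mul, ← map_mul]
    congr 2
    apply Subtype.ext
    change (t ((g * g') • q))⁻¹ * (g * g' * t q) =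
      ((t (g • g' • q))⁻¹ * (g * t (g' • q))) * ((t (g' • q))⁻¹ * (g' * t q))
    rw [mul_smul]
    group
  have key := congrFun (sum_rho ρ D hD g) 1
  rw [Finset.sum_apply] at key
  have key2 : ∑ q : Abelianization G, D g q = 0 := by
    refine Eq.trans ?_ key
    refine Finset.sum_congr rfl fun q _ => ?_
    change D g q = D g (q * 1)
    rw [mul_one]
  have h1 : diff (Abelianization.of : ↥(commutator G) →* Abelianization ↥(commutator G)) T (g • T)
      = ∏ q : G ⧸ commutator G, Abelianization.of ⟨_, hmem g q⟩ := by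
    unfold diff
    refine (Fintype.prod_equiv (MulAction.toPerm g) _ _ (fun q => ?_)).symm
    congr 1
    apply Subtype.ext
    simp only [MulAction.toPerm_apply]
    rw [← smul_leftQuotientEquiv]
    rfl
  rw [MonoidHom.one_apply, MonoidHom.transfer_def _ T g, h1]
  apply Additive.ofMul.injective
  rw [ofMul_prod, ofMul_one]
  exact key2

/-- The Principal Ideal Theorem of class field theory in its group-theoretic form: for every finite group `G`, the transfer homomorphism from `G` into the abelianization `G'/G''` of its derived subgroup `G'` is the trivial homomorphism. -/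
theorem result {G : Type*} [Group G] [Finite G] :
    MonoidHom.transfer (Abelianization.of : ↥(commutator G) →* Abelianization ↥(commutator G)) =
      (1 : G →* Abelianization ↥(commutator G)) := by
  exact transfer_trivial

end Cfsg.Agent.S4320
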