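import Cfsg.Statements.S4321
import Cfsg.Agent.Lib.Helper69.PSing3

set_option autoImplicit false
open Cfsg
open Cfsg.Agent.Lib.Helper69 Subgroup

namespace Cfsg.Agent.S4321

/-- Let `G` be a finite group and `p` a prime not dividing the order of the centre of `G`. Consider the primes dividing the size of some conjugacy class of a `p`-singular element (an element of order divisible by `p`), two of them adjacent when their product divides such a class size. Then any two distinct such primes are joined by a path with at most 3 edges (the graph is connected of diameter at most 3). -/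
theorem result {G : Type*} [Group G] [Finite G] (p : ℕ) [Fact p.Prime]
    (hZ : ¬ p ∣ Nat.card ↥(Subgroup.center G)) (r s : ℕ) (hr : (r.Prime ∧ ∃ x : G, p ∣ orderOf x ∧ r ∣ (Subgroup.centralizer ({x} : Set G)).index)) (hs : (s.Prime ∧ ∃ x : G, p ∣ orderOf x ∧ s ∣ (Subgroup.centralizer ({x} : Set G)).index)) (hrs : r ≠ s) :
    (∃ x : G, p ∣ orderOf x ∧ r * s ∣ (Subgroup.centralizer ({x} : Set G)).index) ∨ (∃ t : ℕ, (t.Prime ∧ ∃ x : G, p ∣ orderOf x ∧ t ∣ (Subgroup.centralizer ({x} : Set G)).index) ∧ t ≠ r ∧ t ≠ s ∧ (∃ x : G, p ∣ orderOf x ∧ r * t ∣ (Subgroup.centralizer ({x} : Set G)).index) ∧ (∃ x : G, p ∣ orderOf x ∧ t * s ∣ (Subgroup.centralizer ({x} : Set G)).index)) ∨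
      (∃ t u : ℕ, (t.Prime ∧ ∃ x : G, p ∣ orderOf x ∧ t ∣ (Subgroup.centralizer ({x} : Set G)).index) ∧ (u.Prime ∧ ∃ x : G, p ∣ orderOf x ∧ u ∣ (Subgroup.centralizer ({x} : Set G)).index) ∧ t ≠ r ∧ u ≠ s ∧ t ≠ u ∧ (∃ x : G, p ∣ orderOf x ∧ r * t ∣ (Subgroup.centralizer ({x} : Set G)).index) ∧ (∃ x : G, p ∣ orderOf x ∧ t * u ∣ (Subgroup.centralizer ({x} : Set G)).index) ∧ (∃ x : G, p ∣ orderOf x ∧ u * s ∣ (Subgroup.centralizer ({x} : Set G)).index)) := by
  obtain ⟨hrp, x, hx, hrx⟩ := hr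
  obtain ⟨hsp, y, hy, hsy⟩ := hs
  obtain ⟨a, b, hab, ha, hb⟩ := exists_p_decomp p x
  obtain ⟨c, d, hcd, hc, hd⟩ := exists_p_decomp p y
  have hu1 : x ^ a ≠ 1 := by
    intro h
    rw [h, one_mul] at hab
    exact hb (by rw [hab]; exact hx)
  have hv1 : y ^ c ≠ 1 := by
    intro h
    rw [h, one_mul] at hcd
    exact hd (by rw [hcd]; exact hy)
  obtain ⟨r', s', hr', hs', hr'u, hs'v, hadj⟩ := exists_adj hZ ha hc hu1 hv1
  have hr'x : r' ∣ (centralizer ({x} : Set G)).index := hr'u.trans (cind_pow_dvd x a)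
  have hs'y : s' ∣ (centralizer ({y} : Set G)).index := hs'v.trans (cind_pow_dvd y c)
  have A1 : r ≠ r' → ∃ x : G, p ∣ orderOf x ∧ r * r' ∣ (centralizer ({x} : Set G)).index := fun hne =>
    ⟨x, hx, Nat.Coprime.mul_dvd_of_dvd_of_dvd ((Nat.coprime_primes hrp hr').2 hne) hrx hr'x⟩
  have A3 : s' ≠ s → ∃ x : G, p ∣ orderOf x ∧ s' * s ∣ (centralizer ({x} : Set G)).index := fun hne =>
    ⟨y, hy, Nat.Coprime.mul_dvd_of_dvd_of_dvd ((Nat.coprime_primes hs' hsp).2 hne) hs'y hsy⟩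
  have A2 : r' ≠ s' → ∃ x : G, p ∣ orderOf x ∧ r' * s' ∣ (centralizer ({x} : Set G)).index := fun hne => by
    rcases hadj with h | h
    · exact absurd h hne
    · exact h
  have Vr' : r'.Prime ∧ ∃ x : G, p ∣ orderOf x ∧ r' ∣ (centralizer ({x} : Set G)).index :=
    ⟨hr', x, hx, hr'x⟩
  have Vs' : s'.Prime ∧ ∃ x : G, p ∣ orderOf x ∧ s' ∣ (centralizer ({x} : Set G)).index :=
    ⟨hs', y, hy, hs'y⟩
  by_cases e1 : r = r'
  · subst e1
    by_cases e2 : r = s'
    · subst e2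
      exact Or.inl (A3 hrs)
    · by_cases e3 : s' = s
      · subst e3
        exact Or.inl (A2 e2)
      · exact Or.inr (Or.inl ⟨s', Vs', fun h => e2 h.symm, e3, A2 e2, A3 e3⟩)
  · by_cases e2 : r' = s'
    · subst e2
      by_cases e3 : r' = s
      · subst e3
        exact Or.inl (A1 e1)
      · exact Or.inr (Or.inl ⟨r', Vr', fun h => e1 h.symm, e3, A1 e1, A3 e3⟩)
    · by_cases e3 : s' = s
      · subst e3
        exact Or.inr (Or.inl ⟨r', Vr', fun h => e1 h.symm, e2, A1 e1, A2 e2⟩)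
      · exact Or.inr (Or.inr ⟨r', s', Vr', Vs', fun h => e1 h.symm, e3, e2, A1 e1, A2 e2, A3 e3⟩)

end Cfsg.Agent.S4321
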