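import Cfsg.Statements.S4421

set_option autoImplicit false
open Cfsg

namespace Cfsg.Agent.S4421

theorem map_conj_eq_iff {G : Type*} [Group G] (A : Subgroup G) (g h : G)
    (h1 : A.map (MulAut.conj g).toMonoidHom = A.map (MulAut.conj h).toMonoidHom) :
    h⁻¹ * g ∈ Subgroup.normalizer (A : Set G) := by
  rw [Subgroup.mem_normalizer_iff]
  intro a
  constructor
  · intro ha
    have : g * a * g⁻¹ ∈ A.map (MulAut.conj h).toMonoidHom := by
      rw [← h1]
      exact ⟨a, ha, by simp⟩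
    obtain ⟨b, hb, hb'⟩ := this
    have hb'' : h * b * h⁻¹ = g * a * g⁻¹ := by simpa using hb'
    have : h⁻¹ * g * a * (h⁻¹ * g)⁻¹ = b := by
      have : h⁻¹ * g * a * (h⁻¹ * g)⁻¹ = h⁻¹ * (g * a * g⁻¹) * h := by group
      rw [this, ← hb'']; group
    rw [this]; exact hb
  · intro ha
    have : h * (h⁻¹ * g * a * (h⁻¹ * g)⁻¹) * h⁻¹ ∈ A.map (MulAut.conj g).toMonoidHom := by
      rw [h1]
      exact ⟨_, ha, by simp⟩
    obtain ⟨b, hb, hb'⟩ := this
    have hb'' : g * b * g⁻¹ = h * (h⁻¹ * g * a * (h⁻¹ * g)⁻¹) * h⁻¹ := by simpa using hb'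
    have : a = b := by
      have h2 : h * (h⁻¹ * g * a * (h⁻¹ * g)⁻¹) * h⁻¹ = g * a * g⁻¹ := by group
      rw [h2] at hb''
      have := mul_right_cancel hb''
      exact (mul_left_cancel this).symm
    rw [this]; exact hb

/-- A factorization of a normalizer from two-step control of fusion. -/
theorem result {G : Type*} [Group G] [Finite G] (A S H : Subgroup G)
    (hAS : A ≤ S) (hSH : S ≤ H)
    (h1 : ∀ g : G, A.map (MulAut.conj g).toMonoidHom ≤ S → ∃ s ∈ S, A.map (MulAut.conj g).toMonoidHom = A.map (MulAut.conj s).toMonoidHom)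
    (h2 : ∀ g : G, S.map (MulAut.conj g).toMonoidHom ≤ H → ∃ y ∈ H, S.map (MulAut.conj g).toMonoidHom = S.map (MulAut.conj y).toMonoidHom)
    (h3 : ∀ x ∈ Subgroup.normalizer (A : Set G), S.map (MulAut.conj x).toMonoidHom ≤ H) :
    ∀ x ∈ Subgroup.normalizer (A : Set G), ∃ y ∈ H ⊓ Subgroup.normalizer (A : Set G),
      ∃ z ∈ Subgroup.normalizer (S : Set G) ⊓ Subgroup.normalizer (A : Set G), x = y * z := by
  intro x hx
  obtain ⟨y, hyH, hy⟩ := h2 x (h3 x hx)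
  have hw : y⁻¹ * x ∈ Subgroup.normalizer (S : Set G) := map_conj_eq_iff S x y hy
  have hwA : A.map (MulAut.conj (y⁻¹ * x)).toMonoidHom ≤ S := by
    rintro _ ⟨a, ha, rfl⟩
    have := (Subgroup.mem_normalizer_iff.mp hw a).mp (hAS ha)
    simpa [mul_assoc] using this
  obtain ⟨s, hsS, hs⟩ := h1 _ hwA
  have hz : s⁻¹ * (y⁻¹ * x) ∈ Subgroup.normalizer (A : Set G) := map_conj_eq_iff A _ s hs
  have hzS : s⁻¹ * (y⁻¹ * x) ∈ Subgroup.normalizer (S : Set G) :=
    mul_mem (inv_mem (Subgroup.le_normalizer hsS)) hw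
  refine ⟨y * s, ⟨mul_mem hyH (hSH hsS), ?_⟩, s⁻¹ * (y⁻¹ * x), ⟨hzS, hz⟩, by group⟩
  have : y * s = x * (s⁻¹ * (y⁻¹ * x))⁻¹ := by group
  show y * s ∈ Subgroup.normalizer (A : Set G)
  rw [this]
  exact mul_mem hx (inv_mem hz)

end Cfsg.Agent.S4421
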