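import Cfsg.Statements.S4422

set_option autoImplicit false
open Cfsg

namespace Cfsg.Agent.S4422

theorem prime_case (q e p : ℕ) (hq : 2 ≤ q) (he : 1 ≤ e) (hp : p.Prime)
    (hm : p ∣ q ^ e - 1) (hcop : ∀ i : ℕ, 1 ≤ i → i < e → Nat.Coprime p (q ^ i - 1)) :
    p ≡ 1 [MOD e] := by
  haveI := Fact.mk hp
  have hpos : ∀ i, 1 ≤ q ^ i := fun i => Nat.one_le_pow _ _ (by omega)
  have h1 : ((q : ZMod p)) ^ e = 1 := by
    have : ((q ^ e - 1 : ℕ) : ZMod p) = 0 := (ZMod.natCast_eq_zero_iff _ _).mpr hm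
    rw [Nat.cast_sub (hpos e)] at this
    push_cast at this
    exact sub_eq_zero.mp this
  have hq0 : (q : ZMod p) ≠ 0 := by
    intro h
    rw [h, zero_pow (by omega)] at h1
    exact zero_ne_one h1
  have hord : orderOf (q : ZMod p) = e := by
    have hdvd : orderOf (q : ZMod p) ∣ e := orderOf_dvd_of_pow_eq_one h1
    have hle : orderOf (q : ZMod p) ≤ e := Nat.le_of_dvd (by omega) hdvd
    have hpos' : 0 < orderOf (q : ZMod p) := Nat.pos_of_dvd_of_pos hdvd (by omega)
    by_contra hne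
    have hlt : orderOf (q : ZMod p) < e := lt_of_le_of_ne hle hne
    have hc := hcop _ hpos' hlt
    have h2 : p ∣ q ^ (orderOf (q : ZMod p)) - 1 := by
      rw [← ZMod.natCast_eq_zero_iff, Nat.cast_sub (hpos _)]
      push_cast
      rw [pow_orderOf_eq_one]; simp
    have := Nat.Coprime.eq_one_of_dvd hc h2
    exact hp.one_lt.ne' this
  have h3 : e ∣ p - 1 := by
    rw [← hord]
    exact ZMod.orderOf_dvd_card_sub_one hq0
  have : 1 ≡ p [MOD e] := (Nat.modEq_iff_dvd' hp.one_lt.le).mpr h3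
  exact this.symm

theorem aux (q e : ℕ) (hq : 2 ≤ q) (he : 1 ≤ e) : ∀ m : ℕ, 
    m ∣ q ^ e - 1 → (∀ i : ℕ, 1 ≤ i → i < e → Nat.Coprime m (q ^ i - 1)) →
    m ≡ 1 [MOD e] := by
  intro m
  induction m using Nat.strong_induction_on with
  | _ m ih =>
    intro hm hcop
    have hpos : 0 < q ^ e - 1 := by
      have : 2 ^ 1 ≤ q ^ e := le_trans (Nat.pow_le_pow_left hq 1) (Nat.pow_le_pow_right (by omega) he)
      omega
    have hm0 : 0 < m := Nat.pos_of_dvd_of_pos hm hpos
    by_cases h1 : m = 1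
    · rw [h1]
    · have hp := Nat.minFac_prime h1
      obtain ⟨k, hk⟩ := Nat.minFac_dvd m
      have hk0 : 0 < k := by
        rcases Nat.eq_zero_or_pos k with h | h
        · rw [h] at hk; omega
        · exact h
      have hklt : k < m := by
        have h2 := hp.two_le
        calc k < 2 * k := by omega
          _ ≤ m.minFac * k := Nat.mul_le_mul_right _ h2
          _ = m := hk.symm
      have hkm : k ∣ m := ⟨m.minFac, by rw [mul_comm]; exact hk⟩
      have hA := ih k hklt (hkm.trans hm) (fun i h1 h2 => Nat.Coprime.coprime_dvd_left hkm (hcop i h1 h2))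
      have hB := prime_case q e m.minFac hq he hp ((Nat.minFac_dvd m).trans hm)
        (fun i h1 h2 => Nat.Coprime.coprime_dvd_left (Nat.minFac_dvd m) (hcop i h1 h2))
      have := hB.mul hA
      rw [← hk] at this
      simpa using this

/-- Primitive divisors of `q^e - 1` are congruent to 1 modulo `e`. -/
theorem result (q e m : ℕ) (hq : 2 ≤ q) (he : 1 ≤ e)
    (hm : m ∣ q ^ e - 1) (hcop : ∀ i : ℕ, 1 ≤ i → i < e → Nat.Coprime m (q ^ i - 1)) :
    m % e = 1 % e := by
  exact aux q e hq he m hm hcop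

end Cfsg.Agent.S4422
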