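import Cfsg.Statements.S4426
import Cfsg.Agent.Lib.Helper78.RegInner2
import Cfsg.Agent.S0164

set_option autoImplicit false
open Cfsg

namespace Cfsg.Agent.S4426

/-- Let χ be an irreducible character in the p-block B of the finite group G (relative to a maximal ideal M of the algebraic integers containing p), let p^a be the p-part of the order of G, and let χ̃ be the class function equal to p^a · χ on p-regular elements and zero elsewhere. For ξ ∈ B the inner product [χ̃, ξ] is an integer. The following are equivalent: (a) χ has height zero in B; (b) for some ξ ∈ B the integer [χ̃, ξ] is nonzero and the exact power of p dividing it equals the exact power of p dividing ξ(1); (c) the same holds for every ξ ∈ B. -/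
theorem result {G : Type*} [Group G] [Fintype G] (p : ℕ) [Fact p.Prime] (M : Ideal Cfsg.AlgInt) (hM : Cfsg.IsPModular p M) (B : Set (Cfsg.IrrCharacter G)) (hB : Cfsg.IsPBlock M B) (χ : Cfsg.IrrCharacter G) (hχ : χ ∈ B) : (Cfsg.blockHeight p B (χ : G → ℂ) = 0 ↔ ∃ ξ ∈ B, ∃ n : ℤ, Cfsg.classInner (fun x : G => if p ∣ orderOf x then (0 : ℂ) else ((p ^ (Nat.card G).factorization p : ℕ) : ℂ) * (χ : G → ℂ) x) (ξ : G → ℂ) = (n : ℂ) ∧ n ≠ 0 ∧ padicValInt p n = (Cfsg.charDegree (ξ : G → ℂ)).factorization p) ∧ (Cfsg.blockHeight p B (χ : G → ℂ) = 0 ↔ ∀ ξ ∈ B, ∃ n : ℤ, Cfsg.classInner (fun x : G => if p ∣ orderOf x then (0 : ℂ) else ((p ^ (Nat.card G).factorization p : ℕ) : ℂ) * (χ : G → ℂ) x) (ξ : G → ℂ) = (n : ℂ) ∧ n ≠ 0 ∧ padicValInt p n = (Cfsg.charDegree (ξ : G → ℂ)).factorization p) := by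
  have hBr : Lib.Helper78.BrauerChar G := fun θ hθ hE => Cfsg.Agent.S0164.result θ hθ hE
  have hMp := Lib.Helper78.pmod_isPrime hM
  have key := Lib.Helper78.height_zero_iff_omega_cfun hBr hM hB hχ
  have hv : ∀ ξ : Cfsg.IrrCharacter G, ξ ∈ B → ((∃ n : ℤ, Cfsg.classInner (fun x : G => if p ∣ orderOf x then (0 : ℂ) else ((p ^ (Nat.card G).factorization p : ℕ) : ℂ) * (χ : G → ℂ) x) (ξ : G → ℂ) = (n : ℂ) ∧ n ≠ 0 ∧ padicValInt p n = (Cfsg.charDegree (ξ : G → ℂ)).factorization p) ↔ Cfsg.blockHeight p B (χ : G → ℂ) = 0) := by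
    intro ξ hξ
    rw [key, ← Lib.Helper78.omega_cfun_unit_iff hM hB χ hξ hχ]
    exact Lib.Helper78.val_cond_iff hBr hM χ ξ
  constructor
  · constructor
    · intro h0
      exact ⟨χ, hχ, (hv χ hχ).2 h0⟩
    · rintro ⟨ξ, hξ, h⟩
      exact (hv ξ hξ).1 h
  · constructor
    · intro h0 ξ hξ
      exact (hv ξ hξ).2 h0
    · intro h
      exact (hv χ hχ).1 (h χ hχ)

end Cfsg.Agent.S4426
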