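import Mathlib
import Cfsg.Statements.S4427
import Cfsg.Agent.Lib.Helper96.ProjIdem3
import Cfsg.Agent.Lib.Helper78.DefectZero
import Cfsg.Agent.Lib.Helper80.Inflation

set_option autoImplicit false

namespace Cfsg.Agent.S4427

open Cfsg Cfsg.Agent.Lib.Helper3 Cfsg.Agent.Lib.Helper96

theorem classInner_self_re_nonneg {G : Type*} [Group G] [Fintype G] (h : G → ℂ) :
    0 ≤ (classInner h h).re := by
  unfold classInner
  have : ∑ g : G, h g * (starRingEnd ℂ) (h g) = ((∑ g : G, Complex.normSq (h g) : ℝ) : ℂ) := by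
    push_cast
    exact Finset.sum_congr rfl fun g _ => Complex.mul_conj _
  rw [this, ← Complex.ofReal_natCast, ← Complex.ofReal_inv, ← Complex.ofReal_mul,
    Complex.ofReal_re]
  exact mul_nonneg (inv_nonneg.2 (Nat.cast_nonneg _))
    (Finset.sum_nonneg fun g _ => Complex.normSq_nonneg _)

theorem result {G : Type*} [Group G] [Finite G] (p q r a b c : ℕ) (hp : p.Prime) (hq : q.Prime) (hr : r.Prime) (hpq : p ≠ q) (hpr : p ≠ r) (hqr : q ≠ r) (hG : Nat.card G = p ^ a * q ^ b * r ^ c) (hcount : Nat.card {g : G // ¬ p ∣ orderOf g} = q ^ b * r ^ c) : ∃ N : Subgroup G, N.Normal ∧ Nat.card N = q ^ b * r ^ c := by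
  classical
  have := Fintype.ofFinite G
  obtain ⟨M, hM⟩ := Cfsg.Agent.Lib.Helper78.exists_isPModular p hp
  have : M.IsMaximal := hM.2.1
  have : Fact q.Prime := ⟨hq⟩
  have : Fact r.Prime := ⟨hr⟩
  obtain ⟨Q, hQ⟩ := Sylow.exists_subgroup_card_pow_prime (G := G) q (n := b)
    (by rw [hG]; exact Dvd.dvd.mul_right (Dvd.intro_left _ rfl) _)
  obtain ⟨R, hR⟩ := Sylow.exists_subgroup_card_pow_prime (G := G) r (n := c)
    (by rw [hG]; exact Dvd.intro_left _ rfl)
  have hpQ : ¬ p ∣ Nat.card Q := by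
    rw [hQ]; intro h
    exact hpq ((Nat.prime_dvd_prime_iff_eq hp hq).1 (hp.dvd_of_dvd_pow h))
  have hpR : ¬ p ∣ Nat.card R := by
    rw [hR]; intro h
    exact hpr ((Nat.prime_dvd_prime_iff_eq hp hr).1 (hp.dvd_of_dvd_pow h))
  have hcop : (Nat.card Q).Coprime (Nat.card R) := by
    rw [hQ, hR]; exact Nat.Coprime.pow _ _ ((Nat.coprime_primes hq hr).2 hqr)
  obtain ⟨f, hfc, hfv, hf1, n, hfn, hn⟩ := exists_proj_character M hM (a := a) Q R hpQ hpR hcop
    (by rw [hQ, hR, hG])
  set θ : G → ℂ := fun g => if p ∣ orderOf g then 0 else ((p ^ a : ℕ) : ℂ) with hθ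
  have hc : (Nat.card G : ℂ) ≠ 0 := by exact_mod_cast Nat.card_pos.ne'
  have h1 : classInner f θ = ((p ^ a : ℕ) : ℂ) := by
    have : classInner f θ = ((p ^ a : ℕ) : ℂ) * classInner f 1 := by
      unfold classInner
      rw [mul_left_comm]
      congr 1
      rw [Finset.mul_sum]
      refine Finset.sum_congr rfl fun g _ => ?_
      by_cases hg : p ∣ orderOf g
      · rw [hfv g hg]; simp
      · simp only [hθ, if_neg hg, Complex.conj_natCast, Pi.one_apply, map_one]
        ring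
    rw [this, hf1, mul_one]
  have h2 : classInner θ f = ((p ^ a : ℕ) : ℂ) := by
    rw [← classInner_conj_symm, h1, Complex.conj_natCast]
  have h3 : classInner θ θ = ((p ^ a : ℕ) : ℂ) := by
    unfold classInner
    have e1 : ∀ g : G, θ g * (starRingEnd ℂ) (θ g)
        = if ¬ p ∣ orderOf g then ((p ^ a : ℕ) : ℂ) * ((p ^ a : ℕ) : ℂ) else 0 := by
      intro g
      by_cases hg : p ∣ orderOf g
      · simp [hθ, hg]
      · simp [hθ, hg]
    simp only [e1]
    rw [← Finset.sum_filter, Finset.sum_const, nsmul_eq_mul]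
    have e2 : (Finset.univ.filter fun g : G => ¬ p ∣ orderOf g).card = q ^ b * r ^ c := by
      rw [← hcount, Nat.card_eq_fintype_card, Fintype.card_subtype]
    rw [e2, hG]
    have hq0 : ((q ^ b : ℕ) : ℂ) ≠ 0 := by exact_mod_cast (pow_pos hq.pos b).ne'
    have hr0 : ((r ^ c : ℕ) : ℂ) ≠ 0 := by exact_mod_cast (pow_pos hr.pos c).ne'
    have hp0 : ((p ^ a : ℕ) : ℂ) ≠ 0 := by exact_mod_cast (pow_pos hp.pos a).ne'
    simp only [Nat.cast_mul]
    field_simp
  have h4 : classInner (f - θ) (f - θ) = (n : ℂ) - ((p ^ a : ℕ) : ℂ) := by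
    rw [classInner_sub_left, classInner_sub_right, classInner_sub_right, hfn, h1, h2, h3]
    ring
  have h5 : p ^ a ≤ n := by
    have := classInner_self_re_nonneg (f - θ)
    rw [h4] at this
    simp only [Complex.sub_re, Complex.natCast_re] at this
    have : ((p ^ a : ℕ) : ℝ) ≤ (n : ℝ) := by linarith
    exact_mod_cast this
  have h6 : n = p ^ a := le_antisymm hn h5
  have h7 : f = θ := by
    have : f - θ = 0 := classInner_self_eq_zero (by rw [h4, h6, sub_self])
    exact sub_eq_zero.1 this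
  have hθc : IsCharacter G θ := h7 ▸ hfc
  refine ⟨Cfsg.Agent.Lib.Helper80.charKer θ hθc, Cfsg.Agent.Lib.Helper80.charKer_normal hθc, ?_⟩
  rw [← Cfsg.Agent.Lib.Helper80.card_charKer hθc, ← hcount]
  apply Nat.card_congr
  apply Equiv.subtypeEquivRight
  intro g
  have hp0 : ((p ^ a : ℕ) : ℂ) ≠ 0 := by exact_mod_cast (pow_pos hp.pos a).ne'
  have h11 : θ 1 = ((p ^ a : ℕ) : ℂ) := by
    simp only [hθ, orderOf_one]
    rw [if_neg]
    exact fun h => hp.one_lt.ne' (Nat.dvd_one.1 h)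
  rw [h11]
  by_cases hg : p ∣ orderOf g
  · simp only [hθ, if_pos hg]
    exact ⟨fun h => absurd h.symm hp0, fun h => absurd hg h⟩
  · simp only [hθ, if_neg hg]
    exact ⟨fun _ => hg, fun _ => trivial⟩

end Cfsg.Agent.S4427
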