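import Cfsg.Statements.S4437
import Cfsg.Agent.Lib.Helper16.RootDefect
-- import your own Cfsg.Agent.* helpers here

set_option autoImplicit false
open Cfsg Cfsg.Agent.Lib.Helper78 Cfsg.Agent.Lib.Helper16 Cfsg.Agent.Lib

namespace Cfsg.Agent.S4437

/-- Let P be a p-subgroup of the finite group G, H = P·C_G(P), and b a block of H (relative to a maximal ideal M of the algebraic integers containing p) having P as a defect group; let B be the block of G induced by b. Let T be the stabilizer of b in N_G(P): the elements g of N_G(P) such that the g-conjugate of every member of b is again a member of b. Then B has defect group P if and only if p does not divide the index of H in T. -/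
theorem result {G : Type*} [Group G] [Fintype G] (p : ℕ) [Fact p.Prime] (M : Ideal Cfsg.AlgInt) (hM : Cfsg.IsPModular p M) (P : Subgroup G) (hP : IsPGroup p P) (H : Subgroup G) [Fintype H] (hH : H = P ⊔ Subgroup.centralizer (P : Set G)) (b : Set (Cfsg.IrrCharacter H)) (hb : Cfsg.IsPBlock M b) (hbP : Cfsg.IsDefectGroup p M b (P.subgroupOf H)) (B : Set (Cfsg.IrrCharacter G)) (hind : Cfsg.IsInducedBlock M H b B) (T : Subgroup G) (hT : ∀ g : G, g ∈ T ↔ (g ∈ Subgroup.normalizer (P : Set G) ∧ ∀ θ ∈ b, ∀ θ' : Cfsg.IrrCharacter H, (∀ h h' : H, (h' : G) = g * h * g⁻¹ → (θ' : H → ℂ) h' = (θ : H → ℂ) h) → θ' ∈ b)) : Cfsg.IsDefectGroup p M B P ↔ ¬ p ∣ H.relIndex T := by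
  classical
  haveI : M.IsMaximal := hM.2.1
  haveI : CharP (FM M) p := charP_FM hM
  subst hH
  have hPH : P ≤ P ⊔ Subgroup.centralizer (P : Set G) := le_sup_left
  have hCH : Subgroup.centralizer (P : Set G) ≤ P ⊔ Subgroup.centralizer (P : Set G) := le_sup_right
  have hHN : P ⊔ Subgroup.centralizer (P : Set G) ≤ Subgroup.normalizer (P : Set G) :=
    sup_le Subgroup.le_normalizer (Subgroup.centralizer_le_normalizer _)
  have hnorm : ((P ⊔ Subgroup.centralizer (P : Set G)).subgroupOf
      (Subgroup.normalizer (P : Set G))).Normal := by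
    rw [Subgroup.normal_subgroupOf_iff_le_normalizer hHN]
    intro n hn
    have hn' : n⁻¹ ∈ Subgroup.normalizer (P : Set G) := inv_mem hn
    have key : ∀ m ∈ Subgroup.normalizer (P : Set G), ∀ x ∈ P ⊔ Subgroup.centralizer (P : Set G),
        m * x * m⁻¹ ∈ P ⊔ Subgroup.centralizer (P : Set G) := by
      intro m hm x hx
      have h1 : (P ⊔ Subgroup.centralizer (P : Set G)).map (MulAut.conj m).toMonoidHom ≤
          P ⊔ Subgroup.centralizer (P : Set G) := by
        rw [Subgroup.map_sup]
        apply sup_le_sup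
        · rintro _ ⟨y, hy, rfl⟩
          exact (Subgroup.mem_normalizer_iff.1 hm y).1 hy
        · rintro _ ⟨y, hy, rfl⟩
          exact conj_mem_centralizer_of_mem_normalizer hm hy
      exact h1 ⟨x, hx, rfl⟩
    rw [Subgroup.mem_normalizer_iff]
    intro x
    constructor
    · exact key n hn x
    · intro hx
      have := key n⁻¹ hn' _ hx
      simpa [mul_assoc] using this
  exact isDefectGroup_iff_relIndex M p hM hP _ hPH hCH hHN hnorm hbP hind T hT

end Cfsg.Agent.S4437
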