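import Cfsg.Statements.S4446
import Cfsg.Agent.Lib.Helper15.CyclicGl

set_option autoImplicit false
open Cfsg

namespace Cfsg.Agent.S4446

open Cfsg.Agent.Lib Cfsg.Agent.Lib.Helper15

theorem sign_unique {C : Type*} [Group C] {β β' : C → ℂ} (hβ : IsIrrCharacter C β)
    (hβ' : IsIrrCharacter C β') {ε ε' : ℤ} (hε : ε = 1 ∨ ε = -1) (hε' : ε' = 1 ∨ ε' = -1)
    (h : ∀ c, (ε' : ℂ) * β' c = (ε : ℂ) * β c) : ε' = ε ∧ β' = β := by
  have h1 := h 1
  rw [Helper80.char_one_eq_charDegree (irr_char hβ), Helper80.char_one_eq_charDegree (irr_char hβ')]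
    at h1
  have hp := Helper80.charDegree_pos_of_irr hβ
  have hp' := Helper80.charDegree_pos_of_irr hβ'
  have h2 : ε' * (charDegree β' : ℤ) = ε * (charDegree β : ℤ) := by exact_mod_cast h1
  have h3 : ε' = ε := by
    rcases hε with rfl | rfl <;> rcases hε' with rfl | rfl
    · rfl
    · omega
    · omega
    · rfl
  refine ⟨h3, ?_⟩
  subst h3
  funext c
  have hne : (ε' : ℂ) ≠ 0 := by
    rcases hε with rfl | rfl <;> norm_num
  exact mul_left_cancel₀ hne (h c)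

/-- Let the finite group Γ be generated by a normal subgroup G and a cyclic subgroup S of coprime orders, C = G ⊓ C(S), and let χ be an S-invariant irreducible character of G with canonical extension χ̂ to Γ (the extension whose determinantal order is coprime to the order of S). Then there are exactly one irreducible character β of C and one sign ε such that χ̂(c s) = ε β(c) for every c ∈ C and every generator s of S; this β is a constituent of the restriction of χ to C; distinct S-invariant χ give distinct β; and every irreducible character of C arises in this way. -/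
theorem result {Γ : Type*} [Group Γ] [Fintype Γ] (G S : Subgroup Γ) [Fintype G] (hnorm : ∀ s ∈ S, ∀ g ∈ G, s * g * s⁻¹ ∈ G) (hcop : (Nat.card G).Coprime (Nat.card S)) (htop : G ⊔ S = ⊤) (hcyc : IsCyclic S) (C : Subgroup Γ) [Fintype C] (hC : C = G ⊓ Subgroup.centralizer (S : Set Γ)) (hCG : C ≤ G) : (∀ (χ : Cfsg.IrrCharacter G) (χh : Cfsg.IrrCharacter Γ), (∀ s ∈ S, ∀ g g' : G, (g' : Γ) = s * g * s⁻¹ → (χ : G → ℂ) g' = (χ : G → ℂ) g) → (∀ g : G, (χh : Γ → ℂ) g = (χ : G → ℂ) g) → (Cfsg.detOrder (χh : Γ → ℂ)).Coprime (Nat.card S) → (∃! βε : Cfsg.IrrCharacter C × ℤ, (βε.2 = 1 ∨ βε.2 = -1) ∧ ∀ c : C, ∀ s : Γ, Subgroup.zpowers s = S → (χh : Γ → ℂ) ((c : Γ) * s) = (βε.2 : ℂ) * (βε.1 : C → ℂ) c) ∧ ∀ β : Cfsg.IrrCharacter C, ∀ ε : ℤ, (ε = 1 ∨ ε = -1) → (∀ c : C, ∀ s : Γ, Subgroup.zpowers s = S → (χh : Γ → ℂ) ((c : Γ) * s) = (ε : ℂ) * (β : C → ℂ) c) → Cfsg.classInner (fun c : C => (χ : G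 → ℂ) ⟨c, hCG c.2⟩) (β : C → ℂ) ≠ 0) ∧ (∀ (χ χ' : Cfsg.IrrCharacter G) (χh χh' : Cfsg.IrrCharacter Γ), (∀ s ∈ S, ∀ g g' : G, (g' : Γ) = s * g * s⁻¹ → (χ : G → ℂ) g' = (χ : G → ℂ) g) → (∀ s ∈ S, ∀ g g' : G, (g' : Γ) = s * g * s⁻¹ → (χ' : G → ℂ) g' = (χ' : G → ℂ) g) → (∀ g : G, (χh : Γ → ℂ) g = (χ : G → ℂ) g) → (∀ g : G, (χh' : Γ → ℂ) g = (χ' : G → ℂ) g) → (Cfsg.detOrder (χh : Γ → ℂ)).Coprime (Nat.card S) → (Cfsg.detOrder (χh' : Γ → ℂ)).Coprime (Nat.card S) → ∀ β : Cfsg.IrrCharacter C, ∀ ε ε' : ℤ, (ε = 1 ∨ ε = -1) → (ε' = 1 ∨ ε' = -1) → (∀ c : C, ∀ s : Γ, Subgroup.zpowers s = S → (χh : Γ → ℂ) ((c : Γ) * s) = (ε : ℂ) * (β : C → ℂ) c) → (∀ c : C, ∀ s : Γ, Subgroup.zpowers s = S → (χh' : Γ → ℂ) ((c : Γ) * s) = (ε' : ℂ) * (β : C → ℂ) c) → χ = χ') ∧ (∀ β : Cfsg.IrrCharacter C, ∃ (χ : Cfsg.IrrCharacter G) (χh : Cfsg.IrrCharacter Γ) (ε : ℤ), (∀ s ∈ S, ∀ g g' : G, (g' : Γ) = s * g * s⁻¹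 → (χ : G → ℂ) g' = (χ : G → ℂ) g) ∧ (∀ g : G, (χh : Γ → ℂ) g = (χ : G → ℂ) g) ∧ (Cfsg.detOrder (χh : Γ → ℂ)).Coprime (Nat.card S) ∧ (ε = 1 ∨ ε = -1) ∧ ∀ c : C, ∀ s : Γ, Subgroup.zpowers s = S → (χh : Γ → ℂ) ((c : Γ) * s) = (ε : ℂ) * (β : C → ℂ) c) := by
  classical
  have h : CycSetup G S C := ⟨hnorm, hcop, htop, hC⟩
  obtain ⟨s₀, hs₀⟩ := S.isCyclic_iff_exists_zpowers_eq_top.mp hcyc
  have hs₀S : s₀ ∈ S := hs₀ ▸ Subgroup.mem_zpowers s₀
  have mk : ∀ (χ : IrrCharacter G) (χh : IrrCharacter Γ),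
      (∀ g : G, (χh : Γ → ℂ) g = (χ : G → ℂ) g) →
      (detOrder (χh : Γ → ℂ)).Coprime (Nat.card S) → IsCanon G S (χh : Γ → ℂ) := by
    intro χ χh hext hdet
    refine ⟨χh.2, ?_, hdet⟩
    rw [show (fun g : G => (χh : Γ → ℂ) g) = χ from funext hext]
    exact χ.2
  have hεne : ∀ ε : ℤ, (ε = 1 ∨ ε = -1) → (ε : ℂ) ≠ 0 := by
    rintro ε (rfl | rfl) <;> norm_num
  -- injectivity, in a convenient form
  have hinj : ∀ (χh χh' : Γ → ℂ), IsCanon G S χh → IsCanon G S χh' →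
      ∀ β : C → ℂ, IsIrrCharacter C β → ∀ ε ε' : ℤ, (ε = 1 ∨ ε = -1) → (ε' = 1 ∨ ε' = -1) →
      (∀ c : C, χh ((c : Γ) * s₀) = (ε : ℂ) * β c) →
      (∀ c : C, χh' ((c : Γ) * s₀) = (ε' : ℂ) * β c) → χh = χh' := by
    intro χh χh' hc hc' β hβ ε ε' hε hε' hv hv'
    have h1 := h.inner_gen hc hc' hs₀
    rw [show (fun c : C => χh ((c : Γ) * s₀)) = (ε : ℂ) • β from funext hv,
      show (fun c : C => χh' ((c : Γ) * s₀)) = (ε' : ℂ) • β from funext hv',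
      classInner_smul_left, classInner_smul_right, irr_inner_self hβ] at h1
    by_contra hne
    rw [if_neg hne] at h1
    have h2 : (starRingEnd ℂ) (ε' : ℂ) ≠ 0 := by
      rw [map_intCast]; exact hεne ε' hε'
    exact (mul_ne_zero (hεne ε hε) (mul_ne_zero h2 one_ne_zero)) h1
  refine ⟨?_, ?_, ?_⟩
  · intro χ χh hinv hext hdet
    have hc := mk χ χh hext hdet
    obtain ⟨β, ε, hβ, hε, hval⟩ := h.exists_beta hc hs₀
    constructor
    · refine ⟨(⟨β, hβ⟩, ε), ⟨hε, fun c s hs => ?_⟩, ?_⟩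
      · rw [h.canon_gen hc c.2 hs₀ hs]
        exact hval c
      · rintro ⟨β', ε'⟩ ⟨hε', hval'⟩
        obtain ⟨h1, h2⟩ := sign_unique hβ β'.2 hε hε'
          (fun c => (hval' c s₀ hs₀).symm.trans (hval c))
        exact Prod.ext (Subtype.ext h2) h1
    · intro β' ε' hε' hval'
      have := h.beta_constituent hc hs₀S β'.2 (hεne ε' hε') (fun c => hval' c s₀ hs₀)
      rw [show (fun c : C => (χ : G → ℂ) ⟨c, hCG c.2⟩) = fun c : C => (χh : Γ → ℂ) (c : Γ) from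
        funext (fun c => (hext ⟨c, hCG c.2⟩).symm)]
      exact this
  · intro χ χ' χh χh' _ _ hext hext' hdet hdet' β ε ε' hε hε' hv hv'
    have h1 := hinj χh χh' (mk χ χh hext hdet) (mk χ' χh' hext' hdet') β β.2 ε ε' hε hε'
      (fun c => hv c s₀ hs₀) (fun c => hv' c s₀ hs₀)
    apply Subtype.ext
    funext g
    rw [← hext, ← hext', h1]
  · -- surjectivity by counting
    have hex : ∀ χ : {χ : IrrCharacter G // InvUnder G S (χ : G → ℂ)},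
        ∃ (χh : Γ → ℂ) (β : C → ℂ) (ε : ℤ), IsCanon G S χh ∧ (∀ g : G, χh g = (χ.1 : G → ℂ) g) ∧
          IsIrrCharacter C β ∧ (ε = 1 ∨ ε = -1) ∧ ∀ c : C, χh ((c : Γ) * s₀) = (ε : ℂ) * β c := by
      intro χ
      obtain ⟨χh, hc, hext⟩ := h.exists_canon χ.1.2 χ.2
      obtain ⟨β, ε, hβ, hε, hval⟩ := h.exists_beta hc hs₀
      exact ⟨χh, β, ε, hc, hext, hβ, hε, hval⟩
    choose X B E hX1 hX2 hX3 hX4 hX5 using hex
    let Φ : {χ : IrrCharacter G // InvUnder G S (χ : G → ℂ)} → IrrCharacter C :=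
      fun χ => ⟨B χ, hX3 χ⟩
    have hΦinj : Function.Injective Φ := by
      intro χ χ' hχχ'
      have hB : B χ = B χ' := congrArg Subtype.val hχχ'
      have h1 := hinj (X χ) (X χ') (hX1 χ) (hX1 χ') (B χ) (hX3 χ) (E χ) (E χ') (hX4 χ) (hX4 χ')
        (hX5 χ) (by rw [hB]; exact hX5 χ')
      apply Subtype.ext
      apply Subtype.ext
      funext g
      rw [← hX2, ← hX2, h1]
    have hsolv : Group.IsSolvable S := by
      have := hcyc
      exact Group.isSolvable_of_comm (fun a b => IsCyclic.commGroup.mul_comm a b)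
    have hcard : Nat.card {χ : IrrCharacter G // InvUnder G S (χ : G → ℂ)}
        = Nat.card (IrrCharacter C) := by
      rw [card_inv_eq S hsolv _ G rfl hnorm hcop, hC]
    have hbij := hΦinj.bijective_of_nat_card_le hcard.ge
    intro β
    obtain ⟨χ, hχ⟩ := hbij.2 β
    refine ⟨χ.1, ⟨X χ, (hX1 χ).irr⟩, E χ, χ.2, hX2 χ, (hX1 χ).det, hX4 χ, fun c s hs => ?_⟩
    change X χ ((c : Γ) * s) = _
    rw [h.canon_gen (hX1 χ) c.2 hs₀ hs, hX5 χ c, ← hχ]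

end Cfsg.Agent.S4446
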