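import Cfsg.Statements.S4448
import Cfsg.Agent.Lib.Helper81.DualAct

set_option autoImplicit false
open Cfsg

namespace Cfsg.Agent.S4448

open Cfsg.Agent.Lib Cfsg.Agent.Lib.Helper15 Cfsg.Agent.Lib.Helper81 Cfsg.Agent.S4447
open scoped commutatorElement

/-- one step: abelian quotient -/
theorem step {Γ : Type*} [Group Γ] [Fintype Γ] (G S M : Subgroup Γ) [Fintype G] [Fintype M]
    (hnorm : ∀ s ∈ S, ∀ g ∈ G, s * g * s⁻¹ ∈ G) (hMG : M ≤ G)
    (hMn : ∀ g ∈ G, ∀ n ∈ M, g * n * g⁻¹ ∈ M) (hMS : ∀ s ∈ S, ∀ n ∈ M, s * n * s⁻¹ ∈ M)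
    (hab : ∀ a ∈ G, ∀ b ∈ G, ⁅a, b⁆ ∈ M)
    (hcop : (M.relIndex G).Coprime (Nat.card S)) (φ : IrrCharacter M)
    (hinv : InvUnder M S (φ : M → ℂ)) :
    ∃ χ : IrrCharacter G, classInner (resFun hMG (χ : G → ℂ)) (φ : M → ℂ) ≠ 0 ∧
      InvUnder G S (χ : G → ℂ) := by
  classical
  have hnormal : (M.subgroupOf G).Normal := by
    constructor
    intro d hd b
    rw [Subgroup.mem_subgroupOf] at hd ⊢
    exact hMn b b.2 d hd
  have hcomm : commutator G ≤ M.subgroupOf G := by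
    rw [commutator_def, Subgroup.commutator_le]
    intro a _ b _
    rw [Subgroup.mem_subgroupOf]
    exact hab a a.2 b b.2
  let instG := conjAct G S hnorm
  let φ₀ : S →* MulAut G := MulDistribMulAction.toMulAut S G
  have hφ₀ : ∀ (s : S) (g : G), ((φ₀ s g : G) : Γ) = s * g * (s : Γ)⁻¹ := fun s g => rfl
  have hM' : ∀ a, ∀ n ∈ M.subgroupOf G, φ₀ a n ∈ M.subgroupOf G := by
    intro a n hn
    rw [Subgroup.mem_subgroupOf] at hn ⊢
    rw [hφ₀]
    exact hMS a a.2 n hn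
  have hcard := card_dual (M.subgroupOf G) hcomm
  have hfin : Finite ((G ⧸ M.subgroupOf G) →* ℂˣ) :=
    Nat.finite_of_card_ne_zero (by rw [hcard]; exact Subgroup.index_ne_zero_of_finite)
  let fS : S →* Equiv.Perm (IrrCharacter G) :=
    @MulAction.toPermHom S (IrrCharacter G) _ (@irrMulAction S G _ _ _ (conjAct G S hnorm))
  have hfS : ∀ a θ, fS a θ = tw G S hnorm a θ := fun a θ => rfl
  let fK : ((G ⧸ M.subgroupOf G) →* ℂˣ) →* Equiv.Perm (IrrCharacter G) :=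
    @MulAction.toPermHom _ (IrrCharacter G) _ (dualMulAction (M.subgroupOf G))
  have hfK : ∀ l χ (g : G), ((fK l χ : IrrCharacter G) : G → ℂ) g
      = (l (g : G ⧸ M.subgroupOf G) : ℂ) * (χ : G → ℂ) g := fun l χ g => rfl
  have hφS : ∀ a : S, tw M S hMS a φ = φ := (tw_fixed_iff M S hMS φ).2 hinv
  obtain ⟨χ, hχY, hχ⟩ := glauberman_set (dualAut (quotAut φ₀ (M.subgroupOf G) hM'))
    (by
      rw [hcard]
      exact hcop.symm) (Or.inr (Group.isSolvable_of_comm (fun a b => mul_comm a b))) fK fS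
    (by
      intro a l χ
      apply Subtype.ext
      funext g
      rw [hfS, hfS, tw_apply, hfK, hfK, tw_apply, dualAut_apply, quotAut_symm_mk]
      congr 3
      refine congrArg _ (Subtype.ext ?_)
      rw [hφ₀]
      simp)
    {χ | classInner (resFun hMG (χ : G → ℂ)) (φ : M → ℂ) ≠ 0}
    (exists_irr_over hMG φ)
    (by
      intro l χ hχ
      have e : resFun hMG ((fK l χ : IrrCharacter G) : G → ℂ) = resFun hMG (χ : G → ℂ) := by
        funext m
        rw [resFun_apply, resFun_apply, hfK]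
        have : ((⟨(m : Γ), hMG m.2⟩ : G) : G ⧸ M.subgroupOf G) = 1 :=
          (QuotientGroup.eq_one_iff _).2 (Subgroup.mem_subgroupOf.2 m.2)
        rw [this, map_one]
        simp
      rw [Set.mem_ofPred_eq, e]
      exact hχ)
    (by
      intro a χ hχ
      rw [hfS]
      have h := inner_tw hMG S hnorm hMS a χ φ
      rw [hφS] at h
      rw [Set.mem_ofPred_eq, h]
      exact hχ)
    (by
      intro χ₁ h₁ χ₂ h₂
      have := Fintype.ofFinite (M.subgroupOf G)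
      have h1' : classInner (fun n : M.subgroupOf G => (χ₁ : G → ℂ) n) (downFun M G φ) ≠ 0 := by
        rw [← downFun_resFun hMG, classInner_downFun hMG]; exact h₁
      have h2' : classInner (fun n : M.subgroupOf G => (χ₂ : G → ℂ) n) (downFun M G φ) ≠ 0 := by
        rw [← downFun_resFun hMG, classInner_downFun hMG]; exact h₂
      have h3 : classInner (fun n : M.subgroupOf G => (χ₂ : G → ℂ) n)
          (fun n : M.subgroupOf G => (χ₁ : G → ℂ) n) ≠ 0 := by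
        refine inner_ne_zero_of_constituent LinearMap.id (fun γ hγ => hγ)
          (char_restrict (irr_char χ₂.2) _) (irr_downFun hMG φ.2) h2'
          (char_restrict (irr_char χ₁.2) _) ?_
        rw [LinearMap.id_apply, inner_comm_of_char (irr_char (irr_downFun hMG φ.2))
          (char_restrict (irr_char χ₁.2) _)]
        exact h1'
      obtain ⟨l, hl, hl2⟩ := exists_linear_mul (M.subgroupOf G) hcomm χ₁.2 χ₂.2 h3
      refine ⟨QuotientGroup.lift (M.subgroupOf G) l hl, ?_⟩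
      apply Subtype.ext
      funext g
      rw [hfK, hl2]
      rfl)
  exact ⟨χ, hχY, (tw_fixed_iff G S hnorm χ).1 hχ⟩

/-- conjugation by an element normalising `G` preserves `⁅G, G⁆` -/
theorem conj_mem_commutator {Γ : Type*} [Group Γ] (G : Subgroup Γ) (x : Γ)
    (hx : ∀ g ∈ G, x * g * x⁻¹ ∈ G) : ∀ y ∈ ⁅G, G⁆, x * y * x⁻¹ ∈ ⁅G, G⁆ := by
  have h : ⁅G, G⁆ ≤ (⁅G, G⁆ : Subgroup Γ).comap (MulAut.conj x).toMonoidHom := by
    rw [Subgroup.commutator_le]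
    intro a ha b hb
    rw [Subgroup.mem_comap, map_commutatorElement]
    exact Subgroup.commutator_mem_commutator (hx a ha) (hx b hb)
  intro y hy
  exact h hy

theorem conj_mem_sup {Γ : Type*} [Group Γ] (A B : Subgroup Γ) (x : Γ)
    (hA : ∀ g ∈ A, x * g * x⁻¹ ∈ A) (hB : ∀ g ∈ B, x * g * x⁻¹ ∈ B) :
    ∀ y ∈ A ⊔ B, x * y * x⁻¹ ∈ A ⊔ B := by
  have h : A ⊔ B ≤ (A ⊔ B : Subgroup Γ).comap (MulAut.conj x).toMonoidHom := by
    apply sup_le
    · intro a ha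
      exact (le_sup_left : A ≤ A ⊔ B) (hA a ha)
    · intro a ha
      exact (le_sup_right : B ≤ A ⊔ B) (hB a ha)
  intro y hy
  exact h hy

/-- relative solvability of `G` over `N`, in a form inherited by subgroups -/
def Sol {Γ : Type*} [Group Γ] (G N : Subgroup Γ) : Prop :=
  ∀ H : Subgroup Γ, N ≤ H → H ≤ G → H ≤ N ⊔ ⁅H, H⁆ → H ≤ N

theorem sol_of_isSolvable {Γ : Type*} [Group Γ] (G N : Subgroup Γ)
    [hNn : (N.subgroupOf G).Normal] (hsolv : Group.IsSolvable (G ⧸ N.subgroupOf G)) : Sol G N := by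
  intro H hNH hHG hH
  let f : G →* G ⧸ N.subgroupOf G := QuotientGroup.mk' (N.subgroupOf G)
  let Hb : Subgroup (G ⧸ N.subgroupOf G) := (H.subgroupOf G).map f
  let W : Subgroup Γ := ((⁅Hb, Hb⁆ : Subgroup _).comap f).map G.subtype
  have hNW : N ≤ W := by
    intro n hn
    refine ⟨⟨n, hHG (hNH hn)⟩, ?_, rfl⟩
    have : f ⟨n, hHG (hNH hn)⟩ = 1 :=
      (QuotientGroup.eq_one_iff _).2 (Subgroup.mem_subgroupOf.2 hn)
    rw [SetLike.mem_coe, Subgroup.mem_comap, this]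
    exact Subgroup.one_mem _
  have hCW : ⁅H, H⁆ ≤ W := by
    rw [Subgroup.commutator_le]
    intro a ha b hb
    refine ⟨⁅(⟨a, hHG ha⟩ : G), ⟨b, hHG hb⟩⁆, ?_, rfl⟩
    rw [SetLike.mem_coe, Subgroup.mem_comap, map_commutatorElement]
    exact Subgroup.commutator_mem_commutator
      ⟨⟨a, hHG ha⟩, Subgroup.mem_subgroupOf.2 ha, rfl⟩ ⟨⟨b, hHG hb⟩, Subgroup.mem_subgroupOf.2 hb, rfl⟩
  have hHW : H ≤ W := hH.trans (sup_le hNW hCW)
  have hle : Hb ≤ ⁅Hb, Hb⁆ := by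
    rintro _ ⟨x, hx, rfl⟩
    obtain ⟨y, hy, hyx⟩ := hHW (Subgroup.mem_subgroupOf.1 hx)
    have : y = x := Subtype.ext hyx
    rw [← this]
    exact hy
  have hbot : Hb = ⊥ := by
    by_contra hne
    exact absurd hle (not_le_of_gt (Group.IsSolvable.commutator_lt_of_ne_bot hne))
  intro h hh
  have h1 : f ⟨h, hHG hh⟩ ∈ Hb := ⟨⟨h, hHG hh⟩, Subgroup.mem_subgroupOf.2 hh, rfl⟩
  rw [hbot, Subgroup.mem_bot] at h1
  exact Subgroup.mem_subgroupOf.1 ((QuotientGroup.eq_one_iff _).1 h1)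

theorem main {Γ : Type*} [Group Γ] [Fintype Γ] (S N : Subgroup Γ) [Fintype N]
    (hNS : ∀ s ∈ S, ∀ n ∈ N, s * n * s⁻¹ ∈ N) (θ : IrrCharacter N)
    (hinv : InvUnder N S (θ : N → ℂ)) :
    ∀ (n : ℕ) (G : Subgroup Γ), Nat.card G = n → ∀ (hNG : N ≤ G),
      (∀ g ∈ G, ∀ x ∈ N, g * x * g⁻¹ ∈ N) →
      (∀ s ∈ S, ∀ g ∈ G, s * g * s⁻¹ ∈ G) →
      (N.relIndex G).Coprime (Nat.card S) → Sol G N →
      ∃ χ : IrrCharacter G, classInner (resFun hNG (χ : G → ℂ)) (θ : N → ℂ) ≠ 0 ∧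
        InvUnder G S (χ : G → ℂ) := by
  intro n
  induction n using Nat.strong_induction_on with
  | _ n ih =>
    intro G hn hNG hNn hnorm hcop hsol
    by_cases hGN : G ≤ N
    · obtain rfl : N = G := le_antisymm hNG hGN
      refine ⟨θ, ?_, hinv⟩
      have : resFun hNG (θ : N → ℂ) = θ := rfl
      rw [this, irr_inner_self θ.2]
      exact one_ne_zero
    · have hCG : ⁅G, G⁆ ≤ G := by
        rw [Subgroup.commutator_le]
        intro a ha b hb
        rw [commutatorElement_def]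
        exact G.mul_mem (G.mul_mem (G.mul_mem ha hb) (G.inv_mem ha)) (G.inv_mem hb)
      have hNM : N ≤ N ⊔ ⁅G, G⁆ := le_sup_left
      have hMG : N ⊔ ⁅G, G⁆ ≤ G := sup_le hNG hCG
      have hlt : Nat.card (N ⊔ ⁅G, G⁆ : Subgroup Γ) < n := by
        by_contra hge
        rw [not_lt, ← hn] at hge
        have := Subgroup.eq_of_le_of_card_ge hMG hge
        exact hGN (hsol G hNG le_rfl this.ge)
      have hGG : ∀ s ∈ G, ∀ g ∈ G, s * g * s⁻¹ ∈ G := fun s hs g hg =>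
        G.mul_mem (G.mul_mem hs hg) (G.inv_mem hs)
      have hMn : ∀ g ∈ G, ∀ x ∈ N ⊔ ⁅G, G⁆, g * x * g⁻¹ ∈ N ⊔ ⁅G, G⁆ := fun g hg =>
        conj_mem_sup _ _ g (hNn g hg) (conj_mem_commutator G g (hGG g hg))
      have hMS : ∀ g ∈ S, ∀ x ∈ N ⊔ ⁅G, G⁆, g * x * g⁻¹ ∈ N ⊔ ⁅G, G⁆ := fun g hg =>
        conj_mem_sup _ _ g (hNS g hg) (conj_mem_commutator G g (hnorm g hg))
      have hmul := Subgroup.relIndex_mul_relIndex N (N ⊔ ⁅G, G⁆) G hNM hMG
      have := Fintype.ofFinite (N ⊔ ⁅G, G⁆ : Subgroup Γ)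
      have := Fintype.ofFinite G
      obtain ⟨φ, hφ1, hφ2⟩ := ih _ hlt (N ⊔ ⁅G, G⁆) rfl hNM (fun g hg => hNn g (hMG hg)) hMS
        (Nat.Coprime.coprime_dvd_left ⟨_, hmul.symm⟩ hcop)
        (fun H h1 h2 h3 => hsol H h1 (h2.trans hMG) h3)
      obtain ⟨χ, hχ1, hχ2⟩ := step G S (N ⊔ ⁅G, G⁆) hnorm hMG hMn hMS
        (fun a ha b hb => (le_sup_right : ⁅G, G⁆ ≤ N ⊔ ⁅G, G⁆)
          (Subgroup.commutator_mem_commutator ha hb))
        (Nat.Coprime.coprime_dvd_left ⟨_, (mul_comm _ _).trans hmul |>.symm⟩ hcop) φ hφ2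
      refine ⟨χ, ?_, hχ2⟩
      exact inner_ne_zero_of_constituent
        ({ toFun := resFun hNM, map_add' := fun _ _ => rfl, map_smul' := fun _ _ => rfl } :
          ((N ⊔ ⁅G, G⁆ : Subgroup Γ) → ℂ) →ₗ[ℂ] (N → ℂ))
        (fun γ hγ => char_resFun hNM hγ) (char_resFun hMG (irr_char χ.2)) φ.2 hχ1
        (irr_char θ.2) hφ1

/-- Inside a finite group Γ let S normalise G and also normalise a normal subgroup N of G, with the order of S coprime to the index of N in G and G/N solvable. Then for every S-invariant irreducible character ϑ of N, the induced character ϑ^G has an S-invariant irreducible constituent. -/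
theorem result {Γ : Type*} [Group Γ] [Fintype Γ] (G S N : Subgroup Γ) [Fintype G] [Fintype N] (hnorm : ∀ s ∈ S, ∀ g ∈ G, s * g * s⁻¹ ∈ G) (hNG : N ≤ G) [hNn : (N.subgroupOf G).Normal] (hNS : ∀ s ∈ S, ∀ n ∈ N, s * n * s⁻¹ ∈ N) (hcop : (N.relIndex G).Coprime (Nat.card S)) (hsolv : Group.IsSolvable (G ⧸ N.subgroupOf G)) (θ : Cfsg.IrrCharacter N) (hinv : (∀ s ∈ S, ∀ g g' : N, (g' : Γ) = s * g * s⁻¹ → (θ : N → ℂ) g' = (θ : N → ℂ) g)) : ∃ χ : Cfsg.IrrCharacter G, Cfsg.classInner (fun n : N => (χ : G → ℂ) ⟨n, hNG n.2⟩) (θ : N → ℂ) ≠ 0 ∧ (∀ s ∈ S, ∀ g g' : G, (g' : Γ) = s * g * s⁻¹ → (χ : G → ℂ) g' = (χ : G → ℂ) g) := by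
  have hNn' : ∀ g ∈ G, ∀ n ∈ N, g * n * g⁻¹ ∈ N := by
    intro g hg n hn
    exact Subgroup.mem_subgroupOf.1
      (hNn.conj_mem ⟨n, hNG hn⟩ (Subgroup.mem_subgroupOf.2 hn) ⟨g, hg⟩)
  exact main S N hNS θ hinv _ G rfl hNG hNn' hnorm hcop (sol_of_isSolvable G N hsolv)

end Cfsg.Agent.S4448
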