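import Cfsg.Statements.S4455
import Cfsg.Agent.S4456
import Cfsg.Agent.S0867
import Cfsg.Agent.Lib.Helper15.CoprimeCount

set_option autoImplicit false
open Cfsg
open Cfsg.Agent.Lib.Lead Cfsg.Agent.Lib.Helper15 Cfsg.Agent.Lib.Helper80 Cfsg.Agent.Lib.Helper81

namespace Cfsg.Agent.S4455

/-- Fix a prime p and a finite group G. Let s be the sum of χ(1)² over the irreducible characters χ of G whose degree is not divisible by p and whose determinantal order o(χ) is not divisible by p. Then the order of O^p(G), the subgroup generated by the elements of order prime to p, is congruent to s modulo p. -/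
theorem result {G : Type*} [Group G] [Finite G] (p : ℕ) (hp : p.Prime) : (Nat.card (Cfsg.pResidual p G) : ℤ) ≡ (∑ᶠ χ ∈ {χ : Cfsg.IrrCharacter G | ¬ p ∣ Cfsg.charDegree (χ : G → ℂ) ∧ ¬ p ∣ Cfsg.detOrder (χ : G → ℂ)}, (Cfsg.charDegree (χ : G → ℂ) : ℤ) ^ 2) [ZMOD p] := by
  have : Fact p.Prime := ⟨hp⟩
  classical
  set N := pResidual p G with hN
  let P : Sylow p G := default
  obtain ⟨k, hk⟩ := index_pResidual (p := p) (G := G)
  have hsup : N ⊔ (P : Subgroup G) = ⊤ := by
    rw [← Subgroup.index_eq_one]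
    have h1 : (N ⊔ (P : Subgroup G)).index ∣ p ^ k := hk ▸ Subgroup.index_dvd_of_le le_sup_left
    have h2 : (N ⊔ (P : Subgroup G)).index ∣ (P : Subgroup G).index :=
      Subgroup.index_dvd_of_le le_sup_right
    have h3 : (p ^ k).Coprime (P : Subgroup G).index :=
      Nat.Coprime.pow_left _ ((Nat.Prime.coprime_iff_not_dvd hp).mpr P.not_dvd_index)
    exact Nat.eq_one_of_dvd_coprimes h3 h1 h2
  let act : MulAction P (IrrCharacter N) :=
    { smul := fun g θ => ⟨cj N (g : G)⁻¹ θ.1, irr_cj N _ θ.2⟩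
      one_smul := by
        intro θ
        apply Subtype.ext
        show cj N ((1 : P) : G)⁻¹ θ.1 = θ.1
        rw [Subgroup.coe_one, inv_one, cj_one]
      mul_smul := by
        intro g h θ
        apply Subtype.ext
        show cj N ((g * h : P) : G)⁻¹ θ.1 = cj N (g : G)⁻¹ (cj N (h : G)⁻¹ θ.1)
        rw [cj_cj, Subgroup.coe_mul, mul_inv_rev] }
  have hdegsmul : ∀ (g : P) (θ : IrrCharacter N),
      charDegree ((g • θ : IrrCharacter N) : N → ℂ) = charDegree (θ : N → ℂ) := by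
    intro g θ
    unfold charDegree
    show ⌊(cj N (g : G)⁻¹ θ.1 1).re⌋₊ = _
    rw [cj_apply_one]
  have hfix : ∀ θ : IrrCharacter N, θ ∈ MulAction.fixedPoints P (IrrCharacter N) ↔
      ∀ g : G, cj N g θ.1 = θ.1 := by
    intro θ
    constructor
    · intro hθ g
      have h1 : (P : Subgroup G) ≤ inertia N θ.1 := by
        intro x hx
        have h2 := hθ (⟨x, hx⟩ : P)⁻¹
        have h3 : cj N (((⟨x, hx⟩ : P)⁻¹ : P) : G)⁻¹ θ.1 = θ.1 := congrArg Subtype.val h2
        rw [mem_inertia]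
        simpa using h3
      have h2 : N ≤ inertia N θ.1 :=
        le_inertia N (isClassFunction_of_char (isCharacter_of_irr θ.2))
      have h3 : g ∈ inertia N θ.1 := (sup_le h2 h1) (hsup ▸ Subgroup.mem_top g)
      exact h3
    · intro h g
      apply Subtype.ext
      exact h _
  have hA : ∀ a : ZMod p, p • a = 0 := by
    intro a
    rw [nsmul_eq_mul, ZMod.natCast_self, zero_mul]
  have e1 := Cfsg.Agent.Lib.Helper16.sum_eq_sum_fixedPoints (Γ := P) (X := IrrCharacter N) p P.2 hA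
    (fun θ => ((charDegree (θ : N → ℂ) ^ 2 : ℕ) : ZMod p)) (by intro g θ; simp only [hdegsmul])
  rw [← Nat.cast_sum, sum_sq_charDegree] at e1
  -- drop the degrees divisible by `p`
  have e2 : ∑ θ with θ ∈ MulAction.fixedPoints P (IrrCharacter N),
      ((charDegree (θ : N → ℂ) ^ 2 : ℕ) : ZMod p)
      = ∑ θ ∈ Finset.univ.filter (fun θ : IrrCharacter N =>
          (∀ g : G, cj N g θ.1 = θ.1) ∧ ¬ p ∣ charDegree (θ : N → ℂ)),
        ((charDegree (θ : N → ℂ) ^ 2 : ℕ) : ZMod p) := by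
    symm
    apply Finset.sum_subset
    · intro θ hθ
      rw [Finset.mem_filter] at hθ ⊢
      exact ⟨Finset.mem_univ _, (hfix θ).2 hθ.2.1⟩
    · intro θ hθ hθ'
      rw [Finset.mem_filter] at hθ hθ'
      have hd : p ∣ charDegree (θ : N → ℂ) := by
        by_contra hd
        exact hθ' ⟨Finset.mem_univ _, (hfix θ).1 hθ.2, hd⟩
      rw [Nat.cast_pow, (ZMod.natCast_eq_zero_iff _ _).mpr hd]
      simp
  have hcopidx : ∀ m : ℕ, ¬ p ∣ m → Nat.Coprime m N.index := by
    intro m hm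
    rw [hk]
    exact Nat.Coprime.pow_right _ ((Nat.Prime.coprime_iff_not_dvd hp).mpr hm).symm
  -- determinantal orders on `N`
  have hdetN : ∀ θ : IrrCharacter N, ¬ p ∣ detOrder (θ : N → ℂ) := by
    intro θ hd
    have hc : IsCharacter _ (θ : N → ℂ) := isCharacter_of_irr θ.2
    obtain ⟨f, hf⟩ := exists_detHom hc
    have hm : detChar (θ : N → ℂ) ^ (ordCompl[p] (Nat.card G)) = 1 := by
      funext n
      rw [hf, Pi.pow_apply, toFn_apply, Pi.one_apply, ← Units.val_pow_eq_pow_val,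
        Cfsg.Agent.S4456.hom_pow_eq_one f _ (Cfsg.Agent.S4456.pow_ordCompl_eq_one p) n,
        Units.val_one]
    exact Nat.not_dvd_ordCompl hp Nat.card_pos.ne' (hd.trans (orderOf_dvd_of_pow_eq_one hm))
  have e3 : ∑ θ ∈ Finset.univ.filter (fun θ : IrrCharacter N =>
          (∀ g : G, cj N g θ.1 = θ.1) ∧ ¬ p ∣ charDegree (θ : N → ℂ)),
        ((charDegree (θ : N → ℂ) ^ 2 : ℕ) : ZMod p)
      = ∑ χ ∈ Finset.univ.filter (fun χ : IrrCharacter G =>
          ¬ p ∣ charDegree (χ : G → ℂ) ∧ ¬ p ∣ detOrder (χ : G → ℂ)),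
        ((charDegree (χ : G → ℂ) ^ 2 : ℕ) : ZMod p) := by
    symm
    apply Finset.sum_bij (fun (χ : IrrCharacter G) hχ => (⟨fun n : N => (χ : G → ℂ) n,
      restrict_irr_of_coprime N χ.2 (hcopidx _ (Finset.mem_filter.1 hχ).2.1)⟩ : IrrCharacter N))
    · intro χ hχ
      rw [Finset.mem_filter]
      refine ⟨Finset.mem_univ _, fun g => cj_restrict N g (irr_cf χ.2), ?_⟩
      exact (Finset.mem_filter.1 hχ).2.1
    · intro χ hχ χ' hχ' h
      have hres : ∀ n : N, (χ' : G → ℂ) n = (χ : G → ℂ) n := by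
        intro n
        exact (congrFun (congrArg Subtype.val h) n).symm
      have hirr := restrict_irr_of_coprime N χ.2 (hcopidx _ (Finset.mem_filter.1 hχ).2.1)
      obtain ⟨χ₀, -, huniq⟩ := Cfsg.Agent.S0867.result N (fun n : N => (χ : G → ℂ) n) hirr
        (fun g n => congrFun (cj_restrict N g (irr_cf χ.2)) n) (charDegree (χ : G → ℂ))
        (char_one_eq_charDegree (isCharacter_of_irr χ.2))
        (Nat.Coprime.mul_right (hcopidx _ (hdetN ⟨_, hirr⟩)).symm
          (hcopidx _ (Finset.mem_filter.1 hχ).2.1).symm)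
      apply Subtype.ext
      rw [huniq χ χ.2 (fun n => rfl) (hcopidx _ (Finset.mem_filter.1 hχ).2.2).symm,
        huniq χ' χ'.2 hres (hcopidx _ (Finset.mem_filter.1 hχ').2.2).symm]
    · intro θ hθ
      rw [Finset.mem_filter] at hθ
      obtain ⟨χ₀, ⟨h1, h2, h3⟩, -⟩ := Cfsg.Agent.S0867.result N (θ : N → ℂ) θ.2
        (fun g n => congrFun (hθ.2.1 g) n) (charDegree (θ : N → ℂ))
        (char_one_eq_charDegree (isCharacter_of_irr θ.2))
        (Nat.Coprime.mul_right (hcopidx _ (hdetN θ)).symm (hcopidx _ hθ.2.2).symm)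
      have hdeg : charDegree χ₀ = charDegree (θ : N → ℂ) := by
        unfold charDegree
        rw [← h2 1]
        rfl
      refine ⟨⟨χ₀, h1⟩, ?_, ?_⟩
      · rw [Finset.mem_filter]
        refine ⟨Finset.mem_univ _, ?_, ?_⟩
        · change ¬ p ∣ charDegree χ₀
          rw [hdeg]; exact hθ.2.2
        · change ¬ p ∣ detOrder χ₀
          rw [h3]; exact hdetN θ
      · apply Subtype.ext
        funext n
        exact h2 n
    · intro χ hχ
      rfl
  have hS : {χ : Cfsg.IrrCharacter G | ¬ p ∣ Cfsg.charDegree (χ : G → ℂ) ∧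
      ¬ p ∣ Cfsg.detOrder (χ : G → ℂ)} = ↑(Finset.univ.filter (fun χ : IrrCharacter G =>
          ¬ p ∣ charDegree (χ : G → ℂ) ∧ ¬ p ∣ detOrder (χ : G → ℂ))) := by
    ext χ
    simp
  rw [hS, finsum_mem_coe_finset, ← ZMod.intCast_eq_intCast_iff]
  rw [e2, e3] at e1
  push_cast at e1 ⊢
  exact e1

end Cfsg.Agent.S4455
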