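import Cfsg.Statements.S4461
import Mathlib
import Cfsg.Agent.Lib.Helper15.LinearMul
import Cfsg.Agent.Lib.Helper81.Avg
import Cfsg.Agent.Lib.Helper91.Fitting
import Cfsg.Agent.Lib.Helper1.MinimalNormal
import Cfsg.Agent.Lib.Helper80.Eigen

set_option autoImplicit false
open Cfsg
open Cfsg.Agent.Lib Cfsg.Agent.Lib.Helper15
open scoped ComplexConjugate

namespace Cfsg.Agent.S4461

variable {G : Type*} [Group G]

/-- elements of `K ⊔ H = ⊤` factor -/
theorem exists_mul_of_sup (K H : Subgroup G) [K.Normal] (hKH : K ⊔ H = ⊤) (g : G) :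
    ∃ k ∈ K, ∃ h ∈ H, g = k * h := by
  have hg : g ∈ ((K ⊔ H : Subgroup G) : Set G) := by rw [hKH]; trivial
  rw [Subgroup.normal_mul] at hg
  obtain ⟨k, hk, h, hh, rfl⟩ := Set.mem_mul.1 hg
  exact ⟨k, hk, h, hh, rfl⟩

/-- restriction to a supplement of a normal subgroup of the kernel is irreducible -/
theorem irr_restrict_of_sup [Finite G] {χ : G → ℂ} (hχ : IsIrrCharacter G χ) (K : Subgroup G)
    [K.Normal] (hK : ∀ k ∈ K, χ k = χ 1) (H : Subgroup G) (hKH : K ⊔ H = ⊤) :
    IsIrrCharacter H (fun h : H => χ h) := by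
  obtain ⟨χ', hχ', h'⟩ := Helper80.exists_deflate_irr (N := K) hχ hK
  have hsurj : Function.Surjective ((QuotientGroup.mk' K).comp H.subtype) := by
    intro q
    obtain ⟨g, rfl⟩ := QuotientGroup.mk'_surjective K q
    obtain ⟨k, hk, h, hh, rfl⟩ := exists_mul_of_sup K H hKH g
    refine ⟨⟨h, hh⟩, ?_⟩
    simp only [MonoidHom.comp_apply, Subgroup.subtype_apply, map_mul]
    rw [(QuotientGroup.eq_one_iff (N := K) k).2 hk |> fun e => (show (QuotientGroup.mk' K) k = 1 from e),
      one_mul]
  have := Helper74.IsIrrCharacter.comp_surjective hχ' _ hsurj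
  convert this using 1
  funext h
  exact (h' h).symm

/-- norm bound for characters -/
theorem norm_le_one_val [Finite G] {α : G → ℂ} (hα : IsCharacter G α) (g : G) :
    ‖α g‖ ≤ (α 1).re := by
  obtain ⟨n, ρ, rfl⟩ := hα
  have h := Helper80.norm_char_le ρ g
  have h1 : ρ.character 1 = (Module.finrank ℂ (Fin n → ℂ) : ℂ) := by
    simp [Representation.character]
  rw [h1]
  simpa using h

/-- kernel of a sum of characters -/
theorem ker_of_add [Finite G] {α β : G → ℂ} (hα : IsCharacter G α) (hβ : IsCharacter G β) (l : G)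
    (h : α l + β l = α 1 + β 1) : α l = α 1 := by
  have h1 := norm_le_one_val hα l
  have h2 := norm_le_one_val hβ l
  obtain ⟨n, hn⟩ := char_one_nat hα
  obtain ⟨m, hm⟩ := char_one_nat hβ
  rw [hn] at h1 h ⊢
  rw [hm] at h2 h
  simp only [Complex.natCast_re] at h1 h2
  have h3 : (α l).re + (β l).re = n + m := by
    have := congrArg Complex.re h
    simpa using this
  have h4 : (α l).re ≤ ‖α l‖ := Complex.re_le_norm _
  have h5 : (β l).re ≤ ‖β l‖ := Complex.re_le_norm _
  have h6 : (α l).re = n := by linarith
  have h7 : (α l).im = 0 := by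
    have h8 : ‖α l‖ ^ 2 = (α l).re ^ 2 + (α l).im ^ 2 := by
      rw [Complex.sq_norm, Complex.normSq_apply]; ring
    have h9 : ‖α l‖ ^ 2 ≤ (n : ℝ) ^ 2 := by
      have := norm_nonneg (α l)
      nlinarith
    rw [h8, h6] at h9
    nlinarith
  apply Complex.ext
  · simpa using h6
  · simpa using h7


/-- the key vanishing statement -/
theorem key [Finite G] (χ : G → ℂ) (hχ : IsIrrCharacter G χ) (K : Subgroup G) [K.Normal]
    (hK : ∀ g, g ∈ K ↔ χ g = χ 1) (H : Subgroup G) (hH : IsCoatom H) (hKH : K ⊔ H = ⊤)
    (hno : ¬ ∃ ψ : IrrCharacter G, charDegree χ < charDegree (ψ : G → ℂ) ∧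
      ∃ L : Subgroup G, (∀ g : G, g ∈ L ↔ (ψ : G → ℂ) g = (ψ : G → ℂ) 1) ∧ L < K) :
    ∀ h ∈ H, h ∉ H.normalCore → χ h = 0 := by
  classical
  haveI : Fintype G := Fintype.ofFinite G
  set φ : H → ℂ := fun h => χ h with hφdef
  have hφ : IsIrrCharacter H φ := irr_restrict_of_sup hχ K (fun k hk => (hK k).1 hk) H hKH
  set Φ : G → ℂ := indFun H φ with hΦdef
  have hΦ : IsCharacter G Φ := char_indFun H (irr_char hφ)
  have step1 : ∀ ψ : G → ℂ, IsIrrCharacter G ψ → classInner Φ ψ ≠ 0 →
      (fun h : H => ψ h) = φ := by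
    intro ψ hψ hne
    have h1 : classInner φ (fun h : H => ψ h) ≠ 0 := by
      rwa [← classInner_indFun_left H φ ψ (irr_cf hψ)]
    have hψH : IsCharacter H (fun h : H => ψ h) := char_restrict (irr_char hψ) H
    have h2 : classInner (fun h : H => ψ h) φ ≠ 0 := by
      rw [inner_comm_of_char hψH (irr_char hφ)]; exact h1
    have hrest : IsCharacter H ((fun h : H => ψ h) - φ) := char_sub_irr hψH hφ h2
    by_cases hdeg : charDegree χ < charDegree ψ
    · exfalso
      set L := Helper80.charKer ψ (irr_char hψ) with hL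
      haveI hLn : L.Normal := Helper80.charKer_normal _
      by_cases hLH : L ≤ H
      · apply hno
        refine ⟨⟨ψ, hψ⟩, hdeg, L, fun g => Helper80.mem_charKer _ g, ?_⟩
        have hLK : L ≤ K := by
          intro l hl
          rw [hK]
          have hl' : ψ l = ψ 1 := (Helper80.mem_charKer _ l).1 hl
          have := ker_of_add (irr_char hφ) hrest ⟨l, hLH hl⟩ (by
            simp only [Pi.sub_apply, hφdef, Subgroup.coe_one]
            rw [hl']; ring)
          simpa [hφdef] using this
        refine lt_of_le_of_ne hLK ?_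
        intro heq
        have : K ≤ H := heq ▸ hLH
        rw [sup_eq_right.2 this] at hKH
        exact hH.1 hKH
      · have hsup : L ⊔ H = ⊤ := by
          apply hH.2
          refine lt_of_le_of_ne le_sup_right ?_
          intro heq
          exact hLH (heq ▸ le_sup_left)
        have hirr := irr_restrict_of_sup hψ L (fun k hk => (Helper80.mem_charKer _ k).1 hk) H hsup
        have heq : (fun h : H => ψ h) = φ := irr_eq_of_inner_ne_zero hirr hφ h2
        have h3 : ψ 1 = χ 1 := by
          have := congrFun heq 1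
          simpa [hφdef] using this
        have h4 : charDegree ψ = charDegree χ := by
          unfold charDegree; rw [h3]
        omega
    · apply Helper81.eq_of_constituent_of_degree hψH hφ h2
      obtain ⟨r, hr⟩ := char_one_nat hrest
      have e1 := Helper80.char_one_eq_charDegree (irr_char hψ)
      have e2 := Helper80.char_one_eq_charDegree (irr_char hχ)
      simp only [Pi.sub_apply, hφdef, Subgroup.coe_one] at hr ⊢
      rw [e1, e2] at hr ⊢
      have h5 : (charDegree ψ : ℂ) = (charDegree χ + r : ℕ) := by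
        push_cast; linear_combination hr
      have h6 : charDegree ψ = charDegree χ + r := by exact_mod_cast h5
      have h7 : charDegree ψ = charDegree χ := by omega
      rw [h7]
  have hexp : Φ = ∑ ψ : IrrCharacter G, classInner Φ ψ • (ψ : G → ℂ) := cf_expansion (char_cf hΦ)
  set c : ℂ := ∑ ψ : IrrCharacter G, classInner Φ (ψ : G → ℂ) with hc
  have hres : ∀ h : H, Φ h = c * φ h := by
    intro h
    conv_lhs => rw [hexp]
    rw [Finset.sum_apply, hc, Finset.sum_mul]
    apply Finset.sum_congr rfl
    intro ψ _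
    by_cases h0 : classInner Φ (ψ : G → ℂ) = 0
    · simp [h0]
    · have := congrFun (step1 ψ ψ.2 h0) h
      simp only [Pi.smul_apply, smul_eq_mul]
      rw [← this]
  have hφ1 : φ 1 ≠ 0 := irr_one_ne_zero hφ
  have hcval : c = (H.index : ℂ) := by
    have h1 := hres 1
    rw [Subgroup.coe_one, hΦdef, indFun_one] at h1
    exact (mul_right_cancel₀ hφ1 h1).symm
  have hresf : (fun h : H => Φ h) = c • φ := by
    funext h; simp [hres h]
  have hvan : ∀ g : G, g ∉ H → Φ g = 0 := by
    rw [vanishes_off_iff H Φ]
    have n1 : classInner Φ Φ = (H.index : ℂ) := by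
      have e0 : classInner Φ Φ = classInner φ (fun h : H => Φ h) :=
        classInner_indFun_left H φ Φ (char_cf hΦ)
      rw [e0, hresf, classInner_smul_right, irr_inner_self hφ, hcval]
      simp
    have n2 : classInner (fun h : H => Φ h) (fun h : H => Φ h) = (H.index : ℂ) * (H.index : ℂ) := by
      rw [hresf, classInner_smul_right, classInner_smul_left, irr_inner_self hφ, hcval]
      simp
    rw [n1, n2, ← H.card_mul_index]
    push_cast; ring
  intro h hh hcore
  have : ∃ b : G, b * h * b⁻¹ ∉ H := by
    by_contra hcon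
    push Not at hcon
    exact hcore hcon
  obtain ⟨b, hb⟩ := this
  have h1 : Φ h = 0 := by
    rw [← char_cf hΦ h b]; exact hvan _ hb
  have h2 := hres ⟨h, hh⟩
  rw [h1] at h2
  have hc0 : c ≠ 0 := by
    rw [hcval]
    exact_mod_cast H.index_ne_zero_of_finite
  rcases mul_eq_zero.1 h2.symm with h3 | h3
  · exact absurd h3 hc0
  · exact h3


/-- Frattini inside a normal subgroup -/
theorem frat [Finite G] (X : Subgroup G) [X.Normal] (p : ℕ) [Fact p.Prime] (Q : Sylow p X)
    (H : Subgroup G)
    (hH : Subgroup.normalizer (((Q : Subgroup X).map X.subtype : Subgroup G) : Set G) ≤ H)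
    (hQ : (Q : Subgroup X).map X.subtype ≤ H.normalCore) : X ≤ H := by
  have hle : (Q : Subgroup X) ≤ (H.normalCore).subgroupOf X := by
    intro u hu
    rw [Subgroup.mem_subgroupOf]
    exact hQ (Subgroup.mem_map_of_mem _ hu)
  have h1 : Subgroup.normalizer ((Q : Subgroup X) : Set X) ⊔ (H.normalCore).subgroupOf X = ⊤ :=
    Sylow.normalizer_sup_eq_top' Q hle
  have h2 : Subgroup.normalizer ((Q : Subgroup X) : Set X) ⊔ (H.normalCore).subgroupOf X
      ≤ H.subgroupOf X := by
    apply sup_le
    · intro x hx
      rw [Subgroup.mem_subgroupOf]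
      apply hH
      rw [Subgroup.mem_normalizer_iff] at hx ⊢
      intro y
      constructor
      · rintro ⟨u, hu, rfl⟩
        exact ⟨x * u * x⁻¹, (hx u).1 hu, by simp⟩
      · rintro ⟨v, hv, hvy⟩
        refine ⟨x⁻¹ * v * x, (hx _).2 (by
          have e : x * (x⁻¹ * v * x) * x⁻¹ = v := by group
          rw [e]; exact hv), ?_⟩
        simp only [Subgroup.subtype_apply, Subgroup.coe_mul, Subgroup.coe_inv] at hvy ⊢
        rw [hvy]; group
    · intro x hx
      exact H.normalCore_le hx
  rw [h1] at h2
  intro x hx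
  exact h2 (Subgroup.mem_top (⟨x, hx⟩ : X))

/-- Let χ be an irreducible character of the finite group G and K its kernel (the elements where χ takes the value χ(1)). Suppose either that K is not contained in the Fitting subgroup F(G), or that K = F(G) with G/K solvable and K ≠ G. Then there is an irreducible character ψ of G with ψ(1) > χ(1) whose kernel is properly contained in K. -/
theorem result {G : Type*} [Group G] [Finite G] (χ : Cfsg.IrrCharacter G) (K : Subgroup G) [K.Normal] (hK : (∀ g : G, g ∈ K ↔ (χ : G → ℂ) g = (χ : G → ℂ) 1)) (h : ¬ K ≤ Cfsg.fittingSubgroup G ∨ (K = Cfsg.fittingSubgroup G ∧ Group.IsSolvable (G ⧸ K) ∧ K ≠ ⊤)) : ∃ ψ : Cfsg.IrrCharacter G, Cfsg.charDegree (χ : G → ℂ) < Cfsg.charDegree (ψ : G → ℂ) ∧ ∃ L : Subgroup G, (∀ g : G, g ∈ L ↔ (ψ : G → ℂ) g = (ψ : G → ℂ) 1) ∧ L < K := by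
  classical
  by_contra hno
  have hχ := χ.2
  have hχ1 : (χ : G → ℂ) 1 ≠ 0 := irr_one_ne_zero hχ
  rcases h with h | ⟨hKF, hsol, hKtop⟩
  · have hnil : ¬ Group.IsNilpotent K := fun hn => h (Helper91.le_fittingSubgroup K hn)
    have : ∃ (p : ℕ) (_ : Fact p.Prime) (P : Sylow p K), ¬ (P : Subgroup K).Normal := by
      by_contra hcon
      push Not at hcon
      exact hnil (((isNilpotent_of_finite_tfae (G := K)).out 0 3).2 (fun p hp P => hcon p hp P))
    obtain ⟨p, hp, P, hP⟩ := this
    set P' := (P : Subgroup K).map K.subtype with hP'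
    have hfr := Sylow.normalizer_sup_eq_top P
    have hne : Subgroup.normalizer (P' : Set G) ≠ ⊤ := by
      intro htop
      apply hP
      have hn : P'.Normal := Subgroup.normalizer_eq_top_iff.1 htop
      have : (P : Subgroup K) = P'.comap K.subtype :=
        (Subgroup.comap_map_eq_self_of_injective K.subtype_injective _).symm
      rw [this]; exact hn.comap _
    obtain ⟨H, hH, hle⟩ := (eq_top_or_exists_le_coatom _).resolve_left hne
    have hKH : K ⊔ H = ⊤ := by
      rw [eq_top_iff, ← hfr]; exact sup_le (hle.trans le_sup_right) le_sup_left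
    have hk := key χ hχ K hK H hH hKH hno
    have hPcore : P' ≤ H.normalCore := by
      intro u hu
      by_contra hcon
      have huH : u ∈ H := hle (Subgroup.le_normalizer hu)
      have huK : u ∈ K := by obtain ⟨v, _, rfl⟩ := hu; exact v.2
      have := hk u huH hcon
      rw [(hK u).1 huK] at this
      exact hχ1 this
    have := frat K p P H hle hPcore
    rw [sup_eq_right.2 this] at hKH
    exact hH.1 hKH
  · haveI : Nontrivial (G ⧸ K) := QuotientGroup.nontrivial_iff.2 hKtop
    haveI := hsol
    obtain ⟨q, Mb, hq, hMn, hM0, hMq, -, hMmin⟩ :=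
      Helper1.exists_normal_pSubgroup_of_solvable (G := G ⧸ K)
    haveI : Fact q.Prime := ⟨hq⟩
    set π := QuotientGroup.mk' K with hπ
    have hπK : ∀ g, π g = 1 ↔ g ∈ K := fun g => QuotientGroup.eq_one_iff g
    set M := Mb.comap π with hM
    haveI : M.Normal := hMn.comap π
    have hKM : K ≤ M := by
      intro k hk
      show π k ∈ Mb
      rw [(hπK k).2 hk]; exact Mb.one_mem
    obtain ⟨Q⟩ : Nonempty (Sylow q M) := inferInstance
    set Q' := (Q : Subgroup M).map M.subtype with hQ'
    have hMKQ : M ≤ K ⊔ Q' := by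
      let f : M →* Mb := π.subgroupComap Mb
      have hf : Function.Surjective f :=
        π.subgroupComap_surjective_of_surjective Mb (QuotientGroup.mk'_surjective K)
      have htop : (⊤ : Subgroup Mb) = ((Q.mapSurjective hf : Sylow q Mb) : Subgroup Mb) :=
        (Q.mapSurjective hf).is_maximal' (hMq.to_subgroup ⊤) le_top
      intro m hm
      have h1 : f ⟨m, hm⟩ ∈ ((Q.mapSurjective hf : Sylow q Mb) : Subgroup Mb) := by
        rw [← htop]; trivial
      rw [Sylow.coe_mapSurjective] at h1
      obtain ⟨u, hu, hfu⟩ := h1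
      have h2 : π (u : G) = π m := by
        have := congrArg Subtype.val hfu
        exact this
      have h3 : (u : G)⁻¹ * m ∈ K := by
        rw [← hπK, map_mul, map_inv, h2, inv_mul_cancel]
      have h4 : m = (u : G) * ((u : G)⁻¹ * m) := by group
      rw [h4]
      exact Subgroup.mul_mem _ (Subgroup.mem_sup_right (Subgroup.mem_map_of_mem _ hu))
        (Subgroup.mem_sup_left h3)
    have hMK : ¬ M ≤ K := by
      intro hle
      apply hM0
      rw [eq_bot_iff]
      intro x hx
      obtain ⟨g, rfl⟩ := QuotientGroup.mk'_surjective K x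
      exact (hπK g).2 (hle hx)
    have hfr := Sylow.normalizer_sup_eq_top Q
    have hne : Subgroup.normalizer (Q' : Set G) ≠ ⊤ := by
      intro htop
      haveI hn : Q'.Normal := Subgroup.normalizer_eq_top_iff.1 htop
      have hpg : IsPGroup q Q' := Q.2.map _
      have hnil : Group.IsNilpotent Q' := hpg.isNilpotent
      have hle : Q' ≤ K := by rw [hKF]; exact Helper91.le_fittingSubgroup Q' hnil
      exact hMK (hMKQ.trans (sup_le le_rfl hle))
    obtain ⟨H, hH, hle⟩ := (eq_top_or_exists_le_coatom _).resolve_left hne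
    have hQH : Q' ≤ H := fun u hu => hle (Subgroup.le_normalizer hu)
    have hKH : K ⊔ H = ⊤ := by
      rw [eq_top_iff, ← hfr]
      exact sup_le (hle.trans le_sup_right) (hMKQ.trans (sup_le_sup_left hQH K))
    have hk := key χ hχ K hK H hH hKH hno
    have hKHN : ∀ u ∈ K, u ∈ H → u ∈ H.normalCore := by
      intro u huK huH
      by_contra hcon
      have := hk u huH hcon
      rw [(hK u).1 huK] at this
      exact hχ1 this
    have hXn : (Mb ⊓ (H.normalCore).map π).Normal := by
      haveI : ((H.normalCore).map π).Normal :=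
        Subgroup.Normal.map inferInstance π (QuotientGroup.mk'_surjective K)
      infer_instance
    rcases hMmin _ hXn inf_le_left with hX | hX
    · -- χ vanishes on M \ K
      have hvan : ∀ m ∈ M, m ∉ K → (χ : G → ℂ) m = 0 := by
        intro m hm hmK
        obtain ⟨k, hk', h, hh, rfl⟩ := exists_mul_of_sup K H hKH m
        have hhM : h ∈ M := by
          have := M.mul_mem (M.inv_mem (hKM hk')) hm
          simpa using this
        have hhK : h ∉ K := fun hc => hmK (K.mul_mem hk' hc)
        have e1 : (χ : G → ℂ) (k * h) = (χ : G → ℂ) h := by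
          rw [Helper74.IsCharacter.mul_comm (irr_char hχ)]
          exact Helper80.char_mul_of_mem_ker (irr_char hχ) ((hK k).1 hk') h
        rw [e1]
        apply hk h hh
        intro hcore
        apply hhK
        rw [← hπK]
        have : π h ∈ Mb ⊓ (H.normalCore).map π := ⟨hhM, Subgroup.mem_map_of_mem _ hcore⟩
        rw [hX] at this
        exact this
      haveI : Fintype G := Fintype.ofFinite G
      have hsum : ∑ m : M, (χ : G → ℂ) m
          = ((Finset.univ.filter (fun m : M => (m : G) ∈ K)).card : ℂ) * (χ : G → ℂ) 1 := by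
        rw [Finset.card_eq_sum_ones, Nat.cast_sum, Finset.sum_mul, Finset.sum_filter]
        apply Finset.sum_congr rfl
        intro m _
        by_cases hmK : (m : G) ∈ K
        · simp [hmK, (hK m).1 hmK]
        · simp [hmK, hvan m m.2 hmK]
      have hinner : classInner (fun n : M => (χ : G → ℂ) n) (fun _ => 1) ≠ 0 := by
        unfold classInner
        simp only [map_one, mul_one]
        rw [hsum]
        apply mul_ne_zero
        · apply inv_ne_zero
          exact_mod_cast Nat.card_pos.ne'
        · apply mul_ne_zero _ hχ1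
          have : 0 < (Finset.univ.filter (fun m : M => (m : G) ∈ K)).card :=
            Finset.card_pos.2 ⟨1, by simp [K.one_mem]⟩
          exact_mod_cast this.ne'
      have := (restrict_eq_of_inner_one_ne_zero (N := M) hχ hinner).2
      exact hMK (fun m hm => (hK m).2 (this ⟨m, hm⟩))
    · have hMbN : Mb ≤ (H.normalCore).map π := by rw [← hX]; exact inf_le_right
      have hQcore : Q' ≤ H.normalCore := by
        intro u hu
        have huM : u ∈ M := by obtain ⟨v, _, rfl⟩ := hu; exact v.2
        obtain ⟨n, hn, hnu⟩ := hMbN huM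
        have h3 : n⁻¹ * u ∈ K := by
          rw [← hπK, map_mul, map_inv, hnu, inv_mul_cancel]
        have h4 : n⁻¹ * u ∈ H := H.mul_mem (H.inv_mem (H.normalCore_le hn)) (hQH hu)
        have h5 := hKHN _ h3 h4
        have h6 : u = n * (n⁻¹ * u) := by group
        rw [h6]
        exact Subgroup.mul_mem _ hn h5
      have h7 := frat M q Q H hle hQcore
      have h8 : K ≤ H := hKM.trans h7
      rw [sup_eq_right.2 h8] at hKH
      exact hH.1 hKH

end Cfsg.Agent.S4461
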