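import Cfsg.Statements.S4459
import Mathlib
import Cfsg.Agent.S4457
import Cfsg.Agent.S4458
import Cfsg.Agent.S0169
import Cfsg.Agent.S0179
import Cfsg.Agent.Lib.Helper15.Extraspecial
import Cfsg.Agent.Lib.Helper80.Core
import Cfsg.Agent.Lib.Helper81.Avg
import Cfsg.Agent.Lib.Helper91.Fitting
import Cfsg.Agent.Lib.Helper1.Nilpotent
import Cfsg.Agent.S4461

set_option autoImplicit false
open Cfsg
open Cfsg.Agent.Lib Cfsg.Agent.Lib.Helper15 Cfsg.Agent.Lib.Helper74
open scoped ComplexConjugate

namespace Cfsg.Agent.S4459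

/-- two nontrivial elements are simultaneously outside the kernel of some irreducible character -/
theorem exists_irr_two {G : Type*} [Group G] [Finite G] (w d : G) (hw : w ≠ 1) (hd : d ≠ 1) :
    ∃ χ : IrrCharacter G, (χ : G → ℂ) w ≠ (χ : G → ℂ) 1 ∧ (χ : G → ℂ) d ≠ (χ : G → ℂ) 1 := by
  classical
  by_contra hcon
  push Not at hcon
  have h0 : ∑ χ : IrrCharacter G, ((χ : G → ℂ) 1 - (χ : G → ℂ) w) *
      conj ((χ : G → ℂ) 1 - (χ : G → ℂ) d) = 0 := by
    apply Finset.sum_eq_zero
    intro χ _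
    by_cases h : (χ : G → ℂ) w = (χ : G → ℂ) 1
    · rw [h, sub_self, zero_mul]
    · rw [hcon χ h, sub_self, map_zero, mul_zero]
  have h1 : ∑ χ : IrrCharacter G, ((χ : G → ℂ) 1 - (χ : G → ℂ) w) *
      conj ((χ : G → ℂ) 1 - (χ : G → ℂ) d)
      = ∑ χ : IrrCharacter G, (χ : G → ℂ) 1 * conj ((χ : G → ℂ) 1)
        - ∑ χ : IrrCharacter G, (χ : G → ℂ) 1 * conj ((χ : G → ℂ) d)
        - ∑ χ : IrrCharacter G, (χ : G → ℂ) w * conj ((χ : G → ℂ) 1)
        + ∑ χ : IrrCharacter G, (χ : G → ℂ) w * conj ((χ : G → ℂ) d) := by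
    rw [← Finset.sum_sub_distrib, ← Finset.sum_sub_distrib, ← Finset.sum_add_distrib]
    apply Finset.sum_congr rfl
    intro χ _
    rw [map_sub]; ring
  rw [h1, Helper80.col_orth, Helper80.col_orth, Helper80.col_orth, Helper80.col_orth,
    if_pos (IsConj.refl 1), if_neg (by rw [isConj_one_right]; exact hd),
    if_neg (by rw [isConj_one_left]; exact hw)] at h0
  have hpos : 0 < Nat.card (Subgroup.centralizer ({1} : Set G)) := Nat.card_pos
  split_ifs at h0 with hc
  · have : ((Nat.card (Subgroup.centralizer ({1} : Set G)) +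
        Nat.card (Subgroup.centralizer ({w} : Set G)) : ℕ) : ℂ) = 0 := by
      push_cast; rw [← h0]; ring
    have h2 : Nat.card (Subgroup.centralizer ({1} : Set G)) +
        Nat.card (Subgroup.centralizer ({w} : Set G)) = 0 := by exact_mod_cast this
    omega
  · have : ((Nat.card (Subgroup.centralizer ({1} : Set G)) : ℕ) : ℂ) = 0 := by
      rw [← h0]; ring
    have h2 : Nat.card (Subgroup.centralizer ({1} : Set G)) = 0 := by exact_mod_cast this
    omega


theorem irr_restrict_of_comm {G : Type*} [Group G] [Finite G] (p : ℕ) (hp : p.Prime)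
    (hcd : ∀ χ : G → ℂ, IsIrrCharacter G χ → χ 1 = 1 ∨ χ 1 = (p : ℂ))
    (A : Subgroup G) [hA : A.Normal] {χ : G → ℂ} (hχ : IsIrrCharacter G χ) (a b : A)
    (hne : χ ((a * b * a⁻¹ * b⁻¹ : A) : G) ≠ χ 1) : IsIrrCharacter A (fun x : A => χ x) := by
  classical
  have := Fintype.ofFinite G
  obtain ⟨η, hη⟩ := Helper80.exists_constituent_restrict ⟨χ, hχ⟩ A
  simp only at hη
  have hcl := clifford_theorem A hχ η.2 hη
  obtain ⟨e, he⟩ := inner_nat (char_restrict (irr_char hχ) A) (irr_char η.2)
  have h1 := congrFun hcl 1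
  simp only [Pi.smul_apply, Finset.sum_apply, smul_eq_mul, OneMemClass.coe_one] at h1
  have h2 : ∑ φ ∈ Finset.univ.image (fun g : G => cj A g (η : A → ℂ)), φ 1
      = ((Finset.univ.image (fun g : G => cj A g (η : A → ℂ))).card : ℂ) *
        (charDegree (η : A → ℂ) : ℂ) := by
    rw [Finset.sum_congr rfl (g := fun _ => (charDegree (η : A → ℂ) : ℂ)), Finset.sum_const,
      nsmul_eq_mul]
    intro φ hφ
    obtain ⟨g, -, rfl⟩ := Finset.mem_image.1 hφ
    rw [cj_apply_one, Helper80.char_one_eq_charDegree (irr_char η.2)]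
  by_cases hη1 : (η : A → ℂ) 1 = 1
  · exfalso
    apply hne
    have h3 := congrFun hcl (a * b * a⁻¹ * b⁻¹)
    simp only [Pi.smul_apply, Finset.sum_apply, smul_eq_mul] at h3
    rw [h3, h1]
    congr 1
    apply Finset.sum_congr rfl
    intro φ hφ
    obtain ⟨g, -, rfl⟩ := Finset.mem_image.1 hφ
    have hφ1 : cj A g (η : A → ℂ) 1 = 1 := by rw [cj_apply_one, hη1]
    rw [S4458.linear_comm (irr_char (irr_cj A g η.2)) hφ1, hφ1]
  · rw [h2, he, Helper80.char_one_eq_charDegree (irr_char hχ)] at h1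
    have h3 : charDegree χ = e * ((Finset.univ.image (fun g : G => cj A g (η : A → ℂ))).card *
        charDegree (η : A → ℂ)) := by exact_mod_cast h1
    have hdvd : charDegree (η : A → ℂ) ∣ charDegree χ := by
      rw [h3]
      exact ⟨e * (Finset.univ.image (fun g : G => cj A g (η : A → ℂ))).card, by ring⟩
    have hη1' : charDegree (η : A → ℂ) ≠ 1 := by
      intro h
      apply hη1
      rw [Helper80.char_one_eq_charDegree (irr_char η.2), h]; simp
    have hdeg : charDegree χ = charDegree (η : A → ℂ) := by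
      rcases hcd χ hχ with h | h
      · rw [Helper80.char_one_eq_charDegree (irr_char hχ)] at h
        have h' : charDegree χ = 1 := by exact_mod_cast h
        rw [h'] at hdvd
        exact absurd (Nat.dvd_one.1 hdvd) hη1'
      · rw [Helper80.char_one_eq_charDegree (irr_char hχ)] at h
        have h' : charDegree χ = p := by exact_mod_cast h
        rw [h'] at hdvd ⊢
        rcases (Nat.dvd_prime hp).1 hdvd with h4 | h4
        · exact absurd h4 hη1'
        · exact h4.symm
    have heq := Helper81.eq_of_constituent_of_degree (char_restrict (irr_char hχ) A) η.2 hη (by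
      show χ 1 = (η : A → ℂ) 1
      rw [Helper80.char_one_eq_charDegree (irr_char hχ),
        Helper80.char_one_eq_charDegree (irr_char η.2), hdeg])
    rw [heq]
    exact η.2


/-- the centre of a nonabelian normal subgroup is central -/
theorem center_le {G : Type*} [Group G] [Finite G] (p : ℕ) (hp : p.Prime)
    (hcd : ∀ χ : G → ℂ, IsIrrCharacter G χ → χ 1 = 1 ∨ χ 1 = (p : ℂ))
    (A : Subgroup G) [hA : A.Normal] (hAna : ∃ a b : A, a * b ≠ b * a) (z : G) (hzA : z ∈ A)
    (hz : ∀ a ∈ A, a * z = z * a) : z ∈ Subgroup.center G := by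
  rw [Subgroup.mem_center_iff]
  intro g
  by_contra hg
  obtain ⟨a, b, hab⟩ := hAna
  have hd : ((a * b * a⁻¹ * b⁻¹ : A) : G) ≠ 1 := by
    intro h
    apply hab
    have h' : a * b * a⁻¹ * b⁻¹ = 1 := Subtype.ext h
    calc a * b = (a * b * a⁻¹ * b⁻¹) * (b * a) := by group
      _ = b * a := by rw [h', one_mul]
  have hw : z⁻¹ * g * z * g⁻¹ ≠ 1 := by
    intro h
    apply hg
    calc g * z = z * (z⁻¹ * g * z * g⁻¹) * g := by group
      _ = z * g := by rw [h, mul_one]
  obtain ⟨χ, hχw, hχd⟩ := exists_irr_two _ _ hw hd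
  have hψ := irr_restrict_of_comm p hp hcd A χ.2 a b hχd
  have hconj : g * z * g⁻¹ ∈ A := hA.conj_mem z hzA g
  have hwA : z⁻¹ * g * z * g⁻¹ ∈ A := by
    have := A.mul_mem (A.inv_mem hzA) hconj
    have e : z⁻¹ * (g * z * g⁻¹) = z⁻¹ * g * z * g⁻¹ := by group
    rwa [e] at this
  have hzc : (⟨z, hzA⟩ : A) ∈ Subgroup.center A := by
    rw [Subgroup.mem_center_iff]
    intro x
    exact Subtype.ext (hz x x.2)
  have hwc : (⟨_, hwA⟩ : A) ∈ Subgroup.center A := by
    rw [Subgroup.mem_center_iff]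
    intro x
    apply Subtype.ext
    show (x : G) * (z⁻¹ * g * z * g⁻¹) = z⁻¹ * g * z * g⁻¹ * x
    have h1 := hz x x.2
    have h2 := hz (g⁻¹ * x * g) (by simpa using hA.conj_mem x x.2 g⁻¹)
    have h1' : (x : G) * z⁻¹ = z⁻¹ * x := by
      calc (x : G) * z⁻¹ = z⁻¹ * (z * x) * z⁻¹ := by group
        _ = z⁻¹ * (x * z) * z⁻¹ := by rw [h1]
        _ = z⁻¹ * x := by group
    calc (x : G) * (z⁻¹ * g * z * g⁻¹) = ((x : G) * z⁻¹) * g * z * g⁻¹ := by group
      _ = z⁻¹ * x * g * z * g⁻¹ := by rw [h1']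
      _ = z⁻¹ * g * ((g⁻¹ * x * g) * z) * g⁻¹ := by group
      _ = z⁻¹ * g * (z * (g⁻¹ * x * g)) * g⁻¹ := by rw [h2]
      _ = z⁻¹ * g * z * g⁻¹ * x := by group
  have h1 := irr_mul_central hψ (⟨z, hzA⟩ : A) hwc
  have h2 := irr_central_norm hψ hzc
  simp only [Subgroup.coe_mul, OneMemClass.coe_one] at h1 h2
  have e : z * (z⁻¹ * g * z * g⁻¹) = g * z * g⁻¹ := by group
  rw [e, irr_cf χ.2] at h1
  have hz0 : (χ : G → ℂ) z ≠ 0 := by
    intro h
    rw [h, zero_mul] at h2
    exact mul_ne_zero (irr_one_ne_zero χ.2) (irr_one_ne_zero χ.2) h2.symm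
  exact hχw (mul_left_cancel₀ hz0 h1).symm


/-- an element central modulo a central subgroup of order `p` is central, when there is no abelian
normal subgroup of index `p` -/
theorem central_of_mod {G : Type*} [Group G] [Finite G] (p : ℕ) (hp : p.Prime)
    (hcd : ∀ χ : G → ℂ, IsIrrCharacter G χ → χ 1 = 1 ∨ χ 1 = (p : ℂ))
    (hno : ¬ ∃ A : Subgroup G, A.Normal ∧ (∀ a ∈ A, ∀ b ∈ A, a * b = b * a) ∧ A.index = p)
    (K : Subgroup G) (hKc : K ≤ Subgroup.center G) (hKp : Nat.card K = p)
    (z : G) (hz : ∀ g : G, g * z * g⁻¹ * z⁻¹ ∈ K) : z ∈ Subgroup.center G := by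
  by_contra hzc
  let φ : G →* K :=
    { toFun := fun g => ⟨g * z * g⁻¹ * z⁻¹, hz g⟩
      map_one' := by apply Subtype.ext; simp
      map_mul' := by
        intro g h
        apply Subtype.ext
        show g * h * z * (g * h)⁻¹ * z⁻¹ = (g * z * g⁻¹ * z⁻¹) * (h * z * h⁻¹ * z⁻¹)
        have hc := Subgroup.mem_center_iff.1 (hKc (hz h))
        calc g * h * z * (g * h)⁻¹ * z⁻¹ = (g * (h * z * h⁻¹ * z⁻¹)) * z * g⁻¹ * z⁻¹ := by group
          _ = ((h * z * h⁻¹ * z⁻¹) * g) * z * g⁻¹ * z⁻¹ := by rw [hc g]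
          _ = (h * z * h⁻¹ * z⁻¹) * (g * z * g⁻¹ * z⁻¹) := by group
          _ = (g * z * g⁻¹ * z⁻¹) * (h * z * h⁻¹ * z⁻¹) := by rw [hc] }
  have hmem : ∀ g : G, g ∈ φ.ker ↔ g * z = z * g := by
    intro g
    rw [MonoidHom.mem_ker]
    constructor
    · intro h
      have h' : g * z * g⁻¹ * z⁻¹ = 1 := congrArg Subtype.val h
      calc g * z = (g * z * g⁻¹ * z⁻¹) * (z * g) := by group
        _ = z * g := by rw [h', one_mul]
    · intro h
      apply Subtype.ext
      show g * z * g⁻¹ * z⁻¹ = 1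
      rw [h]; group
  apply hno
  refine ⟨φ.ker, inferInstance, ?_, ?_⟩
  · by_contra hna
    push Not at hna
    obtain ⟨a, ha, b, hb, hab⟩ := hna
    apply hzc
    apply center_le p hp hcd φ.ker ⟨⟨a, ha⟩, ⟨b, hb⟩, fun h => hab (congrArg Subtype.val h)⟩ z
      ((hmem z).2 rfl)
    intro x hx
    exact (hmem x).1 hx
  · rw [Subgroup.index_ker]
    have h1 : Nat.card φ.range ∣ p := by
      rw [← hKp]; exact Subgroup.card_subgroup_dvd_card _
    rcases (Nat.dvd_prime hp).1 h1 with h | h
    · exfalso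
      apply hzc
      rw [Subgroup.mem_center_iff]
      intro g
      rw [← hmem, MonoidHom.mem_ker]
      have h2 : φ.range = ⊥ := Subgroup.card_eq_one.1 h
      have h3 : φ g ∈ φ.range := ⟨g, rfl⟩
      rw [h2] at h3
      exact Subgroup.mem_bot.1 h3
    · exact h


theorem card_eq_sq_mul {G : Type*} [Group G] [Finite G] (p : ℕ) (hp : p.Prime)
    (hcd : ∀ χ : G → ℂ, IsIrrCharacter G χ → χ 1 = 1 ∨ χ 1 = (p : ℂ))
    (A : Subgroup G) [hA : A.Normal] (K : Subgroup G) (hKc : K ≤ Subgroup.center G)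
    (hKp : Nat.card K = p) (hAK : ∀ a b : A, ((a * b * a⁻¹ * b⁻¹ : A) : G) ∈ K)
    (hAna : ∃ a b : A, a * b ≠ b * a) :
    Nat.card A = p ^ 2 * Nat.card (Subgroup.center A) := by
  classical
  have : Fact p.Prime := ⟨hp⟩
  have := Fintype.ofFinite G
  obtain ⟨a, b, hab⟩ := hAna
  have hd : ((a * b * a⁻¹ * b⁻¹ : A) : G) ≠ 1 := by
    intro h
    apply hab
    have h' : a * b * a⁻¹ * b⁻¹ = 1 := Subtype.ext h
    calc a * b = (a * b * a⁻¹ * b⁻¹) * (b * a) := by group
      _ = b * a := by rw [h', one_mul]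
  obtain ⟨χ, hχd, -⟩ := exists_irr_two _ _ hd hd
  have hψ := irr_restrict_of_comm p hp hcd A χ.2 a b hχd
  have hχ1 : (χ : G → ℂ) 1 = (p : ℂ) := by
    rcases hcd χ χ.2 with h | h
    · exfalso
      apply hχd
      have := S4458.linear_comm (irr_char χ.2) h (a : G) (b : G)
      rw [h, ← this]
      simp
    · exact h
  have hvan : ∀ x : A, x ∉ Subgroup.center A → (fun x : A => (χ : G → ℂ) x) x = 0 := by
    intro x hx
    rw [Subgroup.mem_center_iff] at hx
    push Not at hx
    obtain ⟨y, hy⟩ := hx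
    have hcK : ((x⁻¹ * y⁻¹ * x * y : A) : G) ∈ K := by
      have := hAK x⁻¹ y⁻¹
      rwa [inv_inv, inv_inv] at this
    have hc1 : ((x⁻¹ * y⁻¹ * x * y : A) : G) ≠ 1 := by
      intro h
      apply hy
      have h' : x⁻¹ * y⁻¹ * x * y = 1 := Subtype.ext h
      calc y * x = y * x * (x⁻¹ * y⁻¹ * x * y) := by rw [h', mul_one]
        _ = x * y := by group
    apply irr_eq_zero_of_comm hψ x y
    · rw [Subgroup.mem_center_iff]
      intro t
      exact Subtype.ext (Subgroup.mem_center_iff.1 (hKc hcK) t)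
    · intro h
      apply hχd
      have hpow := mem_powers_of_prime_card (G := K) hKp (g := ⟨_, hcK⟩)
        (g' := ⟨_, hAK a b⟩) (fun h => hc1 (congrArg Subtype.val h))
      obtain ⟨k, hk⟩ := hpow
      have hk' : ((x⁻¹ * y⁻¹ * x * y : A) : G) ^ k = ((a * b * a⁻¹ * b⁻¹ : A) : G) :=
        congrArg Subtype.val hk
      rw [← hk']
      exact irr_central_pow χ.2 (hKc hcK) h k
  have h1 := (vanishes_off_iff (Subgroup.center A) (fun x : A => (χ : G → ℂ) x)).1 hvan
  rw [irr_inner_self hψ, mul_one] at h1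
  unfold classInner at h1
  rw [mul_inv_cancel_left₀ (card_ne_zero _)] at h1
  have h2 : ∀ z : Subgroup.center A, (χ : G → ℂ) ((z : A) : G) * conj ((χ : G → ℂ) ((z : A) : G))
      = (p : ℂ) ^ 2 := by
    intro z
    have := irr_central_norm hψ z.2
    simp only [OneMemClass.coe_one] at this
    rw [this, hχ1]; ring
  rw [Finset.sum_congr rfl (fun z _ => h2 z), Finset.sum_const, Finset.card_univ, nsmul_eq_mul,
    ← Nat.card_eq_fintype_card] at h1
  have h3 : ((Nat.card A : ℕ) : ℂ) = ((p ^ 2 * Nat.card (Subgroup.center A) : ℕ) : ℂ) := by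
    push_cast; rw [h1]; ring
  exact_mod_cast h3


universe u

theorem main_aux (p : ℕ) (hp : p.Prime) : ∀ (n : ℕ) (G : Type u) [Group G] [Finite G],
    Nat.card G = n → Group.IsNilpotent G → IsPGroup p (commutator G) →
    (∀ χ : G → ℂ, IsIrrCharacter G χ → χ 1 = 1 ∨ χ 1 = (p : ℂ)) →
    (∃ a b : G, a * b ≠ b * a) →
    (∃ A : Subgroup G, A.Normal ∧ (∀ a ∈ A, ∀ b ∈ A, a * b = b * a) ∧ A.index = p) ∨
      (Subgroup.center G).index = p ^ 3 := by
  intro n
  induction n using Nat.strong_induction_on with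
  | _ n ih =>
  intro G _ _ hn hnil hpG hcd hna
  have : Fact p.Prime := ⟨hp⟩
  by_cases hno : ∃ A : Subgroup G, A.Normal ∧ (∀ a ∈ A, ∀ b ∈ A, a * b = b * a) ∧ A.index = p
  · exact Or.inl hno
  right
  -- a central subgroup of order p
  have hG' : commutator G ≠ ⊥ := by
    intro h
    obtain ⟨a, b, hab⟩ := hna
    apply hab
    have h1 : a * b * a⁻¹ * b⁻¹ ∈ commutator G := by
      rw [commutator_eq_closure]; exact Subgroup.subset_closure ⟨a, b, rfl⟩
    rw [h, Subgroup.mem_bot] at h1
    calc a * b = (a * b * a⁻¹ * b⁻¹) * (b * a) := by group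
      _ = b * a := by rw [h1, one_mul]
  have hD := Helper1.normal_inf_center_ne_bot hG'
  have hDp : IsPGroup p (commutator G ⊓ Subgroup.center G : Subgroup G) :=
    hpG.to_le inf_le_left
  obtain ⟨k, hk⟩ : ∃ k : (commutator G ⊓ Subgroup.center G : Subgroup G), orderOf k = p := by
    apply exists_prime_orderOf_dvd_card' p
    obtain ⟨j, hj⟩ := hDp.exists_card_eq
    rw [hj]
    apply dvd_pow_self
    rintro rfl
    rw [pow_zero] at hj
    exact hD (Subgroup.card_eq_one.1 hj)
  set K : Subgroup G := Subgroup.zpowers (k : G) with hK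
  have hKp : Nat.card K = p := by rw [hK, Nat.card_zpowers, Subgroup.orderOf_coe, hk]
  have hKc : K ≤ Subgroup.center G := by
    rw [hK, Subgroup.zpowers_le]; exact k.2.2
  have hKn : K.Normal := Helper1.normal_of_le_center hKc
  have hZ := central_of_mod p hp hcd hno K hKc hKp
  have hcommK : ∀ a b : G, (a : G ⧸ K) * b = b * a → a * b * a⁻¹ * b⁻¹ ∈ K := by
    intro a b h
    rw [← QuotientGroup.eq_one_iff, QuotientGroup.mk_mul, QuotientGroup.mk_mul,
      QuotientGroup.mk_mul, h, QuotientGroup.mk_inv, QuotientGroup.mk_inv]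
    group
  have hnaQ : ∃ a b : G ⧸ K, a * b ≠ b * a := by
    by_contra hcon
    push Not at hcon
    obtain ⟨a, b, hab⟩ := hna
    apply hab
    have := hZ b (fun g => hcommK g b (hcon _ _))
    exact Subgroup.mem_center_iff.1 this a
  have hlt : Nat.card (G ⧸ K) < n := by
    have h1 := Subgroup.card_eq_card_quotient_mul_card_subgroup K
    rw [hn, hKp] at h1
    have h2 : 0 < Nat.card (G ⧸ K) := Nat.card_pos
    have h3 := hp.two_le
    nlinarith
  have hnilQ : Group.IsNilpotent (G ⧸ K) :=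
    Group.nilpotent_of_surjective (QuotientGroup.mk' K) (QuotientGroup.mk'_surjective K)
  have hpQ : IsPGroup p (commutator (G ⧸ K)) := by
    have h1 : commutator (G ⧸ K) = (commutator G).map (QuotientGroup.mk' K) := by
      rw [commutator_def, commutator_def, Subgroup.map_commutator,
        Subgroup.map_top_of_surjective _ (QuotientGroup.mk'_surjective K)]
    rw [h1]
    exact hpG.map _
  have hcdQ : ∀ χ : G ⧸ K → ℂ, IsIrrCharacter (G ⧸ K) χ → χ 1 = 1 ∨ χ 1 = (p : ℂ) :=
    fun χ hχ => hcd _ (Helper80.isIrrCharacter_inflate K hχ)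
  rcases ih _ hlt (G ⧸ K) rfl hnilQ hpQ hcdQ hnaQ with ⟨Ab, hAbn, hAbab, hAbi⟩ | hcen
  · set A : Subgroup G := Ab.comap (QuotientGroup.mk' K) with hA
    have hAn : A.Normal := hAbn.comap _
    have hAi : A.index = p := by
      rw [hA, Subgroup.index_comap_of_surjective _ (QuotientGroup.mk'_surjective K), hAbi]
    have hAK : ∀ a b : A, ((a * b * a⁻¹ * b⁻¹ : A) : G) ∈ K := by
      intro a b
      exact hcommK a b (hAbab _ a.2 _ b.2)
    have hAna : ∃ a b : A, a * b ≠ b * a := by
      by_contra hcon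
      push Not at hcon
      exact hno ⟨A, hAn, fun a ha b hb => congrArg Subtype.val (hcon ⟨a, ha⟩ ⟨b, hb⟩), hAi⟩
    have hZA := center_le p hp hcd A hAna
    have hZle : Subgroup.center G ≤ A := by
      by_contra hcon
      have hlt' : A < A ⊔ Subgroup.center G := by
        refine lt_of_le_of_ne le_sup_left ?_
        intro h
        apply hcon
        rw [h]; exact le_sup_right
      have h1 := Subgroup.index_strictAnti hlt'
      have h2 := Subgroup.index_dvd_of_le (le_of_lt hlt')
      rw [hAi] at h1 h2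
      have h3 : (A ⊔ Subgroup.center G).index = 1 := by
        rcases (Nat.dvd_prime hp).1 h2 with h | h
        · exact h
        · omega
      have htop : A ⊔ Subgroup.center G = ⊤ := Subgroup.index_eq_one.1 h3
      obtain ⟨a, b, hab⟩ := hAna
      apply hab
      have hb : (b : G) ∈ Subgroup.center G := by
        apply hZ
        intro g
        obtain ⟨x, hx, c, hc, rfl⟩ := S4461.exists_mul_of_sup A (Subgroup.center G) htop g
        have hc' := Subgroup.mem_center_iff.1 hc
        have e : x * c * b * (x * c)⁻¹ * (b : G)⁻¹ = x * b * x⁻¹ * (b : G)⁻¹ := by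
          calc x * c * b * (x * c)⁻¹ * (b : G)⁻¹ = x * (c * b) * c⁻¹ * x⁻¹ * (b : G)⁻¹ := by group
            _ = x * (b * c) * c⁻¹ * x⁻¹ * (b : G)⁻¹ := by rw [hc' b]
            _ = x * b * x⁻¹ * (b : G)⁻¹ := by group
        rw [e]
        exact hAK ⟨x, hx⟩ b
      exact Subtype.ext (Subgroup.mem_center_iff.1 hb a)
    have hmap : (Subgroup.center A).map A.subtype = Subgroup.center G := by
      ext x
      constructor
      · rintro ⟨a, ha, rfl⟩
        apply hZA _ a.2
        intro y hy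
        exact congrArg Subtype.val (Subgroup.mem_center_iff.1 ha ⟨y, hy⟩)
      · intro hx
        refine ⟨⟨x, hZle hx⟩, ?_, rfl⟩
        show (⟨x, hZle hx⟩ : A) ∈ Subgroup.center A
        rw [Subgroup.mem_center_iff]
        intro y
        exact Subtype.ext (Subgroup.mem_center_iff.1 hx y)
    have hcardZ : Nat.card (Subgroup.center A) = Nat.card (Subgroup.center G) := by
      rw [← hmap, Subgroup.card_map_of_injective A.subtype_injective]
    have h1 := card_eq_sq_mul p hp hcd A K hKc hKp hAK hAna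
    have h2 := Subgroup.card_mul_index A
    have h3 := Subgroup.card_mul_index (Subgroup.center G)
    rw [h1, hAi, hcardZ, ← h3] at h2
    have hpos : 0 < Nat.card (Subgroup.center G) := Nat.card_pos
    have h4 : Nat.card (Subgroup.center G) * p ^ 3
        = Nat.card (Subgroup.center G) * (Subgroup.center G).index := by
      rw [← h2]; ring
    exact (Nat.eq_of_mul_eq_mul_left hpos h4).symm
  · have hmap : Subgroup.center (G ⧸ K) = (Subgroup.center G).map (QuotientGroup.mk' K) := by
      ext x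
      obtain ⟨z, rfl⟩ := QuotientGroup.mk_surjective x
      constructor
      · intro hz
        refine ⟨z, ?_, rfl⟩
        apply hZ
        intro g
        exact hcommK g z (Subgroup.mem_center_iff.1 hz g)
      · rintro ⟨c, hc, hcz⟩
        rw [← hcz, Subgroup.mem_center_iff]
        intro y
        obtain ⟨g, rfl⟩ := QuotientGroup.mk_surjective y
        show (g : G ⧸ K) * (c : G ⧸ K) = (c : G ⧸ K) * (g : G ⧸ K)
        rw [← QuotientGroup.mk_mul, ← QuotientGroup.mk_mul, Subgroup.mem_center_iff.1 hc g]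
    rw [hmap, Subgroup.index_map_eq _ (QuotientGroup.mk'_surjective K)
      (by rw [QuotientGroup.ker_mk']; exact hKc)] at hcen
    exact hcen


theorem sq_le_index_center {G : Type*} [Group G] [Finite G] {χ : G → ℂ} (hχ : IsIrrCharacter G χ) :
    charDegree χ ^ 2 ≤ (Subgroup.center G).index := by
  classical
  have := Fintype.ofFinite G
  have h1 := card_mul_norm_split (Subgroup.center G) χ
  rw [irr_inner_self hχ, mul_one] at h1
  unfold classInner at h1
  rw [mul_inv_cancel_left₀ (card_ne_zero _)] at h1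
  have h2 : ∀ z : Subgroup.center G, χ (z : G) * conj (χ (z : G)) = ((charDegree χ : ℕ) : ℂ) ^ 2 := by
    intro z
    rw [irr_central_norm hχ z.2, Helper80.char_one_eq_charDegree (irr_char hχ)]; ring
  rw [Finset.sum_congr rfl (fun z _ => h2 z), Finset.sum_const, Finset.card_univ, nsmul_eq_mul,
    ← Nat.card_eq_fintype_card] at h1
  have h3 : ∑ g ∈ Finset.univ.filter (fun g : G => g ∉ Subgroup.center G), χ g * conj (χ g)
      = ((∑ g ∈ Finset.univ.filter (fun g : G => g ∉ Subgroup.center G),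
          Complex.normSq (χ g) : ℝ) : ℂ) := by
    push_cast
    apply Finset.sum_congr rfl
    intro g _
    rw [Complex.mul_conj]
  rw [h3] at h1
  have h4 : (Nat.card G : ℝ) = (Nat.card (Subgroup.center G) : ℝ) * (charDegree χ : ℝ) ^ 2 +
      ∑ g ∈ Finset.univ.filter (fun g : G => g ∉ Subgroup.center G), Complex.normSq (χ g) := by
    exact_mod_cast h1
  have h5 : 0 ≤ ∑ g ∈ Finset.univ.filter (fun g : G => g ∉ Subgroup.center G),
      Complex.normSq (χ g) := Finset.sum_nonneg (fun g _ => Complex.normSq_nonneg _)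
  have h6 : (Nat.card (Subgroup.center G) : ℝ) * (charDegree χ : ℝ) ^ 2 ≤ (Nat.card G : ℝ) := by
    linarith
  have h7 : Nat.card (Subgroup.center G) * charDegree χ ^ 2 ≤ Nat.card G := by exact_mod_cast h6
  rw [← Subgroup.card_mul_index (Subgroup.center G)] at h7
  exact Nat.le_of_mul_le_mul_left h7 Nat.card_pos

/-- Let G be a non-abelian finite group and p a prime. Then the irreducible character degrees of G are exactly 1 and p if and only if either G has an abelian normal subgroup of index p or the centre of G has index p³. -/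
theorem result {G : Type*} [Group G] [Finite G] (hG : ∃ a b : G, a * b ≠ b * a) (p : ℕ) (hp : p.Prime) : ((∀ χ : Cfsg.IrrCharacter G, Cfsg.charDegree (χ : G → ℂ) = 1 ∨ Cfsg.charDegree (χ : G → ℂ) = p) ∧ ∃ χ : Cfsg.IrrCharacter G, Cfsg.charDegree (χ : G → ℂ) = p) ↔ ((∃ A : Subgroup G, A.Normal ∧ (∀ a ∈ A, ∀ b ∈ A, a * b = b * a) ∧ A.index = p) ∨ (Subgroup.center G).index = p ^ 3) := by
  classical
  have : Fact p.Prime := ⟨hp⟩
  constructor
  · rintro ⟨hcd, hm⟩
    have hcd' : ∀ χ : G → ℂ, IsIrrCharacter G χ → χ 1 = 1 ∨ χ 1 = (p : ℂ) := by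
      intro χ hχ
      rw [Helper80.char_one_eq_charDegree (irr_char hχ)]
      rcases hcd ⟨χ, hχ⟩ with h | h
      · left; simp only at h; rw [h]; simp
      · right; simp only at h; rw [h]
    rcases S4457.result p hcd hm hp.ne_one with h |
      ⟨q, e, hq, hpe, P, A, hPn, hAn, hP, hAab, hinf, hsup⟩
    · exact Or.inl h
    · obtain ⟨rfl, -⟩ := (Nat.Prime.pow_eq_iff hp).1 hpe.symm
      have hPnil : Group.IsNilpotent P := IsPGroup.isNilpotent hP
      have hAnil : Group.IsNilpotent A := by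
        letI : CommGroup A := { (inferInstance : Group A) with
          mul_comm := fun a b => Subtype.ext (hAab a a.2 b b.2) }
        exact CommGroup.isNilpotent
      have hnil0 := Helper91.isNilpotent_sup P A hPnil hAnil
      rw [hsup] at hnil0
      have hnil : Group.IsNilpotent G := Group.nilpotent_of_mulEquiv Subgroup.topEquiv
      have hle : commutator G ≤ P := by
        apply S4458.commutator_le_of
        intro a b
        obtain ⟨x, hx, s, hs, rfl⟩ := S4461.exists_mul_of_sup P A hsup a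
        obtain ⟨y, hy, t, ht, rfl⟩ := S4461.exists_mul_of_sup P A hsup b
        have hx' : (x : G ⧸ P) = 1 := (QuotientGroup.eq_one_iff x).2 hx
        have hy' : (y : G ⧸ P) = 1 := (QuotientGroup.eq_one_iff y).2 hy
        have hst : (s : G ⧸ P) * (t : G ⧸ P) = (t : G ⧸ P) * (s : G ⧸ P) := by
          rw [← QuotientGroup.mk_mul, ← QuotientGroup.mk_mul, hAab s hs t ht]
        rw [← QuotientGroup.eq_one_iff]
        simp only [QuotientGroup.mk_mul, QuotientGroup.mk_inv, hx', hy', one_mul]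
        rw [hst]; group
      exact main_aux q hp _ G rfl hnil (hP.to_le hle) hcd' hG
  · intro h
    have hdeg : ∀ χ : Cfsg.IrrCharacter G,
        Cfsg.charDegree (χ : G → ℂ) = 1 ∨ Cfsg.charDegree (χ : G → ℂ) = p := by
      intro χ
      rcases h with ⟨A, hAn, hAab, hAi⟩ | hcen
      · obtain ⟨χ, n, ρ, hirr, rfl⟩ := χ
        have h1 := S0169.result ρ A hAab
        rw [Module.finrank_fin_fun, hAi] at h1
        simp only [Helper80.charDegree_of_rep]
        exact (Nat.dvd_prime hp).1 h1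
      · have h2 := sq_le_index_center χ.2
        obtain ⟨χ, n, ρ, hirr, rfl⟩ := χ
        have h1 := S0179.result ρ
        rw [Module.finrank_fin_fun, hcen] at h1
        simp only [Helper80.charDegree_of_rep] at h2 ⊢
        rw [hcen] at h2
        obtain ⟨j, hj, rfl⟩ := (Nat.dvd_prime_pow hp).1 h1
        rw [← pow_mul] at h2
        have h3 : j * 2 ≤ 3 := (Nat.pow_le_pow_iff_right hp.one_lt).1 h2
        have h4 : j = 0 ∨ j = 1 := by omega
        rcases h4 with rfl | rfl
        · left; simp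
        · right; simp
    refine ⟨hdeg, ?_⟩
    by_contra hcon
    push Not at hcon
    obtain ⟨a, b, hab⟩ := hG
    apply hab
    apply (S0187.result).2
    intro χ
    rw [Helper80.char_one_eq_charDegree (irr_char χ.2)]
    rcases hdeg χ with h1 | h1
    · rw [h1]; simp
    · exact absurd h1 (hcon χ)

end Cfsg.Agent.S4459
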