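import Cfsg.Statements.S4462
import Mathlib
import Cfsg.Agent.S4461

set_option autoImplicit false
open Cfsg
open Cfsg.Agent.Lib Cfsg.Agent.Lib.Helper15
open scoped ComplexConjugate

namespace Cfsg.Agent.S4462

universe u

/-- the section `B / A` is nilpotent -/
def Q {G : Type u} [Group G] (A B : Subgroup G) : Prop :=
  ∀ h : (A.subgroupOf B).Normal, Group.IsNilpotent (↥B ⧸ A.subgroupOf B)

/-- a normal chain of length `k` with nilpotent factors -/
def HasChain (G : Type u) [Group G] (k : ℕ) : Prop :=
  ∃ N : Fin (k + 1) → Subgroup G, N 0 = ⊥ ∧ N (Fin.last k) = ⊤ ∧ Monotone N ∧ (∀ i, (N i).Normal) ∧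
    ∀ i : Fin k, Q (N i.castSucc) (N i.succ)

theorem Q_comap {G H : Type u} [Group G] [Group H] (π : G →* H) (hπ : Function.Surjective π)
    (A B : Subgroup H) [hA : A.Normal] (h : Q A B) : Q (A.comap π) (B.comap π) := by
  intro hn
  haveI hn0 : (A.subgroupOf B).Normal := inferInstance
  haveI := h hn0
  let f : ↥(B.comap π) →* ↥B := π.subgroupComap B
  have hf : Function.Surjective f := π.subgroupComap_surjective_of_surjective B hπ
  let g : ↥(B.comap π) →* ↥B ⧸ A.subgroupOf B := (QuotientGroup.mk' (A.subgroupOf B)).comp f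
  have hg : Function.Surjective g := (QuotientGroup.mk'_surjective _).comp hf
  have hker : (A.comap π).subgroupOf (B.comap π) = g.ker := by
    ext x
    rw [MonoidHom.mem_ker, Subgroup.mem_subgroupOf, Subgroup.mem_comap]
    show _ ↔ (QuotientGroup.mk' (A.subgroupOf B)) (f x) = 1
    rw [QuotientGroup.mk'_apply, QuotientGroup.eq_one_iff, Subgroup.mem_subgroupOf]
    rfl
  let e1 := QuotientGroup.quotientMulEquivOfEq hker
  let e2 := QuotientGroup.quotientKerEquivOfSurjective g hg
  exact Group.nilpotent_of_mulEquiv (e1.trans e2).symm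

theorem Q_bot {G : Type u} [Group G] (B : Subgroup G) (hB : Group.IsNilpotent B) : Q ⊥ B := by
  intro hn
  infer_instance

theorem cons_chain {G H : Type u} [Group G] [Group H] (π : G →* H) (hπ : Function.Surjective π)
    (hker : Group.IsNilpotent π.ker) (m : ℕ) (h : HasChain H m) : HasChain G (m + 1) := by
  obtain ⟨N, h0, hl, hmono, hnorm, hq⟩ := h
  refine ⟨Fin.cons ⊥ (fun i => (N i).comap π), ?_, ?_, ?_, ?_, ?_⟩
  · rfl
  · rw [← Fin.succ_last, Fin.cons_succ, hl, Subgroup.comap_top]
  · intro i j hij
    induction i using Fin.cases with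
    | zero => simp
    | succ i =>
      induction j using Fin.cases with
      | zero => exact absurd hij (by simp [Fin.le_def])
      | succ j =>
        rw [Fin.cons_succ, Fin.cons_succ]
        exact Subgroup.comap_mono (hmono (Fin.succ_le_succ_iff.1 hij))
  · intro i
    induction i using Fin.cases with
    | zero => rw [Fin.cons_zero]; infer_instance
    | succ i => rw [Fin.cons_succ]; exact (hnorm i).comap π
  · intro i
    induction i using Fin.cases with
    | zero =>
      rw [Fin.castSucc_zero, Fin.cons_zero, Fin.cons_succ, h0]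
      apply Q_bot
      exact hker
    | succ i =>
      rw [← Fin.succ_castSucc, Fin.cons_succ, Fin.cons_succ]
      haveI := hnorm i.castSucc
      exact Q_comap π hπ _ _ (hq i)

theorem pad {G : Type u} [Group G] (m j : ℕ) (h : HasChain G m) : HasChain G (m + j) := by
  induction j with
  | zero => exact h
  | succ j ih =>
    have hk : Group.IsNilpotent (MonoidHom.id G).ker := by
      have : (MonoidHom.id G).ker = ⊥ := by
        ext x; simp [MonoidHom.mem_ker]
      rw [this]; infer_instance
    exact cons_chain (MonoidHom.id G) Function.surjective_id hk _ ih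

theorem chain_zero (G : Type u) [Group G] [Subsingleton G] : HasChain G 0 :=
  ⟨fun _ => ⊥, rfl, Subsingleton.elim _ _, fun _ _ _ => le_rfl, fun _ => inferInstance,
    fun i => i.elim0⟩

/-- the set of character degrees -/
def S (G : Type u) [Group G] : Set ℕ := {d | ∃ χ : IrrCharacter G, charDegree (χ : G → ℂ) = d}

theorem S_finite (G : Type u) [Group G] [Finite G] : (S G).Finite := by
  have : S G = Set.range (fun χ : IrrCharacter G => charDegree (χ : G → ℂ)) := by
    ext d; simp [S]
  rw [this]
  exact Set.finite_range _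

theorem S_nonempty (G : Type u) [Group G] [Finite G] : (S G).Nonempty :=
  ⟨_, ⟨⟨_, Helper15.irr_one⟩, rfl⟩⟩

theorem S_quot_ssubset (G : Type u) [Group G] [Finite G] [Group.IsSolvable G]
    (hF : fittingSubgroup G ≠ ⊤) [hn : (fittingSubgroup G).Normal] :
    S (G ⧸ fittingSubgroup G) ⊂ S G := by
  have hsub : S (G ⧸ fittingSubgroup G) ⊆ S G := by
    rintro d ⟨χ, rfl⟩
    exact ⟨⟨_, Helper80.isIrrCharacter_inflate _ χ.2⟩, rfl⟩
  refine ⟨hsub, fun hcon => ?_⟩
  obtain ⟨b, hb, hmax⟩ := Set.exists_max_image (S G) id (S_finite G) (S_nonempty G)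
  obtain ⟨χb, hχb⟩ := hcon hb
  set χ : IrrCharacter G := ⟨_, Helper80.isIrrCharacter_inflate _ χb.2⟩ with hχ
  have hdeg : charDegree (χ : G → ℂ) = b := hχb
  set K := Helper80.charKer (χ : G → ℂ) (irr_char χ.2) with hK
  haveI : K.Normal := Helper80.charKer_normal _
  have hFK : fittingSubgroup G ≤ K := by
    intro x hx
    rw [hK, Helper80.mem_charKer]
    show (χb : _ → ℂ) (x : G ⧸ fittingSubgroup G) = (χb : _ → ℂ) ((1 : G) : G ⧸ fittingSubgroup G)
    rw [(QuotientGroup.eq_one_iff x).2 hx]
    rfl
  have hcond : ¬ K ≤ fittingSubgroup G ∨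
      (K = fittingSubgroup G ∧ Group.IsSolvable (G ⧸ K) ∧ K ≠ ⊤) := by
    by_cases hle : K ≤ fittingSubgroup G
    · right
      have heq : K = fittingSubgroup G := le_antisymm hle hFK
      exact ⟨heq, inferInstance, heq ▸ hF⟩
    · left; exact hle
  obtain ⟨ψ, hψ, -⟩ := Cfsg.Agent.S4461.result χ K (fun g => Helper80.mem_charKer _ g) hcond
  have := hmax _ ⟨ψ, rfl⟩
  simp only [id] at this
  omega

theorem main (c : ℕ) : ∀ (G : Type u) [Group G] [Finite G], Group.IsSolvable G → Nat.card G = c →
    HasChain G (S G).ncard := by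
  induction c using Nat.strong_induction_on with
  | _ c ih =>
    intro G _ _ hsol hc
    haveI hn : (fittingSubgroup G).Normal := Helper91.fittingSubgroup_normal
    have hnil : Group.IsNilpotent (fittingSubgroup G) := Helper91.fittingSubgroup_isNilpotent
    have hker : Group.IsNilpotent (QuotientGroup.mk' (fittingSubgroup G)).ker := by
      rw [QuotientGroup.ker_mk']; exact hnil
    have hpos : 0 < (S G).ncard := (Set.ncard_pos (S_finite G)).2 (S_nonempty G)
    by_cases hF : fittingSubgroup G = ⊤
    · haveI : Subsingleton (G ⧸ fittingSubgroup G) := QuotientGroup.subsingleton_iff.2 hF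
      have h1 := cons_chain (QuotientGroup.mk' (fittingSubgroup G))
        (QuotientGroup.mk'_surjective _) hker 0 (chain_zero _)
      have h2 := pad (0 + 1) ((S G).ncard - 1) h1
      have e : 0 + 1 + ((S G).ncard - 1) = (S G).ncard := by omega
      rwa [e] at h2
    · have hlt := Set.ncard_lt_ncard (S_quot_ssubset G hF) (S_finite G)
      haveI : Nontrivial G := by
        by_contra hcon
        rw [not_nontrivial_iff_subsingleton] at hcon
        exact hF (Subsingleton.elim _ _)
      have hFbot : fittingSubgroup G ≠ ⊥ := by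
        obtain ⟨p, N, hp, hNn, hN0, hNp, -, -⟩ :=
          Helper1.exists_normal_pSubgroup_of_solvable (G := G)
        haveI : Fact p.Prime := ⟨hp⟩
        intro hbot
        apply hN0
        rw [eq_bot_iff, ← hbot]
        haveI := hNn
        exact Helper91.le_fittingSubgroup N hNp.isNilpotent
      have hcard : Nat.card (G ⧸ fittingSubgroup G) < c := by
        rw [← hc, ← Subgroup.index_eq_card, ← (fittingSubgroup G).card_mul_index]
        have h1 : 1 < Nat.card (fittingSubgroup G) := by
          rw [Subgroup.one_lt_card_iff_ne_bot]; exact hFbot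
        have h2 : 0 < (fittingSubgroup G).index := Nat.pos_of_ne_zero Subgroup.index_ne_zero_of_finite
        nlinarith
      have h0 := ih _ hcard (G ⧸ fittingSubgroup G) inferInstance rfl
      have h1 := cons_chain (QuotientGroup.mk' (fittingSubgroup G))
        (QuotientGroup.mk'_surjective _) hker _ h0
      have h2 := pad _ ((S G).ncard - ((S (G ⧸ fittingSubgroup G)).ncard + 1)) h1
      have e : (S (G ⧸ fittingSubgroup G)).ncard + 1 +
          ((S G).ncard - ((S (G ⧸ fittingSubgroup G)).ncard + 1)) = (S G).ncard := by omega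
      rwa [e] at h2

/-- Let G be a finite solvable group with exactly n distinct irreducible character degrees. Then G has normal subgroups 1 = N₀ ≤ N₁ ≤ ⋯ ≤ Nₙ = G with every quotient N_{i+1}/N_i nilpotent (the nilpotent length of G is at most n). -/
theorem result {G : Type*} [Group G] [Finite G] (hsolv : Group.IsSolvable G) (n : ℕ) (hcd : Nat.card {d : ℕ // ∃ χ : Cfsg.IrrCharacter G, Cfsg.charDegree (χ : G → ℂ) = d} = n) : ∃ N : Fin (n + 1) → Subgroup G, N 0 = ⊥ ∧ N (Fin.last n) = ⊤ ∧ Monotone N ∧ (∀ i, (N i).Normal) ∧ ∀ i : Fin n, ∀ h : (N i.castSucc).subgroupOf (N i.succ) |>.Normal, Group.IsNilpotent (↥(N i.succ) ⧸ (N i.castSucc).subgroupOf (N i.succ)) := by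
  have h := main _ G hsolv rfl
  have e : (S G).ncard = n := by
    rw [← hcd, ← Nat.card_coe_set_eq]
    rfl
  rw [e] at h
  exact h

end Cfsg.Agent.S4462
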