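import Cfsg.Statements.S4464
import Cfsg.Agent.Lib.Helper80.Induced
import Cfsg.Agent.Lib.Helper80.CoreDvd
import Cfsg.Agent.Lib.Helper15.PermChar
import Cfsg.Agent.Lib.Helper3.Perm

set_option autoImplicit false
open Cfsg

namespace Cfsg.Agent.S4464

open Cfsg.Agent.Lib.Helper74 Cfsg.Agent.Lib.Helper80
open scoped ComplexConjugate

/-- The norm of a character is the sum of the squares of its multiplicities. -/
theorem norm_eq_sum_sq {G : Type*} [Group G] [Fintype G] {Φ : G → ℂ} (hΦ : IsCharacter G Φ)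
    (m : IrrCharacter G → ℕ) (hm : ∀ χ : IrrCharacter G, classInner Φ (χ : G → ℂ) = m χ) :
    classInner Φ Φ = ((∑ χ : IrrCharacter G, m χ ^ 2 : ℕ) : ℂ) := by
  rw [Cfsg.Agent.Lib.Helper3.classInner_eq_sum_coeff (isClassFunction_of_char hΦ)]
  push_cast
  apply Finset.sum_congr rfl
  intro χ _
  rw [← classInner_conj_symm Φ, hm]
  simp [sq]

/-- Orbit counting: a group `N` acting on a finite set `Ω`, fixing `ω₀`, all other orbits of size at
least `p`. -/
theorem orbit_count {N Ω : Type*} [Group N] [MulAction N Ω] [Finite Ω] (ω₀ : Ω) (p : ℕ)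
    (h : ∀ ω : Ω, ω ≠ ω₀ → p ≤ Nat.card (MulAction.orbit N ω)) :
    1 + (Nat.card (MulAction.orbitRel.Quotient N Ω) - 1) * p ≤ Nat.card Ω := by
  classical
  have := Fintype.ofFinite (MulAction.orbitRel.Quotient N Ω)
  have e := MulAction.selfEquivSigmaOrbits' N Ω
  rw [Nat.card_congr e, Nat.card_sigma]
  let q₀ : MulAction.orbitRel.Quotient N Ω := Quotient.mk'' ω₀
  have h1 : ∀ q : MulAction.orbitRel.Quotient N Ω, (if q = q₀ then 1 else p) ≤ Nat.card q.orbit := by
    intro q
    induction q using Quotient.inductionOn' with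
    | h ω =>
      rw [MulAction.orbitRel.Quotient.orbit_mk]
      split_ifs with hq
      · have : Nonempty (MulAction.orbit N ω) := ⟨⟨ω, MulAction.mem_orbit_self ω⟩⟩
        exact Nat.card_pos
      · apply h
        rintro rfl
        exact hq rfl
  refine le_trans ?_ (Finset.sum_le_sum (fun q _ => h1 q))
  rw [Finset.sum_ite, Finset.sum_const, Finset.sum_const, Finset.filter_eq' , if_pos (Finset.mem_univ _),
    Finset.filter_ne', Finset.card_erase_of_mem (Finset.mem_univ _), Finset.card_univ,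
    Nat.card_eq_fintype_card]
  simp

/-- A group all of whose irreducible characters have degree `< p` has abelian `p`-subgroups. -/
theorem comm_of_degrees {G : Type*} [Group G] [Fintype G] (p : ℕ) [Fact p.Prime]
    (hb : ∀ χ : Cfsg.IrrCharacter G, Cfsg.charDegree (χ : G → ℂ) < p) (P : Subgroup G)
    (hP : IsPGroup p P) : ∀ a b : P, a * b = b * a := by
  classical
  rw [comm_iff_all_linear]
  intro θ
  have hθc := isCharacter_of_irr θ.2
  have hind := Cfsg.Agent.Lib.Helper3.isCharacter_indFun P hθc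
  have hne : indFun P (θ : P → ℂ) ≠ 0 := by
    intro h0
    have h1 := Cfsg.Agent.Lib.Helper3.indFun_one P (θ : P → ℂ)
    rw [h0] at h1
    have h2 := char_one_ne_zero_of_irr θ.2
    have h3 : (P.index : ℂ) ≠ 0 := by exact_mod_cast P.index_ne_zero_of_finite
    exact (mul_ne_zero h3 h2) h1.symm
  obtain ⟨χ, hχ⟩ := exists_constituent hind hne
  have h2 := (classInner_indFun_ne_zero_iff _ _
    (isClassFunction_of_char (isCharacter_of_irr χ.2))).1 hχ
  have h3 := charDegree_le_of_constituent (IsCharacter.restrict (isCharacter_of_irr χ.2) _) θ h2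
  have h4 : charDegree (fun h : P => (χ : G → ℂ) h) = charDegree (χ : G → ℂ) := rfl
  have h5 := charDegree_dvd_card θ
  obtain ⟨n, hn⟩ := IsPGroup.iff_card.1 hP
  rw [hn] at h5
  obtain ⟨k, -, hk⟩ := (Nat.dvd_prime_pow Fact.out).1 h5
  have h6 := hb χ
  have hk0 : k = 0 := by
    by_contra hk0
    have : p ≤ p ^ k := Nat.le_self_pow hk0 p
    omega
  rw [char_one_eq_charDegree hθc, hk, hk0]
  simp

/-- Let p be a prime and G a finite group all of whose irreducible character degrees are less than p. Then G has a normal abelian Sylow p-subgroup. -/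
theorem result {G : Type*} [Group G] [Finite G] (p : ℕ) (hp : p.Prime) (hb : ∀ χ : Cfsg.IrrCharacter G, Cfsg.charDegree (χ : G → ℂ) < p) : ∃ P : Subgroup G, P.Normal ∧ (∀ x ∈ P, ∀ y ∈ P, x * y = y * x) ∧ IsPGroup p P ∧ ¬ p ∣ P.index := by
  classical
  have : Fact p.Prime := ⟨hp⟩
  have := Fintype.ofFinite G
  obtain ⟨P⟩ : Nonempty (Sylow p G) := inferInstance
  have hab := comm_of_degrees p hb (P : Subgroup G) P.2
  refine ⟨P, ?_, fun x hx y hy => congrArg Subtype.val (hab ⟨x, hx⟩ ⟨y, hy⟩), P.2,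
    P.not_dvd_index⟩
  set N : Subgroup G := MulAction.stabilizer G P with hN
  set π : G → ℂ := fun g => (Nat.card (MulAction.fixedBy (Sylow p G) g) : ℂ) with hπdef
  have hπ : IsCharacter G π := Cfsg.Agent.Lib.Helper3.isCharacter_card_fixedBy (Sylow p G)
  have h1 : classInner π (fun _ => (1 : ℂ)) = 1 := by
    rw [Cfsg.Agent.Lib.Helper3.classInner_card_fixedBy_one,
      (Cfsg.Agent.Lib.Helper3.card_orbitRel_quotient_eq_one_iff (G := G) (Sylow p G)).2 inferInstance]
    simp
  have hππ : classInner π π = (Nat.card (MulAction.orbitRel.Quotient N (Sylow p G)) : ℂ) := by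
    have h2 : π = indFun N (fun _ => 1) :=
      funext (Cfsg.Agent.Lib.Helper15.card_fixedBy_eq_indFun (Sylow p G) P)
    calc classInner π π = classInner (indFun N (fun _ => 1)) π := by rw [← h2]
      _ = classInner (fun _ : N => (1 : ℂ)) (fun n : N => π n) :=
          Cfsg.Agent.Lib.Helper3.frobenius_reciprocity _ _ (isClassFunction_of_char hπ)
      _ = conj (classInner (fun n : N => π n) (fun _ : N => (1 : ℂ))) :=
          (classInner_conj_symm _ _).symm
      _ = conj (Nat.card (MulAction.orbitRel.Quotient N (Sylow p G)) : ℂ) := by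
          rw [← Cfsg.Agent.Lib.Helper3.classInner_card_fixedBy_one (G := N) (Sylow p G)]
          rfl
      _ = _ := by simp
  have hcount := orbit_count (N := N) (Ω := Sylow p G) P p (by
    intro Q hQ
    have hsub : MulAction.orbit (P : Subgroup G) Q ⊆ MulAction.orbit N Q := by
      rintro _ ⟨x, rfl⟩
      refine ⟨⟨x.1, ?_⟩, rfl⟩
      rw [hN, Sylow.stabilizer_eq_normalizer]
      exact Subgroup.le_normalizer x.2
    have h3 : Nat.card (MulAction.orbit (P : Subgroup G) Q) ≤ Nat.card (MulAction.orbit N Q) :=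
      Nat.card_mono (Set.toFinite _) hsub
    obtain ⟨n, hn⟩ := IsPGroup.card_orbit P.2 Q
    have hn0 : n ≠ 0 := by
      rintro rfl
      have := Fintype.ofFinite (MulAction.orbit (P : Subgroup G) Q)
      rw [pow_zero, Nat.card_eq_fintype_card, ← MulAction.mem_fixedPoints_iff_card_orbit_eq_one,
        IsPGroup.sylow_mem_fixedPoints_iff P.2] at hn
      exact hQ (Sylow.ext (P.3 Q.2 hn))
    have : p ≤ p ^ n := Nat.le_self_pow hn0 p
    omega)
  obtain ⟨m, hm, -, hdeg⟩ := exists_mult_spec hπ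
  have hnorm := norm_eq_sum_sq hπ m hm
  rw [hππ] at hnorm
  have hnorm' : Nat.card (MulAction.orbitRel.Quotient N (Sylow p G)) =
      ∑ χ : IrrCharacter G, m χ ^ 2 := by exact_mod_cast hnorm
  have hdegπ : charDegree π = Nat.card (Sylow p G) := by
    have h4 := char_one_eq_charDegree hπ
    have h5 : π 1 = (Nat.card (Sylow p G) : ℂ) := by
      have h6 : MulAction.fixedBy (Sylow p G) (1 : G) = Set.univ := by
        ext Q
        simp [MulAction.mem_fixedBy]
      simp only [hπdef, h6]
      rw [Nat.card_congr (Equiv.Set.univ _)]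
    rw [h5] at h4
    exact_mod_cast h4.symm
  have hm1 : m (Cfsg.Agent.Lib.Helper3.oneIrr G) = 1 := by
    have := hm (Cfsg.Agent.Lib.Helper3.oneIrr G)
    have h6 : ((Cfsg.Agent.Lib.Helper3.oneIrr G : IrrCharacter G) : G → ℂ) = fun _ => 1 := rfl
    rw [h6, h1] at this
    exact_mod_cast this.symm
  have hd1 : charDegree ((Cfsg.Agent.Lib.Helper3.oneIrr G : IrrCharacter G) : G → ℂ) = 1 := by
    simp [charDegree]
  rw [hdegπ, ← Finset.add_sum_erase _ _ (Finset.mem_univ (Cfsg.Agent.Lib.Helper3.oneIrr G)), hm1,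
    hd1] at hdeg
  rw [← Finset.add_sum_erase _ _ (Finset.mem_univ (Cfsg.Agent.Lib.Helper3.oneIrr G)), hm1]
    at hnorm'
  have hle : ∑ χ ∈ Finset.univ.erase (Cfsg.Agent.Lib.Helper3.oneIrr G),
      m χ * charDegree (χ : G → ℂ) ≤
      (∑ χ ∈ Finset.univ.erase (Cfsg.Agent.Lib.Helper3.oneIrr G), m χ ^ 2) * (p - 1) := by
    rw [Finset.sum_mul]
    apply Finset.sum_le_sum
    intro χ _
    have h7 := hb χ
    have h8 : charDegree (χ : G → ℂ) ≤ p - 1 := by omega
    calc m χ * charDegree (χ : G → ℂ) ≤ m χ * (p - 1) := Nat.mul_le_mul_left _ h8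
      _ ≤ m χ ^ 2 * (p - 1) := Nat.mul_le_mul_right _ (Nat.le_self_pow (by norm_num) _)
  set S := ∑ χ ∈ Finset.univ.erase (Cfsg.Agent.Lib.Helper3.oneIrr G), m χ ^ 2 with hS
  rw [hnorm'] at hcount
  have hp1 : 1 ≤ p := hp.one_lt.le
  have hS0 : S = 0 := by
    by_contra hS0
    have h9 : (1 ^ 2 + S - 1) * p = S * (p - 1) + S := by
      obtain ⟨q, rfl⟩ : ∃ q, p = q + 1 := ⟨p - 1, by omega⟩
      simp
      ring
    have : 0 < S := Nat.pos_of_ne_zero hS0
    omega
  have hcard : Nat.card (Sylow p G) ≤ 1 := by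
    rw [hS0] at hle
    omega
  have : Subsingleton (Sylow p G) := (Finite.card_le_one_iff_subsingleton).1 hcard
  exact Sylow.normal_of_subsingleton P

end Cfsg.Agent.S4464
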