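import Cfsg.Statements.S4468
import Cfsg.Agent.Lib.Helper76.SmallDeg
import Cfsg.Agent.Lib.Helper76.SmallDegG
import Cfsg.Agent.Lib.Helper76.CoverP
import Cfsg.Agent.Lib.Helper80.CoreDvd
import Cfsg.Agent.Lib.Helper15.LinearMul

set_option autoImplicit false
open Cfsg

namespace Cfsg.Agent.S4468

open Cfsg.Agent.Lib.Helper76 Cfsg.Agent.Lib.Helper15 Cfsg.Agent.Lib.Helper74 Cfsg.Agent.Lib.Lead

theorem comm_of_faithful_small {G : Type*} [Group G] [Finite G] {χ : G → ℂ}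
    (hχ : IsCharacter G χ) (hfaith : ∀ g : G, χ g = χ 1 → g = 1) {p : ℕ} (hp : p.Prime)
    (hdeg : charDegree χ < p) (P : Subgroup G) (hP : IsPGroup p P) :
    ∀ x ∈ P, ∀ y ∈ P, x * y = y * x := by
  classical
  have : Fact p.Prime := ⟨hp⟩
  intro x hx y hy
  obtain ⟨mm, hmm⟩ := IsCharacter.exists_mult (IsCharacter.restrict hχ P)
  have e2 : ∀ ψ : IrrCharacter P, (ψ : P → ℂ) 1 = (charDegree (ψ : P → ℂ) : ℂ) :=
    fun ψ => (IsCharacter.charDegree_eq (IrrCharacter.isCharacter ψ)).symm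
  have hdegχ : charDegree χ = ∑ ψ : IrrCharacter P, mm ψ * charDegree (ψ : P → ℂ) := by
    have e := congrFun hmm 1
    simp only [Finset.sum_apply, Pi.smul_apply, smul_eq_mul] at e
    have e' : χ 1 = ∑ ψ : IrrCharacter P, (mm ψ : ℂ) * (ψ : P → ℂ) 1 := e
    rw [← IsCharacter.charDegree_eq hχ] at e'
    simp only [e2] at e'
    exact_mod_cast e'
  have hlin : ∀ ψ : IrrCharacter P, mm ψ ≠ 0 → (ψ : P → ℂ) 1 = 1 := by
    intro ψ hψ
    have h1 : charDegree (ψ : P → ℂ) ≤ charDegree χ := by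
      calc charDegree (ψ : P → ℂ) ≤ mm ψ * charDegree (ψ : P → ℂ) :=
            Nat.le_mul_of_pos_left _ (Nat.pos_of_ne_zero hψ)
        _ ≤ ∑ ψ : IrrCharacter P, mm ψ * charDegree (ψ : P → ℂ) :=
          Finset.single_le_sum (f := fun ψ : IrrCharacter P => mm ψ * charDegree (ψ : P → ℂ))
            (fun _ _ => Nat.zero_le _) (Finset.mem_univ ψ)
        _ = _ := hdegχ.symm
    have h2 : charDegree (ψ : P → ℂ) ∣ Nat.card P :=
      Cfsg.Agent.Lib.Helper80.charDegree_dvd_card ψ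
    obtain ⟨n, hn⟩ := IsPGroup.iff_card.mp hP
    rw [hn] at h2
    obtain ⟨j, -, hj⟩ := (Nat.dvd_prime_pow hp).mp h2
    have hj0 : j = 0 := by
      by_contra hj0
      have : p ≤ p ^ j := Nat.le_self_pow hj0 p
      omega
    rw [e2, hj, hj0]
    simp
  have hcomm : χ (x * y * x⁻¹ * y⁻¹) = χ 1 := by
    have hw : x * y * x⁻¹ * y⁻¹ ∈ P :=
      P.mul_mem (P.mul_mem (P.mul_mem hx hy) (P.inv_mem hx)) (P.inv_mem hy)
    have e1 := congrFun hmm ⟨_, hw⟩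
    have e3 := congrFun hmm 1
    simp only [Finset.sum_apply, Pi.smul_apply, smul_eq_mul] at e1 e3
    have e1' : χ (x * y * x⁻¹ * y⁻¹) = _ := e1
    have e3' : χ 1 = _ := e3
    rw [e1', e3']
    apply Finset.sum_congr rfl
    intro ψ _
    by_cases h0 : mm ψ = 0
    · rw [h0]; simp
    · have hl := hlin ψ h0
      have hc := IrrCharacter.isCharacter ψ
      have hm := linear_mul hc hl
      have e4 : (⟨x * y * x⁻¹ * y⁻¹, hw⟩ : P) =
          (⟨x, hx⟩ : P) * ⟨y, hy⟩ * (⟨x, hx⟩ : P)⁻¹ * (⟨y, hy⟩ : P)⁻¹ := rfl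
      have hx1 : (ψ : P → ℂ) ⟨x, hx⟩ * (ψ : P → ℂ) (⟨x, hx⟩ : P)⁻¹ = 1 := by
        rw [← hm, mul_inv_cancel, hl]
      have hy1 : (ψ : P → ℂ) ⟨y, hy⟩ * (ψ : P → ℂ) (⟨y, hy⟩ : P)⁻¹ = 1 := by
        rw [← hm, mul_inv_cancel, hl]
      rw [e4, hm, hm, hm, hl]
      congr 1
      calc (ψ : P → ℂ) ⟨x, hx⟩ * (ψ : P → ℂ) ⟨y, hy⟩ * (ψ : P → ℂ) (⟨x, hx⟩ : P)⁻¹ *
            (ψ : P → ℂ) (⟨y, hy⟩ : P)⁻¹
          = ((ψ : P → ℂ) ⟨x, hx⟩ * (ψ : P → ℂ) (⟨x, hx⟩ : P)⁻¹) *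
            ((ψ : P → ℂ) ⟨y, hy⟩ * (ψ : P → ℂ) (⟨y, hy⟩ : P)⁻¹) := by ring
        _ = 1 := by rw [hx1, hy1, one_mul]
  have := hfaith _ hcomm
  have h2 := congrArg (fun t => t * y * x) this
  simpa [mul_assoc] using h2

/-- Let the finite p-solvable group G have a faithful character χ of degree n ≤ p − 1 and suppose that a Sylow p-subgroup of G is not normal. Then n = p − 1, n is a power of 2, and χ is irreducible. -/
theorem result {G : Type*} [Group G] [Finite G] (χ : G → ℂ) (hχ : Cfsg.IsCharacter G χ) (hfaith : ∀ g : G, χ g = χ 1 → g = 1) (n : ℕ) (hn : Cfsg.charDegree χ = n) (p : ℕ) (hp : p.Prime) (hsolv : Cfsg.IsPSolvable p G) (hnp : n + 1 ≤ p) (P : Sylow p G) (hP : ¬ (P : Subgroup G).Normal) : n + 1 = p ∧ (∃ k : ℕ, n = 2 ^ k) ∧ Cfsg.IsIrrCharacter G χ := by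
  classical
  have : Fact p.Prime := ⟨hp⟩
  subst hn
  have hab := comm_of_faithful_small hχ hfaith hp (by omega) (P : Subgroup G) P.2
  have hnc := not_centralizes_of_comm P hsolv hab hP
  set K := pPrimeCore p G with hK
  have hKcop : (Nat.card K).Coprime p := card_pPrimeCore_coprime p
  have hnc' : ∃ y ∈ (P : Subgroup G), ∃ k ∈ K, y * k ≠ k * y := by
    by_contra h
    push Not at h
    exact hnc (fun y hy k hk => (h y hy k hk).symm)
  obtain ⟨h1, h2⟩ := small_degree_main hp K hKcop (P : Subgroup G) P.2 hnc' hχ hfaith hnp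
  have hirr : IsIrrCharacter G χ := by
    have h3 := isIrrCharacter_restrict_of_le (le_top : K ≤ ⊤) hχ h2
    have h4 := irr_comp_equiv (Subgroup.topEquiv (G := G)).symm h3
    exact h4
  refine ⟨h1, ?_, hirr⟩
  have hcopPK : (Nat.card (P : Subgroup G)).Coprime (Nat.card K) := by
    obtain ⟨a, ha⟩ := IsPGroup.iff_card.mp P.2
    rw [ha]
    exact Nat.Coprime.pow_left a hKcop.symm
  have hsolvP : Group.IsSolvable (P : Subgroup G) :=
    Group.isSolvable_of_comm (fun a b => Subtype.ext (hab a a.2 b b.2))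
  obtain ⟨r, hr, R, hRK, hRp, hRn, y, hy, k, hk, hyk⟩ :=
    exists_invariant_sylow_not_centralized (P : Subgroup G) K
      (by rw [Subgroup.normalizer_eq_top]; exact le_top) hcopPK (Or.inl hsolvP) hnc
  have : Fact r.Prime := ⟨hr⟩
  set Γ₁ : Subgroup G := Subgroup.normalizer (R : Set G) with hΓ
  have hRΓ : R ≤ Γ₁ := Subgroup.le_normalizer
  let K₁ : Subgroup Γ₁ := R.subgroupOf Γ₁
  have hK₁n : K₁.Normal := Subgroup.normal_in_normalizer
  let P₁ : Subgroup Γ₁ := (P : Subgroup G).subgroupOf Γ₁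
  have hP₁ : IsPGroup p P₁ := P.2.comap_subtype
  have hcardK₁ : Nat.card K₁ = Nat.card R :=
    Nat.card_congr (Subgroup.subgroupOfEquivOfLe hRΓ).toEquiv
  have hK₁cop : (Nat.card K₁).Coprime p := by
    rw [hcardK₁]
    exact Nat.Coprime.of_dvd_left (Subgroup.card_dvd_of_le hRK) hKcop
  have hχ₁ : IsCharacter Γ₁ (fun x : Γ₁ => χ x) := IsCharacter.restrict hχ Γ₁
  have hf₁ : ∀ g : Γ₁, (fun x : Γ₁ => χ x) g = (fun x : Γ₁ => χ x) 1 → g = 1 :=
    fun g hg => Subtype.ext (hfaith g hg)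
  have hd₁ : charDegree (fun x : Γ₁ => χ x) = charDegree χ := rfl
  obtain ⟨-, h5⟩ := small_degree_main hp K₁ hK₁cop P₁ hP₁
    ⟨⟨y, hRn hy⟩, hy, ⟨k, hRΓ hk⟩, hk, fun h => hyk (congrArg Subtype.val h)⟩ hχ₁ hf₁
    (by rw [hd₁]; exact hnp)
  have h6 := Cfsg.Agent.Lib.Helper80.charDegree_dvd_card ⟨_, h5⟩
  have h7 : charDegree χ ∣ Nat.card R := by
    rw [← hcardK₁]
    exact h6
  obtain ⟨b, hb⟩ := IsPGroup.iff_card.mp hRp
  rw [hb] at h7
  obtain ⟨j, -, hj⟩ := (Nat.dvd_prime_pow hr).mp h7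
  rcases Nat.eq_zero_or_pos j with rfl | hjpos
  · exact ⟨0, by simpa using hj⟩
  · refine ⟨j, ?_⟩
    have hr2 : r = 2 := by
      have h8 : 2 ≤ r ^ j := le_trans hr.two_le (Nat.le_self_pow hjpos.ne' r)
      have hp3 : p ≠ 2 := by omega
      have hodd : Odd p := hp.odd_of_ne_two hp3
      have heven : Even (r ^ j) := by
        rw [← hj]
        obtain ⟨c, hc⟩ := hodd
        exact ⟨c, by omega⟩
      have h9 : 2 ∣ r := (Nat.prime_two.dvd_of_dvd_pow heven.two_dvd)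
      exact ((Nat.prime_dvd_prime_iff_eq Nat.prime_two hr).mp h9).symm
    rw [hj, hr2]

end Cfsg.Agent.S4468
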