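import Cfsg.Statements.S4470
import Cfsg.Agent.Lib.Helper79.JordanUnitary

set_option autoImplicit false
open Cfsg

namespace Cfsg.Agent.S4470

/-- Let the finite group G have a faithful character of degree n. Then G has an abelian normal subgroup A such that every abelian subgroup H of G satisfies [H : H ⊓ A] ≤ 12^n. -/
theorem result {G : Type*} [Group G] [Finite G] (χ : G → ℂ) (hχ : Cfsg.IsCharacter G χ) (hfaith : ∀ g : G, χ g = χ 1 → g = 1) (n : ℕ) (hn : Cfsg.charDegree χ = n) : ∃ A : Subgroup G, A.Normal ∧ (∀ x ∈ A, ∀ y ∈ A, x * y = y * x) ∧ ∀ H : Subgroup G, (∀ x ∈ H, ∀ y ∈ H, x * y = y * x) → (A.subgroupOf H).index ≤ 12 ^ n := by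
  obtain ⟨m, ρ, hρ⟩ := hχ
  have hχg : ∀ g, χ g = LinearMap.trace ℂ (Fin m → ℂ) (ρ g) := by
    intro g; rw [← hρ]; rfl
  have hm : m = n := by
    rw [← hn]
    unfold Cfsg.charDegree
    rw [hχg 1, map_one]
    simp
  subst hm
  let R : G →* Matrix (Fin m) (Fin m) ℂ :=
    { toFun := fun g => LinearMap.toMatrix' (ρ g)
      map_one' := by rw [map_one]; exact LinearMap.toMatrix'_one
      map_mul' := by intro g h; rw [map_mul]; exact LinearMap.toMatrix'_mul _ _ }
  have hR : ∀ g, R g = LinearMap.toMatrix' (ρ g) := fun g => rfl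
  obtain ⟨U, hU1, hU2, hU3⟩ := Cfsg.Agent.Lib.Helper79.Jordan.unitarize m R
  apply Cfsg.Agent.Lib.Helper79.Jordan.jordan_unitary m U hU1
  intro g hg
  apply hfaith
  have h1 := hU3 g hg
  rw [hR] at h1
  have h2 : ρ g = 1 := by
    have := congrArg Matrix.toLin' h1
    simpa [Module.End.one_eq_id] using this
  rw [hχg, hχg, h2, (map_one ρ)]

end Cfsg.Agent.S4470
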