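import Cfsg.Statements.S4469
import Cfsg.Agent.Lib.Helper35.BlichD
import Cfsg.Agent.S4470

set_option autoImplicit false
open Cfsg

namespace Cfsg.Agent.S4469

open Cfsg.Agent.Lib.Helper35

/-- The classical bound for finite linear groups, in explicit form. Let the finite group G have a faithful character of degree n. Then G has an abelian normal subgroup whose index is at most n! · 12^(n·(π(n+1)+1)), π(k) denoting the number of primes not exceeding k. -/
theorem result {G : Type*} [Group G] [Finite G] (χ : G → ℂ) (hχ : Cfsg.IsCharacter G χ) (hfaith : ∀ g : G, χ g = χ 1 → g = 1) (n : ℕ) (hn : Cfsg.charDegree χ = n) : ∃ A : Subgroup G, A.Normal ∧ (∀ x ∈ A, ∀ y ∈ A, x * y = y * x) ∧ A.index ≤ Nat.factorial n * 12 ^ (n * (Nat.primeCounting (n + 1) + 1)) := by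
  have hG : HasFaithful n G :=
    ⟨χ, hχ, hfaith, by rw [Cfsg.Agent.Lib.Helper80.char_one_eq_charDegree hχ, hn]⟩
  obtain ⟨A, hAn, hAc, hA⟩ := Cfsg.Agent.S4470.result χ hχ hfaith n hn
  refine ⟨A, hAn, hAc, ?_⟩
  have h1 := hG.index_le A hA
  rwa [← pow_mul] at h1

end Cfsg.Agent.S4469
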