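-- Statement S4473: see Cfsg/Statements/S4473.lean (frozen statement).
import Cfsg.Statements.S4473
import Cfsg.Agent.Lib.Helper41.Dickson.Classify
import Cfsg.Agent.Lib.Helper41.Dickson.GeomMob
import Cfsg.Agent.Lib.Helper3.Mono3
import Cfsg.Agent.Lib.Helper76.CharIrr

set_option autoImplicit false
open Cfsg

namespace Cfsg.Agent.S4473

open Cfsg.Agent.Lib.Helper41.Dickson Matrix OnePoint MulAction

/-- powers of an upper triangular matrix with equal diagonal entries -/
theorem pow_entries (g : Matrix (Fin 2) (Fin 2) ℂ) (h10 : g 1 0 = 0) (hd : g 0 0 = g 1 1) (k : ℕ) :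
    (g ^ k) 1 0 = 0 ∧ (g ^ k) 0 0 = g 0 0 ^ k ∧ (g ^ k) 1 1 = g 0 0 ^ k ∧
      g 0 0 * (g ^ k) 0 1 = k * g 0 0 ^ k * g 0 1 := by
  induction k with
  | zero => simp
  | succ k ih =>
    obtain ⟨i1, i2, i3, i4⟩ := ih
    rw [pow_succ]
    simp only [Matrix.mul_apply, Fin.sum_univ_two, i1, i2, i3, h10, ← hd]
    refine ⟨by ring, by ring, by ring, ?_⟩
    push_cast
    linear_combination (g 0 0) * i4

/-- a finite subgroup of `PGL₂(ℂ)` has no nontrivial unipotent elements -/
theorem uni_eq_one (a : Matrix.ProjGenLinGroup (Fin 2) ℂ) (hfin : IsOfFinOrder a)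
    (x : OnePoint ℂ) (hx : a • x = x) (hu : Uni (OnePoint ℂ) a) : a = 1 := by
  obtain ⟨s, hs⟩ := exists_smul_eq_infty x
  set b := s * a * s⁻¹ with hb
  have hb1 : b • (∞ : OnePoint ℂ) = ∞ := by
    rw [hb, ← hs, mul_smul, mul_smul, inv_smul_smul, hx]
  have hbu : Uni (OnePoint ℂ) b := (uni_conj_iff s a).2 hu
  have hbfin : IsOfFinOrder b := by
    obtain ⟨m, hm, hm1⟩ := isOfFinOrder_iff_pow_eq_one.1 hfin
    exact isOfFinOrder_iff_pow_eq_one.2 ⟨m, hm, by rw [hb, conj_pow, hm1]; group⟩
  suffices hb1' : b = 1 by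
    have : a = s⁻¹ * b * s := by rw [hb]; group
    rw [this, hb1']; group
  clear_value b
  induction b using Matrix.ProjGenLinGroup.induction_on with | mk g =>
  rw [fix_infty_iff] at hb1
  rw [uni_iff_infty g hb1] at hbu
  obtain ⟨m, hm, hm1⟩ := isOfFinOrder_iff_pow_eq_one.1 hbfin
  have hm2 : Matrix.ProjGenLinGroup.mk (g ^ m) = 1 := by rw [← hm1]; rfl
  rw [mk_eq_one_iff] at hm2
  have hp := pow_entries (g : Matrix (Fin 2) (Fin 2) ℂ) hb1 hbu m
  have h01 : ((g : Matrix (Fin 2) (Fin 2) ℂ) ^ m) 0 1 = 0 := by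
    have := hm2.2.1
    simpa using this
  have hα : g 0 0 ≠ 0 := (diag_ne_zero g hb1).1
  have h4 := hp.2.2.2
  rw [h01, mul_zero] at h4
  have hβ : g 0 1 = 0 := by
    have h5 : (m : ℂ) * g 0 0 ^ m ≠ 0 :=
      mul_ne_zero (by exact_mod_cast hm.ne') (pow_ne_zero _ hα)
    rcases mul_eq_zero.1 h4.symm with h6 | h6
    · exact absurd h6 h5
    · exact h6
  exact (mk_eq_one_iff g).2 ⟨hb1, hβ, hbu⟩

section rep

variable {G : Type*} [Group G]

/-- matrix form of a two-dimensional representation -/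
noncomputable def Rm (ρ : Representation ℂ G (Fin 2 → ℂ)) : G →* GL (Fin 2) ℂ :=
  MonoidHom.toHomUnits
    ((MonoidHomClass.toMonoidHom (LinearMap.toMatrixAlgEquiv' (R := ℂ) (n := Fin 2))).comp ρ)

theorem Rm_val (ρ : Representation ℂ G (Fin 2 → ℂ)) (g : G) :
    ((Rm ρ g : GL (Fin 2) ℂ) : Matrix (Fin 2) (Fin 2) ℂ) = LinearMap.toMatrixAlgEquiv' (ρ g) := rfl

theorem mk_Rm_eq_one_iff (ρ : Representation ℂ G (Fin 2 → ℂ)) (g : G) :
    Matrix.ProjGenLinGroup.mk (Rm ρ g) = 1 ↔ ∃ c : ℂ, ρ g = c • LinearMap.id := by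
  rw [mk_eq_one_iff]
  constructor
  · rintro ⟨h1, h2, h3⟩
    refine ⟨(Rm ρ g : GL (Fin 2) ℂ) 0 0, ?_⟩
    apply (LinearMap.toMatrixAlgEquiv' (R := ℂ) (n := Fin 2)).injective
    rw [_root_.map_smul, ← Rm_val]
    have : LinearMap.toMatrixAlgEquiv' (R := ℂ) (n := Fin 2) LinearMap.id = 1 :=
      map_one (LinearMap.toMatrixAlgEquiv' (R := ℂ) (n := Fin 2))
    rw [this]
    ext i j
    fin_cases i <;> fin_cases j
    · simp
    · simpa using h2
    · simpa using h1
    · simpa using h3.symm
  · rintro ⟨c, hc⟩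
    have h : ((Rm ρ g : GL (Fin 2) ℂ) : Matrix (Fin 2) (Fin 2) ℂ) = c • 1 := by
      rw [Rm_val, hc, _root_.map_smul]
      have : LinearMap.toMatrixAlgEquiv' (R := ℂ) (n := Fin 2) LinearMap.id = 1 :=
        map_one (LinearMap.toMatrixAlgEquiv' (R := ℂ) (n := Fin 2))
      rw [this]
    have e : ∀ i j, (Rm ρ g : GL (Fin 2) ℂ) i j = (c • (1 : Matrix (Fin 2) (Fin 2) ℂ)) i j := by
      intro i j
      exact congrFun (congrFun h i) j
    refine ⟨by rw [e]; simp, by rw [e]; simp, by rw [e, e]; simp⟩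

end rep

/-- Let the finite group G have a faithful irreducible character χ of degree 2 that is primitive: χ is not induced from a character of any proper subgroup. Then the centre of G has index 12, 24 or 60. -/
theorem result {G : Type*} [Group G] [Fintype G] (χ : Cfsg.IrrCharacter G) (hfaith : ∀ g : G, (χ : G → ℂ) g = (χ : G → ℂ) 1 → g = 1) (h2 : Cfsg.charDegree (χ : G → ℂ) = 2) (hprim : ∀ H : Subgroup G, H ≠ ⊤ → ∀ θ : H → ℂ, Cfsg.IsCharacter H θ → (χ : G → ℂ) ≠ Cfsg.indFun H θ) : (Subgroup.center G).index = 12 ∨ (Subgroup.center G).index = 24 ∨ (Subgroup.center G).index = 60 := by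
  classical
  obtain ⟨n, ρ, hirr, hχ⟩ := χ.2
  have hn : n = 2 := by
    have h1 : (χ : G → ℂ) 1 = (n : ℂ) := by
      rw [← hχ, Representation.char_one]; simp
    unfold Cfsg.charDegree at h2
    rw [h1] at h2
    simpa using h2
  subst hn
  -- faithfulness
  have hinj : Function.Injective ρ := by
    intro x y hxy
    have h1 : ρ (x * y⁻¹) = 1 := by
      rw [map_mul, hxy, ← map_mul, mul_inv_cancel, map_one]
    have h3 : (χ : G → ℂ) (x * y⁻¹) = (χ : G → ℂ) 1 := by
      rw [← hχ]
      unfold Representation.character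
      rw [h1, map_one ρ]
    have := hfaith _ h3
    exact mul_inv_eq_one.1 this
  -- scalars are the centre
  have hscal : ∀ g : G, (∃ c : ℂ, ρ g = c • LinearMap.id) ↔ g ∈ Subgroup.center G := by
    intro g
    constructor
    · rintro ⟨c, hc⟩
      rw [Subgroup.mem_center_iff]
      intro k
      apply hinj
      rw [map_mul, map_mul, hc]
      ext v i
      simp
    · intro hg
      obtain ⟨c, hc⟩ := Cfsg.Agent.Lib.Helper76.schur_central ρ hirr g hg
      exact ⟨c, by ext v i; simp [hc]⟩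
  -- not abelian
  have hnab : ¬ ∀ a b : G, a * b = b * a := by
    intro hab
    haveI : IsMulCommutative G := ⟨⟨hab⟩⟩
    haveI := hirr
    have := Representation.IsIrreducible.finrank_eq_one_of_isMulCommutative ρ
    simp at this
  set φ : G →* Matrix.ProjGenLinGroup (Fin 2) ℂ := Matrix.ProjGenLinGroup.mk.comp (Rm ρ) with hφ
  have hker : φ.ker = Subgroup.center G := by
    ext g
    rw [MonoidHom.mem_ker, ← hscal g, ← mk_Rm_eq_one_iff]
    rfl
  have hidx : (Subgroup.center G).index = Nat.card φ.range := by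
    rw [← hker, Subgroup.index_ker]
  have hncyc : ¬ IsCyclic φ.range := by
    intro hc
    apply hnab
    apply commutative_of_cyclic_center_quotient φ.rangeRestrict
    rw [MonoidHom.ker_rangeRestrict, hker]
  have hmob : Mob φ.range (OnePoint ℂ) := (pgl_mob (L := ℂ)).subgroup φ.range
  have hQ : ∀ x : OnePoint ℂ, hmob.qq x = 1 := by
    intro x
    unfold Mob.qq
    rw [Nat.card_eq_one_iff_unique]
    refine ⟨⟨?_⟩, ⟨1⟩⟩
    have key : ∀ a : hmob.Q x, a = 1 := by
      rintro ⟨a, ha⟩
      rw [Mob.mem_Q] at ha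
      apply Subtype.ext
      apply Subtype.ext
      exact uni_eq_one (a : Matrix.ProjGenLinGroup (Fin 2) ℂ)
        (φ.range.subtype.isOfFinOrder (isOfFinOrder_of_finite a)) x ha.1
        ((uni_subgroup_iff _ a).1 ha.2)
    intro a b
    rw [key a, key b]
  rcases hmob.classify with ⟨x, hx⟩ | ⟨x, -, -, ⟨e⟩⟩ | ⟨⟨e⟩⟩ | ⟨⟨e⟩⟩ | ⟨⟨e⟩⟩ | ⟨x, hx, -⟩
  · -- a fixed point: cyclic
    exfalso
    apply hncyc
    haveI := hmob.stab_cyclic (hQ x)
    have htop : stabilizer φ.range x = ⊤ := by
      rw [eq_top_iff]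
      intro a _
      exact hx a
    exact isCyclic_of_surjective ((Subgroup.topEquiv).toMonoidHom.comp
      (MulEquiv.subgroupCongr htop).toMonoidHom)
      ((Subgroup.topEquiv).surjective.comp (MulEquiv.subgroupCongr htop).surjective)
  · -- dihedral: imprimitive
    exfalso
    set m := hmob.e x with hm
    set ψ : G →* DihedralGroup m := e.toMonoidHom.comp φ.rangeRestrict with hψ
    have hψker : ψ.ker = Subgroup.center G := by
      rw [← hker]
      ext g
      rw [MonoidHom.mem_ker, MonoidHom.mem_ker, hψ]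
      simp only [MonoidHom.coe_comp, Function.comp_apply, MulEquiv.coe_toMonoidHom,
        MulEquiv.map_eq_one_iff]
      rw [← MonoidHom.mem_ker, MonoidHom.ker_rangeRestrict, MonoidHom.mem_ker]
    have hψsurj : Function.Surjective ψ := e.surjective.comp φ.rangeRestrict_surjective
    set C : Subgroup (DihedralGroup m) := Subgroup.zpowers (DihedralGroup.r 1) with hC
    have hCmem : ∀ d : DihedralGroup m, d ∈ C ↔ ∃ i, d = DihedralGroup.r i := by
      intro d
      constructor
      · rintro ⟨k, rfl⟩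
        exact ⟨(k : ZMod m), by simp [DihedralGroup.r_zpow]⟩
      · rintro ⟨i, rfl⟩
        refine ⟨(ZMod.cast i : ℤ), ?_⟩
        simp [DihedralGroup.r_zpow]
    haveI hCn : C.Normal := by
      constructor
      intro d hd k
      obtain ⟨i, rfl⟩ := (hCmem d).1 hd
      rw [hCmem]
      rcases k with j | j
      · exact ⟨i, by simp⟩
      · exact ⟨-i, by simp⟩
    set A : Subgroup G := C.comap ψ with hA
    haveI hAn : A.Normal := hCn.comap ψ
    have hAcomm : ∀ x ∈ A, ∀ y ∈ A, x * y = y * x := by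
      intro x hx y hy
      let f : ↥A →* ↥C := (ψ.comp A.subtype).codRestrict C (fun a => a.2)
      have hf : f.ker ≤ Subgroup.center ↥A := by
        intro a ha
        have h1 : ψ a.1 = 1 := congrArg Subtype.val (MonoidHom.mem_ker.1 ha)
        have h3 : a.1 ∈ Subgroup.center G := by rw [← hψker]; exact h1
        rw [Subgroup.mem_center_iff]
        intro b
        apply Subtype.ext
        exact Subgroup.mem_center_iff.1 h3 b.1
      have := commutative_of_cyclic_center_quotient f hf ⟨x, hx⟩ ⟨y, hy⟩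
      exact congrArg Subtype.val this
    by_cases hall : ∀ a ∈ A, ∃ c : ℂ, ρ a = c • LinearMap.id
    · -- then the rotation subgroup is trivial
      apply hncyc
      obtain ⟨a0, ha0⟩ := hψsurj (DihedralGroup.r 1)
      have ha0A : a0 ∈ A := by
        change ψ a0 ∈ C
        rw [ha0]; exact Subgroup.mem_zpowers _
      have h1 : a0 ∈ ψ.ker := by rw [hψker, ← hscal]; exact hall a0 ha0A
      rw [MonoidHom.mem_ker, ha0] at h1
      have h3 : (1 : ZMod m) = 0 := by
        have : DihedralGroup.r (1 : ZMod m) = DihedralGroup.r 0 := h1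
        exact DihedralGroup.r.inj this
      have hm1 : m = 1 := by
        have h4 : ((1 : ℕ) : ZMod m) = 0 := by simpa using h3
        rw [ZMod.natCast_eq_zero_iff] at h4
        exact Nat.dvd_one.1 h4
      have hcard : Nat.card φ.range = 2 := by
        rw [Nat.card_congr e.toEquiv, DihedralGroup.nat_card, hm1]
      haveI : Fact (Nat.Prime 2) := ⟨Nat.prime_two⟩
      exact isCyclic_of_prime_card hcard
    · push Not at hall
      obtain ⟨a, haA, ha⟩ := hall
      haveI := hirr
      obtain ⟨T, hT, -, θ, hθ, hind⟩ := Cfsg.Agent.Lib.Helper3.exists_induced_of_normal_comm ρ A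
        (by
          intro x hx y hy
          have := hAcomm x hx y hy
          change ρ x * ρ y = ρ y * ρ x
          rw [← map_mul, ← map_mul, this])
        a haA (by push Not; exact ha)
      obtain ⟨k, σ, -, hσ⟩ := hθ
      exact hprim T hT θ ⟨k, σ, hσ⟩ (by rw [hind, hχ])
  · left
    rw [hidx, Nat.card_congr e.toEquiv, nat_card_alternatingGroup]
    simp [Nat.factorial]
  · right; left
    rw [hidx, Nat.card_congr e.toEquiv, Nat.card_perm]
    simp [Nat.factorial]
  · right; right
    rw [hidx, Nat.card_congr e.toEquiv, nat_card_alternatingGroup]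
    simp [Nat.factorial]
  · exfalso
    rw [hQ x] at hx
    omega

end Cfsg.Agent.S4473
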