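import Cfsg.Statements.S4476
import Cfsg.Agent.S0133
import Cfsg.Agent.S0134
import Cfsg.Agent.S0159
import Cfsg.Agent.S0158
import Cfsg.Agent.Lib.Helper74.CharBasic

set_option autoImplicit false
set_option linter.style.haveILetI false
open Cfsg

namespace Cfsg.Agent.S4476

open Cfsg.Agent.Lib.Helper74

/-- index of centralizer = size of the class -/
theorem index_centralizer_eq_ncard {G : Type*} [Group G] (x : G) :
    (Subgroup.centralizer ({x} : Set G)).index = (ConjClasses.mk x).carrier.ncard := by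
  classical
  rw [← ConjAct.orbit_eq_carrier_conjClasses,
    ← MulAction.index_stabilizer, Subgroup.centralizer_eq_comap_stabilizer]
  exact Subgroup.index_comap_of_surjective _ (ConjAct.toConjAct (G := G)).surjective

theorem card_sq_eq_one {G : Type*} [Group G] [Finite G] :
    Nat.card {s : G // s * s = 1} = Nat.card {x : G // orderOf x = 2} + 1 := by
  classical
  haveI := Fintype.ofFinite G
  have h : ∀ s : G, s * s = 1 ↔ (orderOf s = 2 ∨ s = 1) := by
    intro s
    rw [orderOf_eq_prime_iff (p := 2), pow_two]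
    by_cases hs : s = 1 <;> simp [hs]
  rw [Nat.card_eq_fintype_card, Nat.card_eq_fintype_card, Fintype.card_subtype,
    Fintype.card_subtype]
  have : (Finset.univ.filter fun s : G => s * s = 1)
      = insert 1 (Finset.univ.filter fun s : G => orderOf s = 2) := by
    ext s
    simp [h s, or_comm]
  rw [this, Finset.card_insert_of_notMem (by simp)]

/-- the arithmetic data extracted from character theory -/
theorem data {G : Type*} [Group G] [Fintype G] :
    ∃ (ν : IrrCharacter G → ℤ) (one : IrrCharacter G),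
      (one : G → ℂ) = (fun _ => 1) ∧ ν one = 1 ∧ charDegree (one : G → ℂ) = 1 ∧
      (∀ χ, ν χ = 0 ∨ ν χ = 1 ∨ ν χ = -1) ∧
      (∀ χ, ν χ ≠ 0 → ∀ g : G, ((χ : G → ℂ) g).im = 0) ∧
      (∑ χ : IrrCharacter G, (charDegree (χ : G → ℂ)) ^ 2 = Nat.card G) ∧
      ((Nat.card {x : G // orderOf x = 2} : ℤ) + 1
        = ∑ χ : IrrCharacter G, ν χ * (charDegree (χ : G → ℂ) : ℤ)) := by
  classical
  have hν : ∀ χ : IrrCharacter G, ∃ z : ℤ,
      ((Nat.card G : ℂ)⁻¹ * ∑ s : G, (χ : G → ℂ) (s * s) = z) ∧ (z = 0 ∨ z = 1 ∨ z = -1) ∧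
      (z ≠ 0 → ∀ g : G, ((χ : G → ℂ) g).im = 0) := by
    rintro ⟨χ, n, ρ, hρ, rfl⟩
    haveI := hρ
    obtain ⟨h1, h2⟩ := Cfsg.Agent.S0158.result ρ
    rcases h1 with h | h | h
    · exact ⟨0, by simpa using h, Or.inl rfl, fun h0 => absurd rfl h0⟩
    · refine ⟨1, by simpa using h, Or.inr (Or.inl rfl), fun _ g => ?_⟩
      by_contra hg
      have := h2.mpr ⟨g, hg⟩
      rw [h] at this
      exact one_ne_zero this
    · refine ⟨-1, by simpa using h, Or.inr (Or.inr rfl), fun _ g => ?_⟩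
      by_contra hg
      have := h2.mpr ⟨g, hg⟩
      rw [h] at this
      exact (neg_ne_zero.mpr one_ne_zero) this
  choose ν hν1 hν2 hν3 using hν
  refine ⟨ν, ⟨fun _ => 1, isIrrCharacter_one⟩, rfl, ?_, ?_, hν2, hν3, ?_, ?_⟩
  · have := hν1 ⟨fun _ => 1, isIrrCharacter_one⟩
    simp only [Finset.sum_const, Finset.card_univ, nsmul_eq_mul, mul_one] at this
    rw [← Nat.card_eq_fintype_card, inv_mul_cancel₀ (by simp)] at this
    exact_mod_cast this.symm
  · simp [charDegree]
  · have h := Cfsg.Agent.S0134.result (G := G)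
    rw [finsum_eq_sum_of_fintype] at h
    have h' : ((∑ χ : IrrCharacter G, (charDegree (χ : G → ℂ)) ^ 2 : ℕ) : ℂ) = (Nat.card G : ℂ) := by
      rw [← h]
      push_cast
      refine Finset.sum_congr rfl fun χ _ => ?_
      rw [IsCharacter.charDegree_eq (IrrCharacter.isCharacter χ)]
    exact_mod_cast h'
  · have h := Cfsg.Agent.S0159.result (G := G)
    rw [finsum_eq_sum_of_fintype, card_sq_eq_one] at h
    have h' : (((Nat.card {x : G // orderOf x = 2} : ℤ) + 1 : ℤ) : ℂ)
        = ((∑ χ : IrrCharacter G, ν χ * (charDegree (χ : G → ℂ) : ℤ) : ℤ) : ℂ) := by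
      push_cast at h ⊢
      rw [h]
      refine Finset.sum_congr rfl fun χ _ => ?_
      rw [hν1, IsCharacter.charDegree_eq (IrrCharacter.isCharacter χ)]
    exact_mod_cast h'

/-- pure arithmetic: bounds from the data -/
theorem arith {I : Type*} [Fintype I] [DecidableEq I] (d : I → ℕ) (ν : I → ℤ) (one : I) (g t : ℕ)
    (hν1 : ν one = 1) (hd1 : d one = 1) (hν : ∀ χ, ν χ = 0 ∨ ν χ = 1 ∨ ν χ = -1)
    (hsq : ∑ χ, d χ ^ 2 = g) (hinv : (t : ℤ) + 1 = ∑ χ, ν χ * (d χ : ℤ)) (ht : 0 < t) :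
    ((t : ℚ) ^ 2 ≤ ((Fintype.card I : ℚ) - 1) * ((g : ℚ) - 1)) ∧
    ∃ χ, χ ≠ one ∧ ν χ ≠ 0 ∧ (d χ : ℚ) ≤ ((g : ℚ) - 1) / t := by
  set R : Finset I := (Finset.univ.erase one).filter (fun χ => ν χ ≠ 0) with hR
  have h1 : (t : ℤ) = ∑ χ ∈ Finset.univ.erase one, ν χ * (d χ : ℤ) := by
    have := Finset.add_sum_erase Finset.univ (fun χ => ν χ * (d χ : ℤ)) (Finset.mem_univ one)
    rw [← hinv, hν1, hd1] at this
    simp only [Nat.cast_one, mul_one] at this
    linarith
  have h2 : (t : ℤ) ≤ ∑ χ ∈ R, (d χ : ℤ) := by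
    rw [h1, hR, Finset.sum_filter]
    refine Finset.sum_le_sum fun χ _ => ?_
    rcases hν χ with h | h | h <;> simp [h]
  have h3 : ∑ χ ∈ R, (d χ : ℤ) ^ 2 ≤ (g : ℤ) - 1 := by
    have := Finset.add_sum_erase Finset.univ (fun χ => (d χ : ℤ) ^ 2) (Finset.mem_univ one)
    have hsq' : ∑ χ, (d χ : ℤ) ^ 2 = g := by exact_mod_cast hsq
    rw [hsq', hd1] at this
    have h4 : ∑ χ ∈ R, (d χ : ℤ) ^ 2 ≤ ∑ χ ∈ Finset.univ.erase one, (d χ : ℤ) ^ 2 :=
      Finset.sum_le_sum_of_subset_of_nonneg (Finset.filter_subset _ _)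
        (fun _ _ _ => sq_nonneg _)
    simp only [Nat.cast_one, one_pow] at this
    linarith
  have hRcard : (R.card : ℤ) ≤ (Fintype.card I : ℤ) - 1 := by
    have : R.card ≤ (Finset.univ.erase one).card := Finset.card_le_card (Finset.filter_subset _ _)
    rw [Finset.card_erase_of_mem (Finset.mem_univ one), Finset.card_univ] at this
    have hpos : 0 < Fintype.card I := Fintype.card_pos_iff.mpr ⟨one⟩
    omega
  have hg1 : (0 : ℤ) ≤ (g : ℤ) - 1 := le_trans (Finset.sum_nonneg fun _ _ => sq_nonneg _) h3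
  constructor
  · have hcs : (∑ χ ∈ R, (d χ : ℤ)) ^ 2 ≤ R.card * ∑ χ ∈ R, (d χ : ℤ) ^ 2 :=
      sq_sum_le_card_mul_sum_sq
    have h5 : (t : ℤ) ^ 2 ≤ ((Fintype.card I : ℤ) - 1) * ((g : ℤ) - 1) := by
      calc (t : ℤ) ^ 2 ≤ (∑ χ ∈ R, (d χ : ℤ)) ^ 2 := by
            apply pow_le_pow_left₀ (Int.natCast_nonneg _) h2
        _ ≤ R.card * ∑ χ ∈ R, (d χ : ℤ) ^ 2 := hcs
        _ ≤ ((Fintype.card I : ℤ) - 1) * ((g : ℤ) - 1) := by
            apply mul_le_mul hRcard h3 (Finset.sum_nonneg fun _ _ => sq_nonneg _)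
            exact le_trans (Int.natCast_nonneg _) hRcard
    exact_mod_cast h5
  · by_contra hcon
    push Not at hcon
    have htq : (0 : ℚ) < t := by exact_mod_cast ht
    have hall : ∀ χ ∈ R, (g : ℤ) - 1 < (d χ : ℤ) * t := by
      intro χ hχ
      rw [hR, Finset.mem_filter, Finset.mem_erase] at hχ
      have := hcon χ hχ.1.1 hχ.2
      rw [div_lt_iff₀ htq] at this
      exact_mod_cast this
    have hne : R.Nonempty := by
      by_contra hemp
      rw [Finset.not_nonempty_iff_eq_empty] at hemp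
      rw [hemp, Finset.sum_empty] at h2
      have : (0 : ℤ) < t := by exact_mod_cast ht
      omega
    have h6 : ∑ χ ∈ R, ((g : ℤ) - 1) * (d χ : ℤ) < ∑ χ ∈ R, (d χ : ℤ) ^ 2 * t := by
      refine Finset.sum_lt_sum_of_nonempty hne fun χ hχ => ?_
      have h7 := hall χ hχ
      have hdpos : (0 : ℤ) < d χ := by
        by_contra hd
        have hd0 : (d χ : ℤ) = 0 := le_antisymm (not_lt.mp hd) (Int.natCast_nonneg _)
        rw [hd0, zero_mul] at h7
        omega
      nlinarith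
    rw [← Finset.mul_sum, ← Finset.sum_mul] at h6
    have ht0 : (0 : ℤ) < t := by exact_mod_cast ht
    nlinarith

theorem result {G : Type*} [Group G] [Fintype G] (heven : Even (Nat.card G)) (t : ℕ) (ht : Nat.card {x : G // orderOf x = 2} = t) : (∃ x : G, x ≠ 1 ∧ ((Subgroup.centralizer ({x} : Set G)).index : ℚ) ≤ (((Nat.card G : ℚ) - 1) / t) ^ 2) ∧ ∃ χ : Cfsg.IrrCharacter G, (χ : G → ℂ) ≠ (fun _ => 1) ∧ (∀ g : G, ((χ : G → ℂ) g).im = 0) ∧ (Cfsg.charDegree (χ : G → ℂ) : ℚ) ≤ ((Nat.card G : ℚ) - 1) / t := by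
  classical
  obtain ⟨ν, one, hone, hν1, hd1, hν, hreal, hsq, hinv⟩ := data (G := G)
  rw [ht] at hinv
  have htpos : 0 < t := by
    rw [← ht]
    obtain ⟨x, hx⟩ := exists_prime_orderOf_dvd_card' (G := G) 2 heven.two_dvd
    exact Nat.card_pos_iff.mpr ⟨⟨⟨x, hx⟩⟩, inferInstance⟩
  obtain ⟨hA, χ, hχ1, hχ2, hχ3⟩ := arith (fun χ : IrrCharacter G => charDegree (χ : G → ℂ)) ν one
    (Nat.card G) t hν1 hd1 hν hsq hinv htpos
  refine ⟨?_, χ, ?_, hreal χ hχ2, hχ3⟩
  · by_contra hcon
    push Not at hcon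
    haveI : Fintype (ConjClasses G) := Fintype.ofFinite _
    have hk : Fintype.card (IrrCharacter G) = Fintype.card (ConjClasses G) := by
      rw [← Nat.card_eq_fintype_card, ← Nat.card_eq_fintype_card]
      exact Cfsg.Agent.S0133.result
    rw [hk] at hA
    have hsum := Group.sum_card_conj_classes_eq_card G
    rw [finsum_eq_sum_of_fintype] at hsum
    have h1 := Finset.add_sum_erase Finset.univ (fun C : ConjClasses G => C.carrier.ncard)
      (Finset.mem_univ (ConjClasses.mk 1))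
    rw [hsum] at h1
    have hc1 : (ConjClasses.mk (1 : G)).carrier.ncard = 1 := by
      rw [← index_centralizer_eq_ncard]
      have : Subgroup.centralizer ({1} : Set G) = ⊤ := by
        ext x; simp [Subgroup.mem_centralizer_iff]
      rw [this, Subgroup.index_top]
    rw [hc1] at h1
    set A : ℚ := ((Nat.card G : ℚ) - 1) / t with hAdef
    have htq : (0 : ℚ) < t := by exact_mod_cast htpos
    have hg2 : 2 ≤ Nat.card G := Nat.le_of_dvd Nat.card_pos heven.two_dvd
    have hne : (Finset.univ.erase (ConjClasses.mk (1 : G))).Nonempty := by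
      by_contra hemp
      rw [Finset.not_nonempty_iff_eq_empty] at hemp
      rw [hemp, Finset.sum_empty] at h1
      omega
    have h2 : ∑ C ∈ Finset.univ.erase (ConjClasses.mk (1 : G)), A ^ 2
        < ∑ C ∈ Finset.univ.erase (ConjClasses.mk (1 : G)), (C.carrier.ncard : ℚ) := by
      refine Finset.sum_lt_sum_of_nonempty hne fun C hC => ?_
      obtain ⟨x, rfl⟩ := ConjClasses.mk_surjective C
      rw [← index_centralizer_eq_ncard]
      apply hcon
      rintro rfl
      simp at hC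
    rw [Finset.sum_const, Finset.card_erase_of_mem (Finset.mem_univ _), Finset.card_univ,
      nsmul_eq_mul] at h2
    have h3 : (∑ C ∈ Finset.univ.erase (ConjClasses.mk (1 : G)), (C.carrier.ncard : ℚ))
        = (Nat.card G : ℚ) - 1 := by
      have : ((1 + ∑ C ∈ Finset.univ.erase (ConjClasses.mk (1 : G)), C.carrier.ncard : ℕ) : ℚ)
          = (Nat.card G : ℚ) := by rw [h1]
      push_cast at this
      linarith
    rw [h3] at h2
    have hkpos : 0 < Fintype.card (ConjClasses G) := Fintype.card_pos_iff.mpr ⟨ConjClasses.mk 1⟩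
    rw [Nat.cast_sub hkpos, Nat.cast_one] at h2
    have hgq : (0 : ℚ) < (Nat.card G : ℚ) - 1 := by
      have : (2 : ℚ) ≤ (Nat.card G : ℚ) := by exact_mod_cast hg2
      linarith
    have h4 : (Nat.card G : ℚ) - 1 ≤ ((Fintype.card (ConjClasses G) : ℚ) - 1) * A ^ 2 := by
      rw [hAdef, div_pow, mul_div_assoc', le_div_iff₀ (by positivity)]
      nlinarith
    linarith
  · intro h
    apply hχ1
    apply Subtype.ext
    rw [h, hone]

end Cfsg.Agent.S4476
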