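import Cfsg.Statements.S4478
import Cfsg.Agent.S0135
import Cfsg.Agent.S0165
import Cfsg.Agent.S0158
import Cfsg.Agent.Lib.Helper74.CharBasic

set_option autoImplicit false
set_option linter.style.haveILetI false
open Cfsg

namespace Cfsg.Agent.S4478

open Cfsg.Agent.Lib.Helper74

open Classical in
theorem card_sq_eq_one {G : Type*} [Group G] [Fintype G] :
    (Finset.univ.filter fun s : G => s * s = 1).card = Nat.card {x : G // orderOf x = 2} + 1 := by
  have h : ∀ s : G, s * s = 1 ↔ (orderOf s = 2 ∨ s = 1) := by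
    intro s
    rw [orderOf_eq_prime_iff (p := 2), pow_two]
    by_cases hs : s = 1 <;> simp [hs]
  rw [Nat.card_eq_fintype_card, Fintype.card_subtype]
  have : (Finset.univ.filter fun s : G => s * s = 1)
      = insert 1 (Finset.univ.filter fun s : G => orderOf s = 2) := by
    ext s
    simp [h s, or_comm]
  rw [this, Finset.card_insert_of_notMem (by simp)]

open Classical in
/-- an element `h ≠ 1` of odd order commuting with no involution has exactly one square root -/
theorem card_sqrt_eq_one {G : Type*} [Group G] [Fintype G] (h : G)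
    (hodd : Odd (orderOf h)) (hno : ∀ s : G, orderOf s = 2 → ¬ Commute s h) :
    (Finset.univ.filter fun g : G => g * g = h).card = 1 := by
  obtain ⟨k, hk⟩ := hodd
  rw [Finset.card_eq_one]
  refine ⟨h ^ (k + 1), ?_⟩
  ext g
  simp only [Finset.mem_filter, Finset.mem_univ, true_and, Finset.mem_singleton]
  have h0 : h ^ (k + 1) * h ^ (k + 1) = h := by
    rw [← pow_add, show k + 1 + (k + 1) = (2 * k + 1) + 1 by ring, ← hk, pow_succ, pow_orderOf_eq_one,
      one_mul]
  constructor
  · intro hg
    by_contra hne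
    have hcomm : Commute g h := by
      rw [← hg]; exact (Commute.refl g).mul_right (Commute.refl g)
    have hcomm' : Commute g (h ^ (k + 1)) := hcomm.pow_right _
    set s := g * (h ^ (k + 1))⁻¹ with hs
    have hs2 : s * s = 1 := by
      have : s * s = (g * g) * ((h ^ (k + 1)) * (h ^ (k + 1)))⁻¹ := by
        rw [hs, mul_inv_rev]
        have := hcomm'.inv_right
        calc g * (h ^ (k + 1))⁻¹ * (g * (h ^ (k + 1))⁻¹)
            = g * ((h ^ (k + 1))⁻¹ * g) * (h ^ (k + 1))⁻¹ := by group
          _ = g * (g * (h ^ (k + 1))⁻¹) * (h ^ (k + 1))⁻¹ := by rw [this.eq]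
          _ = _ := by group
      rw [this, hg, h0, mul_inv_cancel]
    have hs1 : s ≠ 1 := by
      intro h1
      apply hne
      rw [hs, mul_inv_eq_one] at h1
      exact h1
    have hso : orderOf s = 2 := by
      rw [orderOf_eq_prime_iff (p := 2), pow_two]
      exact ⟨hs2, hs1⟩
    apply hno s hso
    exact hcomm.mul_left ((Commute.refl h).pow_left _).inv_left
  · rintro rfl
    exact h0

theorem index_centralizer_eq_ncard {G : Type*} [Group G] (x : G) :
    (Subgroup.centralizer ({x} : Set G)).index = (ConjClasses.mk x).carrier.ncard := by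
  classical
  rw [← ConjAct.orbit_eq_carrier_conjClasses,
    ← MulAction.index_stabilizer, Subgroup.centralizer_eq_comap_stabilizer]
  exact Subgroup.index_comap_of_surjective _ (ConjAct.toConjAct (G := G)).surjective

theorem result {G : Type*} [Group G] [Fintype G] (heven : Even (Nat.card G)) (χ : Cfsg.IrrCharacter G) (h2 : 2 ^ (Nat.card G).factorization 2 ∣ Cfsg.charDegree (χ : G → ℂ)) (hp : ∀ p : ℕ, p.Prime → p ≠ 2 → (∃ g : G, orderOf g = 2 * p) → p ^ (Nat.card G).factorization p ∣ Cfsg.charDegree (χ : G → ℂ)) : (∀ s t : G, orderOf s = 2 → orderOf t = 2 → IsConj s t) ∧ (∀ s : G, orderOf s = 2 → Nat.card (Subgroup.centralizer ({s} : Set G)) = Cfsg.charDegree (χ : G → ℂ) ∧ (Nat.card (Subgroup.centralizer ({s} : Set G))).Coprime (Subgroup.centralizer ({s} : Set G)).index) ∧ (Nat.card G : ℂ)⁻¹ * ∑ g : G, (χ : G → ℂ) (g * g) = 1 := by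
  classical
  set x := charDegree (χ : G → ℂ) with hx
  set t := Nat.card {y : G // orderOf y = 2} with ht
  have hGpos : 0 < Nat.card G := Nat.card_pos
  have hGne : (Nat.card G : ℂ) ≠ 0 := by exact_mod_cast hGpos.ne'
  have hx1 : (x : ℂ) = (χ : G → ℂ) 1 := IsCharacter.charDegree_eq (IrrCharacter.isCharacter χ)
  -- vanishing
  have hvan : ∀ p : ℕ, p.Prime → p ^ (Nat.card G).factorization p ∣ x → ∀ g : G, p ∣ orderOf g →
      (χ : G → ℂ) g = 0 := by
    intro p hpp hdiv g hg
    obtain ⟨χf, n, ρ, hρ, rfl⟩ := χ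
    haveI := hρ
    have hxn : x = n := charDegree_rep ρ
    refine Cfsg.Agent.S0165.result ρ p ((Nat.card G).factorization p) hpp
      (Nat.ordProj_dvd _ _) (Nat.pow_succ_factorization_not_dvd hGpos.ne' hpp) ?_ g hg
    rw [Module.finrank_fin_fun, ← hxn]
    exact hdiv
  have hxdvd : x ∣ Nat.card G := by
    obtain ⟨χf, n, ρ, hρ, rfl⟩ := χ
    haveI := hρ
    have hxn : x = n := charDegree_rep ρ
    have := Cfsg.Agent.S0135.result ρ
    rwa [Module.finrank_fin_fun, ← hxn] at this
  have hxpos : 0 < x := Nat.pos_of_dvd_of_pos hxdvd hGpos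
  have htpos : 0 < t := by
    obtain ⟨y, hy⟩ := exists_prime_orderOf_dvd_card' (G := G) 2 heven.two_dvd
    exact Nat.card_pos_iff.mpr ⟨⟨⟨y, hy⟩⟩, inferInstance⟩
  have hxeven : 2 ∣ x := by
    refine dvd_trans ?_ h2
    apply dvd_pow_self
    have : 0 < (Nat.card G).factorization 2 :=
      Nat.Prime.factorization_pos_of_dvd Nat.prime_two hGpos.ne' heven.two_dvd
    exact this.ne'
  -- χ is not principal, so its sum vanishes
  have hsum0 : ∑ g : G, (χ : G → ℂ) g = 0 := by
    have hne : χ ≠ ⟨fun _ => 1, isIrrCharacter_one⟩ := by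
      intro h
      have : (χ : G → ℂ) 1 = 1 := by rw [h]
      rw [← hx1] at this
      have : x = 1 := by exact_mod_cast this
      omega
    have := classInner_irr_ne hne
    simp only [classInner, map_one, mul_one] at this
    rcases mul_eq_zero.mp this with h | h
    · exact absurd (inv_eq_zero.mp h) hGne
    · exact h
  -- key count
  have hkey : ∀ h : G, ((Finset.univ.filter fun g : G => g * g = h).card : ℂ) * (χ : G → ℂ) h
      = (χ : G → ℂ) h + if h = 1 then (t : ℂ) * x else 0 := by
    intro h
    by_cases h1 : h = 1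
    · subst h1
      rw [card_sq_eq_one, if_pos rfl, ← hx1]
      push_cast
      ring
    · rw [if_neg h1, add_zero]
      by_cases h0 : (χ : G → ℂ) h = 0
      · rw [h0, mul_zero]
      · rw [card_sqrt_eq_one h, Nat.cast_one, one_mul]
        · rw [← Nat.not_even_iff_odd, even_iff_two_dvd]
          intro hd
          exact h0 (hvan 2 Nat.prime_two h2 h hd)
        · intro s hs hcomm
          have hodd : ¬ 2 ∣ orderOf h := fun hd => h0 (hvan 2 Nat.prime_two h2 h hd)
          have hne1 : orderOf h ≠ 1 := by rwa [Ne, orderOf_eq_one_iff]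
          obtain ⟨p, hpp, hpd⟩ := Nat.exists_prime_and_dvd hne1
          have hp2 : p ≠ 2 := by rintro rfl; exact hodd hpd
          apply h0
          refine hvan p hpp (hp p hpp hp2 ?_) h hpd
          obtain ⟨m, hm⟩ := hpd
          refine ⟨s * h ^ m, ?_⟩
          have hord : orderOf (h ^ m) = p := by
            have hmpos : 0 < m := by
              rcases Nat.eq_zero_or_pos m with h' | h'
              · rw [h', mul_zero] at hm
                exact absurd hm (orderOf_pos h).ne'
              · exact h'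
            rw [orderOf_pow_of_dvd hmpos.ne' ⟨p, by rw [hm, mul_comm]⟩, hm,
              Nat.mul_div_cancel _ hmpos]
          rw [(hcomm.pow_right m).orderOf_mul_eq_mul_orderOf_of_coprime, hs, hord]
          rw [hs, hord]
          exact (Nat.coprime_primes Nat.prime_two hpp).mpr (Ne.symm hp2)
  have hsq : ∑ g : G, (χ : G → ℂ) (g * g) = (t : ℂ) * x := by
    have e1 : ∑ g : G, (χ : G → ℂ) (g * g)
        = ∑ h : G, ((Finset.univ.filter fun g : G => g * g = h).card : ℂ) * (χ : G → ℂ) h := by
      rw [← Finset.sum_fiberwise (s := Finset.univ) (g := fun g : G => g * g)]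
      refine Finset.sum_congr rfl fun h _ => ?_
      rw [Finset.sum_congr rfl (g := fun _ => (χ : G → ℂ) h)
        (fun g hg => by rw [(Finset.mem_filter.mp hg).2])]
      rw [Finset.sum_const, nsmul_eq_mul]
    rw [e1, Finset.sum_congr rfl fun h _ => hkey h, Finset.sum_add_distrib, hsum0, zero_add]
    simp
  -- Frobenius-Schur indicator is 1
  have hν : (Nat.card G : ℂ)⁻¹ * ∑ g : G, (χ : G → ℂ) (g * g) = 1 := by
    have h3 : (Nat.card G : ℂ)⁻¹ * ∑ g : G, (χ : G → ℂ) (g * g) = 0 ∨
        (Nat.card G : ℂ)⁻¹ * ∑ g : G, (χ : G → ℂ) (g * g) = 1 ∨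
        (Nat.card G : ℂ)⁻¹ * ∑ g : G, (χ : G → ℂ) (g * g) = -1 := by
      obtain ⟨χf, n, ρ, hρ, rfl⟩ := χ
      haveI := hρ
      exact (Cfsg.Agent.S0158.result ρ).1
    rw [hsq] at h3 ⊢
    have hreal : (Nat.card G : ℂ)⁻¹ * ((t : ℂ) * x) = (((t * x : ℕ) : ℝ) / (Nat.card G : ℝ) : ℝ) := by
      push_cast
      field_simp
    have hpos : (0 : ℝ) < ((t * x : ℕ) : ℝ) / (Nat.card G : ℝ) := by
      have : 0 < t * x := Nat.mul_pos htpos hxpos
      positivity
    rw [hreal] at h3 ⊢
    rcases h3 with h | h | h
    · have : ((t * x : ℕ) : ℝ) / (Nat.card G : ℝ) = 0 := by exact_mod_cast h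
      linarith
    · exact h
    · have : ((t * x : ℕ) : ℝ) / (Nat.card G : ℝ) = -1 := by exact_mod_cast h
      linarith
  have htx : t * x = Nat.card G := by
    rw [hsq, inv_mul_eq_one₀ hGne] at hν
    exact_mod_cast hν.symm
  -- centralizers of involutions
  have hfull : ∀ s : G, orderOf s = 2 → ∀ p : ℕ, p.Prime →
      p ∣ Nat.card (Subgroup.centralizer ({s} : Set G)) → p ^ (Nat.card G).factorization p ∣ x := by
    intro s hs p hpp hpd
    by_cases hp2 : p = 2
    · subst hp2; exact h2
    · apply hp p hpp hp2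
      obtain ⟨⟨h, hh⟩, hord⟩ := exists_prime_orderOf_dvd_card'
        (G := Subgroup.centralizer ({s} : Set G)) p (hp := ⟨hpp⟩) hpd
      have hord' : orderOf h = p := by
        rw [← hord]; exact (Subgroup.orderOf_mk h hh).symm
      have hcomm : Commute s h := by
        have := Subgroup.mem_centralizer_iff.mp hh s (Set.mem_singleton s)
        exact this
      refine ⟨s * h, ?_⟩
      rw [hcomm.orderOf_mul_eq_mul_orderOf_of_coprime, hs, hord']
      rw [hs, hord']
      exact (Nat.coprime_primes Nat.prime_two hpp).mpr (Ne.symm hp2)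
  have hCdvd : ∀ s : G, orderOf s = 2 → Nat.card (Subgroup.centralizer ({s} : Set G)) ∣ x := by
    intro s hs
    have hCpos : Nat.card (Subgroup.centralizer ({s} : Set G)) ≠ 0 := Nat.card_pos.ne'
    rw [← Nat.factorization_prime_le_iff_dvd hCpos hxpos.ne']
    intro p hpp
    by_cases hpd : p ∣ Nat.card (Subgroup.centralizer ({s} : Set G))
    · have h4 := hfull s hs p hpp hpd
      have h5 : (Nat.card G).factorization p ≤ x.factorization p :=
        (hpp.pow_dvd_iff_le_factorization hxpos.ne').mp h4
      have h6 : (Nat.card (Subgroup.centralizer ({s} : Set G))).factorization p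
          ≤ (Nat.card G).factorization p :=
        (Nat.factorization_le_iff_dvd hCpos hGpos.ne').mpr (Subgroup.card_subgroup_dvd_card _) p
      exact le_trans h6 h5
    · rw [Nat.factorization_eq_zero_of_not_dvd hpd]
      exact Nat.zero_le _
  have hcl : ∀ s : G, orderOf s = 2 → (ConjClasses.mk s).carrier ⊆ {y : G | orderOf y = 2} := by
    intro s hs y hy
    rw [ConjClasses.mem_carrier_iff_mk_eq, ConjClasses.mk_eq_mk_iff_isConj] at hy
    obtain ⟨c, hc⟩ := isConj_iff.mp hy
    change orderOf y = 2
    rw [← hs, ← hc]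
    exact ((MulAut.conj c).orderOf_eq y).symm
  have htn : t = {y : G | orderOf y = 2}.ncard := by
    rw [ht, ← Nat.card_coe_set_eq]; rfl
  have hfin : ∀ s : G, orderOf s = 2 →
      Nat.card (Subgroup.centralizer ({s} : Set G)) = x ∧
      (ConjClasses.mk s).carrier = {y : G | orderOf y = 2} := by
    intro s hs
    have h7 : (ConjClasses.mk s).carrier.ncard ≤ t := by
      rw [htn]
      exact Set.ncard_le_ncard (hcl s hs) (Set.toFinite _)
    have h8 : Nat.card (Subgroup.centralizer ({s} : Set G)) * (ConjClasses.mk s).carrier.ncard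
        = Nat.card G := by
      rw [← index_centralizer_eq_ncard]
      exact Subgroup.card_mul_index _
    have h9 : Nat.card (Subgroup.centralizer ({s} : Set G)) ≤ x := Nat.le_of_dvd hxpos (hCdvd s hs)
    have h10 : Nat.card (Subgroup.centralizer ({s} : Set G)) = x ∧
        (ConjClasses.mk s).carrier.ncard = t := by
      rw [← htx] at h8
      constructor
      · by_contra hne
        have hlt : Nat.card (Subgroup.centralizer ({s} : Set G)) < x := lt_of_le_of_ne h9 hne
        have : Nat.card (Subgroup.centralizer ({s} : Set G)) * (ConjClasses.mk s).carrier.ncard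
            < t * x := by
          calc _ ≤ Nat.card (Subgroup.centralizer ({s} : Set G)) * t := Nat.mul_le_mul_left _ h7
            _ < x * t := Nat.mul_lt_mul_of_pos_right hlt htpos
            _ = t * x := mul_comm _ _
        omega
      · by_contra hne
        have hlt : (ConjClasses.mk s).carrier.ncard < t := lt_of_le_of_ne h7 hne
        have : Nat.card (Subgroup.centralizer ({s} : Set G)) * (ConjClasses.mk s).carrier.ncard
            < t * x := by
          calc _ ≤ x * (ConjClasses.mk s).carrier.ncard := Nat.mul_le_mul_right _ h9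
            _ < x * t := Nat.mul_lt_mul_of_pos_left hlt hxpos
            _ = t * x := mul_comm _ _
        omega
    refine ⟨h10.1, ?_⟩
    apply Set.eq_of_subset_of_ncard_le (hcl s hs) _ (Set.toFinite _)
    rw [h10.2, htn]
  refine ⟨?_, ?_, hν⟩
  · intro s t' hs ht'
    have : t' ∈ (ConjClasses.mk s).carrier := by
      rw [(hfin s hs).2]; exact ht'
    rw [ConjClasses.mem_carrier_iff_mk_eq, ConjClasses.mk_eq_mk_iff_isConj] at this
    exact this.symm
  · intro s hs
    refine ⟨(hfin s hs).1, ?_⟩
    have hidx : (Subgroup.centralizer ({s} : Set G)).index = t := by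
      have h8 := Subgroup.card_mul_index (Subgroup.centralizer ({s} : Set G))
      rw [(hfin s hs).1, ← htx, mul_comm] at h8
      exact Nat.eq_of_mul_eq_mul_right hxpos h8
    rw [hidx, (hfin s hs).1]
    apply Nat.Coprime.symm
    rw [Nat.coprime_iff_gcd_eq_one]
    by_contra hg
    obtain ⟨p, hpp, hpd⟩ := Nat.exists_prime_and_dvd hg
    have hpt : p ∣ t := dvd_trans hpd (Nat.gcd_dvd_left _ _)
    have hpx : p ∣ x := dvd_trans hpd (Nat.gcd_dvd_right _ _)
    have h4 := hfull s hs p hpp (by rw [(hfin s hs).1]; exact hpx)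
    have h5 : p ^ ((Nat.card G).factorization p + 1) ∣ Nat.card G := by
      rw [pow_succ, mul_comm]
      conv_rhs => rw [← htx]
      exact Nat.mul_dvd_mul hpt h4
    exact Nat.pow_succ_factorization_not_dvd hGpos.ne' hpp h5

end Cfsg.Agent.S4478
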