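import Cfsg.Statements.S4480
import Cfsg.Agent.S4479
import Cfsg.Agent.S4483
import Cfsg.Agent.S0944
import Cfsg.Agent.Lib.Helper74.Indicator
import Cfsg.Agent.Lib.Helper3.Integral

set_option autoImplicit false
set_option linter.style.haveILetI false
open Cfsg

namespace Cfsg.Agent.S4480

open Cfsg.Agent.Lib.Helper74 Cfsg.Agent.Lib.Helper78
open scoped ComplexConjugate

/-- In a group with Klein four Sylow 2-subgroups squares have odd order. -/
theorem odd_orderOf_sq {G : Type*} [Group G] [Finite G] (P : Sylow 2 G)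
    [hK : IsKleinFour (P : Subgroup G)] (s : G) : ¬ Even (orderOf (s * s)) := by
  rw [Nat.not_even_iff_odd, ← pow_two]
  by_cases hs : Even (orderOf s)
  · have h1 := klein_half_order_odd P hs
    rw [orderOf_pow_of_dvd (by norm_num) hs.two_dvd]
    exact h1
  · rw [Nat.not_even_iff_odd] at hs
    exact Odd.of_dvd_nat hs (orderOf_pow_dvd 2)

/-- The indicator relation in the principal block. -/
theorem indicator_relation {G : Type*} [Group G] [Fintype G] (M : Ideal Cfsg.AlgInt)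
    (hM : Cfsg.IsPModular 2 M) (P : Sylow 2 G) [hK : IsKleinFour (P : Subgroup G)]
    (hone : ∀ s t : G, orderOf s = 2 → orderOf t = 2 → IsConj s t) {J : G}
    (hJ : J ∈ (P : Subgroup G)) (hJ1 : J ≠ 1) :
    ∑ᶠ χ ∈ principalBlock M G, (χ : G → ℂ) J * fsInd (χ : G → ℂ) = 0 := by
  classical
  have h1 : ∀ s : G, ∑ᶠ χ ∈ principalBlock M G, (χ : G → ℂ) J * (χ : G → ℂ) (s * s) = 0 := by
    intro s
    rw [Cfsg.Agent.S4479.psi_eq M hM P hone hJ hJ1, if_neg (odd_orderOf_sq P s)]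
  simp only [finsum_mem_irr] at h1 ⊢
  have h2 : ∑ s : G, ∑ χ : IrrCharacter G, (if χ ∈ principalBlock M G then
      (χ : G → ℂ) J * (χ : G → ℂ) (s * s) else 0) = 0 := Finset.sum_eq_zero fun s _ => h1 s
  rw [Finset.sum_comm] at h2
  have h3 : ∑ χ : IrrCharacter G, (if χ ∈ principalBlock M G then
      (χ : G → ℂ) J * fsInd (χ : G → ℂ) else 0)
      = (Nat.card G : ℂ)⁻¹ * ∑ χ : IrrCharacter G, ∑ s : G, (if χ ∈ principalBlock M G then
      (χ : G → ℂ) J * (χ : G → ℂ) (s * s) else 0) := by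
    rw [Finset.mul_sum]
    refine Finset.sum_congr rfl fun χ _ => ?_
    split_ifs
    · unfold fsInd
      rw [← Finset.mul_sum]
      ring
    · simp
  rw [h3, h2, mul_zero]

theorem arith (k r x : ℕ) (hx : 0 < x) (h : k * (x + 1) ^ 2 = 4 * r ^ 2 * x * (2 * x + 1))
    (h1 : x ∣ k) (h2 : (2 * x + 1) ∣ k) :
    ∃ m, 4 * r = m * (2 * x + 1 + 1) ∧ 8 * k * r = m ^ 3 * ((2 * x + 1) ^ 3 - (2 * x + 1)) := by
  have hcop : Nat.Coprime x (2 * x + 1) := by
    have : Nat.Coprime x (1 + x * 2) := by simp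
    rwa [add_comm, mul_comm] at this
  obtain ⟨s, hs⟩ := Nat.Coprime.mul_dvd_of_dvd_of_dvd hcop h1 h2
  have h3 : s * (x + 1) ^ 2 = (2 * r) ^ 2 := by
    have hpos : 0 < x * (2 * x + 1) := by positivity
    apply Nat.eq_of_mul_eq_mul_left hpos
    rw [hs] at h
    nlinarith [h]
  have h4 : (x + 1) ^ 2 ∣ (2 * r) ^ 2 := Dvd.intro_left _ h3
  rw [Nat.pow_dvd_pow_iff (by norm_num)] at h4
  obtain ⟨m, hm⟩ := h4
  have hsm : s = m ^ 2 := by
    rw [hm, mul_pow] at h3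
    have hpos : 0 < (x + 1) ^ 2 := by positivity
    apply Nat.eq_of_mul_eq_mul_right hpos
    rw [h3]; ring
  refine ⟨m, by nlinarith [hm], ?_⟩
  have h5 : (2 * x + 1) ^ 3 - (2 * x + 1) = (2 * x + 1) * (2 * x) * (2 * x + 2) := by
    apply Nat.sub_eq_of_eq_add
    ring
  rw [h5, hs, hsm]
  have : 8 * (x * (2 * x + 1) * m ^ 2) * r = 4 * (x * (2 * x + 1) * m ^ 2) * (2 * r) := by ring
  rw [this, hm]
  ring

/-- the degree of an irreducible character taking the value `±1` at `J` divides the class size -/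
theorem degree_dvd_index {G : Type*} [Group G] [Finite G] (χ : IrrCharacter G) (J : G) (ε : ℤ)
    (hε : ε = 1 ∨ ε = -1) (hval : (χ : G → ℂ) J = ε) :
    charDegree (χ : G → ℂ) ∣ (Subgroup.centralizer ({J} : Set G)).index := by
  haveI := Fintype.ofFinite G
  have h1 := isIntegral_centralChar χ.2 J
  unfold centralChar at h1
  rw [hval, irr_one_eq] at h1
  apply Cfsg.Agent.Lib.Helper3.nat_dvd_of_isIntegral_div (irr_charDegree_pos χ).ne'
  rcases hε with rfl | rfl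
  · simpa using h1
  · have := h1.neg
    have h2 : -(((Subgroup.centralizer ({J} : Set G)).index : ℂ) * ((-1 : ℤ) : ℂ) /
        (charDegree (χ : G → ℂ) : ℂ)) = ((Subgroup.centralizer ({J} : Set G)).index : ℂ) /
        (charDegree (χ : G → ℂ) : ℂ) := by
      push_cast; ring
    rwa [h2] at this

theorem odd_degree {G : Type*} [Group G] [Finite G] (χ : IrrCharacter G) (J : G)
    (hJ2 : orderOf J = 2) (ε : ℤ) (hε : ε = 1 ∨ ε = -1) (hval : (χ : G → ℂ) J = ε) :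
    Odd (charDegree (χ : G → ℂ)) := by
  obtain ⟨n, hn, hdvd⟩ := Cfsg.Agent.S0944.result χ J hJ2
  rw [hval] at hn
  have hn' : ε = n := by exact_mod_cast hn
  rw [← hn'] at hdvd
  have : Odd ((charDegree (χ : G → ℂ) : ℕ) : ℤ) := by
    rcases hε with rfl | rfl
    · obtain ⟨c, hc⟩ := hdvd
      exact ⟨c, by omega⟩
    · obtain ⟨c, hc⟩ := hdvd
      exact ⟨c - 1, by omega⟩
  exact_mod_cast this

/-- Same setting as the Klein-four order formula: G of order 4·g₀ (g₀ odd) with no normal 2-complement, P a Sylow 2-subgroup, J an involution of P, M over 2, principal 2-block {1, χ₁, χ₂, χ₃} with χ_i(J) = ε_i = ±1. Suppose ε₁ε₂ε₃ = −1 and ε₃ = −1, and put q = x₃ = χ₃(1). Then there is a natural number m with 4·c(J) = m·c(P)·(q + 1), and the order of G equals (m³·c(P)/4)·(q³ − q)/2, that is 8·#G = m³·c(P)·(q³ − q). -/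
theorem result {G : Type*} [Group G] [Finite G] (M : Ideal Cfsg.AlgInt) (hM : Cfsg.IsPModular 2 M) (g₀ : ℕ) (hg₀ : Odd g₀) (hG : Nat.card G = 4 * g₀) (hnc : ¬ ∃ N : Subgroup G, N.Normal ∧ Nat.card N = g₀) (P : Sylow 2 G) (J : G) (hJ : J ∈ (P : Subgroup G)) (hJ2 : orderOf J = 2) (χ₁ χ₂ χ₃ : Cfsg.IrrCharacter G) (ε₁ ε₂ ε₃ : ℤ) (hB : Cfsg.principalBlock M G = {χ : Cfsg.IrrCharacter G | (χ : G → ℂ) = (fun _ => 1) ∨ χ = χ₁ ∨ χ = χ₂ ∨ χ = χ₃}) (hdist : (χ₁ : G → ℂ) ≠ (fun _ => 1) ∧ (χ₂ : G → ℂ) ≠ (fun _ => 1) ∧ (χ₃ : G → ℂ) ≠ (fun _ => 1) ∧ χ₁ ≠ χ₂ ∧ χ₁ ≠ χ₃ ∧ χ₂ ≠ χ₃) (hε : (ε₁ = 1 ∨ ε₁ = -1) ∧ (ε₂ = 1 ∨ ε₂ = -1) ∧ (ε₃ = 1 ∨ ε₃ = -1)) (hval : (χ₁ : G → ℂ) J = ε₁ ∧ (χ₂ : G → ℂ) J = ε₂ ∧ (χ₃ : G → ℂ) J = ε₃) (hprod : ε₁ * ε₂ * ε₃ = -1) (hε₃ : ε₃ = -1) : ∃ m : ℕ, 4 * Nat.card (Subgroup.centralizer ({J} : Set G)) = m * Nat.card (Subgroup.centralizer ((P : Subgroup G) : Set G)) * (Cfsg.charDegree (χ₃ : G → ℂ) + 1) ∧ 8 * Nat.card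 G = m ^ 3 * Nat.card (Subgroup.centralizer ((P : Subgroup G) : Set G)) * (Cfsg.charDegree (χ₃ : G → ℂ) ^ 3 - Cfsg.charDegree (χ₃ : G → ℂ)) := by
  classical
  haveI := Fintype.ofFinite G
  obtain ⟨hK, hone⟩ := klein_of_no_complement g₀ hg₀ hG hnc P
  haveI := hK
  have hJ1 : J ≠ 1 := by rintro rfl; simp at hJ2
  obtain ⟨k, r, hk, hr, hGk, hJr, hA, hBB⟩ :=
    Cfsg.Agent.S4479.data M hM g₀ hg₀ hG hnc P J hJ hJ2 χ₁ χ₂ χ₃ ε₁ ε₂ ε₃ hB hdist hval
  have hkidx : k = (Subgroup.centralizer ({J} : Set G)).index := by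
    have h1 := Subgroup.index_mul_card (Subgroup.centralizer ({J} : Set G))
    rw [hGk] at h1
    exact (Nat.eq_of_mul_eq_mul_right Nat.card_pos h1).symm
  have hx : ∀ χ : IrrCharacter G, 0 < charDegree (χ : G → ℂ) := irr_charDegree_pos
  have hxq : ∀ χ : IrrCharacter G, (0 : ℚ) < (charDegree (χ : G → ℂ) : ℚ) := by
    intro χ
    exact_mod_cast hx χ
  subst hε₃
  -- the signs
  have hsign : ε₁ = 1 ∧ ε₂ = 1 := by
    obtain ⟨h1, h2, -⟩ := hε
    have a1 := hxq χ₁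
    have a2 := hxq χ₂
    have a3 := hxq χ₃
    rcases h1 with rfl | rfl <;> rcases h2 with rfl | rfl
    · exact ⟨rfl, rfl⟩
    · norm_num at hprod
    · norm_num at hprod
    · exfalso
      have b1 : (1 : ℚ) ≤ (charDegree (χ₁ : G → ℂ) : ℚ) := by exact_mod_cast hx χ₁
      push_cast at hBB
      linarith
  obtain ⟨rfl, rfl⟩ := hsign
  obtain ⟨hv1, hv2, hv3⟩ := hval
  -- Frobenius–Schur
  have hind := indicator_relation M hM P hone hJ hJ1
  rw [Cfsg.Agent.S4479.finsum_block4 M χ₁ χ₂ χ₃ hB hdist, hv1, hv2, hv3] at hind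
  have htriv : fsInd (trivIrr G : G → ℂ) = 1 := by
    unfold fsInd
    have : ∀ s : G, (trivIrr G : G → ℂ) (s * s) = 1 := fun s => rfl
    simp only [this, Finset.sum_const, Finset.card_univ, nsmul_eq_mul, mul_one]
    rw [Nat.card_eq_fintype_card]
    exact inv_mul_cancel₀ (by exact_mod_cast Fintype.card_ne_zero)
  have htJ : (trivIrr G : G → ℂ) J = 1 := rfl
  rw [htriv, htJ] at hind
  have hne : ∀ (χ : IrrCharacter G) (ε : ℤ), (ε = 1 ∨ ε = -1) → (χ : G → ℂ) J = ε →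
      fsInd (χ : G → ℂ) = 0 ∨ fsInd (χ : G → ℂ) = 1 := by
    intro χ ε hε hv
    rcases fsInd_cases χ with h | h | h
    · exact Or.inl h
    · exact Or.inr h
    · exfalso
      exact (Nat.not_even_iff_odd.2 (odd_degree χ J hJ2 ε hε hv))
        (even_charDegree_of_fsInd_neg_one χ h)
  have hν₁ : fsInd (χ₁ : G → ℂ) = 0 := by
    rcases hne χ₁ 1 (Or.inl rfl) hv1 with h1 | h1 <;> rcases hne χ₂ 1 (Or.inl rfl) hv2 with h2 | h2 <;>
      rcases hne χ₃ (-1) (Or.inr rfl) hv3 with h3 | h3 <;> rw [h1, h2, h3] at hind <;>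
      first | exact h1 | (exfalso; norm_num at hind)
  obtain ⟨s, hs⟩ := (fsInd_eq_zero_iff χ₁).1 hν₁
  -- the conjugate of `χ₁` is `χ₂`
  have hstar : Cfsg.Agent.S4483.starIrr χ₁ ∈ principalBlock M G := by
    apply Cfsg.Agent.S4483.starIrr_mem_principalBlock
    rw [hB]
    exact Or.inr (Or.inl rfl)
  have hdeg : charDegree (χ₂ : G → ℂ) = charDegree (χ₁ : G → ℂ) := by
    rw [hB] at hstar
    rcases hstar with h | h | h | h
    · exfalso
      apply hdist.1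
      ext g
      have := congrFun h g
      simp only [Cfsg.Agent.S4483.starIrr] at this
      have h2 := congrArg conj this
      simpa using h2
    · exfalso
      apply hs
      have := congrArg (fun ψ : IrrCharacter G => (ψ : G → ℂ) s) h
      simp only [Cfsg.Agent.S4483.starIrr] at this
      exact Complex.conj_eq_iff_im.1 this
    · have h1 : ((charDegree (χ₂ : G → ℂ) : ℕ) : ℂ) = (charDegree (χ₁ : G → ℂ) : ℂ) := by
        rw [← irr_one_eq, ← irr_one_eq, ← h]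
        simp only [Cfsg.Agent.S4483.starIrr]
        exact irr_conj_one χ₁
      exact_mod_cast h1
    · exfalso
      have := congrArg (fun ψ : IrrCharacter G => (ψ : G → ℂ) J) h
      simp only [Cfsg.Agent.S4483.starIrr] at this
      rw [hv1, hv3] at this
      norm_num at this
  -- arithmetic
  have halg := Cfsg.Agent.S4479.algebra k r 1 _ _ _ ((1 : ℤ) : ℚ) ((1 : ℤ) : ℚ) ((-1 : ℤ) : ℚ)
    (by exact_mod_cast hk) (by exact_mod_cast hr) one_pos (hxq χ₁) (hxq χ₂) (hxq χ₃) (by norm_num)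
    (by norm_num) (by norm_num) hA hBB
  rw [hdeg] at halg hBB
  set x := charDegree (χ₁ : G → ℂ) with hxdef
  set q := charDegree (χ₃ : G → ℂ) with hqdef
  have hq : q = 2 * x + 1 := by
    have : (q : ℚ) = 2 * x + 1 := by
      push_cast at hBB
      linarith
    exact_mod_cast this
  have hxpos : 0 < x := hx χ₁
  have hmain : k * (x + 1) ^ 2 = 4 * r ^ 2 * x * (2 * x + 1) := by
    have h1 : (k : ℚ) * ((x : ℚ) + 1) ^ 2 = 4 * (r : ℚ) ^ 2 * x * (2 * x + 1) := by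
      have hq' : (q : ℚ) = 2 * x + 1 := by exact_mod_cast hq
      rw [hq'] at halg
      push_cast at halg
      have hx0 : (x : ℚ) ≠ 0 := by exact_mod_cast hxpos.ne'
      apply mul_left_cancel₀ (mul_ne_zero two_ne_zero hx0)
      linear_combination halg
    exact_mod_cast h1
  have hd1 : x ∣ k := by
    rw [hkidx]; exact degree_dvd_index χ₁ J 1 (Or.inl rfl) hv1
  have hd2 : (2 * x + 1) ∣ k := by
    rw [hkidx, ← hq]; exact degree_dvd_index χ₃ J (-1) (Or.inr rfl) hv3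
  obtain ⟨m, hm1, hm2⟩ := arith k r x hxpos hmain hd1 hd2
  refine ⟨m, ?_, ?_⟩
  · rw [hJr, hq]
    calc 4 * (r * Nat.card (Subgroup.centralizer ((P : Subgroup G) : Set G)))
        = (4 * r) * Nat.card (Subgroup.centralizer ((P : Subgroup G) : Set G)) := by ring
      _ = _ := by rw [hm1]; ring
  · rw [hGk, hJr, hq]
    calc 8 * (k * (r * Nat.card (Subgroup.centralizer ((P : Subgroup G) : Set G))))
        = (8 * k * r) * Nat.card (Subgroup.centralizer ((P : Subgroup G) : Set G)) := by ring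
      _ = _ := by rw [hm2]; ring

end Cfsg.Agent.S4480
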