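import Cfsg.Statements.S4481
import Cfsg.Agent.Lib.Helper75.DihBlock3
import Cfsg.Agent.Lib.Helper75.DihMk

set_option autoImplicit false
open Cfsg Cfsg.Agent.Lib.Helper75 Cfsg.Agent.Lib.Helper78

namespace Cfsg.Agent.S4481

/-- The principal 2-block of a group with dihedral Sylow 2-subgroups. Let G be a finite group whose Sylow 2-subgroup P is dihedral of order 2^n ≥ 8, let σ be an element of P of order 2^(n−1), ζ a primitive 2^(n−1)-th root of unity, and M a maximal ideal of the algebraic integers containing 2. Then the principal 2-block consists of exactly 3 + 2^(n−2) irreducible characters, which can be labelled 1, χ₁, χ₂, χ₃ and χ^(j) for 1 ≤ j ≤ 2^(n−2) − 1 (all distinct), with signs δ₁, δ₂, δ₃ such that for 0 < λ < 2^(n−1): χ₁(σ^λ) = δ₁, χ₂(σ^λ) = δ₂(−1)^(λ+1), χ₃(σ^λ) = δ₃(−1)^(λ+1) and χ^(j)(σ^λ) = δ₁(ζ^(jλ) + ζ^(−jλ)); and for every element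 ρ of odd order and every j: 1 + δ₁χ₁(ρ) = −δ₂χ₂(ρ) − δ₃χ₃(ρ) = δ₁χ^(j)(ρ). -/
theorem result {G : Type*} [Group G] [Finite G] (M : Ideal Cfsg.AlgInt) (hM : Cfsg.IsPModular 2 M) (n : ℕ) (hn : 3 ≤ n) (P : Sylow 2 G) (hP : Nonempty ((P : Subgroup G) ≃* DihedralGroup (2 ^ (n - 1)))) (σ : G) (hσ : σ ∈ (P : Subgroup G)) (hσo : orderOf σ = 2 ^ (n - 1)) (ζ : ℂ) (hζ : IsPrimitiveRoot ζ (2 ^ (n - 1))) : Nat.card (Cfsg.principalBlock M G) = 3 + 2 ^ (n - 2) ∧ ∃ (χ₁ χ₂ χ₃ : Cfsg.IrrCharacter G) (χ' : Fin (2 ^ (n - 2) - 1) → Cfsg.IrrCharacter G) (δ₁ δ₂ δ₃ : ℤ), (δ₁ = 1 ∨ δ₁ = -1) ∧ (δ₂ = 1 ∨ δ₂ = -1) ∧ (δ₃ = 1 ∨ δ₃ = -1) ∧ Function.Injective χ' ∧ (χ₁ : G → ℂ) ≠ (fun _ => 1) ∧ (χ₂ : G → ℂ) ≠ (fun _ => 1) ∧ (χ₃ : G → ℂ) ≠ (fun _ => 1) ∧ χ₁ ≠ χ₂ ∧ χ₁ ≠ χ₃ ∧ χ₂ ≠ χ₃ ∧ (∀ j, χ' j ≠ χ₁ ∧ χ' j ≠ χ₂ ∧ χ' j ≠ χ₃ ∧ (χ' j : G → ℂ) ≠ (fun _ => 1)) ∧ Cfsg.principalBlock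 M G = {χ : Cfsg.IrrCharacter G | (χ : G → ℂ) = (fun _ => 1) ∨ χ = χ₁ ∨ χ = χ₂ ∨ χ = χ₃ ∨ ∃ j, χ = χ' j} ∧ (∀ l : ℕ, 0 < l → l < 2 ^ (n - 1) → (χ₁ : G → ℂ) (σ ^ l) = δ₁ ∧ (χ₂ : G → ℂ) (σ ^ l) = δ₂ * (-1) ^ (l + 1) ∧ (χ₃ : G → ℂ) (σ ^ l) = δ₃ * (-1) ^ (l + 1) ∧ ∀ j : Fin (2 ^ (n - 2) - 1), (χ' j : G → ℂ) (σ ^ l) = δ₁ * (ζ ^ (((j : ℕ) + 1) * l) + (ζ ^ (((j : ℕ) + 1) * l))⁻¹)) ∧ ∀ ρ : G, Odd (orderOf ρ) → ∀ j : Fin (2 ^ (n - 2) - 1), 1 + δ₁ * (χ₁ : G → ℂ) ρ = -δ₂ * (χ₂ : G → ℂ) ρ - δ₃ * (χ₃ : G → ℂ) ρ ∧ 1 + δ₁ * (χ₁ : G → ℂ) ρ = δ₁ * (χ' j : G → ℂ) ρ := by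
  classical
  have := Fintype.ofFinite G
  obtain ⟨N, hN⟩ : ∃ N, N = 2 ^ (n - 1) := ⟨_, rfl⟩
  have hNm : N = 2 * 2 ^ (n - 2) := by
    rw [hN, ← pow_succ']; congr 1; omega
  have hm2 : 2 ≤ 2 ^ (n - 2) := by
    calc 2 = 2 ^ 1 := by norm_num
      _ ≤ 2 ^ (n - 2) := Nat.pow_le_pow_right (by norm_num) (by omega)
  have hhalf : N / 2 = 2 ^ (n - 2) := by omega
  have h4 : 4 ≤ N := by omega
  have hne : NeZero N := ⟨by omega⟩
  rw [← hN] at hP hσo hζ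
  obtain ⟨τ, h⟩ := DihS.of_iso (P : Subgroup G) σ N h4 ⟨n - 1, hN⟩ hσ hσo hP
  obtain ⟨χ₁, χ₂, χ₃, β, δ₁, δ₂, δ₃, s1, s2, s3, n12, n13, n23, t1, t2, t3, hβ, hinj, hblock,
    hval, hodd⟩ := h.main hζ hM
  rw [hhalf] at hβ hinj hblock hval hodd
  have htriv : ∀ χ : IrrCharacter G, χ = trivIrr G ↔ (χ : G → ℂ) = (fun _ => 1) := by
    intro χ
    constructor
    · rintro rfl; rfl
    · intro e; exact Subtype.ext e
  obtain ⟨χ', hχ'⟩ : ∃ χ' : Fin (2 ^ (n - 2) - 1) → IrrCharacter G, χ' = fun j : Fin (2 ^ (n - 2) - 1) => β ((j : ℕ) + 1) :=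
    ⟨_, rfl⟩
  have hj : ∀ j : Fin (2 ^ (n - 2) - 1), 1 ≤ (j : ℕ) + 1 ∧ (j : ℕ) + 1 < 2 ^ (n - 2) := by
    intro j
    have := j.2
    omega
  have hinj' : Function.Injective χ' := by
    intro i j hij
    rw [hχ'] at hij
    have := hinj _ _ (hj i).1 (hj i).2 (hj j).1 (hj j).2 hij
    exact Fin.ext (by omega)
  have hset : principalBlock M G = {χ : IrrCharacter G | (χ : G → ℂ) = (fun _ => 1) ∨ χ = χ₁ ∨
      χ = χ₂ ∨ χ = χ₃ ∨ ∃ j, χ = χ' j} := by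
    ext χ
    rw [hblock χ, Set.mem_ofPred_eq, htriv]
    constructor
    · rintro (e | e | e | e | ⟨j, h1, h2, e⟩)
      · exact Or.inl e
      · exact Or.inr (Or.inl e)
      · exact Or.inr (Or.inr (Or.inl e))
      · exact Or.inr (Or.inr (Or.inr (Or.inl e)))
      · refine Or.inr (Or.inr (Or.inr (Or.inr ⟨⟨j - 1, by omega⟩, ?_⟩)))
        rw [hχ', e]
        show β j = β (j - 1 + 1)
        congr 1; omega
    · rintro (e | e | e | e | ⟨j, e⟩)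
      · exact Or.inl e
      · exact Or.inr (Or.inl e)
      · exact Or.inr (Or.inr (Or.inl e))
      · exact Or.inr (Or.inr (Or.inr (Or.inl e)))
      · exact Or.inr (Or.inr (Or.inr (Or.inr ⟨(j : ℕ) + 1, (hj j).1, (hj j).2, by rw [e, hχ']⟩)))
  have hχ'ne : ∀ j, χ' j ≠ χ₁ ∧ χ' j ≠ χ₂ ∧ χ' j ≠ χ₃ ∧ χ' j ≠ trivIrr G := by
    intro j
    rw [hχ']
    exact hβ _ (hj j).1 (hj j).2
  have hζm : ζ ^ (2 ^ (n - 2)) = -1 := by
    have := hζ.pow (by omega) (show N = 2 ^ (n - 2) * 2 by omega)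
    exact this.eq_neg_one_of_two_right
  refine ⟨?_, χ₁, χ₂, χ₃, χ', δ₁, δ₂, δ₃, s1, s2, s3, hinj', fun e => t1 ((htriv _).2 e),
    fun e => t2 ((htriv _).2 e), fun e => t3 ((htriv _).2 e), n12, n13, n23, ?_, hset, ?_, ?_⟩
  · have hset' : principalBlock M G
        = insert (trivIrr G) (insert χ₁ (insert χ₂ (insert χ₃ (Set.range χ')))) := by
      rw [hset]
      ext χ
      simp only [Set.mem_ofPred_eq, Set.mem_insert_iff, Set.mem_range, ← htriv]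
      constructor
      · rintro (e | e | e | e | ⟨j, e⟩)
        · exact Or.inl e
        · exact Or.inr (Or.inl e)
        · exact Or.inr (Or.inr (Or.inl e))
        · exact Or.inr (Or.inr (Or.inr (Or.inl e)))
        · exact Or.inr (Or.inr (Or.inr (Or.inr ⟨j, e.symm⟩)))
      · rintro (e | e | e | e | ⟨j, e⟩)
        · exact Or.inl e
        · exact Or.inr (Or.inl e)
        · exact Or.inr (Or.inr (Or.inl e))
        · exact Or.inr (Or.inr (Or.inr (Or.inl e)))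
        · exact Or.inr (Or.inr (Or.inr (Or.inr ⟨j, e.symm⟩)))
    rw [Nat.card_coe_set_eq, hset', Set.ncard_insert_of_notMem, Set.ncard_insert_of_notMem,
      Set.ncard_insert_of_notMem, Set.ncard_insert_of_notMem, ← Set.image_univ,
      Set.ncard_image_of_injective _ hinj', Set.ncard_univ, Nat.card_fin]
    · omega
    · rintro ⟨j, e⟩; exact (hχ'ne j).2.2.1 e
    · simp only [Set.mem_insert_iff, Set.mem_range, not_or]
      exact ⟨n23, fun ⟨j, e⟩ => (hχ'ne j).2.1 e⟩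
    · simp only [Set.mem_insert_iff, Set.mem_range, not_or]
      exact ⟨n12, n13, fun ⟨j, e⟩ => (hχ'ne j).1 e⟩
    · simp only [Set.mem_insert_iff, Set.mem_range, not_or]
      exact ⟨fun e => t1 e.symm, fun e => t2 e.symm, fun e => t3 e.symm,
        fun ⟨j, e⟩ => (hχ'ne j).2.2.2 e⟩
  · intro j
    exact ⟨(hχ'ne j).1, (hχ'ne j).2.1, (hχ'ne j).2.2.1, fun e => (hχ'ne j).2.2.2 ((htriv _).2 e)⟩
  · intro l hl0 hl
    rw [← hN] at hl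
    have hl' : (l : ZMod N) ≠ 0 := by
      rw [Ne, ZMod.natCast_eq_zero_iff]
      intro hd
      have := Nat.le_of_dvd hl0 hd
      omega
    have hs : Cfsg.Agent.Lib.Helper73.zmodPow N σ (l : ZMod N) = σ ^ l := by
      unfold Cfsg.Agent.Lib.Helper73.zmodPow
      rw [ZMod.val_natCast, Nat.mod_eq_of_lt hl]
    obtain ⟨v1, v2, v3, v4⟩ := hval (l : ZMod N) hl'
    rw [hs] at v1 v2 v3 v4
    have hpsi : ∀ a : ℕ, DihS.psi N hζ ((a : ZMod N) * (-(l : ZMod N))) = (ζ ^ (a * l))⁻¹ := by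
      intro a
      rw [mul_neg, AddChar.map_neg_eq_inv, ← Nat.cast_mul, DihS.psi_natCast]
    have hpsi' : ∀ a : ℕ, DihS.psi N hζ (-(a : ZMod N) * (-(l : ZMod N))) = ζ ^ (a * l) := by
      intro a
      rw [neg_mul_neg, ← Nat.cast_mul, DihS.psi_natCast]
    have hsign : (ζ ^ (2 ^ (n - 2) * l))⁻¹ = (-1) ^ l := by
      rw [pow_mul, hζm, ← inv_pow]; norm_num
    refine ⟨v1, ?_, ?_, ?_⟩
    · rw [v2, hpsi, hsign, pow_succ]; ring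
    · rw [v3, hpsi, hsign, pow_succ]; ring
    · intro j
      rw [hχ']
      have := v4 ((j : ℕ) + 1) (hj j).1 (hj j).2
      rw [hpsi, hpsi'] at this
      rw [this]
      ring
  · intro ρ hρ j
    obtain ⟨r1, r2⟩ := hodd ρ hρ
    constructor
    · linear_combination r1
    · have := r2 ((j : ℕ) + 1) (hj j).1 (hj j).2
      rw [hχ']
      linear_combination this

end Cfsg.Agent.S4481
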