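import Cfsg.Statements.S4482
import Cfsg.Agent.Lib.Helper75.DihOrder
import Cfsg.Agent.Lib.Helper1.Tools

set_option autoImplicit false
open Cfsg Cfsg.Agent.Lib.Helper75 Cfsg.Agent.Lib.Helper78

namespace Cfsg.Agent.S4482

/-- An order formula for groups with dihedral Sylow 2-subgroups and one class of involutions. Let G be a finite group whose Sylow 2-subgroup P = ⟨σ, τ⟩ is dihedral of order 2^n ≥ 8 (σ of order 2^(n−1), τ an involution inverting σ), let J be the central involution σ^(2^(n−2)), and suppose J, τ and στ are conjugate in G. Fix M over 2 and let χ₁ be an irreducible character in the principal 2-block taking one constant value δ₁ = ±1 at every non-identity power of σ, with χ₁ ≠ 1. Then, with x₁ = χ₁(1) and c(·) denoting orders of centralizers, x₁ ≠ δ₁ and #G · (x₁ − δ₁)² = 2·x₁(x₁ + δ₁)·c(J)³·(1/c(J, τ) + 1/c(J, στ))², where c(J, y) is the order of the joint centralizer of J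 and y. -/
theorem result {G : Type*} [Group G] [Finite G] (M : Ideal Cfsg.AlgInt) (hM : Cfsg.IsPModular 2 M) (n : ℕ) (hn : 3 ≤ n) (P : Sylow 2 G) (σ τ : G) (hσ : σ ∈ (P : Subgroup G)) (hτ : τ ∈ (P : Subgroup G)) (hσo : orderOf σ = 2 ^ (n - 1)) (hτo : orderOf τ = 2) (hrel : τ * σ * τ⁻¹ = σ⁻¹) (hgen : Subgroup.closure ({σ, τ} : Set G) = (P : Subgroup G)) (hconj : IsConj (σ ^ (2 ^ (n - 2))) τ ∧ IsConj (σ ^ (2 ^ (n - 2))) (σ * τ)) (χ₁ : Cfsg.IrrCharacter G) (hχ₁ : χ₁ ∈ Cfsg.principalBlock M G) (h1 : (χ₁ : G → ℂ) ≠ (fun _ => 1)) (δ₁ : ℤ) (hδ₁ : δ₁ = 1 ∨ δ₁ = -1) (hval : ∀ l : ℕ, 0 < l → l < 2 ^ (n - 1) → (χ₁ : G → ℂ) (σ ^ l) = δ₁) : (Cfsg.charDegree (χ₁ : G → ℂ) : ℤ) ≠ δ₁ ∧ (Nat.card G : ℚ) * ((Cfsg.charDegree (χ₁ : G → ℂ) : ℚ) - δ₁) ^ 2 = 2 * (Cfsg.charDegree (χ₁ : G → ℂ) : ℚ) * ((Cfsg.charDegree (χ₁ : G → ℂ) : ℚ) + δ₁) * (Nat.card (Subgroup.centralizer ({σ ^ (2 ^ (n - 2))} : Set G)) : ℚ)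 ^ 3 * (1 / (Nat.card (Subgroup.centralizer ({σ ^ (2 ^ (n - 2)), τ} : Set G)) : ℚ) + 1 / (Nat.card (Subgroup.centralizer ({σ ^ (2 ^ (n - 2)), σ * τ} : Set G)) : ℚ)) ^ 2 := by
  classical
  have := Fintype.ofFinite G
  obtain ⟨N, hN⟩ : ∃ N, N = 2 ^ (n - 1) := ⟨_, rfl⟩
  have hNm : N = 2 * 2 ^ (n - 2) := by
    rw [hN, ← pow_succ']; congr 1; omega
  have hm2 : 2 ≤ 2 ^ (n - 2) := by
    calc 2 = 2 ^ 1 := by norm_num
      _ ≤ 2 ^ (n - 2) := Nat.pow_le_pow_right (by norm_num) (by omega)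
  have hhalf : N / 2 = 2 ^ (n - 2) := by omega
  have h4 : 4 ≤ N := by omega
  have hne : NeZero N := ⟨by omega⟩
  rw [← hN] at hσo hval
  rw [← hhalf] at hconj ⊢
  -- the order of `P`
  have hττ : τ * τ = 1 := by
    have := pow_orderOf_eq_one τ
    rwa [hτo, sq] at this
  have hτσ : τ ∉ Subgroup.zpowers σ := by
    intro hmem
    have h1 : τ * σ = σ * τ := DihS.comm_zpowers hmem (Subgroup.mem_zpowers σ)
    rw [h1, mul_inv_cancel_right] at hrel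
    have h2 : σ ^ 2 = 1 := by
      rw [sq]; nth_rewrite 1 [hrel]; exact inv_mul_cancel σ
    have := Nat.le_of_dvd (by norm_num) (orderOf_dvd_of_pow_eq_one h2)
    omega
  have hcard : Nat.card (P : Subgroup G) = 2 * N := by
    have e1 : (P : Subgroup G) = Subgroup.zpowers τ ⊔ Subgroup.zpowers σ := by
      rw [← hgen, Set.insert_eq, Subgroup.closure_union, ← Subgroup.zpowers_eq_closure,
        ← Subgroup.zpowers_eq_closure, sup_comm]
    rw [e1, Cfsg.Agent.Lib.Helper1.card_sup_of_disjoint, Nat.card_zpowers, Nat.card_zpowers, hτo,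
      hσo]
    · rw [Subgroup.zpowers_le]
      apply Cfsg.Agent.Lib.Helper72.mem_normalizer_of_conj_mem
      rintro _ ⟨k, rfl⟩
      show τ * σ ^ k * τ⁻¹ ∈ Subgroup.zpowers σ
      rw [← conj_zpow, hrel]
      exact Subgroup.zpow_mem _ (Subgroup.inv_mem _ (Subgroup.mem_zpowers σ)) k
    · rw [Subgroup.disjoint_def]
      rintro x ⟨k, rfl⟩ hx
      rcases zpow_of_mul_self hττ k with e | e
      · exact e
      · exfalso
        apply hτσ
        have hx' : τ ^ k ∈ Subgroup.zpowers σ := hx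
        rwa [e] at hx'
  have h := DihS.of_card (P : Subgroup G) σ τ N h4 ⟨n - 1, hN⟩ hσ hτ hσo hτo hrel hcard
  have hζ := Complex.isPrimitiveRoot_exp N (by omega)
  have hnetriv : χ₁ ≠ trivIrr G := fun e => h1 (by rw [e]; rfl)
  have hval' : ∀ l : ZMod N, l ≠ 0 →
      (χ₁ : G → ℂ) (Cfsg.Agent.Lib.Helper73.zmodPow N σ l) = δ₁ := by
    intro l hl
    apply hval l.val _ (ZMod.val_lt l)
    rw [Nat.pos_iff_ne_zero, Ne, ZMod.val_eq_zero]
    exact hl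
  obtain ⟨hxd, OF⟩ := h.order_formula hζ hM hconj.1 hconj.2 χ₁ hχ₁ hnetriv δ₁ hδ₁ hval'
  have OC := (h.oneClass hconj.1 hconj.2).card_mul
  obtain ⟨i₁, i₂, hi, hi₁, hi₂⟩ := h.card_Iset_eq
  rw [irr_one_eq] at hxd OF
  rw [← Nat.card_eq_fintype_card, ← Nat.card_eq_fintype_card] at OC
  have hx0 : (charDegree (χ₁ : G → ℂ) : ℂ) ≠ 0 := by
    exact_mod_cast (irr_charDegree_pos χ₁).ne'
  have hc0 : (Nat.card (Cfsg.Agent.Lib.Helper4.Cen (σ ^ (N / 2))) : ℂ) ≠ 0 := by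
    exact_mod_cast Nat.card_pos.ne'
  have ha0 : (Nat.card (Subgroup.centralizer ({σ ^ (N / 2), τ} : Set G)) : ℂ) ≠ 0 := by
    exact_mod_cast Nat.card_pos.ne'
  have hb0 : (Nat.card (Subgroup.centralizer ({σ ^ (N / 2), σ * τ} : Set G)) : ℂ) ≠ 0 := by
    exact_mod_cast Nat.card_pos.ne'
  have hi₁' : (i₁ : ℂ) = (Nat.card (Cfsg.Agent.Lib.Helper4.Cen (σ ^ (N / 2))) : ℂ)
      * (1 / (Nat.card (Subgroup.centralizer ({σ ^ (N / 2), τ} : Set G)) : ℂ)) := by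
    rw [← hi₁]; push_cast; field_simp
  have hi₂' : (i₂ : ℂ) = (Nat.card (Cfsg.Agent.Lib.Helper4.Cen (σ ^ (N / 2))) : ℂ)
      * (1 / (Nat.card (Subgroup.centralizer ({σ ^ (N / 2), σ * τ} : Set G)) : ℂ)) := by
    rw [← hi₂]; push_cast; field_simp
  have hi' : ((Loc.Iset h.σ' N).card : ℂ) = (i₁ : ℂ) + i₂ := by rw [hi]; push_cast; rfl
  constructor
  · intro hx
    have hx' : (charDegree (χ₁ : G → ℂ) : ℂ) = (δ₁ : ℂ) := by exact_mod_cast hx
    rw [hx', sub_self] at OF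
    have hI0 : ((Loc.Iset h.σ' N).card : ℂ) = 0 := by
      rw [← hx'] at OF
      have h5 : 2 * ((Loc.Iset h.σ' N).card : ℂ) ^ 2 * (charDegree (χ₁ : G → ℂ) : ℂ)
          * ((charDegree (χ₁ : G → ℂ) : ℂ) + (charDegree (χ₁ : G → ℂ) : ℂ)) = 0 := by
        rw [← OF]; ring
      have h6 : (charDegree (χ₁ : G → ℂ) : ℂ) + (charDegree (χ₁ : G → ℂ) : ℂ) ≠ 0 := by
        rw [← two_mul]; exact mul_ne_zero two_ne_zero hx0
      have h7 := (mul_eq_zero.1 ((mul_eq_zero.1 h5).resolve_right h6)).resolve_right hx0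
      exact pow_eq_zero_iff (two_ne_zero) |>.1 ((mul_eq_zero.1 h7).resolve_left two_ne_zero)
    have hI0' : (Loc.Iset h.σ' N).card = 0 := by exact_mod_cast hI0
    have : i₁ = 0 := by omega
    rw [this, zero_mul] at hi₁
    exact Nat.card_pos.ne' hi₁.symm
  · have hC : (Nat.card G : ℂ) * ((charDegree (χ₁ : G → ℂ) : ℂ) - (δ₁ : ℂ)) ^ 2
        = 2 * (charDegree (χ₁ : G → ℂ) : ℂ) * ((charDegree (χ₁ : G → ℂ) : ℂ) + (δ₁ : ℂ))
          * (Nat.card (Subgroup.centralizer ({σ ^ (N / 2)} : Set G)) : ℂ) ^ 3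
          * (1 / (Nat.card (Subgroup.centralizer ({σ ^ (N / 2), τ} : Set G)) : ℂ)
            + 1 / (Nat.card (Subgroup.centralizer ({σ ^ (N / 2), σ * τ} : Set G)) : ℂ)) ^ 2 := by
      rw [← OC, mul_assoc, OF, hi', hi₁', hi₂']
      ring
    apply Rat.cast_injective (α := ℂ)
    push_cast
    exact hC

end Cfsg.Agent.S4482
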