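import Cfsg.Statements.S4486
import Cfsg.Agent.Lib.Helper26.BL.Main
import Cfsg.Agent.Lib.Helper26.BL.Setup
import Cfsg.Agent.Lib.Helper80.Inflation

set_option autoImplicit false
open Cfsg

namespace Cfsg.Agent.S4486

open Cfsg.Agent.Lib Cfsg.Agent.Lib.Helper26.BL

theorem ker_ne_top {G : Type*} [Group G] [Finite G] {φ : G → ℂ} (hφ : IsIrrCharacter G φ)
    (h1 : φ ≠ fun _ => 1) : Helper80.charKer φ (Helper15.irr_char hφ) ≠ ⊤ := by
  have := Fintype.ofFinite G
  intro htop
  apply h1
  have hall : ∀ g : G, φ g = φ 1 := by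
    intro g
    have : g ∈ Helper80.charKer φ (Helper15.irr_char hφ) := by rw [htop]; exact Subgroup.mem_top g
    exact this
  apply Helper15.irr_eq_of_inner_ne_zero hφ Helper3.isIrrCharacter_one
  have hc : (Nat.card G : ℂ) ≠ 0 := by exact_mod_cast Nat.card_pos.ne'
  have : classInner φ (fun _ => (1 : ℂ)) = φ 1 := by
    simp only [classInner, map_one, mul_one, hall, Finset.sum_const, Finset.card_univ, nsmul_eq_mul]
    rw [← Nat.card_eq_fintype_card, ← mul_assoc, inv_mul_cancel₀ hc, one_mul]
  rw [this]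
  exact Helper15.irr_one_ne_zero hφ

/-- the statement, with the degree as a parameter -/
theorem aux {G : Type*} [Group G] [Finite G] (p : ℕ) [Fact p.Prime] (P : Sylow p G)
    (hstar : ∀ x ∈ (P : Subgroup G), x ≠ 1 →
      Subgroup.centralizer ({x} : Set G) = Subgroup.centralizer ((P : Subgroup G) : Set G))
    {χ : G → ℂ} (hχ : IsIrrCharacter G χ) (h1 : χ ≠ fun _ => 1) (x : ℕ) (hx : χ 1 = x)
    (hdeg : x ^ 2 + 1 < Nat.card P) :
    (∃ K : Subgroup G, K.Normal ∧ K ≠ ⊤ ∧ (P : Subgroup G) ≤ K) ∨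
      ((∃ N : Subgroup G, N.Normal ∧ N.index = Nat.card P) ∧ x = 1) := by
  classical
  have := Fintype.ofFinite G
  have := Fintype.ofFinite (Subgroup.centralizer ((P : Subgroup G) : Set G))
  have := Fintype.ofFinite (IrrCharacter (Subgroup.centralizer ((P : Subgroup G) : Set G)))
  obtain ⟨V, hD⟩ := exists_data P hstar
  have hdiv := relIndex_dvd P hstar
  have hχc := Helper15.irr_char hχ
  have hxd : dN (Subgroup.centralizer ((P : Subgroup G) : Set G)) χ = x := by
    have := dN_spec (C := Subgroup.centralizer ((P : Subgroup G) : Set G)) hχc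
    rw [hx] at this
    exact_mod_cast this.symm
  by_cases hk : ∀ y ∈ (P : Subgroup G), χ y = χ 1
  · left
    exact ⟨Helper80.charKer χ hχc, Helper80.charKer_normal hχc, ker_ne_top hχ h1, fun y hy => hk y hy⟩
  · push Not at hk
    by_cases hx2 : 2 ≤ x
    · left
      obtain ⟨φ, hφ, hφ1, hφP⟩ := hD.main hdiv hχ hk (by rw [hxd]; exact hdeg) (by rw [hxd]; exact hx2)
      exact ⟨Helper80.charKer φ (Helper15.irr_char hφ), Helper80.charKer_normal _, ker_ne_top hφ hφ1,
        fun y hy => hφP y hy⟩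
    · right
      have ht := hD.t_le_dN hχc hk
      have ht1 := hD.t_pos
      rw [hxd] at ht
      have hx1 : x = 1 := by omega
      refine ⟨?_, hx1⟩
      have hrel : (Subgroup.centralizer ((P : Subgroup G) : Set G)).relIndex
          (Subgroup.normalizer ((P : Subgroup G) : Set G)) = 1 := by omega
      have hN := Subgroup.relIndex_eq_one.1 hrel
      obtain ⟨K, hKn, -, hKi, -⟩ := Helper74.exists_normal_pComplement P hN
      exact ⟨K, hKn, hKi⟩

/-- Let G be a finite group and p a prime dividing its order such that every non-identity element of a Sylow p-subgroup P has the same centralizer as P; let p^n be the order of P. If G has a non-principal irreducible character χ of degree x with x² < p^n − 1, then either G has a proper normal subgroup containing P, or G has a normal subgroup of index p^n and x = 1. -/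
theorem result {G : Type*} [Group G] [Finite G] (p : ℕ) (hp : p.Prime) (hpG : p ∣ Nat.card G) (P : Sylow p G) (hstar : ∀ x ∈ (P : Subgroup G), x ≠ 1 → Subgroup.centralizer ({x} : Set G) = Subgroup.centralizer ((P : Subgroup G) : Set G)) (n : ℕ) (hn : Nat.card P = p ^ n) (χ : Cfsg.IrrCharacter G) (h1 : (χ : G → ℂ) ≠ fun _ => 1) (hdeg : Cfsg.charDegree (χ : G → ℂ) ^ 2 + 1 < p ^ n) : (∃ K : Subgroup G, K.Normal ∧ K ≠ ⊤ ∧ (P : Subgroup G) ≤ K) ∨ ((∃ N : Subgroup G, N.Normal ∧ N.index = p ^ n) ∧ Cfsg.charDegree (χ : G → ℂ) = 1) := by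
  have : Fact p.Prime := ⟨hp⟩
  have hx : (χ : G → ℂ) 1 = (Cfsg.charDegree (χ : G → ℂ) : ℂ) := by
    obtain ⟨k, hk⟩ := Helper15.char_one_nat (Helper15.irr_char χ.2)
    rw [Cfsg.charDegree, hk]; simp
  have := aux p P hstar χ.2 h1 _ hx (by rw [hn]; exact hdeg)
  rw [hn] at this
  exact this

end Cfsg.Agent.S4486
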