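import Cfsg.Statements.S4485
import Cfsg.Agent.S4486
import Cfsg.Agent.Lib.Helper80.Linear

set_option autoImplicit false
open Cfsg

namespace Cfsg.Agent.S4485

open Cfsg.Agent.Lib Cfsg.Agent.Lib.Helper26.BL
open scoped commutatorElement

universe u

/-- the case where no proper normal subgroup contains `P`: `G` is abelian -/
theorem comm_of_no_normal {G : Type u} [Group G] [Finite G] (p : ℕ) [Fact p.Prime] (P : Sylow p G)
    (hstar : ∀ x ∈ (P : Subgroup G), x ≠ 1 →
      Subgroup.centralizer ({x} : Set G) = Subgroup.centralizer ((P : Subgroup G) : Set G))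
    {χ : G → ℂ} (hχ : IsCharacter G χ) (hfaith : ∀ g : G, χ g = χ 1 → g = 1)
    (x : ℕ) (hx : χ 1 = x) (hdeg : x ^ 2 + 1 < Nat.card P)
    (hno : ¬ ∃ K : Subgroup G, K.Normal ∧ K ≠ ⊤ ∧ (P : Subgroup G) ≤ K) :
    ∀ a b : G, a * b = b * a := by
  classical
  have := Fintype.ofFinite G
  have := Fintype.ofFinite (IrrCharacter G)
  have hsum : x = ∑ ξ : IrrCharacter G, coef χ ξ * dg ξ := by
    have := apply_one_eq hχ
    rw [hx] at this
    exact_mod_cast this
  have hlin : ∀ ξ : IrrCharacter G, coef χ ξ ≠ 0 → (ξ : G → ℂ) 1 = 1 := by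
    intro ξ hξ
    by_cases h1 : (ξ : G → ℂ) = fun _ => 1
    · rw [h1]
    · have hle : dg ξ ≤ x := by
        rw [hsum]
        calc dg ξ ≤ coef χ ξ * dg ξ := Nat.le_mul_of_pos_left _ (Nat.pos_of_ne_zero hξ)
          _ ≤ _ := Finset.single_le_sum (f := fun ξ : IrrCharacter G => coef χ ξ * dg ξ)
                (fun _ _ => Nat.zero_le _) (Finset.mem_univ ξ)
      have hd : dg ξ ^ 2 + 1 < Nat.card P := by
        have : dg ξ ^ 2 ≤ x ^ 2 := Nat.pow_le_pow_left hle 2
        omega
      rcases S4486.aux p P hstar ξ.2 h1 (dg ξ) (dg_spec ξ) hd with h | ⟨-, h⟩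
      · exact absurd h hno
      · rw [dg_spec, h]; simp
  have hcomm : ∀ g ∈ commutator G, g = 1 := by
    intro g hg
    apply hfaith
    rw [expand hχ]
    simp only [Finset.sum_apply, Pi.smul_apply, smul_eq_mul]
    refine Finset.sum_congr rfl fun ξ _ => ?_
    by_cases h0 : coef χ ξ = 0
    · rw [h0]; simp
    · rw [Helper80.char_eq_one_of_mem_commutator (Helper15.irr_char ξ.2) (hlin ξ h0) hg]
  intro a b
  have h := hcomm ⁅a, b⁆ (by
    rw [commutator_def]
    exact Subgroup.commutator_mem_commutator (Subgroup.mem_top a) (Subgroup.mem_top b))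
  exact commutatorElement_eq_one_iff_mul_comm.1 h

/-- the statement, by induction on the order -/
theorem aux (p : ℕ) [Fact p.Prime] (m : ℕ) : ∀ (G : Type u) [Group G] [Finite G] (_ : Nat.card G = m)
    (P : Sylow p G)
    (_ : ∀ x ∈ (P : Subgroup G), x ≠ 1 →
      Subgroup.centralizer ({x} : Set G) = Subgroup.centralizer ((P : Subgroup G) : Set G))
    (χ : G → ℂ) (_ : IsCharacter G χ) (_ : ∀ g : G, χ g = χ 1 → g = 1)
    (x : ℕ) (_ : χ 1 = x) (_ : x ^ 2 + 1 < Nat.card P), (P : Subgroup G).Normal := by
  induction m using Nat.strong_induction_on with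
  | _ m ih =>
    intro G _ _ hm P hstar χ hχ hfaith x hx hdeg
    by_cases hno : ∃ K : Subgroup G, K.Normal ∧ K ≠ ⊤ ∧ (P : Subgroup G) ≤ K
    · obtain ⟨K, hKn, hKt, hPK⟩ := hno
      have hlt : Nat.card K < m := by
        rw [← hm]
        rcases lt_or_eq_of_le (Subgroup.card_le_card_group K) with h | h
        · exact h
        · exact absurd ((Subgroup.card_eq_iff_eq_top K).1 h) hKt
      have hcoe : ((P.subtype hPK : Sylow p K) : Subgroup K) = (P : Subgroup G).subgroupOf K :=
        Sylow.coe_subtype _ _
      have hcard : Nat.card (P.subtype hPK : Sylow p K) = Nat.card P := by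
        have e := Subgroup.subgroupOfEquivOfLe hPK
        have h2 : Nat.card ((P.subtype hPK : Sylow p K) : Subgroup K) =
            Nat.card ((P : Subgroup G).subgroupOf K) := by rw [hcoe]
        exact h2.trans (Nat.card_congr e.toEquiv)
      have hn := ih (Nat.card K) hlt K rfl (P.subtype hPK)
        (by
          intro y hy hy1
          rw [hcoe] at hy ⊢
          rw [Subgroup.mem_subgroupOf] at hy
          have hy1' : (y : G) ≠ 1 := fun h => hy1 (Subtype.ext h)
          have h := hstar y hy hy1'
          ext z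
          have hz : (z : G) ∈ Subgroup.centralizer ({(y : G)} : Set G) ↔
              (z : G) ∈ Subgroup.centralizer ((P : Subgroup G) : Set G) := by rw [h]
          rw [Subgroup.mem_centralizer_singleton_iff, Subgroup.mem_centralizer_iff] at hz ⊢
          constructor
          · intro hzy w hw
            have hw' : (w : G) ∈ (P : Subgroup G) := Subgroup.mem_subgroupOf.1 hw
            have := hz.1 (by exact_mod_cast congrArg Subtype.val hzy) w hw'
            exact Subtype.ext this
          · intro hzw
            have := hz.2 (fun w hw => by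
              have := hzw ⟨w, hPK hw⟩ (Subgroup.mem_subgroupOf.2 hw)
              exact congrArg Subtype.val this)
            exact Subtype.ext this)
        (fun k : K => χ k) (Helper15.char_restrict hχ K)
        (fun g hg => Subtype.ext (hfaith g hg)) x hx (by rw [hcard]; exact hdeg)
      have hch : ((P.subtype hPK : Sylow p K) : Subgroup K).Characteristic :=
        Sylow.characteristic_of_normal _ hn
      have hmap : (((P.subtype hPK : Sylow p K) : Subgroup K).map K.subtype).Normal :=
        ConjAct.normal_of_characteristic_of_normal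
      rw [hcoe, Subgroup.map_subgroupOf_eq_of_le hPK] at hmap
      exact hmap
    · have hc := comm_of_no_normal p P hstar hχ hfaith x hx hdeg hno
      constructor
      intro n hn g
      rw [hc g n, mul_assoc, mul_inv_cancel, mul_one]
      exact hn

/-- Let G be a finite group and p a prime dividing its order such that every non-identity element of a Sylow p-subgroup P has the same centralizer as P itself (so P is abelian); let p^n be the order of P. If G has a faithful character of degree x with x² < p^n − 1, then P is normal in G. -/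
theorem result {G : Type*} [Group G] [Finite G] (p : ℕ) (hp : p.Prime) (hpG : p ∣ Nat.card G) (P : Sylow p G) (hstar : ∀ x ∈ (P : Subgroup G), x ≠ 1 → Subgroup.centralizer ({x} : Set G) = Subgroup.centralizer ((P : Subgroup G) : Set G)) (n : ℕ) (hn : Nat.card P = p ^ n) (χ : G → ℂ) (hχ : Cfsg.IsCharacter G χ) (hfaith : ∀ g : G, χ g = χ 1 → g = 1) (hdeg : Cfsg.charDegree χ ^ 2 + 1 < p ^ n) : (P : Subgroup G).Normal := by
  have : Fact p.Prime := ⟨hp⟩
  have hx : χ 1 = (Cfsg.charDegree χ : ℂ) := by
    obtain ⟨k, hk⟩ := Helper15.char_one_nat hχ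
    rw [Cfsg.charDegree, hk]; simp
  exact aux p _ G rfl P hstar χ hχ hfaith _ hx (by rw [hn]; exact hdeg)

end Cfsg.Agent.S4485
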