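import Cfsg.Statements.S4493
import Cfsg.Agent.Lib.Helper76.ItoDeg
import Cfsg.Agent.Lib.Helper1.MinimalNormal

set_option autoImplicit false
open Cfsg

namespace Cfsg.Agent.S4493

/-- Let G be a finite solvable group and p a prime. Then G has a normal abelian Sylow p-subgroup if and only if no irreducible character degree of G is divisible by p. -/
theorem result {G : Type*} [Group G] [Finite G] (hsolv : Group.IsSolvable G) (p : ℕ) (hp : p.Prime) : (∃ P : Subgroup G, P.Normal ∧ (∀ x ∈ P, ∀ y ∈ P, x * y = y * x) ∧ IsPGroup p P ∧ ¬ p ∣ P.index) ↔ ∀ χ : Cfsg.IrrCharacter G, ¬ p ∣ Cfsg.charDegree (χ : G → ℂ) := by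
  have : Fact p.Prime := ⟨hp⟩
  constructor
  · rintro ⟨P, hn, hc, -, hidx⟩ χ hdvd
    exact hidx (hdvd.trans (Cfsg.Agent.Lib.Helper76.charDegree_dvd_index_of_comm P hc χ))
  · intro hdeg
    have h1 := Cfsg.Agent.Lib.Helper76.not_dvd_index_pCore_of_degrees p
      (fun X _ => Group.IsSolvable X)
      (fun X _ N _ h => by
        have := h
        infer_instance)
      (fun X _ H h => by
        have := h
        infer_instance)
      (fun X _ _ _ h => by
        have := h
        obtain ⟨q, N, hq, hN, hne, hNq, -, -⟩ :=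
          Cfsg.Agent.Lib.Helper1.exists_normal_pSubgroup_of_solvable (G := X)
        refine ⟨N, hN, hne, ?_⟩
        by_cases hqp : q = p
        · left; rw [← hqp]; exact hNq
        · right
          have : Fact q.Prime := ⟨hq⟩
          obtain ⟨k, hk⟩ := IsPGroup.iff_card.mp hNq
          rw [hk]
          exact Nat.Coprime.pow_left k ((Nat.coprime_primes hq hp).mpr hqp))
      _ G rfl hsolv hdeg
    exact ⟨pCore p G, inferInstance,
      Cfsg.Agent.Lib.Helper76.comm_of_normal_pGroup_of_degrees _
        (Cfsg.Agent.Lib.Lead.pCore_isPGroup p G) hdeg,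
      Cfsg.Agent.Lib.Lead.pCore_isPGroup p G, h1⟩

end Cfsg.Agent.S4493
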