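import Cfsg.Statements.S4497
import Cfsg.Agent.Lib.Helper75.SelfCent4

set_option autoImplicit false
open Cfsg

namespace Cfsg.Agent.S4497

/-- Let the finite group G contain an element x of prime order p with C_G(x) = ⟨x⟩, let t be the number of conjugacy classes of elements of order p, and let S* = O_{p′}(G) be the largest normal subgroup of order prime to p. Then S* ≤ G′; if t ≠ p − 1 the quotient G′/S* is simple (in particular non-trivial); if t = p − 1 then G′ = S*. -/
theorem result {G : Type*} [Group G] [Finite G] (p : ℕ) (hp : p.Prime) (x : G) (hx : orderOf x = p) (hC : Subgroup.centralizer ({x} : Set G) = Subgroup.zpowers x) (t : ℕ) (ht : Nat.card {C : ConjClasses G // ∃ g ∈ C.carrier, orderOf g = p} = t) : Cfsg.pPrimeCore p G ≤ commutator G ∧ (t ≠ p - 1 → ∀ h : ((Cfsg.pPrimeCore p G).subgroupOf (commutator G)).Normal, IsSimpleGroup (↥(commutator G) ⧸ (Cfsg.pPrimeCore p G).subgroupOf (commutator G))) ∧ (t = p - 1 → commutator G = Cfsg.pPrimeCore p G) := by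
  have h : Cfsg.Agent.Lib.Helper75.SC p x := ⟨hp, hx, hC⟩
  subst ht
  exact ⟨h.pPrimeCore_le_commutator,
    fun hne hn => h.isSimpleGroup_quotient (fun hh => hne (h.card_classes_eq_iff.2 hh)) hn,
    fun heq => h.commutator_eq_pPrimeCore (h.card_classes_eq_iff.1 heq)⟩

end Cfsg.Agent.S4497
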