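import Cfsg.Statements.S4498
import Cfsg.Agent.S0907
import Cfsg.Agent.Lib.Helper74.CharBasic

set_option autoImplicit false
open Cfsg

namespace Cfsg.Agent.S4498

open Cfsg.Agent.Lib.Helper74
open scoped ComplexConjugate

theorem principalBlock_isPBlock {G : Type*} [Group G] (M : Ideal Cfsg.AlgInt) :
    Cfsg.IsPBlock M (Cfsg.principalBlock M G) :=
  ⟨⟨fun _ => 1, isIrrCharacter_one⟩, rfl⟩

/-- Let p and q be distinct primes dividing the order of the finite group G, and suppose G has no element of order p·q. Fix maximal ideals M_p over p and M_q over q of the algebraic integers. Then the principal p-block and the principal q-block of G have a non-principal irreducible character in common. -/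
theorem result {G : Type*} [Group G] [Finite G] (p q : ℕ) [Fact p.Prime] [Fact q.Prime] (hpq : p ≠ q) (hp : p ∣ Nat.card G) (hq : q ∣ Nat.card G) (hno : ∀ g : G, orderOf g ≠ p * q) (Mp Mq : Ideal Cfsg.AlgInt) (hMp : Cfsg.IsPModular p Mp) (hMq : Cfsg.IsPModular q Mq) : ∃ χ : Cfsg.IrrCharacter G, (χ : G → ℂ) ≠ (fun _ => 1) ∧ χ ∈ Cfsg.principalBlock Mp G ∧ χ ∈ Cfsg.principalBlock Mq G := by
  classical
  have := Fintype.ofFinite G
  by_contra hcon
  push Not at hcon
  obtain ⟨π, hπ⟩ := exists_prime_orderOf_dvd_card' p hp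
  obtain ⟨ρ, hρ⟩ := exists_prime_orderOf_dvd_card' q hq
  set Bp := Cfsg.principalBlock Mp G with hBp
  set Bq := Cfsg.principalBlock Mq G with hBq
  let φ : G → ℂ := fun g => ∑ χ ∈ Finset.univ.filter (· ∈ Bp), conj ((χ : G → ℂ) π) • (χ : G → ℂ) g
  let η : G → ℂ := fun g => ∑ χ ∈ Finset.univ.filter (· ∈ Bq), conj ((χ : G → ℂ) ρ) • (χ : G → ℂ) g
  have hφ : ∀ g : G, ¬ p ∣ orderOf g → φ g = 0 := by
    intro g hg
    have := Cfsg.Agent.S0907.result p Mp hMp Bp (principalBlock_isPBlock Mp) g π hg (by rw [hπ])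
    rw [finsum_mem_eq_finite_toFinset_sum _ (Set.toFinite _)] at this
    simp only [φ, smul_eq_mul]
    rw [← this]
    apply Finset.sum_congr
    · ext χ; simp
    · intro χ _; ring
  have hη : ∀ g : G, ¬ q ∣ orderOf g → η g = 0 := by
    intro g hg
    have := Cfsg.Agent.S0907.result q Mq hMq Bq (principalBlock_isPBlock Mq) g ρ hg (by rw [hρ])
    rw [finsum_mem_eq_finite_toFinset_sum _ (Set.toFinite _)] at this
    simp only [η, smul_eq_mul]
    rw [← this]
    apply Finset.sum_congr
    · ext χ; simp
    · intro χ _; ring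
  have hreg : ∀ g : G, ¬ p ∣ orderOf g ∨ ¬ q ∣ orderOf g := by
    intro g
    by_contra h
    push Not at h
    have hcop : Nat.Coprime p q := (Nat.coprime_primes (Fact.out) (Fact.out)).2 hpq
    have hdvd : p * q ∣ orderOf g := hcop.mul_dvd_of_dvd_of_dvd h.1 h.2
    obtain ⟨k, hk⟩ := hdvd
    have hpos : 0 < orderOf g := orderOf_pos g
    have hk0 : k ≠ 0 := by
      rintro rfl; rw [mul_zero] at hk; omega
    have : orderOf (g ^ k) = p * q := by
      rw [orderOf_pow_of_dvd hk0 ⟨p * q, by rw [hk]; ring⟩, hk]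
      exact Nat.mul_div_cancel _ (Nat.pos_of_ne_zero hk0)
    exact hno _ this
  have hzero : Cfsg.classInner φ η = 0 := by
    unfold Cfsg.classInner
    rw [Finset.sum_eq_zero, mul_zero]
    intro g _
    rcases hreg g with h | h
    · rw [hφ g h, zero_mul]
    · rw [hη g h, map_zero, mul_zero]
  -- expand the inner product
  have hφ' : φ = ∑ χ ∈ Finset.univ.filter (· ∈ Bp), conj ((χ : G → ℂ) π) • (χ : G → ℂ) := by
    funext g; simp [φ, Finset.sum_apply]
  have hη' : η = ∑ χ ∈ Finset.univ.filter (· ∈ Bq), conj ((χ : G → ℂ) ρ) • (χ : G → ℂ) := by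
    funext g; simp [η, Finset.sum_apply]
  let one : Cfsg.IrrCharacter G := ⟨fun _ => 1, isIrrCharacter_one⟩
  have hone_p : one ∈ Bp := by
    intro g
    simp only [one, sub_self]
    exact ⟨0, 1, Mp.zero_mem, fun h => hMp.2.1.ne_top ((Ideal.eq_top_iff_one _).2 h), by simp⟩
  have hone_q : one ∈ Bq := by
    intro g
    simp only [one, sub_self]
    exact ⟨0, 1, Mq.zero_mem, fun h => hMq.2.1.ne_top ((Ideal.eq_top_iff_one _).2 h), by simp⟩
  have hexp : Cfsg.classInner φ η = 1 := by
    rw [hφ', classInner_sum_left]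
    rw [Finset.sum_eq_single one]
    · rw [classInner_smul_left, hη', classInner_sum_right, Finset.sum_eq_single one]
      · rw [classInner_smul_right, classInner_irr_self]
        simp [one]
      · intro ψ _ hψ
        rw [classInner_smul_right, classInner_irr_ne (Ne.symm hψ), mul_zero]
      · intro h; exact absurd (by simp [hone_q]) h
    · intro χ hχ hχ1
      have hχp : χ ∈ Bp := by simpa using hχ
      rw [classInner_smul_left, hη', classInner_sum_right, Finset.sum_eq_zero, mul_zero]
      intro ψ hψ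
      have hψq : ψ ∈ Bq := by simpa using hψ
      have hne : χ ≠ ψ := by
        rintro rfl
        apply hχ1
        by_contra hne1
        have h1 : (χ : G → ℂ) ≠ fun _ => 1 := by
          intro h; apply hne1; exact Subtype.ext h
        exact hcon χ h1 hχp hψq
      rw [classInner_smul_right, classInner_irr_ne hne, mul_zero]
    · intro h; exact absurd (by simp [hone_p]) h
  rw [hzero] at hexp
  exact zero_ne_one hexp

end Cfsg.Agent.S4498
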