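import Cfsg.Statements.S4499
import Cfsg.Agent.Lib.Helper78.BrauerFeit
import Cfsg.Agent.S0164

set_option autoImplicit false
open Cfsg

namespace Cfsg.Agent.S4499

/-- Let G be a finite group whose order has p-part p^a (a ≥ 1), and fix a maximal ideal M of the algebraic integers containing p. If the degree of one irreducible character of a p-block B is divisible by p^(a−1), then the degree of every irreducible character in B is divisible by p^(a−1) (so B has defect at most 1). -/
theorem result {G : Type*} [Group G] [Finite G] (p : ℕ) [Fact p.Prime] (M : Ideal Cfsg.AlgInt) (hM : Cfsg.IsPModular p M) (hpa : p ∣ Nat.card G) (B : Set (Cfsg.IrrCharacter G)) (hB : Cfsg.IsPBlock M B) (χ : Cfsg.IrrCharacter G) (hχ : χ ∈ B) (hdiv : p ^ ((Nat.card G).factorization p - 1) ∣ Cfsg.charDegree (χ : G → ℂ)) (ψ : Cfsg.IrrCharacter G) (hψ : ψ ∈ B) : p ^ ((Nat.card G).factorization p - 1) ∣ Cfsg.charDegree (ψ : G → ℂ) := by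
  classical
  haveI := Fintype.ofFinite G
  have hBr : Lib.Helper78.BrauerChar G := fun θ hθ hE => Cfsg.Agent.S0164.result θ hθ hE
  have hMp := Lib.Helper78.pmod_isPrime hM
  have hp : p.Prime := hM.1
  rw [Nat.Prime.pow_dvd_iff_le_factorization hp (Lib.Helper78.irr_charDegree_pos χ).ne'] at hdiv
  rw [Nat.Prime.pow_dvd_iff_le_factorization hp (Lib.Helper78.irr_charDegree_pos ψ).ne']
  have h1 := Lib.Helper78.minDeg_le (p := p) hψ
  have h2 := Lib.Helper78.minDeg_le (p := p) hχ
  have h3 := Lib.Helper78.minDeg_le_card (p := p) (Lib.Helper78.IsPBlock.nonempty hMp hB)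
  have h4 := Lib.Helper78.blockDefect_eq p B
  have h5 := Lib.Helper78.blockHeight_eq p B (χ : G → ℂ)
  by_cases hne : Cfsg.blockHeight p B (χ : G → ℂ) = 0
  · omega
  · have := Lib.Helper78.height_add_two_le hBr hM hB hχ (Nat.pos_of_ne_zero hne)
    omega

end Cfsg.Agent.S4499
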