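import Cfsg.Statements.S4500
import Mathlib
import Cfsg.Agent.S4710
import Cfsg.Agent.Lib.Helper17.SelfCent

set_option autoImplicit false
open Cfsg

namespace Cfsg.Agent.S4500

open Cfsg.Agent.Lib.Helper78 Cfsg.Agent.Lib.Helper97 Cfsg.Agent.Lib.Helper17 in
theorem key {G : Type*} [Group G] [Finite G] [Nontrivial G] (p q r a b c : ℕ) (hp : p.Prime)
    (hq : q.Prime) (hr : r.Prime) (hpq : p ≠ q) (hpr : p ≠ r) (hqr : q ≠ r) (ha : a ≤ 2)
    (hG : Nat.card G = p ^ a * q ^ b * r ^ c) :
    ∃ χ : Cfsg.IrrCharacter G, (χ : G → ℂ) ≠ (fun _ => 1) ∧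
      ∃ k : ℕ, Cfsg.charDegree (χ : G → ℂ) = q ^ k := by
  classical
  have hne : ∀ χ : IrrCharacter G, χ ≠ trivIrr G → (χ : G → ℂ) ≠ (fun _ => 1) := by
    intro χ h h1
    exact h (Subtype.ext h1)
  -- general: a prime `s` dividing the order
  have gen : ∀ s : ℕ, s.Prime → s ∣ Nat.card G → ∃ M : Ideal AlgInt, IsPModular s M ∧
      ∃ χ : IrrCharacter G, χ ∈ principalBlock M G ∧ χ ≠ trivIrr G ∧
        ¬ r ∣ charDegree (χ : G → ℂ) := by
    intro s hs hdvd
    obtain ⟨M, hM⟩ := exists_isPModular s hs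
    have : Fact s.Prime := ⟨hs⟩
    obtain ⟨y, hy⟩ := exists_prime_orderOf_dvd_card' (G := G) s hdvd
    obtain ⟨χ, h1, h2, h3, -⟩ := exists_irr_principal_ne_zero hs hr hM y (by rw [hy])
    exact ⟨M, hM, χ, h1, h2, h3⟩
  have fin : ∀ χ : IrrCharacter G, ¬ r ∣ charDegree (χ : G → ℂ) → ¬ p ∣ charDegree (χ : G → ℂ) →
      ∃ k : ℕ, Cfsg.charDegree (χ : G → ℂ) = q ^ k := by
    intro χ h1 h2
    have hd := irr_charDegree_dvd_card χ
    rw [hG] at hd
    have c1 : (charDegree (χ : G → ℂ)).Coprime (r ^ c) :=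
      Nat.Coprime.pow_right _ ((Nat.Prime.coprime_iff_not_dvd hr).2 h1).symm
    have c2 : (charDegree (χ : G → ℂ)).Coprime (p ^ a) :=
      Nat.Coprime.pow_right _ ((Nat.Prime.coprime_iff_not_dvd hp).2 h2).symm
    have hd1 := c1.dvd_of_dvd_mul_right hd
    have hd2 := c2.dvd_of_dvd_mul_left hd1
    obtain ⟨k, -, hk⟩ := (Nat.dvd_prime_pow hq).1 hd2
    exact ⟨k, hk⟩
  by_cases hpd : p ∣ Nat.card G
  · obtain ⟨M, hM, χ, h1, h2, h3⟩ := gen p hp hpd
    refine ⟨χ, hne χ h2, fin χ h3 ?_⟩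
    have : Fact p.Prime := ⟨hp⟩
    have h0 : sInf ((fun ψ : IrrCharacter G => (charDegree (ψ : G → ℂ)).factorization p) ''
        (principalBlock M G)) = 0 := by
      have hmem : 0 ∈ ((fun ψ : IrrCharacter G => (charDegree (ψ : G → ℂ)).factorization p) ''
        (principalBlock M G)) := by
        refine ⟨trivIrr G, trivIrr_mem_principalBlock (pmod_isPrime hM), ?_⟩
        have : charDegree ((trivIrr G : IrrCharacter G) : G → ℂ) = 1 := by
          have h := irr_one_eq (trivIrr G)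
          have h' : ((trivIrr G : IrrCharacter G) : G → ℂ) 1 = 1 := rfl
          rw [h'] at h
          exact_mod_cast h.symm
        simp [this]
      exact Nat.eq_zero_of_le_zero (Nat.sInf_le hmem)
    have hfa : (Nat.card G).factorization p = a := by
      have e1 : p ^ a ≠ 0 := pow_ne_zero _ hp.ne_zero
      have e2 : q ^ b ≠ 0 := pow_ne_zero _ hq.ne_zero
      have e3 : r ^ c ≠ 0 := pow_ne_zero _ hr.ne_zero
      rw [hG, Nat.factorization_mul (mul_ne_zero e1 e2) e3, Nat.factorization_mul e1 e2]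
      simp [hp.factorization_pow, hq.factorization_pow, hr.factorization_pow, hpq.symm, hpr.symm]
    have hdef : blockDefect p (principalBlock M G) = a := by
      unfold blockDefect
      rw [h0, hfa]; rfl
    have hh := (Cfsg.Agent.S4710.result p M hM (principalBlock M G) isPBlock_principalBlock a hdef).2 χ h1
    have hht : blockHeight p (principalBlock M G) (χ : G → ℂ) = 0 := by
      rcases Nat.lt_or_ge 1 a with h | h
      · have := hh.2 h
        omega
      · exact hh.1 h
    unfold blockHeight at hht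
    rw [h0] at hht
    intro hdv
    have := (hp.dvd_iff_one_le_factorization (irr_charDegree_pos χ).ne').1 hdv
    omega
  · obtain ⟨s, hs, hsd⟩ := Nat.exists_prime_and_dvd (n := Nat.card G)
      (Finite.one_lt_card (α := G)).ne'
    obtain ⟨M, hM, χ, h1, h2, h3⟩ := gen s hs hsd
    exact ⟨χ, hne χ h2, fin χ h3 (fun h => hpd (h.trans (irr_charDegree_dvd_card χ)))⟩

/-- Let G be a non-trivial finite group of order p^a · q^b · r^c with p, q, r distinct primes and a ≤ 2. Then G has a non-principal irreducible character whose degree is a power of q, and a non-principal irreducible character whose degree is a power of r; the power may be the zeroth, so a non-principal linear character serves for both. -/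
theorem result {G : Type*} [Group G] [Finite G] [Nontrivial G] (p q r a b c : ℕ) (hp : p.Prime) (hq : q.Prime) (hr : r.Prime) (hpq : p ≠ q) (hpr : p ≠ r) (hqr : q ≠ r) (ha : a ≤ 2) (hG : Nat.card G = p ^ a * q ^ b * r ^ c) : (∃ χ : Cfsg.IrrCharacter G, (χ : G → ℂ) ≠ (fun _ => 1) ∧ ∃ k : ℕ, Cfsg.charDegree (χ : G → ℂ) = q ^ k) ∧ ∃ χ : Cfsg.IrrCharacter G, (χ : G → ℂ) ≠ (fun _ => 1) ∧ ∃ k : ℕ, Cfsg.charDegree (χ : G → ℂ) = r ^ k := by
  have hG' : Nat.card G = p ^ a * r ^ c * q ^ b := by rw [hG]; ring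
  exact ⟨key p q r a b c hp hq hr hpq hpr hqr ha hG, key p r q a c b hp hr hq hpr hpq hqr.symm ha hG'⟩

end Cfsg.Agent.S4500
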