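import Cfsg.Statements.S4506
import Mathlib
import Cfsg.Agent.S0164
import Cfsg.Agent.Lib.Helper78.Contribution
import Cfsg.Agent.Lib.Helper78.HeightZero
import Cfsg.Agent.Lib.Helper76.GaloisChar

set_option autoImplicit false
open Cfsg

namespace Cfsg.Agent.S4506

open Cfsg.Agent.Lib

/-- A field automorphism of `ℂ` acts on the `n`-th roots of unity as a power map. -/
theorem exists_pow_of_ringAut (n : ℕ) (hn : 0 < n) (σ : ℂ ≃+* ℂ) :
    ∃ k : ℕ, k.Coprime n ∧ ∀ w : ℂ, w ^ n = 1 → σ w = w ^ k := by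
  have hζ := Complex.isPrimitiveRoot_exp n hn.ne'
  set ζ := Complex.exp (2 * Real.pi * Complex.I / n) with hζd
  have hσζ : IsPrimitiveRoot (σ ζ) n := hζ.map_of_injective σ.injective
  have : NeZero n := ⟨hn.ne'⟩
  obtain ⟨k, -, hk, hk2⟩ := (hζ.isPrimitiveRoot_iff).1 hσζ
  refine ⟨k, hk, fun w hw => ?_⟩
  obtain ⟨i, -, rfl⟩ := hζ.eq_pow_of_pow_eq_one hw
  rw [map_pow, ← hk2, ← pow_mul, ← pow_mul, mul_comm]

theorem pconj_pow {G : Type*} [Group G] [Finite G] (m : ℕ) (hm : m ∣ Nat.card G)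
    {χ : G → ℂ} (hχ : IsCharacter G χ) (σ : ℂ ≃+* ℂ)
    (hσ : σ (Complex.exp (2 * Real.pi * Complex.I / (m : ℕ))) =
      Complex.exp (2 * Real.pi * Complex.I / (m : ℕ))) :
    ∃ k : ℕ, k.Coprime (Nat.card G) ∧ k ≡ 1 [MOD m] ∧ ∀ g, σ (χ g) = χ (g ^ k) := by
  obtain ⟨k, hk, hk2⟩ := exists_pow_of_ringAut (Nat.card G) Nat.card_pos σ
  have hm0 : m ≠ 0 := by
    rintro rfl
    exact Nat.card_pos.ne' (Nat.eq_zero_of_zero_dvd hm)
  have hζ := Complex.isPrimitiveRoot_exp m hm0
  refine ⟨k, hk, ?_, fun g => Helper76.IsCharacter.map_ringHom_apply hχ σ.toRingHom k hk2 g⟩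
  have h1 := hk2 _ ((hζ.pow_eq_one_iff_dvd _).2 hm)
  rw [hσ] at h1
  rw [Nat.modEq_iff_dvd, ← hζ.zpow_eq_one_iff_dvd, zpow_sub₀ (hζ.ne_zero hm0)]
  push_cast
  rw [zpow_one, zpow_natCast, ← h1]
  exact div_self (hζ.ne_zero hm0)

/-- Let G be a finite group, p a prime, p^a the p-part of the order of G and g′ its p′-part. Call two irreducible characters p-conjugate when one is obtained from the other by applying a field automorphism of ℂ that fixes the g′-th roots of unity, and let r be the number of characters p-conjugate to the irreducible character χ (χ included). Then the exponent of p in r·χ(1) is at most a; and if p^a divides r·χ(1) then p^a already divides χ(1). -/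
theorem result {G : Type*} [Group G] [Finite G] (p : ℕ) (hp : p.Prime) (χ : Cfsg.IrrCharacter G) (r : ℕ) (hr : Nat.card {ψ : Cfsg.IrrCharacter G // ∃ σ : ℂ ≃+* ℂ, σ (Complex.exp (2 * Real.pi * Complex.I / ((Nat.card G / p ^ (Nat.card G).factorization p) : ℕ))) = Complex.exp (2 * Real.pi * Complex.I / ((Nat.card G / p ^ (Nat.card G).factorization p) : ℕ)) ∧ (ψ : G → ℂ) = fun g => σ ((χ : G → ℂ) g)} = r) : (r * Cfsg.charDegree (χ : G → ℂ)).factorization p ≤ (Nat.card G).factorization p ∧ (p ^ (Nat.card G).factorization p ∣ r * Cfsg.charDegree (χ : G → ℂ) → p ^ (Nat.card G).factorization p ∣ Cfsg.charDegree (χ : G → ℂ)) := by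
  classical
  let _ := Fintype.ofFinite G
  obtain ⟨M, h⟩ := Helper78.exists_isPModular p hp
  have hM := Helper78.pmod_isPrime h
  have hBr : Helper78.BrauerChar G := fun θ hθ hE => Cfsg.Agent.S0164.result θ hθ hE
  obtain ⟨N, hN, hsymm, hsq, hne⟩ := Helper78.exists_N hBr h
  set a := (Nat.card G).factorization p with ha
  set g' := Nat.card G / p ^ a with hg'
  have hcard : p ^ a * g' = Nat.card G := Nat.mul_div_cancel' (Nat.ordProj_dvd _ _)
  have hg'dvd : g' ∣ Nat.card G := ⟨p ^ a, by rw [← hcard, mul_comm]⟩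
  set P : IrrCharacter G → Prop := fun ψ => ∃ σ : ℂ ≃+* ℂ,
    σ (Complex.exp (2 * Real.pi * Complex.I / (g' : ℕ))) =
      Complex.exp (2 * Real.pi * Complex.I / (g' : ℕ)) ∧
    (ψ : G → ℂ) = fun g => σ ((χ : G → ℂ) g) with hP
  set F : Finset (IrrCharacter G) := Finset.univ.filter P with hF
  have hrF : F.card = r := by
    rw [← hr, Nat.card_eq_fintype_card, Fintype.card_subtype]
  have hχc := Helper74.IrrCharacter.isCharacter χ
  -- power description
  have hpow : ∀ ψ ∈ F, ∃ k : ℕ, k.Coprime (Nat.card G) ∧ k ≡ 1 [MOD g'] ∧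
      ∀ g, (ψ : G → ℂ) g = (χ : G → ℂ) (g ^ k) := by
    intro ψ hψ
    obtain ⟨σ, hσ, hσ2⟩ := (Finset.mem_filter.1 hψ).2
    obtain ⟨k, hk, hk1, hk2⟩ := pconj_pow g' hg'dvd hχc σ hσ
    exact ⟨k, hk, hk1, fun g => by rw [hσ2]; exact hk2 g⟩
  have hregpow : ∀ k : ℕ, k ≡ 1 [MOD g'] → ∀ g : G, ¬ p ∣ orderOf g → g ^ k = g := by
    intro k hk g hg
    have h1 : orderOf g ∣ g' := by
      have h2 : orderOf g ∣ p ^ a * g' := hcard ▸ orderOf_dvd_natCard g
      exact Nat.Coprime.dvd_of_dvd_mul_left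
        (Nat.Coprime.pow_right _ ((Nat.Prime.coprime_iff_not_dvd hp).2 hg).symm) h2
    have h3 : g ^ k = g ^ 1 := pow_eq_pow_iff_modEq.2 (hk.of_dvd h1)
    rwa [pow_one] at h3
  have hreg : ∀ ψ ∈ F, ∀ g : G, ¬ p ∣ orderOf g → (ψ : G → ℂ) g = (χ : G → ℂ) g := by
    intro ψ hψ g hg
    obtain ⟨k, -, hk1, hk2⟩ := hpow ψ hψ
    rw [hk2, hregpow k hk1 g hg]
  have hχF : χ ∈ F := Finset.mem_filter.2 ⟨Finset.mem_univ _, RingEquiv.refl ℂ, rfl, rfl⟩
  have hNF : ∀ ψ ∈ F, N χ ψ = N χ χ := by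
    intro ψ hψ
    have h1 : classInner (Helper78.tilde p (χ : G → ℂ)) (ψ : G → ℂ) =
        classInner (Helper78.tilde p (χ : G → ℂ)) (χ : G → ℂ) := by
      unfold classInner
      congr 1
      refine Finset.sum_congr rfl fun g _ => ?_
      by_cases hg : p ∣ orderOf g
      · simp [Helper78.tilde, hg]
      · rw [hreg ψ hψ g hg]
    rw [hN, hN] at h1
    exact_mod_cast h1
  have hppos : (0 : ℤ) < (p : ℤ) ^ a := pow_pos (by exact_mod_cast hp.pos) _
  have hpos : 0 < N χ χ := by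
    have h1 := hsq χ
    obtain ⟨ψ, hψ⟩ := hne χ
    have h2 : 0 < ∑ ψ : IrrCharacter G, N χ ψ ^ 2 :=
      Finset.sum_pos' (fun _ _ => sq_nonneg _) ⟨ψ, Finset.mem_univ _, by positivity⟩
    rw [h1] at h2
    exact (pos_iff_pos_of_mul_pos h2).1 hppos
  have hsumF : ∑ ψ ∈ F, N χ ψ ^ 2 = (r : ℤ) * N χ χ ^ 2 := by
    rw [Finset.sum_congr rfl (fun ψ hψ => by rw [hNF ψ hψ]), Finset.sum_const, hrF, nsmul_eq_mul]
  have hle1 : (r : ℤ) * N χ χ ≤ (p : ℤ) ^ a := by
    have h1 : ∑ ψ ∈ F, N χ ψ ^ 2 ≤ ∑ ψ : IrrCharacter G, N χ ψ ^ 2 :=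
      Finset.sum_le_sum_of_subset_of_nonneg (Finset.subset_univ _) (fun _ _ _ => sq_nonneg _)
    rw [hsumF, hsq χ] at h1
    nlinarith
  set hh := (charDegree (χ : G → ℂ)).factorization p with hhh
  have hdvdN : (p : ℤ) ^ hh ∣ N χ χ := by
    have := Helper78.pow_dvd_of_classInner_tilde hp χ χ (hN χ χ)
    push_cast at this
    exact this
  have hleN : (p : ℤ) ^ hh ≤ N χ χ := Int.le_of_dvd hpos hdvdN
  have hr0 : 0 < r := by
    rw [← hrF]
    exact Finset.card_pos.2 ⟨χ, hχF⟩
  have hle2 : r * p ^ hh ≤ p ^ a := by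
    have h1 : (r : ℤ) * (p : ℤ) ^ hh ≤ (p : ℤ) ^ a :=
      (mul_le_mul_of_nonneg_left hleN (by positivity)).trans hle1
    exact_mod_cast h1
  have hdeg0 : charDegree (χ : G → ℂ) ≠ 0 := (Helper78.irr_charDegree_pos χ).ne'
  refine ⟨?_, ?_⟩
  · rw [Nat.factorization_mul hr0.ne' hdeg0, Finsupp.add_apply, ← hhh]
    have h1 : p ^ r.factorization p ≤ r := Nat.le_of_dvd hr0 (Nat.ordProj_dvd _ _)
    have h2 : p ^ (r.factorization p + hh) ≤ p ^ a := by
      rw [pow_add]
      exact (Nat.mul_le_mul_right _ h1).trans hle2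
    exact (Nat.pow_le_pow_iff_right hp.one_lt).1 h2
  · intro hdvd
    -- r * p^hh = p^a
    have hrp : r * p ^ hh = p ^ a := by
      apply le_antisymm hle2
      obtain ⟨m, hm⟩ := Nat.ordProj_dvd (charDegree (χ : G → ℂ)) p
      have hmcop : ¬ p ∣ charDegree (χ : G → ℂ) / p ^ hh := Nat.not_dvd_ordCompl hp hdeg0
      have hm2 : charDegree (χ : G → ℂ) = p ^ hh * (charDegree (χ : G → ℂ) / p ^ hh) :=
        (Nat.mul_div_cancel' (Nat.ordProj_dvd _ _)).symm
      rw [hm2, ← mul_assoc] at hdvd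
      have h3 : p ^ a ∣ r * p ^ hh :=
        Nat.Coprime.dvd_of_dvd_mul_right
          (Nat.Coprime.pow_left _ ((Nat.Prime.coprime_iff_not_dvd hp).2 hmcop)) hdvd
      exact Nat.le_of_dvd (Nat.mul_pos hr0 (pow_pos hp.pos _)) h3
    have hrpZ : (r : ℤ) * (p : ℤ) ^ hh = (p : ℤ) ^ a := by exact_mod_cast hrp
    have hNeq : N χ χ = (p : ℤ) ^ hh := by
      apply le_antisymm _ hleN
      rw [← hrpZ] at hle1
      exact le_of_mul_le_mul_left hle1 (by exact_mod_cast hr0)
    have hNzero : ∀ ψ, ψ ∉ F → N χ ψ = 0 := by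
      intro ψ hψ
      have h1 := hsq χ
      rw [← Finset.sum_add_sum_compl F, hsumF, hNeq, ← hrpZ] at h1
      have h2 : ∑ ψ ∈ Fᶜ, N χ ψ ^ 2 = 0 := by linarith [h1, pow_two ((p : ℤ) ^ hh)]
      have h3 := (Finset.sum_eq_zero_iff_of_nonneg (fun _ _ => sq_nonneg _)).1 h2 ψ
        (Finset.mem_compl.2 hψ)
      exact pow_eq_zero_iff (two_ne_zero) |>.1 h3
    by_contra hnd
    have hlt : hh < a := by
      by_contra hcon
      push Not at hcon
      exact hnd ((pow_dvd_pow p hcon).trans (Nat.ordProj_dvd _ _))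
    set B := blockOf M (χ : G → ℂ) with hBdef
    have hB : IsPBlock M B := Helper78.isPBlock_blockOf χ
    have hχB : χ ∈ B := Helper78.mem_blockOf_self hM χ
    obtain ⟨χ0, hχ0, h0⟩ := Helper78.exists_height_zero (p := p) (Helper78.IsPBlock.nonempty hM hB)
    have hχ0F : χ0 ∈ F := by
      by_contra hcon
      have h1 := (Helper78.height_zero_iff_omega_cfun hBr h hB hχ0).1 h0
      rw [Helper78.omega_cfun_unit_iff h hB χ0 hχ0 hχB, ← Helper78.val_cond_iff hBr h] at h1
      obtain ⟨n, hn, hn0, -⟩ := h1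
      rw [hN, hsymm, hNzero χ0 hcon] at hn
      exact hn0 (by exact_mod_cast hn.symm)
    have hdegeq : charDegree (χ0 : G → ℂ) = charDegree (χ : G → ℂ) := by
      unfold charDegree
      rw [hreg χ0 hχ0F 1 (by simp [hp.one_lt.ne'])]
    have hχ0' : blockHeight p B (χ : G → ℂ) = 0 := by
      rw [Helper78.blockHeight_eq_zero_iff hχB, ← hdegeq, (Helper78.blockHeight_eq_zero_iff hχ0).1 h0]
    have hmin : Helper78.minDeg p B = hh := ((Helper78.blockHeight_eq_zero_iff hχB).1 hχ0').symm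
    obtain ⟨y, hy⟩ := Helper78.exists_isDefectClass hM hB
    have hyreg := Helper78.isDefectClass_regular h hB hy
    have hCy := Helper78.factorization_centralizer_of_isDefectClass h hB hy
    rw [Helper78.blockDefect_eq, hmin] at hCy
    have hpC : p ∣ Nat.card (Subgroup.centralizer ({y} : Set G)) := by
      apply Nat.dvd_of_factorization_pos
      rw [hCy]
      omega
    have : Fact p.Prime := ⟨hp⟩
    obtain ⟨u, hu⟩ := exists_prime_orderOf_dvd_card' p hpC
    have hu' : orderOf (u : G) = p := by rw [Subgroup.orderOf_coe, hu]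
    set U := Subgroup.zpowers (u : G) with hU
    have hUcard : Nat.card U = p := by rw [Nat.card_zpowers, hu']
    have hUy : ∀ v : U, Commute (v : G) y := by
      intro v
      obtain ⟨i, hi⟩ := Subgroup.mem_zpowers_iff.1 v.2
      rw [← hi]
      have : Commute (u : G) y := Subgroup.mem_centralizer_singleton_iff.1 u.2
      exact this.zpow_left i
    have hUp : ∀ v : U, (v : G) ^ p ^ 1 = 1 := by
      intro v
      have := pow_card_eq_one' (x := v)
      rw [hUcard] at this
      rw [pow_one]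
      exact_mod_cast congrArg Subtype.val this
    set T : (G → ℂ) → ℂ := fun ψ => ∑ v : U, ψ ((v : G) * y) with hTdef
    have hpG : p ∣ Nat.card G := by
      apply Nat.dvd_of_factorization_pos
      rw [← ha]
      omega
    have hT : ∀ ψ ∈ F, T (ψ : G → ℂ) = T (χ : G → ℂ) := by
      intro ψ hψ
      obtain ⟨k, hk, hk1, hk2⟩ := hpow ψ hψ
      have hcop : (Nat.card U).Coprime k := by
        rw [hUcard]
        exact (Nat.Coprime.coprime_dvd_right hpG hk).symm
      rw [hTdef]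
      simp only
      rw [← Equiv.sum_comp (powCoprime hcop) (fun v : U => (χ : G → ℂ) ((v : G) * y))]
      refine Finset.sum_congr rfl fun v _ => ?_
      rw [hk2, (hUy v).mul_pow, hregpow k hk1 y hyreg, powCoprime_apply]
      rfl
    have hexp : ∀ g : G, Helper78.tilde p (χ : G → ℂ) g =
        ((p : ℂ) ^ hh) * ∑ ψ ∈ F, (ψ : G → ℂ) g := by
      intro g
      have h1 := Helper3.classFunction_expansion
        (Helper78.tilde_isClassFunction p (Helper78.irr_isClassFunction χ))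
      have h2 := congrFun h1 g
      rw [h2, Finset.sum_apply, Finset.mul_sum, ← Finset.sum_subset (Finset.subset_univ F)]
      · refine Finset.sum_congr rfl fun ψ hψ => ?_
        rw [Pi.smul_apply, smul_eq_mul, hN, hNF ψ hψ, hNeq]
        push_cast
        rfl
      · intro ψ _ hψ
        rw [Pi.smul_apply, smul_eq_mul, hN, hNzero ψ hψ]
        simp
    have hsum1 : ∑ v : U, Helper78.tilde p (χ : G → ℂ) ((v : G) * y) =
        ((p : ℂ) ^ a) * T (χ : G → ℂ) := by
      rw [Finset.sum_congr rfl (fun v _ => hexp _), ← Finset.mul_sum, Finset.sum_comm,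
        Finset.sum_congr rfl (fun ψ hψ => hT ψ hψ), Finset.sum_const, hrF, nsmul_eq_mul,
        ← mul_assoc]
      congr 1
      rw [mul_comm]
      exact_mod_cast hrp
    have hsum2 : ∑ v : U, Helper78.tilde p (χ : G → ℂ) ((v : G) * y) =
        ((p : ℂ) ^ a) * (χ : G → ℂ) y := by
      rw [Finset.sum_eq_single (1 : U)]
      · unfold Helper78.tilde
        rw [Subgroup.coe_one, one_mul, if_neg hyreg, ← ha]
        push_cast
        rfl
      · intro v _ hv
        have hv1 : (v : G) ≠ 1 := fun hc => hv (Subtype.ext hc)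
        have hvo : ∃ k, orderOf (v : G) = p ^ k := by
          have h1 : orderOf (v : G) ∣ p := orderOf_dvd_of_pow_eq_one (by simpa using hUp v)
          rcases (Nat.dvd_prime hp).1 h1 with h2 | h2
          · exact ⟨0, by simpa using h2⟩
          · exact ⟨1, by simpa using h2⟩
        have h3 := Helper78.dvd_orderOf_mul_of_regular hp hyreg hvo hv1 (hUy v).eq
        rw [← (hUy v).eq] at h3
        simp [Helper78.tilde, h3]
      · intro hc
        exact absurd (Finset.mem_univ _) hc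
    have hTy : T (χ : G → ℂ) = (χ : G → ℂ) y := by
      have hpa : ((p : ℂ) ^ a) ≠ 0 := pow_ne_zero _ (by exact_mod_cast hp.ne_zero)
      exact mul_left_cancel₀ hpa (hsum1.symm.trans hsum2)
    have hTM : MemLocalIdeal M (T (χ : G → ℂ)) := by
      have h1 : T (χ : G → ℂ) = ∑ v : U, ((χ : G → ℂ) ((v : G) * y) - (χ : G → ℂ) y) +
          (p : ℂ) * (χ : G → ℂ) y := by
        rw [Finset.sum_sub_distrib, Finset.sum_const, Finset.card_univ, ← Nat.card_eq_fintype_card,
          hUcard, nsmul_eq_mul]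
        ring
      rw [h1]
      refine Helper78.MemLocalIdeal.add hM (Helper78.MemLocalIdeal.sum hM _ _ fun v _ => ?_) ?_
      · exact Helper78.memLocalIdeal_char_mul_sub h hχc (hUy v) (hUp v)
      · exact Helper78.MemLocalIdeal.mul_right hM (Helper78.memLocalIdeal_p h)
          (Helper78.memLocalRing_char hM hχc y)
    have hfin := Helper78.not_memLocalIdeal_height_zero h hB hy hχB hχ0' (x := 1)
      (Commute.one_left y) (k := 0) (by simp)
    rw [one_mul, ← hTy] at hfin
    exact hfin hTM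

end Cfsg.Agent.S4506
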