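import Cfsg.Statements.S4508
import Mathlib
import Cfsg.Agent.Lib.Helper76.Eigen
import Cfsg.Agent.Lib.Helper75.SelfCent5
import Cfsg.Agent.Lib.Helper26.BL.TI
import Cfsg.Agent.Lib.Helper15.CharTools
import Cfsg.Agent.Lib.Helper80.Inflation

set_option autoImplicit false
open Cfsg

namespace Cfsg.Agent.S4508

section A


open Cfsg.Agent.Lib

theorem geom_root (e : ℕ) {r : ℂ} (hr : r ^ e = 1) :
    ∑ j ∈ Finset.range e, r ^ j = if r = 1 then (e : ℂ) else 0 := by
  split_ifs with h
  · subst h; simp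
  · rw [geom_sum_eq h, hr, sub_self, zero_div]

theorem card_fiber {ι : Type*} [Fintype ι] (e t : ℕ) (he : 0 < e) (μ : ι → ℂ)
    (hμ : ∀ i, μ i ^ e = 1) (hsum : ∀ j, 0 < j → j < e → ∑ i, μ i ^ j = 0)
    (hn : Fintype.card ι = e * t) {ω : ℂ} (hω : ω ^ e = 1) :
    (Finset.univ.filter (fun i => μ i = ω)).card = t := by
  have hω0 : ω ≠ 0 := by
    intro h
    rw [h, zero_pow he.ne'] at hω
    exact zero_ne_one hω
  have h1 : ∑ i, ∑ j ∈ Finset.range e, (μ i * ω⁻¹) ^ j =
      (e : ℂ) * ((Finset.univ.filter (fun i => μ i = ω)).card : ℂ) := by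
    have : ∀ i, ∑ j ∈ Finset.range e, (μ i * ω⁻¹) ^ j = if μ i = ω then (e : ℂ) else 0 := by
      intro i
      rw [geom_root e (by rw [mul_pow, hμ, inv_pow, hω]; simp)]
      have : (μ i * ω⁻¹ = 1) ↔ μ i = ω := by
        rw [mul_inv_eq_one₀ hω0]
      simp only [this]
    simp only [this]
    rw [← Finset.sum_filter, Finset.sum_const, nsmul_eq_mul, mul_comm]
  have h2 : ∑ i, ∑ j ∈ Finset.range e, (μ i * ω⁻¹) ^ j = (e : ℂ) * t := by
    rw [Finset.sum_comm]
    have : ∀ j ∈ Finset.range e, ∑ i, (μ i * ω⁻¹) ^ j = if j = 0 then ((e * t : ℕ) : ℂ) else 0 := by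
      intro j hj
      simp only [mul_pow]
      rw [← Finset.sum_mul]
      split_ifs with h0
      · subst h0
        simp [hn]
      · rw [hsum j (Nat.pos_of_ne_zero h0) (Finset.mem_range.1 hj), zero_mul]
    rw [Finset.sum_congr rfl this, Finset.sum_ite_eq' (Finset.range e) 0]
    simp [he]
  rw [h1] at h2
  have he' : (e : ℂ) ≠ 0 := by exact_mod_cast he.ne'
  exact_mod_cast mul_left_cancel₀ he' h2

theorem prod_roots (e : ℕ) (he : 0 < e) :
    ∏ ω ∈ Polynomial.nthRootsFinset e (1 : ℂ), ω = (-1) ^ (e + 1) := by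
  have h := Polynomial.X_pow_sub_one_eq_prod he (Complex.isPrimitiveRoot_exp e he.ne')
  have h2 := congrArg (Polynomial.eval 0) h
  rw [Polynomial.eval_prod] at h2
  simp only [Polynomial.eval_sub, Polynomial.eval_pow, Polynomial.eval_X, Polynomial.eval_one,
    Polynomial.eval_C, zero_sub, zero_pow he.ne'] at h2
  rw [Finset.prod_neg, IsPrimitiveRoot.card_nthRootsFinset
    (Complex.isPrimitiveRoot_exp e he.ne')] at h2
  have h3 : ((-1 : ℂ) ^ e) * ((-1 : ℂ) ^ e) = 1 := by
    rw [← mul_pow]; simp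
  calc ∏ ω ∈ Polynomial.nthRootsFinset e (1 : ℂ), ω
      = ((-1 : ℂ) ^ e) * ((-1 : ℂ) ^ e * ∏ ω ∈ Polynomial.nthRootsFinset e (1 : ℂ), ω) := by
        rw [← mul_assoc, h3, one_mul]
    _ = _ := by rw [← h2, pow_succ]

theorem prod_eigen {ι : Type*} [Fintype ι] (e t : ℕ) (he : 0 < e) (μ : ι → ℂ)
    (hμ : ∀ i, μ i ^ e = 1) (hsum : ∀ j, 0 < j → j < e → ∑ i, μ i ^ j = 0)
    (hn : Fintype.card ι = e * t) : ∏ i, μ i = ((-1) ^ (e + 1)) ^ t := by
  classical
  rw [← prod_roots e he, ← Finset.prod_pow]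
  rw [← Finset.prod_fiberwise_of_maps_to (s := Finset.univ)
    (t := Polynomial.nthRootsFinset e (1 : ℂ)) (g := μ) (f := μ)
    (fun i _ => (Polynomial.mem_nthRootsFinset he _).2 (hμ i))]
  apply Finset.prod_congr rfl
  intro ω hω
  rw [Finset.prod_congr rfl (g := fun _ => ω) (fun i hi => (Finset.mem_filter.1 hi).2),
    Finset.prod_const, card_fiber e t he μ hμ hsum hn ((Polynomial.mem_nthRootsFinset he _).1 hω)]

theorem det_eq_prod_of_eigenbasis {V : Type*} [AddCommGroup V] [Module ℂ V] {ι : Type*} [Fintype ι]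
    (f : Module.End ℂ V) (b : Module.Basis ι ℂ V) (μ : ι → ℂ) (h : ∀ i, f (b i) = μ i • b i) :
    LinearMap.det f = ∏ i, μ i := by
  classical
  rw [← LinearMap.det_toMatrix b f]
  have : LinearMap.toMatrix b b f = Matrix.diagonal μ := by
    ext i j
    rw [LinearMap.toMatrix_apply, h, Matrix.diagonal_apply]
    simp only [map_smul, Module.Basis.repr_self, Finsupp.smul_apply, smul_eq_mul]
    by_cases hij : i = j
    · subst hij; simp
    · rw [if_neg hij, Finsupp.single_apply, if_neg (fun h => hij h.symm), mul_zero]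
  rw [this, Matrix.det_diagonal]

/-- determinant of an element acting "freely" -/
theorem det_of_trace_zero {V : Type*} [AddCommGroup V] [Module ℂ V] [FiniteDimensional ℂ V]
    (f : Module.End ℂ V) (e t : ℕ) (he : 0 < e) (hf : f ^ e = 1)
    (htr : ∀ j, 0 < j → j < e → LinearMap.trace ℂ V (f ^ j) = 0)
    (hn : Module.finrank ℂ V = e * t) : LinearMap.det f = ((-1) ^ (e + 1)) ^ t := by
  obtain ⟨b, μ, h1, h2⟩ := Helper76.exists_eigenbasis f e he hf
  rw [det_eq_prod_of_eigenbasis f b μ h1]
  apply prod_eigen e t he μ h2 _ (by simpa using hn)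
  intro j hj0 hje
  rw [← htr j hj0 hje]
  exact (Helper76.trace_eq_sum_of_eigenbasis (f ^ j) b (fun i => μ i ^ j)
    (fun i => Helper76.pow_apply_eigen f _ _ (h1 i) j)).symm


end A

section B


variable {G : Type*} [Group G] {V : Type*} [AddCommGroup V] [Module ℂ V]

/-- sum of a representation over a subgroup -/
noncomputable def sumOp (ρ : Representation ℂ G V) (S : Subgroup G) [Fintype S] : Module.End ℂ V :=
  ∑ u : S, ρ (u : G)

theorem rho_mul_sumOp (ρ : Representation ℂ G V) (S : Subgroup G) [Fintype S] (v : S) :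
    ρ (v : G) * sumOp ρ S = sumOp ρ S := by
  unfold sumOp
  rw [Finset.mul_sum]
  apply Fintype.sum_equiv (Equiv.mulLeft v)
  intro u
  simp [map_mul]

theorem sumOp_mul_self (ρ : Representation ℂ G V) (S : Subgroup G) [Fintype S] :
    sumOp ρ S * sumOp ρ S = (Fintype.card S : ℂ) • sumOp ρ S := by
  conv_lhs => lhs; unfold sumOp
  rw [Finset.sum_mul]
  simp only [rho_mul_sumOp]
  rw [Finset.sum_const, Finset.card_univ, Nat.cast_smul_eq_nsmul]

theorem rho_comm_sumOp (ρ : Representation ℂ G V) (S : Subgroup G) [Fintype S] (y : G)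
    (hy : ∀ u, u ∈ S ↔ y * u * y⁻¹ ∈ S) : ρ y * sumOp ρ S = sumOp ρ S * ρ y := by
  unfold sumOp
  rw [Finset.mul_sum, Finset.sum_mul]
  let E : S ≃ S :=
    { toFun := fun u => ⟨y * u * y⁻¹, (hy u).1 u.2⟩
      invFun := fun u => ⟨y⁻¹ * u * y, (hy _).2 (by
        have : y * (y⁻¹ * (u : G) * y) * y⁻¹ = u := by group
        rw [this]; exact u.2)⟩
      left_inv := fun u => Subtype.ext (by show y⁻¹ * (y * (u : G) * y⁻¹) * y = u; group)
      right_inv := fun u => Subtype.ext (by show y * (y⁻¹ * (u : G) * y) * y⁻¹ = u; group) }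
  apply Fintype.sum_equiv E
  intro u
  rw [← map_mul, ← map_mul]
  congr 1
  show y * (u : G) = y * u * y⁻¹ * y
  group

/-- normalized projection -/
noncomputable def avgOp (ρ : Representation ℂ G V) (S : Subgroup G) [Fintype S] : Module.End ℂ V :=
  (Fintype.card S : ℂ)⁻¹ • sumOp ρ S

theorem avgOp_idem (ρ : Representation ℂ G V) (S : Subgroup G) [Fintype S] :
    IsIdempotentElem (avgOp ρ S) := by
  have h0 : (Fintype.card S : ℂ) ≠ 0 := by exact_mod_cast Fintype.card_ne_zero
  unfold IsIdempotentElem avgOp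
  rw [smul_mul_smul_comm, sumOp_mul_self, smul_smul]
  congr 1
  field_simp

theorem trace_idem [FiniteDimensional ℂ V] {E : Module.End ℂ V} (hE : IsIdempotentElem E) :
    ∃ c : ℕ, LinearMap.trace ℂ V E = c :=
  ⟨_, (LinearMap.IsIdempotentElem.isProj_range E hE).trace⟩

theorem trace_rho_mul_sumOp (ρ : Representation ℂ G V) (S : Subgroup G) [Fintype S] (y : G) :
    LinearMap.trace ℂ V (ρ y * sumOp ρ S) = ∑ u : S, ρ.character (y * u) := by
  unfold sumOp
  rw [Finset.mul_sum, map_sum]
  apply Finset.sum_congr rfl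
  intro u _
  rw [← map_mul]
  rfl

theorem trace_sumOp (ρ : Representation ℂ G V) (S : Subgroup G) [Fintype S] :
    LinearMap.trace ℂ V (sumOp ρ S) = ∑ u : S, ρ.character u := by
  unfold sumOp
  rw [map_sum]
  rfl

theorem dvd_sub_fixed [FiniteDimensional ℂ V] (ρ : Representation ℂ G V) (P H : Subgroup G)
    [Fintype P] [Fintype H]
    (hnorm : ∀ y ∈ H, ∀ u, u ∈ P ↔ y * u * y⁻¹ ∈ P)
    (hconst : ∀ y ∈ H, y ≠ 1 → ∀ u ∈ P, ρ.character (y * u) = ρ.character y)
    (a : ℕ) (ha : ∑ u : P, ρ.character u = (Fintype.card P : ℂ) * a) :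
    ((Fintype.card H : ℤ) ∣ (Module.finrank ℂ V : ℤ) - a) := by
  have hp0 : (Fintype.card P : ℂ) ≠ 0 := by exact_mod_cast Fintype.card_ne_zero
  have he0 : (Fintype.card H : ℂ) ≠ 0 := by exact_mod_cast Fintype.card_ne_zero
  have hcomm : Commute (avgOp ρ H) (avgOp ρ P) := by
    unfold avgOp
    apply Commute.smul_left
    apply Commute.smul_right
    conv_lhs => unfold sumOp
    apply Commute.sum_left
    intro y _
    exact rho_comm_sumOp ρ P y (hnorm y y.2)
  obtain ⟨c1, hc1⟩ := trace_idem (avgOp_idem ρ H)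
  obtain ⟨c2, hc2⟩ := trace_idem ((avgOp_idem ρ H).mul_of_commute hcomm (avgOp_idem ρ P))
  have h1 : (Fintype.card H : ℂ) * c1 = ∑ y : H, ρ.character y := by
    rw [← hc1]
    unfold avgOp
    rw [map_smul, trace_sumOp, smul_eq_mul, ← mul_assoc, mul_inv_cancel₀ he0, one_mul]
  have h2 : (Fintype.card H : ℂ) * (Fintype.card P : ℂ) * c2 =
      ∑ y : H, ∑ u : P, ρ.character ((y : G) * u) := by
    rw [← hc2]
    unfold avgOp
    rw [smul_mul_smul_comm, map_smul, smul_eq_mul]
    conv_lhs => rhs; rhs; rhs; lhs; unfold sumOp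
    rw [Finset.sum_mul, map_sum]
    simp only [trace_rho_mul_sumOp]
    field_simp
  have h3 : ∑ y : H, (∑ u : P, ρ.character ((y : G) * u) - (Fintype.card P : ℂ) * ρ.character y) =
      (Fintype.card P : ℂ) * a - (Fintype.card P : ℂ) * (Module.finrank ℂ V : ℂ) := by
    rw [Finset.sum_eq_single (1 : H)]
    · simp only [Subgroup.coe_one, one_mul, ha, Representation.char_one]
    · intro y _ hy
      have hy' : (y : G) ≠ 1 := fun h => hy (Subtype.ext h)
      rw [Finset.sum_congr rfl (fun (u : P) _ => hconst y y.2 hy' u u.2), Finset.sum_const,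
        Finset.card_univ, nsmul_eq_mul, sub_self]
    · intro h; exact absurd (Finset.mem_univ _) h
  rw [Finset.sum_sub_distrib, ← Finset.mul_sum, ← h1, ← h2] at h3
  have h4 : (Module.finrank ℂ V : ℂ) - a = (Fintype.card H : ℂ) * ((c1 : ℂ) - c2) := by
    have : (Fintype.card P : ℂ) * ((Module.finrank ℂ V : ℂ) - a) =
        (Fintype.card P : ℂ) * ((Fintype.card H : ℂ) * ((c1 : ℂ) - c2)) := by
      linear_combination h3
    exact mul_left_cancel₀ hp0 this
  refine ⟨(c1 : ℤ) - c2, ?_⟩
  exact_mod_cast h4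

theorem char_eq_zero_of_sum_zero [FiniteDimensional ℂ V] (ρ : Representation ℂ G V)
    (P : Subgroup G) [Fintype P] (h0 : ∑ u : P, ρ.character u = 0) (y : G)
    (hconst : ∀ u ∈ P, ρ.character (y * u) = ρ.character y) : ρ.character y = 0 := by
  have hp0 : (Fintype.card P : ℂ) ≠ 0 := by exact_mod_cast Fintype.card_ne_zero
  have h1 : avgOp ρ P = 0 := by
    apply (LinearMap.IsIdempotentElem.trace_eq_zero_iff (avgOp_idem ρ P)).1
    unfold avgOp
    rw [map_smul, trace_sumOp, h0, smul_zero]
  have h2 : sumOp ρ P = 0 := by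
    unfold avgOp at h1
    rcases smul_eq_zero.1 h1 with h | h
    · exact absurd h (inv_ne_zero hp0)
    · exact h
  have h3 := trace_rho_mul_sumOp ρ P y
  rw [h2, mul_zero, map_zero, Finset.sum_congr rfl (fun (u : P) _ => hconst u u.2), Finset.sum_const,
    Finset.card_univ, nsmul_eq_mul] at h3
  rcases mul_eq_zero.1 h3.symm with h | h
  · exact absurd h hp0
  · exact h


end B

section C


open Cfsg.Agent.Lib.Helper75 Subgroup

variable {G : Type*} [Group G] {p : ℕ} {x : G}

theorem centralizer_zpowers (h : SC p x) : centralizer (zpowers x : Set G) = zpowers x := by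
  conv_rhs => rw [← h.cent]
  rw [← centralizer_closure ({x} : Set G), ← zpowers_eq_closure]

theorem exists_complement_gen [Finite G] (h : SC p x)
    (he : 1 < (zpowers x).relIndex (normalizer (zpowers x : Set G))) :
    ∃ y ∈ normalizer (zpowers x : Set G),
      orderOf y = (zpowers x).relIndex (normalizer (zpowers x : Set G)) ∧
      zpowers y ⊓ zpowers x = ⊥ := by
  set N := normalizer (zpowers x : Set G) with hN
  set e := (zpowers x).relIndex N with hedef
  let φ := (zpowers x).normalizerMonoidHom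
  have hker : φ.ker = (zpowers x).subgroupOf N := by
    rw [normalizerMonoidHom_ker, centralizer_zpowers h]
  have hcard : Nat.card φ.range = e := by
    rw [← Subgroup.index_ker, hker]
    rfl
  have : Fact (Nat.card (zpowers x)).Prime := ⟨by rw [h.card_zpowers]; exact h.prime⟩
  have hcyc : IsCyclic (MulAut (zpowers x)) :=
    (IsCyclic.mulAutMulEquiv (zpowers x)).isCyclic.2 inferInstance
  have hcyc2 : IsCyclic φ.range := Subgroup.isCyclic _
  obtain ⟨γ, hγ⟩ := hcyc2.exists_generator
  obtain ⟨y0, hy0⟩ : ∃ y0, φ y0 = (γ : MulAut (zpowers x)) := γ.2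
  have hord : orderOf (φ y0) = e := by
    rw [← hcard, ← orderOf_eq_card_of_forall_mem_zpowers hγ, hy0, Subgroup.orderOf_coe]
  have hmemker : ∀ k : ℤ, ((y0 : G) ^ k ∈ zpowers x) ↔ (φ y0) ^ k = 1 := by
    intro k
    rw [← map_zpow, ← MonoidHom.mem_ker, hker, mem_subgroupOf]
    rfl
  have hpow : (y0 : G) ^ e = 1 := by
    by_contra hne
    have h1 : (y0 : G) ^ e ∈ zpowers x := by
      have := (hmemker (e : ℤ)).2 (by rw [zpow_natCast, ← hord, pow_orderOf_eq_one])
      rwa [zpow_natCast] at this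
    have h2 := h.of_mem h1 hne
    have h3 : (y0 : G) ∈ zpowers ((y0 : G) ^ e) := by
      rw [h2.mem_iff, ← pow_succ', ← pow_succ]
    rw [h.zpowers_eq h1 hne] at h3
    have h4 := (hmemker 1).1 (by rwa [zpow_one])
    rw [zpow_one] at h4
    rw [h4, orderOf_one] at hord
    omega
  refine ⟨y0, y0.2, ?_, ?_⟩
  · apply Nat.dvd_antisymm (orderOf_dvd_of_pow_eq_one hpow)
    rw [← hord, Subgroup.orderOf_coe]
    exact orderOf_map_dvd φ y0
  · rw [eq_bot_iff]
    rintro g ⟨⟨k, rfl⟩, hg⟩
    have h1 := (hmemker k).1 hg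
    rw [← orderOf_dvd_iff_zpow_eq_one, hord] at h1
    obtain ⟨c, rfl⟩ := h1
    show (y0 : G) ^ ((e : ℤ) * c) = 1
    rw [zpow_mul, zpow_natCast, hpow, one_zpow]

theorem exists_conj_eq_mul [Finite G] (h : SC p x) {y : G}
    (hy : y ∈ normalizer (zpowers x : Set G)) (hy' : y ∉ zpowers x) {u : G} (hu : u ∈ zpowers x) :
    ∃ v : G, v * y * v⁻¹ = y * u := by
  have hyinv : y⁻¹ ∈ normalizer (zpowers x : Set G) := inv_mem hy
  let ψ : zpowers x → zpowers x := fun v => ⟨y⁻¹ * v * y * (v : G)⁻¹, by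
    apply mul_mem _ (inv_mem v.2)
    have := (mem_normalizer_iff.1 hyinv v).1 v.2
    rwa [inv_inv] at this⟩
  have hinj : Function.Injective ψ := by
    intro v w hvw
    have h1 : y⁻¹ * (v : G) * y * (v : G)⁻¹ = y⁻¹ * (w : G) * y * (w : G)⁻¹ :=
      congrArg Subtype.val hvw
    have h2 : ((w : G)⁻¹ * v) * y = y * ((w : G)⁻¹ * v) := by
      have h3 : (v : G) * y * (v : G)⁻¹ = (w : G) * y * (w : G)⁻¹ := by
        have := congrArg (fun z => y * z) h1
        simpa [mul_assoc] using this
      calc ((w : G)⁻¹ * v) * y = (w : G)⁻¹ * ((v : G) * y * (v : G)⁻¹) * v := by group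
        _ = (w : G)⁻¹ * ((w : G) * y * (w : G)⁻¹) * v := by rw [h3]
        _ = _ := by group
    by_contra hne
    have hne' : (w : G)⁻¹ * v ≠ 1 := by
      intro h4
      apply hne
      apply Subtype.ext
      rw [inv_mul_eq_one] at h4
      exact h4.symm
    have hmem : (w : G)⁻¹ * v ∈ zpowers x := mul_mem (inv_mem w.2) v.2
    have h5 := h.of_mem hmem hne'
    apply hy'
    rw [← h.zpowers_eq hmem hne', h5.mem_iff]
    exact h2.symm
  obtain ⟨v, hv⟩ := (Finite.injective_iff_surjective.1 hinj) ⟨u, hu⟩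
  refine ⟨v, ?_⟩
  have h1 : y⁻¹ * (v : G) * y * (v : G)⁻¹ = u := congrArg Subtype.val hv
  rw [← h1]
  group


end C

section D


open scoped ComplexConjugate

theorem geom_root' (e : ℕ) {r : ℂ} (hr : r ^ e = 1) :
    ∑ j ∈ Finset.range e, r ^ j = if r = 1 then (e : ℂ) else 0 := by
  split_ifs with h
  · subst h; simp
  · rw [geom_sum_eq h, hr, sub_self, zero_div]

/-- first moment -/
theorem first_moment {ι : Type*} [Fintype ι] (p : ℕ) (μ : ι → ℂ) (hμ : ∀ i, μ i ^ p = 1) :
    ∑ k ∈ Finset.range p, ∑ i, μ i ^ k =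
      (p : ℂ) * ((Finset.univ.filter (fun i => μ i = 1)).card : ℂ) := by
  rw [Finset.sum_comm]
  simp only [fun i => geom_root' p (hμ i)]
  rw [← Finset.sum_filter, Finset.sum_const, nsmul_eq_mul, mul_comm]

/-- second moment -/
theorem second_moment {ι : Type*} [Fintype ι] (p : ℕ) (hp : 0 < p) (μ : ι → ℂ)
    (hμ : ∀ i, μ i ^ p = 1) :
    ∑ k ∈ Finset.range p, (∑ i, μ i ^ k) * conj (∑ i, μ i ^ k) =
      (p : ℂ) * ((Finset.univ.filter (fun ij : ι × ι => μ ij.1 = μ ij.2)).card : ℂ) := by
  have hconj : ∀ i, conj (μ i) = (μ i)⁻¹ := by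
    intro i
    rw [Complex.inv_eq_conj (Complex.norm_eq_one_of_pow_eq_one (hμ i) hp.ne')]
  have hne : ∀ i, μ i ≠ 0 := by
    intro i h
    have := hμ i
    rw [h, zero_pow hp.ne'] at this
    exact zero_ne_one this
  have h1 : ∀ k, (∑ i, μ i ^ k) * conj (∑ i, μ i ^ k) =
      ∑ ij : ι × ι, (μ ij.1 * (μ ij.2)⁻¹) ^ k := by
    intro k
    rw [map_sum, Finset.sum_mul_sum, ← Finset.sum_product']
    apply Finset.sum_congr rfl
    intro ij _
    rw [map_pow, hconj, mul_pow]
  simp only [h1]
  rw [Finset.sum_comm]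
  have h2 : ∀ ij : ι × ι, ∑ k ∈ Finset.range p, (μ ij.1 * (μ ij.2)⁻¹) ^ k =
      if μ ij.1 = μ ij.2 then (p : ℂ) else 0 := by
    intro ij
    rw [geom_root' p (by rw [mul_pow, hμ, inv_pow, hμ]; simp)]
    have : (μ ij.1 * (μ ij.2)⁻¹ = 1) ↔ μ ij.1 = μ ij.2 := by
      rw [mul_inv_eq_one₀ (hne _)]
    simp only [this]
  simp only [h2]
  rw [← Finset.sum_filter, Finset.sum_const, nsmul_eq_mul, mul_comm]

theorem card_pairs_ge {ι : Type*} [Fintype ι] (μ : ι → ℂ) :
    (Finset.univ.filter (fun i => μ i = 1)).card ^ 2 +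
      (Fintype.card ι - (Finset.univ.filter (fun i => μ i = 1)).card) ≤
      (Finset.univ.filter (fun ij : ι × ι => μ ij.1 = μ ij.2)).card := by
  classical
  set A := Finset.univ.filter (fun i => μ i = 1) with hA
  have h1 : (A ×ˢ A) ∪ (Aᶜ.image (fun i => (i, i))) ⊆
      Finset.univ.filter (fun ij : ι × ι => μ ij.1 = μ ij.2) := by
    intro ij hij
    rw [Finset.mem_filter]
    refine ⟨Finset.mem_univ _, ?_⟩
    rcases Finset.mem_union.1 hij with h | h
    · obtain ⟨h1, h2⟩ := Finset.mem_product.1 h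
      rw [(Finset.mem_filter.1 h1).2, (Finset.mem_filter.1 h2).2]
    · obtain ⟨i, -, rfl⟩ := Finset.mem_image.1 h
      rfl
  have h2 : Disjoint (A ×ˢ A) (Aᶜ.image (fun i => (i, i))) := by
    rw [Finset.disjoint_left]
    intro ij h h'
    obtain ⟨i, hi, rfl⟩ := Finset.mem_image.1 h'
    exact (Finset.mem_compl.1 hi) (Finset.mem_product.1 h).1
  have h3 := Finset.card_le_card h1
  rw [Finset.card_union_of_disjoint h2, Finset.card_product,
    Finset.card_image_of_injective _ (fun a b hab => (Prod.ext_iff.1 hab).1),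
    Finset.card_compl] at h3
  rw [sq]
  exact h3

theorem sum_zpowers {G : Type*} [Group G] [Finite G] (x : G) [Fintype (Subgroup.zpowers x)]
    {M : Type*} [AddCommMonoid M] (F : G → M) :
    ∑ u : Subgroup.zpowers x, F u = ∑ k ∈ Finset.range (orderOf x), F (x ^ k) := by
  rw [← Fin.sum_univ_eq_sum_range (fun k => F (x ^ k))]
  exact (Fintype.sum_equiv (finEquivZPowers (isOfFinOrder_of_finite x)) _ _ (fun k => by
    rw [finEquivZPowers_apply])).symm


end D

open Cfsg.Agent.Lib Cfsg.Agent.Lib.Helper75 Subgroup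
open scoped ComplexConjugate

/-- Let the finite group G contain an element x of prime order p with C_G(x) = ⟨x⟩, and let t be the number of conjugacy classes of elements of order p. If G has an irreducible character of degree p − 1, then t is even or the commutator subgroup has even index. -/
theorem result {G : Type*} [Group G] [Finite G] (p : ℕ) (hp : p.Prime) (x : G) (hx : orderOf x = p) (hC : Subgroup.centralizer ({x} : Set G) = Subgroup.zpowers x) (t : ℕ) (ht : Nat.card {C : ConjClasses G // ∃ g ∈ C.carrier, orderOf g = p} = t) (χ : Cfsg.IrrCharacter G) (hχ : Cfsg.charDegree (χ : G → ℂ) + 1 = p) : Even t ∨ Even (commutator G).index := by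
  classical
  have := Fintype.ofFinite G
  have h : SC p x := ⟨hp, hx, hC⟩
  subst ht
  have hte := h.card_classes_mul_relIndex
  set t := Nat.card {C : ConjClasses G // ∃ g ∈ C.carrier, orderOf g = p} with htdef
  set N := normalizer (zpowers x : Set G) with hN
  set e := (zpowers x).relIndex N with hedef
  have he0 : 0 < e := SC.relIndex_pos
  by_cases he1 : e = 1
  · have hNP : N = zpowers x :=
      le_antisymm (Subgroup.relIndex_eq_one.1 he1) SC.zpowers_le_normalizer
    have hidx := h.index_commutator_of_normalizer_eq hNP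
    rw [he1, mul_one] at hte
    rcases hp.eq_two_or_odd' with h2 | hodd
    · right; rw [hidx, h2]; exact even_two
    · left; rw [hte]; exact Nat.Odd.sub_odd hodd odd_one
  have he2 : 1 < e := by omega
  by_contra hcon
  push Not at hcon
  obtain ⟨htodd, hidx⟩ := hcon
  rw [Nat.not_even_iff_odd] at htodd
  obtain ⟨n, ρ, hirr, hρ⟩ := χ.2
  have hdeg : n + 1 = p := by
    rw [← hχ, ← hρ, Helper80.charDegree_of_rep]
  have hfin : Module.finrank ℂ (Fin n → ℂ) = n := by simp
  obtain ⟨y, hyN, hyord, hyP⟩ := exists_complement_gen h he2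
  have hyord' : orderOf y = e := hyord
  have hcardP : Fintype.card (zpowers x) = p := by
    rw [← Nat.card_eq_fintype_card, h.card_zpowers]
  have hcardH : Fintype.card (zpowers y) = e := by
    rw [← Nat.card_eq_fintype_card, Nat.card_zpowers, hyord]
  obtain ⟨μ, hμ1, hμ2⟩ := Helper76.exists_char_eigenvalues ρ x p hp.pos h.pow_eq_one
  set a := (Finset.univ.filter (fun i => μ i = 1)).card with hadef
  have ha : ∑ u : zpowers x, ρ.character u = (Fintype.card (zpowers x) : ℂ) * a := by
    rw [sum_zpowers x (fun g => ρ.character g), hx, hcardP]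
    simp only [hμ2]
    exact first_moment p μ hμ1
  have hHN : zpowers y ≤ N := zpowers_le.2 hyN
  have hconst : ∀ z ∈ zpowers y, z ≠ 1 → ∀ u ∈ zpowers x,
      ρ.character (z * u) = ρ.character z := by
    intro z hz hz1 u hu
    have hzP : z ∉ zpowers x := by
      intro hzx
      have : z ∈ zpowers y ⊓ zpowers x := ⟨hz, hzx⟩
      rw [hyP] at this
      exact hz1 this
    obtain ⟨v, hv⟩ := exists_conj_eq_mul h (hHN hz) hzP hu
    rw [← hv, Representation.char_conj]
  have hdvd := dvd_sub_fixed ρ (zpowers x) (zpowers y)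
    (fun z hz u => mem_normalizer_iff.1 (hHN hz) u) hconst a ha
  rw [hcardH, hfin] at hdvd
  -- the TI inequality
  let F : G → ℝ := fun g => Complex.normSq (ρ.character g)
  let D : Set G := {u | u ∈ zpowers x ∧ u ≠ 1}
  have hti := Helper26.BL.ti_ineq N D (fun h1 => h1.2 rfl) (by
    intro g d hd hgd
    have h' := h.of_mem hd.1 hd.2
    have := h'.mem_normalizer (g := g) (by rw [h.zpowers_eq hd.1 hd.2]; exact hgd.1)
    rwa [h.zpowers_eq hd.1 hd.2] at this) F (fun g => Complex.normSq_nonneg _)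
    (fun g k => by show Complex.normSq _ = Complex.normSq _; rw [Representation.char_conj])
  have hsumG : ∑ g, F g = (Nat.card G : ℝ) := by
    have h1 := Helper15.irr_inner_self χ.2
    unfold classInner at h1
    rw [← hρ] at h1
    have h2 : (∑ g, ρ.character g * conj (ρ.character g)) = ((∑ g, F g : ℝ) : ℂ) := by
      push_cast
      apply Finset.sum_congr rfl
      intro g _
      exact Complex.mul_conj _
    rw [h2] at h1
    have h3 : (Nat.card G : ℂ) ≠ 0 := by exact_mod_cast Nat.card_pos.ne'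
    have h4 : ((∑ g, F g : ℝ) : ℂ) = (Nat.card G : ℂ) := by
      field_simp at h1
      exact h1
    exact_mod_cast h4
  have hF1 : F 1 = (n : ℝ) ^ 2 := by
    show Complex.normSq (ρ.character 1) = _
    rw [Representation.char_one, hfin, Complex.normSq_natCast, sq]
  set c := (Finset.univ.filter (fun ij : Fin (Module.finrank ℂ (Fin n → ℂ)) ×
    Fin (Module.finrank ℂ (Fin n → ℂ)) => μ ij.1 = μ ij.2)).card with hcdef
  have hsumP : ∑ u : zpowers x, F u = (p : ℝ) * c := by
    have h1 : ((∑ u : zpowers x, F u : ℝ) : ℂ) = (p : ℂ) * c := by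
      rw [sum_zpowers x F, hx]
      push_cast
      rw [← second_moment p hp.pos μ hμ1]
      apply Finset.sum_congr rfl
      intro k _
      rw [← hμ2]
      exact (Complex.mul_conj _).symm
    exact_mod_cast h1
  have hsplit : ∑ u : zpowers x, F u = F 1 + ∑ d ∈ Finset.univ.filter (· ∈ D), F d := by
    rw [← Finset.sum_subtype (Finset.univ.filter (· ∈ zpowers x)) (by simp) F]
    have : Finset.univ.filter (· ∈ zpowers x) = insert 1 (Finset.univ.filter (· ∈ D)) := by
      ext g
      simp only [Finset.mem_filter, Finset.mem_univ, true_and, Finset.mem_insert, D,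
        Set.mem_ofPred_eq]
      constructor
      · intro hg
        by_cases hg1 : g = 1
        · exact Or.inl hg1
        · exact Or.inr ⟨hg, hg1⟩
      · rintro (rfl | hg)
        · exact one_mem _
        · exact hg.1
    rw [this, Finset.sum_insert (by simp [D])]
  have hcge := card_pairs_ge μ
  rw [← hadef, ← hcdef, Fintype.card_fin, hfin] at hcge
  have hcardN : Nat.card N = p * e := (h.card_zpowers_mul_relIndex).symm
  have hn : n = t * e := by omega
  have hlt : p * c < p * e + n ^ 2 := by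
    have hG0 : (0 : ℝ) < (Nat.card G : ℝ) := by exact_mod_cast Nat.card_pos
    have hA : ∑ d ∈ Finset.univ.filter (· ∈ D), F d = (p : ℝ) * c - (n : ℝ) ^ 2 := by
      rw [← hsumP, hsplit, hF1]; ring
    have hA' : ∀ (inst : DecidablePred (· ∈ D)),
        ∑ d ∈ @Finset.filter G (· ∈ D) inst Finset.univ, F d = (p : ℝ) * c - (n : ℝ) ^ 2 := by
      intro inst
      rw [← hA]
      apply Finset.sum_congr _ (fun _ _ => rfl)
      ext g
      simp
    rw [hA' _, hsumG, hF1, hcardN] at hti
    have hpos : (0 : ℝ) < ((p * e : ℕ) : ℝ) * (n : ℝ) ^ 2 := by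
      have hn0 : 0 < n := by
        rw [hn]
        exact Nat.mul_pos htodd.pos he0
      have : 0 < (p * e) * n ^ 2 :=
        Nat.mul_pos (Nat.mul_pos hp.pos he0) (pow_pos hn0 2)
      exact_mod_cast this
    have h1 : (Nat.card G : ℝ) * ((p : ℝ) * c - (n : ℝ) ^ 2) <
        (Nat.card G : ℝ) * ((p * e : ℕ) : ℝ) := by
      rw [mul_comm (Nat.card G : ℝ) ((p * e : ℕ) : ℝ)]
      linarith
    have h2 := lt_of_mul_lt_mul_left h1 hG0.le
    have h3 : ((p * c : ℕ) : ℝ) < ((p * e + n ^ 2 : ℕ) : ℝ) := by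
      push_cast
      push_cast at h2
      linarith
    exact_mod_cast h3
  have ha0 : a = 0 := by
    by_contra hane
    have hale : a ≤ n := by
      have h1 : Fintype.card (Fin (Module.finrank ℂ (Fin n → ℂ))) = n := by
        rw [Fintype.card_fin, hfin]
      exact (Finset.card_le_univ (Finset.univ.filter (fun i => μ i = 1))).trans h1.le
    have hea : e ∣ a := by
      have h1 : (e : ℤ) ∣ (n : ℤ) := ⟨t, by rw [hn]; push_cast; ring⟩
      have h2 : (e : ℤ) ∣ (a : ℤ) := by
        have := dvd_sub h1 hdvd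
        simpa using this
      exact_mod_cast h2
    have hae : e ≤ a := Nat.le_of_dvd (Nat.pos_of_ne_zero hane) hea
    have h3 : a + n ≤ c := by
      have : 2 * a ≤ a ^ 2 := by nlinarith
      omega
    have h4 : p * (e + n) ≤ p * c := Nat.mul_le_mul_left p (by omega)
    have h5 : p * (e + n) = p * e + n ^ 2 + n := by
      rw [← hdeg]; ring
    omega
  -- vanishing on the complement
  rw [ha0, Nat.cast_zero, mul_zero] at ha
  have hvan : ∀ j, 0 < j → j < e → ρ.character (y ^ j) = 0 := by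
    intro j hj0 hje
    have hne : y ^ j ≠ 1 := by
      intro h1
      have := orderOf_dvd_of_pow_eq_one h1
      rw [hyord'] at this
      exact absurd (Nat.le_of_dvd hj0 this) (by omega)
    exact char_eq_zero_of_sum_zero ρ (zpowers x) ha (y ^ j)
      (hconst (y ^ j) (pow_mem (mem_zpowers y) j) hne)
  have hdet := det_of_trace_zero (ρ y) e t he0 (by
    rw [← map_pow, ← hyord', pow_orderOf_eq_one, map_one]) (by
    intro j hj0 hje
    rw [← map_pow]
    exact hvan j hj0 hje) (by rw [hfin, hn, mul_comm])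
  have heven : Even e := by
    have hpodd : Odd p := by
      rcases hp.eq_two_or_odd' with h2 | hodd
      · exfalso
        rw [h2] at hte
        have : t * e = 1 := hte
        have := Nat.eq_one_of_mul_eq_one_left this
        omega
      · exact hodd
    have h1 : Even (t * e) := by rw [hte]; exact Nat.Odd.sub_odd hpodd odd_one
    rcases Nat.even_mul.1 h1 with h2 | h2
    · exact absurd h2 (Nat.not_even_iff_odd.2 htodd)
    · exact h2
  rw [(heven.add_one).neg_one_pow, htodd.neg_one_pow] at hdet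
  let δ : G →* ℂˣ := (Units.map (LinearMap.det : Module.End ℂ (Fin n → ℂ) →* ℂ)).comp
    (MonoidHom.toHomUnits ρ)
  have hδ : δ y = -1 := by
    apply Units.ext
    show LinearMap.det (ρ y) = _
    rw [hdet]
    simp
  have hord2 : orderOf (δ y) = 2 := by
    rw [hδ]
    apply orderOf_eq_prime (p := 2)
    · simp
    · intro h1
      have h2 := congrArg (fun u : ℂˣ => (u : ℂ)) h1
      simp only [Units.val_neg, Units.val_one] at h2
      norm_num at h2
  apply hidx
  rw [even_iff_two_dvd, ← hord2]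
  have h1 : δ y = Abelianization.lift δ (Abelianization.of y) := by simp
  rw [h1, Subgroup.index_eq_card]
  exact (orderOf_map_dvd _ _).trans (orderOf_dvd_natCard _)

end Cfsg.Agent.S4508
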