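import Cfsg.Statements.S4509
import Cfsg.Agent.Lib.Helper75.SelfCent5

set_option autoImplicit false
open Cfsg

namespace Cfsg.Agent.S4509

/-- Let the finite group G contain an element x of prime order p with C_G(x) = ⟨x⟩; let t be the number of conjugacy classes of elements of order p and 1 + n·p the number of subgroups of order p. Then G has a normal subgroup of order 1 + n·p if and only if either t = p − 1, or t < p − 1 and G″ ≠ G′. Moreover, if t = p − 1 then G′ has order 1 + n·p and G/G′ is cyclic of order p; and if t < p − 1 and G″ ≠ G′ then G″ has order 1 + n·p and G′ has order p·(1 + n·p). -/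
theorem result {G : Type*} [Group G] [Finite G] (p : ℕ) (hp : p.Prime) (x : G) (hx : orderOf x = p) (hC : Subgroup.centralizer ({x} : Set G) = Subgroup.zpowers x) (t : ℕ) (ht : Nat.card {C : ConjClasses G // ∃ g ∈ C.carrier, orderOf g = p} = t) (n : ℕ) (hn : Nat.card {H : Subgroup G // Nat.card H = p} = 1 + n * p) : ((∃ S : Subgroup G, S.Normal ∧ Nat.card S = 1 + n * p) ↔ (t = p - 1 ∨ (t < p - 1 ∧ derivedSeries G 2 ≠ derivedSeries G 1))) ∧ (t = p - 1 → Nat.card (commutator G) = 1 + n * p ∧ IsCyclic (G ⧸ commutator G) ∧ (commutator G).index = p) ∧ (t < p - 1 → derivedSeries G 2 ≠ derivedSeries G 1 → Nat.card (derivedSeries G 2) = 1 + n * p ∧ Nat.card (commutator G) = p * (1 + n * p)) := by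
  have h : Cfsg.Agent.Lib.Helper75.SC p x := ⟨hp, hx, hC⟩
  subst ht
  rw [h.card_subgroups] at hn
  have hD1 : derivedSeries G 1 = commutator G := derivedSeries_one G
  have hD2 : derivedSeries G 2 = ⁅commutator G, commutator G⁆ := by
    rw [derivedSeries_succ, hD1]
  rw [hD1, hD2]
  have hA : Nat.card {C : ConjClasses G // ∃ g ∈ C.carrier, orderOf g = p} = p - 1 →
      Nat.card (commutator G) = 1 + n * p ∧ IsCyclic (G ⧸ commutator G) ∧
        (commutator G).index = p := by
    intro heq
    have hN := h.card_classes_eq_iff.1 heq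
    have hi := h.index_commutator_of_normalizer_eq hN
    have : Fact p.Prime := ⟨hp⟩
    exact ⟨by rw [h.card_commutator_of_normalizer_eq hN, hn],
      isCyclic_of_prime_card (p := p) (by rw [← Subgroup.index_eq_card, hi]), hi⟩
  have hB : Nat.card {C : ConjClasses G // ∃ g ∈ C.carrier, orderOf g = p} < p - 1 →
      ⁅commutator G, commutator G⁆ ≠ commutator G →
      Nat.card (⁅commutator G, commutator G⁆ : Subgroup G) = 1 + n * p ∧
        Nat.card (commutator G) = p * (1 + n * p) := by
    intro hlt hne
    have hN : Subgroup.normalizer (Subgroup.zpowers x : Set G) ≠ Subgroup.zpowers x :=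
      fun hh => hlt.ne (h.card_classes_eq_iff.2 hh)
    have := h.card_of_derived_ne hN hne
    rwa [hn] at this
  refine ⟨⟨?_, ?_⟩, hA, hB⟩
  · rintro ⟨S, hSn, hS⟩
    rcases (h.card_classes_le).lt_or_eq with hlt | heq
    · right
      refine ⟨hlt, fun hd => ?_⟩
      have hN : Subgroup.normalizer (Subgroup.zpowers x : Set G) ≠ Subgroup.zpowers x :=
        fun hh => hlt.ne (h.card_classes_eq_iff.2 hh)
      have hSp : ¬ p ∣ Nat.card S := by
        rw [hS]
        intro hdvd
        have : p ∣ 1 := (Nat.dvd_add_left (Dvd.intro_left n rfl)).1 hdvd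
        exact hp.one_lt.ne' (Nat.dvd_one.1 this)
      have h1 := h.derived_two_le S hSp (by rw [hS, hn])
      rw [hd] at h1
      exact h.not_mem_of_not_dvd S hSp
        (h1 (h.zpowers_le_commutator hN (Subgroup.mem_zpowers x)))
    · exact Or.inl heq
  · rintro (heq | ⟨hlt, hne⟩)
    · exact ⟨commutator G, inferInstance, (hA heq).1⟩
    · exact ⟨⁅commutator G, commutator G⁆, inferInstance, (hB hlt hne).1⟩

end Cfsg.Agent.S4509
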