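import Cfsg.Statements.S4510
import Cfsg.Agent.Lib.Helper75.DefectNum
import Cfsg.Agent.Lib.Helper75.RegularBlock

set_option autoImplicit false
open Cfsg

namespace Cfsg.Agent.S4510

open Cfsg.Agent.Lib.Helper74 Cfsg.Agent.Lib.Helper78 Cfsg.Agent.Lib.Helper75

/-- Let G be a finite group, p a prime, M a maximal ideal of the algebraic integers containing p, and call the defect of a conjugacy class the exponent of p in the order of the centralizer of its elements. Two irreducible characters lying in p-blocks of defect exactly d lie in the same block if and only if their central characters (class size times χ(x)/χ(1)) agree modulo the local ideal at M at every p-regular element x whose class has defect exactly d. -/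
theorem result {G : Type*} [Group G] [Finite G] (p : ℕ) [Fact p.Prime] (M : Ideal Cfsg.AlgInt) (hM : Cfsg.IsPModular p M) (d : ℕ) (χ ψ : Cfsg.IrrCharacter G) (hχ : Cfsg.blockDefect p (Cfsg.blockOf M (χ : G → ℂ)) = d) (hψ : Cfsg.blockDefect p (Cfsg.blockOf M (ψ : G → ℂ)) = d) : Cfsg.SameBlock M (χ : G → ℂ) (ψ : G → ℂ) ↔ ∀ x : G, ¬ p ∣ orderOf x → (Nat.card (Subgroup.centralizer ({x} : Set G))).factorization p = d → Cfsg.MemLocalIdeal M (Cfsg.centralChar (χ : G → ℂ) x - Cfsg.centralChar (ψ : G → ℂ) x) := by
  classical
  constructor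
  · intro h x _ _
    exact h x
  intro h
  have := Fintype.ofFinite G
  have hMp := pmod_isPrime hM
  set B := blockOf M (ψ : G → ℂ) with hBdef
  have hB : IsPBlock M B := isPBlock_blockOf ψ
  have hB' : IsPBlock M (blockOf M (χ : G → ℂ)) := isPBlock_blockOf χ
  have hcl := blockCoeff_isClassFunction B
  have h1 := omega_blockCoeff B χ
  have h2 := omega_blockCoeff B ψ
  rw [if_pos (mem_blockOf_self hMp ψ)] at h2
  have h3 : MemLocalIdeal M (omega (χ : G → ℂ) (blockCoeff B) - omega (ψ : G → ℂ) (blockCoeff B)) := by
    rw [omega_eq_sum_conjClasses (irr_isClassFunction χ) hcl,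
      omega_eq_sum_conjClasses (irr_isClassFunction ψ) hcl, ← Finset.sum_sub_distrib]
    refine MemLocalIdeal.sum hMp _ _ fun C _ => ?_
    rw [← mul_sub]
    set g := Quotient.out C with hg
    by_cases hC : p ∣ orderOf g
    · rw [blockCoeff_eq_zero_of_singular hM hB hC, zero_mul]
      exact memLocalIdeal_zero hMp
    rcases lt_trichotomy ((Nat.card (Subgroup.centralizer ({g} : Set G))).factorization p) d with hlt | heq | hgt
    · apply MemLocalIdeal.mul_left hMp (memLocalRing_blockCoeff hMp hB _)
      apply MemLocalIdeal.sub hMp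
      · exact memLocalIdeal_centralChar_of_lt hM hB' (mem_blockOf_self hMp χ) (by rw [hχ]; exact hlt)
      · exact memLocalIdeal_centralChar_of_lt hM hB (mem_blockOf_self hMp ψ) (by rw [hψ]; exact hlt)
    · exact MemLocalIdeal.mul_left hMp (memLocalRing_blockCoeff hMp hB _) (h _ hC heq)
    · apply MemLocalIdeal.mul_right hMp (memLocalIdeal_blockCoeff_of_gt hM hB (by rw [hψ]; exact hgt))
      exact MemLocalRing.sub hMp (memLocalRing_centralChar hMp χ g) (memLocalRing_centralChar hMp ψ g)
  rw [h1, h2] at h3
  by_cases hχB : χ ∈ B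
  · exact sameBlock_symm hχB
  · rw [if_neg hχB] at h3
    exfalso
    apply not_memLocalIdeal_one hMp
    have := MemLocalIdeal.neg h3
    simpa using this

end Cfsg.Agent.S4510
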