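import Cfsg.Statements.S4646
import Cfsg.Agent.Lib.Helper76.PrincipalNilp
import Cfsg.Agent.S0071
import Cfsg.Agent.S0086

set_option autoImplicit false
open Cfsg

namespace Cfsg.Agent.S4646

theorem mem_normalizer_centralizer {G : Type*} [Group G] {Q : Subgroup G} {x : G}
    (hx : x ∈ Subgroup.normalizer (Q : Set G)) :
    x ∈ Subgroup.normalizer ((Subgroup.centralizer (Q : Set G) : Subgroup G) : Set G) := by
  rw [Subgroup.mem_normalizer_iff]
  intro c
  constructor
  · intro hc
    rw [Subgroup.mem_centralizer_iff]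
    intro q hq
    have h1 : x⁻¹ * q * x ∈ Q := by
      rw [Subgroup.mem_normalizer_iff.mp hx]
      simpa [mul_assoc] using hq
    have h2 := (Subgroup.mem_centralizer_iff.mp hc) _ h1
    calc q * (x * c * x⁻¹) = x * ((x⁻¹ * q * x) * c) * x⁻¹ := by group
      _ = x * (c * (x⁻¹ * q * x)) * x⁻¹ := by rw [h2]
      _ = x * c * x⁻¹ * q := by group
  · intro hc
    rw [Subgroup.mem_centralizer_iff]
    intro q hq
    have h1 : x * q * x⁻¹ ∈ Q := (Subgroup.mem_normalizer_iff.mp hx q).mp hq
    have h2 := (Subgroup.mem_centralizer_iff.mp hc) _ h1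
    calc q * c = x⁻¹ * ((x * q * x⁻¹) * (x * c * x⁻¹)) * x := by group
      _ = x⁻¹ * ((x * c * x⁻¹) * (x * q * x⁻¹)) * x := by rw [h2]
      _ = c * q := by group


/-- For a finite group G, a prime p and a maximal ideal M of the algebraic integers containing p: the principal block of G is nilpotent if and only if its p-regular rank is 1 (the trivial Brauer character is its only irreducible Brauer character). -/
theorem result {G : Type*} [Group G] [Finite G] (p : ℕ) [Fact p.Prime] (M : Ideal Cfsg.AlgInt) (hM : Cfsg.IsPModular p M) : Cfsg.IsNilpotentBlock p M (Cfsg.principalBlock M G) ↔ Cfsg.blockRank p (Cfsg.principalBlock M G) = 1 := by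
  have hMp := Cfsg.Agent.Lib.Helper78.pmod_isPrime hM
  have hp : p.Prime := Fact.out
  rw [Cfsg.Agent.Lib.Helper76.blockRank_principalBlock_eq_one_iff hM]
  constructor
  · rintro ⟨-, hnil⟩
    obtain ⟨P⟩ : Nonempty (Sylow p G) := inferInstance
    obtain ⟨N, hN, hc⟩ := (Cfsg.Agent.S0071.result P).mpr (by
      intro Q hQ g hg hgo
      exact hnil Q _ (Cfsg.Agent.Lib.Helper76.isBrauerPairOf_principal hM (P.2.to_le hQ)) g hg
        (Cfsg.Agent.Lib.Helper76.stabilizesBlock_principalBlock hMp _
          (mem_normalizer_centralizer hg))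
        (fun hd => hp.one_lt.ne' (Nat.eq_one_of_dvd_coprimes hgo hd dvd_rfl)))
    intro χ hχ g hg
    have hgN : g ∈ N := (Cfsg.Agent.S0086.result P N hc g).mpr
      ((Nat.Prime.coprime_iff_not_dvd hp).mpr hg).symm
    have hNcop : (Nat.card N).Coprime p := by
      rw [← hc.index_eq_card]
      exact ((Nat.Prime.coprime_iff_not_dvd hp).mpr P.not_dvd_index).symm
    exact Cfsg.Agent.Lib.Helper82.ker_of_mem_principalBlock p hM hχ g
      (Cfsg.Agent.Lib.Lead.le_pPrimeCore hN hNcop hgN)
  · intro h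
    refine ⟨Cfsg.Agent.Lib.Helper78.isPBlock_principalBlock, ?_⟩
    intro Q e hQe x hx _ hxreg
    have hQ : IsPGroup p Q := hQe.1.1
    rw [Subgroup.mem_centralizer_iff]
    intro q hq
    -- the commutator lies in `Q` and in the kernel of all characters of the principal block
    have hcQ : x * q * x⁻¹ * q⁻¹ ∈ Q :=
      Q.mul_mem ((Subgroup.mem_normalizer_iff.mp hx q).mp hq) (Q.inv_mem hq)
    have hreg : Cfsg.IsPRegular p (x * q * x⁻¹ * q⁻¹) := by
      apply Cfsg.Agent.Lib.Helper76.isPRegular_of_forall_mem_block hM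
        Cfsg.Agent.Lib.Helper78.isPBlock_principalBlock
      intro χ hχ
      have hχc := Cfsg.Agent.Lib.Helper80.isCharacter_of_irr χ.2
      have hx1 : (χ : G → ℂ) x = (χ : G → ℂ) 1 := h χ hχ x hxreg
      have hx2 : (χ : G → ℂ) (q * x⁻¹ * q⁻¹) = (χ : G → ℂ) 1 := by
        apply h χ hχ
        unfold Cfsg.IsPRegular
        have : orderOf (q * x⁻¹ * q⁻¹) = orderOf x := by
          rw [← orderOf_inv x]
          exact (MulAut.conj q).orderOf_eq x⁻¹
        rw [this]
        exact hxreg
      have e : x * q * x⁻¹ * q⁻¹ = x * (q * x⁻¹ * q⁻¹) := by group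
      rw [e, Cfsg.Agent.Lib.Helper80.char_mul_of_mem_ker hχc hx2, hx1]
    obtain ⟨k, hk⟩ := hQ ⟨_, hcQ⟩
    have hk' : (x * q * x⁻¹ * q⁻¹) ^ p ^ k = 1 := by simpa using congrArg Subtype.val hk
    obtain ⟨j, -, hj⟩ := (Nat.dvd_prime_pow hp).mp (orderOf_dvd_of_pow_eq_one hk')
    have hj0 : j = 0 := by
      by_contra hj0
      exact hreg (hj ▸ dvd_pow_self p hj0)
    rw [hj0, pow_zero, orderOf_eq_one_iff] at hj
    have : x * q = q * x := by
      calc x * q = (x * q * x⁻¹ * q⁻¹) * (q * x) := by group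
        _ = q * x := by rw [hj, one_mul]
    exact this.symm

end Cfsg.Agent.S4646
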