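import Cfsg.Statements.S4691
import Cfsg.Agent.Lib.Helper77.Principal
import Cfsg.Agent.S4663
import Cfsg.Agent.Lib.Lead.FrobeniusComplement

set_option autoImplicit false
open Cfsg Cfsg.Agent.Lib.Helper77
open Cfsg

namespace Cfsg.Agent.S4691

/-- Fix a prime p and a maximal ideal M of the algebraic integers containing p. A finite group G has a normal p-complement if and only if its principal p-block is nilpotent. -/
theorem result {G : Type*} [Group G] [Fintype G] (p : ℕ) [Fact p.Prime] (M : Ideal Cfsg.AlgInt) (hM : Cfsg.IsPModular p M) : Cfsg.HasNormalPComplement p G ↔ Cfsg.IsNilpotentBlock p M (Cfsg.principalBlock M G) := by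
  have hPr : M.IsPrime := hM.2.1.isPrime
  have hp : p.Prime := Fact.out
  have hcop : ∀ x : G, IsPRegular p x ↔ Nat.Coprime (orderOf x) p := fun x => by
    rw [Nat.coprime_comm, hp.coprime_iff_not_dvd]; rfl
  constructor
  · intro h
    have hfr := Cfsg.Agent.Lib.Lead.frobHyp_of_hasNormalPComplement h
    refine ⟨Cfsg.Agent.Lib.Helper78.isPBlock_principalBlock, ?_⟩
    intro Q e hQe x hx _ hreg
    exact hfr Q hQe.1.1 x hx ((hcop x).1 hreg)
  · intro h
    apply Cfsg.Agent.Lib.Lead.FrobHyp.hasNormalPComplement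
    intro Q hQ g hg hgo
    have hpb : IsPBlock M (principalBlock M (Subgroup.centralizer (Q : Set G))) :=
      Cfsg.Agent.Lib.Helper78.isPBlock_principalBlock
    refine h.2 Q (principalBlock M (Subgroup.centralizer (Q : Set G)))
      ((Cfsg.Agent.S4663.result p M hM Q hQ _ hpb).2 rfl) g hg ?_ ((hcop g).2 hgo)
    have hgN := normalizer_le_normalizer_centralizer Q hg
    refine (stabilizesBlock_iff_cj M hpb g).2 ⟨hgN, ?_⟩
    have h1 := (isPrimIdem_idem M hpb).cj_of_mem_normalizer hgN
    obtain ⟨b', hb', hb'e⟩ := (isPrimIdem_iff M).1 h1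
    have h2 : aug (idem M (Cen Q) b') = 1 := by
      rw [← hb'e, aug_cj]
      exact (aug_idem_eq_one_iff M hpb).2 rfl
    rw [hb'e, (aug_idem_eq_one_iff M hb').1 h2]

end Cfsg.Agent.S4691
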