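import Cfsg.Statements.S4512
import Cfsg.Agent.S0948
import Cfsg.Agent.S4646
import Cfsg.Agent.S4691
import Cfsg.Agent.S4511
import Cfsg.Agent.Lib.Helper4.PrincipalSection
import Cfsg.Agent.Lib.Helper74.KleinFour2

set_option autoImplicit false
open Cfsg

namespace Cfsg.Agent.S4512

open Cfsg.Agent.Lib Cfsg.Agent.Lib.Helper78 Cfsg.Agent.Lib.Helper16 Cfsg.Agent.Lib.Helper4 Cfsg.Agent.Lib.Helper97
open scoped ComplexConjugate

/-- If G is a finite group with a Sylow 2-subgroup that is a Klein four-group and a single conjugacy class of involutions, then its principal 2-block (relative to a maximal ideal M of the algebraic integers containing 2) has 2-regular rank 3: the restrictions of its irreducible characters to the elements of odd order span a space of dimension 3 (it has three irreducible Brauer characters). -/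
theorem result {G : Type*} [Group G] [Finite G] (M : Ideal Cfsg.AlgInt) (hM : Cfsg.IsPModular 2 M) (P : Sylow 2 G)
    (hP : Nat.card P = 4) (hexp : ∀ x : P, x * x = 1)
    (hone : ∀ s t : G, orderOf s = 2 → orderOf t = 2 → IsConj s t) :
    Cfsg.blockRank 2 (Cfsg.principalBlock M G) = 3 := by
  classical
  have : Fact (Nat.Prime 2) := ⟨Nat.prime_two⟩
  have : Fintype G := Fintype.ofFinite G
  have hMp : M.IsPrime := hM.2.1.isPrime
  have hnt : Nontrivial (P : Subgroup G) :=
    (Finite.one_lt_card_iff_nontrivial).1 (by rw [hP]; norm_num)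
  have hK : IsKleinFour (P : Subgroup G) := by
    refine ⟨hP, ?_⟩
    rw [Monoid.exponent_eq_prime_iff Nat.prime_two]
    intro g hg
    exact orderOf_eq_prime (by rw [sq]; exact hexp g) hg
  obtain ⟨t', ht'⟩ : ∃ t : (P : Subgroup G), t ≠ 1 := exists_ne 1
  obtain ⟨t, htP, ht1⟩ : ∃ t : G, t ∈ (P : Subgroup G) ∧ t ≠ 1 :=
    ⟨t', t'.2, fun h => ht' (Subtype.ext h)⟩
  have htt : t * t = 1 := Helper74.klein_mul_self P htP
  have hot : orderOf t = 2 := orderOf_eq_prime (by rw [sq]; exact htt) ht1
  -- the centralizer of `t` has a normal 2-complement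
  have hnpc : HasNormalPComplement 2 (Cen t) := by
    have := Helper74.klein_subtype_isKleinFour P htP
    have hPC := Helper74.klein_le_centralizer P htP
    have hJC : t ∈ Subgroup.centralizer ({t} : Set G) := hPC htP
    have hJQ : (⟨t, hJC⟩ : Subgroup.centralizer ({t} : Set G)) ∈
        ((P.subtype hPC : Sylow 2 (Subgroup.centralizer ({t} : Set G))) :
          Subgroup (Subgroup.centralizer ({t} : Set G))) := by
      rw [Sylow.coe_subtype, Subgroup.mem_subgroupOf]; exact htP
    have hJ1' : (⟨t, hJC⟩ : Subgroup.centralizer ({t} : Set G)) ≠ 1 := by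
      simpa [Subtype.ext_iff] using ht1
    have hJc : ∀ c : Subgroup.centralizer ({t} : Set G), c * ⟨t, hJC⟩ = ⟨t, hJC⟩ * c := by
      intro c
      apply Subtype.ext
      exact Subgroup.mem_centralizer_singleton_iff.1 c.2
    have hN : Subgroup.normalizer ((P.subtype hPC : Sylow 2 (Subgroup.centralizer ({t} : Set G))) :
        Set (Subgroup.centralizer ({t} : Set G))) ≤ Subgroup.centralizer
        ((P.subtype hPC : Sylow 2 (Subgroup.centralizer ({t} : Set G))) :
        Set (Subgroup.centralizer ({t} : Set G))) := by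
      intro g hg
      rw [Subgroup.mem_centralizer_iff]
      intro y hy
      have := Helper74.klein_centralizes_of_fix (P.subtype hPC) hg hJQ hJ1'
        (by rw [hJc g]; group) y hy
      rw [mul_inv_eq_iff_eq_mul] at this
      exact this.symm
    exact ⟨P.subtype hPC, (MonoidHom.transferSylow (P.subtype hPC) hN).ker, inferInstance,
      MonoidHom.ker_transferSylow_isComplement' (P.subtype hPC) hN⟩
  have hrank1 : blockRank 2 (principalBlock M (Cen t)) = 1 :=
    (Cfsg.Agent.S4646.result 2 M hM).1 ((Cfsg.Agent.S4691.result 2 M hM).1 hnpc)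
  -- the count of characters
  obtain ⟨ζ₂, ζ₃, ζ₄, ε, -, h21, h31, h23, h24, h34, hB, hval, -⟩ :=
    Cfsg.Agent.S0948.result M hM P hK hone
  have h41 : (ζ₄ : G → ℂ) ≠ (fun _ => 1) := by
    intro h
    have h1 := (hval t hot).2.2
    rw [h] at h1
    norm_num at h1
  have hcard : Nat.card (principalBlock M G) = 4 := by
    have hset : principalBlock M G = {trivIrr G, ζ₂, ζ₃, ζ₄} := by
      rw [hB]
      ext χ
      simp only [Set.mem_ofPred_eq, Set.mem_insert_iff, Set.mem_singleton_iff]
      constructor
      · rintro (h | h | h | h)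
        · left; exact Subtype.ext h
        · right; left; exact h
        · right; right; left; exact h
        · right; right; right; exact h
      · rintro (h | h | h | h)
        · left; rw [h]; rfl
        · right; left; exact h
        · right; right; left; exact h
        · right; right; right; exact h
    have e2 : trivIrr G ≠ ζ₂ := fun h => h21 (by rw [← h]; rfl)
    have e3 : trivIrr G ≠ ζ₃ := fun h => h31 (by rw [← h]; rfl)
    have e4 : trivIrr G ≠ ζ₄ := fun h => h41 (by rw [← h]; rfl)
    rw [hset, Nat.card_coe_set_eq, Set.ncard_insert_of_notMem, Set.ncard_insert_of_notMem,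
      Set.ncard_pair h34]
    · simp [h23, h24]
    · simp [e2, e3, e4]
  have hX : ∀ x ∈ ({1, t} : Finset G), ∃ k : ℕ, orderOf x = 2 ^ k := by
    intro x hx
    rw [Finset.mem_insert, Finset.mem_singleton] at hx
    rcases hx with rfl | rfl
    · exact ⟨0, by simp⟩
    · exact ⟨1, by simp [hot]⟩
  have hXrep : ∀ g : G, (∃ k : ℕ, orderOf g = 2 ^ k) →
      ∃! x, x ∈ ({1, t} : Finset G) ∧ IsConj g x := by
    rintro g ⟨k, hk⟩
    have hgg : g * g = 1 := Helper74.klein_two_element_sq P hk
    by_cases hg1 : g = 1
    · subst hg1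
      refine ⟨1, ⟨by simp, IsConj.refl 1⟩, ?_⟩
      rintro y ⟨-, hy⟩
      exact (isConj_one_right.1 hy)
    · have hog : orderOf g = 2 := orderOf_eq_prime (by rw [sq]; exact hgg) hg1
      refine ⟨t, ⟨by simp, hone g t hog hot⟩, ?_⟩
      rintro y ⟨hy, hy2⟩
      rw [Finset.mem_insert, Finset.mem_singleton] at hy
      rcases hy with rfl | rfl
      · exact absurd (isConj_one_right.1 hy2.symm) hg1
      · rfl
  have key := Cfsg.Agent.S4511.result 2 M hM (principalBlock M G) isPBlock_principalBlock
    {1, t} hX hXrep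
  rw [hcard, Finset.sum_pair (Ne.symm ht1)] at key
  have h2 : ((∑ᶠ b ∈ {b : Set (IrrCharacter (Cen t)) |
      IsInducedBlock M (Cen t) b (principalBlock M G)}, blockRank 2 b : ℕ) : ℂ) = 1 := by
    rw [Cfsg.Agent.S4511.blockRank_indSet hM, indSet_principalBlock hM t ⟨1, by simp [hot]⟩,
      hrank1]
    simp
  have h1 : ((∑ᶠ b ∈ {b : Set (IrrCharacter (Cen (1 : G))) |
      IsInducedBlock M (Cen (1 : G)) b (principalBlock M G)}, blockRank 2 b : ℕ) : ℂ)
      = blockRank 2 (principalBlock M G) := by
    rw [Cfsg.Agent.S4511.blockRank_indSet hM, indSet_principalBlock hM 1 ⟨0, by simp⟩,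
      blockRank_eq hM _ (fun ψ hψ => (IsPBlock.eq_blockOf hMp isPBlock_principalBlock hψ).ge),
      blockRank_eq hM _ (fun ψ hψ => (IsPBlock.eq_blockOf hMp isPBlock_principalBlock hψ).ge)]
    have hall : ∀ g : G, g ∈ Cen (1 : G) := by
      intro g
      exact Subgroup.mem_centralizer_singleton_iff.2 (by simp)
    have hc : Fintype.card (Cen (1 : G)) = Fintype.card G :=
      Fintype.card_congr (Equiv.subtypeUnivEquiv hall)
    rw [hc]
    congr 1
    refine Fintype.sum_equiv (Equiv.subtypeUnivEquiv hall) _ _ fun c => ?_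
    have ho : orderOf ((Equiv.subtypeUnivEquiv hall) c) = orderOf c := Subgroup.orderOf_coe c
    rw [ho]
    by_cases hcr : 2 ∣ orderOf c
    · simp [hcr]
    · simp only [if_pos hcr]
      have := sum_principal_section hM (1 : G) ⟨0, by simp⟩ c c hcr hcr
      simp only [one_mul] at this
      exact this.symm
  have key2 : ((4 : ℕ) : ℂ) = (blockRank 2 (principalBlock M G) : ℂ) + 1 := by
    rw [key, Nat.cast_add]
    exact congrArg₂ (· + ·) h1 h2
  have key3 : 4 = blockRank 2 (principalBlock M G) + 1 := by exact_mod_cast key2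
  omega

end Cfsg.Agent.S4512
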