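import Cfsg.Statements.S4513
import Cfsg.Agent.Lib.Helper78.DefectOneTwo

set_option autoImplicit false
open Cfsg

namespace Cfsg.Agent.S4513

open Cfsg.Agent.Lib.Helper78 Cfsg.Agent.Lib.Helper16 Cfsg.Agent.Lib.Helper4
open scoped ComplexConjugate

/-- Blocks of defect one for p = 2. Let M be a maximal ideal of the algebraic integers containing 2, B a 2-block of the finite group G whose defect group is the subgroup generated by an involution x, C = C_G(x), b a block of C inducing B and θ a member of b taking the same value at x as at 1 (there is exactly one). Then B consists of exactly two irreducible characters, which agree on every element of odd order, and they can be labelled χ₁, χ₂ with signs ε₁, ε₂ = ±1, ε₁ε₂ = −1, such that χᵢ(x y) = εᵢ θ(y) for every element y of C of odd order. -/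
theorem result {G : Type*} [Group G] [Finite G] (M : Ideal Cfsg.AlgInt) (hM : Cfsg.IsPModular 2 M) (x : G) (hx : orderOf x = 2)
    (B : Set (Cfsg.IrrCharacter G)) (hB : Cfsg.IsPBlock M B) (hBD : Cfsg.IsDefectGroup 2 M B (Subgroup.zpowers x))
    (b : Set (Cfsg.IrrCharacter ↥(Subgroup.centralizer ({x} : Set G)))) (hb : Cfsg.IsInducedBlock M (Subgroup.centralizer ({x} : Set G)) b B)
    (θ : Cfsg.IrrCharacter ↥(Subgroup.centralizer ({x} : Set G))) (hθ : θ ∈ b)
    (hθx : ∀ z : ↥(Subgroup.centralizer ({x} : Set G)), (z : G) = x → (θ : ↥(Subgroup.centralizer ({x} : Set G)) → ℂ) z = (θ : ↥(Subgroup.centralizer ({x} : Set G)) → ℂ) 1) :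
    Nat.card B = 2 ∧ (∀ χ ∈ B, ∀ ψ ∈ B, ∀ g : G, ¬ 2 ∣ orderOf g → (χ : G → ℂ) g = (ψ : G → ℂ) g) ∧
      ∃ χ₁ ∈ B, ∃ χ₂ ∈ B, χ₁ ≠ χ₂ ∧ ∃ ε₁ ε₂ : ℤ, (ε₁ = 1 ∨ ε₁ = -1) ∧ (ε₂ = 1 ∨ ε₂ = -1) ∧ ε₁ * ε₂ = -1 ∧
        ∀ y : ↥(Subgroup.centralizer ({x} : Set G)), ¬ 2 ∣ orderOf y →
          (χ₁ : G → ℂ) (x * y) = (ε₁ : ℂ) * (θ : ↥(Subgroup.centralizer ({x} : Set G)) → ℂ) y ∧ (χ₂ : G → ℂ) (x * y) = (ε₂ : ℂ) * (θ : ↥(Subgroup.centralizer ({x} : Set G)) → ℂ) y := by
  classical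
  have : Fact (Nat.Prime 2) := ⟨Nat.prime_two⟩
  have : Fintype G := Fintype.ofFinite G
  have hMp : M.IsPrime := hM.2.1.isPrime
  have hxp : ∃ k : ℕ, orderOf x = 2 ^ k := ⟨1, by rw [hx, pow_one]⟩
  have hxx : x * x = 1 := by rw [← sq, ← hx]; exact pow_orderOf_eq_one x
  have hx1 : x ≠ 1 := by rintro rfl; simp at hx
  have hdB : blockDefect 2 B = 1 := by
    have h1 := card_of_isDefectGroup hM hB hBD
    rw [Nat.card_zpowers, hx] at h1
    have h2 : 2 ^ 1 = 2 ^ blockDefect 2 B := by rw [pow_one]; exact h1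
    exact (Nat.pow_right_injective (le_refl 2) h2).symm
  obtain ⟨χ₁, χ₂, hne, hBeq⟩ := exists_pair_of_defect_one hM hB hdB
  have hxCc := cenSelf_central x
  have hxC2 : cenSelf x * cenSelf x = 1 := Subtype.ext hxx
  have hxCord : orderOf (cenSelf x) = 2 := by rw [← Subgroup.orderOf_coe]; exact hx
  have hlam : ∀ ψ : IrrCharacter (Cen x),
      ((ψ : Cen x → ℂ) (cenSelf x) / (ψ : Cen x → ℂ) 1) *
        ((ψ : Cen x → ℂ) (cenSelf x) / (ψ : Cen x → ℂ) 1) = 1 := by
    intro ψ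
    have h1 := irr_central_mul ψ hxCc (cenSelf x)
    rw [hxC2] at h1
    have h2 := irr_one_ne_zero ψ
    rw [mul_div_assoc', ← h1, div_self h2]
  have hpos : ∀ b' : Set (IrrCharacter (Cen x)), IsPBlock M b' → 0 < blockDefect 2 b' := by
    intro b' hb'
    by_contra h0
    obtain ⟨ψ, hψ⟩ := IsPBlock.nonempty hMp hb'
    have h1 := eq_zero_of_blockDefect_eq_zero hM hb' (by omega) hψ (cenSelf x) (by rw [hxCord])
    have h2 := hlam ψ
    rw [h1] at h2
    simp at h2
  have hone : ∀ b' : Set (IrrCharacter (Cen x)), IsInducedBlock M (Cen x) b' B →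
      blockDefect 2 b' = 1 := fun b' h => by
    have h1 := blockDefect_le_of_isInducedBlock hM h
    have h2 := hpos b' h.1
    omega
  have hdg : ∀ b' : Set (IrrCharacter (Cen x)), IsInducedBlock M (Cen x) b' B →
      IsDefectGroup 2 M b' ((Subgroup.zpowers x).subgroupOf (Cen x)) := by
    intro b' h
    rw [isDefectGroup_iff]
    obtain ⟨g, hg⟩ := exists_isDefectClass hMp h.1
    refine ⟨g, hg, ?_, ?_⟩
    · intro w hw
      rw [Subgroup.mem_subgroupOf] at hw
      obtain ⟨j, hj⟩ := hw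
      rw [Subgroup.mem_centralizer_singleton_iff]
      apply Subtype.ext
      show (w : G) * (g : G) = (g : G) * (w : G)
      rw [← hj]
      have hc : Commute (g : G) x := Subgroup.mem_centralizer_singleton_iff.1 g.2
      exact (hc.zpow_right j).symm.eq
    · rw [factorization_centralizer_of_isDefectClass hM h.1 hg, hone b' h, pow_one]
      have hle : Subgroup.zpowers x ≤ Cen x := by
        rw [Subgroup.zpowers_le]; exact (cenSelf x).2
      rw [Nat.card_congr (Subgroup.subgroupOfEquivOfLe hle).toEquiv, Nat.card_zpowers, hx]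
  have hnorm : Cen x = Subgroup.normalizer ((Subgroup.zpowers x : Subgroup G) : Set G) := by
    ext g
    rw [Subgroup.mem_centralizer_singleton_iff, Subgroup.mem_normalizer_iff]
    constructor
    · intro hg w
      have hc : Commute g x := hg
      constructor
      · rintro ⟨j, rfl⟩
        have h1 : g * x ^ j * g⁻¹ = x ^ j := by rw [(hc.zpow_right j).eq, mul_inv_cancel_right]
        rw [h1]; exact ⟨j, rfl⟩
      · rintro ⟨j, hj⟩
        have hj' : x ^ j = g * w * g⁻¹ := hj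
        refine ⟨j, ?_⟩
        show x ^ j = w
        have h1 : w = g⁻¹ * x ^ j * g := by rw [hj']; group
        rw [h1, mul_assoc, ← (hc.zpow_right j).eq, inv_mul_cancel_left]
    · intro hg
      obtain ⟨j, hj⟩ := (hg x).1 (Subgroup.mem_zpowers x)
      have hj' : x ^ j = g * x * g⁻¹ := hj
      rw [← zpow_mod_orderOf, hx] at hj'
      rcases Int.emod_two_eq_zero_or_one j with h0 | h0
      · exfalso
        norm_num [h0] at hj'
        apply hx1
        have : g * x * g⁻¹ = 1 := hj'.symm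
        have h2 : x = g⁻¹ * (g * x * g⁻¹) * g := by group
        rw [h2, this]; group
      · norm_num [h0] at hj'
        calc g * x = (g * x * g⁻¹) * g := by group
          _ = x * g := by rw [← hj']
  have hDp : IsPGroup 2 (Subgroup.zpowers x) := by
    apply IsPGroup.of_card (n := 1)
    rw [Nat.card_zpowers, hx, pow_one]
  have hind_eq : indSet M x B = b := by
    ext ψ
    constructor
    · intro hψ
      have h1 := unique_of_eq_normalizer hM (Subgroup.zpowers x) hDp hB hBD (Cen x) hnorm _ _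
        (hdg _ hψ) hψ (hdg _ hb) hb
      rw [← h1]; exact mem_blockOf_self hMp ψ
    · intro hψ
      show IsInducedBlock M _ _ B
      rw [← IsPBlock.eq_blockOf hMp hb.1 hψ]; exact hb
  obtain ⟨ψ₁, ψ₂, hψne, hbeq⟩ := exists_pair_of_defect_one hM hb.1 (hone b hb)
  obtain ⟨θ', hθ'ne, hbeq'⟩ : ∃ θ' : IrrCharacter (Cen x), θ ≠ θ' ∧ b = {θ, θ'} := by
    rw [hbeq] at hθ
    rcases hθ with h | h
    · exact ⟨ψ₂, by rw [h]; exact hψne, by rw [hbeq, h]⟩
    · have h' : θ = ψ₂ := h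
      exact ⟨ψ₁, by rw [h']; exact hψne.symm, by rw [hbeq, h', Set.pair_comm]⟩
  have hθx' : (θ : Cen x → ℂ) (cenSelf x) = (θ : Cen x → ℂ) 1 := hθx (cenSelf x) rfl
  have horthC : ∀ y : Cen x, ¬ 2 ∣ orderOf y →
      (θ : Cen x → ℂ) y * conj ((θ : Cen x → ℂ) (cenSelf x)) +
        (θ' : Cen x → ℂ) y * conj ((θ' : Cen x → ℂ) (cenSelf x)) = 0 := by
    intro y hy
    have h1 := sum_block_mul_conj_eq_zero hM hb.1 (g := y) (h := cenSelf x) (x := 1)
      (y := cenSelf x) ⟨y, one_mul y, Commute.one_left y, ⟨0, by simp⟩, hy⟩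
      (isPPart_self' ⟨1, by rw [hxCord, pow_one]⟩) (by
        intro hc
        rw [isConj_one_right] at hc
        exact hx1 (congrArg Subtype.val hc))
    rw [hbeq', finsum_mem_pair hθ'ne] at h1
    exact h1
  -- degrees
  have hn := irr_one_eq θ
  have hn' := irr_one_eq θ'
  have hnpos := irr_charDegree_pos θ
  have hn'pos := irr_charDegree_pos θ'
  set n := charDegree (θ : Cen x → ℂ) with hndef
  set n' := charDegree (θ' : Cen x → ℂ) with hn'def
  have hn0 : (n : ℂ) ≠ 0 := by exact_mod_cast hnpos.ne'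
  have hn'0 : (n' : ℂ) ≠ 0 := by exact_mod_cast hn'pos.ne'
  have hθ'x : (θ' : Cen x → ℂ) (cenSelf x) = -(n' : ℂ) ∧ n' = n := by
    have h1 := horthC 1 not_dvd_orderOf_one'
    rw [hθx', hn, hn', Complex.conj_natCast] at h1
    rcases mul_self_eq_one_iff.1 (hlam θ') with h2 | h2
    · exfalso
      rw [hn', div_eq_iff hn'0, one_mul] at h2
      rw [h2, Complex.conj_natCast] at h1
      have h3 : n * n + n' * n' = 0 := by exact_mod_cast h1
      nlinarith
    · rw [hn', div_eq_iff hn'0] at h2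
      have h2' : (θ' : Cen x → ℂ) (cenSelf x) = -(n' : ℂ) := by rw [h2]; ring
      refine ⟨h2', ?_⟩
      rw [h2', map_neg, Complex.conj_natCast] at h1
      have h3 : (n : ℤ) * n + n' * -n' = 0 := by exact_mod_cast h1
      have h4 : (n' : ℤ) = n := by nlinarith
      exact_mod_cast h4
  obtain ⟨hθ'x, hnn⟩ := hθ'x
  have hθ'y : ∀ y : Cen x, ¬ 2 ∣ orderOf y → (θ' : Cen x → ℂ) y = (θ : Cen x → ℂ) y := by
    intro y hy
    have h1 := horthC y hy
    rw [hθx', hn, hθ'x, hnn, map_neg, Complex.conj_natCast] at h1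
    have h2 : ((θ : Cen x → ℂ) y - (θ' : Cen x → ℂ) y) * (n : ℂ) = 0 := by
      rw [← h1]; ring
    rcases mul_eq_zero.1 h2 with h3 | h3
    · exact (sub_eq_zero.1 h3).symm
    · exact absurd h3 hn0
  have hval : ∀ χ ∈ B, ∃ d : ℤ, ∀ y : Cen x, ¬ 2 ∣ orderOf y →
      (χ : G → ℂ) (x * (y : G)) = (d : ℂ) * (θ : Cen x → ℂ) y := by
    intro χ hχ
    have hres := Cfsg.Agent.Lib.Helper74.IsCharacter.restrict
      (Cfsg.Agent.Lib.Helper74.IrrCharacter.isCharacter χ) (Cen x)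
    obtain ⟨m, hm⟩ := Cfsg.Agent.Lib.Helper74.IsCharacter.classInner_irr_nat hres θ
    obtain ⟨m', hm'⟩ := Cfsg.Agent.Lib.Helper74.IsCharacter.classInner_irr_nat hres θ'
    have hm2 : classInner (fun c : Cen x => (χ : G → ℂ) (c : G)) (θ : Cen x → ℂ) = (m : ℂ) := hm
    have hm2' : classInner (fun c : Cen x => (χ : G → ℂ) (c : G)) (θ' : Cen x → ℂ) = (m' : ℂ) :=
      hm'
    refine ⟨(m : ℤ) - m', fun y hy => ?_⟩
    rw [apply_eq_blockPart_indSet hM x hxp hB hχ y hy, hind_eq, blockPart_def, hbeq',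
      finsum_mem_pair hθ'ne, classInner_tw, classInner_tw, hm2, hm2', hθ'y y hy, hθx', hθ'x, hn,
      hn', div_self hn0, neg_div, div_self hn'0]
    push_cast
    ring
  have hmem1 : χ₁ ∈ B := by rw [hBeq]; simp
  have hmem2 : χ₂ ∈ B := by rw [hBeq]; simp
  obtain ⟨d₁, hd₁⟩ := hval χ₁ hmem1
  obtain ⟨d₂, hd₂⟩ := hval χ₂ hmem2
  have hx1v : (χ₁ : G → ℂ) x = (d₁ : ℂ) * (n : ℂ) := by
    have := hd₁ 1 not_dvd_orderOf_one'
    simpa [hn] using this
  have hx2v : (χ₂ : G → ℂ) x = (d₂ : ℂ) * (n : ℂ) := by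
    have := hd₂ 1 not_dvd_orderOf_one'
    simpa [hn] using this
  have hsq : d₁ * d₁ + d₂ * d₂ = 2 := by
    have hsum := sum_block_pElement hM hB x hxp
    rw [hind_eq] at hsum
    rw [hBeq, finsum_mem_pair hne, hbeq', finsum_mem_pair hθ'ne, hx1v, hx2v, ← hndef, ← hn'def,
      hnn] at hsum
    simp only [map_mul, Complex.conj_natCast, map_intCast] at hsum
    have h1 : ((d₁ : ℂ) * d₁ + d₂ * d₂ - 2) * ((n : ℂ) * n) = 0 := by
      linear_combination hsum
    rcases mul_eq_zero.1 h1 with h2 | h2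
    · have h3 : (d₁ : ℂ) * d₁ + d₂ * d₂ = 2 := by linear_combination h2
      exact_mod_cast h3
    · exact absurd h2 (mul_ne_zero hn0 hn0)
  have horthG : ∀ g : G, ¬ 2 ∣ orderOf g →
      (χ₁ : G → ℂ) g * (d₁ : ℂ) + (χ₂ : G → ℂ) g * (d₂ : ℂ) = 0 := by
    intro g hg
    have h1 := sum_block_mul_conj_eq_zero hM hB (g := g) (h := x) (x := 1)
      (y := x) ⟨g, one_mul g, Commute.one_left g, ⟨0, by simp⟩, hg⟩
      (isPPart_self' hxp) (by
        intro hc
        rw [isConj_one_right] at hc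
        exact hx1 hc)
    rw [hBeq, finsum_mem_pair hne, hx1v, hx2v] at h1
    simp only [map_mul, Complex.conj_natCast, map_intCast] at h1
    have h2 : ((χ₁ : G → ℂ) g * (d₁ : ℂ) + (χ₂ : G → ℂ) g * (d₂ : ℂ)) * (n : ℂ) = 0 := by
      linear_combination h1
    rcases mul_eq_zero.1 h2 with h3 | h3
    · exact h3
    · exact absurd h3 hn0
  have hdeg : (charDegree (χ₁ : G → ℂ) : ℤ) * d₁ + (charDegree (χ₂ : G → ℂ) : ℤ) * d₂ = 0 := by
    have h1 := horthG 1 not_dvd_orderOf_one'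
    rw [irr_one_eq, irr_one_eq] at h1
    exact_mod_cast h1
  have hN1 : (0 : ℤ) < charDegree (χ₁ : G → ℂ) := by exact_mod_cast irr_charDegree_pos χ₁
  have hN2 : (0 : ℤ) < charDegree (χ₂ : G → ℂ) := by exact_mod_cast irr_charDegree_pos χ₂
  have hb1 : -1 ≤ d₁ ∧ d₁ ≤ 1 := by constructor <;> nlinarith
  have hb2 : -1 ≤ d₂ ∧ d₂ ≤ 1 := by constructor <;> nlinarith
  have hcases : (d₁ = 1 ∧ d₂ = -1) ∨ (d₁ = -1 ∧ d₂ = 1) := by
    obtain ⟨h1, h2⟩ := hb1
    obtain ⟨h3, h4⟩ := hb2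
    interval_cases d₁ <;> interval_cases d₂ <;> first | (exfalso; omega) | simp
  have hreg : ∀ g : G, ¬ 2 ∣ orderOf g → (χ₁ : G → ℂ) g = (χ₂ : G → ℂ) g := by
    intro g hg
    have h1 := horthG g hg
    rcases hcases with ⟨h2, h3⟩ | ⟨h2, h3⟩
    · rw [h2, h3] at h1
      push_cast at h1
      linear_combination h1
    · rw [h2, h3] at h1
      push_cast at h1
      linear_combination -h1
  refine ⟨?_, ?_, χ₁, hmem1, χ₂, hmem2, hne, d₁, d₂, ?_, ?_, ?_, fun y hy => ⟨hd₁ y hy, hd₂ y hy⟩⟩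
  · rw [hBeq, Nat.card_coe_set_eq, Set.ncard_pair hne]
  · intro χ hχ ψ hψ g hg
    rw [hBeq] at hχ hψ
    rcases hχ with rfl | hχ <;> rcases hψ with rfl | hψ
    · rfl
    · rw [Set.mem_singleton_iff.1 hψ]; exact hreg g hg
    · rw [Set.mem_singleton_iff.1 hχ]; exact (hreg g hg).symm
    · rw [Set.mem_singleton_iff.1 hχ, Set.mem_singleton_iff.1 hψ]
  · rcases hcases with ⟨h2, h3⟩ | ⟨h2, h3⟩ <;> simp [h2]
  · rcases hcases with ⟨h2, h3⟩ | ⟨h2, h3⟩ <;> simp [h3]
  · rcases hcases with ⟨h2, h3⟩ | ⟨h2, h3⟩ <;> simp [h2, h3]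

end Cfsg.Agent.S4513
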