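import Cfsg.Statements.S4636

set_option autoImplicit false
open Cfsg
open scoped Pointwise

namespace Cfsg.Agent.S4636

theorem mem_Z_of_pow {G : Type*} [Group G] [Finite G] (p : ℕ) [Fact p.Prime] (P : Subgroup G)
    (hcyc : IsCyclic P) (Z : Subgroup G) (hZ : Z ≤ P) (hZcard : Nat.card Z = p)
    (x : G) (hx : x ∈ P) (hxp : x ^ p = 1) : x ∈ Z := by
  classical
  have : Fintype P := Fintype.ofFinite P
  have hp : 0 < p := (Fact.out : p.Prime).pos
  have h1 := IsCyclic.card_pow_eq_one_le (α := P) hp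
  let S : Finset P := Finset.univ.filter (fun a : P => (a : G) ∈ Z)
  have hS : S ⊆ Finset.univ.filter (fun a : P => a ^ p = 1) := by
    intro a ha
    simp only [S, Finset.mem_filter, Finset.mem_univ, true_and] at ha ⊢
    have : (⟨(a : G), ha⟩ : Z) ^ p = 1 := by
      rw [← hZcard]; exact pow_card_eq_one'
    apply Subtype.ext
    have h2 := congrArg (Subtype.val) this
    simpa using h2
  have hScard : S.card = p := by
    rw [← hZcard]
    have : Nat.card Z = Nat.card (Z.subgroupOf P) := by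
      exact (Nat.card_congr (Subgroup.subgroupOfEquivOfLe hZ).toEquiv).symm
    rw [this, Nat.card_eq_fintype_card]
    rw [Fintype.card_subtype]
    congr 1
  have hEq : S = Finset.univ.filter (fun a : P => a ^ p = 1) := by
    apply Finset.eq_of_subset_of_card_le hS
    rw [hScard]
    convert h1
  have : (⟨x, hx⟩ : P) ∈ S := by
    rw [hEq]
    simp only [Finset.mem_filter, Finset.mem_univ, true_and]
    apply Subtype.ext
    simpa using hxp
  simpa [S] using this

theorem mem_normalizer_of_conj_mem {G : Type*} [Group G] [Finite G] (Z : Subgroup G) (w : G)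
    (h : ∀ z ∈ Z, w * z * w⁻¹ ∈ Z) : w ∈ Subgroup.normalizer (Z : Set G) := by
  rw [Subgroup.mem_normalizer_iff_map_conj_eq]
  apply Subgroup.eq_of_le_of_card_ge
  · rintro _ ⟨z, hz, rfl⟩
    exact h z hz
  · apply le_of_eq
    exact Nat.card_congr (Z.equivMapOfInjective _ (MulAut.conj w).injective).toEquiv

theorem key {G : Type*} [Group G] [Finite G] (p : ℕ) [Fact p.Prime] (P : Subgroup G)
    (hP : IsPGroup p P) (hcyc : IsCyclic P) (Z : Subgroup G) (hZ : Z ≤ P) (hZcard : Nat.card Z = p)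
    (w y : G) (hy : y ∈ P) (hy1 : y ≠ 1) (hwy : w * y * w⁻¹ ∈ P) :
    w ∈ Subgroup.normalizer (Z : Set G) := by
  have hp : p.Prime := Fact.out
  obtain ⟨k, hk⟩ := hP ⟨y, hy⟩
  have hk' : y ^ (p ^ k) = 1 := by
    have := congrArg Subtype.val hk
    simpa using this
  obtain ⟨j, hj⟩ := (Nat.dvd_prime_pow hp).1 (orderOf_dvd_of_pow_eq_one hk')
  obtain ⟨_, hj⟩ := hj
  have hj0 : j ≠ 0 := by
    rintro rfl
    simp at hj
    exact hy1 hj
  obtain ⟨i, rfl⟩ := Nat.exists_eq_succ_of_ne_zero hj0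
  set z := y ^ (p ^ i) with hz
  have hzp : z ^ p = 1 := by
    rw [hz, ← pow_mul, ← pow_succ, ← hj, pow_orderOf_eq_one]
  have hz1 : z ≠ 1 := by
    apply pow_ne_one_of_lt_orderOf (pow_pos hp.pos i).ne'
    rw [hj]
    exact Nat.pow_lt_pow_right hp.one_lt (Nat.lt_succ_self i)
  have hzP : z ∈ P := P.pow_mem hy _
  have hzZ : z ∈ Z := mem_Z_of_pow p P hcyc Z hZ hZcard z hzP hzp
  have hoz : orderOf z = p := orderOf_eq_prime hzp hz1
  have hZz : Subgroup.zpowers z = Z := by
    apply Subgroup.eq_of_le_of_card_ge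
    · exact Subgroup.zpowers_le_of_mem hzZ
    · rw [Nat.card_zpowers, hoz, hZcard]
  have hwz : w * z * w⁻¹ ∈ Z := by
    apply mem_Z_of_pow p P hcyc Z hZ hZcard
    · rw [hz, ← conj_pow]; exact P.pow_mem hwy _
    · have : (w * z * w⁻¹) ^ p = w * z ^ p * w⁻¹ := conj_pow
      rw [this, hzp]; simp
  apply mem_normalizer_of_conj_mem
  intro h hh
  rw [← hZz] at hh
  obtain ⟨n, rfl⟩ := hh
  simp only
  rw [← conj_zpow]
  exact Z.zpow_mem hwz n

/-- Let P be a nontrivial cyclic p-subgroup of the finite group G and Z its subgroup of order p. For every x outside N_G(Z), P meets its conjugate xPx⁻¹ trivially; consequently N_G(Q) ≤ N_G(Z) for every nontrivial subgroup Q of P. -/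
theorem result {G : Type*} [Group G] [Finite G] (p : ℕ) [Fact p.Prime] (P : Subgroup G) (hP : IsPGroup p P) (hP1 : P ≠ ⊥) (hcyc : IsCyclic P) (Z : Subgroup G) (hZ : Z ≤ P) (hZcard : Nat.card Z = p) : (∀ x : G, x ∉ Subgroup.normalizer (Z : Set G) → P ⊓ MulAut.conj x • P = ⊥) ∧ ∀ Q : Subgroup G, Q ≤ P → Q ≠ ⊥ → Subgroup.normalizer (Q : Set G) ≤ Subgroup.normalizer (Z : Set G) := by
  constructor
  · intro x hx
    by_contra hne
    obtain ⟨⟨y, hy⟩, hy1'⟩ := Subgroup.ne_bot_iff_exists_ne_one.1 hne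
    have hy1 : y ≠ 1 := fun h => hy1' (Subtype.ext h)
    obtain ⟨hyP, hyx⟩ := Subgroup.mem_inf.1 hy
    rw [Subgroup.mem_pointwise_smul_iff_inv_smul_mem] at hyx
    have hyx' : x⁻¹ * y * x⁻¹⁻¹ ∈ P := by
      simpa [MulAut.smul_def] using hyx
    have := key p P hP hcyc Z hZ hZcard x⁻¹ y hyP hy1 hyx'
    exact hx (by simpa using (Subgroup.normalizer (Z : Set G)).inv_mem this)
  · intro Q hQ hQ1 g hg
    obtain ⟨⟨y, hy⟩, hy1'⟩ := Subgroup.ne_bot_iff_exists_ne_one.1 hQ1
    have hy1 : y ≠ 1 := fun h => hy1' (Subtype.ext h)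
    have : g * y * g⁻¹ ∈ Q := (Subgroup.mem_normalizer_iff.1 hg y).1 hy
    exact key p P hP hcyc Z hZ hZcard g y (hQ hy) hy1 (hQ this)

end Cfsg.Agent.S4636
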