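import Cfsg.Statements.S4638
import Cfsg.Agent.Lib.Helper35.KleinF
import Cfsg.Agent.Lib.Helper35.KleinG

set_option autoImplicit false
open Cfsg

namespace Cfsg.Agent.S4638

open Cfsg.Agent.Lib.Helper35 Cfsg.Agent.Lib.Helper78

/-- Let B be a block of the finite group G relative to a maximal ideal M of the algebraic integers containing 2, with a Klein four defect group P, and let c be its Brauer correspondent: the block of N_G(P) with defect group P that induces B. Then there is a perfect isometry from c onto B. -/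
theorem result {G : Type*} [Group G] [Finite G] (M : Ideal Cfsg.AlgInt) (hM : Cfsg.IsPModular 2 M) (B : Set (Cfsg.IrrCharacter G)) (hB : Cfsg.IsPBlock M B) (P : Subgroup G) (hPD : Cfsg.IsDefectGroup 2 M B P) (hV : IsKleinFour P) (c : Set (Cfsg.IrrCharacter (Subgroup.normalizer (P : Set G)))) (hcD : Cfsg.IsDefectGroup 2 M c (P.subgroupOf (Subgroup.normalizer (P : Set G)))) (hc : Cfsg.IsInducedBlock M (Subgroup.normalizer (P : Set G)) c B) : ∃ (I : Cfsg.IrrCharacter (Subgroup.normalizer (P : Set G)) → Cfsg.IrrCharacter G) (ε : Cfsg.IrrCharacter (Subgroup.normalizer (P : Set G)) → ℤ), Cfsg.IsPerfectIsometry 2 M c B I ε := by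
  classical
  cases nonempty_fintype G
  have hMp := pmod_isPrime hM
  have hPN : P ≤ Subgroup.normalizer (P : Set G) := Subgroup.le_normalizer
  have hV' : IsKleinFour (P.subgroupOf (Subgroup.normalizer (P : Set G))) :=
    isKleinFour_of_mulEquiv (Subgroup.subgroupOfEquivOfLe hPN).symm hV
  have hG := kdata_of_klein hM hB hPD hV
  have hH := kdata_of_klein hM hc.1 hcD hV'
  have hdB : blockDefect 2 B = 2 := by
    have h2 := card_of_isDefectGroup hM hB hPD
    rw [hV.card_four] at h2
    exact (Nat.pow_right_injective (le_refl 2) (show 2 ^ 2 = 2 ^ blockDefect 2 B by omega)).symm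
  have hdc : blockDefect 2 c = 2 := by
    have h2 := card_of_isDefectGroup hM hc.1 hcD
    rw [hV'.card_four] at h2
    exact (Nat.pow_right_injective (le_refl 2) (show 2 ^ 2 = 2 ^ blockDefect 2 c by omega)).symm
  obtain ⟨hl, h13⟩ := blockRank_eq_of_correspondent hM hB hPD hV hcD hc
  have hcardB := card_eq_four_of_defect_two hM hB hdB
  have hcardc := card_eq_four_of_defect_two hM hc.1 hdc
  rcases h13 with h | h
  · exact exists_perfect_of_rank_one hM hG hH hB hc.1 hdB hdc hcardB hcardc h (hl.trans h)
  · obtain ⟨wB, hwB⟩ := exists_isCol hM hB hdB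
    obtain ⟨wc, hwc⟩ := exists_isCol hM hc.1 hdc
    exact exists_perfect_of_rank_three hM hG hH (IsPBlock.nonempty hMp hB)
      (IsPBlock.nonempty hMp hc.1) hcardB hcardc h (hl.trans h) hwB hwc

end Cfsg.Agent.S4638
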