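import Cfsg.Statements.S4642
import Mathlib
import Cfsg.Agent.Lib.Helper82.FongLocal

set_option autoImplicit false
open Cfsg

namespace Cfsg.Agent.S4642

/-- Let G be a finite group, p a prime, M a maximal ideal of the algebraic integers containing p, K the largest normal subgroup of G of order prime to p, and L the preimage in G of the largest normal p-subgroup of G/K. Let Q be a Sylow p-subgroup of L and suppose C_G(Q) ≤ L. Let θ be an irreducible character of K invariant under conjugation by every element of G, and let B be the set of irreducible characters of G whose restriction to K contains θ. Then B is a block of G, every Sylow p-subgroup of G is a defect group of B, and B is of principal type: for every p-subgroup R of G exactly one block of C_G(R) induces B. -/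
theorem result {G : Type*} [Group G] [Fintype G] (p : ℕ) [Fact p.Prime] (M : Ideal Cfsg.AlgInt) (hM : Cfsg.IsPModular p M) (K : Subgroup G) (hK : K = Cfsg.pPrimeCore p G) [Fintype K] (L : Subgroup G) (hL : L = Cfsg.pPrimePCore p G) (Q : Subgroup G) (hQL : Q ≤ L) (hQp : IsPGroup p Q) (hQS : ¬ p ∣ Q.relIndex L) (hCQ : Subgroup.centralizer (Q : Set G) ≤ L) (θ : Cfsg.IrrCharacter K) (hθ : ∀ g : G, Cfsg.IsConjCharOf K g (θ : K → ℂ) (θ : K → ℂ)) (B : Set (Cfsg.IrrCharacter G)) (hBdef : ∀ χ : Cfsg.IrrCharacter G, χ ∈ B ↔ Cfsg.classInner (fun k : K => (χ : G → ℂ) k) (θ : K → ℂ) ≠ 0) : Cfsg.IsPBlock M B ∧ (∀ S : Sylow p G, Cfsg.IsDefectGroup p M B S) ∧ ∀ R : Subgroup G, IsPGroup p R → ∃! f : Set (Cfsg.IrrCharacter (Subgroup.centralizer (R : Set G))), Cfsg.IsInducedBlock M (Subgroup.centralizer (R : Set G)) f B := by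
  classical
  subst hK
  subst hL
  have hKn : (Cfsg.pPrimeCore p G).Normal := inferInstance
  have hKp : ¬ p ∣ Nat.card (Cfsg.pPrimeCore p G) := by
    have := Cfsg.Agent.Lib.Lead.card_pPrimeCore_coprime (G := G) p
    exact fun h => (Nat.Prime.coprime_iff_not_dvd Fact.out).mp this.symm h
  have hcen := Cfsg.Agent.Lib.Helper82.centralizer_pCore_quot_le_of_sylow (p := p)
    (Cfsg.pPrimeCore p G) Q hKp hQp hQL hCQ
  have hinv : ∀ g : G, Cfsg.Agent.Lib.Helper35.cjIrr (Cfsg.pPrimeCore p G) g θ = θ := by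
    intro g
    apply Subtype.ext
    funext n
    exact hθ g n ⟨g * n * g⁻¹, hKn.conj_mem n n.2 g⟩ rfl
  have hBeq : B = Cfsg.Agent.Lib.Helper35.overSet (Cfsg.pPrimeCore p G) {θ} := by
    ext χ
    rw [hBdef]
    constructor
    · intro h
      exact ⟨θ, rfl, h⟩
    · rintro ⟨θ', hθ', h⟩
      rw [Set.mem_singleton_iff] at hθ'
      rw [← hθ']; exact h
  obtain ⟨hB, hd⟩ := Cfsg.Agent.Lib.Helper82.fong_block_quot (Cfsg.pPrimeCore p G) hM hKp hcen θ hinv
  rw [hBeq]
  refine ⟨hB, ?_, ?_⟩
  · intro S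
    exact Cfsg.Agent.Lib.Helper82.isDefectGroup_of_full_defect hM hB hd S.card_eq_multiplicity
  · intro R hR
    exact Cfsg.Agent.Lib.Helper82.existsUnique_isInducedBlock_overSet hM (Cfsg.pPrimeCore p G) hKp
      hcen θ hinv R hR _ rfl

end Cfsg.Agent.S4642
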