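import Cfsg.Statements.S4645
import Cfsg.Agent.Lib.Helper77.CycLocal

set_option autoImplicit false
open Cfsg Cfsg.Agent.Lib.Helper77
open Cfsg

namespace Cfsg.Agent.S4645

/-- Let B be a block of the finite group G relative to a maximal ideal M of the algebraic integers containing the prime p, with a nontrivial cyclic defect group P; let c be a block of C_G(P) inducing B and T the stabilizer of c in N_G(P). Let Q be a nontrivial subgroup of P (so C_G(P) ≤ C_G(Q)), f the block of C_G(Q) induced by c inside C_G(Q), and T' the stabilizer of f in N_G(Q). Then T' = T·C_G(Q), the index of C_G(Q) in T' equals the index of C_G(P) in T, f has p-regular rank 1, and f is a nilpotent block of C_G(Q). -/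
theorem result {G : Type*} [Group G] [Finite G] (p : ℕ) [Fact p.Prime] (M : Ideal Cfsg.AlgInt) (hM : Cfsg.IsPModular p M) (B : Set (Cfsg.IrrCharacter G)) (hB : Cfsg.IsPBlock M B) (P : Subgroup G) (hPD : Cfsg.IsDefectGroup p M B P) (hP1 : P ≠ ⊥) (hcyc : IsCyclic P) (c : Set (Cfsg.IrrCharacter (Subgroup.centralizer (P : Set G)))) (hc : Cfsg.IsInducedBlock M (Subgroup.centralizer (P : Set G)) c B) (T : Subgroup G) (hT : ∀ g : G, g ∈ T ↔ (g ∈ Subgroup.normalizer (P : Set G) ∧ Cfsg.StabilizesBlock (Subgroup.centralizer (P : Set G)) c g)) (Q : Subgroup G) (hQP : Q ≤ P) (hQ1 : Q ≠ ⊥) (f : Set (Cfsg.IrrCharacter (Subgroup.centralizer (Q : Set G)))) (hf : Cfsg.IsInducedBlockIn M (Subgroup.centralizer (Q : Set G)) (Subgroup.centralizer (P : Set G)) c f) (T' : Subgroup G) (hT' : ∀ g : G, g ∈ T' ↔ (g ∈ Subgroup.normalizer (Q : Set G) ∧ Cfsg.StabilizesBlock (Subgroup.centralizer (Q : Set G)) f g)) : T' = T ⊔ Subgroup.centralizer (Q : Set G) ∧ (Subgroup.centralizer (Q : Set G)).relIndex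 T' = (Subgroup.centralizer (P : Set G)).relIndex T ∧ Cfsg.blockRank p f = 1 ∧ Cfsg.IsNilpotentBlock p M f := by
  classical
  haveI : M.IsPrime := Cfsg.Agent.Lib.Helper78.pmod_isPrime hM
  haveI := Fintype.ofFinite G
  haveI := Fintype.ofFinite (Cen Q)
  have := resF_charP hM
  have hdec := hasBlockDecomp (G := G) M
  have hab := le_cen_of_isCyclic hcyc
  obtain ⟨hmax, hblk⟩ := isAMax_of_induced M hM hB hPD hab hc
  have hPp : IsPGroup p P := hmax.1.1
  have hTeq : T = stabP (toA M ⟨P, c⟩) := by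
    ext g; rw [hT, mem_stabP_toA_iff M hc.1]
  have hT'eq : T' = stabP (toA M ⟨Q, f⟩) := by
    ext g; rw [hT', mem_stabP_toA_iff M hf.2.1]
  have hn := aNormal_of_inducedIn M hM hPp hab hQP hf
  have hle : ALE p (toA M ⟨Q, f⟩) (toA M ⟨P, c⟩) := Relation.ReflTransGen.single hn
  have hfree : ∀ g ∈ stabP (toA M ⟨P, c⟩), ∀ x ∈ (toA M ⟨P, c⟩).1, x ≠ 1 → g * x * g⁻¹ = x →
      g ∈ Cen (toA M ⟨P, c⟩).1 := fun g hg x hx hx1 hfix =>
    mem_cen_of_fix_cyclic M hM hmax hcyc hg hx hx1 hfix
  have hQf : IsBrauerPair p M Q f := ⟨hPp.to_le hQP, hf.2.1⟩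
  have hnil := isANil_of_free M hM hB hmax hblk hab hfree hQ1 hQf hle
  have hxb := (isABlockOf_iff_of_le hdec hle).2 hblk
  have hTN : T ≤ Subgroup.normalizer (Q : Set G) := by
    rw [hTeq]
    exact (stabP_le_normalizer _).trans (normalizer_le_normalizer_of_cyclic hcyc hQP)
  have h1 : T' = T ⊔ Subgroup.centralizer (Q : Set G) := by
    apply le_antisymm
    · intro t ht
      rw [hT'eq] at ht
      obtain ⟨u, hu, c', hc', rfl⟩ := stab_factor_of_abelian M hM hB hmax hblk hle hab ht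
      exact Subgroup.mul_mem_sup (by rw [hTeq]; exact hu) hc'
    · rw [hT'eq]
      refine sup_le ?_ (cen_le_stabP hn.1)
      refine le_trans ?_ (stabP_inf_normalizer_le hdec hmax.1 hle)
      exact le_inf hTeq.le hTN
  refine ⟨h1, ?_, ?_, (isNilpotentBlock_iff M hM f).2 ⟨hf.2.1, hnil⟩⟩
  · rw [h1, relIndex_sup_of_le_normalizer (hTN.trans (normalizer_le_normalizer_centralizer Q))]
    unfold Subgroup.relIndex
    congr 1
    ext t
    rw [Subgroup.mem_subgroupOf, Subgroup.mem_subgroupOf]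
    constructor
    · intro ht
      obtain ⟨q, hq⟩ := Subgroup.ne_bot_iff_exists_ne_one.1 hQ1
      have hq1 : (q : G) ≠ 1 := fun h => hq (Subtype.ext h)
      have hcomm := (Subgroup.mem_centralizer_iff.1 ht) q q.2
      refine hfree t (by rw [← hTeq]; exact t.2) q (hQP q.2) hq1 ?_
      rw [← hcomm]; group
    · intro ht
      exact cen_anti hQP ht
  · exact (nil_abel_aux M hM _ (Cen Q) f rfl hf.2.1 hnil
      (abel_cen M hM (abel_of_isDefectGroup M hM hB hPD hab) hQf hxb)).1

end Cfsg.Agent.S4645
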