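import Cfsg.Statements.S4647
import Cfsg.Agent.Lib.Helper74.MinDim
import Cfsg.Agent.Lib.Helper69.MinDimM4
import Cfsg.Agent.Lib.Helper77.Defect
import Cfsg.Agent.Lib.Helper77.Dict5

set_option autoImplicit false
open Cfsg

namespace Cfsg.Agent.S4647

open Cfsg.Agent.Lib.Helper77 Cfsg.Agent.Lib.Helper78

/-- Let B be a block of the finite group G relative to a maximal ideal M of the algebraic integers containing the prime p, p^a the p-part of the order of G and p^d the order of a defect group D of B. If Σ_{χ ∈ B} χ(1)² = p^(2a−d) (the least possible value), then B is nilpotent. -/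
theorem result {G : Type*} [Group G] [Finite G] (p : ℕ) [Fact p.Prime] (M : Ideal Cfsg.AlgInt) (hM : Cfsg.IsPModular p M) (B : Set (Cfsg.IrrCharacter G)) (hB : Cfsg.IsPBlock M B) (D : Subgroup G) (hD : Cfsg.IsDefectGroup p M B D) (a d : ℕ) (ha : (Nat.card G).factorization p = a) (hd : Nat.card D = p ^ d) (hmin : ∑ᶠ χ ∈ B, Cfsg.charDegree (χ : G → ℂ) ^ 2 = p ^ (2 * a - d)) : Cfsg.IsNilpotentBlock p M B := by
  classical
  cases nonempty_fintype G
  have hMp := pmod_isPrime hM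
  have hp : p.Prime := Fact.out
  have hchar := resF_charP hM
  refine ⟨hB, fun Q e hQe x hxN _ hreg => ?_⟩
  have hQp : IsPGroup p Q := hQe.1.1
  obtain ⟨S, hQS⟩ := hQp.exists_le_sylow
  have hDp : IsPGroup p D := IsPGroup.of_card hd
  obtain ⟨S', hDS'⟩ := hDp.exists_le_sylow
  obtain ⟨g, hg⟩ := MulAction.exists_smul_eq G S' S
  -- the conjugate of `D` inside `S`
  have hD₁S : Cfsg.Agent.Lib.Helper16.cj g D ≤ (S : Subgroup G) := by
    intro y hy
    rw [Cfsg.Agent.Lib.Helper16.mem_cj] at hy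
    have h1 : g⁻¹ * y * g ∈ (S' : Subgroup G) := hDS' hy
    rw [← hg, Sylow.coe_subgroup_smul, Subgroup.mem_pointwise_smul_iff_inv_smul_mem]
    simpa [MulAut.smul_def, mul_assoc] using h1
  have hD₁n : Nat.card (Cfsg.Agent.Lib.Helper16.cj g D) = p ^ d := by rw [Cfsg.Agent.Lib.Helper16.card_cj, hd]
  have hD₁ : trunc (Cen (Cfsg.Agent.Lib.Helper16.cj g D)) (ebar M B) ≠ 0 :=
    (trunc_ebar_ne_zero_iff M hM hB hD (Cfsg.Agent.Lib.Helper16.isPGroup_cj hDp g)).2 ⟨g, le_refl _⟩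
  have hQ : trunc (Cen Q) (ebar M B) ≠ 0 := by
    have h1 := ((isBrauerPairOf_iff M hM B Q e).1 hQe).2.2
    have h2 : trunc (Cen Q) (ebar M B) * idem M (Cen Q) e = idem M (Cen Q) e := h1.2
    intro h0
    rw [h0, zero_mul] at h2
    exact (isPrimIdem_idem M hQe.1.2).ne_zero h2.symm
  have hcardS : Nat.card (S : Subgroup G) = p ^ a := by rw [S.card_eq_multiplicity, ha]
  have hda : d ≤ a := by
    have h1 : p ^ d ∣ p ^ a := by
      rw [← hD₁n, ← hcardS]
      exact Subgroup.card_dvd_of_le hD₁S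
    exact (Nat.pow_dvd_pow_iff_le_right hp.one_lt).1 h1
  have hdim : Cfsg.Agent.Lib.Helper74.BlockDim.rk (ebar M B) * p ^ d
      ≤ Nat.card (S : Subgroup G) ^ 2 := by
    rw [Cfsg.Agent.Lib.Helper74.BlockDim.rk_ebar M hB, hmin, hcardS, ← pow_add, ← pow_mul]
    apply le_of_eq
    congr 1
    omega
  have hxQ : ∀ u ∈ Q, x⁻¹ * u * x ∈ Q := by
    intro u hu
    have h1 := (Subgroup.mem_normalizer_iff.1 (Subgroup.inv_mem _ hxN) u).1 hu
    simpa using h1
  obtain ⟨r, hrS, hr⟩ := Cfsg.Agent.Lib.Helper74.MinDim.core (p := p)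
    (fun b => (fixedBy_ebar M B).commute_top b) (ebar_idem M hB) (ebar_ne_zero M hB)
    (S : Subgroup G) S.2 (p ^ d)
    (fun y hy R hR hRy => by
      rw [coeff_ebar_ne_zero_iff M hB] at hy
      obtain ⟨z, hz⟩ := Cfsg.Agent.Lib.Helper16.minmax_a hM hB hD hy R hR hRy
      rw [← hd, ← Cfsg.Agent.Lib.Helper16.card_cj z D]
      exact Nat.card_le_card_of_injective _ (Subgroup.inclusion_injective hz))
    hdim (Cfsg.Agent.Lib.Helper16.cj g D) hD₁S hD₁n hD₁ Q hQS hQ x (fun u hu => hQS (hxQ u hu))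
  obtain ⟨j, hj⟩ := (S.2 ⟨r, hrS⟩)
  exact Cfsg.Agent.Lib.Helper69.MinDim.mem_centralizer_of_conj_eq (p := p) Q x r
    ⟨j, by simpa using congrArg Subtype.val hj⟩ hreg hxQ hr

end Cfsg.Agent.S4647
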