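import Cfsg.Statements.S4650
import Cfsg.Agent.Lib.Helper77.IndIn

set_option autoImplicit false
open Cfsg Cfsg.Agent.Lib.Helper77
open Cfsg

namespace Cfsg.Agent.S4650

/-- Let B be a block of the finite group G relative to a maximal ideal M of the algebraic integers containing the prime p, with a nontrivial commutative defect group P; let c be a block of C_G(P) inducing B and T the stabilizer of c in N_G(P). Then T/C_G(P) acts freely on the non-identity elements of P (an element of T fixing a non-identity element of P under conjugation lies in C_G(P)) if and only if, for every nontrivial subgroup Q of P, the block of C_G(Q) induced by c inside C_G(Q) is a nilpotent block of C_G(Q). -/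
theorem result {G : Type*} [Group G] [Finite G] (p : ℕ) [Fact p.Prime] (M : Ideal Cfsg.AlgInt) (hM : Cfsg.IsPModular p M) (B : Set (Cfsg.IrrCharacter G)) (hB : Cfsg.IsPBlock M B) (P : Subgroup G) (hPD : Cfsg.IsDefectGroup p M B P) (hPab : ∀ x ∈ P, ∀ y ∈ P, x * y = y * x) (hP1 : P ≠ ⊥) (c : Set (Cfsg.IrrCharacter (Subgroup.centralizer (P : Set G)))) (hc : Cfsg.IsInducedBlock M (Subgroup.centralizer (P : Set G)) c B) (T : Subgroup G) (hT : ∀ g : G, g ∈ T ↔ (g ∈ Subgroup.normalizer (P : Set G) ∧ Cfsg.StabilizesBlock (Subgroup.centralizer (P : Set G)) c g)) : (∀ g ∈ T, ∀ x ∈ P, x ≠ 1 → g * x * g⁻¹ = x → g ∈ Subgroup.centralizer (P : Set G)) ↔ ∀ Q : Subgroup G, Q ≤ P → Q ≠ ⊥ → ∀ f : Set (Cfsg.IrrCharacter (Subgroup.centralizer (Q : Set G))), Cfsg.IsInducedBlockIn M (Subgroup.centralizer (Q : Set G)) (Subgroup.centralizer (P : Set G)) c f → Cfsg.IsNilpotentBlock p M f := by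
  classical
  haveI : M.IsPrime := Cfsg.Agent.Lib.Helper78.pmod_isPrime hM
  haveI := Fintype.ofFinite G
  have hab : P ≤ Cen P := by
    intro x hx
    show x ∈ Subgroup.centralizer _
    rw [Subgroup.mem_centralizer_iff]
    intro y hy
    exact hPab y hy x hx
  obtain ⟨hmax, hblk⟩ := isAMax_of_induced M hM hB hPD hab hc
  have hPp : IsPGroup p P := hmax.1.1
  have hTs : ∀ g, g ∈ T ↔ g ∈ stabP (toA M ⟨P, c⟩) := fun g => by
    rw [hT, mem_stabP_toA_iff M hc.1]
  constructor
  · intro hfree Q hQP hQ1 f hf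
    rw [isNilpotentBlock_iff M hM f]
    refine ⟨hf.2.1, ?_⟩
    have hn := aNormal_of_inducedIn M hM hPp hab hQP hf
    exact isANil_of_free M hM hB hmax hblk hab
      (fun g hg x hx hx1 hfix => hfree g ((hTs g).2 hg) x hx hx1 hfix) hQ1
      ⟨hPp.to_le hQP, hf.2.1⟩ (Relation.ReflTransGen.single hn)
  · intro h g hg x hx hx1 hfix
    have hQP : Subgroup.zpowers x ≤ P := by rw [Subgroup.zpowers_le]; exact hx
    have hQ1 : Subgroup.zpowers x ≠ ⊥ := by
      rw [Ne, Subgroup.zpowers_eq_bot]; exact hx1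
    obtain ⟨f, hf⟩ := exists_inducedIn M hM (H := Cen (Subgroup.zpowers x)) hPp hab
      (cen_anti hQP) hc.1
    have hnil := ((isNilpotentBlock_iff M hM f).1 (h _ hQP hQ1 f hf)).2
    have hn := aNormal_of_inducedIn M hM hPp hab hQP hf
    refine mem_cen_of_isANil_local M hM hmax hab hf.2.1 hn hnil ((hTs g).1 hg) ?_
    show g ∈ Subgroup.centralizer _
    rw [Subgroup.mem_centralizer_iff]
    intro v hv
    obtain ⟨m, rfl⟩ := Subgroup.mem_zpowers_iff.1 hv
    have h1 : g * x ^ m * g⁻¹ = x ^ m := by rw [← conj_zpow, hfix]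
    calc x ^ m * g = (g * x ^ m * g⁻¹) * g := by rw [h1]
      _ = g * x ^ m := by group

end Cfsg.Agent.S4650
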