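import Cfsg.Statements.S4651
import Cfsg.Agent.Lib.Helper97.ChainInv
import Cfsg.Agent.Lib.Helper97.ChainBlock
import Cfsg.Agent.S0919

set_option autoImplicit false
open Cfsg

namespace Cfsg.Agent.S4651

/-- An alternating-sum identity over chains of p-subgroups (the character-count form behind the chain reformulation of Alperin's weight conjecture, which holds unconditionally for the difference k − l). Let b be a block of the finite group G relative to a maximal ideal M of the algebraic integers containing the prime p. Consider the nonempty chains s = {Q_0 < Q_1 < ⋯ < Q_m} of nontrivial p-subgroups of G in which every member is normal in the largest member; let N_G(s) be the intersection of the normalizers of the members (the stabilizer of the chain), and let b_s be the set of irreducible characters of N_G(s) lying in blocks of N_G(s) that induce b. Then #G · (k(b) − l(b)) equals the sum over all such chains s of (−1)^m · #N_G(s) · (k(b_s) − l(b_s)), where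 k counts irreducible characters and l is the p-regular rank; equivalently, k(b) − l(b) is the alternating sum of k(b_s) − l(b_s) over representatives of the conjugacy classes of such chains. -/
theorem result {G : Type*} [Group G] [Finite G] (p : ℕ) [Fact p.Prime] (M : Ideal Cfsg.AlgInt) (hM : Cfsg.IsPModular p M) (b : Set (Cfsg.IrrCharacter G)) (hb : Cfsg.IsPBlock M b) : (Nat.card G : ℤ) * ((Nat.card b : ℤ) - (Cfsg.blockRank p b : ℤ)) = ∑ᶠ s ∈ {s : Finset (Subgroup G) | s.Nonempty ∧ (∀ Q ∈ s, ∀ R ∈ s, Q ≤ R ∨ R ≤ Q) ∧ (∀ Q ∈ s, Q ≠ ⊥ ∧ IsPGroup p Q) ∧ ∃ T ∈ s, ∀ Q ∈ s, Q ≤ T ∧ T ≤ Subgroup.normalizer ((Q : Subgroup G) : Set G)}, (-1 : ℤ) ^ (s.card - 1) * (Nat.card (((⨅ Q ∈ s, Subgroup.normalizer ((Q : Subgroup G) : Set G) : Subgroup G))) : ℤ) * ((Nat.card {ψ : Cfsg.IrrCharacter (((⨅ Q ∈ s, Subgroup.normalizer ((Q : Subgroup G) : Set G) : Subgroup G))) | ∃ β : Set (Cfsg.IrrCharacter (((⨅ Q ∈ s, Subgroup.normalizer ((Q : Subgroup G) : Set G) : Subgroup G)))),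 ψ ∈ β ∧ Cfsg.IsInducedBlock M (((⨅ Q ∈ s, Subgroup.normalizer ((Q : Subgroup G) : Set G) : Subgroup G))) β b} : ℤ) - (Cfsg.blockRank p {ψ : Cfsg.IrrCharacter (((⨅ Q ∈ s, Subgroup.normalizer ((Q : Subgroup G) : Set G) : Subgroup G))) | ∃ β : Set (Cfsg.IrrCharacter (((⨅ Q ∈ s, Subgroup.normalizer ((Q : Subgroup G) : Set G) : Subgroup G)))), ψ ∈ β ∧ Cfsg.IsInducedBlock M (((⨅ Q ∈ s, Subgroup.normalizer ((Q : Subgroup G) : Set G) : Subgroup G))) β b} : ℤ)) := by
  classical
  have : Fintype G := Fintype.ofFinite G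
  have hfin : {s : Finset (Subgroup G) | Cfsg.Agent.Lib.Helper97.Chain.NC p s}.Finite :=
    Set.toFinite _
  have hdef : ∀ s : Finset (Subgroup G), Cfsg.Agent.Lib.Helper97.Chain.NC p s →
      ∀ β : Set (IrrCharacter (Cfsg.Agent.Lib.Helper97.Chain.stab s)), IsPBlock M β →
        InducedBlockDefined M (Cfsg.Agent.Lib.Helper97.Chain.stab s) β := by
    intro s hs β hβ
    obtain ⟨-, -, hp, T, hTs, hT⟩ := hs
    apply Cfsg.Agent.S0919.result p M hM T _ (hp T hTs).2 _ _ _ β hβ
    · intro g hg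
      exact Cfsg.Agent.Lib.Helper97.Chain.mem_stab.2 fun Q hQ => (hT Q hQ).2 hg
    · intro g hg
      exact Cfsg.Agent.Lib.Helper97.Chain.mem_stab.2 fun Q hQ =>
        Subgroup.centralizer_le_normalizer _ (Subgroup.centralizer_le (hT Q hQ).1 hg)
    · intro g hg
      exact Cfsg.Agent.Lib.Helper97.Chain.mem_stab.1 hg T hTs
  change _ = ∑ᶠ s ∈ {s : Finset (Subgroup G) | Cfsg.Agent.Lib.Helper97.Chain.NC p s},
    (-1 : ℤ) ^ (s.card - 1) * (Nat.card (Cfsg.Agent.Lib.Helper97.Chain.stab s) : ℤ) *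
      ((Nat.card (Cfsg.Agent.Lib.Helper97.indU M (Cfsg.Agent.Lib.Helper97.Chain.stab s) b) : ℤ)
        - (blockRank p (Cfsg.Agent.Lib.Helper97.indU M
            (Cfsg.Agent.Lib.Helper97.Chain.stab s) b) : ℤ))
  rw [finsum_mem_eq_finite_toFinset_sum _ hfin]
  have h1 : ∀ s ∈ hfin.toFinset,
      (-1 : ℤ) ^ (s.card - 1) * (Nat.card (Cfsg.Agent.Lib.Helper97.Chain.stab s) : ℤ) *
      ((Nat.card (Cfsg.Agent.Lib.Helper97.indU M (Cfsg.Agent.Lib.Helper97.Chain.stab s) b) : ℤ)
        - (blockRank p (Cfsg.Agent.Lib.Helper97.indU M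
            (Cfsg.Agent.Lib.Helper97.Chain.stab s) b) : ℤ))
      = ∑ y : G, if y ≠ 1 ∧ ∃ k : ℕ, orderOf y = p ^ k then
          (if y ∈ Cfsg.Agent.Lib.Helper97.Chain.stab s then
            (-1 : ℤ) ^ (s.card - 1) * Cfsg.Agent.Lib.Helper97.FnZ M p b
              (Subgroup.centralizer ({y} : Set G) ⊓ Cfsg.Agent.Lib.Helper97.Chain.stab s)
            else 0) else 0 := by
    intro s hs
    have hs' : Cfsg.Agent.Lib.Helper97.Chain.NC p s := by simpa using hs
    rw [mul_assoc, Cfsg.Agent.Lib.Helper97.card_mul_sub_indU hM b _ (hdef s hs'), Finset.mul_sum]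
    refine Finset.sum_congr rfl fun y _ => ?_
    by_cases h1 : y ∈ Cfsg.Agent.Lib.Helper97.Chain.stab s
    · by_cases h2 : y ≠ 1 ∧ ∃ k : ℕ, orderOf y = p ^ k
      · rw [if_pos ⟨h1, h2⟩, if_pos h2, if_pos h1]
      · rw [if_neg (fun h => h2 h.2), if_neg h2, mul_zero]
    · rw [if_neg (fun h => h1 h.1), mul_zero]
      split_ifs <;> rfl
  rw [Finset.sum_congr rfl h1, Finset.sum_comm, Cfsg.Agent.Lib.Helper97.card_mul_sub_block hM hb]
  refine Finset.sum_congr rfl fun y _ => ?_
  by_cases hy : y ≠ 1 ∧ ∃ k : ℕ, orderOf y = p ^ k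
  · simp only [if_pos hy]
    rw [← Finset.sum_filter]
    have hyp : IsPGroup p (Subgroup.zpowers y) := by
      obtain ⟨k, hk⟩ := hy.2
      apply IsPGroup.of_card (n := k)
      rw [Nat.card_zpowers, hk]
    refine (Cfsg.Agent.Lib.Helper97.Chain.chain_sum hy.1 hyp _ ?_
      (Cfsg.Agent.Lib.Helper97.FnZ M p b)).symm
    intro s
    simp
  · simp only [if_neg hy]
    simp

end Cfsg.Agent.S4651
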