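import Cfsg.Statements.S4652
import Cfsg.Agent.S0906
import Cfsg.Agent.Lib.Helper77.BlockBasic

set_option autoImplicit false
open Cfsg

namespace Cfsg.Agent.S4652

open Cfsg.Agent.Lib.Helper74 Cfsg.Agent.Lib.Helper78 Cfsg.Agent.Lib.Helper77

/-- A Sylow `p`-subgroup of a subgroup of index prime to `p` is a Sylow `p`-subgroup of the group. -/
theorem card_map_sylow {G : Type*} [Group G] [Finite G] (p : ℕ) [Fact p.Prime] (H : Subgroup G)
    (hH : ¬ p ∣ H.index) (P : Sylow p H) :
    Nat.card ((P : Subgroup H).map H.subtype) = p ^ (Nat.card G).factorization p := by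
  have hp : p.Prime := Fact.out
  have h1 : Nat.card ((P : Subgroup H).map H.subtype) = Nat.card (P : Subgroup H) :=
    Nat.card_congr ((P : Subgroup H).equivMapOfInjective _ H.subtype_injective).toEquiv.symm
  rw [h1, P.card_eq_multiplicity, ← H.card_mul_index,
    Nat.factorization_mul Nat.card_pos.ne' (Subgroup.index_ne_zero_of_finite)]
  simp [Nat.factorization_eq_zero_of_not_dvd hH]

theorem not_dvd_index_of_defectClass {G : Type*} [Group G] [Finite G] (p : ℕ) [Fact p.Prime]
    (M : Ideal Cfsg.AlgInt) (hM : Cfsg.IsPModular p M) (g : G)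
    (hg : IsDefectClass M (principalBlock M G) g) :
    ¬ p ∣ (Subgroup.centralizer ({g} : Set G)).index := by
  have h := hg.2.2 (trivIrr G) (trivIrr_mem_principalBlock (pmod_isPrime hM))
  rw [centralChar_trivIrr, memLocalIdeal_natCast_iff hM] at h
  exact h

/-- Fix a prime p and a maximal ideal M of the algebraic integers containing p. The defect groups of the principal p-block of a finite group G are exactly the Sylow p-subgroups of G: a subgroup D is a defect group of the principal block if and only if D is a Sylow p-subgroup. -/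
theorem result {G : Type*} [Group G] [Fintype G] (p : ℕ) [Fact p.Prime] (M : Ideal Cfsg.AlgInt) (hM : Cfsg.IsPModular p M) (D : Subgroup G) : Cfsg.IsDefectGroup p M (Cfsg.principalBlock M G) D ↔ ∃ S : Sylow p G, (S : Subgroup G) = D := by
  constructor
  · rintro ⟨g, hg, P, rfl⟩
    have hidx := not_dvd_index_of_defectClass p M hM g hg
    exact ⟨Sylow.ofCard _ (card_map_sylow p _ hidx P), Sylow.coe_ofCard _ _⟩
  · rintro ⟨S, rfl⟩
    obtain ⟨g, hg⟩ := Cfsg.Agent.S0906.result p M hM (principalBlock M G) isPBlock_principalBlock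
    have hidx := not_dvd_index_of_defectClass p M hM g hg
    obtain ⟨P⟩ : Nonempty (Sylow p (Subgroup.centralizer ({g} : Set G))) := inferInstance
    set S' : Sylow p G := Sylow.ofCard _ (card_map_sylow p _ hidx P) with hS'
    obtain ⟨x, hx⟩ := MulAction.exists_smul_eq G S' S
    have hle : (S : Subgroup G) ≤ Subgroup.centralizer ({x * g * x⁻¹} : Set G) := by
      rw [← hx, centralizer_conj, Sylow.coe_subgroup_smul, hS', Sylow.coe_ofCard]
      rintro _ ⟨y, ⟨z, hz, rfl⟩, rfl⟩
      exact ⟨z, z.2, rfl⟩
    refine ⟨x * g * x⁻¹, isDefectClass_conj hg x, S.subtype hle, ?_⟩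
    rw [Sylow.coe_subtype, Subgroup.subgroupOf_map_subtype, inf_eq_left.mpr hle]

end Cfsg.Agent.S4652
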