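import Cfsg.Statements.S4654
import Cfsg.Agent.Lib.Helper77.Stab

set_option autoImplicit false
open Cfsg Cfsg.Agent.Lib.Helper77

namespace Cfsg.Agent.S4654

/-- Fix a prime p and a maximal ideal M of the algebraic integers containing p. Let P be a normal p-subgroup of the finite group G, B a p-block of G and e a p-block of C_G(P) such that (P, e) is a Brauer pair of B (as P is normal, this says that e occurs in the idempotent of B, which is supported on C_G(P)). Let T be the stabilizer of e in G under conjugation. Then the idempotent of e is a block idempotent of T: some block E of T has, at every element of T, the same idempotent coefficient as e (zero off C_G(P)); and the idempotent of B is the sum of the distinct G-conjugates of the idempotent of e: its coefficient at g is the sum over all x in G of the coefficient of e at x⁻¹ g x, divided by the order of T. -/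
theorem result {G : Type*} [Group G] [Fintype G] (p : ℕ) [Fact p.Prime] (M : Ideal Cfsg.AlgInt) (hM : Cfsg.IsPModular p M) (P : Subgroup G) [P.Normal] (hP : IsPGroup p P) (B : Set (Cfsg.IrrCharacter G)) (e : Set (Cfsg.IrrCharacter (Subgroup.centralizer (P : Set G)))) (hBe : Cfsg.IsBrauerPairOf p M B P e) (T : Subgroup G) (hT : ∀ x : G, x ∈ T ↔ Cfsg.StabilizesBlock (Subgroup.centralizer (P : Set G)) e x) : (∃ E : Set (Cfsg.IrrCharacter T), Cfsg.IsPBlock M E ∧ ∀ t : T, Cfsg.blockCoeff E t = Cfsg.subgroupBlockCoeff (Subgroup.centralizer (P : Set G)) e (t : G)) ∧ ∀ g : G, Cfsg.blockCoeff B g = (Nat.card T : ℂ)⁻¹ * ∑ x : G, Cfsg.subgroupBlockCoeff (Subgroup.centralizer (P : Set G)) e (x⁻¹ * g * x) := by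
  have hPr : M.IsPrime := hM.2.1.isPrime
  have := resF_charP hM
  have hdec := hasBlockDecomp (G := G) M
  obtain ⟨⟨hPp, he⟩, hB, hblk⟩ := (isBrauerPairOf_iff M hM B P e).1 hBe
  have hN : (⊤ : Subgroup G) ≤ Subgroup.normalizer (P : Set G) := by
    rw [Subgroup.normalizer_eq_top_iff.2 inferInstance]
  have hNC : ∀ x : G, x ∈ Subgroup.normalizer ((Cen P : Subgroup G) : Set G) := fun x =>
    normalizer_le_normalizer_centralizer P (hN (Subgroup.mem_top x))
  have hprimC := isPrimIdem_idem M he
  have hT' : ∀ x, x ∈ T ↔ cj x (idem M (Cen P) e) = idem M (Cen P) e := by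
    intro x
    rw [hT, stabilizesBlock_iff_cj M he]
    exact ⟨fun h => h.2, fun h => ⟨hNC x, h⟩⟩
  constructor
  · obtain ⟨E, hE, -, -, hEc⟩ := exists_block_of_stab M hM hPp he (T := T)
      (fun x hx => (hT' x).2 (fixedBy_of_suppIn_cen hprimC.mem.1 x hx))
      (fun x hx => (hT' x).2 (hprimC.mem.2 x hx))
      (fun x _ => hN (Subgroup.mem_top x)) (fun x hx => (hT' x).1 hx)
    exact ⟨E, hE, hEc⟩
  · have horthF : ∀ x ∈ (⊤ : Subgroup G), cj x (idem M (Cen P) e) = idem M (Cen P) e ∨
        cj x (idem M (Cen P) e) * idem M (Cen P) e = 0 := fun x _ => hprimC.cj_eq_or_orth (hNC x)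
    have horthR : ∀ x ∈ (⊤ : Subgroup G), cj x (idemR M (Cen P) e) = idemR M (Cen P) e ∨
        cj x (idemR M (Cen P) e) * idemR M (Cen P) e = 0 :=
      fun x _ => idemR_cj_eq_or_orth M he (hNC x)
    have hprim := isPrimIdem_orbSum M hM hPp le_top le_top hN hprimC
    obtain ⟨B', hB', hB'e⟩ := (isPrimIdem_top_iff M).1 hprim
    have hblk' : IsABlockOf (ebar M B') (toA M ⟨P, e⟩) := by
      refine ⟨isPrimIdem_ebar M hB', ?_⟩
      show trunc (Cen P) (ebar M B') * idem M (Cen P) e = idem M (Cen P) e
      rw [← hB'e, trunc_of_suppIn (suppIn_orbSum (fun x _ => hNC x) hprimC.mem.1)]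
      exact orbSum_mul_of_mem hprimC.idem horthF (self_mem_orbF _ _)
    have hBB' : B' = B := ebar_injective M hB' hB
      ((existsUnique_block hdec (isAPair_toA (p := p) M ⟨hPp, he⟩)).unique hblk' hblk)
    subst hBB'
    have hu : orbSum ⊤ (idemR M (Cen P) e) = eR M B' := by
      apply eq_of_piF_eq_top M (fixedBy_orbSum ⊤ _) (fixedBy_eR M B')
        (orbSum_idem (idemR_idem M he) horthR) (eR_idem M hB)
      rw [piF_orbSum M (fun x _ => hNC x) he, piF_eR, hB'e]
    have hsum := sum_cj_eq (K := ⊤) (a := idemR M (Cen P) e) T (by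
      intro x
      rw [hT' x, cj_idemR_eq_iff M he (hNC x)]
      exact ⟨fun h => ⟨Subgroup.mem_top x, h⟩, fun h => h.2⟩)
    rw [hu] at hsum
    have huniv : subF (⊤ : Subgroup G) = Finset.univ := by
      ext x; simp [mem_subF]
    rw [huniv] at hsum
    intro g
    have h1 := congrArg (fun a => cfun M a g) hsum
    simp only [cfun_apply, MonoidAlgebra.coeff_sum, Finsupp.finsetSum_apply, coeff_cj,
      MonoidAlgebra.coeff_smul, Finsupp.smul_apply] at h1
    have h2 : ∀ y : G, (((idemR M (Cen P) e).coeff y : Rloc M) : ℂ)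
        = subgroupBlockCoeff (Cen P) e y := fun y => congrFun (cfun_idemR M he) y
    have h3 : (((eR M B').coeff g : Rloc M) : ℂ) = blockCoeff B' g := congrFun (cfun_eR M hB) g
    push_cast at h1
    simp only [h2] at h1
    rw [h1]
    have hT0 : (Nat.card T : ℂ) ≠ 0 := by
      exact_mod_cast (Nat.card_pos (α := T)).ne'
    simp only [nsmul_eq_mul, h3]
    field_simp

end Cfsg.Agent.S4654
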