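import Cfsg.Statements.S4655
import Cfsg.Agent.Lib.Helper77.Dict5

set_option autoImplicit false
open Cfsg Cfsg.Agent.Lib.Helper77

namespace Cfsg.Agent.S4655

/-- Fix a prime p and a maximal ideal M of the algebraic integers containing p. Let (P, e) be a Brauer pair of the finite group G (P a p-subgroup, e a p-block of C_G(P)) and Q a subgroup of P. Then there is exactly one p-block f of C_G(Q) such that the Brauer pair (Q, f) lies below (P, e). -/
theorem result {G : Type*} [Group G] [Fintype G] (p : ℕ) [Fact p.Prime] (M : Ideal Cfsg.AlgInt) (hM : Cfsg.IsPModular p M) (P Q : Subgroup G) (e : Set (Cfsg.IrrCharacter (Subgroup.centralizer (P : Set G)))) (hPe : Cfsg.IsBrauerPair p M P e) (hQP : Q ≤ P) : ∃! f : Set (Cfsg.IrrCharacter (Subgroup.centralizer (Q : Set G))), Cfsg.IsPBlock M f ∧ Cfsg.SubpairLE p M Q f P e := by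
  have hPr : M.IsPrime := hM.2.1.isPrime
  have := resF_charP hM
  have hdec := hasBlockDecomp (G := G) M
  have hy := isAPair_toA (p := p) M hPe
  obtain ⟨ε, hε⟩ := exists_ALE' hdec hy (Q := Q) hQP
  obtain ⟨f, hf, hx⟩ := exists_of_isAPair M (hε.isAPair_left hy)
  refine ⟨f, ⟨hf.2, subpairLE_of_ALE M hM hPe.2 hε Q f hf.2 hx⟩, ?_⟩
  rintro f' ⟨hf', hle'⟩
  have h1 := SubpairLE.toALE M hM hle'
  rw [hx] at hε
  exact idem_injective M hf' hf.2 (ALE.unique hdec hy h1 hε)

end Cfsg.Agent.S4655
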