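import Cfsg.Statements.S4656
import Cfsg.Agent.Lib.Helper77.Dict5

set_option autoImplicit false
open Cfsg Cfsg.Agent.Lib.Helper77

namespace Cfsg.Agent.S4656

/-- Fix a prime p and a maximal ideal M of the algebraic integers containing p. Let (P, e) be a Brauer pair of the finite group G and Q a normal subgroup of P. Then there is exactly one p-block f of C_G(Q) that is stable under conjugation by P and such that e occurs in the Brauer-map image at P of the idempotent of f; that is, exactly one f with (Q, f) normally below (P, e). -/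
theorem result {G : Type*} [Group G] [Fintype G] (p : ℕ) [Fact p.Prime] (M : Ideal Cfsg.AlgInt) (hM : Cfsg.IsPModular p M) (P Q : Subgroup G) (e : Set (Cfsg.IrrCharacter (Subgroup.centralizer (P : Set G)))) (hPe : Cfsg.IsBrauerPair p M P e) (hQP : Q ≤ P) (hPN : P ≤ Subgroup.normalizer (Q : Set G)) : ∃! f : Set (Cfsg.IrrCharacter (Subgroup.centralizer (Q : Set G))), Cfsg.IsNormalSubpair p M Q f P e := by
  have hPr : M.IsPrime := hM.2.1.isPrime
  have := resF_charP hM
  have hdec := hasBlockDecomp (G := G) M
  have hy := isAPair_toA (p := p) M hPe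
  obtain ⟨ε, hε, huniq⟩ := existsUnique_normal hdec hy (Q := Q) hQP hPN
  obtain ⟨f, hf, hx⟩ := exists_of_isAPair M hε.1
  refine ⟨f, (isNormalSubpair_iff M hM Q f P e).2 ⟨hf.2, hPe.2, hx ▸ hε⟩, ?_⟩
  intro f' hf'
  obtain ⟨h1, -, h3⟩ := (isNormalSubpair_iff M hM Q f' P e).1 hf'
  have e1 := huniq _ h3
  have e2 : ε = idem M (Cen Q) f := (Prod.ext_iff.1 hx).2
  exact idem_injective M h1 hf.2 (e1.trans e2)

end Cfsg.Agent.S4656
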