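import Cfsg.Statements.S4661
import Cfsg.Agent.Lib.Helper77.FullyCN

set_option autoImplicit false
open Cfsg Cfsg.Agent.Lib.Helper77

namespace Cfsg.Agent.S4661

/-- Fix a prime p and a maximal ideal M of the algebraic integers containing p. Let (P, e) be a maximal Brauer pair of the p-block B of the finite group G, Q ≤ P, and f the p-block of C_G(Q) with (Q, f) ≤ (P, e). Then C_P(Q) is contained in a defect group of f (as a block of the group C_G(Q)); and for some x in G the conjugate pair (x Q x⁻¹, conjugate of f) again lies below (P, e) and C_P(x Q x⁻¹) is a defect group of the conjugate of f in C_G(x Q x⁻¹). -/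
theorem result {G : Type*} [Group G] [Fintype G] (p : ℕ) [Fact p.Prime] (M : Ideal Cfsg.AlgInt) (hM : Cfsg.IsPModular p M) (B : Set (Cfsg.IrrCharacter G)) (P Q : Subgroup G) (e : Set (Cfsg.IrrCharacter (Subgroup.centralizer (P : Set G)))) (f : Set (Cfsg.IrrCharacter (Subgroup.centralizer (Q : Set G)))) (hmax : Cfsg.IsMaximalBrauerPair p M B P e) (hQP : Q ≤ P) (hf : Cfsg.IsPBlock M f) (hle : Cfsg.SubpairLE p M Q f P e) : (∃ D : Subgroup (Subgroup.centralizer (Q : Set G)), Cfsg.IsDefectGroup p M f D ∧ (P ⊓ Subgroup.centralizer (Q : Set G)).subgroupOf (Subgroup.centralizer (Q : Set G)) ≤ D) ∧ ∃ x : G, Cfsg.SubpairLE p M (Q.map (MulAut.conj x).toMonoidHom) (Cfsg.conjBlock Q x f) P e ∧ Cfsg.IsDefectGroup p M (Cfsg.conjBlock Q x f) ((P ⊓ Subgroup.centralizer ((Q.map (MulAut.conj x).toMonoidHom) : Set G)).subgroupOf (Subgroup.centralizer ((Q.map (MulAut.conj x).toMonoidHom) : Set G))) := by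
  have hPr : M.IsPrime := hM.2.1.isPrime
  have := resF_charP hM
  have hdec := hasBlockDecomp (G := G) M
  obtain ⟨hBe, hmx⟩ := (isMaximalBrauerPair_iff M hM B P e).1 hmax
  obtain ⟨hPe, hB, hblk⟩ := (isBrauerPairOf_iff M hM B P e).1 hBe
  have hA := SubpairLE.toALE M hM hle
  constructor
  · have hne := trunc_cen_inf_ne_zero hdec hmx.1 hA
    exact exists_isDefectGroup_ge M hM hf inf_le_right (hPe.1.to_le inf_le_left) hne
  · obtain ⟨t, ht, hmaxt⟩ := exists_max_conj hA (fun z => Nat.card ↥(P ⊓ Cen z.1))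
    refine ⟨t, (subpairLE_iff M hM (isPBlock_conjBlock M t hf) hPe.2).2
      (by rw [toA_conjBlock]; exact ht), ?_⟩
    rw [isDefectGroup_subgroupOf_iff M hM (isPBlock_conjBlock M t hf) inf_le_right]
    have h1 := isDef_cen_of_fully M hM hB hmx hblk ht (fun s hs => by
      rw [cjP_cjP] at hs ⊢
      exact hmaxt _ hs)
    rw [← toA_conjBlock] at h1
    exact h1

end Cfsg.Agent.S4661
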