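import Cfsg.Statements.S4662
import Cfsg.Agent.Lib.Helper77.FullyCN

set_option autoImplicit false
open Cfsg Cfsg.Agent.Lib.Helper77

namespace Cfsg.Agent.S4662

/-- Fix a prime p and a maximal ideal M of the algebraic integers containing p. Let (P, e) be a maximal Brauer pair of the p-block B of the finite group G, Q ≤ P, and f the p-block of C_G(Q) with (Q, f) ≤ (P, e). Let T be the stabilizer of f in N_G(Q). Then the idempotent of f is a block idempotent of T, and N_P(Q) is contained in a defect group of that block of T; moreover for some x in G the conjugate pair (x Q x⁻¹, conjugate of f) again lies below (P, e) and, with T' the stabilizer of the conjugate of f in N_G(x Q x⁻¹), N_P(x Q x⁻¹) is a defect group of the block of T' whose idempotent is that of the conjugate of f. -/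
theorem result {G : Type*} [Group G] [Fintype G] (p : ℕ) [Fact p.Prime] (M : Ideal Cfsg.AlgInt) (hM : Cfsg.IsPModular p M) (B : Set (Cfsg.IrrCharacter G)) (P Q : Subgroup G) (e : Set (Cfsg.IrrCharacter (Subgroup.centralizer (P : Set G)))) (f : Set (Cfsg.IrrCharacter (Subgroup.centralizer (Q : Set G)))) (hmax : Cfsg.IsMaximalBrauerPair p M B P e) (hQP : Q ≤ P) (hf : Cfsg.IsPBlock M f) (hle : Cfsg.SubpairLE p M Q f P e) (T : Subgroup G) (hT : ∀ y : G, y ∈ T ↔ y ∈ Subgroup.normalizer (Q : Set G) ∧ Cfsg.StabilizesBlock (Subgroup.centralizer (Q : Set G)) f y) : (∃ F : Set (Cfsg.IrrCharacter T), Cfsg.IsPBlock M F ∧ (∀ t : T, Cfsg.blockCoeff F t = Cfsg.subgroupBlockCoeff (Subgroup.centralizer (Q : Set G)) f (t : G)) ∧ ∃ D : Subgroup T, Cfsg.IsDefectGroup p M F D ∧ (P ⊓ Subgroup.normalizer (Q : Set G)).subgroupOf T ≤ D) ∧ ∃ x : G, Cfsg.SubpairLE p M (Q.map (MulAut.conj x).toMonoidHom) (Cfsg.conjBlock Q x f) P e ∧ ∀ (T' : Subgroup G), (∀ y : G, y ∈ T' ↔ y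 ∈ Subgroup.normalizer ((Q.map (MulAut.conj x).toMonoidHom) : Set G) ∧ Cfsg.StabilizesBlock (Subgroup.centralizer ((Q.map (MulAut.conj x).toMonoidHom) : Set G)) (Cfsg.conjBlock Q x f) y) → ∃ F' : Set (Cfsg.IrrCharacter T'), Cfsg.IsPBlock M F' ∧ (∀ t : T', Cfsg.blockCoeff F' t = Cfsg.subgroupBlockCoeff (Subgroup.centralizer ((Q.map (MulAut.conj x).toMonoidHom) : Set G)) (Cfsg.conjBlock Q x f) (t : G)) ∧ Cfsg.IsDefectGroup p M F' ((P ⊓ Subgroup.normalizer ((Q.map (MulAut.conj x).toMonoidHom) : Set G)).subgroupOf T') := by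
  have hPr : M.IsPrime := hM.2.1.isPrime
  have := resF_charP hM
  have hdec := hasBlockDecomp (G := G) M
  obtain ⟨hBe, hmx⟩ := (isMaximalBrauerPair_iff M hM B P e).1 hmax
  obtain ⟨hPe, hB, hblk⟩ := (isBrauerPairOf_iff M hM B P e).1 hBe
  have hA := SubpairLE.toALE M hM hle
  constructor
  · obtain ⟨hQT, hCT, hTN, hfix, hTmem⟩ := stab_facts M hf hT
    obtain ⟨F, hF, hFe, -, hFc⟩ := exists_block_of_stab M hM (hPe.1.to_le hQP) hf hQT hCT hTN hfix
    obtain ⟨g, hg, -⟩ := hA.exists_normal hdec hmx.1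
      (R := P ⊓ Subgroup.normalizer (Q : Set G)) (le_inf hQP Subgroup.le_normalizer)
      inf_le_left inf_le_right
    have hRT : P ⊓ Subgroup.normalizer (Q : Set G) ≤ T :=
      fun u hu => hTmem u hu.2 (hg.2.2.2.2.1 u hu)
    refine ⟨F, hF, hFc, ?_⟩
    apply exists_isDefectGroup_ge M hM hF hRT (hPe.1.to_le inf_le_left)
    rw [hFe]
    exact hg.trunc_ne_zero
  · obtain ⟨t, ht, hmaxt⟩ := exists_max_conj hA
      (fun z => Nat.card ↥(P ⊓ Subgroup.normalizer (z.1 : Set G)))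
    have hf' := isPBlock_conjBlock M t hf
    refine ⟨t, (subpairLE_iff M hM hf' hPe.2).2 (by rw [toA_conjBlock]; exact ht), ?_⟩
    intro T' hT'
    obtain ⟨hQT, hCT, hTN, hfix, hTmem⟩ := stab_facts M hf' hT'
    obtain ⟨F, hF, hFe, -, hFc⟩ := exists_block_of_stab M hM
      ((hPe.1.to_le hQP).map (MulAut.conj t).toMonoidHom) hf' hQT hCT hTN hfix
    rw [← toA_conjBlock] at ht
    have h1 := isDef_nor_of_fully M hM hB hmx hblk ht (fun s hs => by
      rw [toA_conjBlock, cjP_cjP] at hs ⊢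
      exact hmaxt _ hs) hTN hfix hTmem
    refine ⟨F, hF, hFc, ?_⟩
    apply (isDefectGroup_subgroupOf_iff M hM hF h1.1).2
    rw [hFe]
    exact h1

end Cfsg.Agent.S4662
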