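import Cfsg.Statements.S4664
import Cfsg.Agent.Lib.Helper78.WeakOrth
import Cfsg.Agent.Lib.Helper80.Eigen
import Cfsg.Agent.Lib.Helper80.Inflation
import Cfsg.Agent.Lib.Helper77.BlockBasic

set_option autoImplicit false
open Cfsg Cfsg.Agent.Lib.Helper77
open Cfsg

namespace Cfsg.Agent.S4664

/-- Fix a prime p and a maximal ideal M of the algebraic integers containing p, and let B be a p-block of the finite group G. Let m be the p'-part of the order of G and η = exp(2πi/m). Then every coefficient of the idempotent of B lies in the cyclotomic field ℚ(η). -/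
theorem result {G : Type*} [Group G] [Fintype G] (p : ℕ) [Fact p.Prime] (M : Ideal Cfsg.AlgInt) (hM : Cfsg.IsPModular p M) (B : Set (Cfsg.IrrCharacter G)) (hB : Cfsg.IsPBlock M B) (g : G) : Cfsg.blockCoeff B g ∈ IntermediateField.adjoin ℚ ({Complex.exp (2 * Real.pi * Complex.I / ((Nat.card G / p ^ (Nat.card G).factorization p : ℕ) : ℂ))} : Set ℂ) := by
  classical
  have hp : p.Prime := Fact.out
  set m : ℕ := Nat.card G / p ^ (Nat.card G).factorization p with hm
  have hm0 : m ≠ 0 := (Nat.ordCompl_pos p Nat.card_pos.ne').ne'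
  haveI : NeZero m := ⟨hm0⟩
  set K := IntermediateField.adjoin ℚ ({Complex.exp (2 * Real.pi * Complex.I / (m : ℂ))} : Set ℂ)
    with hK
  have hprim : IsPrimitiveRoot (Complex.exp (2 * Real.pi * Complex.I / (m : ℂ))) m :=
    Complex.isPrimitiveRoot_exp m hm0
  have hη : Complex.exp (2 * Real.pi * Complex.I / (m : ℂ)) ∈ K :=
    IntermediateField.subset_adjoin ℚ _ (Set.mem_singleton _)
  have hroot : ∀ μ : ℂ, μ ^ m = 1 → μ ∈ K := by
    intro μ hμ
    obtain ⟨i, -, hi⟩ := hprim.eq_pow_of_pow_eq_one hμ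
    rw [← hi]
    exact pow_mem hη i
  by_cases hg : p ∣ orderOf g
  · rw [Cfsg.Agent.Lib.Helper78.blockCoeff_eq_zero_of_singular hM hB g hg]
    exact zero_mem K
  · have hdvd : orderOf g ∣ m := by
      have h1 : orderOf g ∣ Nat.card G := orderOf_dvd_natCard g
      have h2 : Nat.card G = p ^ (Nat.card G).factorization p * m :=
        (Nat.ordProj_mul_ordCompl_eq_self _ _).symm
      rw [h2] at h1
      exact (Nat.Coprime.pow_right _ ((Nat.coprime_comm.1 ((hp.coprime_iff_not_dvd).2 hg)))).dvd_of_dvd_mul_left h1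
    rw [Cfsg.Agent.Lib.Helper78.blockCoeff_eq_sum]
    refine mul_mem (inv_mem (natCast_mem K _)) (sum_mem fun χ _ => mul_mem ?_ (mul_mem ?_ ?_))
    · split_ifs
      · exact one_mem K
      · exact zero_mem K
    · rw [Cfsg.Agent.Lib.Helper80.char_one_eq_charDegree
        (Cfsg.Agent.Lib.Helper80.isCharacter_of_irr χ.2)]
      exact natCast_mem K _
    · obtain ⟨n, ρ, -, hρ⟩ := χ.2
      rw [← hρ, Cfsg.Agent.Lib.Helper80.char_eq_sum_roots, map_multiset_sum]
      refine multiset_sum_mem _ fun μ hμ => ?_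
      obtain ⟨ν, hν, rfl⟩ := Multiset.mem_map.1 hμ
      apply hroot
      have h3 := Cfsg.Agent.Lib.Helper80.root_pow_orderOf ρ g hν
      obtain ⟨c, hc⟩ := hdvd
      rw [← map_pow, hc, pow_mul, h3, one_pow, map_one]

end Cfsg.Agent.S4664
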