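import Cfsg.Statements.S4668
import Cfsg.Agent.Lib.Helper77.NormalP
import Cfsg.Agent.Lib.Helper77.Chain
import Cfsg.Agent.Lib.Helper78.WeakOrth

set_option autoImplicit false
open Cfsg Cfsg.Agent.Lib.Helper77

namespace Cfsg.Agent.S4668

/-- Fix a prime p and a maximal ideal M of the algebraic integers containing p. Let Q₀ < Q₁ < ⋯ < Q_m be a strictly increasing chain of p-subgroups of the finite group G and N the intersection of their normalizers. Then every block idempotent of N is supported on C_G(Q_m): for every p-block E of N, the idempotent coefficient of E vanishes at every element of N outside C_G(Q_m). -/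
theorem result {G : Type*} [Group G] [Fintype G] (p : ℕ) [Fact p.Prime] (M : Ideal Cfsg.AlgInt) (hM : Cfsg.IsPModular p M) (m : ℕ) (Q : Fin (m + 1) → Subgroup G) (hQ : StrictMono Q) (hQp : ∀ i, IsPGroup p (Q i)) (N : Subgroup G) (hN : ∀ g : G, g ∈ N ↔ ∀ i, g ∈ Subgroup.normalizer (Q i : Set G)) (E : Set (Cfsg.IrrCharacter N)) (hE : Cfsg.IsPBlock M E) (n : N) (hn : (n : G) ∉ Subgroup.centralizer (Q (Fin.last m) : Set G)) : Cfsg.blockCoeff E n = 0 := by
  have hPr : M.IsPrime := hM.2.1.isPrime
  have := Fintype.ofFinite N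
  by_contra hne
  have hreg : ¬ p ∣ orderOf (n : G) := by
    intro h
    rw [Subgroup.orderOf_coe] at h
    exact hne (Cfsg.Agent.Lib.Helper78.blockCoeff_eq_zero_of_singular hM hE n h)
  have hNle : ∀ i, N ≤ Subgroup.normalizer (Q i : Set G) := fun i g hg => (hN g).1 hg i
  have hnorm : N ≤ Subgroup.normalizer ((Q (Fin.last m) ⊓ N : Subgroup G) : Set G) :=
    le_trans (le_inf (hNle _) Subgroup.le_normalizer) (normalizer_inf_le _ _)
  have hsupp := suppIn_cen_of_idemR M hM (H := N) (P := Q (Fin.last m) ⊓ N) inf_le_right hnorm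
    ((hQp _).to_le inf_le_left) (idemR_mem_zsub M N E) (idemR_idem M hE)
  have hmem : (n : G) ∈ Cen (Q (Fin.last m) ⊓ N) := by
    by_contra hcon
    apply hne
    have h1 := hsupp n hcon
    have h2 := congrFun (cfun_idemR M hE) (n : G)
    rw [subgroupBlockCoeff_coe, cfun_apply, h1] at h2
    exact h2.symm
  apply hn
  apply mem_centralizer_of_chain p m Q hQ.monotone hQp (n : G) (fun i => hNle i n.2) hreg
  intro q hq hqN
  exact (Subgroup.mem_centralizer_iff.1 hmem) q ⟨hq, (hN q).2 hqN⟩

end Cfsg.Agent.S4668
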