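import Cfsg.Statements.S4670
import Cfsg.Agent.Lib.Helper16.FirstMain2
-- import your own Cfsg.Agent.* helpers here

set_option autoImplicit false
open Cfsg Cfsg.Agent.Lib.Helper78 Cfsg.Agent.Lib.Helper16 Cfsg.Agent.Lib

namespace Cfsg.Agent.S4670

/-- Fix a prime p and a maximal ideal M of the algebraic integers containing p. Let P be a p-subgroup of the finite group G and H a subgroup containing N_G(P). For every p-block B of G with defect group P there is exactly one p-block c of H with defect group P whose idempotent agrees with that of B, modulo the local ideal at M, at every element of C_G(P) (their Brauer-map images at P coincide); and every p-block c of H with defect group P arises in this way from exactly one such B. This is the Brauer correspondence over H. -/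
theorem result {G : Type*} [Group G] [Fintype G] (p : ℕ) [Fact p.Prime] (M : Ideal Cfsg.AlgInt) (hM : Cfsg.IsPModular p M) (P H : Subgroup G) (hP : IsPGroup p P) (hH : Subgroup.normalizer (P : Set G) ≤ H) : (∀ B : Set (Cfsg.IrrCharacter G), Cfsg.IsPBlock M B → Cfsg.IsDefectGroup p M B P → ∃! c : Set (Cfsg.IrrCharacter H), Cfsg.IsPBlock M c ∧ Cfsg.IsDefectGroup p M c (P.subgroupOf H) ∧ ∀ x : G, x ∈ Subgroup.centralizer (P : Set G) → Cfsg.MemLocalIdeal M (Cfsg.blockCoeff B x - Cfsg.subgroupBlockCoeff H c x)) ∧ (∀ c : Set (Cfsg.IrrCharacter H), Cfsg.IsPBlock M c → Cfsg.IsDefectGroup p M c (P.subgroupOf H) → ∃! B : Set (Cfsg.IrrCharacter G), Cfsg.IsPBlock M B ∧ Cfsg.IsDefectGroup p M B P ∧ ∀ x : G, x ∈ Subgroup.centralizer (P : Set G) → Cfsg.MemLocalIdeal M (Cfsg.blockCoeff B x - Cfsg.subgroupBlockCoeff H c x)) := by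
  classical
  haveI : M.IsMaximal := hM.2.1
  haveI : CharP (FM M) p := charP_FM hM
  have hMp := pmod_isPrime hM
  have hPN : P ≤ Subgroup.normalizer (P : Set G) := Subgroup.le_normalizer
  have hPH : P ≤ H := hPN.trans hH
  have hCH : Subgroup.centralizer (P : Set G) ≤ H := (Subgroup.centralizer_le_normalizer _).trans hH
  have hPH' : IsPGroup p (P.subgroupOf H) := hP.comap_subtype
  have hN1 : (Subgroup.normalizer (P : Set G)).subgroupOf H ≤
      Subgroup.normalizer ((P.subgroupOf H : Subgroup H) : Set H) := by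
    intro x hx
    rw [Subgroup.mem_normalizer_iff]
    intro y
    exact (Subgroup.mem_normalizer_iff.1 (Subgroup.mem_subgroupOf.1 hx)) (y : G)
  have hN2 : Subgroup.normalizer ((P.subgroupOf H : Subgroup H) : Set H) ≤
      (Subgroup.normalizer (P : Set G)).subgroupOf H := by
    intro x hx
    rw [Subgroup.mem_subgroupOf, Subgroup.mem_normalizer_iff]
    rw [Subgroup.mem_normalizer_iff] at hx
    intro g
    constructor
    · intro hg
      exact (hx ⟨g, hPH hg⟩).1 hg
    · intro hg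
      have hgH : g ∈ H := by
        have h1 : (x : G)⁻¹ * ((x : G) * g * (x : G)⁻¹) * (x : G) ∈ H :=
          H.mul_mem (H.mul_mem (H.inv_mem x.2) (hPH hg)) x.2
        simpa [mul_assoc] using h1
      exact (hx ⟨g, hgH⟩).2 hg
  have hcong : ∀ (B : Set (IrrCharacter G)) (c : Set (IrrCharacter H)), IsPBlock M B →
      IsPBlock M c → ∀ x (hx : x ∈ Subgroup.centralizer (P : Set G)),
      (MemLocalIdeal M (blockCoeff B x - subgroupBlockCoeff H c x) ↔
        (eB M B).1.coeff x = (eB M c).1.coeff ⟨x, hCH hx⟩) := by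
    intro B c hB hc x hx
    have h1 : subgroupBlockCoeff H c x = blockCoeff c ⟨x, hCH hx⟩ := by
      unfold subgroupBlockCoeff
      rw [dif_pos (hCH hx)]
    rw [h1, eB_coeff, eB_coeff, redC_eq_iff (memLocalRing_blockCoeff hMp hB x)
      (memLocalRing_blockCoeff hMp hc _)]
  -- the relation
  let Rel : Set (IrrCharacter G) → Set (IrrCharacter H) → Prop := fun B c =>
    ∃ b : Set (IrrCharacter (Subgroup.normalizer (P : Set G))),
      BrCorr M (Subgroup.normalizer (P : Set G)) p P B b ∧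
      BrCorr M ((Subgroup.normalizer (P : Set G)).subgroupOf H) p (P.subgroupOf H) c
        (downIrr hH '' b)
  have L1 : ∀ B c, Rel B c → ∀ x (hx : x ∈ Subgroup.centralizer (P : Set G)),
      (eB M B).1.coeff x = (eB M c).1.coeff ⟨x, hCH hx⟩ := by
    rintro B c ⟨b, h1, h2⟩ x hx
    have hxN : x ∈ Subgroup.normalizer (P : Set G) := Subgroup.centralizer_le_normalizer _ hx
    have e1 := h1.2.2.2 ⟨x, hxN⟩
    rw [if_pos hx] at e1
    have e2 := h2.2.2.2 ⟨⟨x, hCH hx⟩, hxN⟩
    rw [if_pos ((mem_centralizer_subgroupOf_iff hPH _).2 hx)] at e2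
    rw [← e1, ← e2, eB_coeff, eB_coeff]
    congr 1
    exact (blockCoeff_irrCongr (Subgroup.subgroupOfEquivOfLe hH) b ⟨⟨x, hCH hx⟩, hxN⟩).symm
  have L2 : ∀ B, IsPBlock M B → IsDefectGroup p M B P → ∃ c, Rel B c := by
    intro B hB hDB
    obtain ⟨b, hb⟩ := exists_brCorr_of_block M _ p hM le_rfl le_rfl hB hDB
    have h1 : IsPBlock M (downIrr hH '' b) := isPBlock_irrCongr _ M hb.1.1
    have h2 := isDefectGroup_irrCongr (Subgroup.subgroupOfEquivOfLe hH) M p hb.2.2.1
    obtain ⟨c, hc⟩ := exists_brCorr_of_local M _ p hM hPH' hN1 hN2 h1 h2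
    exact ⟨c, b, hb, hc⟩
  have L3 : ∀ c, IsPBlock M c → IsDefectGroup p M c (P.subgroupOf H) → ∃ B, Rel B c := by
    intro c hc hDc
    obtain ⟨b', hb'⟩ := exists_brCorr_of_block M _ p hM hN1 hN2 hc hDc
    have h1 : IsPBlock M (irrCongr (Subgroup.subgroupOfEquivOfLe hH).symm '' b') :=
      isPBlock_irrCongr _ M hb'.1.1
    have h2 := isDefectGroup_irrCongr (Subgroup.subgroupOfEquivOfLe hH).symm M p hb'.2.2.1
    obtain ⟨B, hB⟩ := exists_brCorr_of_local M _ p hM hP le_rfl le_rfl h1 h2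
    refine ⟨B, _, hB, ?_⟩
    have h3 : downIrr hH '' (irrCongr (Subgroup.subgroupOfEquivOfLe hH).symm '' b') = b' := by
      rw [Set.image_image]
      convert Set.image_id b' using 1
      apply Set.image_congr
      intro ψ _
      exact (irrCongr (Subgroup.subgroupOfEquivOfLe hH)).apply_symm_apply ψ
    rw [h3]
    exact hb'
  have L4 : ∀ B c B' c', Rel B c → Rel B' c' →
      (∀ x ∈ Subgroup.centralizer (P : Set G), (eB M B).1.coeff x = (eB M B').1.coeff x) →
      B = B' ∧ c = c' := by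
    rintro B c B' c' ⟨b, h1, h2⟩ ⟨b', h1', h2'⟩ hx
    have hbb : b = b' := BrCorr.local_unique M _ p h1 h1' hx
    subst hbb
    exact ⟨induced_unique M _ h1.1 h1'.1, induced_unique M _ h2.1 h2'.1⟩
  refine ⟨?_, ?_⟩
  · intro B hB hDB
    obtain ⟨c, hc⟩ := L2 B hB hDB
    have hcb : IsPBlock M c := by
      obtain ⟨b, _, h2⟩ := hc
      exact h2.1.2.1
    have hcD : IsDefectGroup p M c (P.subgroupOf H) := by
      obtain ⟨b, _, h2⟩ := hc
      exact h2.2.1
    refine ⟨c, ⟨hcb, hcD, fun x hx => (hcong B c hB hcb x hx).2 (L1 B c hc x hx)⟩, ?_⟩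
    rintro c' ⟨hc'b, hc'D, hc'x⟩
    obtain ⟨B', hB'⟩ := L3 c' hc'b hc'D
    refine ((L4 B c B' c' hc hB' (fun x hx => ?_)).2).symm
    rw [L1 B' c' hB' x hx]
    exact (hcong B c' hB hc'b x hx).1 (hc'x x hx)
  · intro c hc hDc
    obtain ⟨B, hB⟩ := L3 c hc hDc
    have hBb : IsPBlock M B := by
      obtain ⟨b, h1, _⟩ := hB
      exact h1.1.2.1
    have hBD : IsDefectGroup p M B P := by
      obtain ⟨b, h1, _⟩ := hB
      exact h1.2.1
    refine ⟨B, ⟨hBb, hBD, fun x hx => (hcong B c hBb hc x hx).2 (L1 B c hB x hx)⟩, ?_⟩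
    rintro B' ⟨hB'b, hB'D, hB'x⟩
    obtain ⟨c', hc'⟩ := L2 B' hB'b hB'D
    refine ((L4 B c B' c' hB hc' (fun x hx => ?_)).1).symm
    rw [L1 B c hB x hx]
    exact ((hcong B' c hB'b hc x hx).1 (hB'x x hx)).symm

end Cfsg.Agent.S4670
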