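import Cfsg.Statements.S4671
import Cfsg.Agent.Lib.Helper16.Stab
-- import your own Cfsg.Agent.* helpers here

set_option autoImplicit false
open Cfsg Cfsg.Agent.Lib.Helper78 Cfsg.Agent.Lib.Helper16 Cfsg.Agent.Lib

namespace Cfsg.Agent.S4671

/-- Fix a prime p and a maximal ideal M of the algebraic integers containing p. Let N be a normal subgroup of the finite group G, B a p-block of G and P a defect group of B. Then there is a p-block c of N, stable under conjugation by P and covered by B (some member of B has a constituent in c on restriction to N), such that P ∩ N is a defect group of c. -/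
theorem result {G : Type*} [Group G] [Fintype G] (p : ℕ) [Fact p.Prime] (M : Ideal Cfsg.AlgInt) (hM : Cfsg.IsPModular p M) (N : Subgroup G) [N.Normal] [Fintype N] (B : Set (Cfsg.IrrCharacter G)) (hB : Cfsg.IsPBlock M B) (P : Subgroup G) (hP : Cfsg.IsDefectGroup p M B P) : ∃ c : Set (Cfsg.IrrCharacter N), Cfsg.IsPBlock M c ∧ (∀ x ∈ P, Cfsg.StabilizesBlock N c x) ∧ (∃ χ ∈ B, ∃ θ ∈ c, Cfsg.classInner (fun n : N => (χ : G → ℂ) n) (θ : N → ℂ) ≠ 0) ∧ Cfsg.IsDefectGroup p M c ((P ⊓ N).subgroupOf N) := by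
  classical
  haveI : M.IsMaximal := hM.2.1
  have hMp := pmod_isPrime hM
  obtain ⟨χ, hχ⟩ := IsPBlock.nonempty hMp hB
  obtain ⟨ψ, hψ⟩ := Cfsg.Agent.Lib.Helper80.exists_constituent_restrict χ N
  set b := blockOf M (ψ : N → ℂ) with hbdef
  have hb : IsPBlock M b := ⟨ψ, rfl⟩
  have hψb : ψ ∈ b := Cfsg.Agent.Lib.Helper78.mem_blockOf_self hMp ψ
  have hc : Helper35.Covers N B b := ⟨χ, hχ, ψ, hψb, hψ⟩
  obtain ⟨D, hD, hDT, hDQ⟩ := exists_defect_in_stab N hM hB hb hc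
  obtain ⟨x, rfl⟩ := IsDefectGroup.exists_conj_eq hM hB hD hP
  have hcj : ∀ (g : G) (θ : IrrCharacter N),
      Helper35.cjIrr N g θ = irrCongr (MulAut.conjNormal g) θ := by
    intro g θ
    apply Subtype.ext
    funext n
    rw [Helper35.cjIrr_coe, Helper15.cj_apply, irrCongr_apply]
    congr 1
  have himg : Helper35.cjIrr N x⁻¹ '' b = irrCongr (MulAut.conjNormal x⁻¹ : MulAut N) '' b := by
    apply Set.image_congr
    intro θ _
    exact hcj _ θ
  refine ⟨Helper35.cjIrr N x⁻¹ '' b, ?_, ?_, ?_, ?_⟩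
  · rw [himg]
    exact isPBlock_irrCongr _ M hb
  · intro y hy
    refine ⟨by rw [Subgroup.normalizer_eq_top]; trivial, ?_⟩
    rintro _ ⟨θ, hθ, rfl⟩
    refine ⟨Helper35.cjIrr N y⁻¹ (Helper35.cjIrr N x⁻¹ θ), ?_, ?_⟩
    · rw [mem_cj] at hy
      have h1 : (x⁻¹ * y * x)⁻¹ ∈ blockStab N b := inv_mem (hDT hy)
      refine ⟨Helper35.cjIrr N (x⁻¹ * y * x)⁻¹ θ, (h1 θ).2 hθ, ?_⟩
      rw [Helper35.cjIrr_cjIrr, Helper35.cjIrr_cjIrr]
      congr 2
      group
    · rw [isConjCharOf_iff]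
      rfl
  · exact ⟨χ, hχ, _, ⟨ψ, hψb, rfl⟩, (Helper35.over_cjIrr_iff N χ x⁻¹ ψ).2 hψ⟩
  · rw [himg]
    have h1 := isDefectGroup_irrCongr (MulAut.conjNormal x⁻¹ : MulAut N) M p hDQ
    convert h1 using 1
    ext n
    rw [Subgroup.mem_subgroupOf, Subgroup.mem_inf, mem_cj, Subgroup.mem_comap,
      Subgroup.mem_subgroupOf, Subgroup.mem_inf]
    have e1 : (((MulAut.conjNormal x⁻¹ : MulAut N).toMonoidHom n : N) : G) = x⁻¹ * n * x := by
      simp
    rw [e1]
    constructor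
    · rintro ⟨h2, h3⟩
      refine ⟨h2, ?_⟩
      have := ‹N.Normal›.conj_mem _ h3 x⁻¹
      simpa using this
    · rintro ⟨h2, -⟩
      exact ⟨h2, n.2⟩

end Cfsg.Agent.S4671
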