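import Cfsg.Statements.S4672
import Cfsg.Agent.Lib.Helper16.CoverTools
-- import your own Cfsg.Agent.* helpers here

set_option autoImplicit false
open Cfsg Cfsg.Agent.Lib.Helper78 Cfsg.Agent.Lib.Helper16 Cfsg.Agent.Lib

namespace Cfsg.Agent.S4672

/-- Fix a prime p and a maximal ideal M of the algebraic integers containing p. Let N be a normal subgroup of the finite group G of p-power index and c a p-block of N stable under conjugation by G. Then the idempotent of c is a block idempotent of G: there is a p-block B of G whose idempotent coefficients agree with those of c on N and vanish off N; and for every defect group P of such a block B, G = NP and P ∩ N is a defect group of c. -/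
theorem result {G : Type*} [Group G] [Fintype G] (p : ℕ) [Fact p.Prime] (M : Ideal Cfsg.AlgInt) (hM : Cfsg.IsPModular p M) (N : Subgroup G) [N.Normal] (hN : ∃ k : ℕ, N.index = p ^ k) (c : Set (Cfsg.IrrCharacter N)) (hc : Cfsg.IsPBlock M c) (hst : ∀ x : G, Cfsg.StabilizesBlock N c x) : (∃ B : Set (Cfsg.IrrCharacter G), Cfsg.IsPBlock M B ∧ ∀ g : G, Cfsg.blockCoeff B g = Cfsg.subgroupBlockCoeff N c g) ∧ ∀ B : Set (Cfsg.IrrCharacter G), Cfsg.IsPBlock M B → (∀ g : G, Cfsg.blockCoeff B g = Cfsg.subgroupBlockCoeff N c g) → ∀ P : Subgroup G, Cfsg.IsDefectGroup p M B P → N ⊔ P = ⊤ ∧ Cfsg.IsDefectGroup p M c ((P ⊓ N).subgroupOf N) := by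
  classical
  have hMp := pmod_isPrime hM
  have hinv : ∀ g : G, ∀ θ ∈ c, Helper35.cjIrr N g θ ∈ c :=
    fun g θ hθ => cjIrr_mem_of_stabilizes N hst g hθ
  obtain ⟨B₀, ⟨hB₀, hc₀⟩, hu⟩ := Helper35.existsUnique_covers_of_index N hM hN hc
  have hover : Helper35.overSet N c = B₀ :=
    overSet_eq_of_unique N hMp hc hB₀ hc₀ (fun B' h1 h2 => hu B' ⟨h1, h2⟩)
  have hcoef : blockCoeff B₀ = subgroupBlockCoeff N c := by
    rw [subgroupBlockCoeff_eq_extendByZero, Helper35.extend_blockCoeff_eq N hMp hc hinv, hover]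
  refine ⟨⟨B₀, hB₀, fun g => congrFun hcoef g⟩, ?_⟩
  intro B hB hBc P hP
  have hBB : B = B₀ := set_eq_of_blockCoeff_eq (by rw [hcoef]; funext g; exact hBc g)
  subst hBB
  obtain ⟨h1, h2, -⟩ := Helper35.fong N hM hc hinv hB hc₀
    (fun B' hB' hc' => by rw [hu B' ⟨hB', hc'⟩]) hP
  refine ⟨?_, h2⟩
  obtain ⟨k, hk⟩ := hN
  have h3 : (P ⊔ N).index ∣ p ^ k := by
    rw [← hk]
    exact Subgroup.index_dvd_of_le le_sup_right
  obtain ⟨j, -, hj⟩ := (Nat.dvd_prime_pow hM.1).1 h3
  have hj0 : j = 0 := by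
    by_contra hne
    apply h1
    rw [hj]
    exact dvd_pow_self p hne
  rw [hj0, pow_zero, Subgroup.index_eq_one] at hj
  rw [sup_comm]; exact hj

end Cfsg.Agent.S4672
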