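import Cfsg.Statements.S4673
import Cfsg.Agent.Lib.Helper16.Stab
import Cfsg.Agent.Lib.Helper16.PPrimeBlock
-- import your own Cfsg.Agent.* helpers here

set_option autoImplicit false
open Cfsg Cfsg.Agent.Lib.Helper78 Cfsg.Agent.Lib.Helper16 Cfsg.Agent.Lib

namespace Cfsg.Agent.S4673

/-- Fix a prime p and a maximal ideal M of the algebraic integers containing p. Let N ≤ L be normal subgroups of the finite group G with L/N a p-group, let B be a p-block of G covering the p-block c of N (some member of B has a constituent in c on restriction to N), and suppose that N contains a defect group of B. Then the stabilizer T of c in G satisfies T ∩ L = N. -/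
theorem result {G : Type*} [Group G] [Fintype G] (p : ℕ) [Fact p.Prime] (M : Ideal Cfsg.AlgInt) (hM : Cfsg.IsPModular p M) (N L : Subgroup G) [N.Normal] [L.Normal] [Fintype N] (hNL : N ≤ L) (hLN : ∃ k : ℕ, (N.subgroupOf L).index = p ^ k) (B : Set (Cfsg.IrrCharacter G)) (hB : Cfsg.IsPBlock M B) (c : Set (Cfsg.IrrCharacter N)) (hc : Cfsg.IsPBlock M c) (hcov : (∃ χ ∈ B, ∃ θ ∈ c, Cfsg.classInner (fun n : N => (χ : G → ℂ) n) (θ : N → ℂ) ≠ 0)) (hD : ∃ D : Subgroup G, Cfsg.IsDefectGroup p M B D ∧ D ≤ N) (T : Subgroup G) (hT : ∀ x : G, x ∈ T ↔ Cfsg.StabilizesBlock N c x) : T ⊓ L = N := by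
  classical
  haveI : M.IsMaximal := hM.2.1
  have hMp := pmod_isPrime hM
  have hp := hM.1
  obtain ⟨χ, hχ, θ, hθ, hχθ⟩ := hcov
  obtain ⟨D, hD, hDN⟩ := hD
  obtain ⟨ψ, hψ1, hψ2⟩ := exists_intermediate hNL χ θ hχθ
  -- the block of `L`
  set cL := blockOf M (ψ : L → ℂ) with hcL
  have hcLb : IsPBlock M cL := ⟨ψ, rfl⟩
  have hψcL : ψ ∈ cL := Cfsg.Agent.Lib.Helper78.mem_blockOf_self hMp ψ
  have hBcL : Helper35.Covers L B cL := ⟨χ, hχ, ψ, hψcL, hψ1⟩
  have hc' : IsPBlock M (downIrr hNL '' c) := isPBlock_irrCongr _ M hc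
  have hcov' : Helper35.Covers (N.subgroupOf L) cL (downIrr hNL '' c) :=
    (covers_down_iff hNL cL c).2 ⟨ψ, hψcL, θ, hθ, hψ2⟩
  have hd := defect_of_unique_cover (N.subgroupOf L) hM hc' (blockStab (N.subgroupOf L) _)
    (mem_blockStab_iff (N.subgroupOf L) hMp hc') hcLb hcov'
    (fun β' hβ' hcβ' => Helper35.eq_of_covers_of_index (N.subgroupOf L) hM hLN hc' hβ' hcLb hcβ' hcov')
  -- defect groups
  obtain ⟨Q, hQ⟩ := exists_isDefectGroup hM hc'
  have hQ₂ : (Q.map (N.subgroupOf L).subtype).subgroupOf (N.subgroupOf L) = Q :=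
    Subgroup.comap_map_eq_self_of_injective (Subgroup.subtype_injective _) _
  obtain ⟨P', hP', hPN⟩ := Helper35.knorr (N.subgroupOf L) hM hcLb hc' hcov'
    (Q := Q.map (N.subgroupOf L).subtype) (Subgroup.map_subtype_le _) (by rw [hQ₂]; exact hQ)
  obtain ⟨g, hg⟩ := Helper35.knorr_le L hM hB hcLb hBcL hD hP'
  have hP'N : P' ≤ N.subgroupOf L := by
    intro z hz
    have h1 : (z : G) ∈ cj g D := hg ⟨z, hz, rfl⟩
    rw [mem_cj] at h1
    have h2 := ‹N.Normal›.conj_mem _ (hDN h1) g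
    rw [Subgroup.mem_subgroupOf]
    convert h2 using 1
    group
  have hPQ : P' = Q.map (N.subgroupOf L).subtype := by
    rw [← hPN]; exact (inf_eq_left.2 hP'N).symm
  have hdd : blockDefect p cL = blockDefect p (downIrr hNL '' c) := by
    have e1 := card_of_isDefectGroup hM hcLb hP'
    have e2 := card_of_isDefectGroup hM hc' hQ
    rw [hPQ, Subgroup.card_map_of_injective (Subgroup.subtype_injective _), e2] at e1
    exact (Nat.pow_right_injective hp.two_le e1).symm
  have hfac : ((N.subgroupOf L).relIndex (blockStab (N.subgroupOf L) (downIrr hNL '' c))).factorization p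
      = 0 := by omega
  obtain ⟨k, hk⟩ := hLN
  have hdvd : (N.subgroupOf L).relIndex (blockStab (N.subgroupOf L) (downIrr hNL '' c)) ∣ p ^ k := by
    rw [← hk]; exact Subgroup.relIndex_dvd_index_of_normal _ _
  obtain ⟨j, -, hj⟩ := (Nat.dvd_prime_pow hp).1 hdvd
  rw [hj, hp.factorization_pow, Finsupp.single_eq_same] at hfac
  rw [hfac, pow_zero, Subgroup.relIndex_eq_one] at hj
  apply le_antisymm
  · rintro x ⟨hxT, hxL⟩
    have h1 : (⟨x, hxL⟩ : L) ∈ blockStab (N.subgroupOf L) (downIrr hNL '' c) := by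
      rw [mem_blockStab_iff (N.subgroupOf L) hMp hc']
      rintro _ ⟨φ, hφ, rfl⟩
      rw [cjIrr_downIrr]
      refine ⟨_, ?_, rfl⟩
      have h2 := cjIrr_inv_mem_of_stabilizes N ((hT x⁻¹).1 (inv_mem hxT)) hφ
      rwa [inv_inv] at h2
    exact hj h1
  · intro x hx
    refine ⟨?_, hNL hx⟩
    show x ∈ T
    rw [hT]
    refine ⟨by rw [Subgroup.normalizer_eq_top]; trivial, ?_⟩
    intro φ hφ
    refine ⟨φ, hφ, ?_⟩
    rw [isConjCharOf_iff]
    exact (Helper15.cj_of_mem N (inv_mem hx) (irr_isClassFunction φ)).symm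

end Cfsg.Agent.S4673
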