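import Cfsg.Statements.S4676
import Cfsg.Agent.Lib.Helper78.BrauerFeit
import Cfsg.Agent.S0164

set_option autoImplicit false
open Cfsg

namespace Cfsg.Agent.S4676

/-- Fix a prime p and a maximal ideal M of the algebraic integers containing p. Let B be a p-block of the finite group G with defect group P. For χ in B, let the height of χ be the exponent of p in the degree of χ minus the least such exponent over the members of B. Then the sum over χ in B of p raised to twice the height of χ is at most the integer part of (order of P)²/4, plus 1; in particular B has at most that many irreducible characters. -/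
theorem result {G : Type*} [Group G] [Fintype G] (p : ℕ) [Fact p.Prime] (M : Ideal Cfsg.AlgInt) (hM : Cfsg.IsPModular p M) (B : Set (Cfsg.IrrCharacter G)) (hB : Cfsg.IsPBlock M B) (P : Subgroup G) (hP : Cfsg.IsDefectGroup p M B P) : ∑ᶠ χ ∈ B, p ^ (2 * Cfsg.blockHeight p B (χ : G → ℂ)) ≤ Nat.card P ^ 2 / 4 + 1 := by
  classical
  have h1 := Lib.Helper78.four_mul_sum_heights_le
    (fun θ hθ hE => Cfsg.Agent.S0164.result θ hθ hE) hM hB
  rw [Lib.Helper78.card_of_isDefectGroup hM hB hP, Lib.Helper78.finsum_mem_irr]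
  have h2 : 4 * (∑ ψ : Cfsg.IrrCharacter G,
      (if ψ ∈ B then p ^ (2 * Cfsg.blockHeight p B (ψ : G → ℂ)) else 0)) ≤
      (p ^ Cfsg.blockDefect p B) ^ 2 + 4 := by
    have h3 : ((∑ ψ : Cfsg.IrrCharacter G,
        (if ψ ∈ B then p ^ (2 * Cfsg.blockHeight p B (ψ : G → ℂ)) else 0) : ℕ) : ℤ) =
        ∑ ψ : Cfsg.IrrCharacter G,
          (if ψ ∈ B then (p : ℤ) ^ (2 * Cfsg.blockHeight p B (ψ : G → ℂ)) else 0) := by
      push_cast
      rfl
    have h4 : (4 : ℤ) * ((∑ ψ : Cfsg.IrrCharacter G,
        (if ψ ∈ B then p ^ (2 * Cfsg.blockHeight p B (ψ : G → ℂ)) else 0) : ℕ) : ℤ) ≤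
        ((p : ℤ) ^ Cfsg.blockDefect p B) ^ 2 + 4 := by
      rw [h3]; exact h1
    exact_mod_cast h4
  omega

end Cfsg.Agent.S4676
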