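import Cfsg.Statements.S4678
import Cfsg.Agent.Lib.Helper77.BFus

set_option autoImplicit false
open Cfsg Cfsg.Agent.Lib.Helper77
open Cfsg

namespace Cfsg.Agent.S4678

/-- Fix a prime p and a maximal ideal M of the algebraic integers containing p, a p-block B of the finite group G with maximal Brauer pair (P, e), its fusion system F on P, and a Brauer pair (Q, f) ≤ (P, e). Then Q is fully centralized in F if and only if C_P(Q) is a defect group of f as a block of C_G(Q). -/
theorem result {G : Type*} [Group G] [Fintype G] (p : ℕ) [Fact p.Prime] (M : Ideal Cfsg.AlgInt) (hM : Cfsg.IsPModular p M) (B : Set (Cfsg.IrrCharacter G)) (P : Subgroup G) (e : Set (Cfsg.IrrCharacter (Subgroup.centralizer (P : Set G)))) (hmax : Cfsg.IsMaximalBrauerPair p M B P e) (F : Cfsg.FusionSystem P) (hF : Cfsg.IsBlockFusionSystemOn p M B P e F) (Q : Subgroup G) (f : Set (Cfsg.IrrCharacter (Subgroup.centralizer (Q : Set G)))) (hQP : Q ≤ P) (hf : Cfsg.IsPBlock M f) (hle : Cfsg.SubpairLE p M Q f P e) : F.IsFullyCentralized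 Q ↔ Cfsg.IsDefectGroup p M f ((P ⊓ Subgroup.centralizer (Q : Set G)).subgroupOf (Subgroup.centralizer (Q : Set G))) := by
  have hPr : M.IsPrime := hM.2.1.isPrime
  have := resF_charP hM
  have hdec := hasBlockDecomp (G := G) M
  obtain ⟨hBe, hmx⟩ := (isMaximalBrauerPair_iff M hM B P e).1 hmax
  obtain ⟨hPe, hB, hblk⟩ := (isBrauerPairOf_iff M hM B P e).1 hBe
  have hA := SubpairLE.toALE M hM hle
  rw [isDefectGroup_subgroupOf_iff M hM hf inf_le_right]
  constructor
  · rintro ⟨-, hfull⟩
    exact isDef_cen_of_fully M hM hB hmx hblk hA (fun t ht =>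
      hfull _ ((isConj_iff M hM hF hA _).2 ⟨t, ht, rfl⟩))
  · intro hdef
    refine ⟨hQP, fun Q' hQ' => ?_⟩
    obtain ⟨t, ht, rfl⟩ := (isConj_iff M hM hF hA _).1 hQ'
    have hne := trunc_cen_inf_ne_zero hdec hmx.1 ht
    have hdef' := hdef.cj t
    have hf' := isPBlock_conjBlock M t hf
    have h1 : cjP t (toA M ⟨Q, f⟩) = toA M ⟨Q.map (MulAut.conj t).toMonoidHom, conjBlock Q t f⟩ :=
      (toA_conjBlock M Q t f).symm
    have h2 : (Cen Q).map (MulAut.conj t).toMonoidHom = Cen (Q.map (MulAut.conj t).toMonoidHom) :=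
      (centralizer_map_conj Q t).symm
    have h3 : cj t (idem M (Cen Q) f)
        = idem M (Cen (Q.map (MulAut.conj t).toMonoidHom)) (conjBlock Q t f) :=
      congrArg Prod.snd h1
    rw [h2, h3] at hdef'
    have h4 := IsDef.card_le M hM hf' hdef' (S := P ⊓ Cen (Q.map (MulAut.conj t).toMonoidHom))
      inf_le_right (hPe.1.to_le inf_le_left) (by rw [← h3]; exact hne)
    rw [card_map_conj] at h4
    exact h4

end Cfsg.Agent.S4678
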