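import Cfsg.Statements.S4679
import Cfsg.Agent.Lib.Helper77.BFus

set_option autoImplicit false
open Cfsg Cfsg.Agent.Lib.Helper77
open Cfsg

namespace Cfsg.Agent.S4679

/-- Fix a prime p and a maximal ideal M of the algebraic integers containing p, a p-block B of the finite group G with maximal Brauer pair (P, e), its fusion system F on P, a Brauer pair (Q, f) ≤ (P, e), and let T be the stabilizer of f in N_G(Q). Then Q is fully normalized in F if and only if N_P(Q) is a defect group of the block of T whose idempotent is that of f. -/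
theorem result {G : Type*} [Group G] [Fintype G] (p : ℕ) [Fact p.Prime] (M : Ideal Cfsg.AlgInt) (hM : Cfsg.IsPModular p M) (B : Set (Cfsg.IrrCharacter G)) (P : Subgroup G) (e : Set (Cfsg.IrrCharacter (Subgroup.centralizer (P : Set G)))) (hmax : Cfsg.IsMaximalBrauerPair p M B P e) (F : Cfsg.FusionSystem P) (hF : Cfsg.IsBlockFusionSystemOn p M B P e F) (Q : Subgroup G) (f : Set (Cfsg.IrrCharacter (Subgroup.centralizer (Q : Set G)))) (hQP : Q ≤ P) (hf : Cfsg.IsPBlock M f) (hle : Cfsg.SubpairLE p M Q f P e) (T : Subgroup G) (hT : ∀ y : G, y ∈ T ↔ y ∈ Subgroup.normalizer (Q : Set G) ∧ Cfsg.StabilizesBlock (Subgroup.centralizer (Q : Set G)) f y) : F.IsFullyNormalized Q ↔ ∃ F' : Set (Cfsg.IrrCharacter T), Cfsg.IsPBlock M F' ∧ (∀ t : T, Cfsg.blockCoeff F' t = Cfsg.subgroupBlockCoeff (Subgroup.centralizer (Q : Set G)) f (t : G)) ∧ Cfsg.IsDefectGroup p M F' ((P ⊓ Subgroup.normalizer (Q : Set G)).subgroupOf T) := by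
  have hPr : M.IsPrime := hM.2.1.isPrime
  have := resF_charP hM
  have hdec := hasBlockDecomp (G := G) M
  obtain ⟨hBe, hmx⟩ := (isMaximalBrauerPair_iff M hM B P e).1 hmax
  obtain ⟨hPe, hB, hblk⟩ := (isBrauerPairOf_iff M hM B P e).1 hBe
  have hA := SubpairLE.toALE M hM hle
  obtain ⟨hQT, hCT, hTN, hfix, hTmem⟩ := stab_facts M hf hT
  constructor
  · rintro ⟨-, hfull⟩
    obtain ⟨F', hF', hFe, -, hFc⟩ :=
      exists_block_of_stab M hM (hPe.1.to_le hQP) hf hQT hCT hTN hfix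
    have h1 := isDef_nor_of_fully M hM hB hmx hblk hA (fun t ht =>
      hfull _ ((isConj_iff M hM hF hA _).2 ⟨t, ht, rfl⟩)) hTN hfix hTmem
    refine ⟨F', hF', hFc, ?_⟩
    apply (isDefectGroup_subgroupOf_iff M hM hF' h1.1).2
    rw [hFe]
    exact h1
  · rintro ⟨F', hF', hFc, hD⟩
    have hFe : idem M T F' = idem M (Cen Q) f := idem_eq_of_coeff M hCT hFc
    obtain ⟨g₀, hg₀, -⟩ := hA.exists_normal hdec hmx.1
      (R := P ⊓ Subgroup.normalizer (Q : Set G)) (le_inf hQP Subgroup.le_normalizer)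
      inf_le_left inf_le_right
    have hRT : P ⊓ Subgroup.normalizer (Q : Set G) ≤ T :=
      fun u hu => hTmem u hu.2 (hg₀.2.2.2.2.1 u hu)
    have hdef := (isDefectGroup_subgroupOf_iff M hM hF' hRT).1 hD
    refine ⟨hQP, fun Q' hQ' => ?_⟩
    obtain ⟨t, ht, rfl⟩ := (isConj_iff M hM hF hA _).1 hQ'
    obtain ⟨g, hg, -⟩ := ht.exists_normal hdec hmx.1
      (R := P ⊓ Subgroup.normalizer ((cjP t (toA M ⟨Q, f⟩)).1 : Set G))
      (le_inf ht.le Subgroup.le_normalizer) inf_le_left inf_le_right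
    have hg' := hg.cjP t⁻¹
    rw [cjP_inv_cjP] at hg'
    have h4 := IsDef.card_le M hM hF' hdef
      (S := (P ⊓ Subgroup.normalizer ((cjP t (toA M ⟨Q, f⟩)).1 : Set G)).map
        (MulAut.conj t⁻¹).toMonoidHom)
      (fun u hu => hTmem u (hg'.2.2.2.1 hu) (hg'.2.2.2.2.1 u hu))
      ((hPe.1.to_le inf_le_left).map _) (by rw [hFe]; exact hg'.trunc_ne_zero)
    rw [card_map_conj] at h4
    exact h4

end Cfsg.Agent.S4679
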