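import Cfsg.Statements.S4680
import Cfsg.Agent.Lib.Helper77.BFus

set_option autoImplicit false
open Cfsg Cfsg.Agent.Lib.Helper77
open Cfsg

namespace Cfsg.Agent.S4680

/-- Fix a prime p and a maximal ideal M of the algebraic integers containing p, a p-block B of the finite group G with maximal Brauer pair (P, e), its fusion system F on P, and a Brauer pair (Q, f) ≤ (P, e). Then Q is centric in F if and only if Z(Q) is a defect group of f as a block of C_G(Q). -/
theorem result {G : Type*} [Group G] [Fintype G] (p : ℕ) [Fact p.Prime] (M : Ideal Cfsg.AlgInt) (hM : Cfsg.IsPModular p M) (B : Set (Cfsg.IrrCharacter G)) (P : Subgroup G) (e : Set (Cfsg.IrrCharacter (Subgroup.centralizer (P : Set G)))) (hmax : Cfsg.IsMaximalBrauerPair p M B P e) (F : Cfsg.FusionSystem P) (hF : Cfsg.IsBlockFusionSystemOn p M B P e F) (Q : Subgroup G) (f : Set (Cfsg.IrrCharacter (Subgroup.centralizer (Q : Set G)))) (hQP : Q ≤ P) (hf : Cfsg.IsPBlock M f) (hle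 : Cfsg.SubpairLE p M Q f P e) : F.IsCentric Q ↔ Cfsg.IsDefectGroup p M f ((Q ⊓ Subgroup.centralizer (Q : Set G)).subgroupOf (Subgroup.centralizer (Q : Set G))) := by
  have hPr : M.IsPrime := hM.2.1.isPrime
  have := resF_charP hM
  have hdec := hasBlockDecomp (G := G) M
  obtain ⟨hBe, hmx⟩ := (isMaximalBrauerPair_iff M hM B P e).1 hmax
  obtain ⟨hPe, hB, hblk⟩ := (isBrauerPairOf_iff M hM B P e).1 hBe
  have hA := SubpairLE.toALE M hM hle
  rw [isDefectGroup_subgroupOf_iff M hM hf inf_le_right]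
  have hmapinf : ∀ t : G, (Q ⊓ Cen Q).map (MulAut.conj t).toMonoidHom
      = Q.map (MulAut.conj t).toMonoidHom ⊓ Cen (Q.map (MulAut.conj t).toMonoidHom) := by
    intro t
    rw [cen_map_conj, map_conj_inf]
  constructor
  · rintro ⟨-, hcen⟩
    obtain ⟨t, ht, hmaxt⟩ := exists_max_conj hA (fun z => Nat.card ↥(P ⊓ Cen z.1))
    have h1 := isDef_cen_of_fully M hM hB hmx hblk ht (fun s hs => by
      rw [cjP_cjP] at hs ⊢
      exact hmaxt _ hs)
    have h2 : P ⊓ Cen (cjP t (toA M ⟨Q, f⟩)).1 ≤ (cjP t (toA M ⟨Q, f⟩)).1 :=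
      hcen _ ((isConj_iff M hM hF hA _).2 ⟨t, ht, rfl⟩)
    have h3 : (toA M ⟨P, e⟩).1 ⊓ Cen (cjP t (toA M ⟨Q, f⟩)).1
        = (Q ⊓ Cen Q).map (MulAut.conj t).toMonoidHom := by
      rw [hmapinf]
      apply le_antisymm
      · exact le_inf h2 inf_le_right
      · exact inf_le_inf_right _ ht.le
    rw [h3, isDef_cjP_iff] at h1
    exact h1
  · intro hdef
    refine ⟨hQP, fun Q' hQ' => ?_⟩
    obtain ⟨t, ht, rfl⟩ := (isConj_iff M hM hF hA _).1 hQ'
    have hne := trunc_cen_inf_ne_zero hdec hmx.1 ht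
    have hdef' := (isDef_cjP_iff (x := toA M ⟨Q, f⟩) t).2 hdef
    have h5 := hdef'.2.2.2 (P ⊓ Cen (cjP t (toA M ⟨Q, f⟩)).1) (hPe.1.to_le inf_le_left)
      (by rw [hmapinf]; exact inf_le_inf_right _ ht.le) inf_le_right hne
    show P ⊓ Cen (cjP t (toA M ⟨Q, f⟩)).1 ≤ _
    rw [h5, hmapinf]
    exact inf_le_left

end Cfsg.Agent.S4680
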