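import Cfsg.Statements.S4681
import Cfsg.Agent.Lib.Helper77.BFus

set_option autoImplicit false
open Cfsg Cfsg.Agent.Lib.Helper77
open Cfsg

namespace Cfsg.Agent.S4681

/-- Fix a prime p and a maximal ideal M of the algebraic integers containing p. Let B₀ be the principal p-block of the finite group G, P a Sylow p-subgroup and e₀ the principal p-block of C_G(P). Then (P, e₀) is a maximal Brauer pair of B₀, and the fusion system of B₀ on (P, e₀) is the fusion system of G on P: its maps from each subgroup of P are exactly the conjugation maps into P by elements of G. -/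
theorem result {G : Type*} [Group G] [Fintype G] (p : ℕ) [Fact p.Prime] (M : Ideal Cfsg.AlgInt) (hM : Cfsg.IsPModular p M) (S : Sylow p G) : Cfsg.IsMaximalBrauerPair p M (Cfsg.principalBlock M G) (S : Subgroup G) (Cfsg.principalBlock M (Subgroup.centralizer ((S : Subgroup G) : Set G))) ∧ ∀ F : Cfsg.FusionSystem (S : Subgroup G), Cfsg.IsBlockFusionSystemOn p M (Cfsg.principalBlock M G) (S : Subgroup G) (Cfsg.principalBlock M (Subgroup.centralizer ((S : Subgroup G) : Set G))) F → ∀ Q : Subgroup G, F.Hom Q = (Cfsg.groupFusionSystem (S : Subgroup G)).Hom Q := by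
  have hPr : M.IsPrime := hM.2.1.isPrime
  have := resF_charP hM
  have hdec := hasBlockDecomp (G := G) M
  have hmax : IsMaximalBrauerPair p M (principalBlock M G) (S : Subgroup G)
      (principalBlock M (Subgroup.centralizer ((S : Subgroup G) : Set G))) :=
    (isMaximalBrauerPair_iff M hM _ _ _).2
      ⟨(isBrauerPairOf_iff M hM _ _ _).2 ⟨⟨S.isPGroup', Cfsg.Agent.Lib.Helper78.isPBlock_principalBlock⟩,
        Cfsg.Agent.Lib.Helper78.isPBlock_principalBlock, isABlockOf_prinA M hM S.isPGroup'⟩,
        isAMax_prinA M S⟩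
  refine ⟨hmax, fun F hF Q => ?_⟩
  have hy : IsAPair p (prinA M (S : Subgroup G)) := isAPair_prinA M S.isPGroup'
  ext φ
  rw [mem_hom_iff M hM hF]
  constructor
  · rintro ⟨g, hg, f, h1, h2⟩
    refine ⟨h1.le, fun x => ?_, g, hg⟩
    rw [hg]
    exact h2.le ⟨x, x.2, rfl⟩
  · rintro ⟨hQS, hφ, g, hg⟩
    obtain ⟨f, hf⟩ := exists_ALE' hdec hy (Q := Q) hQS
    have hQg : Q.map (MulAut.conj g).toMonoidHom ≤ (S : Subgroup G) := by
      rintro _ ⟨u, hu, rfl⟩
      have := hφ ⟨u, hu⟩
      rwa [hg] at this
    obtain ⟨f', hf'⟩ := exists_ALE' hdec hy (Q := Q.map (MulAut.conj g).toMonoidHom) hQg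
    refine ⟨g, hg, f, hf, ?_⟩
    have h1 : aug f = 1 := hf.aug_eq_one (aug_prinA M _)
    have h2 : aug f' = 1 := hf'.aug_eq_one (aug_prinA M _)
    have h3 := (hf.isAPair_left hy).cjP g
    have h4 := hf'.isAPair_left hy
    rcases h3.2.eq_or_mul_eq_zero h4.2 with h | h
    · have : cjP g ((Q, f) : APair (ResF M) G) = (Q.map (MulAut.conj g).toMonoidHom, f') :=
        Prod.ext rfl h
      rw [this]
      exact hf'
    · exfalso
      have h5 := congrArg aug h
      rw [aug_mul] at h5
      have h6 : aug (cjP g ((Q, f) : APair (ResF M) G)).2 = 1 := by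
        show aug (cj g f) = 1
        rw [aug_cj, h1]
      rw [h6] at h5
      simp only at h5
      rw [h2] at h5
      simp [aug] at h5

end Cfsg.Agent.S4681
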