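import Cfsg.Statements.S4682
import Cfsg.Agent.Lib.Helper77.Abel

set_option autoImplicit false
open Cfsg Cfsg.Agent.Lib.Helper77
open Cfsg

namespace Cfsg.Agent.S4682

/-- Fix a prime p and a maximal ideal M of the algebraic integers containing p, a p-block B of the finite group G with maximal Brauer pair (P, e), P abelian, and a Brauer pair (Q, f) ≤ (P, e). Let T_Q be the stabilizer of f in N_G(Q) and T_P the stabilizer of e in N_G(P). Then every element of T_Q is a product of an element of T_P and an element of C_G(Q); and the index of C_G(Q) in T_Q equals the index of T_P ∩ C_G(Q) in T_P ∩ N_G(Q). -/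
theorem result {G : Type*} [Group G] [Fintype G] (p : ℕ) [Fact p.Prime] (M : Ideal Cfsg.AlgInt) (hM : Cfsg.IsPModular p M) (B : Set (Cfsg.IrrCharacter G)) (P : Subgroup G) (e : Set (Cfsg.IrrCharacter (Subgroup.centralizer (P : Set G)))) (hmax : Cfsg.IsMaximalBrauerPair p M B P e) (hab : ∀ x ∈ P, ∀ y ∈ P, x * y = y * x) (Q : Subgroup G) (f : Set (Cfsg.IrrCharacter (Subgroup.centralizer (Q : Set G)))) (hQP : Q ≤ P) (hf : Cfsg.IsPBlock M f) (hle : Cfsg.SubpairLE p M Q f P e) (TQ : Subgroup G) (hTQ : ∀ y : G, y ∈ TQ ↔ y ∈ Subgroup.normalizer (Q : Set G) ∧ Cfsg.StabilizesBlock (Subgroup.centralizer (Q : Set G)) f y) (TP : Subgroup G) (hTP : ∀ y : G, y ∈ TP ↔ y ∈ Subgroup.normalizer (P : Set G) ∧ Cfsg.StabilizesBlock (Subgroup.centralizer (P : Set G)) e y) : (∀ x ∈ TQ, ∃ y ∈ TP, ∃ c ∈ Subgroup.centralizer (Q : Set G), x = y * c) ∧ ((Subgroup.centralizer (Q : Set G)).subgroupOf TQ).index = ((TP ⊓ Subgroup.centralizer (Q : Set G)).subgroupOf (TP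 ⊓ Subgroup.normalizer (Q : Set G))).index := by
  have hPr : M.IsPrime := hM.2.1.isPrime
  have := resF_charP hM
  have hdec := hasBlockDecomp (G := G) M
  obtain ⟨hBe, hmx⟩ := (isMaximalBrauerPair_iff M hM B P e).1 hmax
  obtain ⟨hPe, hB, hblk⟩ := (isBrauerPairOf_iff M hM B P e).1 hBe
  have hA := SubpairLE.toALE M hM hle
  have habC : P ≤ Cen P := fun x hx => Subgroup.mem_centralizer_iff.2 (fun y hy => hab y hy x hx)
  have hTQ' : TQ = stabP (toA M ⟨Q, f⟩) := by
    ext g; rw [hTQ, mem_stabP_toA_iff M hf]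
  have hTP' : TP = stabP (toA M ⟨P, e⟩) := by
    ext g; rw [hTP, mem_stabP_toA_iff M hPe.2]
  have hfac : ∀ x ∈ TQ, ∃ y ∈ TP, ∃ c ∈ Subgroup.centralizer (Q : Set G), x = y * c := by
    intro x hx
    rw [hTQ'] at hx
    rw [hTP']
    exact stab_factor_of_abelian M hM hB hmx hblk hA habC hx
  refine ⟨hfac, ?_⟩
  have hxP : IsAPair p (toA M ⟨Q, f⟩) := hA.isAPair_left hmx.1
  have hCT : Cen Q ≤ TQ := by rw [hTQ']; exact cen_le_stabP hxP
  have hTN : TQ ≤ Subgroup.normalizer (Q : Set G) := by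
    rw [hTQ']; exact stabP_le_normalizer _
  have hAT : TP ⊓ Subgroup.normalizer (Q : Set G) ≤ TQ := by
    rw [hTQ', hTP']; exact stabP_inf_normalizer_le hdec hmx.1 hA
  have hnorm : ((Cen Q).subgroupOf TQ).Normal :=
    (Subgroup.normal_subgroupOf_iff_le_normalizer hCT).2
      (hTN.trans (normalizer_le_normalizer_centralizer Q))
  have htop : (TP ⊓ Subgroup.normalizer (Q : Set G)).subgroupOf TQ ⊔ (Cen Q).subgroupOf TQ = ⊤ := by
    rw [eq_top_iff]
    rintro ⟨x, hx⟩ -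
    obtain ⟨y, hy, c, hc, hxyc⟩ := hfac x hx
    have hyT : y ∈ TQ := by
      have : y = x * c⁻¹ := by rw [hxyc]; group
      rw [this]
      exact TQ.mul_mem hx (TQ.inv_mem (hCT hc))
    have : (⟨x, hx⟩ : TQ) = ⟨y, hyT⟩ * ⟨c, hCT hc⟩ := Subtype.ext hxyc
    rw [this]
    exact Subgroup.mul_mem_sup (show y ∈ TP ⊓ Subgroup.normalizer (Q : Set G) from ⟨hy, hTN hyT⟩)
      (show c ∈ Cen Q from hc)
  have h1 : ((Cen Q).subgroupOf TQ).index
      = (Cen Q).relIndex (TP ⊓ Subgroup.normalizer (Q : Set G)) := by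
    rw [← Subgroup.relIndex_top_right, ← htop, Subgroup.relIndex_sup_right,
      Subgroup.relIndex_subgroupOf hAT]
  have h2 : TP ⊓ Subgroup.centralizer (Q : Set G)
      = (TP ⊓ Subgroup.normalizer (Q : Set G)) ⊓ Cen Q := by
    rw [inf_assoc, inf_eq_right.2 (Subgroup.centralizer_le_normalizer (Q : Set G))]
  rw [h1, h2]
  exact (Subgroup.inf_relIndex_left _ _).symm

end Cfsg.Agent.S4682
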