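import Cfsg.Statements.S4683
-- import your own Cfsg.Agent.* helpers here

import Cfsg.Agent.Lib.Helper97.Subsection
import Cfsg.Agent.Lib.Helper77.Induced
import Cfsg.Agent.Lib.Helper77.Dict5

set_option autoImplicit false
open Cfsg

namespace Cfsg.Agent.S4683

open Cfsg.Agent.Lib.Helper78 Cfsg.Agent.Lib.Helper97

theorem aux {G : Type*} [Group G] [Fintype G] (p : ℕ) [Fact p.Prime] (M : Ideal Cfsg.AlgInt)
    (hM : Cfsg.IsPModular p M) (B : Set (Cfsg.IrrCharacter G)) (u : G)
    (hu : ∃ k : ℕ, orderOf u = p ^ k) (H : Subgroup G)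
    (hH : H = Subgroup.centralizer ({u} : Set G)) (e : Set (Cfsg.IrrCharacter H))
    (he : IsInducedBlock M H e B) :
    ∑ᶠ χ ∈ B, ∑ᶠ s : H, Cfsg.pRegularPart p (Cfsg.blockPart e (fun c : H =>
      (χ : G → ℂ) (u * c))) s * Cfsg.blockPart e (fun c : H => (χ : G → ℂ) (u⁻¹ * c)) s⁻¹
      = (Nat.card H : ℂ) * (Cfsg.blockRank p e : ℂ) := by
  subst hH
  exact sum_subsection_norm hM u hu he

/-- Fix a prime p and a maximal ideal M of the algebraic integers containing p, a p-block B of the finite group G, a p-element u and a p-block e of C = C_G(u) such that (⟨u⟩, e) is a Brauer pair of B (a Brauer element of B). For χ ∈ B let χ_u be the e-part of the class function c ↦ χ(u c) on C and χ_u' the e-part of c ↦ χ(u⁻¹ c). Then the sum over χ ∈ B and over the p-regular elements s of C of χ_u(s)·χ_u'(s⁻¹) equals the order of C times the p-regular rank of e (the number of irreducible Brauer characters of e). -/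
theorem result {G : Type*} [Group G] [Fintype G] (p : ℕ) [Fact p.Prime] (M : Ideal Cfsg.AlgInt) (hM : Cfsg.IsPModular p M) (B : Set (Cfsg.IrrCharacter G)) (u : G) (hu : ∃ k : ℕ, orderOf u = p ^ k) (e : Set (Cfsg.IrrCharacter (Subgroup.centralizer (Subgroup.zpowers u : Set G)))) (hBe : Cfsg.IsBrauerPairOf p M B (Subgroup.zpowers u) e) : ∑ᶠ χ ∈ B, ∑ᶠ s : Subgroup.centralizer (Subgroup.zpowers u : Set G), Cfsg.pRegularPart p (Cfsg.blockPart e (fun c : Subgroup.centralizer (Subgroup.zpowers u : Set G) => (χ : G → ℂ) (u * c))) s * Cfsg.blockPart e (fun c : Subgroup.centralizer (Subgroup.zpowers u : Set G) => (χ : G → ℂ) (u⁻¹ * c)) s⁻¹ = (Nat.card (Subgroup.centralizer (Subgroup.zpowers u : Set G)) : ℂ) * (Cfsg.blockRank p e : ℂ) := by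
  have hP : M.IsPrime := hM.2.1.isPrime
  obtain ⟨⟨hPp, he⟩, hB, hblk⟩ :=
    (Cfsg.Agent.Lib.Helper77.isBrauerPairOf_iff M hM B (Subgroup.zpowers u) e).1 hBe
  have hle : Subgroup.zpowers u ≤ Subgroup.centralizer (Subgroup.zpowers u : Set G) := by
    intro a ha b hb
    obtain ⟨i, rfl⟩ := Subgroup.mem_zpowers_iff.1 ha
    obtain ⟨j, rfl⟩ := Subgroup.mem_zpowers_iff.1 hb
    exact ((Commute.refl u).zpow_zpow j i).eq
  have hind : IsInducedBlock M (Subgroup.centralizer (Subgroup.zpowers u : Set G)) e B :=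
    (Cfsg.Agent.Lib.Helper77.isInducedBlock_iff_trunc M hM hPp hle le_rfl
      (Subgroup.centralizer_le_normalizer _) he hB).2 hblk.2
  refine aux p M hM B u hu _ ?_ e hind
  rw [Subgroup.zpowers_eq_closure, Subgroup.centralizer_closure]

end Cfsg.Agent.S4683
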