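import Cfsg.Statements.S4687
import Cfsg.Agent.Lib.Helper77.Abel

set_option autoImplicit false
open Cfsg Cfsg.Agent.Lib.Helper77
open Cfsg

namespace Cfsg.Agent.S4687

/-- Fix a prime p and a maximal ideal M of the algebraic integers containing p, and a p-block B of the finite group G with maximal Brauer pair (P, e), P abelian. Then B is nilpotent if and only if its inertial quotient is trivial: every element of N_G(P) stabilizing e centralizes P. -/
theorem result {G : Type*} [Group G] [Fintype G] (p : ℕ) [Fact p.Prime] (M : Ideal Cfsg.AlgInt) (hM : Cfsg.IsPModular p M) (B : Set (Cfsg.IrrCharacter G)) (P : Subgroup G) (e : Set (Cfsg.IrrCharacter (Subgroup.centralizer (P : Set G)))) (hmax : Cfsg.IsMaximalBrauerPair p M B P e) (hab : ∀ x ∈ P, ∀ y ∈ P, x * y = y * x) : Cfsg.IsNilpotentBlock p M B ↔ ∀ x : G, x ∈ Subgroup.normalizer (P : Set G) → Cfsg.StabilizesBlock (Subgroup.centralizer (P : Set G)) e x → x ∈ Subgroup.centralizer (P : Set G) := by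
  have hPr : M.IsPrime := hM.2.1.isPrime
  obtain ⟨hBe, hmx⟩ := (isMaximalBrauerPair_iff M hM B P e).1 hmax
  obtain ⟨hPe, hB, hblk⟩ := (isBrauerPairOf_iff M hM B P e).1 hBe
  have habC : P ≤ Cen P := fun x hx => Subgroup.mem_centralizer_iff.2 (fun y hy => hab y hy x hx)
  rw [isNilpotentBlock_iff M hM, isANil_iff_of_abelian M hM hB hmx hblk habC]
  constructor
  · rintro ⟨-, h⟩ x hx hst
    exact h ((mem_stabP_toA_iff M hPe.2).2 ⟨hx, hst⟩)
  · intro h
    refine ⟨hB, fun g hg => ?_⟩
    obtain ⟨h1, h2⟩ := (mem_stabP_toA_iff M hPe.2).1 hg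
    exact h g h1 h2

end Cfsg.Agent.S4687
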