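import Cfsg.Statements.S4688
import Cfsg.Agent.Lib.Helper77.Local
import Cfsg.Agent.S4678

set_option autoImplicit false
open Cfsg Cfsg.Agent.Lib.Helper77
open Cfsg

namespace Cfsg.Agent.S4688

/-- Fix a prime p and a maximal ideal M of the algebraic integers containing p, and a nilpotent p-block B of the finite group G with maximal Brauer pair (P, e). Then for every Brauer pair (Q, f) of B, f is a nilpotent block of C_G(Q); and if moreover (Q, f) ≤ (P, e), then C_P(Q) is a defect group of f as a block of C_G(Q). -/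
theorem result {G : Type*} [Group G] [Fintype G] (p : ℕ) [Fact p.Prime] (M : Ideal Cfsg.AlgInt) (hM : Cfsg.IsPModular p M) (B : Set (Cfsg.IrrCharacter G)) (P : Subgroup G) (e : Set (Cfsg.IrrCharacter (Subgroup.centralizer (P : Set G)))) (hmax : Cfsg.IsMaximalBrauerPair p M B P e) (hnil : Cfsg.IsNilpotentBlock p M B) (Q : Subgroup G) (f : Set (Cfsg.IrrCharacter (Subgroup.centralizer (Q : Set G)))) (hQf : Cfsg.IsBrauerPairOf p M B Q f) : Cfsg.IsNilpotentBlock p M f ∧ (Cfsg.SubpairLE p M Q f P e → Cfsg.IsDefectGroup p M f ((P ⊓ Subgroup.centralizer (Q : Set G)).subgroupOf (Subgroup.centralizer (Q : Set G)))) := by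
  have hPr : M.IsPrime := hM.2.1.isPrime
  obtain ⟨hBe, hmx⟩ := (isMaximalBrauerPair_iff M hM B P e).1 hmax
  obtain ⟨hPe, hB, hblk⟩ := (isBrauerPairOf_iff M hM B P e).1 hBe
  obtain ⟨hQf', -, hxb⟩ := (isBrauerPairOf_iff M hM B Q f).1 hQf
  have hnilA := ((isNilpotentBlock_iff M hM B).1 hnil).2
  constructor
  · haveI : Fintype ↥(Subgroup.centralizer (Q : Set G)) := Fintype.ofFinite _
    exact (isNilpotentBlock_iff M hM f).2 ⟨hQf'.2, isANil_cen M hM hnilA hQf' hxb⟩
  · intro hle
    obtain ⟨F, hF⟩ := exists_isBlockFusionSystemOn M hM hmax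
    have hin := (isANil_iff_inner M hM hF).1 hnilA
    have hQP : Q ≤ P := (SubpairLE.toALE M hM hle).le
    apply (Cfsg.Agent.S4678.result p M hM B P e hmax F hF Q f hQP hQf'.2 hle).1
    refine ⟨hQP, fun Q' hQ' => ?_⟩
    obtain ⟨φ, hφ, rfl⟩ := hQ'
    rw [hin] at hφ
    obtain ⟨-, u, hu, hu'⟩ := hφ
    rw [range_eq_map_conj hu']
    have h1 : FusionSystem.centralizerIn P (Q.map (MulAut.conj u).toMonoidHom)
        = (FusionSystem.centralizerIn P Q).map (MulAut.conj u).toMonoidHom := by
      unfold FusionSystem.centralizerIn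
      rw [map_conj_inf, map_conj_eq_of_mem_normalizer (Subgroup.le_normalizer hu)]
      congr 1
      exact cen_map_conj Q u
    rw [h1, card_map_conj]

end Cfsg.Agent.S4688
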