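import Cfsg.Statements.S4692
import Cfsg.Agent.Lib.Helper77.PIndex

set_option autoImplicit false
open Cfsg Cfsg.Agent.Lib.Helper77
open Cfsg

namespace Cfsg.Agent.S4692

/-- Fix a prime p and a maximal ideal M of the algebraic integers containing p. Let N be a normal subgroup of p-power index in the finite group G and c a p-block of N stable under conjugation by G, and let B be the p-block of G whose idempotent is that of c (it exists and is unique). Then c is nilpotent as a block of N if and only if B is nilpotent as a block of G. -/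
theorem result {G : Type*} [Group G] [Fintype G] (p : ℕ) [Fact p.Prime] (M : Ideal Cfsg.AlgInt) (hM : Cfsg.IsPModular p M) (N : Subgroup G) [N.Normal] (hN : ∃ k : ℕ, N.index = p ^ k) (c : Set (Cfsg.IrrCharacter N)) (hc : Cfsg.IsPBlock M c) (hst : ∀ x : G, Cfsg.StabilizesBlock N c x) (B : Set (Cfsg.IrrCharacter G)) (hB : Cfsg.IsPBlock M B) (hBc : ∀ g : G, Cfsg.blockCoeff B g = Cfsg.subgroupBlockCoeff N c g) : Cfsg.IsNilpotentBlock p M c ↔ Cfsg.IsNilpotentBlock p M B := by
  classical
  haveI : M.IsPrime := Cfsg.Agent.Lib.Helper78.pmod_isPrime hM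
  haveI := Fintype.ofFinite ↥N
  have hidem : ebar M B = idem M N c := by
    rw [ebar_eq_redFn, idem_eq_redFn]
    congr 1
    funext g
    exact hBc g
  rw [isNilpotentBlock_iff M hM c, isNilpotentBlock_iff M hM B, isANil_iff_isRNil M N hc, hidem]
  constructor
  · rintro ⟨-, h⟩
    exact ⟨hB, isANil_of_isRNil M hM hN h⟩
  · rintro ⟨-, h⟩
    refine ⟨hc, isRNil_of_isANil M hM hN ?_ h⟩
    rw [← hidem]
    exact isPrimIdem_ebar M hB

end Cfsg.Agent.S4692
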