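import Cfsg.Statements.S4693
import Cfsg.Agent.Lib.Helper77.Centric
import Cfsg.Agent.S4680

set_option autoImplicit false
open Cfsg Cfsg.Agent.Lib.Helper77
open Cfsg

namespace Cfsg.Agent.S4693

/-- Fix a prime p and a maximal ideal M of the algebraic integers containing p, a p-block B of the finite group G with maximal Brauer pair (P, e) and fusion system F on P, and a Brauer pair (Q, f) ≤ (P, e) with Q centric in F. Suppose every element of G normalizes Q and stabilizes f. Then the idempotent of B agrees with that of f modulo M at every element of G, and f is the idempotent of a nilpotent block of Q·C_G(Q): some p-block of Q·C_G(Q) has the idempotent coefficients of f and is nilpotent. -/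
theorem result {G : Type*} [Group G] [Fintype G] (p : ℕ) [Fact p.Prime] (M : Ideal Cfsg.AlgInt) (hM : Cfsg.IsPModular p M) (B : Set (Cfsg.IrrCharacter G)) (P : Subgroup G) (e : Set (Cfsg.IrrCharacter (Subgroup.centralizer (P : Set G)))) (hmax : Cfsg.IsMaximalBrauerPair p M B P e) (F : Cfsg.FusionSystem P) (hF : Cfsg.IsBlockFusionSystemOn p M B P e F) (Q : Subgroup G) (f : Set (Cfsg.IrrCharacter (Subgroup.centralizer (Q : Set G)))) (hQP : Q ≤ P) (hf : Cfsg.IsPBlock M f) (hle : Cfsg.SubpairLE p M Q f P e) (hcen : F.IsCentric Q) (hG : ∀ x : G, x ∈ Subgroup.normalizer (Q : Set G) ∧ Cfsg.StabilizesBlock (Subgroup.centralizer (Q : Set G)) f x) : (∀ g : G, Cfsg.MemLocalIdeal M (Cfsg.blockCoeff B g - Cfsg.subgroupBlockCoeff (Subgroup.centralizer (Q : Set G)) f g)) ∧ ∃ F' : Set (Cfsg.IrrCharacter ↥(Q ⊔ Subgroup.centralizer (Q : Set G))), Cfsg.IsPBlock M F' ∧ (∀ t : ↥(Q ⊔ Subgroup.centralizer (Q : Set G)), Cfsg.blockCoeff F' t = Cfsg.subgroupBlockCoeff (Subgroup.centralizer (Q :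 Set G)) f (t : G)) ∧ Cfsg.IsNilpotentBlock p M F' := by
  have hPr : M.IsPrime := hM.2.1.isPrime
  have := resF_charP hM
  have hdec := hasBlockDecomp (G := G) M
  obtain ⟨hBe, hmx⟩ := (isMaximalBrauerPair_iff M hM B P e).1 hmax
  obtain ⟨hPe, hB, hblk⟩ := (isBrauerPairOf_iff M hM B P e).1 hBe
  have hA := SubpairLE.toALE M hM hle
  have hxP : IsAPair p (toA M ⟨Q, f⟩) := hA.isAPair_left hmx.1
  have hQp : IsPGroup p Q := hxP.1
  have hxb : IsABlockOf (ebar M B) (toA M ⟨Q, f⟩) := (isABlockOf_iff_of_le hdec hA).2 hblk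
  have hfix : FixedBy ⊤ (idem M (Cen Q) f) := fun g _ =>
    ((stabilizesBlock_iff_cj M hf g).1 (hG g).2).2
  constructor
  · have h1 : ebar M B = idem M (Cen Q) f :=
      ebar_eq_of_fixedBy_top M hM hB hxP hxb (fun g _ => (hG g).1) hfix
    intro g
    have h2 := congrArg (fun a => a.coeff g) h1
    simp only [ebar_eq_redFn, idem_eq_redFn, redFn, coeff_ofFun] at h2
    exact (red_eq_iff (Cfsg.Agent.Lib.Helper78.memLocalRing_blockCoeff hPr hB g)
      (memLocalRing_subgroupBlockCoeff M hf g)).1 h2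
  · have hLN : Q ⊔ Cen Q ≤ Subgroup.normalizer (Q : Set G) :=
      sup_le Subgroup.le_normalizer (Subgroup.centralizer_le_normalizer _)
    obtain ⟨F', hF', hFe, -, hFc⟩ := exists_block_of_stab M hM hQp hf le_sup_left le_sup_right
      hLN (hfix.mono le_top)
    refine ⟨F', hF', hFc, ?_⟩
    have hZ := (Cfsg.Agent.S4680.result p M hM B P e hmax F hF Q f hQP hf hle).1 hcen
    rw [isDefectGroup_subgroupOf_iff M hM hf inf_le_right] at hZ
    have hdef : IsDef p (Q ⊔ Cen Q) (idem M (Cen Q) f) Q := isDef_sup_cen hQp hxP.2.mem.1 hZ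
    have : Fintype ↥(Q ⊔ Subgroup.centralizer (Q : Set G)) := Fintype.ofFinite _
    refine (isNilpotentBlock_iff M hM F').2 ⟨hF', isANil_sup_cen M hM hQp hF' ?_⟩
    rw [hFe]
    exact hdef

end Cfsg.Agent.S4693
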