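import Cfsg.Statements.S4694
import Cfsg.Agent.Lib.Helper77.Weight
import Cfsg.Agent.Lib.Helper77.CentralDef2
import Cfsg.Agent.Lib.Helper77.Nilp
import Cfsg.Agent.Lib.Helper16.Transport2

set_option autoImplicit false
open Cfsg Cfsg.Agent.Lib.Helper77
open Cfsg

namespace Cfsg.Agent.S4694

/-- Fix a prime p and a maximal ideal M of the algebraic integers containing p, a p-block B of the finite group G and a Brauer pair (Q, e) of B. Let T be the stabilizer of e in N_G(Q) and suppose that (Q, e) carries a weight: the block of T whose idempotent is that of e contains an irreducible character χ that is constant on the cosets of Q and whose degree has p-part equal to the p-part of the index of Q in T. Then Z(Q) is a defect group of e as a block of C_G(Q), and Q is the largest normal p-subgroup of T: every p-subgroup of T normalized by T lies in Q. -/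
theorem result {G : Type*} [Group G] [Fintype G] (p : ℕ) [Fact p.Prime] (M : Ideal Cfsg.AlgInt) (hM : Cfsg.IsPModular p M) (B : Set (Cfsg.IrrCharacter G)) (Q : Subgroup G) (e : Set (Cfsg.IrrCharacter (Subgroup.centralizer (Q : Set G)))) (hQe : Cfsg.IsBrauerPairOf p M B Q e) (T : Subgroup G) (hT : ∀ y : G, y ∈ T ↔ y ∈ Subgroup.normalizer (Q : Set G) ∧ Cfsg.StabilizesBlock (Subgroup.centralizer (Q : Set G)) e y) (F' : Set (Cfsg.IrrCharacter T)) (hF' : Cfsg.IsPBlock M F') (hF'e : ∀ t : T, Cfsg.blockCoeff F' t = Cfsg.subgroupBlockCoeff (Subgroup.centralizer (Q : Set G)) e (t : G)) (χ : Cfsg.IrrCharacter T) (hχ : χ ∈ F') (hχQ : ∀ q : G, q ∈ Q → ∀ t : T, ∀ t' : T, (t' : G) = q * (t : G) → (χ : T → ℂ) t' = (χ : T → ℂ) t) (hdeg : (Cfsg.charDegree (χ : T → ℂ)).factorization p + (Nat.card Q).factorization p = (Nat.card T).factorization p) : Cfsg.IsDefectGroup p M e ((Q ⊓ Subgroup.centralizer (Q : Set G)).subgroupOf (Subgroup.centralizer (Q : Set G))) ∧ ∀ R : Subgroup G, R ≤ T → IsPGroup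 p R → (∀ t ∈ T, t ∈ Subgroup.normalizer (R : Set G)) → R ≤ Q := by
  classical
  have hp : p.Prime := Fact.out
  haveI : M.IsPrime := Cfsg.Agent.Lib.Helper78.pmod_isPrime hM
  have hMp : M.IsPrime := Cfsg.Agent.Lib.Helper78.pmod_isPrime hM
  have hpair : IsBrauerPair p M Q e := hQe.1
  have hA := isAPair_toA M hpair
  have hTeq : T = stabP (toA M ⟨Q, e⟩) := by
    ext g; rw [hT, mem_stabP_toA_iff M hpair.2]
  have hQT : Q ≤ T := by rw [hTeq]; exact le_stabP hA
  have hCT : Cen Q ≤ T := by rw [hTeq]; exact cen_le_stabP hA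
  have hTN : T ≤ Subgroup.normalizer (Q : Set G) := fun g hg => ((hT g).1 hg).1
  haveI hQn : (Q.subgroupOf T).Normal := (Subgroup.normal_subgroupOf_iff_le_normalizer hQT).2 hTN
  haveI hCn : ((Cen Q).subgroupOf T).Normal :=
    (Subgroup.normal_subgroupOf_iff_le_normalizer hCT).2
      (hTN.trans (normalizer_le_normalizer_centralizer Q))
  have hχQ' : ∀ q ∈ Q.subgroupOf T, (χ : T → ℂ) q = (χ : T → ℂ) 1 :=
    fun q hq => hχQ (q : G) hq 1 q (by simp)
  have hcardQ : Nat.card (Q.subgroupOf T) = Nat.card Q :=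
    Nat.card_congr (Subgroup.subgroupOfEquivOfLe hQT).toEquiv
  have hdeg' : (charDegree (χ : T → ℂ)).factorization p
      + (Nat.card (Q.subgroupOf T)).factorization p = (Nat.card T).factorization p := by
    rw [hcardQ]; exact hdeg
  constructor
  · obtain ⟨θ, hθ1, hθ2⟩ := exists_constituent_defect_zero (Q.subgroupOf T)
      ((Cen Q).subgroupOf T) χ hχQ' hdeg'
    have hmem : θ ∈ Cfsg.Agent.Lib.Helper16.downIrr hCT '' e := by
      refine mem_of_over_of_blockCoeff_eq _ (F := F') (fun x => ?_) hχ hθ1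
      rw [hF'e]
      unfold subgroupBlockCoeff
      by_cases hx : (x : G) ∈ Cen Q
      · rw [dif_pos hx, dif_pos (show x ∈ (Cen Q).subgroupOf T from hx)]
        exact (Cfsg.Agent.Lib.Helper16.blockCoeff_irrCongr
          (Subgroup.subgroupOfEquivOfLe hCT) e ⟨x, hx⟩).symm
      · rw [dif_neg hx, dif_neg (show x ∉ (Cen Q).subgroupOf T from hx)]
    obtain ⟨θ0, hθ0, rfl⟩ := hmem
    have hDp : IsPGroup p ((Q ⊓ Cen Q).subgroupOf (Cen Q)) :=
      (hpair.1.to_le inf_le_left).comap_subtype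
    have hDZ : (Q ⊓ Cen Q).subgroupOf (Cen Q) ≤ Subgroup.center (Cen Q) := by
      intro z hz
      rw [Subgroup.mem_center_iff]
      intro c
      apply Subtype.ext
      have h1 : (z : G) ∈ Q := (Subgroup.mem_subgroupOf.1 hz).1
      exact ((Subgroup.mem_centralizer_iff.1 c.2) z h1).symm
    have hdeg0 : (charDegree (θ0 : Cen Q → ℂ)).factorization p
        = ((Q ⊓ Cen Q).subgroupOf (Cen Q)).index.factorization p := by
      have e1 : charDegree (Cfsg.Agent.Lib.Helper16.downIrr hCT θ0 : (Cen Q).subgroupOf T → ℂ)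
          = charDegree (θ0 : Cen Q → ℂ) := rfl
      rw [← e1, hθ2]
      congr 1
      have e2 : ((Q ⊓ Cen Q).subgroupOf (Cen Q)) = Q.subgroupOf (Cen Q) := by
        ext z
        simp [Subgroup.mem_subgroupOf]
      rw [e2]
      have e3 : (Q.subgroupOf T).subgroupOf ((Cen Q).subgroupOf T)
          = (Q.subgroupOf (Cen Q)).comap (Subgroup.subgroupOfEquivOfLe hCT).toMonoidHom := by
        ext z
        rfl
      rw [e3]
      rw [Subgroup.index_comap_of_surjective (f := (Subgroup.subgroupOfEquivOfLe hCT).toMonoidHom) _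
        (Subgroup.subgroupOfEquivOfLe hCT).surjective]
    have h5 := isDefectGroup_of_central_defect_zero hM hDp hDZ θ0 hdeg0
    have h6 : blockOf M (θ0 : Cen Q → ℂ) = e :=
      (Cfsg.Agent.Lib.Helper78.IsPBlock.eq_blockOf hMp hpair.2 hθ0).symm
    rw [h6] at h5
    exact h5
  · -- `O_p (T / Q) = 1`
    obtain ⟨ψ, hψirr, hψ⟩ := Cfsg.Agent.Lib.Helper80.exists_deflate_irr (Q.subgroupOf T) χ.2 hχQ'
    haveI := Fintype.ofFinite (T ⧸ Q.subgroupOf T)
    have hcχ : charDegree ψ = charDegree (χ : T → ℂ) := by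
      unfold charDegree
      rw [← hψ 1]
      rfl
    have e5 : (Nat.card T).factorization p = (Nat.card (Q.subgroupOf T)).factorization p
        + (Nat.card (T ⧸ Q.subgroupOf T)).factorization p := by
      rw [← (Q.subgroupOf T).card_mul_index, Nat.factorization_mul Nat.card_pos.ne'
        Subgroup.index_ne_zero_of_finite, Subgroup.index_eq_card]
      rfl
    have hdegψ : (charDegree ((⟨ψ, hψirr⟩ : IrrCharacter (T ⧸ Q.subgroupOf T)) :
        T ⧸ Q.subgroupOf T → ℂ)).factorization p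
        = (⊥ : Subgroup (T ⧸ Q.subgroupOf T)).index.factorization p := by
      rw [Subgroup.index_bot]
      show (charDegree ψ).factorization p = _
      rw [hcχ]
      omega
    have h5 := isDefectGroup_of_central_defect_zero hM (D := (⊥ : Subgroup (T ⧸ Q.subgroupOf T)))
      (IsPGroup.of_bot) bot_le ⟨ψ, hψirr⟩ hdegψ
    have h6 := Cfsg.Agent.S0912.result p M hM _ (Cfsg.Agent.Lib.Helper78.isPBlock_blockOf _) _ h5
    intro R hRT hRp hRn
    haveI hRn' : (R.subgroupOf T).Normal :=
      (Subgroup.normal_subgroupOf_iff_le_normalizer hRT).2 hRn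
    have h7 : (R.subgroupOf T).map (QuotientGroup.mk' (Q.subgroupOf T))
        ≤ pCore p (T ⧸ Q.subgroupOf T) :=
      Cfsg.Agent.Lib.Lead.le_pCore
        (Subgroup.Normal.map hRn' _ (QuotientGroup.mk'_surjective _))
        ((hRp.comap_subtype).map _)
    intro r hr
    have h8 : (QuotientGroup.mk' (Q.subgroupOf T)) ⟨r, hRT hr⟩ ∈ (⊥ : Subgroup (T ⧸ Q.subgroupOf T)) :=
      h6 (h7 ⟨⟨r, hRT hr⟩, hr, rfl⟩)
    rw [Subgroup.mem_bot] at h8
    exact (QuotientGroup.eq_one_iff (N := Q.subgroupOf T) (⟨r, hRT hr⟩ : T)).1 h8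

end Cfsg.Agent.S4694
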