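import Cfsg.Statements.S4699
import Cfsg.Agent.Lib.Helper35.TISylT1
import Cfsg.Agent.Lib.Helper35.TISylT2
import Cfsg.Agent.Lib.Helper35.TISylT3

set_option autoImplicit false
open Cfsg

namespace Cfsg.Agent.S4699

open Cfsg.Agent.Lib.Helper35.TISyl

/-- the right ideal `a * End` as an additive subgroup -/
def rIdeal {A : Type*} [Ring A] (a : A) : AddSubgroup A where
  carrier := {φ | ∃ ψ, φ = a * ψ}
  zero_mem' := ⟨0, by simp⟩
  add_mem' := by
    rintro _ _ ⟨ψ, rfl⟩ ⟨ψ', rfl⟩
    exact ⟨ψ + ψ', by rw [mul_add]⟩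
  neg_mem' := by
    rintro _ ⟨ψ, rfl⟩
    exact ⟨-ψ, by rw [mul_neg]⟩

theorem mem_rIdeal {A : Type*} [Ring A] {a φ : A} : φ ∈ rIdeal a ↔ ∃ ψ, φ = a * ψ := Iff.rfl

/-- `y^j = y^(j+1) ψ` and `y` nilpotent force `y^j = 0` -/
theorem pow_eq_zero_of_eq {A : Type*} [Ring A] {y ψ : A} {j l : ℕ} (h : y ^ j = y ^ (j + 1) * ψ)
    (hl : y ^ l = 0) : y ^ j = 0 := by
  have key : ∀ k : ℕ, y ^ j = y ^ k * y ^ j * ψ ^ k := by
    intro k
    induction k with
    | zero => simp
    | succ k ih =>
      calc y ^ j = y ^ k * y ^ j * ψ ^ k := ih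
        _ = y ^ k * (y ^ (j + 1) * ψ) * ψ ^ k := by rw [← h]
        _ = y ^ (k + 1) * y ^ j * ψ ^ (k + 1) := by
          rw [pow_succ y k, pow_succ' y j, pow_succ' ψ k]
          simp only [mul_assoc]
  rw [key l, hl, zero_mul, zero_mul]

/-- conjugation by an element of the normaliser of a cyclic `p`-group raises the generator to a
power prime to `p` -/
theorem exists_pow_of_mem_normalizer {G : Type*} [Group G] [Finite G] {p n : ℕ} [Fact p.Prime]
    (hn : 1 ≤ n) {P : Subgroup G} {x : G} (hP : P = Subgroup.zpowers x) (hx : orderOf x = p ^ n)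
    {g : G} (hg : g ∈ Subgroup.normalizer (P : Set G)) :
    ∃ m : ℕ, ¬ p ∣ m ∧ g * x * g⁻¹ = x ^ m := by
  have hxP : x ∈ P := by rw [hP]; exact Subgroup.mem_zpowers x
  have h1 : g * x * g⁻¹ ∈ P := (Subgroup.mem_normalizer_iff.1 hg x).1 hxP
  rw [hP] at h1
  obtain ⟨m, hm⟩ := (mem_powers_iff_mem_zpowers (x := x)).2 h1
  have hm' : x ^ m = g * x * g⁻¹ := hm
  refine ⟨m, fun hpm => ?_, hm'.symm⟩
  have h2 : orderOf (g * x * g⁻¹) = p ^ n := by
    rw [← hx]
    exact orderOf_injective (MulAut.conj g).toMonoidHom (MulAut.conj g).injective x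
  have h3 : (x ^ m) ^ (p ^ (n - 1)) = 1 := by
    obtain ⟨m', rfl⟩ := hpm
    rw [← pow_mul, mul_comm p m', mul_assoc, ← pow_succ', Nat.sub_add_cancel hn, mul_comm, pow_mul,
      ← hx, pow_orderOf_eq_one, one_pow]
  rw [hm'] at h3
  have h4 := orderOf_dvd_of_pow_eq_one h3
  rw [h2] at h4
  have hp : p.Prime := Fact.out
  have := (Nat.pow_dvd_pow_iff_le_right hp.one_lt).1 h4
  omega

/-- Let p be a prime and G a finite group whose Sylow p-subgroup P is cyclic of order p^n with n ≥ 2 and meets every other Sylow p-subgroup trivially. Then every faithful irreducible representation of G on a finite-dimensional space over a finite field of characteristic p has dimension at least p^n − (p − 1). -/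
theorem result {G : Type*} [Group G] [Finite G] (p : ℕ) [Fact p.Prime] (P : Sylow p G) (hcyc : IsCyclic P) (n : ℕ) (hn : 2 ≤ n) (hPn : Nat.card P = p ^ n) (hTI : ∀ Q : Sylow p G, Q ≠ P → (P : Subgroup G) ⊓ (Q : Subgroup G) = ⊥) (F : Type*) [Field F] [Finite F] [CharP F p] (V : Type*) [AddCommGroup V] [Module F V] [FiniteDimensional F V] (ρ : Representation F G V) (hfaith : Function.Injective ρ) (hirr : ρ.IsIrreducible) : p ^ n - (p - 1) ≤ Module.finrank F V := by
  classical
  cases nonempty_fintype G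
  have hp : p.Prime := Fact.out
  by_contra hlt
  push Not at hlt
  obtain ⟨l, hl⟩ : ∃ l, l = Module.finrank F V := ⟨_, rfl⟩
  rw [← hl] at hlt
  -- generator
  obtain ⟨⟨x, hxP⟩, hgen⟩ := hcyc.exists_generator
  have hPz : (P : Subgroup G) = Subgroup.zpowers x := by
    apply le_antisymm
    · intro z hz
      obtain ⟨k, hk⟩ := Subgroup.mem_zpowers_iff.1 (hgen ⟨z, hz⟩)
      exact Subgroup.mem_zpowers_iff.2 ⟨k, by simpa using congrArg Subtype.val hk⟩
    · exact Subgroup.zpowers_le.2 hxP
  have hox : orderOf x = p ^ n := by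
    have h1 := orderOf_eq_card_of_forall_mem_zpowers hgen
    rw [hPn] at h1
    rw [← h1]
    exact (Subgroup.orderOf_mk x hxP).symm
  obtain ⟨X, hX⟩ : ∃ X, X = ρ x := ⟨_, rfl⟩
  obtain ⟨Xi, hXi⟩ : ∃ Xi, Xi = ρ x⁻¹ := ⟨_, rfl⟩
  have h1 : X * Xi = 1 := by rw [hX, hXi, ← map_mul, mul_inv_cancel, map_one]
  have h2 : Xi * X = 1 := by rw [hX, hXi, ← map_mul, inv_mul_cancel, map_one]
  have hpoly : ∀ k : ℕ, (X - 1) ^ (p ^ k) = X ^ (p ^ k) - 1 := by
    intro k
    have := congrArg (Polynomial.aeval X)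
      (sub_pow_char_pow (R := Polynomial F) (p := p) (n := k) (x := Polynomial.X) (y := 1))
    simpa using this
  obtain ⟨y, hy⟩ : ∃ y, y = X - 1 := ⟨_, rfl⟩
  have hyq : y ^ (p ^ n) = 0 := by
    rw [hy, hpoly, hX, ← map_pow, ← hox, pow_orderOf_eq_one, map_one, sub_self]
  have hyl : y ^ l = 0 := by
    have h3 := Module.End.ker_pow_le_ker_pow_finrank y (p ^ n)
    rw [hyq, ← hl] at h3
    apply LinearMap.ext
    intro v
    exact h3 (by simp)
  obtain ⟨Y, hY⟩ : ∃ Y, Y = y ^ (p - 1) := ⟨_, rfl⟩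
  have hinv : ∀ g : G, ρ g * ρ g⁻¹ = 1 := fun g => by rw [← map_mul, mul_inv_cancel, map_one]
  have hinv' : ∀ g : G, ρ g⁻¹ * ρ g = 1 := fun g => by rw [← map_mul, inv_mul_cancel, map_one]
  have hcommY : ∀ u ∈ (P : Subgroup G), ρ u * Y * ρ u⁻¹ = Y := by
    intro u hu
    rw [hPz] at hu
    obtain ⟨k, rfl⟩ := Subgroup.mem_zpowers_iff.1 hu
    have c1 : Commute (x ^ k) x := (Commute.refl x).zpow_left k
    have c2 : Commute (ρ (x ^ k)) X := by
      rw [hX]; exact c1.map ρ
    have c3 : Commute (ρ (x ^ k)) Y := by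
      rw [hY, hy]
      exact (c2.sub_right (Commute.one_right _)).pow_right _
    rw [c3.eq, mul_assoc, hinv, mul_one]
  let β : G ⧸ (P : Subgroup G) → Module.End F V := fun c => ρ c.out * Y * ρ c.out⁻¹
  have key : ∀ g : G, β (g : G ⧸ (P : Subgroup G)) = ρ g * Y * ρ g⁻¹ := by
    intro g
    obtain ⟨h, hh⟩ := QuotientGroup.mk_out_eq_mul (P : Subgroup G) g
    show ρ (g : G ⧸ (P : Subgroup G)).out * Y * ρ (g : G ⧸ (P : Subgroup G)).out⁻¹ = _
    rw [hh, mul_inv_rev, map_mul, map_mul]
    calc ρ g * ρ h * Y * (ρ (h : G)⁻¹ * ρ g⁻¹) = ρ g * (ρ h * Y * ρ (h : G)⁻¹) * ρ g⁻¹ := by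
          simp only [mul_assoc]
      _ = ρ g * Y * ρ g⁻¹ := by rw [hcommY h h.2]
  have hβ : ∀ (g : G) (c : G ⧸ (P : Subgroup G)), β (g • c) = ρ g * β c * ρ g⁻¹ := by
    intro g c
    induction c using QuotientGroup.induction_on with
    | H a =>
      have : g • (a : G ⧸ (P : Subgroup G)) = ((g * a : G) : G ⧸ (P : Subgroup G)) := rfl
      rw [this, key, key, mul_inv_rev, map_mul, map_mul]
      simp only [mul_assoc]
  obtain ⟨T, hT⟩ : ∃ T, T = ∑ c, β c := ⟨_, rfl⟩
  have hTcomm : ∀ g : G, ρ g * T * ρ g⁻¹ = T := by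
    intro g
    rw [hT, Finset.mul_sum, Finset.sum_mul]
    simp only [← hβ]
    exact Fintype.sum_equiv (MulAction.toPerm g) _ _ fun _ => rfl
  have hpn : p ≤ p ^ n - l := by
    have : 1 ≤ p := hp.one_lt.le
    omega
  have hlq : l ≤ p ^ n := by omega
  -- traces from `1` to `P`
  have hW : ∀ φ : Module.End F V,
      ∑ u : (P : Subgroup G), ρ (u : G) * φ * ρ (u : G)⁻¹ ∈ rIdeal (y ^ p) := by
    intro φ
    obtain ⟨ψ, hψ⟩ := sum_conj_eq (p := p) X Xi h1 h2 n l hlq (by rw [← hy]; exact hyl) φ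
    have himg : (Finset.range (p ^ n)).image
        (fun i => (⟨x, hxP⟩ : (P : Subgroup G)) ^ i) = Finset.univ := by
      apply Finset.eq_univ_of_card
      rw [Finset.card_image_of_injOn, Finset.card_range, ← Nat.card_eq_fintype_card]
      · exact hPn.symm
      · intro i hi j hj hij
        have hi' : i < orderOf x := by rw [hox]; simpa using hi
        have hj' : j < orderOf x := by rw [hox]; simpa using hj
        have : x ^ i = x ^ j := by simpa using congrArg Subtype.val hij
        exact pow_injOn_Iio_orderOf hi' hj' this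
    have hinj : Set.InjOn (fun i => (⟨x, hxP⟩ : (P : Subgroup G)) ^ i)
        (Finset.range (p ^ n) : Set ℕ) := by
      intro i hi j hj hij
      have hi' : i < orderOf x := by rw [hox]; simpa using hi
      have hj' : j < orderOf x := by rw [hox]; simpa using hj
      have : x ^ i = x ^ j := by simpa using congrArg Subtype.val hij
      exact pow_injOn_Iio_orderOf hi' hj' this
    rw [← himg, Finset.sum_image hinj]
    have : ∑ i ∈ Finset.range (p ^ n),
        ρ (((⟨x, hxP⟩ : (P : Subgroup G)) ^ i : (P : Subgroup G)) : G) * φ *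
          ρ (((⟨x, hxP⟩ : (P : Subgroup G)) ^ i : (P : Subgroup G)) : G)⁻¹
        = ∑ i ∈ Finset.range (p ^ n), X ^ i * φ * Xi ^ i := by
      refine Finset.sum_congr rfl fun i _ => ?_
      rw [hX, hXi, ← map_pow, ← map_pow, inv_pow]
      rfl
    rw [this, hψ, ← hy]
    refine ⟨y ^ (p ^ n - l - p) * ψ, ?_⟩
    rw [← mul_assoc, ← pow_add]
    congr 2
    omega
  -- fixed and free cosets
  have hfixN : ∀ g : G, (∀ u : (P : Subgroup G), u • (g : G ⧸ (P : Subgroup G)) = g) →
      g ∈ Subgroup.normalizer ((P : Subgroup G) : Set G) := by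
    intro g hg
    exact Sylow.mem_fixedPoints_mul_left_cosets_iff_mem_normalizer.1 hg
  have hfree : ∑ c ∈ Finset.univ.filter
      (fun c : G ⧸ (P : Subgroup G) => ¬ ∀ u : (P : Subgroup G), u • c = c), β c
      ∈ rIdeal (y ^ p) := by
    apply sum_mem_of_free (P := (P : Subgroup G)) (rIdeal (y ^ p))
      (fun u φ => ρ (u : G) * φ * ρ (u : G)⁻¹) β (fun u c => hβ (u : G) c) hW
    · intro u c hc
      rw [Finset.mem_filter] at hc ⊢
      refine ⟨Finset.mem_univ _, fun hfix => hc.2 ?_⟩
      have h3 : c = u • c := by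
        have := hfix u⁻¹
        rw [inv_smul_smul] at this
        exact this
      rw [h3]
      exact hfix
    · intro c hc u huc
      rw [Finset.mem_filter] at hc
      induction c using QuotientGroup.induction_on with
      | H g =>
        have hgN : g ∉ Subgroup.normalizer ((P : Subgroup G) : Set G) := by
          intro hgN
          exact hc.2 (Sylow.mem_fixedPoints_mul_left_cosets_iff_mem_normalizer.2 hgN)
        have hne : g • P ≠ P := fun h => hgN (Sylow.smul_eq_iff_mem_normalizer.1 h)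
        have hti := hTI (g • P) hne
        have h3 : (((u : G) * g : G) : G ⧸ (P : Subgroup G)) = (g : G ⧸ (P : Subgroup G)) := huc
        rw [QuotientGroup.eq] at h3
        have h4 : (u : G) ∈ ((g • P : Sylow p G) : Subgroup G) := by
          rw [Sylow.coe_subgroup_smul, Subgroup.mem_pointwise_smul_iff_inv_smul_mem]
          have h5 : g⁻¹ * (u : G) * g ∈ (P : Subgroup G) := by
            have := (P : Subgroup G).inv_mem h3
            simpa [mul_assoc] using this
          simpa [MulAut.smul_def, mul_assoc] using h5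
        have h6 : (u : G) ∈ (P : Subgroup G) ⊓ ((g • P : Sylow p G) : Subgroup G) := ⟨u.2, h4⟩
        rw [hti, Subgroup.mem_bot] at h6
        exact Subtype.ext h6
  have hfix : ∀ c ∈ Finset.univ.filter
      (fun c : G ⧸ (P : Subgroup G) => ∀ u : (P : Subgroup G), u • c = c),
      β c - Y ∈ rIdeal (y ^ p) := by
    intro c hc
    rw [Finset.mem_filter] at hc
    induction c using QuotientGroup.induction_on with
    | H g =>
      obtain ⟨m, hm, hgx⟩ := exists_pow_of_mem_normalizer (p := p) (n := n) (by omega) hPz hox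
        (hfixN g hc.2)
      obtain ⟨r, hr⟩ := pow_sub_one_pow (p := p) (F := F) y m hm
      have h3 : ρ g * Y * ρ g⁻¹ = (ρ g * y * ρ g⁻¹) ^ (p - 1) := by
        rw [hY]
        have : ∀ k : ℕ, ρ g * y ^ k * ρ g⁻¹ = (ρ g * y * ρ g⁻¹) ^ k := by
          intro k
          induction k with
          | zero => simp [hinv]
          | succ k ih =>
            rw [pow_succ, pow_succ, ← ih]
            calc ρ g * (y ^ k * y) * ρ g⁻¹ = ρ g * y ^ k * 1 * y * ρ g⁻¹ := by
                  simp only [mul_assoc, one_mul]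
              _ = ρ g * y ^ k * ρ g⁻¹ * (ρ g * y * ρ g⁻¹) := by
                  rw [← hinv' g]; simp only [mul_assoc]
        exact this _
      have h4 : ρ g * y * ρ g⁻¹ = (1 + y) ^ m - 1 := by
        rw [hy, mul_sub, sub_mul, mul_one, hinv, add_sub_cancel, hX, ← map_mul, ← map_mul, hgx,
          map_pow]
      rw [key, h3, h4, hr, ← hY, add_sub_cancel_left]
      exact ⟨r, rfl⟩
  -- number of fixed cosets is prime to `p`
  obtain ⟨κ, hκ⟩ : ∃ κ, κ = (Finset.univ.filter
      (fun c : G ⧸ (P : Subgroup G) => ∀ u : (P : Subgroup G), u • c = c)).card := ⟨_, rfl⟩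
  have hκp : ¬ p ∣ κ := by
    have h3 := P.2.card_modEq_card_fixedPoints (G ⧸ (P : Subgroup G))
    have h4 : Nat.card (MulAction.fixedPoints (P : Subgroup G) (G ⧸ (P : Subgroup G))) = κ := by
      rw [hκ, Nat.card_eq_fintype_card, Fintype.card_subtype]
      apply congrArg Finset.card
      ext c
      simp only [Finset.mem_filter, Finset.mem_univ, true_and, MulAction.mem_fixedPoints]
    rw [h4] at h3
    intro hdvd
    have h5 : p ∣ Nat.card (G ⧸ (P : Subgroup G)) :=
      (Nat.modEq_zero_iff_dvd.1 (h3.trans (Nat.modEq_zero_iff_dvd.2 hdvd)))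
    exact P.not_dvd_index h5
  have hTdec : T - (κ : F) • Y ∈ rIdeal (y ^ p) := by
    rw [hT, ← Finset.sum_filter_add_sum_filter_not Finset.univ
      (fun c : G ⧸ (P : Subgroup G) => ∀ u : (P : Subgroup G), u • c = c)]
    have h3 : ∑ c ∈ Finset.univ.filter
        (fun c : G ⧸ (P : Subgroup G) => ∀ u : (P : Subgroup G), u • c = c), β c - (κ : F) • Y
        = ∑ c ∈ Finset.univ.filter
        (fun c : G ⧸ (P : Subgroup G) => ∀ u : (P : Subgroup G), u • c = c), (β c - Y) := by
      rw [Finset.sum_sub_distrib, Finset.sum_const, ← hκ, Nat.cast_smul_eq_nsmul]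
    rw [add_sub_right_comm, h3]
    exact AddSubgroup.add_mem _ (AddSubgroup.sum_mem _ hfix) hfree
  obtain ⟨ψ, hψ⟩ := hTdec
  have hx1 : x ≠ 1 := by
    intro h
    rw [h, orderOf_one] at hox
    have : 1 < p ^ n := Nat.one_lt_pow (by omega) hp.one_lt
    omega
  have hnontriv : ¬ Subsingleton V := by
    intro hs
    apply hx1
    apply hfaith
    apply LinearMap.ext
    intro v
    exact Subsingleton.elim _ _
  have hτ : ∃ τ, T = y * τ := by
    refine ⟨y ^ (p - 1) * ψ + (κ : F) • y ^ (p - 2), ?_⟩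
    have e1 : y ^ p = y * y ^ (p - 1) := by
      rw [← pow_succ']; congr 1; have := hp.two_le; omega
    have e2 : y ^ (p - 1) = y * y ^ (p - 2) := by
      rw [← pow_succ']; congr 1; have := hp.two_le; omega
    rw [mul_add, ← mul_assoc, ← e1, mul_smul_comm, ← e2, ← hY, ← hψ]
    abel
  have hT0 : T = 0 := by
    have hint : ∀ g : G, T ∘ₗ ρ g = ρ g ∘ₗ T := by
      intro g
      have h3 := hTcomm g
      have h4 : ρ g * T = T * ρ g := by
        calc ρ g * T = ρ g * T * (ρ g⁻¹ * ρ g) := by rw [hinv', mul_one]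
          _ = (ρ g * T * ρ g⁻¹) * ρ g := by simp only [mul_assoc]
          _ = T * ρ g := by rw [h3]
      exact h4.symm
    let f : Representation.IntertwiningMap ρ ρ := { toLinearMap := T, isIntertwining' := hint }
    haveI := hirr
    rcases Representation.IsIrreducible.surjective_or_eq_zero f with hs | h0
    · exfalso
      have hsT : Function.Surjective T := hs
      obtain ⟨τ, hτ⟩ := hτ
      have hsy : Function.Surjective y := by
        intro v
        obtain ⟨w, hw⟩ := hsT v
        exact ⟨τ w, by rw [← hw, hτ]; rfl⟩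
      have hsk : ∀ k : ℕ, Function.Surjective (y ^ k) := by
        intro k
        induction k with
        | zero => intro v; exact ⟨v, by simp⟩
        | succ k ih =>
          intro v
          obtain ⟨w, hw⟩ := ih v
          obtain ⟨w', hw'⟩ := hsy w
          exact ⟨w', by rw [pow_succ, Module.End.mul_apply, hw', hw]⟩
      apply hnontriv
      constructor
      intro a b
      obtain ⟨a', ha'⟩ := hsk l a
      obtain ⟨b', hb'⟩ := hsk l b
      rw [← ha', ← hb', hyl]
      rfl
    · exact congrArg Representation.IntertwiningMap.toLinearMap h0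
  have hκF : (κ : F) ≠ 0 := by
    intro h
    exact hκp ((CharP.cast_eq_zero_iff F p κ).1 h)
  have hYW : y ^ (p - 1) = y ^ (p - 1 + 1) * (-(κ : F)⁻¹ • ψ) := by
    have e1 : p - 1 + 1 = p := by have := hp.two_le; omega
    rw [e1, mul_smul_comm, ← hψ, hT0, zero_sub, smul_neg, neg_smul, neg_neg, smul_smul,
      inv_mul_cancel₀ hκF, one_smul, hY]
  have hY0 := pow_eq_zero_of_eq hYW hyl
  have hle : p - 1 ≤ p ^ (n - 1) := by
    have : p ^ 1 ≤ p ^ (n - 1) := Nat.pow_le_pow_right hp.pos (by omega)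
    rw [pow_one] at this
    omega
  have h5 : y ^ (p ^ (n - 1)) = 0 := pow_eq_zero_of_le hle hY0
  rw [hy, hpoly, hX, ← map_pow, sub_eq_zero, ← map_one ρ] at h5
  have h6 := hfaith h5
  have h7 := orderOf_dvd_of_pow_eq_one h6
  rw [hox] at h7
  have := (Nat.pow_dvd_pow_iff_le_right hp.one_lt).1 h7
  omega

end Cfsg.Agent.S4699
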