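import Mathlib
import Cfsg.Statements.S4706
import Cfsg.Agent.S0727
import Cfsg.Agent.Lib.Helper12.PrimeDegree4
import Cfsg.Agent.Lib.Helper12.PrimeDegree5
import Cfsg.Agent.Lib.Helper12.FixCount
import Cfsg.Agent.Lib.Helper19.PGLGlue
import Cfsg.Agent.Lib.Helper61.SL2Char2

set_option autoImplicit false
open Cfsg

namespace Cfsg.Agent.S4706

/-- Let p > 2 be a prime and G a permutation group on p letters whose Sylow p-subgroup P has normalizer of order 2p. Then either P is normal in G, or p − 1 = 2^a for some a and G is isomorphic to SL(2, 2^a). -/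
theorem result {α : Type*} [Fintype α] [DecidableEq α] {p : ℕ} [Fact p.Prime] (hp : 2 < p) (hα : Fintype.card α = p) (G : Subgroup (Equiv.Perm α)) (P : Sylow p G) (hN : Nat.card (Subgroup.normalizer ((P : Subgroup G) : Set G)) = 2 * p) : (P : Subgroup G).Normal ∨ ∃ (a : ℕ) (F : Type) (_ : Field F) (_ : Fintype F), p = 2 ^ a + 1 ∧ Fintype.card F = 2 ^ a ∧ Nonempty (G ≃* Matrix.SpecialLinearGroup (Fin 2) F) := by
  classical
  open MulAction Cfsg.Agent.Lib.Helper12 Cfsg.Agent.Lib.Helper19 in
  have hpp : p.Prime := Fact.out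
  have hα' : Nat.card α = p := by rw [Nat.card_eq_fintype_card, hα]
  -- `G` is transitive
  have hpG : p ∣ Nat.card G := by
    refine dvd_trans ?_ (Subgroup.card_subgroup_dvd_card
      (Subgroup.normalizer ((P : Subgroup G) : Set G)))
    rw [hN]
    exact dvd_mul_left _ _
  obtain ⟨x, hx⟩ := exists_prime_orderOf_dvd_card' p hpG
  have htrQ := PrimeDegree.isPretransitive_of_card hα G (Subgroup.zpowers x)
    (by rw [Nat.card_zpowers, hx])
  have htr : MulAction.IsPretransitive G α := by
    refine ⟨fun a b => ?_⟩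
    obtain ⟨q, hq⟩ := htrQ.exists_smul_eq a b
    exact ⟨q.1, hq⟩
  by_cases hnn : (P : Subgroup G).Normal
  · exact Or.inl hnn
  right
  have hp5 : 5 ≤ p := PrimeDegree.five_le_of_not_normal hα G P hnn
  have h3 : MulAction.IsMultiplyPretransitive G α 3 :=
    PrimeDegree.three_transitive_of_not_normal hα G P hnn (by rw [hN]; exact even_two_mul p)
  have := Fintype.ofFinite G
  have hD := PrimeDegree.derangement_bound hα G P
  rw [hN, Nat.card_eq_fintype_card (α := G)] at hD
  have hle := FixCount.card_le_of_derangements h3 p hα' (by omega) hD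
  -- sharpness
  have hsharp : ∀ x : Fin 3 ↪ α, MulAction.stabilizer G x = ⊥ := by
    intro x
    have h1 := (MulAction.stabilizer G x).card_mul_index
    rw [@MulAction.index_stabilizer_of_transitive G _ _ _ x h3,
      Nat.card_eq_fintype_card (α := Fin 3 ↪ α),
      Fintype.card_embedding_eq, Fintype.card_fin, hα, Nat.card_eq_fintype_card (α := G)] at h1
    have h2 : p.descFactorial 3 = p * (p - 1) * (p - 2) := by
      simp [Nat.descFactorial_succ]
      ring
    rw [h2] at h1
    have hpos : 0 < p * (p - 1) * (p - 2) := by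
      apply Nat.mul_pos (Nat.mul_pos _ _) <;> omega
    have h4 : Nat.card (MulAction.stabilizer G x) ≤ 1 := by
      by_contra hcon
      push Not at hcon
      nlinarith
    rw [← Subgroup.card_eq_one]
    have := Nat.card_pos (α := MulAction.stabilizer G x)
    omega
  -- `p - 1` is a power of `2`
  have hne : Nonempty α := by
    rw [← Fintype.card_pos_iff, hα]; omega
  obtain ⟨oI⟩ := hne
  have h2t : MulAction.IsMultiplyPretransitive (MulAction.stabilizer G oI)
      (SubMulAction.ofStabilizer G oI) 2 :=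
    (SubMulAction.ofStabilizer.isMultiplyPretransitive (n := 2)).mp h3
  have hsh2 : ∀ x : Fin 2 ↪ SubMulAction.ofStabilizer G oI,
      MulAction.stabilizer (MulAction.stabilizer G oI) x = ⊥ := by
    intro x
    rw [eq_bot_iff]
    intro h hh
    rw [MulAction.mem_stabilizer_iff] at hh
    have h0 : h • x 0 = x 0 := DFunLike.congr_fun hh 0
    have h1 : h • x 1 = x 1 := DFunLike.congr_fun hh 1
    have h0' : (h : G) • (x 0 : α) = x 0 := congrArg Subtype.val h0
    have h1' : (h : G) • (x 1 : α) = x 1 := congrArg Subtype.val h1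
    have hx0 : (x 0 : α) ≠ oI := (SubMulAction.mem_ofStabilizer_iff G oI).mp (x 0).2
    have hx1 : (x 1 : α) ≠ oI := (SubMulAction.mem_ofStabilizer_iff G oI).mp (x 1).2
    have hx01 : (x 0 : α) ≠ x 1 := by
      intro h
      have := x.injective (Subtype.ext h)
      exact absurd this (by decide)
    have := sharp3_fix hsharp hx0 hx01 hx1.symm h0' h.2 h1'
    rw [Subgroup.mem_bot]
    exact Subtype.ext this
  have hcard' : Nat.card (SubMulAction.ofStabilizer G oI) = Nat.card α - 1 :=
    SubMulAction.nat_card_ofStabilizer_eq G oI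
  obtain ⟨r, j, N, hr, hj, hrj, -⟩ := Sharp2.exists_kernel h2t hsh2 (by omega)
  rw [hcard', hα'] at hrj
  have hr2 : r = 2 := by
    have hodd : Odd p := hpp.odd_of_ne_two (by omega)
    have h2 : 2 ∣ r ^ j := by
      rw [← hrj]
      obtain ⟨k, hk⟩ := hodd
      exact ⟨k, by omega⟩
    have := Nat.prime_two.dvd_of_dvd_pow h2
    exact ((Nat.prime_dvd_prime_iff_eq Nat.prime_two hr).mp this).symm
  subst hr2
  have hpj : p = 2 ^ j + 1 := by omega
  obtain ⟨F, iF, iFt, hF, ⟨e⟩⟩ := Cfsg.Agent.S0727.result hj (by rw [hα, hpj]) G h3 hsharp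
  refine ⟨j, F, iF, iFt, hpj, hF, ?_⟩
  have h20 : (2 : F) = 0 := by
    have h := Nat.cast_card_eq_zero F
    rw [hF] at h
    push_cast at h
    exact pow_eq_zero_iff (by omega) |>.mp h
  have : CharP F 2 := CharTwo.of_one_ne_zero_of_two_eq_zero one_ne_zero h20
  obtain ⟨e2⟩ := nonempty_PGL_mulEquiv_PSL (F := F) (by rw [hF]; exact (Nat.even_pow.mpr ⟨even_two, by omega⟩))
  exact ⟨(e.trans e2).trans Cfsg.Agent.Lib.Helper61.sl2EquivPSL2.symm⟩

end Cfsg.Agent.S4706
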