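import Cfsg.Statements.S4708
import Cfsg.Agent.Lib.Helper35.BlockCover

set_option autoImplicit false
open Cfsg

namespace Cfsg.Agent.S4708

open Cfsg.Agent.Lib.Helper35 Cfsg.Agent.Lib.Helper78 Cfsg.Agent.Lib.Helper15 Cfsg.Agent.Lib.Helper74
open scoped ComplexConjugate

theorem comb {α β : Type*} [Fintype α] [Fintype β] (A : α → Prop) (Bq : β → Prop)
    [DecidablePred A] [DecidablePred Bq]
    (d : α → ℕ) (e : β → ℕ) (m : α → β → ℕ) (k : ℕ)
    (ha : ∀ x, d x = ∑ y, m x y * e y)
    (hb : ∀ y, ∑ x, m x y * d x = k * e y)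
    (hc : ∀ x, A x → ∀ y, m x y ≠ 0 → Bq y)
    (hd : ∀ y, Bq y → ∃ x, A x ∧ m x y ≠ 0) :
    (∑ y, if Bq y then e y ^ 2 else 0) ≤ (∑ x, if A x then d x ^ 2 else 0) ∧
      (∑ x, if A x then d x ^ 2 else 0) ≤ k * ∑ y, if Bq y then e y ^ 2 else 0 := by
  have key : (∑ x, if A x then d x ^ 2 else 0) =
      ∑ y, if Bq y then e y * ∑ x, (if A x then d x * m x y else 0) else 0 := by
    have h1 : ∀ x, (if A x then d x ^ 2 else 0) =
        ∑ y, if Bq y then e y * (if A x then d x * m x y else 0) else 0 := by
      intro x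
      by_cases hx : A x
      · simp only [if_pos hx]
        rw [sq]
        nth_rewrite 2 [ha x]
        rw [Finset.mul_sum]
        apply Finset.sum_congr rfl
        intro y _
        by_cases hy : Bq y
        · rw [if_pos hy]; ring
        · rw [if_neg hy]
          have : m x y = 0 := by
            by_contra h
            exact hy (hc x hx y h)
          rw [this]; simp
      · simp [if_neg hx]
    simp only [h1]
    rw [Finset.sum_comm]
    apply Finset.sum_congr rfl
    intro y _
    by_cases hy : Bq y
    · simp only [if_pos hy, Finset.mul_sum]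
    · simp [if_neg hy]
  rw [key]
  constructor
  · apply Finset.sum_le_sum
    intro y _
    by_cases hy : Bq y
    · simp only [if_pos hy]
      rw [sq]
      apply Nat.mul_le_mul_left
      obtain ⟨x, hx, hxy⟩ := hd y hy
      calc e y ≤ m x y * e y := Nat.le_mul_of_pos_left _ (Nat.pos_of_ne_zero hxy)
        _ ≤ d x := by
          rw [ha x]
          exact Finset.single_le_sum (f := fun y => m x y * e y) (fun _ _ => Nat.zero_le _)
            (Finset.mem_univ y)
        _ ≤ d x * m x y := Nat.le_mul_of_pos_right _ (Nat.pos_of_ne_zero hxy)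
        _ = (if A x then d x * m x y else 0) := by rw [if_pos hx]
        _ ≤ _ := Finset.single_le_sum (f := fun x => if A x then d x * m x y else 0)
            (fun _ _ => Nat.zero_le _) (Finset.mem_univ x)
    · simp [if_neg hy]
  · rw [Finset.mul_sum]
    apply Finset.sum_le_sum
    intro y _
    by_cases hy : Bq y
    · simp only [if_pos hy]
      calc e y * ∑ x, (if A x then d x * m x y else 0) ≤ e y * ∑ x, m x y * d x := by
            apply Nat.mul_le_mul_left
            apply Finset.sum_le_sum
            intro x _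
            split_ifs
            · rw [mul_comm]
            · exact Nat.zero_le _
        _ = k * e y ^ 2 := by rw [hb y]; ring
    · simp [if_neg hy]

/-- Let p be a prime, M a maximal ideal of the algebraic integers containing p, G a finite group and H a normal subgroup. Write λ(X) for the sum of the squares of the degrees of the irreducible characters in the principal p-block of a group X. Then λ(H) ≤ λ(G) ≤ [G : H]·λ(H). -/
theorem result {G : Type*} [Group G] [Finite G] (p : ℕ) [Fact p.Prime] (M : Ideal Cfsg.AlgInt) (hM : Cfsg.IsPModular p M) (H : Subgroup G) [H.Normal] : (∑ᶠ θ ∈ Cfsg.principalBlock M H, Cfsg.charDegree (θ : H → ℂ) ^ 2) ≤ (∑ᶠ χ ∈ Cfsg.principalBlock M G, Cfsg.charDegree (χ : G → ℂ) ^ 2) ∧ (∑ᶠ χ ∈ Cfsg.principalBlock M G, Cfsg.charDegree (χ : G → ℂ) ^ 2) ≤ H.index * ∑ᶠ θ ∈ Cfsg.principalBlock M H, Cfsg.charDegree (θ : H → ℂ) ^ 2 := by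
  classical
  have := Fintype.ofFinite G
  have := Fintype.ofFinite H
  have hMp := pmod_isPrime hM
  rw [finsum_mem_irr, finsum_mem_irr]
  have hm : ∀ (χ : IrrCharacter G) (θ : IrrCharacter H), ∃ m : ℕ,
      classInner (fun n : H => (χ : G → ℂ) n) (θ : H → ℂ) = m := fun χ θ =>
    IsCharacter.classInner_irr_nat (IsCharacter.restrict (IrrCharacter.isCharacter χ) H) θ
  choose m hm using hm
  have hcov : Covers H (principalBlock M G) (principalBlock M H) := by
    refine ⟨trivIrr G, trivIrr_mem_principalBlock hMp, trivIrr H, trivIrr_mem_principalBlock hMp, ?_⟩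
    have h1 := classInner_irr_self (trivIrr H)
    have h2 : (fun n : H => (trivIrr G : G → ℂ) n) = (trivIrr H : H → ℂ) := rfl
    rw [h2, h1]
    exact one_ne_zero
  apply comb (fun χ => χ ∈ principalBlock M G) (fun θ => θ ∈ principalBlock M H) _ _ m
  · intro χ
    have h1 := congrFun (IsCharacter.eq_sum_classInner
      (IsCharacter.restrict (IrrCharacter.isCharacter χ) H)) 1
    simp only [Finset.sum_apply, Pi.smul_apply, smul_eq_mul, hm, irr_one_eq, OneMemClass.coe_one] at h1
    exact_mod_cast h1
  · intro θ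
    have h1 : ∑ χ : IrrCharacter G, ((m χ θ : ℂ) * (charDegree (χ : G → ℂ) : ℂ)) =
        (H.index : ℂ) * (charDegree (θ : H → ℂ) : ℂ) := by
      simp only [← hm, ← irr_one_eq]
      unfold classInner
      simp only [Finset.mul_sum, Finset.sum_mul]
      rw [Finset.sum_comm]
      have h2 : ∀ n : H, ∑ χ : IrrCharacter G, (Nat.card H : ℂ)⁻¹ * ((χ : G → ℂ) n * conj ((θ : H → ℂ) n)) * (χ : G → ℂ) 1 =
          (Nat.card H : ℂ)⁻¹ * conj ((θ : H → ℂ) n) * (if (n : G) = 1 then (Fintype.card G : ℂ) else 0) := by
        intro n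
        rw [← sum_irr_one_mul, Finset.mul_sum]
        apply Finset.sum_congr rfl
        intro χ _
        ring
      simp only [h2]
      rw [Finset.sum_eq_single 1]
      · rw [if_pos (OneMemClass.coe_one H), irr_one_eq, Complex.conj_natCast, ← Nat.card_eq_fintype_card,
          ← H.card_mul_index]
        have h3 : (Nat.card H : ℂ) ≠ 0 := by exact_mod_cast Nat.card_pos.ne'
        push_cast
        field_simp
      · intro n _ hn
        rw [if_neg (by simpa using hn), mul_zero]
      · simp
    exact_mod_cast h1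
  · intro χ hχ θ hθ
    have h1 : classInner (fun n : H => (χ : G → ℂ) n) (θ : H → ℂ) ≠ 0 := by
      rw [hm]; exact_mod_cast hθ
    obtain ⟨g, hg⟩ := exists_cjIrr_mem_of_covers H hMp isPBlock_principalBlock isPBlock_principalBlock
      (Covers.memLocalIdeal H hMp isPBlock_principalBlock isPBlock_principalBlock hcov) hχ h1
    have h2 : SameBlock M (fun _ : H => (1 : ℂ)) (cj H g θ) := hg
    have h3 := sameBlock_cj H g⁻¹ h2
    rw [cj_inv_cj] at h3
    exact h3
  · intro θ hθ
    obtain ⟨χ, hχ, h⟩ := exists_over_of_covers H hMp isPBlock_principalBlock isPBlock_principalBlock hcov hθ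
    refine ⟨χ, hχ, ?_⟩
    intro h0
    apply h
    rw [hm, h0]; simp

end Cfsg.Agent.S4708
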