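import Cfsg.Statements.S4711
import Cfsg.Agent.S0907
import Cfsg.Agent.S4432
import Cfsg.Agent.Lib.Helper82.IsaacsSmith
import Cfsg.Agent.Lib.Helper82.PrincipalBlock
import Cfsg.Agent.Lib.Helper63.PLength
import Cfsg.Agent.Lib.Helper15.Gallagher
import Cfsg.Agent.Lib.Helper80.Constituent
import Cfsg.Agent.Lib.Helper80.Inflation
import Cfsg.Agent.Lib.Helper2.PComplement

set_option autoImplicit false
open Cfsg

namespace Cfsg.Agent.S4711

open Cfsg.Agent.Lib.Helper78 Cfsg.Agent.Lib.Helper80 Cfsg.Agent.Lib.Helper82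
open scoped ComplexConjugate

/-- If no nonprincipal character of the principal block has a `P`-fixed vector, then there is a
normal `p`-complement. -/
theorem lemX {X : Type*} [Group X] [Finite X] {p : ℕ} [Fact p.Prime] {M : Ideal AlgInt}
    (hM : IsPModular p M) (P : Sylow p X)
    (h : ∀ θ ∈ principalBlock M X, θ ≠ trivIrr X → ∑ᶠ y : (P : Subgroup X), (θ : X → ℂ) y = 0) :
    HasNormalPComplement p X := by
  classical
  have hp : p.Prime := Fact.out
  have hMp := pmod_isPrime hM
  have := Fintype.ofFinite X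
  have := Fintype.ofFinite (IrrCharacter X)
  have hPne : (Nat.card (P : Subgroup X) : ℂ) ≠ 0 := by exact_mod_cast Nat.card_pos.ne'
  let B : Finset (IrrCharacter X) := Finset.univ.filter (fun θ => θ ∈ principalBlock M X)
  have hBmem : ∀ θ, θ ∈ B ↔ θ ∈ principalBlock M X := fun θ => by simp [B]
  -- vanishing on `P^#`
  have hvan : ∀ y : (P : Subgroup X), y ≠ 1 →
      ∑ θ ∈ B, (charDegree (θ : X → ℂ) : ℂ) * (θ : X → ℂ) y = 0 := by
    intro y hy
    have hy1 : p ∣ orderOf (y : X) := by
      obtain ⟨k, hk⟩ := (IsPGroup.iff_orderOf.1 P.2) y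
      rw [Subgroup.orderOf_coe, hk]
      rcases Nat.eq_zero_or_pos k with rfl | hk0
      · rw [pow_zero, orderOf_eq_one_iff] at hk
        exact absurd hk hy
      · exact dvd_pow_self p hk0.ne'
    have h1 := Cfsg.Agent.S0907.result p M hM (principalBlock M X) isPBlock_principalBlock 1 (y : X)
      (by rw [orderOf_one]; exact hp.one_lt.ne' ∘ Nat.dvd_one.1) hy1
    rw [finsum_mem_eq_finite_toFinset_sum _ (Set.toFinite _)] at h1
    have h2 := congrArg conj h1
    rw [map_zero, map_sum] at h2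
    rw [← h2]
    apply Finset.sum_congr
    · ext θ; simp [B]
    · intro θ _
      rw [map_mul, Complex.conj_conj, char_one_eq_charDegree (isCharacter_of_irr θ.2), Complex.conj_natCast]
  -- the key identity
  have hkey : ∀ μ : (P : Subgroup X) →* ℂˣ,
      ∑ θ ∈ B, (charDegree (θ : X → ℂ) : ℂ) *
        ∑ y : (P : Subgroup X), (θ : X → ℂ) y * conj ((μ y : ℂˣ) : ℂ)
      = ∑ θ ∈ B, (charDegree (θ : X → ℂ) : ℂ) * (θ : X → ℂ) 1 := by
    intro μ
    simp_rw [Finset.mul_sum]
    rw [Finset.sum_comm]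
    rw [Finset.sum_eq_single (1 : (P : Subgroup X))]
    · apply Finset.sum_congr rfl
      intro θ _
      simp
    · intro y _ hy
      simp_rw [← mul_assoc]
      rw [← Finset.sum_mul, hvan y hy, zero_mul]
    · intro h1; exact absurd (Finset.mem_univ _) h1
  have htrivB : trivIrr X ∈ B := (hBmem _).2 (trivIrr_mem_principalBlock hMp)
  have hdegtriv : charDegree ((trivIrr X : IrrCharacter X) : X → ℂ) = 1 := by
    have h1 := char_one_eq_charDegree (isCharacter_of_irr (trivIrr X).2)
    have h2 : ((trivIrr X : IrrCharacter X) : X → ℂ) 1 = 1 := rfl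
    rw [h2] at h1
    exact_mod_cast h1.symm
  -- the total is `|P|`
  have htotal : ∑ θ ∈ B, (charDegree (θ : X → ℂ) : ℂ) * (θ : X → ℂ) 1
      = (Nat.card (P : Subgroup X) : ℂ) := by
    rw [← hkey 1, Finset.sum_eq_single (trivIrr X)]
    · rw [hdegtriv]
      have h2 : ∀ y : (P : Subgroup X), ((trivIrr X : IrrCharacter X) : X → ℂ) y = 1 := fun _ => rfl
      simp [h2, Nat.card_eq_fintype_card]
    · intro θ hθ hne
      have h1 := h θ ((hBmem θ).1 hθ) hne
      rw [finsum_eq_sum_of_fintype] at h1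
      simp [h1]
    · intro h1; exact absurd htrivB h1
  apply hasNormalPComplement_of_extend P
  intro μ _
  obtain ⟨m, hm, -⟩ := exists_mult_principalBlock hM P μ
  have h1 := hkey μ
  rw [htotal] at h1
  have h2 : ∑ θ ∈ B, charDegree (θ : X → ℂ) * m θ = 1 := by
    have h3 : (Nat.card (P : Subgroup X) : ℂ) * ((∑ θ ∈ B, charDegree (θ : X → ℂ) * m θ : ℕ) : ℂ)
        = (Nat.card (P : Subgroup X) : ℂ) * 1 := by
      rw [mul_one]
      conv_rhs => rw [← h1]
      push_cast
      rw [Finset.mul_sum]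
      apply Finset.sum_congr rfl
      intro θ _
      rw [← finsum_eq_sum_of_fintype, hm θ]
      ring
    have h4 := mul_left_cancel₀ hPne h3
    exact_mod_cast h4
  obtain ⟨θ, hθB, hθ⟩ : ∃ θ ∈ B, charDegree (θ : X → ℂ) * m θ ≠ 0 := by
    by_contra hcon
    push Not at hcon
    rw [Finset.sum_eq_zero hcon] at h2
    exact zero_ne_one h2
  have h5 : charDegree (θ : X → ℂ) * m θ ≤ 1 := by
    rw [← h2]
    exact Finset.single_le_sum (f := fun θ : IrrCharacter X => charDegree (θ : X → ℂ) * m θ)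
      (fun _ _ => Nat.zero_le _) hθB
  have h6 : charDegree (θ : X → ℂ) * m θ = 1 := by omega
  have h7 : charDegree (θ : X → ℂ) = 1 := Nat.eq_one_of_mul_eq_one_right h6
  have h8 : m θ = 1 := Nat.eq_one_of_mul_eq_one_left h6
  have h9 : (θ : X → ℂ) 1 = 1 := by
    rw [char_one_eq_charDegree (isCharacter_of_irr θ.2), h7, Nat.cast_one]
  obtain ⟨l, hl⟩ := exists_hom_of_degree_one (isCharacter_of_irr θ.2) h9
  refine ⟨l, eq_of_sum_ne_zero (P : Subgroup X) l μ ?_⟩
  have h10 := hm θ
  simp_rw [hl] at h10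
  rw [h10, h8, Nat.cast_one, mul_one]
  exact hPne

/-- the sum of a character over a subgroup is `|Q|` times a natural number -/
theorem sum_subgroup_eq {X : Type*} [Group X] [Finite X] {φ : X → ℂ} (hφ : IsCharacter X φ)
    (Q : Subgroup X) [Fintype Q] : ∃ n : ℕ, ∑ y : Q, φ y = (Nat.card Q : ℂ) * n := by
  obtain ⟨n, hn⟩ := Cfsg.Agent.Lib.Helper3.IsCharacter.classInner_eq_natCast
    (Cfsg.Agent.Lib.Helper3.IsCharacter.restrict hφ Q) (Cfsg.Agent.Lib.Helper3.isCharacter_one (G := Q))
  refine ⟨n, ?_⟩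
  rw [← hn]
  unfold classInner
  have hne : (Nat.card Q : ℂ) ≠ 0 := by exact_mod_cast Nat.card_pos.ne'
  rw [mul_inv_cancel_left₀ hne]
  simp

theorem sum_subgroupOf {G : Type*} [Group G] (A B : Subgroup G) (hAB : A ≤ B) (F : G → ℂ)
    [Fintype (A.subgroupOf B)] [Fintype A] :
    ∑ y : A.subgroupOf B, F ((y : B) : G) = ∑ y : A, F y :=
  Fintype.sum_equiv (Subgroup.subgroupOfEquivOfLe hAB).toEquiv _ _ (fun _ => rfl)

theorem backward {G : Type*} [Group G] [Finite G] (p : ℕ) [Fact p.Prime] (M : Ideal Cfsg.AlgInt)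
    (hM : Cfsg.IsPModular p M) (P : Sylow p G)
    (h : ∀ χ ∈ Cfsg.principalBlock M G, Cfsg.IsIrrCharacter ↥(Subgroup.normalizer ((P : Subgroup G) : Set G)) (fun n : ↥(Subgroup.normalizer ((P : Subgroup G) : Set G)) => (χ : G → ℂ) n)) :
    Cfsg.PLengthLE p 1 G := by
  classical
  have hp : p.Prime := Fact.out
  have hMp := pmod_isPrime hM
  have := Fintype.ofFinite G
  set N : Subgroup G := Subgroup.normalizer ((P : Subgroup G) : Set G) with hNdef
  have hPN : (P : Subgroup G) ≤ N := Subgroup.le_normalizer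
  set R : Subgroup G := Subgroup.normalClosure ((P : Subgroup G) : Set G) with hRdef
  have hPR : (P : Subgroup G) ≤ R := Subgroup.le_normalClosure
  have hRn : R.Normal := Subgroup.normalClosure_normal
  let P₀ : Sylow p R := P.subtype hPR
  have hP₀ : (P₀ : Subgroup R) = (P : Subgroup G).subgroupOf R := P.coe_subtype hPR
  have hX : HasNormalPComplement p R := by
    apply lemX hM P₀
    intro θ hθ hne
    by_contra hsum
    rw [finsum_eq_sum_of_fintype] at hsum
    obtain ⟨χ, hχ, hχθ⟩ := Cfsg.Agent.S4432.result p M hM R (principalBlock M G)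
      isPBlock_principalBlock (principalBlock M R) isPBlock_principalBlock
      ⟨trivIrr G, trivIrr_mem_principalBlock hMp, trivIrr R, trivIrr_mem_principalBlock hMp, by
        have h1 := Cfsg.Agent.Lib.Helper3.classInner_irr_self (trivIrr R).2
        have h2 : (fun n : R => ((trivIrr G : IrrCharacter G) : G → ℂ) n)
            = ((trivIrr R : IrrCharacter R) : R → ℂ) := rfl
        rw [h2, h1]; exact one_ne_zero⟩ θ hθ
    have hχc := isCharacter_of_irr χ.2
    obtain ⟨η, hη, hsplit⟩ := exists_add_of_constituent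
      (Cfsg.Agent.Lib.Helper3.IsCharacter.restrict hχc R) θ hχθ
    obtain ⟨a, ha⟩ := sum_subgroup_eq (isCharacter_of_irr θ.2) (P₀ : Subgroup R)
    obtain ⟨b, hb⟩ := sum_subgroup_eq hη (P₀ : Subgroup R)
    have hcard0 : (Nat.card (P₀ : Subgroup R) : ℂ) ≠ 0 := by exact_mod_cast Nat.card_pos.ne'
    have ha0 : a ≠ 0 := by
      rintro rfl
      apply hsum
      rw [ha]; simp
    have hsumχ : ∑ y : (P₀ : Subgroup R), (χ : G → ℂ) ((y : R) : G) ≠ 0 := by
      have h1 : ∀ y : (P₀ : Subgroup R), (χ : G → ℂ) ((y : R) : G)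
          = (θ : R → ℂ) y + η y := fun y => congrFun hsplit (y : R)
      simp_rw [h1]
      rw [Finset.sum_add_distrib, ha, hb, ← mul_add]
      apply mul_ne_zero hcard0
      have : a + b ≠ 0 := by omega
      exact_mod_cast this
    -- move to `N`
    let P₁ : Subgroup N := (P : Subgroup G).subgroupOf N
    have hP₁n : P₁.Normal := Subgroup.normal_in_normalizer
    have hsum1 : ∑ y : P₁, (χ : G → ℂ) ((y : N) : G) ≠ 0 := by
      rw [sum_subgroupOf (P : Subgroup G) N hPN (χ : G → ℂ)]
      have h2 : ∑ y : (P₀ : Subgroup R), (χ : G → ℂ) ((y : R) : G)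
          = ∑ y : (P : Subgroup G), (χ : G → ℂ) y :=
        sum_subgroupOf (P : Subgroup G) R hPR (χ : G → ℂ)
      rwa [h2] at hsumχ
    have hξ := h χ hχ
    have hinner : classInner (fun n : P₁ => (fun n : N => (χ : G → ℂ) n) n) (fun _ => 1) ≠ 0 := by
      unfold classInner
      apply mul_ne_zero
      · apply inv_ne_zero
        exact_mod_cast Nat.card_pos.ne'
      · simpa using hsum1
    have hker := (Cfsg.Agent.Lib.Helper15.restrict_eq_of_inner_one_ne_zero P₁ hξ hinner).2
    have hkerP : ∀ x ∈ (P : Subgroup G), (χ : G → ℂ) x = (χ : G → ℂ) 1 := by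
      intro x hx
      exact hker ⟨⟨x, hPN hx⟩, hx⟩
    have hn := charKer_normal hχc
    have hle : R ≤ charKer χ.1 hχc := Subgroup.normalClosure_le_normal (fun x hx => hkerP x hx)
    apply hχθ
    have h3 : (fun n : R => (χ : G → ℂ) n) = ((χ : G → ℂ) 1) • ((trivIrr R : IrrCharacter R) : R → ℂ) := by
      funext r
      have h4 : (χ : G → ℂ) r = (χ : G → ℂ) 1 := hle r.2
      show (χ : G → ℂ) r = (χ : G → ℂ) 1 * 1
      rw [h4, mul_one]
    rw [h3, Cfsg.Agent.Lib.Helper3.classInner_smul_left,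
      Cfsg.Agent.Lib.Helper3.classInner_irr_ne (trivIrr R).2 θ.2
        (fun h5 => hne (Subtype.ext h5.symm)), mul_zero]
  rw [Cfsg.Agent.Lib.Helper2.hasNormalPComplement_iff] at hX
  set K : Subgroup G := (pResidual p R).map R.subtype with hK
  have hKn : K.Normal := ConjAct.normal_of_characteristic_of_normal
  have hKcard : Nat.card K = Nat.card (pResidual p R) :=
    Subgroup.card_map_of_injective R.subtype_injective
  have hKR : K.subgroupOf R = pResidual p R := by
    rw [hK, Subgroup.subgroupOf, Subgroup.comap_map_eq_self_of_injective R.subtype_injective]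
  let W : ℕ → Subgroup G := fun n => match n with
    | 0 => ⊥
    | 1 => K
    | 2 => R
    | _ + 3 => ⊤
  apply Cfsg.Agent.Lib.Helper63.pLengthLE_of_chain hp 1 W
  · intro n
    match n with
    | 0 => exact (inferInstance : (⊥ : Subgroup G).Normal)
    | 1 => exact hKn
    | 2 => exact hRn
    | _ + 3 => exact (inferInstance : (⊤ : Subgroup G).Normal)
  · rfl
  · intro n
    match n with
    | 0 =>
      refine ⟨fun _ => ?_, fun h0 => absurd (by decide) h0⟩
      show ((⊥ : Subgroup G).relIndex K).Coprime p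
      rw [Subgroup.relIndex_bot_left, hKcard]
      exact hX
    | 1 =>
      refine ⟨fun h0 => absurd h0 (by decide), fun _ => ?_⟩
      show ∃ m : ℕ, K.relIndex R = p ^ m
      rw [Subgroup.relIndex, hKR]
      exact Cfsg.Agent.Lib.Lead.index_pResidual
    | 2 =>
      refine ⟨fun _ => ?_, fun h0 => absurd (by decide) h0⟩
      show (R.relIndex ⊤).Coprime p
      rw [Subgroup.relIndex_top_right]
      apply Nat.Coprime.coprime_dvd_left (Subgroup.index_dvd_of_le hPR)
      exact ((Nat.Prime.coprime_iff_not_dvd hp).2 P.not_dvd_index).symm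
    | k + 3 =>
      have h1 : (⊤ : Subgroup G).relIndex ⊤ = 1 := by simp
      refine ⟨fun _ => ?_, fun _ => ⟨0, ?_⟩⟩
      · show ((⊤ : Subgroup G).relIndex ⊤).Coprime p
        rw [h1]; exact Nat.coprime_one_left p
      · show (⊤ : Subgroup G).relIndex ⊤ = p ^ 0
        rw [h1, pow_zero]
  · rfl

theorem forward {G : Type*} [Group G] [Finite G] (p : ℕ) [Fact p.Prime] (M : Ideal Cfsg.AlgInt)
    (hM : Cfsg.IsPModular p M) (P : Sylow p G) (h : Cfsg.PLengthLE p 1 G)
    (χ : IrrCharacter G) (hχ : χ ∈ Cfsg.principalBlock M G) :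
    Cfsg.IsIrrCharacter ↥(Subgroup.normalizer ((P : Subgroup G) : Set G)) (fun n : ↥(Subgroup.normalizer ((P : Subgroup G) : Set G)) => (χ : G → ℂ) n) := by
  have hp : p.Prime := Fact.out
  set N : Subgroup G := Subgroup.normalizer ((P : Subgroup G) : Set G) with hNdef
  have hPN : (P : Subgroup G) ≤ N := Subgroup.le_normalizer
  set K : Subgroup G := Cfsg.Agent.Lib.Helper63.ups p G 1 with hK
  set U : Subgroup G := Cfsg.Agent.Lib.Helper63.ups p G 2 with hU
  have h3 : Cfsg.Agent.Lib.Helper63.ups p G 3 = ⊤ := h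
  have hKU : K ≤ U := Cfsg.Agent.Lib.Helper63.ups_le_succ p 1
  have hKcard : (Nat.card K).Coprime p := by
    have h1 := (Cfsg.Agent.Lib.Helper63.ups_stepOK (G := G) hp 0).1 (by decide)
    rwa [Cfsg.Agent.Lib.Helper63.ups_zero, Subgroup.relIndex_bot_left] at h1
  obtain ⟨m, hm⟩ := (Cfsg.Agent.Lib.Helper63.ups_stepOK (G := G) hp 1).2 (by decide)
  have hUidx : U.index.Coprime p := by
    have h1 := (Cfsg.Agent.Lib.Helper63.ups_stepOK (G := G) hp 2).1 (by decide)
    rwa [h3, Subgroup.relIndex_top_right] at h1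
  have hPU : (P : Subgroup G) ≤ U := by
    intro x hx
    obtain ⟨k, hk⟩ := P.2 ⟨x, hx⟩
    have hk' : x ^ p ^ k = 1 := by
      have := congrArg Subtype.val hk
      simpa using this
    rw [← QuotientGroup.eq_one_iff, ← orderOf_eq_one_iff]
    have h1 : orderOf (x : G ⧸ U) ∣ p ^ k := by
      rw [orderOf_dvd_iff_pow_eq_one, ← QuotientGroup.mk_pow, hk']
      rfl
    have h2 : orderOf (x : G ⧸ U) ∣ U.index := by
      rw [Subgroup.index_eq_card]
      exact orderOf_dvd_natCard _
    exact Nat.eq_one_of_dvd_coprimes (Nat.Coprime.pow_right k hUidx) h2 h1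
  have hfr : N ⊔ U = ⊤ := Sylow.normalizer_sup_eq_top' P hPU
  have hUKP : U = K ⊔ (P : Subgroup G) := by
    have hc := Cfsg.Agent.Lib.Lead.isComplement'_sylow_of_coprime_of_index
      (N := K.subgroupOf U) (p := p) (k := m)
      (by rw [Nat.card_congr (Subgroup.subgroupOfEquivOfLe hKU).toEquiv]; exact hKcard)
      hm (P.subtype hPU)
    have h1 := hc.sup_eq_top
    have h2 := congrArg (Subgroup.map U.subtype) h1
    rw [Subgroup.map_sup, P.coe_subtype hPU, Subgroup.subgroupOf_map_subtype,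
      Subgroup.subgroupOf_map_subtype, inf_of_le_left hKU, inf_of_le_left hPU,
      ← MonoidHom.range_eq_map, Subgroup.range_subtype] at h2
    exact h2.symm
  have hNK : N ⊔ K = ⊤ := by
    rw [eq_top_iff, ← hfr, hUKP]
    exact sup_le le_sup_left (sup_le le_sup_right (hPN.trans le_sup_left))
  have hKle : K ≤ pPrimeCore p G := Cfsg.Agent.Lib.Lead.le_pPrimeCore inferInstance hKcard
  have hker : ∀ k ∈ K, (χ : G → ℂ) k = (χ : G → ℂ) 1 :=
    fun k hk => ker_of_mem_principalBlock p hM hχ k (hKle hk)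
  obtain ⟨ψ, hψ, hψχ⟩ := exists_deflate_irr K χ.2 hker
  let f : N →* G ⧸ K := (QuotientGroup.mk' K).comp N.subtype
  have hf : Function.Surjective f := by
    intro q
    obtain ⟨g, rfl⟩ := QuotientGroup.mk'_surjective K q
    have hg : g ∈ ((N ⊔ K : Subgroup G) : Set G) := by rw [hNK]; trivial
    rw [Subgroup.mul_normal] at hg
    obtain ⟨n, hn, k, hk, rfl⟩ := hg
    refine ⟨⟨n, hn⟩, ?_⟩
    show QuotientGroup.mk' K n = QuotientGroup.mk' K (n * k)
    have h6 : QuotientGroup.mk' K k = 1 := (QuotientGroup.eq_one_iff k).2 hk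
    rw [map_mul, h6, mul_one]
  have h7 := isIrrCharacter_comp f hf hψ
  have h8 : ψ ∘ f = fun n : N => (χ : G → ℂ) n := by
    funext n
    exact hψχ n
  rwa [h8] at h7

/-- Let p be a prime, M a maximal ideal of the algebraic integers containing p, G a finite group, P a Sylow p-subgroup and N = N_G(P). Then G has p-length 1 (G = O_{p',p,p'}(G)) if and only if every irreducible character in the principal p-block of G restricts to an irreducible character of N. -/
theorem result {G : Type*} [Group G] [Finite G] (p : ℕ) [Fact p.Prime] (M : Ideal Cfsg.AlgInt) (hM : Cfsg.IsPModular p M) (P : Sylow p G) : Cfsg.PLengthLE p 1 G ↔ ∀ χ ∈ Cfsg.principalBlock M G, Cfsg.IsIrrCharacter ↥(Subgroup.normalizer ((P : Subgroup G) : Set G)) (fun n : ↥(Subgroup.normalizer ((P : Subgroup G) : Set G)) => (χ : G → ℂ) n) := by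
  exact ⟨fun h χ hχ => forward p M hM P h χ hχ, backward p M hM P⟩

end Cfsg.Agent.S4711
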