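import Cfsg.Statements.S4713
import Cfsg.Agent.Lib.Helper76.ItoDeg
import Cfsg.Agent.Lib.Helper69.PSolv
import Cfsg.Agent.Lib.Helper62.PComplement

set_option autoImplicit false
open Cfsg

namespace Cfsg.Agent.S4713

/-- Let p be a prime and G a finite p-solvable group. Then G has a normal abelian Sylow p-subgroup if and only if the degree of every irreducible character of G is prime to p. -/
theorem result {G : Type*} [Group G] [Finite G] (p : ℕ) [Fact p.Prime] (hsolv : Cfsg.IsPSolvable p G) (P : Sylow p G) : ((P : Subgroup G).Normal ∧ IsMulCommutative P) ↔ ∀ χ : Cfsg.IrrCharacter G, ¬ p ∣ Cfsg.charDegree (χ : G → ℂ) := by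
  have hp : p.Prime := Fact.out
  constructor
  · rintro ⟨hn, hc⟩ χ hdvd
    have h1 := Cfsg.Agent.Lib.Helper76.charDegree_dvd_index_of_comm (P : Subgroup G)
      (fun a ha b hb => congrArg Subtype.val (hc.is_comm.comm ⟨a, ha⟩ ⟨b, hb⟩)) χ
    exact P.not_dvd_index (hdvd.trans h1)
  · intro hdeg
    have h1 := Cfsg.Agent.Lib.Helper76.not_dvd_index_pCore_of_degrees p
      (fun X _ => Cfsg.IsPSolvable p X)
      (fun X _ N _ h => Cfsg.Agent.Lib.Helper76.isPSolvable_quotient N h)
      (fun X _ H h => Cfsg.Agent.Lib.Helper69.isPSolvable_subgroup H h)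
      (fun X _ _ _ h => Cfsg.Agent.Lib.Helper62.exists_normal_of_isPSolvable h)
      _ G rfl hsolv hdeg
    have h2 : (P : Subgroup G) = pCore p G :=
      le_antisymm (Cfsg.Agent.Lib.Helper76.le_of_isPGroup_of_not_dvd_index _ h1 _ P.2)
        (Cfsg.Agent.Lib.Lead.pCore_le_sylow P)
    have hn : (P : Subgroup G).Normal := by rw [h2]; infer_instance
    refine ⟨hn, ⟨⟨fun a b => Subtype.ext ?_⟩⟩⟩
    exact Cfsg.Agent.Lib.Helper76.comm_of_normal_pGroup_of_degrees (P : Subgroup G) P.2 hdeg
      a a.2 b b.2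

end Cfsg.Agent.S4713
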