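import Cfsg.Statements.S4714
import Cfsg.Agent.Lib.Helper16.CentralFamily
import Cfsg.Agent.Lib.Helper4.PPart
import Cfsg.Agent.S0968
-- import your own Cfsg.Agent.* helpers here

set_option autoImplicit false
open Cfsg Cfsg.Agent.Lib.Helper78 Cfsg.Agent.Lib.Helper16 Cfsg.Agent.Lib

namespace Cfsg.Agent.S4714

/-- Let p be a prime, M a maximal ideal of the algebraic integers containing p, D a p-subgroup of the finite group G with G = D·C_G(D), and B a p-block with defect group D. Let χ be a member of B having D in its kernel (there is exactly one, the canonical character of B). Then the irreducible characters in B are exactly the functions θ on G for which there is an irreducible character ζ of D such that θ(yx) = ζ(y)χ(x) whenever y ∈ D, x has order prime to p and x commutes with y, and θ(z) = 0 whenever the p-part of z does not lie in D. -/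
theorem result {G : Type*} [Group G] [Finite G] (p : ℕ) [Fact p.Prime] (M : Ideal Cfsg.AlgInt) (hM : Cfsg.IsPModular p M) (D : Subgroup G) (hD : IsPGroup p D) (hG : D ⊔ Subgroup.centralizer (D : Set G) = ⊤) (B : Set (Cfsg.IrrCharacter G)) (hB : Cfsg.IsPBlock M B) (hBD : Cfsg.IsDefectGroup p M B D) (χ : Cfsg.IrrCharacter G) (hχ : χ ∈ B) (hχD : ∀ y ∈ D, (χ : G → ℂ) y = (χ : G → ℂ) 1) : (∀ θ : Cfsg.IrrCharacter G, θ ∈ B ↔ ∃ ζ : Cfsg.IrrCharacter D, (∀ (y : D) (x : G), ¬ p ∣ orderOf x → Commute (y : G) x → (θ : G → ℂ) ((y : G) * x) = (ζ : D → ℂ) y * (χ : G → ℂ) x) ∧ (∀ z : G, (∀ y : G, Cfsg.IsPPart p z y → y ∉ D) → (θ : G → ℂ) z = 0)) ∧ ∀ ζ : Cfsg.IrrCharacter D, ∃ θ ∈ B, (∀ (y : D) (x : G), ¬ p ∣ orderOf x → Commute (y : G) x → (θ : G → ℂ) ((y : G) * x) = (ζ : D → ℂ) y * (χ : G → ℂ) x) ∧ (∀ z : G, (∀ y : G, Cfsg.IsPPart p z y → y ∉ D) → (θ : G → ℂ) z = 0) := by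
  classical
  obtain ⟨θ₀, Θ, hθB, hθP, -, -, hBeq, -, hV1, hV2⟩ :=
    Cfsg.Agent.Lib.Helper16.CPB.exists_family_values p M hM D hD hG B hB hBD
  have huniq := (Cfsg.Agent.S0968.result p M hM D hD hG B hB hBD).1
  have hχθ : θ₀ = χ := huniq.unique ⟨hθB, hθP⟩ ⟨hχ, hχD⟩
  subst hχθ
  obtain ⟨c, a, hc, -⟩ := Cfsg.Agent.Lib.Helper4.exists_pPartExp G p
  constructor
  · intro θ
    constructor
    · intro hθ
      rw [hBeq] at hθ
      obtain ⟨ζ, rfl⟩ := hθ
      exact ⟨ζ, hV1 ζ, hV2 ζ⟩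
    · rintro ⟨ζ, h1, h2⟩
      have : θ = Θ ζ := by
        apply Subtype.ext
        funext z
        have hy : IsPPart p z (z ^ c) := (hc z _).2 rfl
        by_cases hyD : z ^ c ∈ D
        · obtain ⟨x, hyx, hcomm, _, hx⟩ := hy
          rw [← hyx]
          exact (h1 ⟨_, hyD⟩ x hx hcomm).trans (hV1 ζ ⟨_, hyD⟩ x hx hcomm).symm
        · have h3 : ∀ y' : G, IsPPart p z y' → y' ∉ D := by
            intro y' hy'
            rw [(hc z y').1 hy']
            exact hyD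
          rw [h2 z h3, hV2 ζ z h3]
      rw [this, hBeq]
      exact ⟨ζ, rfl⟩
  · intro ζ
    exact ⟨Θ ζ, by rw [hBeq]; exact ⟨ζ, rfl⟩, hV1 ζ, hV2 ζ⟩

end Cfsg.Agent.S4714
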