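import Cfsg.Statements.S4717
import Cfsg.Agent.Lib.Helper78.Subsection

set_option autoImplicit false
open Cfsg

namespace Cfsg.Agent.S4717

open Cfsg.Agent.Lib.Helper78 Cfsg.Agent.Lib.Helper16 Cfsg.Agent.Lib.Helper4

/-- Let p be a prime, M a maximal ideal of the algebraic integers containing p, and r a natural number; say that a finite group X has deficiency class r when X has no non-principal p-block of defect ≥ r. If G has deficiency class r then so does the centralizer of every p-element of G; conversely, if r > 0 and the centralizer of every element of order p has deficiency class r, then G has deficiency class r. -/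
theorem result {G : Type*} [Group G] [Finite G] (p : ℕ) [Fact p.Prime] (M : Ideal Cfsg.AlgInt) (hM : Cfsg.IsPModular p M) (r : ℕ) : ((∀ B' : Set (Cfsg.IrrCharacter G), Cfsg.IsPBlock M B' → B' ≠ Cfsg.principalBlock M G → Cfsg.blockDefect p B' < r) → ∀ y : G, (∃ k : ℕ, orderOf y = p ^ k) → (∀ B' : Set (Cfsg.IrrCharacter ↥(Subgroup.centralizer ({y} : Set G))), Cfsg.IsPBlock M B' → B' ≠ Cfsg.principalBlock M ↥(Subgroup.centralizer ({y} : Set G)) → Cfsg.blockDefect p B' < r)) ∧ (0 < r → (∀ y : G, orderOf y = p → (∀ B' : Set (Cfsg.IrrCharacter ↥(Subgroup.centralizer ({y} : Set G))), Cfsg.IsPBlock M B' → B' ≠ Cfsg.principalBlock M ↥(Subgroup.centralizer ({y} : Set G)) → Cfsg.blockDefect p B' < r)) → (∀ B' : Set (Cfsg.IrrCharacter G), Cfsg.IsPBlock M B' → B' ≠ Cfsg.principalBlock M G → Cfsg.blockDefect p B' < r)) := by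
  classical
  have : Fintype G := Fintype.ofFinite G
  have hMp : M.IsPrime := hM.2.1.isPrime
  constructor
  · intro hG y hy b hb hbne
    obtain ⟨B, hind⟩ := inducedBlockDefined_cen hM y hy hb
    have hBne : B ≠ principalBlock M G := by
      rintro rfl
      exact hbne ((Cfsg.Agent.S0936.result p M hM _ b ⟨_, hind⟩).1 hind)
    exact lt_of_le_of_lt (blockDefect_le_of_isInducedBlock hM hind) (hG B hind.2.1 hBne)
  · intro hr hC B hB hBne
    by_contra hcon
    push Not at hcon
    obtain ⟨y, hy, b, hind, hdef⟩ := exists_major_subsection hM hB (lt_of_lt_of_le hr hcon)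
    have hbne : b ≠ principalBlock M (Cen y) := by
      rintro rfl
      have h1 := (Cfsg.Agent.S0936.result p M hM _ _ ⟨_, hind⟩).2 rfl
      exact hBne (isInducedBlock_unique hMp hind h1)
    have := hC y hy b hind.1 hbne
    omega

end Cfsg.Agent.S4717
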