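import Cfsg.Statements.S4718
import Mathlib
import Cfsg.Agent.Lib.Helper82.Landau
import Cfsg.Agent.Lib.Helper78.Osima
import Cfsg.Agent.S0133
import Cfsg.Agent.S4494

set_option autoImplicit false
universe u
open Cfsg

namespace Cfsg.Agent.S4718

/-- Let p be a prime and a a natural number. There is a bound N such that every finite group whose Sylow p-subgroups have order p^a and whose only p-block (relative to a maximal ideal of the algebraic integers containing p) is the principal block has order at most N. -/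
theorem result (p : ℕ) [Fact p.Prime] (a : ℕ) : ∃ N : ℕ, ∀ (G : Type u) [Group G] [Finite G] (M : Ideal Cfsg.AlgInt), Cfsg.IsPModular p M → (Nat.card G).factorization p = a → (∀ B : Set (Cfsg.IrrCharacter G), Cfsg.IsPBlock M B → B = Cfsg.principalBlock M G) → Nat.card G ≤ N := by
  obtain ⟨N, hN⟩ := Cfsg.Agent.Lib.Helper82.landau.{u} (p ^ (2 * a) + 4)
  refine ⟨N, fun G _ _ M hM ha hB => hN G ?_⟩
  have hMp := Cfsg.Agent.Lib.Helper78.pmod_isPrime hM
  have hB0 : Cfsg.IsPBlock M (Cfsg.principalBlock M G) :=
    Cfsg.Agent.Lib.Helper78.isPBlock_principalBlock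
  have huniv : Cfsg.principalBlock M G = Set.univ := by
    ext χ
    simp only [Set.mem_univ, iff_true]
    rw [← hB _ (Cfsg.Agent.Lib.Helper78.isPBlock_blockOf χ)]
    exact Cfsg.Agent.Lib.Helper78.mem_blockOf_self hMp χ
  have h1 := Cfsg.Agent.S4494.result p M hM (Cfsg.principalBlock M G) hB0
  have hcard : Nat.card (Cfsg.principalBlock M G) = Nat.card (ConjClasses G) := by
    rw [huniv, Nat.card_congr (Equiv.Set.univ _), Cfsg.Agent.S0133.result]
  rw [hcard] at h1
  have hdef : Cfsg.blockDefect p (Cfsg.principalBlock M G) ≤ a := by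
    unfold Cfsg.blockDefect
    rw [ha]
    exact Nat.sub_le _ _
  have h2 : p ^ (2 * Cfsg.blockDefect p (Cfsg.principalBlock M G)) ≤ p ^ (2 * a) :=
    Nat.pow_le_pow_right (Fact.out : p.Prime).pos (by omega)
  omega

end Cfsg.Agent.S4718
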