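import Cfsg.Statements.S4719
import Cfsg.Agent.S4717
import Cfsg.Agent.S4718
import Cfsg.Agent.Lib.Helper82.QuotBlock
import Cfsg.Agent.Lib.Helper78.HeightZero
import Cfsg.Agent.Lib.Helper79.InvBoundC

set_option autoImplicit false
open Cfsg

universe u

namespace Cfsg.Agent.S4719

open Cfsg.Agent.Lib.Helper78 Cfsg.Agent.Lib.Helper79.InvBound

/-- deficiency class drops by one modulo a non-trivial central `p`-subgroup -/
theorem defclass_quotient {C : Type*} [Group C] [Finite C] (p : ℕ) [Fact p.Prime]
    (M : Ideal AlgInt) (hM : IsPModular p M) (Z : Subgroup C) [Z.Normal] (hZp : IsPGroup p Z)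
    (hZc : ∀ g : C, g ∈ Subgroup.centralizer (Z : Set C)) (hZ1 : p ∣ Nat.card Z) (r : ℕ)
    (h : ∀ B : Set (IrrCharacter C), IsPBlock M B → B ≠ principalBlock M C →
      blockDefect p B < r + 1) :
    ∀ B' : Set (IrrCharacter (C ⧸ Z)), IsPBlock M B' → B' ≠ principalBlock M (C ⧸ Z) →
      blockDefect p B' < r := by
  classical
  have := Fintype.ofFinite C
  have hMp := pmod_isPrime hM
  have hp : p.Prime := Fact.out
  intro B' hB' hne
  obtain ⟨χ, hχ, hmin⟩ := exists_minDeg (p := p) (IsPBlock.nonempty hMp hB')
  let θ : IrrCharacter C :=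
    ⟨fun g => (χ : C ⧸ Z → ℂ) (g : C ⧸ Z), Cfsg.Agent.Lib.Helper80.isIrrCharacter_inflate Z χ.2⟩
  have hBne : blockOf M (θ : C → ℂ) ≠ principalBlock M C := by
    intro heq
    apply hne
    have h1 : trivIrr C ∈ blockOf M (θ : C → ℂ) := by
      rw [heq]; exact trivIrr_mem_principalBlock hMp
    have h2 : SameBlock M ((χ : C ⧸ Z → ℂ) ∘ QuotientGroup.mk)
        ((trivIrr (C ⧸ Z) : C ⧸ Z → ℂ) ∘ QuotientGroup.mk) := h1
    have h3 := Cfsg.Agent.Lib.Helper82.sameBlock_deflate p Z hM hZp
      (fun g _ hg => absurd (hZc g) hg) χ (trivIrr (C ⧸ Z)) h2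
    rw [IsPBlock.eq_blockOf hMp hB' hχ]
    exact blockOf_eq_of_sameBlock hMp h3
  have h4 := h _ (isPBlock_blockOf θ) hBne
  have h5 : minDeg p (blockOf M (θ : C → ℂ)) ≤ minDeg p B' := by
    rw [← hmin]
    exact minDeg_le (mem_blockOf_self hMp θ)
  have h6 := minDeg_le_card (p := p) (IsPBlock.nonempty hMp hB')
  have h7 : (Nat.card C).factorization p
      = (Nat.card (C ⧸ Z)).factorization p + (Nat.card Z).factorization p := by
    rw [Subgroup.card_eq_card_quotient_mul_card_subgroup Z,
      Nat.factorization_mul Nat.card_pos.ne' Nat.card_pos.ne', Finsupp.add_apply]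
  have h8 : 1 ≤ (Nat.card Z).factorization p :=
    (Nat.Prime.pow_dvd_iff_le_factorization (k := 1) hp Nat.card_pos.ne').1 (by simpa using hZ1)
  rw [blockDefect_eq] at h4 ⊢
  omega

/-- the internal form of the statement -/
theorem main (a : ℕ) : ∃ N : ℕ, ∀ (G : Type u) [Group G] [Finite G] (M : Ideal AlgInt) (r : ℕ),
    IsPModular 2 M → (Nat.card G).factorization 2 ≤ a →
    (∀ B : Set (IrrCharacter G), IsPBlock M B → B ≠ principalBlock M G → blockDefect 2 B < r) →
    (∃ E : Subgroup G, (∀ x ∈ E, ∀ y ∈ E, x * y = y * x) ∧ (∀ x ∈ E, x * x = 1) ∧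
      Nat.card E = 2 ^ (r + 1)) → Nat.card G ≤ N := by
  have : Fact (Nat.Prime 2) := ⟨Nat.prime_two⟩
  induction a with
  | zero =>
    refine ⟨0, fun G _ _ M r hM ha _ hE => ?_⟩
    exfalso
    obtain ⟨E, -, -, hcard⟩ := hE
    have h1 : 2 ∣ Nat.card G :=
      (Dvd.intro_left (2 ^ r) (by rw [hcard, pow_succ])).trans (Subgroup.card_subgroup_dvd_card E)
    have := (Nat.Prime.pow_dvd_iff_le_factorization (k := 1) Nat.prime_two
      (Nat.card_pos (α := G)).ne').1 (by simpa using h1)
    omega
  | succ a ih =>
    obtain ⟨N', hN'⟩ := ih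
    choose N₀ hN₀ using fun j : ℕ => Cfsg.Agent.S4718.result.{u} 2 j
    obtain ⟨F, hF⟩ := exists_bound.{u} (a + 1) (N' * 2)
    refine ⟨(∑ j ∈ Finset.range (a + 2), N₀ j) + F, fun G _ _ M r hM ha hdef hE => ?_⟩
    rcases r with _ | r
    · -- only the principal block
      have h1 := hN₀ _ G M hM rfl (fun B hB => by
        by_contra hne
        exact absurd (hdef B hB hne) (Nat.not_lt_zero _))
      refine h1.trans (le_trans ?_ (Nat.le_add_right _ _))
      exact Finset.single_le_sum (f := N₀) (fun _ _ => Nat.zero_le _)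
        (Finset.mem_range.2 (by omega))
    · obtain ⟨E, hEc, hE2, hEcard⟩ := hE
      -- centralizers of the non-identity elements of E are bounded
      have hcen : ∀ y ∈ E, y ≠ 1 → Nat.card (Subgroup.centralizer ({y} : Set G)) ≤ N' * 2 := by
        intro y hy hy1
        have hord : orderOf y = 2 := orderOf_eq_prime (by rw [pow_two]; exact hE2 y hy) hy1
        set C := Subgroup.centralizer ({y} : Set G) with hC
        have hyC : y ∈ C := Subgroup.mem_centralizer_singleton_iff.2 rfl
        let y' : C := ⟨y, hyC⟩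
        have hord' : orderOf y' = 2 := by
          rw [← hord, ← Subgroup.orderOf_coe y']
        have hcentral : ∀ g : C, g * y' = y' * g := by
          intro g
          apply Subtype.ext
          have hg : (g : G) ∈ Subgroup.centralizer ({y} : Set G) := g.2
          rw [Subgroup.mem_centralizer_singleton_iff] at hg
          exact hg
        let Z : Subgroup C := Subgroup.zpowers y'
        have hZle : Z ≤ Subgroup.center C := by
          rw [Subgroup.zpowers_le, Subgroup.mem_center_iff]
          exact hcentral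
        have hZn : Z.Normal := by
          constructor
          intro z hz g
          have h1 := (Subgroup.mem_center_iff.1 (hZle hz)) g
          have h2 : g * z * g⁻¹ = z := by rw [h1]; group
          rw [h2]; exact hz
        have hZcard : Nat.card Z = 2 := by rw [Nat.card_zpowers, hord']
        have hZp : IsPGroup 2 Z := IsPGroup.of_card (n := 1) (by rw [hZcard, pow_one])
        have hZc : ∀ g : C, g ∈ Subgroup.centralizer (Z : Set C) := by
          intro g
          rw [Subgroup.mem_centralizer_iff]
          intro z hz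
          exact ((Subgroup.mem_center_iff.1 (hZle hz)) g).symm
        have hdefC := (Cfsg.Agent.S4717.result 2 M hM (r + 1)).1 hdef y ⟨1, by rw [hord, pow_one]⟩
        have hdefQ := defclass_quotient 2 M hM Z hZp hZc (by rw [hZcard]) r hdefC
        have hcardC := Subgroup.card_eq_card_quotient_mul_card_subgroup Z
        rw [hZcard] at hcardC
        have hval : (Nat.card (C ⧸ Z)).factorization 2 ≤ a := by
          have h1 : (Nat.card C).factorization 2 ≤ a + 1 :=
            le_trans ((Nat.factorization_le_iff_dvd Nat.card_pos.ne' Nat.card_pos.ne').2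
              (Subgroup.card_subgroup_dvd_card C) 2) ha
          rw [hcardC, Nat.factorization_mul Nat.card_pos.ne' (by norm_num), Finsupp.add_apply,
            Nat.Prime.factorization_self Nat.prime_two] at h1
          omega
        -- the image of E
        have hEC : E ≤ C := by
          intro x hx
          rw [hC, Subgroup.mem_centralizer_singleton_iff]
          exact hEc x hx y hy
        let E' : Subgroup C := E.subgroupOf C
        have hE'card : Nat.card E' = 2 ^ (r + 1 + 1) := by
          rw [← hEcard]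
          exact Nat.card_congr (Subgroup.subgroupOfEquivOfLe hEC).toEquiv
        have hZE' : Z ≤ E' := by
          rw [Subgroup.zpowers_le]
          exact Subgroup.mem_subgroupOf.2 hy
        let Eb : Subgroup (C ⧸ Z) := E'.map (QuotientGroup.mk' Z)
        have hcomap : Eb.comap (QuotientGroup.mk' Z) = E' := by
          rw [Subgroup.comap_map_eq, QuotientGroup.ker_mk', sup_eq_left]
          exact hZE'
        have hEbcard : Nat.card Eb = 2 ^ (r + 1) := by
          have h1 := card_comap_mk' Z Eb
          rw [hcomap, hE'card, hZcard, pow_succ] at h1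
          exact (Nat.eq_of_mul_eq_mul_right (by norm_num) h1).symm
        have hEb : ∃ E₁ : Subgroup (C ⧸ Z), (∀ x ∈ E₁, ∀ y ∈ E₁, x * y = y * x) ∧
            (∀ x ∈ E₁, x * x = 1) ∧ Nat.card E₁ = 2 ^ (r + 1) := by
          refine ⟨Eb, ?_, ?_, hEbcard⟩
          · rintro _ ⟨x, hx, rfl⟩ _ ⟨z, hz, rfl⟩
            rw [← map_mul, ← map_mul]
            congr 1
            apply Subtype.ext
            exact hEc _ (Subgroup.mem_subgroupOf.1 hx) _ (Subgroup.mem_subgroupOf.1 hz)
          · rintro _ ⟨x, hx, rfl⟩
            rw [← map_mul]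
            have : x * x = 1 := Subtype.ext (hE2 _ (Subgroup.mem_subgroupOf.1 hx))
            rw [this, map_one]
        have := hN' (C ⧸ Z) M r hM hval hdefQ hEb
        rw [hcardC]
        exact Nat.mul_le_mul_right _ this
      -- choose a four-group
      have hE4 : 4 ≤ Nat.card E := by
        rw [hEcard]
        calc 4 = 2 ^ 2 := by norm_num
          _ ≤ 2 ^ (r + 1 + 1) := Nat.pow_le_pow_right (by norm_num) (by omega)
      obtain ⟨t₁, ht₁⟩ : ∃ t : E, t ≠ 1 := by
        by_contra hcon
        push Not at hcon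
        have : Nat.card E ≤ 1 := Finite.card_le_one_iff_subsingleton.2
          ⟨fun a b => by rw [hcon a, hcon b]⟩
        omega
      obtain ⟨t₂, ht₂, ht₂'⟩ : ∃ t : E, t ≠ 1 ∧ t ≠ t₁ := by
        by_contra hcon
        push Not at hcon
        have hsub : (Set.univ : Set E) ⊆ {1, t₁} := by
          intro t _
          by_cases h : t = 1
          · left; exact h
          · right; exact hcon t h
        have h1 : Nat.card E ≤ 2 := by
          rw [← Nat.card_univ]
          calc Nat.card (Set.univ : Set E) ≤ Nat.card ({1, t₁} : Set E) :=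
                Nat.card_mono (Set.toFinite _) hsub
            _ ≤ 2 := by
                rw [Nat.card_coe_set_eq]
                exact (Set.ncard_insert_le _ _).trans (by rw [Set.ncard_singleton])
        omega
      have h11 : (t₁ : G) * t₁ = 1 := hE2 _ t₁.2
      have h22 : (t₂ : G) * t₂ = 1 := hE2 _ t₂.2
      have h3 : (t₁ : G) * t₂ ≠ 1 := by
        intro h
        apply ht₂'
        apply Subtype.ext
        have : (t₁ : G) * t₂ = t₁ * t₁ := by rw [h, h11]
        exact mul_left_cancel this
      have := hF G t₁ t₂ h11 h22 (hEc _ t₁.2 _ t₂.2)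
        (hcen _ t₁.2 (fun h => ht₁ (Subtype.ext h)))
        (hcen _ t₂.2 (fun h => ht₂ (Subtype.ext h)))
        (hcen _ (E.mul_mem t₁.2 t₂.2) h3) ha
      exact this.trans (Nat.le_add_left _ _)

/-- For every natural number a there is a bound N with the following property. Let G be a finite group with Sylow 2-subgroups of order 2^a and r ≥ 0 such that G has no non-principal 2-block (relative to a maximal ideal of the algebraic integers containing 2) of defect ≥ r, and suppose a Sylow 2-subgroup of G contains an elementary abelian subgroup of order 2^(r+1). Then the order of G is at most N. -/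
theorem result (a : ℕ) : ∃ N : ℕ, ∀ (G : Type u) [Group G] [Finite G] (M : Ideal Cfsg.AlgInt) (r : ℕ) (P : Sylow 2 G), Cfsg.IsPModular 2 M → Nat.card P = 2 ^ a → (∀ B : Set (Cfsg.IrrCharacter G), Cfsg.IsPBlock M B → B ≠ Cfsg.principalBlock M G → Cfsg.blockDefect 2 B < r) → (∃ E : Subgroup G, E ≤ (P : Subgroup G) ∧ IsMulCommutative E ∧ (∀ x ∈ E, x * x = 1) ∧ Nat.card E = 2 ^ (r + 1)) → Nat.card G ≤ N := by
  obtain ⟨N, hN⟩ := main.{u} a
  refine ⟨N, fun G _ _ M r P hM hP hdef hE => ?_⟩
  have : Fact (Nat.Prime 2) := ⟨Nat.prime_two⟩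
  obtain ⟨E, -, hEc, hE2, hEcard⟩ := hE
  refine hN G M r hM ?_ hdef ⟨E, ?_, hE2, hEcard⟩
  · have h1 := Sylow.card_eq_multiplicity P
    rw [hP] at h1
    exact (Nat.pow_right_injective (le_refl 2) h1).ge
  · intro x hx y hy
    have := hEc.is_comm.comm ⟨x, hx⟩ ⟨y, hy⟩
    exact congrArg Subtype.val this

end Cfsg.Agent.S4719
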