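import Cfsg.Statements.S4720
import Cfsg.Agent.Lib.Helper78.Columns

set_option autoImplicit false
open Cfsg

namespace Cfsg.Agent.S4720

open Cfsg.Agent.Lib.Helper78 Cfsg.Agent.Lib.Helper16 Cfsg.Agent.Lib.Helper4
open scoped ComplexConjugate

/-- Let p be a prime, M a maximal ideal of the algebraic integers containing p, P a p-subgroup of the finite group G, N a subgroup with P ≤ N ≤ N_G(P), and U a nonempty subset of P normalized by N such that an element of U and an element of P that are conjugate in G are already conjugate in N, and such that λ(C_G(y)) = w·#C_N(y) for every y ∈ U with one rational number w, where λ(X) denotes the sum of the squares of the degrees of the irreducible characters in the principal p-block of X. For a complex function θ on P and χ in the principal block of G put a_χ(θ) = #P⁻¹ Σ_{y ∈ P} χ(y) θ(y⁻¹). Then for generalized characters θ, η of P with θ vanishing outside U, Σ_χ a_χ(θ)·conj(a_χ(η)) = (w/#P²)·Σ_{y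 ∈ P} θ(y)·conj(Σ_{x ∈ N} η(x y x⁻¹)) (η extended by zero off P; the conjugates lie in P), the first sum over the principal p-block of G. -/
theorem result {G : Type*} [Group G] [Finite G] (p : ℕ) [Fact p.Prime] (M : Ideal Cfsg.AlgInt) (hM : Cfsg.IsPModular p M) (P : Subgroup G) (hP : IsPGroup p P) (N : Subgroup G) (hPN : P ≤ N) (hNN : N ≤ Subgroup.normalizer (P : Set G)) (U : Set G) (hUne : U.Nonempty) (hUP : U ⊆ (P : Set G)) (hUN : ∀ n ∈ N, ∀ u ∈ U, n * u * n⁻¹ ∈ U) (hfus : ∀ u ∈ U, ∀ g : G, g * u * g⁻¹ ∈ (P : Set G) → ∃ n ∈ N, n * u * n⁻¹ = g * u * g⁻¹) (w : ℚ) (hw : ∀ y ∈ U, ((∑ᶠ ψ ∈ Cfsg.principalBlock M ↥(Subgroup.centralizer ({y} : Set G)), Cfsg.charDegree (ψ : ↥(Subgroup.centralizer ({y} : Set G)) → ℂ) ^ 2) : ℚ) = w * Nat.card ↥(N ⊓ Subgroup.centralizer ({y} : Set G))) (θ η : ↥P → ℂ) (hθ : Cfsg.IsGeneralizedCharacter ↥P θ) (hη : Cfsg.IsGeneralizedCharacter ↥P η) (hθU : ∀ y : ↥P, (y : G) ∉ U → θ y = 0) : ∑ᶠ χ ∈ Cfsg.principalBlock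 M G, ((Nat.card ↥P : ℂ)⁻¹ * ∑ᶠ y : ↥P, (χ : G → ℂ) (y : G) * θ y⁻¹) * (starRingEnd ℂ) ((Nat.card ↥P : ℂ)⁻¹ * ∑ᶠ y : ↥P, (χ : G → ℂ) (y : G) * η y⁻¹) = ((w : ℂ) / ((Nat.card ↥P : ℂ) ^ 2)) * ∑ᶠ y : ↥P, θ y * (starRingEnd ℂ) (∑ᶠ x : ↥N, Cfsg.extendByZero P η ((x : G) * (y : G) * (x : G)⁻¹)) := by
  classical
  have : Fintype G := Fintype.ofFinite G
  have hpel : ∀ y : P, ∃ k : ℕ, orderOf (y : G) = p ^ k := fun y => by
    obtain ⟨k, hk⟩ := (IsPGroup.iff_orderOf.1 hP) y
    exact ⟨k, by rw [← hk, Subgroup.orderOf_coe]⟩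
  -- the column products
  have hS : ∀ y z : P, (y : G) ∈ U →
      ∑ᶠ χ ∈ principalBlock M G, (χ : G → ℂ) (z : G) * conj ((χ : G → ℂ) (y : G))
        = (w : ℂ) * (Nat.card {x : N // (x : G) * (y : G) * (x : G)⁻¹ = (z : G)} : ℂ) := by
    intro y z hyU
    by_cases hconj : IsConj (y : G) (z : G)
    · obtain ⟨g, hg⟩ := isConj_iff.1 hconj
      obtain ⟨n, hn, hnz⟩ := hfus y hyU g (by rw [hg]; exact z.2)
      rw [hg] at hnz
      rw [card_conj_in_subgroup N (y : G) (z : G) n hn hnz]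
      have h1 : ∀ χ : IrrCharacter G, (χ : G → ℂ) (z : G) = (χ : G → ℂ) (y : G) := by
        intro χ
        rw [← hg, irr_isClassFunction χ]
      simp_rw [h1]
      rw [sum_principal_pElement hM (y : G) (hpel y)]
      have h2 := congrArg (fun q : ℚ => (q : ℂ)) (hw y hyU)
      simp only [Rat.cast_mul, Rat.cast_natCast] at h2
      rw [← h2, finsum_mem_irr, finsum_mem_irr, Rat.cast_sum]
      refine Finset.sum_congr rfl fun ψ _ => ?_
      split_ifs <;> simp
    · have h0 : IsEmpty {x : N // (x : G) * (y : G) * (x : G)⁻¹ = (z : G)} :=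
        ⟨fun x => hconj (isConj_iff.2 ⟨x.1, x.2⟩)⟩
      rw [Nat.card_of_isEmpty, Nat.cast_zero, mul_zero]
      exact sum_block_mul_conj_eq_zero hM isPBlock_principalBlock (isPPart_self' (hpel z))
        (isPPart_self' (hpel y)) (fun h => hconj h.symm)
  -- orbit sums
  have hO : ∀ y : P, (y : G) ∈ U →
      ∑ᶠ x : N, extendByZero P η ((x : G) * (y : G) * (x : G)⁻¹)
        = ∑ z : P, η z * (Nat.card {x : N // (x : G) * (y : G) * (x : G)⁻¹ = (z : G)} : ℂ) := by
    intro y hyU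
    rw [finsum_eq_sum_of_fintype]
    have h1 : ∀ x : N, extendByZero P η ((x : G) * (y : G) * (x : G)⁻¹)
        = ∑ z : P, if (x : G) * (y : G) * (x : G)⁻¹ = (z : G) then η z else 0 := by
      intro x
      have hmem : (x : G) * (y : G) * (x : G)⁻¹ ∈ P := hUP (hUN x x.2 y hyU)
      have h2 : extendByZero P η ((x : G) * (y : G) * (x : G)⁻¹) = η ⟨_, hmem⟩ :=
        Function.Injective.extend_apply Subtype.val_injective η 0 ⟨_, hmem⟩
      rw [h2, Finset.sum_eq_single (⟨_, hmem⟩ : P)]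
      · simp
      · intro b _ hb
        rw [if_neg]
        intro h
        exact hb (Subtype.ext h.symm)
      · intro h; exact absurd (Finset.mem_univ _) h
    simp_rw [h1]
    rw [Finset.sum_comm]
    refine Finset.sum_congr rfl fun z _ => ?_
    rw [← Finset.sum_filter, Finset.sum_const, nsmul_eq_mul, mul_comm, Nat.card_eq_fintype_card,
      Fintype.card_subtype]
  -- main computation
  have hL : ∀ χ : IrrCharacter G,
      ((Nat.card ↥P : ℂ)⁻¹ * ∑ᶠ y : ↥P, (χ : G → ℂ) (y : G) * θ y⁻¹) *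
        (starRingEnd ℂ) ((Nat.card ↥P : ℂ)⁻¹ * ∑ᶠ y : ↥P, (χ : G → ℂ) (y : G) * η y⁻¹)
      = ((Nat.card ↥P : ℂ)⁻¹) ^ 2 * ∑ y : P, ∑ z : P, θ y * conj (η z) *
          ((χ : G → ℂ) (z : G) * conj ((χ : G → ℂ) (y : G))) := by
    intro χ
    rw [finsum_eq_sum_of_fintype, finsum_eq_sum_of_fintype]
    rw [← Equiv.sum_comp (Equiv.inv P) (fun y : P => (χ : G → ℂ) (y : G) * θ y⁻¹),
      ← Equiv.sum_comp (Equiv.inv P) (fun y : P => (χ : G → ℂ) (y : G) * η y⁻¹)]
    simp only [Equiv.inv_apply, inv_inv, Subgroup.coe_inv, irr_inv, map_mul, map_inv₀,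
      Complex.conj_natCast, map_sum, Complex.conj_conj]
    rw [mul_mul_mul_comm, ← sq, Finset.sum_mul_sum]
    congr 1
    refine Finset.sum_congr rfl fun y _ => Finset.sum_congr rfl fun z _ => ?_
    ring
  simp_rw [hL]
  rw [finsum_mem_irr]
  simp_rw [← mul_ite_zero]
  rw [← Finset.mul_sum, finsum_eq_sum_of_fintype, div_eq_mul_inv, ← inv_pow,
    mul_comm (w : ℂ), mul_assoc]
  congr 1
  have h3 : ∀ χ : IrrCharacter G, (if χ ∈ principalBlock M G then
      ∑ y : P, ∑ z : P, θ y * conj (η z) * ((χ : G → ℂ) (z : G) * conj ((χ : G → ℂ) (y : G)))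
      else 0) = ∑ y : P, ∑ z : P, θ y * conj (η z) * (if χ ∈ principalBlock M G then
        ((χ : G → ℂ) (z : G) * conj ((χ : G → ℂ) (y : G))) else 0) := by
    intro χ
    split_ifs <;> simp
  simp_rw [h3]
  rw [Finset.sum_comm, Finset.mul_sum]
  refine Finset.sum_congr rfl fun y _ => ?_
  by_cases hyU : (y : G) ∈ U
  · rw [Finset.sum_comm, hO y hyU, map_sum, Finset.mul_sum, Finset.mul_sum]
    refine Finset.sum_congr rfl fun z _ => ?_
    rw [← Finset.mul_sum, ← finsum_mem_irr, hS y z hyU]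
    simp only [map_mul, Complex.conj_natCast]
    ring
  · simp [hθU y hyU]

end Cfsg.Agent.S4720
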