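import Cfsg.Statements.S4721
import Cfsg.Agent.Lib.Helper74.AbSylowOdd
import Cfsg.Agent.Lib.Helper74.AbSylowTwo

set_option autoImplicit false
open Cfsg

namespace Cfsg.Agent.S4721

open Cfsg.Agent.Lib.Helper74 Cfsg.Agent.Lib.Helper78

/-- Let p be a prime, M a maximal ideal of the algebraic integers containing p, and G a finite group with a nontrivial abelian Sylow p-subgroup P, N = N_G(P), C = C_G(P), such that N/C is cyclic of order 3, #P > 4, and C_G(y) ∩ N = C for every non-identity y ∈ P. Then the principal p-block is the disjoint union of a set X of exactly 3 characters containing the principal character and a set Y of (#P − 1)/3 characters, with signs a_χ = ±1 (χ ∈ X, a = 1 at the principal character) and δ = ±1 such that every χ ∈ X takes the value a_χ at every element whose p-part is a non-identity element of P, and there is a map ζ from the non-principal linear characters of P onto Y, constant on N-conjugacy classes, with ζ_ψ(z) = δ·Σ ψ'(y) over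 the N-orbit of ψ, for z with p-part y ≠ 1 in P. If moreover G has an involution lying in no proper normal subgroup of G, then exactly two of the three numbers −δ and a_χ (χ ∈ X non-principal) equal −1, and the product of the degrees of the two non-principal members of X and of any member of Y is a perfect square. -/
theorem result {G : Type*} [Group G] [Finite G] (p : ℕ) [Fact p.Prime] (M : Ideal Cfsg.AlgInt) (hM : Cfsg.IsPModular p M) (P : Sylow p G) (hab : IsMulCommutative P) (hP1 : Nat.card P ≠ 1) (hCN : (Subgroup.centralizer ((P : Subgroup G) : Set G)).relIndex (Subgroup.normalizer ((P : Subgroup G) : Set G)) = 3) (hcyc : ∃ g : G, g ∈ Subgroup.normalizer ((P : Subgroup G) : Set G) ∧ Subgroup.centralizer ((P : Subgroup G) : Set G) ⊔ Subgroup.zpowers g = Subgroup.normalizer ((P : Subgroup G) : Set G)) (hm2 : 3 + 1 < Nat.card P) (hfrob : ∀ y : G, y ∈ (P : Subgroup G) → y ≠ 1 → Subgroup.centralizer ({y} : Set G) ⊓ Subgroup.normalizer ((P : Subgroup G) : Set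 G) = Subgroup.centralizer ((P : Subgroup G) : Set G)) : ∃ (X Y : Set (Cfsg.IrrCharacter G)), Cfsg.principalBlock M G = X ∪ Y ∧ Disjoint X Y ∧ Nat.card X = 3 ∧ Nat.card Y = (Nat.card P - 1) / 3 ∧ (∃ χ₁ ∈ X, (χ₁ : G → ℂ) = fun _ => 1) ∧ ∃ (a : Cfsg.IrrCharacter G → ℤ) (δ : ℤ) (ζ : (↥(P : Subgroup G) →* ℂˣ) → Cfsg.IrrCharacter G), (δ = 1 ∨ δ = -1) ∧ (∀ χ ∈ X, (a χ = 1 ∨ a χ = -1) ∧ ∀ z y : G, Cfsg.IsPPart p z y → y ∈ (P : Subgroup G) → y ≠ 1 → (χ : G → ℂ) z = (a χ : ℂ)) ∧ (∀ ψ : ↥(P : Subgroup G) →* ℂˣ, ψ ≠ 1 → ζ ψ ∈ Y) ∧ (∀ η ∈ Y, ∃ ψ : ↥(P : Subgroup G) →* ℂˣ, ψ ≠ 1 ∧ ζ ψ = η) ∧ (∀ ψ ψ' : ↥(P : Subgroup G) →* ℂˣ, ψ ≠ 1 → (∃ n : G, n ∈ Subgroup.normalizer ((P : Subgroup G) : Set G) ∧ ∀ w w' : ↥(P : Subgroup G), (w' : G) = n * w * n⁻¹ → ψ' w' = ψ w) → ζ ψ' = ζ ψ) ∧ (∀ ψ : ↥(P : Subgroup G) →* ℂˣ, ψ ≠ 1 → ∀ (z : G) (y : ↥(P : Subgroup G)), Cfsg.IsPPart p z (y : G) → (y : G) ≠ 1 → (ζ ψ : G → ℂ) z = (δ : ℂ) * ∑ᶠ ψ' ∈ {ψ' : ↥(P : Subgroup G) →* ℂˣ | ∃ n : G, n ∈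 Subgroup.normalizer ((P : Subgroup G) : Set G) ∧ ∀ w w' : ↥(P : Subgroup G), (w' : G) = n * w * n⁻¹ → ψ' w' = ψ w}, ((ψ' y : ℂˣ) : ℂ)) ∧ ((∃ t : G, orderOf t = 2 ∧ ∀ K : Subgroup G, K.Normal → t ∈ K → K = ⊤) → Nat.card {χ : Cfsg.IrrCharacter G // χ ∈ X ∧ (χ : G → ℂ) ≠ (fun _ => 1) ∧ a χ = -1} + (if δ = 1 then 1 else 0) = 2 ∧ ∀ η ∈ Y, IsSquare (Cfsg.charDegree (η : G → ℂ) * ∏ᶠ χ ∈ {χ : Cfsg.IrrCharacter G | χ ∈ X ∧ (χ : G → ℂ) ≠ fun _ => 1}, Cfsg.charDegree (χ : G → ℂ))) := by
  classical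
  have : Fintype ↥(P : Subgroup G) := Fintype.ofFinite _
  have : Fintype (↥(P : Subgroup G) →* ℂˣ) := Fintype.ofFinite _
  have h3 : Nat.card (autS P) = 3 := (card_autS P).trans hCN
  have hm : Nat.card (autS P) + 1 < Nat.card ↥(P : Subgroup G) := by rw [h3]; exact hm2
  obtain ⟨ε, w, θ, χ₁, χ₂, T⟩ := ab3_exists hM P hab hfrob hm h3
  have hc := ab_hc P hab
  have hS := autS_semireg P hfrob
  have hXeq := T.X_eq hM P hab hfrob hm
  have htriv : ∀ χ : IrrCharacter G, (χ : G → ℂ) ≠ (fun _ => 1) ↔ χ ≠ trivIrr G := by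
    intro χ
    constructor
    · rintro h rfl
      exact h rfl
    · intro h h'
      exact h (Subtype.ext h')
  refine ⟨principalBlock M G \ (↑(Yf θ) : Set (IrrCharacter G)), ↑(Yf θ), ?_, ?_, ?_, ?_, ?_,
    fun χ => - w χ, ε, θ, T.D.hε, ?_, ?_, ?_, ?_, ?_, ?_⟩
  · exact (Set.sdiff_union_of_subset (fun χ hχ => ab_Y_subset P hab hfrob hm T.D hχ)).symm
  · exact Set.disjoint_sdiff_left
  · rw [hXeq, Nat.card_coe_set_eq, Set.ncard_insert_of_notMem, Set.ncard_pair T.ne12]
    simp only [Set.mem_insert_iff, Set.mem_singleton_iff, not_or]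
    exact ⟨T.ne1.symm, T.ne2.symm⟩
  · rw [← h3, ← ab_card_Y P hab hfrob T.D]
    simp
  · exact ⟨trivIrr G, ⟨trivIrr_mem_principalBlock (pmod_isPrime hM),
      fun h => ab_triv_not_mem hM P hab hfrob hm T.D h⟩, rfl⟩
  · intro χ hχ
    have hY : χ ∉ Yf θ := fun h => hχ.2 h
    refine ⟨?_, fun z y hz hy hy1 => ?_⟩
    · show - w χ = 1 ∨ - w χ = -1
      rw [hXeq] at hχ
      rcases hχ with rfl | rfl | rfl
      · left; rw [T.wt]; norm_num
      · rcases T.w1 with h | h <;> rw [h] <;> norm_num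
      · rcases T.w2 with h | h <;> rw [h] <;> norm_num
    · rw [ab_value_X hM P hab hfrob T.D hχ.1 hY hz hy hy1]
      push_cast; ring
  · intro ψ hψ
    exact Finset.mem_coe.2 (mem_Yf.2 ⟨ψ, hψ, rfl⟩)
  · intro η hη
    exact mem_Yf.1 (Finset.mem_coe.1 hη)
  · intro ψ ψ' hψ h
    have h1 := (dRel_autS_iff P ψ ψ').2 h
    exact ((T.D.hθ ψ ψ' hψ (dRel_ne_one _ h1 hψ)).2 h1).symm
  · intro ψ hψ z y hz hy1
    rw [ab_value_Y hM P hab hfrob hm T.D hψ hz hy1]
    push_cast; ring
  · rintro ⟨t, ht2, htK⟩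
    beta_reduce
    have htt : t * t = 1 := by
      have := pow_orderOf_eq_one t
      rwa [ht2, pow_two] at this
    have hne1 := irr_ne_of_no_normal htK T.ne1
    by_cases hp : p = 2
    · exfalso
      subst hp
      obtain ⟨hf1, -, hw1, -⟩ := T.two hM P hab hfrob hm h3
      obtain ⟨c, hc'⟩ := exists_conj_mem_sylow P t 1 (by simpa using ht2)
      have hct1 : c * t * c⁻¹ ≠ 1 := by
        intro h
        have : t = 1 := by
          have := congrArg (fun y => c⁻¹ * y * c) h
          simpa [mul_assoc] using this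
        rw [this, orderOf_one] at ht2
        omega
      have hv := ab_value_X hM P hab hfrob T.D (T.mem1 P hab hfrob hm) (T.nY1 P)
        (isPPart_self (exists_orderOf_eq_pow P hc')) hc' hct1
      rw [irr_isClassFunction χ₁ t c, hw1] at hv
      apply hne1
      rw [hv, irr_one_eq, hf1]
      push_cast; ring
    · obtain ⟨μ₀, hμ₀⟩ : ∃ μ : ↥(P : Subgroup G) →* ℂˣ, μ ≠ 1 := by
        obtain ⟨l, _, hl, _⟩ := exists_not_dRel hc (autS P) hS hm
        exact ⟨l, hl⟩
      have hset : {χ : IrrCharacter G | χ ∈ principalBlock M G \ (↑(Yf θ) : Set (IrrCharacter G)) ∧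
          (χ : G → ℂ) ≠ fun _ => 1} = {χ₁, χ₂} := by
        ext χ
        rw [hXeq]
        simp only [Set.mem_ofPred_eq, Set.mem_insert_iff, Set.mem_singleton_iff, htriv]
        constructor
        · rintro ⟨h1 | h1 | h1, h2⟩
          · exact absurd h1 h2
          · left; exact h1
          · right; exact h1
        · rintro (rfl | rfl)
          · exact ⟨Or.inr (Or.inl rfl), T.ne1⟩
          · exact ⟨Or.inr (Or.inr rfl), T.ne2⟩
      constructor
      · have hs := (T.odd hM P hab hfrob h3 hp htt hne1 hμ₀).1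
        have hcard : Nat.card {χ : IrrCharacter G //
            χ ∈ principalBlock M G \ (↑(Yf θ) : Set (IrrCharacter G)) ∧
            (χ : G → ℂ) ≠ (fun _ => 1) ∧ - w χ = -1} =
            (({χ₁, χ₂} : Finset (IrrCharacter G)).filter (fun χ => - w χ = -1)).card := by
          apply Nat.subtype_card
          intro χ
          have hmem : χ ∈ ({χ₁, χ₂} : Set (IrrCharacter G)) ↔
              (χ ∈ principalBlock M G \ (↑(Yf θ) : Set (IrrCharacter G)) ∧
                (χ : G → ℂ) ≠ fun _ => 1) := by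
            rw [← hset]; rfl
          simp only [Finset.mem_filter, Finset.mem_insert, Finset.mem_singleton]
          simp only [Set.mem_insert_iff, Set.mem_singleton_iff] at hmem
          rw [hmem]
          tauto
        rw [hcard, Finset.filter_insert, Finset.filter_singleton]
        have hεi : (if ε = 1 then 1 else 0 : ℕ) = (if -ε = -1 then 1 else 0) := by
          simp only [neg_inj]
        rw [hεi]
        by_cases h1 : - w χ₁ = -1 <;> by_cases h2 : - w χ₂ = -1
        · rw [if_pos h1, if_pos h2] at hs ⊢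
          rw [Finset.card_insert_of_notMem (by simpa using T.ne12), Finset.card_singleton]
          omega
        · rw [if_pos h1, if_neg h2] at hs ⊢
          rw [Finset.card_insert_of_notMem (by simp), Finset.card_empty]
          omega
        · rw [if_neg h1, if_pos h2] at hs ⊢
          rw [Finset.card_singleton]
          omega
        · rw [if_neg h1, if_neg h2] at hs ⊢
          rw [Finset.card_empty]
          omega
      · intro η hη
        obtain ⟨μ, hμ, rfl⟩ := mem_Yf.1 (Finset.mem_coe.1 hη)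
        rw [hset, finprod_mem_pair T.ne12]
        exact (T.odd hM P hab hfrob h3 hp htt hne1 hμ).2

end Cfsg.Agent.S4721
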