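import Cfsg.Statements.S4722
import Cfsg.Agent.Lib.Helper78.Columns
import Cfsg.Agent.Lib.Helper78.ConvexSign
import Cfsg.Agent.Lib.Helper82.PrincipalBlock
import Cfsg.Agent.Lib.Helper80.Inflation

set_option autoImplicit false
open Cfsg

namespace Cfsg.Agent.S4722

open Cfsg.Agent.Lib.Helper78 Cfsg.Agent.Lib.Helper16 Cfsg.Agent.Lib.Helper4
open scoped ComplexConjugate

/-- Let M be a maximal ideal of the algebraic integers containing 2, P a 2-subgroup of the finite group G, U a subset of P, and t an involution of G such that no element of U is inverted by any conjugate of t. Let θ be a generalized character of P vanishing outside U, and for χ in the principal 2-block B₀ put a_χ = #P⁻¹ Σ_{y ∈ P} χ(y) θ(y⁻¹). Then Σ_{χ ∈ B₀} a_χ χ(t)^2/χ(1) = 0, Σ_{χ ∈ B₀} a_χ χ(1) = 0 and Σ_{χ ∈ B₀} a_χ χ(t) = 0. If moreover #P⁻¹ Σ_{y ∈ P} θ(y) ≠ 0, then either at least two of the a_χ have positive real part and at least two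 have negative real part, or G has a proper normal subgroup containing O_2'(G) and t. -/
theorem result {G : Type*} [Group G] [Finite G] (M : Ideal Cfsg.AlgInt) (hM : Cfsg.IsPModular 2 M) (P : Subgroup G) (hP : IsPGroup 2 P) (U : Set G) (hUP : U ⊆ (P : Set G)) (t : G) (ht : orderOf t = 2) (hinv : ∀ u ∈ U, ∀ g : G, (g * t * g⁻¹) * u * (g * t * g⁻¹)⁻¹ ≠ u⁻¹) (θ : ↥P → ℂ) (hθ : Cfsg.IsGeneralizedCharacter ↥P θ) (hθU : ∀ y : ↥P, (y : G) ∉ U → θ y = 0) : (∑ᶠ χ ∈ Cfsg.principalBlock M G, ((Nat.card ↥P : ℂ)⁻¹ * ∑ᶠ y : ↥P, (χ : G → ℂ) (y : G) * θ y⁻¹) * (χ : G → ℂ) t ^ 2 / (χ : G → ℂ) 1 = 0) ∧ (∑ᶠ χ ∈ Cfsg.principalBlock M G, ((Nat.card ↥P : ℂ)⁻¹ * ∑ᶠ y : ↥P, (χ : G → ℂ) (y : G) * θ y⁻¹) * (χ : G → ℂ) 1 = 0) ∧ (∑ᶠ χ ∈ Cfsg.principalBlock M G, ((Nat.card ↥P : ℂ)⁻¹ * ∑ᶠ y : ↥P, (χ : G → ℂ) (y : G) * θ y⁻¹) * (χ : G → ℂ) t = 0) ∧ ((Nat.card ↥P : ℂ)⁻¹ * ∑ᶠ y : ↥P, θ y ≠ 0 → (2 ≤ Nat.card {χ : Cfsg.IrrCharacter G // χ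 ∈ Cfsg.principalBlock M G ∧ 0 < (((Nat.card ↥P : ℂ)⁻¹ * ∑ᶠ y : ↥P, (χ : G → ℂ) (y : G) * θ y⁻¹)).re} ∧ 2 ≤ Nat.card {χ : Cfsg.IrrCharacter G // χ ∈ Cfsg.principalBlock M G ∧ (((Nat.card ↥P : ℂ)⁻¹ * ∑ᶠ y : ↥P, (χ : G → ℂ) (y : G) * θ y⁻¹)).re < 0}) ∨ ∃ K : Subgroup G, K.Normal ∧ K ≠ ⊤ ∧ Cfsg.pPrimeCore 2 G ≤ K ∧ t ∈ K) := by
  classical
  have : Fintype G := Fintype.ofFinite G
  have : Fact (Nat.Prime 2) := ⟨Nat.prime_two⟩
  have hMp : M.IsPrime := hM.2.1.isPrime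
  have hpel : ∀ y : P, ∃ k : ℕ, orderOf (y : G) = 2 ^ k := fun y => by
    obtain ⟨k, hk⟩ := (IsPGroup.iff_orderOf.1 hP) y
    exact ⟨k, by rw [← hk, Subgroup.orderOf_coe]⟩
  have htt : t * t = 1 := by rw [← sq, ← ht]; exact pow_orderOf_eq_one t
  have htinv : t⁻¹ = t := inv_eq_of_mul_eq_one_left htt
  obtain ⟨a, ha⟩ : ∃ a : IrrCharacter G → ℂ, a = fun χ : IrrCharacter G =>
      (Nat.card ↥P : ℂ)⁻¹ * ∑ᶠ y : ↥P, (χ : G → ℂ) (y : G) * θ y⁻¹ := ⟨_, rfl⟩
  have haχ : ∀ χ : IrrCharacter G,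
      (Nat.card ↥P : ℂ)⁻¹ * ∑ᶠ y : ↥P, (χ : G → ℂ) (y : G) * θ y⁻¹ = a χ := fun χ => by rw [ha]
  simp_rw [haχ]
  -- vanishing of the a-weighted columns
  have L1 : ∀ g x : G, IsPPart 2 g x → (∀ u ∈ U, ¬ IsConj u x) →
      ∑ᶠ χ ∈ principalBlock M G, a χ * (χ : G → ℂ) g = 0 := by
    intro g x hgx hU
    have hinvp : IsPPart 2 g⁻¹ x⁻¹ := by
      obtain ⟨y, hxy, hc, hx, hy⟩ := hgx
      refine ⟨y⁻¹, ?_, hc.inv_inv, by rwa [orderOf_inv], by rwa [orderOf_inv]⟩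
      rw [← hxy, hc.eq, mul_inv_rev]
    rw [finsum_mem_irr, ha]
    simp_rw [finsum_eq_sum_of_fintype, mul_assoc, Finset.sum_mul, ← mul_ite_zero]
    rw [← Finset.mul_sum]
    have h3 : ∀ χ : IrrCharacter G, (if χ ∈ principalBlock M G then
        ∑ y : P, (χ : G → ℂ) (y : G) * θ y⁻¹ * (χ : G → ℂ) g else 0)
        = ∑ y : P, θ y⁻¹ * (if χ ∈ principalBlock M G then
          (χ : G → ℂ) (y : G) * (χ : G → ℂ) g else 0) := by
      intro χ
      split_ifs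
      · exact Finset.sum_congr rfl fun y _ => by ring
      · simp
    simp_rw [h3]
    rw [Finset.sum_comm, Finset.sum_eq_zero, mul_zero]
    intro y _
    rw [← Finset.mul_sum, ← finsum_mem_irr]
    by_cases hyU : ((y⁻¹ : P) : G) ∈ U
    · have h4 := (Cfsg.Agent.S0925.result 2 M hM).2 (y : G) g⁻¹ (y : G) x⁻¹
        (isPPart_self' (hpel y)) hinvp (fun hc => hU _ hyU (by
          obtain ⟨k, hk⟩ := isConj_iff.1 hc
          rw [isConj_iff]
          refine ⟨k, ?_⟩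
          rw [Subgroup.coe_inv, ← inv_inj, ← hk]
          group)) _ isPBlock_principalBlock
      rw [inv_inv] at h4
      rw [h4, mul_zero]
    · rw [hθU _ hyU, zero_mul]
  have L2 : ∀ x : G, t * x * t⁻¹ = x⁻¹ → ∀ u ∈ U, ¬ IsConj u x := by
    intro x hx u hu hc
    obtain ⟨k, hk⟩ := isConj_iff.1 hc
    apply hinv u hu k⁻¹
    have hu' : u = k⁻¹ * x * k := by rw [← hk]; group
    rw [hu']
    calc k⁻¹ * t * k⁻¹⁻¹ * (k⁻¹ * x * k) * (k⁻¹ * t * k⁻¹⁻¹)⁻¹ = k⁻¹ * (t * x * t⁻¹) * k := by group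
      _ = (k⁻¹ * x * k)⁻¹ := by rw [hx]; group
  have hp1 : IsPPart 2 (1 : G) 1 := isPPart_self' ⟨0, by simp⟩
  have hpt : IsPPart 2 t t := isPPart_self' ⟨1, by simp [ht]⟩
  have R2 : ∑ᶠ χ ∈ principalBlock M G, a χ * (χ : G → ℂ) 1 = 0 :=
    L1 1 1 hp1 (L2 1 (by simp))
  have R3 : ∑ᶠ χ ∈ principalBlock M G, a χ * (χ : G → ℂ) t = 0 :=
    L1 t t hpt (L2 t (by rw [htinv, htt, one_mul]))
  have R1 : ∑ᶠ χ ∈ principalBlock M G, a χ * (χ : G → ℂ) t ^ 2 / (χ : G → ℂ) 1 = 0 := by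
    obtain ⟨c, e, hc, -⟩ := exists_pPartExp G 2
    have hcard : (Fintype.card G : ℂ) ≠ 0 := by exact_mod_cast Fintype.card_ne_zero
    have h5 : ∀ χ : IrrCharacter G, a χ * (χ : G → ℂ) t ^ 2 / (χ : G → ℂ) 1
        = (Fintype.card G : ℂ)⁻¹ * ∑ h : G, a χ * (χ : G → ℂ) (t * (h * t * h⁻¹)) := by
      intro χ
      rw [← Finset.mul_sum, Cfsg.Agent.Lib.Helper81.IsIrrCharacter.sum_mul_conj χ.2]
      field_simp
    simp_rw [h5]
    rw [finsum_mem_irr]
    simp_rw [← mul_ite_zero]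
    rw [← Finset.mul_sum]
    have h6 : ∀ χ : IrrCharacter G, (if χ ∈ principalBlock M G then
        ∑ h : G, a χ * (χ : G → ℂ) (t * (h * t * h⁻¹)) else 0)
        = ∑ h : G, (if χ ∈ principalBlock M G then
          a χ * (χ : G → ℂ) (t * (h * t * h⁻¹)) else 0) := by
      intro χ
      split_ifs <;> simp
    simp_rw [h6]
    rw [Finset.sum_comm, Finset.sum_eq_zero, mul_zero]
    intro h _
    rw [← finsum_mem_irr]
    apply L1 _ ((t * (h * t * h⁻¹)) ^ c) ((hc _ _).2 rfl)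
    apply L2
    rw [← conj_pow, ← inv_pow]
    congr 1
    rw [htinv]
    calc t * (t * (h * t * h⁻¹)) * t = (t * t) * (h * t * h⁻¹) * t := by group
      _ = h * t * h⁻¹ * t := by rw [htt, one_mul]
      _ = (t * (h * t * h⁻¹))⁻¹ := by
        rw [mul_inv_rev, mul_inv_rev, mul_inv_rev, inv_inv, htinv, mul_assoc h]
  refine ⟨R1, R2, R3, ?_⟩
  intro hne
  by_contra hcon
  push Not at hcon
  obtain ⟨hcon1, hcon2⟩ := hcon
  -- reality
  have hθinv : ∀ y : P, conj (θ y⁻¹) = θ y := by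
    obtain ⟨θ1, θ2, h1, h2, rfl⟩ := hθ
    intro y
    simp only [Pi.sub_apply, map_sub]
    rw [Cfsg.Agent.Lib.Helper74.IsCharacter.inv h1, Cfsg.Agent.Lib.Helper74.IsCharacter.inv h2,
      Complex.conj_conj, Complex.conj_conj]
  have hareal : ∀ χ : IrrCharacter G, ((a χ).re : ℂ) = a χ := by
    intro χ
    rw [← Complex.conj_eq_iff_re, ha]
    simp only [finsum_eq_sum_of_fintype, map_mul, map_inv₀, Complex.conj_natCast, map_sum]
    congr 1
    rw [← Equiv.sum_comp (Equiv.inv P)]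
    refine Finset.sum_congr rfl fun y _ => ?_
    simp only [Equiv.inv_apply, inv_inv, Subgroup.coe_inv]
    rw [← irr_inv, inv_inv, ← hθinv y, Complex.conj_conj]
  have htreal : ∀ χ : IrrCharacter G, ((((χ : G → ℂ) t).re : ℝ) : ℂ) = (χ : G → ℂ) t := by
    intro χ
    rw [← Complex.conj_eq_iff_re, ← irr_inv, htinv]
  have hatriv : a (trivIrr G) ≠ 0 := by
    intro h0
    apply hne
    rw [← h0, ha]
    congr 1
    simp only [finsum_eq_sum_of_fintype]
    rw [← Equiv.sum_comp (Equiv.inv P)]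
    refine Finset.sum_congr rfl fun y _ => ?_
    simp [trivIrr]
  -- the three relations over the reals
  set S : Finset (IrrCharacter G) := Finset.univ.filter (fun χ => χ ∈ principalBlock M G) with hS
  have hSmem : ∀ χ, χ ∈ S ↔ χ ∈ principalBlock M G := fun χ => by simp [hS]
  have key : ∀ s : ℝ, s ≠ 0 →
      (∀ i ∈ S, ∀ j ∈ S, 0 < s * (a i).re → 0 < s * (a j).re → i = j) →
      ∃ χ ∈ S, χ ≠ trivIrr G ∧ ((χ : G → ℂ) t).re = (charDegree (χ : G → ℂ) : ℝ) := by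
    intro s hs huniq
    apply exists_ratio_one_of_signed S (fun χ => s * (a χ).re)
      (fun χ => (charDegree (χ : G → ℂ) : ℝ)) (fun χ => ((χ : G → ℂ) t).re)
      (fun χ _ => by exact_mod_cast irr_charDegree_pos χ) _ _ _ (trivIrr G)
      ((hSmem _).2 (trivIrr_mem_principalBlock hMp)) _ _ huniq
    · have h7 : ((∑ χ ∈ S, s * (a χ).re * (charDegree (χ : G → ℂ) : ℝ) : ℝ) : ℂ) = 0 := by
        push_cast
        rw [finsum_mem_irr, ← Finset.sum_filter] at R2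
        simp_rw [hareal, ← irr_one_eq, mul_assoc]
        rw [← Finset.mul_sum, R2, mul_zero]
      exact_mod_cast h7
    · have h7 : ((∑ χ ∈ S, s * (a χ).re * ((χ : G → ℂ) t).re : ℝ) : ℂ) = 0 := by
        push_cast
        rw [finsum_mem_irr, ← Finset.sum_filter] at R3
        simp_rw [hareal, htreal, mul_assoc]
        rw [← Finset.mul_sum, R3, mul_zero]
      exact_mod_cast h7
    · have h7 : ((∑ χ ∈ S, s * (a χ).re * ((χ : G → ℂ) t).re ^ 2 /
          (charDegree (χ : G → ℂ) : ℝ) : ℝ) : ℂ) = 0 := by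
        push_cast
        rw [finsum_mem_irr, ← Finset.sum_filter] at R1
        simp_rw [hareal, htreal, ← irr_one_eq, mul_assoc, mul_div_assoc]
        rw [← Finset.mul_sum]
        simp_rw [← mul_div_assoc]
        rw [R1, mul_zero]
      exact_mod_cast h7
    · intro h0
      rcases mul_eq_zero.1 h0 with h | h
      · exact hs h
      · apply hatriv
        rw [← hareal, h, Complex.ofReal_zero]
    · have h8 : ((trivIrr G : IrrCharacter G) : G → ℂ) t = ((trivIrr G : IrrCharacter G) : G → ℂ) 1 :=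
        rfl
      show (((trivIrr G : IrrCharacter G) : G → ℂ) t).re = _
      rw [h8, irr_one_eq, Complex.natCast_re]
  -- conclusion from a nontrivial character with `t` in its kernel
  have fin : ∀ χ ∈ S, χ ≠ trivIrr G →
      ((χ : G → ℂ) t).re = (charDegree (χ : G → ℂ) : ℝ) → False := by
    intro χ hχS hχne hχt
    have hχc : IsCharacter G (χ : G → ℂ) := Cfsg.Agent.Lib.Helper74.IrrCharacter.isCharacter χ
    have hχt' : (χ : G → ℂ) t = (χ : G → ℂ) 1 := by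
      rw [← htreal, hχt, irr_one_eq, Complex.ofReal_natCast]
    apply hcon2 (Cfsg.Agent.Lib.Helper80.charKer (χ : G → ℂ) hχc)
      (Cfsg.Agent.Lib.Helper80.charKer_normal hχc) _ _ hχt'
    · intro htop
      apply hχne
      have h9 : ∀ g : G, (χ : G → ℂ) g = (χ : G → ℂ) 1 := fun g => by
        have : g ∈ Cfsg.Agent.Lib.Helper80.charKer (χ : G → ℂ) hχc := by rw [htop]; trivial
        exact this
      by_contra hne'
      have h10 := sum_irr_mul_conj χ (trivIrr G)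
      rw [if_neg hne'] at h10
      simp only [h9, trivIrr, map_one, mul_one, Finset.sum_const, Finset.card_univ,
        nsmul_eq_mul] at h10
      rcases mul_eq_zero.1 h10 with h | h
      · exact absurd h (by exact_mod_cast Fintype.card_ne_zero)
      · exact irr_one_ne_zero χ h
    · intro n hn
      exact Cfsg.Agent.Lib.Helper82.ker_of_mem_principalBlock 2 hM ((hSmem χ).1 hχS) n hn
  by_cases hc1 : 2 ≤ Nat.card {χ : IrrCharacter G // χ ∈ principalBlock M G ∧ 0 < (a χ).re}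
  · have hc2 := hcon1 hc1
    have hsub : Subsingleton {χ : IrrCharacter G // χ ∈ principalBlock M G ∧ (a χ).re < 0} :=
      Finite.card_le_one_iff_subsingleton.1 (by omega)
    obtain ⟨χ, h1, h2, h3⟩ := key (-1) (by norm_num) (by
      intro i hi j hj hi' hj'
      have := hsub.elim ⟨i, (hSmem i).1 hi, by linarith⟩ ⟨j, (hSmem j).1 hj, by linarith⟩
      exact congrArg Subtype.val this)
    exact fin χ h1 h2 h3
  · have hsub : Subsingleton {χ : IrrCharacter G // χ ∈ principalBlock M G ∧ 0 < (a χ).re} :=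
      Finite.card_le_one_iff_subsingleton.1 (by omega)
    obtain ⟨χ, h1, h2, h3⟩ := key 1 (by norm_num) (by
      intro i hi j hj hi' hj'
      have := hsub.elim ⟨i, (hSmem i).1 hi, by linarith⟩ ⟨j, (hSmem j).1 hj, by linarith⟩
      exact congrArg Subtype.val this)
    exact fin χ h1 h2 h3

end Cfsg.Agent.S4722
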