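import Cfsg.Statements.S4723
import Cfsg.Agent.Lib.Helper16.InvHeightZero
-- import your own Cfsg.Agent.* helpers here

set_option autoImplicit false
open Cfsg Cfsg.Agent.Lib.Helper78 Cfsg.Agent.Lib.Helper16 Cfsg.Agent.Lib

namespace Cfsg.Agent.S4723

/-- Let p be a prime, M a maximal ideal of the algebraic integers containing p, H a normal subgroup of the finite group G and b a p-block of H. Let T be the stabilizer of b in G. Then b contains a character θ of height zero whose own stabilizer in G (the elements g with θ(g h g⁻¹) = θ(h) for all h ∈ H) has index prime to p in T, i.e. contains a Sylow p-subgroup of T. -/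
theorem result {G : Type*} [Group G] [Finite G] (p : ℕ) [Fact p.Prime] (M : Ideal Cfsg.AlgInt) (hM : Cfsg.IsPModular p M) (H : Subgroup G) [H.Normal] (b : Set (Cfsg.IrrCharacter ↥H)) (hb : Cfsg.IsPBlock M b) (T : Subgroup G) (hT : (∀ g : G, g ∈ T ↔ ∀ θ ∈ b, ∀ θ' : Cfsg.IrrCharacter ↥H, (∀ h h' : ↥H, (h' : G) = g * h * g⁻¹ → (θ' : ↥H → ℂ) h' = (θ : ↥H → ℂ) h) → θ' ∈ b)) : ∃ θ ∈ b, Cfsg.blockHeight p b (θ : ↥H → ℂ) = 0 ∧ ∃ S : Subgroup G, S ≤ T ∧ (∀ g : G, g ∈ S ↔ (g ∈ T ∧ ∀ h h' : ↥H, (h' : G) = g * h * g⁻¹ → (θ : ↥H → ℂ) h' = (θ : ↥H → ℂ) h)) ∧ ¬ p ∣ S.relIndex T := by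
  classical
  cases nonempty_fintype G
  haveI : M.IsMaximal := hM.2.1
  have hMp := pmod_isPrime hM
  have hp := hM.1
  have hHn : H.Normal := inferInstance
  -- reformulate the stabilizer
  have hT1 : ∀ g : G, g ∈ T ↔ ∀ θ ∈ b, Helper35.cjIrr H g⁻¹ θ ∈ b := by
    intro g
    rw [hT]
    constructor
    · intro h θ hθ
      refine h θ hθ _ ?_
      intro h₁ h₂ h12
      rw [Helper35.cjIrr_coe, Helper15.cj_apply]
      apply congrArg
      apply Subtype.ext
      simp [h12, mul_assoc]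
    · intro h θ hθ θ' hθ'
      have : θ' = Helper35.cjIrr H g⁻¹ θ := by
        apply Subtype.ext
        funext x
        rw [Helper35.cjIrr_coe, Helper15.cj_apply]
        refine hθ' ⟨g⁻¹ * x * g⁻¹⁻¹, hHn.conj_mem x x.2 g⁻¹⟩ x ?_
        simp [mul_assoc]
      rw [this]; exact h θ hθ
  have hT2 : ∀ g ∈ T, ∀ θ ∈ b, Helper35.cjIrr H g θ ∈ b := by
    intro g hg θ hθ
    have := (hT1 g⁻¹).1 (inv_mem hg) θ hθ
    rwa [inv_inv] at this
  have hHT : H ≤ T := by
    intro h hh
    rw [hT1]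
    intro θ hθ
    have : Helper35.cjIrr H h⁻¹ θ = θ :=
      Subtype.ext (Helper15.cj_of_mem H (inv_mem hh) (irr_isClassFunction θ))
    rw [this]; exact hθ
  -- a Sylow subgroup of `T`
  obtain ⟨P⟩ : Nonempty (Sylow p T) := inferInstance
  set PG : Subgroup G := (P : Subgroup T).map T.subtype with hPG
  have hPGT : PG ≤ T := Subgroup.map_subtype_le _
  have hPGp : IsPGroup p PG := P.isPGroup'.map _
  set K : Subgroup G := H ⊔ PG with hK
  have hHK : H ≤ K := le_sup_left
  have hKT : K ≤ T := sup_le hHT hPGT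
  have hidx : ∃ k : ℕ, (H.subgroupOf K).index = p ^ k := by
    have h1 : (H.subgroupOf K).index = (H.subgroupOf PG).index := by
      show H.relIndex K = H.relIndex PG
      rw [hK, Subgroup.relIndex_sup_left]
    rw [h1]
    exact IsPGroup.index hPGp _
  have hb' : IsPBlock M (downIrr hHK '' b) := isPBlock_irrCongr _ M hb
  obtain ⟨θ', ⟨θ, hθ, rfl⟩, hht, hinv⟩ := exists_invariant_height_zero (H.subgroupOf K) hM hidx hb'
    (by
      rintro g _ ⟨θ, hθ, rfl⟩
      rw [cjIrr_downIrr]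
      exact ⟨_, hT2 _ (hKT g.2) θ hθ, rfl⟩)
  refine ⟨θ, hθ, ?_, T ⊓ Helper79.inertia H (θ : H → ℂ), inf_le_left, ?_, ?_⟩
  · rw [← hht]
    exact (blockHeight_irrCongr _ p b θ).symm
  · intro g
    rw [Subgroup.mem_inf, Helper79.mem_inertia]
    apply and_congr_right
    intro _
    constructor
    · intro h h₁ h₂ h12
      conv_rhs => rw [← h]
      rw [Helper15.cj_apply]
      apply congrArg
      exact Subtype.ext h12
    · intro h
      funext x
      rw [Helper15.cj_apply]
      exact h x _ rfl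
  · have hle : (P : Subgroup T) ≤ (T ⊓ Helper79.inertia H (θ : H → ℂ)).subgroupOf T := by
      intro t ht
      rw [Subgroup.mem_subgroupOf]
      refine ⟨t.2, ?_⟩
      have htK : (t : G) ∈ K := le_sup_right (a := H) (⟨t, ht, rfl⟩ : (t : G) ∈ PG)
      have h1 := hinv ⟨t, htK⟩
      rw [cjIrr_downIrr] at h1
      have h2 := (downIrr hHK).injective h1
      exact congrArg Subtype.val h2
    intro hdvd
    exact P.not_dvd_index (hdvd.trans (Subgroup.index_dvd_of_le hle))

end Cfsg.Agent.S4723
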