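import Cfsg.Statements.S4725
import Cfsg.Agent.Lib.Helper16.HeightT
import Cfsg.Agent.Lib.Helper15.CharTools
-- import your own Cfsg.Agent.* helpers here

set_option autoImplicit false
open Cfsg Cfsg.Agent.Lib.Helper78 Cfsg.Agent.Lib.Helper16 Cfsg.Agent.Lib

namespace Cfsg.Agent.S4725

/-- Let p be a prime, M a maximal ideal of the algebraic integers containing p, H a subgroup of the finite group G, and b a p-block of H inducing the p-block B of G, with b and B of the same defect. Then for every height-zero ζ ∈ b there is a height-zero χ ∈ B whose multiplicity in the character induced from ζ is not divisible by p. -/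
theorem result {G : Type*} [Group G] [Fintype G] (p : ℕ) [Fact p.Prime] (M : Ideal Cfsg.AlgInt) (hM : Cfsg.IsPModular p M) (H : Subgroup G) (b : Set (Cfsg.IrrCharacter ↥H)) (B : Set (Cfsg.IrrCharacter G)) (hind : Cfsg.IsInducedBlock M H b B) (hdef : Cfsg.blockDefect p b = Cfsg.blockDefect p B) (ζ : Cfsg.IrrCharacter ↥H) (hζ : ζ ∈ b) (hζ0 : Cfsg.blockHeight p b (ζ : ↥H → ℂ) = 0) : ∃ χ ∈ B, Cfsg.blockHeight p B (χ : G → ℂ) = 0 ∧ ∃ a : ℕ, Cfsg.classInner (Cfsg.indFun H (ζ : ↥H → ℂ)) (χ : G → ℂ) = (a : ℂ) ∧ ¬ p ∣ a := by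
  classical
  haveI : Fintype H := Fintype.ofFinite H
  have hMp := pmod_isPrime hM
  have hp := hM.1
  obtain ⟨χ₀, hχ₀⟩ := IsPBlock.nonempty hMp hind.2.1
  have hcl := blockCoeff_isClassFunction B
  have hR := memLocalRing_blockCoeff hMp hind.2.1
  have h1 := memLocalIdeal_omega_res_sub H hM hind hζ hχ₀ hcl hR
  rw [omega_blockCoeff, if_pos hχ₀] at h1
  set u := omega (ζ : H → ℂ) (fun x : H => blockCoeff B x) with hu
  have huR : MemLocalRing M u :=
    memLocalRing_omega hMp ζ (fun g x => hcl g x) (fun x => hR x)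
  have huU : ¬ MemLocalIdeal M u := by
    rw [MemLocalIdeal.congr hMp h1]; exact not_memLocalIdeal_one hMp
  have hchar : IsCharacter G (indFun H (ζ : H → ℂ)) :=
    Helper15.char_indFun H (Helper74.IrrCharacter.isCharacter ζ)
  choose n hn using fun χ : IrrCharacter G => Helper74.IsCharacter.classInner_irr_nat hchar χ
  set S : ℕ := ∑ χ : IrrCharacter G, if χ ∈ B then charDegree (χ : G → ℂ) * n χ else 0 with hS
  have hcG : (Nat.card G : ℂ) ≠ 0 := by exact_mod_cast Nat.card_pos.ne'
  have hcH : (Nat.card H : ℂ) ≠ 0 := by exact_mod_cast Nat.card_pos.ne'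
  have hζ1 : (charDegree (ζ : H → ℂ) : ℂ) ≠ 0 := by exact_mod_cast (irr_charDegree_pos ζ).ne'
  have hidx : (H.index : ℂ) = (Nat.card G : ℂ) / (Nat.card H : ℂ) := by
    rw [eq_div_iff hcH]
    exact_mod_cast H.index_mul_card
  have key : (S : ℂ) = ((H.index * charDegree (ζ : H → ℂ) : ℕ) : ℂ) * u := by
    have e1 : u * (charDegree (ζ : H → ℂ) : ℂ) = ∑ h : H, blockCoeff B h * (ζ : H → ℂ) h := by
      rw [hu]
      unfold omega
      rw [irr_one_eq, div_mul_cancel₀ _ hζ1]
    have e2 : ∑ h : H, blockCoeff B h * (ζ : H → ℂ) h =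
        (Nat.card G : ℂ)⁻¹ * ((Nat.card H : ℂ) * (S : ℂ)) := by
      simp only [blockCoeff_eq_sum, ← Nat.card_eq_fintype_card]
      simp only [mul_assoc, ← Finset.mul_sum]
      congr 1
      simp only [Finset.sum_mul]
      rw [Finset.sum_comm, hS]
      push_cast
      rw [Finset.mul_sum]
      refine Finset.sum_congr rfl fun χ _ => ?_
      split_ifs with hχ
      · have e3 := hn χ
        rw [Helper15.classInner_indFun_left H _ _ (irr_isClassFunction χ)] at e3
        unfold classInner at e3
        have e4 : ∑ h : H, (ζ : H → ℂ) h * (starRingEnd ℂ) ((χ : G → ℂ) h) =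
            (Nat.card H : ℂ) * (n χ : ℂ) := by
          rw [← e3]; field_simp
        simp only [one_mul]
        rw [irr_one_eq]
        calc ∑ h : H, (charDegree (χ : G → ℂ) : ℂ) * (starRingEnd ℂ) ((χ : G → ℂ) h) * (ζ : H → ℂ) h
            = (charDegree (χ : G → ℂ) : ℂ) *
              ∑ h : H, (ζ : H → ℂ) h * (starRingEnd ℂ) ((χ : G → ℂ) h) := by
              rw [Finset.mul_sum]
              refine Finset.sum_congr rfl fun h _ => by ring
          _ = _ := by rw [e4]; ring
      · simp
    push_cast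
    rw [hidx, mul_assoc, mul_comm (charDegree (ζ : H → ℂ) : ℂ) u, e1, e2]
    field_simp
  have hb0 : H.index * charDegree (ζ : H → ℂ) ≠ 0 :=
    mul_ne_zero Subgroup.index_ne_zero_of_finite (irr_charDegree_pos ζ).ne'
  have hb0c : ((H.index * charDegree (ζ : H → ℂ) : ℕ) : ℂ) ≠ 0 := by exact_mod_cast hb0
  have hdiv : (S : ℂ) / ((H.index * charDegree (ζ : H → ℂ) : ℕ) : ℂ) = u := by
    rw [key]; field_simp
  have hS0 : S ≠ 0 := by
    intro h0
    apply huU
    rw [← hdiv, h0]
    simpa using memLocalIdeal_zero hMp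
  have hfac := factorization_eq_of_unit hM hS0 hb0 (by rw [hdiv]; exact huR)
    (by rw [hdiv]; exact huU)
  rw [Nat.factorization_mul Subgroup.index_ne_zero_of_finite (irr_charDegree_pos ζ).ne',
    Finsupp.add_apply] at hfac
  have hidxf : H.index.factorization p + (Nat.card H).factorization p =
      (Nat.card G).factorization p := by
    rw [← H.index_mul_card, Nat.factorization_mul Subgroup.index_ne_zero_of_finite
      Nat.card_pos.ne']; rfl
  have hζm := (blockHeight_eq_zero_iff hζ).1 hζ0
  have hmb := minDeg_le_card (p := p) (IsPBlock.nonempty hMp hind.1)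
  have hmB := minDeg_le_card (p := p) (IsPBlock.nonempty hMp hind.2.1)
  have hd1 : blockDefect p b = (Nat.card H).factorization p - minDeg p b := rfl
  have hd2 : blockDefect p B = (Nat.card G).factorization p - minDeg p B := rfl
  have hSm : S.factorization p = minDeg p B := by omega
  by_contra hcon
  push Not at hcon
  have hdvd : p ^ (minDeg p B + 1) ∣ S := by
    rw [hS]
    refine Finset.dvd_sum fun χ _ => ?_
    split_ifs with hχ
    · by_cases h0 : blockHeight p B (χ : G → ℂ) = 0
      · have hpn : p ∣ n χ := by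
          by_contra hpn
          exact hpn (hcon χ hχ h0 (n χ) (hn χ))
        rw [pow_succ]
        refine mul_dvd_mul ?_ hpn
        rw [← (blockHeight_eq_zero_iff hχ).1 h0]
        exact Nat.ordProj_dvd _ _
      · refine Dvd.dvd.mul_right ?_ _
        rw [blockHeight_eq_zero_iff hχ] at h0
        have := minDeg_le (p := p) hχ
        exact (pow_dvd_pow p (by omega)).trans (Nat.ordProj_dvd _ _)
    · exact dvd_zero _
  have := (hp.pow_dvd_iff_le_factorization hS0).1 hdvd
  omega

end Cfsg.Agent.S4725
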