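import Cfsg.Statements.S4727
import Cfsg.Agent.Lib.Helper97.KerBlock
import Cfsg.Agent.Lib.Helper4.SecondMainE
import Cfsg.Agent.S0912

set_option autoImplicit false
open Cfsg

namespace Cfsg.Agent.S4727

/-- Let p be a prime, π a set of primes containing p, M a maximal ideal of the algebraic integers containing p, and B a p-block of the finite group G with defect group D; let B₁ be the block of N_G(D) with defect group D that induces B (the Brauer correspondent of B). Suppose every element of O_π'(N_G(D)), the largest normal subgroup of N_G(D) whose order has no prime divisor in π, lies in the kernel of every member of B₁. If y is a p-element whose centralizer C has a normal Hall π'-subgroup (every element of C whose order has no prime divisor in π lies in O_π'(C)), then χ(y x) = χ(y) for every χ ∈ B and every x ∈ C whose order has no prime divisor in π. -/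
theorem result {G : Type*} [Group G] [Finite G] (p : ℕ) [Fact p.Prime] (M : Ideal Cfsg.AlgInt) (hM : Cfsg.IsPModular p M) (π : Set ℕ) (hpπ : p ∈ π) (B : Set (Cfsg.IrrCharacter G)) (hB : Cfsg.IsPBlock M B) (D : Subgroup G) (hBD : Cfsg.IsDefectGroup p M B D) (B₁ : Set (Cfsg.IrrCharacter ↥(Subgroup.normalizer (D : Set G)))) (hB₁ : Cfsg.IsInducedBlock M (Subgroup.normalizer (D : Set G)) B₁ B) (hB₁D : Cfsg.IsDefectGroup p M B₁ (D.subgroupOf (Subgroup.normalizer (D : Set G)))) (hker : ∀ n : ↥(Subgroup.normalizer (D : Set G)), n ∈ Cfsg.piCore {q | q ∉ π} ↥(Subgroup.normalizer (D : Set G)) → n ∈ Cfsg.blockKer B₁) (y : G) (hy : ∃ k : ℕ, orderOf y = p ^ k) (hC : ∀ x : ↥(Subgroup.centralizer ({y} : Set G)), (∀ q : ℕ, q.Prime → q ∣ orderOf x → q ∉ π) → x ∈ Cfsg.piCore {q | q ∉ π} ↥(Subgroup.centralizer ({y} : Set G))) : ∀ χ ∈ B, ∀ x : G, x ∈ Subgroup.centralizer ({y} : Set G) → (∀ q : ℕ, q.Prime → q ∣ orderOf x → q ∉ π) → (χ : G → ℂ) (y * x) = (χ : G → ℂ) y := by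
  classical
  have hP : M.IsPrime := Cfsg.Agent.Lib.Helper78.pmod_isPrime hM
  have := Fintype.ofFinite G
  intro χ hχ x hx hord
  have hxreg : ¬ p ∣ orderOf (⟨x, hx⟩ : ↥(Subgroup.centralizer ({y} : Set G))) := by
    rw [Subgroup.orderOf_mk]
    intro h
    exact hord p Fact.out h hpπ
  have h1reg : ¬ p ∣ orderOf (1 : ↥(Subgroup.centralizer ({y} : Set G))) := by
    rw [orderOf_one]
    exact (Fact.out : p.Prime).one_lt.ne' ∘ Nat.dvd_one.1
  have h1 := Cfsg.Agent.Lib.Helper4.apply_eq_blockPart_indSet hM y hy hB hχ ⟨x, hx⟩ hxreg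
  have h2 := Cfsg.Agent.Lib.Helper4.apply_eq_blockPart_indSet hM y hy hB hχ 1 h1reg
  rw [Subgroup.coe_one, mul_one] at h2
  rw [h2]
  refine h1.trans ?_
  rw [Cfsg.Agent.Lib.Helper4.blockPart_def, Cfsg.Agent.Lib.Helper4.blockPart_def]
  apply finsum_mem_congr rfl
  intro ψ hψ
  congr 1
  have hind : IsInducedBlock M (Subgroup.centralizer ({y} : Set G))
    (blockOf M (ψ : ↥(Subgroup.centralizer ({y} : Set G)) → ℂ)) B := hψ
  obtain ⟨D₀, hD₀⟩ := Cfsg.Agent.Lib.Helper16.exists_isDefectGroup hM hind.1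
  have hyC : y ∈ Subgroup.centralizer ({y} : Set G) := by
    rw [Subgroup.mem_centralizer_singleton_iff]
  have hyD : (⟨y, hyC⟩ : ↥(Subgroup.centralizer ({y} : Set G))) ∈ D₀ := by
    apply Cfsg.Agent.S0912.result p M hM _ hind.1 D₀ hD₀
    have hle : Subgroup.zpowers (⟨y, hyC⟩ : ↥(Subgroup.centralizer ({y} : Set G)))
        ≤ Cfsg.pCore p ↥(Subgroup.centralizer ({y} : Set G)) := by
      apply le_sSup
      refine ⟨?_, ?_⟩
      · have hcen : Subgroup.zpowers (⟨y, hyC⟩ : ↥(Subgroup.centralizer ({y} : Set G)))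
            ≤ Subgroup.center ↥(Subgroup.centralizer ({y} : Set G)) := by
          rw [Subgroup.zpowers_le, Subgroup.mem_center_iff]
          intro c
          apply Subtype.ext
          exact (Subgroup.mem_centralizer_singleton_iff.1 c.2)
        refine ⟨fun n hn g => ?_⟩
        have h3 := Subgroup.mem_center_iff.1 (hcen hn) g
        rw [h3, mul_inv_cancel_right]
        exact hn
      · obtain ⟨k, hk⟩ := hy
        apply IsPGroup.of_card (n := k)
        rw [Nat.card_zpowers, Subgroup.orderOf_mk, hk]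
    exact hle (Subgroup.mem_zpowers _)
  have hCC : Subgroup.centralizer
      ((D₀.map (Subgroup.centralizer ({y} : Set G)).subtype : Subgroup G) : Set G)
      ≤ Subgroup.centralizer ({y} : Set G) := by
    apply Subgroup.centralizer_le
    intro z hz
    rw [Set.mem_singleton_iff] at hz
    rw [hz]
    exact ⟨⟨y, hyC⟩, hyD, rfl⟩
  have hbk := Cfsg.Agent.Lib.Helper97.bK_descends M hM hpπ hBD hB₁
    ((Cfsg.Agent.Lib.Helper97.bK_iff π _ B₁).2 hker) hind hD₀ hCC
  have hxk := (Cfsg.Agent.Lib.Helper97.bK_iff π _ _).1 hbk ⟨x, hx⟩ (hC ⟨x, hx⟩ (by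
    intro q hq hd
    rw [Subgroup.orderOf_mk] at hd
    exact hord q hq hd))
  exact hxk ψ (Cfsg.Agent.Lib.Helper78.mem_blockOf_self hP ψ)

end Cfsg.Agent.S4727
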