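import Cfsg.Statements.S4729
import Cfsg.Agent.Lib.Helper76.AlperinDade
import Cfsg.Agent.Lib.Helper76.Eigen
import Cfsg.Agent.Lib.Helper81.Det
-- import your own Cfsg.Agent.* helpers here

set_option autoImplicit false
open Cfsg Cfsg.Agent.Lib.Helper78 Cfsg.Agent.Lib.Helper16 Cfsg.Agent.Lib

namespace Cfsg.Agent.S4729

theorem exists_eigen_det {G : Type*} [Group G] {V : Type*} [AddCommGroup V] [Module ℂ V]
    [FiniteDimensional ℂ V] (ρ : Representation ℂ G V) (g : G) (m : ℕ) (hm : 0 < m) (hg : g ^ m = 1) :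
    ∃ (μ : Fin (Module.finrank ℂ V) → ℂ), (∀ i, μ i ^ m = 1) ∧
      (∀ k : ℕ, ρ.character (g ^ k) = ∑ i, μ i ^ k) ∧ LinearMap.det (ρ g) = ∏ i, μ i := by
  classical
  obtain ⟨b, μ, h1, h2⟩ := Helper76.exists_eigenbasis (ρ g) m hm (by rw [← map_pow, hg, map_one])
  refine ⟨μ, h2, fun k => ?_, ?_⟩
  · rw [Representation.character, map_pow]
    exact Helper76.trace_eq_sum_of_eigenbasis (ρ g ^ k) b (fun i => μ i ^ k)
      (fun i => Helper76.pow_apply_eigen (ρ g) _ _ (h1 i) k)
  · rw [← LinearMap.det_toMatrix b]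
    have : LinearMap.toMatrix b b (ρ g) = Matrix.diagonal μ := by
      ext i j
      rw [LinearMap.toMatrix_apply, h1, map_smul, Finsupp.smul_apply, Module.Basis.repr_self,
        Matrix.diagonal_apply, Finsupp.single_apply]
      by_cases hij : i = j
      · subst hij; simp
      · rw [if_neg (fun h => hij h.symm), if_neg hij]; simp
    rw [this, Matrix.det_diagonal]

theorem geom_root {ζ : ℂ} {m : ℕ} (h : ζ ^ m = 1) (h1 : ζ ≠ 1) : ∑ k ∈ Finset.range m, ζ ^ k = 0 := by
  have := mul_neg_geom_sum ζ m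
  rw [h, sub_self] at this
  rcases mul_eq_zero.1 this with h2 | h2
  · exact absurd (sub_eq_zero.1 h2).symm h1
  · exact h2

theorem all_one {p : ℕ} {M : Ideal AlgInt} (hM : IsPModular p M) {n m : ℕ} (hm : 0 < m)
    (hpm : ¬ p ∣ m) (μ : Fin n → ℂ) (hμ : ∀ i, μ i ^ m = 1)
    (hcong : ∀ k : ℕ, MemLocalIdeal M (∑ i, μ i ^ k - n)) (hn : n < 2 * p) (hprod : ∏ i, μ i = 1) :
    ∀ i, μ i = 1 := by
  classical
  have hMp := pmod_isPrime hM
  have hp := hM.1
  have hcount : ∀ ε : ℂ, ε ^ m = 1 → ε ≠ 1 → p ∣ (Finset.univ.filter fun i => μ i = ε).card := by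
    intro ε hε hε1
    have hε0 : ε ≠ 0 := by
      rintro rfl
      rw [zero_pow hm.ne'] at hε
      exact zero_ne_one hε
    have hinv : (ε⁻¹) ^ m = 1 := by rw [inv_pow, hε, inv_one]
    have hinv1 : ε⁻¹ ≠ 1 := fun h => hε1 (inv_eq_one.1 h)
    have e1 : ((m * (Finset.univ.filter fun i => μ i = ε).card : ℕ) : ℂ) =
        ∑ k ∈ Finset.range m, (ε⁻¹) ^ k * ∑ i, μ i ^ k := by
      simp only [Finset.mul_sum]
      rw [Finset.sum_comm]
      have : ∀ i, ∑ k ∈ Finset.range m, (ε⁻¹) ^ k * μ i ^ k = if μ i = ε then (m : ℂ) else 0 := by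
        intro i
        simp only [← mul_pow]
        split_ifs with h
        · rw [h, inv_mul_cancel₀ hε0]; simp
        · apply geom_root
          · rw [mul_pow, hinv, hμ, one_mul]
          · intro h2
            apply h
            field_simp at h2
            exact h2
      simp only [this]
      rw [← Finset.sum_filter, Finset.sum_const, nsmul_eq_mul]
      push_cast; ring
    have e2 : ∑ k ∈ Finset.range m, (ε⁻¹) ^ k * ∑ i, μ i ^ k =
        ∑ k ∈ Finset.range m, (ε⁻¹) ^ k * (∑ i, μ i ^ k - n) := by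
      have : ∑ k ∈ Finset.range m, (ε⁻¹) ^ k * (∑ i, μ i ^ k - n) =
          ∑ k ∈ Finset.range m, (ε⁻¹) ^ k * ∑ i, μ i ^ k -
            (∑ k ∈ Finset.range m, (ε⁻¹) ^ k) * n := by
        rw [Finset.sum_mul, ← Finset.sum_sub_distrib]
        refine Finset.sum_congr rfl fun k _ => by ring
      rw [this, geom_root hinv hinv1, zero_mul, sub_zero]
    have hint : IsIntegral ℤ (ε⁻¹) := ⟨Polynomial.X ^ m - 1, Polynomial.monic_X_pow_sub_C 1 hm.ne',
      by simp [hinv]⟩
    have e3 : MemLocalIdeal M ((m * (Finset.univ.filter fun i => μ i = ε).card : ℕ) : ℂ) := by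
      rw [e1, e2]
      refine MemLocalIdeal.sum hMp _ _ fun k _ => ?_
      exact MemLocalIdeal.mul_left hMp
        (MemLocalRing.pow hMp (memLocalRing_of_isIntegral hMp hint) k) (hcong k)
    rw [memLocalIdeal_natCast_iff hM] at e3
    exact (hp.dvd_mul.1 e3).resolve_left hpm
  by_contra hcon
  push Not at hcon
  obtain ⟨i₀, hi₀⟩ := hcon
  set ε := μ i₀ with hε
  have hc1 := hcount ε (hμ i₀) hi₀
  have hpos : 0 < (Finset.univ.filter fun i => μ i = ε).card :=
    Finset.card_pos.2 ⟨i₀, by simp [hε]⟩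
  have hge : p ≤ (Finset.univ.filter fun i => μ i = ε).card := Nat.le_of_dvd hpos hc1
  have hle : (Finset.univ.filter fun i => μ i = ε).card ≤ n := by
    simpa using Finset.card_le_univ (Finset.univ.filter fun i => μ i = ε)
  have hall : ∀ i, μ i = 1 ∨ μ i = ε := by
    intro i
    by_contra h
    push Not at h
    have hc2 := hcount (μ i) (hμ i) h.1
    have hpos2 : 0 < (Finset.univ.filter fun j => μ j = μ i).card :=
      Finset.card_pos.2 ⟨i, by simp⟩
    have hge2 : p ≤ (Finset.univ.filter fun j => μ j = μ i).card := Nat.le_of_dvd hpos2 hc2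
    have hdisj : Disjoint (Finset.univ.filter fun j => μ j = ε)
        (Finset.univ.filter fun j => μ j = μ i) := by
      rw [Finset.disjoint_filter]
      intro j _ h1 h2
      exact h.2 (h2.symm.trans h1)
    have h3 := Finset.card_le_univ ((Finset.univ.filter fun j => μ j = ε) ∪
      (Finset.univ.filter fun j => μ j = μ i))
    rw [Finset.card_union_of_disjoint hdisj, Fintype.card_fin] at h3
    omega
  have hcard : (Finset.univ.filter fun i => μ i = ε).card = p := by
    obtain ⟨c, hc⟩ := hc1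
    have hc0 : c = 1 := by
      rcases c with _ | _ | c
      · omega
      · rfl
      · exfalso
        have : 2 * p ≤ p * (c + 1 + 1) := by nlinarith
        omega
    rw [hc, hc0, mul_one]
  have hprod2 : ∏ i, μ i = ε ^ p := by
    rw [← hcard, ← Finset.prod_const, Finset.prod_filter]
    refine Finset.prod_congr rfl fun i _ => ?_
    rcases hall i with h | h
    · rw [h, if_neg (fun h2 => hi₀ h2.symm)]
    · rw [if_pos h, h]
  rw [hprod] at hprod2
  have h4 := pow_gcd_eq_one.2 ⟨hprod2.symm, hμ i₀⟩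
  rw [(Nat.Prime.coprime_iff_not_dvd hp).2 hpm, pow_one] at h4
  exact hi₀ h4

/-- Let p be a prime, M a maximal ideal of the algebraic integers containing p, G a finite perfect group and P a Sylow p-subgroup. If the principal p-block of G contains a faithful irreducible character of degree less than 2p, then the centralizer of P is a p-group. -/
theorem result {G : Type*} [Group G] [Finite G] (p : ℕ) [Fact p.Prime] (M : Ideal Cfsg.AlgInt) (hM : Cfsg.IsPModular p M) (hperf : commutator G = ⊤) (P : Sylow p G) (χ : Cfsg.IrrCharacter G) (hχ : χ ∈ Cfsg.principalBlock M G) (hfaith : ∀ g : G, (χ : G → ℂ) g = (χ : G → ℂ) 1 → g = 1) (hdeg : Cfsg.charDegree (χ : G → ℂ) < 2 * p) : IsPGroup p ↥(Subgroup.centralizer ((P : Subgroup G) : Set G)) := by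
  classical
  have hMp := pmod_isPrime hM
  have hp := hM.1
  -- `p`-regular elements of the centralizer are trivial
  have key : ∀ x ∈ Subgroup.centralizer ((P : Subgroup G) : Set G), ¬ p ∣ orderOf x → x = 1 := by
    intro x hx hxr
    obtain ⟨n, ρ, hρ, hρχ⟩ := χ.2
    have hm : 0 < orderOf x := orderOf_pos x
    obtain ⟨μ, h1, h2, h3⟩ := exists_eigen_det ρ x (orderOf x) hm (pow_orderOf_eq_one x)
    have hdet : LinearMap.det (ρ x) = 1 := by
      have h4 : x ∈ (Helper81.detHom ρ).ker :=
        Abelianization.commutator_subset_ker _ (by rw [hperf]; trivial)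
      have h5 := congrArg (fun u : ℂˣ => (u : ℂ)) (MonoidHom.mem_ker.1 h4)
      simpa [Helper81.detHom_apply] using h5
    have hdegc : (χ : G → ℂ) 1 = (Module.finrank ℂ (Fin n → ℂ) : ℂ) := by
      rw [← hρχ, Representation.char_one]
    have hdegn : charDegree (χ : G → ℂ) = Module.finrank ℂ (Fin n → ℂ) := by
      have := irr_one_eq χ
      rw [hdegc] at this
      exact_mod_cast this.symm
    have hcong : ∀ k : ℕ, MemLocalIdeal M
        (∑ i, μ i ^ k - (Module.finrank ℂ (Fin n → ℂ) : ℕ)) := by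
      intro k
      have hxk : x ^ k ∈ Subgroup.centralizer ((P : Subgroup G) : Set G) := Subgroup.pow_mem _ hx k
      have hidx : ¬ p ∣ (Subgroup.centralizer ({x ^ k} : Set G)).index := by
        intro hdvd
        apply P.not_dvd_index
        refine hdvd.trans (Subgroup.index_dvd_of_le ?_)
        intro y hy
        rw [Subgroup.mem_centralizer_singleton_iff]
        exact (Subgroup.mem_centralizer_iff.1 hxk y hy)
      have h5 := Helper76.ratio_sub_one_mem hM hχ hidx
      have h6 := MemLocalIdeal.mul_left hMp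
        (memLocalRing_natCast hMp (Module.finrank ℂ (Fin n → ℂ))) h5
      rw [← h2 k, hρχ]
      convert h6 using 1
      rw [hdegc]
      have : (Module.finrank ℂ (Fin n → ℂ) : ℂ) ≠ 0 := by
        rw [← hdegc]; exact irr_one_ne_zero χ
      field_simp
    have hall := all_one hM hm hxr μ h1 hcong (by rw [← hdegn]; exact hdeg) (by rw [← h3, hdet])
    apply hfaith
    have h7 := h2 1
    rw [pow_one, hρχ] at h7
    rw [h7, hdegc]
    simp [hall]
  intro g
  refine ⟨(Nat.card G).factorization p, ?_⟩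
  apply Subtype.ext
  have hx : ((g : G) ^ p ^ (Nat.card G).factorization p) ∈
      Subgroup.centralizer ((P : Subgroup G) : Set G) := Subgroup.pow_mem _ g.2 _
  have hr : ¬ p ∣ orderOf ((g : G) ^ p ^ (Nat.card G).factorization p) := by
    intro hdvd
    have h1 : ((g : G) ^ p ^ (Nat.card G).factorization p) ^
        (Nat.card G / p ^ (Nat.card G).factorization p) = 1 := by
      rw [← pow_mul, Nat.ordProj_mul_ordCompl_eq_self]
      exact pow_card_eq_one'
    exact Nat.not_dvd_ordCompl hp Nat.card_pos.ne' (hdvd.trans (orderOf_dvd_of_pow_eq_one h1))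
  simpa using key _ hx hr

end Cfsg.Agent.S4729
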