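import Cfsg.Statements.S4731
import Cfsg.Agent.Lib.Helper78.DefectZero
import Cfsg.Agent.S0907

set_option autoImplicit false
open Cfsg

namespace Cfsg.Agent.S4731

open Cfsg.Agent.Lib.Helper78
open scoped ComplexConjugate

section aux
variable {G : Type*} [Group G] [Fintype G]

/-- The sum of a character over a subgroup is the order of the subgroup times a natural number. -/
theorem sum_subgroup_eq {θ : G → ℂ} (hθ : IsCharacter G θ) (P : Subgroup G) [Fintype P] :
    ∃ m : ℕ, ∑ u : P, θ u = (Nat.card P : ℂ) * m := by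
  classical
  have hres := Cfsg.Agent.Lib.Helper74.IsCharacter.restrict hθ P
  obtain ⟨m, hm⟩ := Cfsg.Agent.Lib.Helper74.IsCharacter.classInner_irr_nat hres (trivIrr P)
  unfold classInner at hm
  refine ⟨m, ?_⟩
  have hP : (Nat.card P : ℂ) ≠ 0 := by exact_mod_cast Nat.card_pos.ne'
  rw [← hm, mul_inv_cancel_left₀ hP]
  refine Finset.sum_congr rfl fun u _ => ?_
  simp [trivIrr]

open Classical in
/-- Weak block orthogonality in the shape `∑ χ(y) χ(x) = 0`. -/
theorem weak_orth (p : ℕ) [Fact p.Prime] (M : Ideal AlgInt) (hM : IsPModular p M)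
    (B : Set (IrrCharacter G)) (hB : IsPBlock M B) (x y : G) (hx : ¬ p ∣ orderOf x)
    (hy : p ∣ orderOf y) :
    ∑ χ : IrrCharacter G, (if χ ∈ B then (χ : G → ℂ) y * (χ : G → ℂ) x else 0) = 0 := by
  have h := Cfsg.Agent.S0907.result p M hM B hB x⁻¹ y (by rwa [orderOf_inv]) hy
  rw [finsum_mem_irr] at h
  have h2 := congrArg conj h
  rw [map_sum, map_zero] at h2
  refine Eq.trans ?_ h2
  refine Finset.sum_congr rfl fun χ _ => ?_
  split_ifs
  · rw [map_mul, Complex.conj_conj, irr_inv, Complex.conj_conj, mul_comm]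
  · simp

open Classical in
theorem weak_orth' (p : ℕ) [Fact p.Prime] (M : Ideal AlgInt) (hM : IsPModular p M)
    (B : Set (IrrCharacter G)) (hB : IsPBlock M B) (x y : G) (hx : ¬ p ∣ orderOf x)
    (hy : p ∣ orderOf y) :
    ∑ χ : IrrCharacter G, (if χ ∈ B then conj ((χ : G → ℂ) x) * (χ : G → ℂ) y else 0) = 0 := by
  have h := weak_orth p M hM B hB x⁻¹ y (by rwa [orderOf_inv]) hy
  refine Eq.trans ?_ h
  refine Finset.sum_congr rfl fun χ _ => ?_
  split_ifs
  · rw [irr_inv, mul_comm]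
  · rfl

open Classical in
/-- double expansion through the first orthogonality relation -/
theorem double_expand (A B : Set (IrrCharacter G)) (c d : IrrCharacter G → ℂ) :
    ∑ χ : IrrCharacter G, (if χ ∈ A ∩ B then c χ * d χ else 0)
      = (Nat.card G : ℂ)⁻¹ * ∑ x : G,
          (∑ ψ : IrrCharacter G, (if ψ ∈ A then c ψ * (ψ : G → ℂ) x else 0)) *
          (∑ χ : IrrCharacter G, (if χ ∈ B then conj ((χ : G → ℂ) x) * d χ else 0)) := by
  have h1 : ∀ x : G, (∑ ψ : IrrCharacter G, (if ψ ∈ A then c ψ * (ψ : G → ℂ) x else 0)) *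
          (∑ χ : IrrCharacter G, (if χ ∈ B then conj ((χ : G → ℂ) x) * d χ else 0))
      = ∑ ψ : IrrCharacter G, ∑ χ : IrrCharacter G,
          (if ψ ∈ A then c ψ else 0) * (if χ ∈ B then d χ else 0) *
            ((ψ : G → ℂ) x * conj ((χ : G → ℂ) x)) := by
    intro x
    rw [Finset.sum_mul_sum]
    refine Finset.sum_congr rfl fun ψ _ => Finset.sum_congr rfl fun χ _ => ?_
    split_ifs <;> ring
  simp_rw [h1]
  rw [Finset.sum_comm, Finset.mul_sum]
  refine Finset.sum_congr rfl fun ψ _ => ?_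
  rw [Finset.sum_comm, Finset.mul_sum]
  have h2 : ∀ χ : IrrCharacter G, (Nat.card G : ℂ)⁻¹ * ∑ x : G,
      (if ψ ∈ A then c ψ else 0) * (if χ ∈ B then d χ else 0) *
            ((ψ : G → ℂ) x * conj ((χ : G → ℂ) x))
      = (if ψ ∈ A then c ψ else 0) * (if χ ∈ B then d χ else 0) * (if ψ = χ then 1 else 0) := by
    intro χ
    rw [← Cfsg.Agent.Lib.Helper74.classInner_irr ψ χ]
    unfold classInner
    rw [← Finset.mul_sum]
    ring
  simp_rw [h2]
  rw [Finset.sum_eq_single ψ]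
  · simp only [Set.mem_inter_iff]
    split_ifs <;> simp_all
  · intro χ _ hχ
    rw [if_neg (Ne.symm hχ), mul_zero]
  · intro h; exact absurd (Finset.mem_univ _) h

end aux

/-- Let p ≠ q be primes, M_p and M_q maximal ideals of the algebraic integers containing p and q respectively, and G a finite group with no element of order pq; let q^b be the q-part of the order of G. For a p-block B_p (relative to M_p), a q-block B_q (relative to M_q) and a p-singular element y, the sum of χ(1)χ(y) over the irreducible characters χ lying in both B_p and B_q is q^b times an algebraic integer. -/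
theorem result {G : Type*} [Group G] [Finite G] (p q : ℕ) [Fact p.Prime] [Fact q.Prime] (hpq : p ≠ q) (Mp Mq : Ideal Cfsg.AlgInt) (hMp : Cfsg.IsPModular p Mp) (hMq : Cfsg.IsPModular q Mq) (hno : ∀ g : G, orderOf g ≠ p * q) (b : ℕ) (hb : (Nat.card G).factorization q = b) (Bp : Set (Cfsg.IrrCharacter G)) (hBp : Cfsg.IsPBlock Mp Bp) (Bq : Set (Cfsg.IrrCharacter G)) (hBq : Cfsg.IsPBlock Mq Bq) (y : G) (hy : p ∣ orderOf y) : ∃ ω : Cfsg.AlgInt, ∑ᶠ χ ∈ Bp ∩ Bq, (Cfsg.charDegree (χ : G → ℂ) : ℂ) * (χ : G → ℂ) y = (q : ℂ) ^ b * (ω : ℂ) := by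
  classical
  have := Fintype.ofFinite G
  have hp : p.Prime := Fact.out
  have hq : q.Prime := Fact.out
  have hreg : ∀ x : G, ¬ p ∣ orderOf x ∨ ¬ q ∣ orderOf x := by
    intro x
    by_contra hcon
    push Not at hcon
    have h1 : p * q ∣ orderOf x :=
      Nat.Coprime.mul_dvd_of_dvd_of_dvd ((Nat.coprime_primes hp hq).2 hpq) hcon.1 hcon.2
    exact hno _ (orderOf_pow_orderOf_div (orderOf_pos x).ne' h1)
  -- the function vanishes at `q`-singular elements
  have hvan : ∀ g : G, q ∣ orderOf g →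
      ∑ χ : IrrCharacter G, (if χ ∈ Bp ∩ Bq then (χ : G → ℂ) y * (χ : G → ℂ) g else 0) = 0 := by
    intro g hg
    rw [double_expand Bp Bq (fun χ => (χ : G → ℂ) y) (fun χ => (χ : G → ℂ) g)]
    rw [Finset.sum_eq_zero, mul_zero]
    intro x _
    rcases hreg x with hx | hx
    · rw [weak_orth p Mp hMp Bp hBp x y hx hy, zero_mul]
    · rw [weak_orth' q Mq hMq Bq hBq x g hx hg, mul_zero]
  obtain ⟨Q⟩ : Nonempty (Sylow q G) := inferInstance
  choose m hm using fun χ : IrrCharacter G =>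
    sum_subgroup_eq (Cfsg.Agent.Lib.Helper74.IrrCharacter.isCharacter χ) (Q : Subgroup G)
  have hsum : ∑ u : Q, ∑ χ : IrrCharacter G,
      (if χ ∈ Bp ∩ Bq then (χ : G → ℂ) y * (χ : G → ℂ) u else 0)
      = ∑ χ : IrrCharacter G, (if χ ∈ Bp ∩ Bq then (χ : G → ℂ) y * (χ : G → ℂ) 1 else 0) := by
    rw [Finset.sum_eq_single 1]
    · rfl
    · intro u _ hu
      apply hvan
      obtain ⟨k, hk⟩ := (IsPGroup.iff_orderOf.1 Q.2) u
      rw [Subgroup.orderOf_coe, hk]
      apply dvd_pow_self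
      rintro rfl
      rw [pow_zero, orderOf_eq_one_iff] at hk
      exact hu hk
    · intro h; exact absurd (Finset.mem_univ _) h
  have hint : IsIntegral ℤ (∑ χ : IrrCharacter G,
      (if χ ∈ Bp ∩ Bq then (χ : G → ℂ) y * (m χ : ℂ) else 0)) := by
    apply IsIntegral.sum
    intro χ _
    split_ifs
    · exact (irr_isIntegral χ y).mul (isIntegral_natCast _)
    · exact isIntegral_zero
  refine ⟨⟨_, hint⟩, ?_⟩
  have e1 : ∑ᶠ χ ∈ Bp ∩ Bq, (Cfsg.charDegree (χ : G → ℂ) : ℂ) * (χ : G → ℂ) y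
      = ∑ χ : IrrCharacter G, (if χ ∈ Bp ∩ Bq then (χ : G → ℂ) y * (χ : G → ℂ) 1 else 0) := by
    rw [finsum_mem_irr]
    refine Finset.sum_congr rfl fun χ _ => ?_
    by_cases h : χ ∈ Bp ∩ Bq
    · rw [if_pos h, if_pos h, irr_one_eq, mul_comm]
    · rw [if_neg h, if_neg h]
  rw [e1, ← hsum, Finset.sum_comm, Finset.mul_sum]
  refine Finset.sum_congr rfl fun χ _ => ?_
  have hQ : (Nat.card Q : ℂ) = (q : ℂ) ^ b := by
    rw [Q.card_eq_multiplicity, hb]; push_cast; rfl
  split_ifs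
  · rw [← Finset.mul_sum, hm χ, hQ]; ring
  · simp

end Cfsg.Agent.S4731
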