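import Cfsg.Statements.S4730
import Cfsg.Agent.Lib.Helper78.DefectZero
import Cfsg.Agent.S0142
import Cfsg.Agent.S0138
import Cfsg.Agent.S4731

set_option autoImplicit false
open Cfsg

namespace Cfsg.Agent.S4730

open Cfsg.Agent.Lib.Helper78
open scoped ComplexConjugate

section aux
variable {G : Type*} [Group G] [Finite G]

theorem vanish_of_coprime (hZ : Subgroup.center G = ⊥) (χ : IrrCharacter G)
    (hfaith : ∀ g : G, (χ : G → ℂ) g = (χ : G → ℂ) 1 → g = 1) (z : G) (hz : z ≠ 1)
    (hcop : Nat.Coprime (charDegree (χ : G → ℂ)) (Subgroup.centralizer ({z} : Set G)).index) :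
    (χ : G → ℂ) z = 0 := by
  obtain ⟨χ, n, ρ, hρ, rfl⟩ := χ
  have := hρ
  simp only at hfaith hcop ⊢
  rw [Cfsg.Agent.Lib.Helper74.charDegree_rep] at hcop
  rcases Cfsg.Agent.S0142.result ρ z (by rwa [Module.finrank_fin_fun]) with h | h
  · exact h
  · exfalso
    obtain ⟨ω, hω⟩ := (Cfsg.Agent.S0138.result ρ z).1 h
    apply hz
    have hmem : z ∈ Subgroup.center G := by
      rw [Subgroup.mem_center_iff]
      intro g
      have hcomm : ρ (g * z) = ρ (z * g) := by
        rw [map_mul, map_mul, hω]
        ext v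
        simp
      have h1 : ρ (g * z * (z * g)⁻¹) = ρ 1 := by
        rw [map_mul, hcomm, ← map_mul, mul_inv_cancel]
      have h2 : ρ.character (g * z * (z * g)⁻¹) = ρ.character 1 := by
        unfold Representation.character
        rw [h1]
      exact mul_inv_eq_one.1 (hfaith _ h2)
    rw [hZ] at hmem
    exact Subgroup.mem_bot.1 hmem

end aux

/-- Let p be a prime, M a maximal ideal of the algebraic integers containing p, and G a finite group with trivial centre, Sylow p-subgroup P of order p^a and centre Z(P) of order p^b. If χ is a faithful irreducible character of G whose degree is a power of p, then the p-block of χ has defect at most a − b; in particular, if P is abelian then χ lies in a block of defect zero. -/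
theorem result {G : Type*} [Group G] [Finite G] (p : ℕ) [Fact p.Prime] (M : Ideal Cfsg.AlgInt) (hM : Cfsg.IsPModular p M) (hZ : Subgroup.center G = ⊥) (P : Sylow p G) (a b : ℕ) (ha : Nat.card P = p ^ a) (hb : Nat.card (Subgroup.center ↥(P : Subgroup G)) = p ^ b) (χ : Cfsg.IrrCharacter G) (hfaith : ∀ g : G, (χ : G → ℂ) g = (χ : G → ℂ) 1 → g = 1) (n : ℕ) (hdeg : Cfsg.charDegree (χ : G → ℂ) = p ^ n) : Cfsg.blockDefect p (Cfsg.blockOf M (χ : G → ℂ)) ≤ a - b ∧ (IsMulCommutative ↥(P : Subgroup G) → Cfsg.blockDefect p (Cfsg.blockOf M (χ : G → ℂ)) = 0) := by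
  classical
  have := Fintype.ofFinite G
  have hp : p.Prime := Fact.out
  have hMp := pmod_isPrime hM
  set Zs : Subgroup G := (Subgroup.center ↥(P : Subgroup G)).map (P : Subgroup G).subtype with hZs
  have hZcard : Nat.card Zs = p ^ b := by
    rw [hZs, Subgroup.card_map_of_injective (Subgroup.subtype_injective _), hb]
  have hidx : ∀ z ∈ Zs, ¬ p ∣ (Subgroup.centralizer ({z} : Set G)).index := by
    intro z hz hdvd
    obtain ⟨w, hw, rfl⟩ := hz
    have hle : (P : Subgroup G) ≤ Subgroup.centralizer ({((P : Subgroup G).subtype w)} : Set G) := by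
      intro x hx
      rw [Subgroup.mem_centralizer_singleton_iff]
      have := Subgroup.mem_center_iff.1 hw ⟨x, hx⟩
      exact congrArg Subtype.val this
    exact P.not_dvd_index (hdvd.trans (Subgroup.index_dvd_of_le hle))
  have hχ0 : ∀ z ∈ Zs, z ≠ 1 → (χ : G → ℂ) z = 0 := by
    intro z hz hz1
    apply vanish_of_coprime hZ χ hfaith z hz1
    rw [hdeg]
    exact Nat.Coprime.pow_left n ((Nat.Prime.coprime_iff_not_dvd hp).2 (hidx z hz))
  have hkey : ∀ ψ ∈ blockOf M (χ : G → ℂ), b ≤ (charDegree (ψ : G → ℂ)).factorization p := by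
    intro ψ hψ
    have hψ1 : (ψ : G → ℂ) 1 ≠ 0 := irr_one_ne_zero ψ
    have h1 : ∀ z ∈ Zs, z ≠ 1 → MemLocalIdeal M ((ψ : G → ℂ) z / (ψ : G → ℂ) 1) := by
      intro z hz hz1
      have h2 := hψ z
      unfold centralChar at h2
      rw [hχ0 z hz hz1, mul_zero, zero_div, zero_sub] at h2
      have h3 := MemLocalIdeal.mul_left hMp (memLocalRing_inv_natCast hM (hidx z hz))
        (MemLocalIdeal.neg h2)
      have hne : ((Subgroup.centralizer ({z} : Set G)).index : ℂ) ≠ 0 := by
        intro h0
        apply hidx z hz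
        have : (Subgroup.centralizer ({z} : Set G)).index = 0 := by exact_mod_cast h0
        rw [this]; exact dvd_zero p
      have e : ((Subgroup.centralizer ({z} : Set G)).index : ℂ)⁻¹ *
          - -(((Subgroup.centralizer ({z} : Set G)).index : ℂ) * (ψ : G → ℂ) z / (ψ : G → ℂ) 1)
          = (ψ : G → ℂ) z / (ψ : G → ℂ) 1 := by
        field_simp
      rwa [e] at h3
    obtain ⟨m, hm⟩ := Cfsg.Agent.S4731.sum_subgroup_eq
      (Cfsg.Agent.Lib.Helper74.IrrCharacter.isCharacter ψ) Zs
    have h4 : ((p ^ b * m : ℕ) : ℂ) / ((charDegree (ψ : G → ℂ) : ℕ) : ℂ)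
        = 1 + ∑ u ∈ (Finset.univ : Finset Zs).erase 1, (ψ : G → ℂ) u / (ψ : G → ℂ) 1 := by
      rw [← irr_one_eq, ← Finset.sum_div]
      have h5 : (1 : ℂ) = (ψ : G → ℂ) ((1 : Zs) : G) / (ψ : G → ℂ) 1 := by
        rw [Subgroup.coe_one, div_self hψ1]
      rw [h5, ← add_div, Finset.add_sum_erase _ (fun u : Zs => (ψ : G → ℂ) u) (Finset.mem_univ _),
        hm, hZcard]
      push_cast
      rfl
    have h6 : ¬ MemLocalIdeal M (((p ^ b * m : ℕ) : ℂ) / ((charDegree (ψ : G → ℂ) : ℕ) : ℂ)) := by
      rw [h4]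
      intro hcon
      apply not_memLocalIdeal_one hMp
      have h7 : MemLocalIdeal M
          (∑ u ∈ (Finset.univ : Finset Zs).erase 1, (ψ : G → ℂ) u / (ψ : G → ℂ) 1) := by
        apply MemLocalIdeal.sum hMp
        intro u hu
        apply h1 u u.2
        intro h8
        exact (Finset.mem_erase.1 hu).1 (Subtype.ext h8)
      have := MemLocalIdeal.sub hMp hcon h7
      simpa using this
    have hm0 : m ≠ 0 := by
      rintro rfl
      apply h6
      simpa using memLocalIdeal_zero hMp
    by_contra hlt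
    push Not at hlt
    apply h6
    apply memLocalIdeal_natCast_div hM (irr_charDegree_pos ψ).ne'
    rw [Nat.factorization_mul (pow_ne_zero _ hp.ne_zero) hm0, Nat.factorization_pow]
    simp only [Finsupp.coe_add, Finsupp.coe_smul, Pi.add_apply, Pi.smul_apply, smul_eq_mul,
      hp.factorization_self]
    omega
  have hfa : (Nat.card G).factorization p = a := by
    have h1 := P.card_eq_multiplicity
    rw [ha] at h1
    exact (Nat.pow_right_injective hp.two_le h1).symm
  have hmain : Cfsg.blockDefect p (Cfsg.blockOf M (χ : G → ℂ)) ≤ a - b := by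
    unfold blockDefect
    rw [hfa]
    apply Nat.sub_le_sub_left
    apply le_csInf
    · exact ⟨_, χ, mem_blockOf_self hMp χ, rfl⟩
    · rintro _ ⟨ψ, hψ, rfl⟩
      exact hkey ψ hψ
  refine ⟨hmain, fun hcomm => ?_⟩
  have hab : a = b := by
    have h1 : Subgroup.center ↥(P : Subgroup G) = ⊤ := by
      rw [eq_top_iff]
      intro x _
      rw [Subgroup.mem_center_iff]
      intro g
      exact hcomm.is_comm.comm g x
    rw [h1, Subgroup.card_top, ha] at hb
    exact Nat.pow_right_injective hp.two_le hb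
  rw [hab] at hmain
  omega

end Cfsg.Agent.S4730
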