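import Cfsg.Statements.S4735
import Mathlib
import Cfsg.Agent.S0967
import Cfsg.Agent.Lib.Helper78.GaloisBlock
import Cfsg.Agent.Lib.Helper82.PrincipalBlock
import Cfsg.Agent.Lib.Helper80.Quot

set_option autoImplicit false
open Cfsg

namespace Cfsg.Agent.S4735

open Cfsg.Agent.Lib Cfsg.Agent.Lib.Helper78

/-- Let p be a prime, M a maximal ideal of the algebraic integers containing p, G a finite group, H = O_p'(G) and Ḡ = G/H. For x ∈ G write λ(G, x) for the sum of |χ(x)|^2 over the irreducible characters χ in the principal p-block of G. Then λ(G, x) is a positive integer, λ(G, x) = λ(Ḡ, x̄) where x̄ is the image of x, and λ(G, x) ≤ #C_Ḡ(x̄). Moreover λ(G, 1) = [G : H] if and only if the principal block is the only p-block of Ḡ. -/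
theorem result {G : Type*} [Group G] [Finite G] (p : ℕ) [Fact p.Prime] (M : Ideal Cfsg.AlgInt) (hM : Cfsg.IsPModular p M) (x : G) : (∃ n : ℕ, 0 < n ∧ ∑ᶠ χ ∈ Cfsg.principalBlock M G, Complex.normSq ((χ : G → ℂ) x) = n) ∧ ∑ᶠ χ ∈ Cfsg.principalBlock M G, Complex.normSq ((χ : G → ℂ) x) = ∑ᶠ ψ ∈ Cfsg.principalBlock M (G ⧸ Cfsg.pPrimeCore p G), Complex.normSq ((ψ : G ⧸ Cfsg.pPrimeCore p G → ℂ) (QuotientGroup.mk x)) ∧ ∑ᶠ χ ∈ Cfsg.principalBlock M G, Complex.normSq ((χ : G → ℂ) x) ≤ (Nat.card ↥(Subgroup.centralizer ({(QuotientGroup.mk x : G ⧸ Cfsg.pPrimeCore p G)} : Set (G ⧸ Cfsg.pPrimeCore p G))) : ℝ) ∧ ((∑ᶠ χ ∈ Cfsg.principalBlock M G, Cfsg.charDegree (χ : G → ℂ) ^ 2) = (Cfsg.pPrimeCore p G).index ↔ ∀ B : Set (Cfsg.IrrCharacter (G ⧸ Cfsg.pPrimeCore p G)), Cfsg.IsPBlock M B → B = Cfsg.principalBlock M (G ⧸ Cfsg.pPrimeCore p G)) := by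
  classical
  have := Fintype.ofFinite G
  set N := pPrimeCore p G with hN
  have := Fintype.ofFinite (G ⧸ N)
  have hMp := pmod_isPrime hM
  have hNp : ¬ p ∣ Nat.card N := Helper82.not_dvd_card_pPrimeCore p
  let infl : IrrCharacter (G ⧸ N) → IrrCharacter G := fun ψ => (Helper80.inflateEquiv N ψ).1
  have hinj : Function.Injective infl :=
    fun a b h => (Helper80.inflateEquiv N).injective (Subtype.ext h)
  have himg : principalBlock M G = infl '' principalBlock M (G ⧸ N) := by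
    ext χ
    constructor
    · intro hχ
      obtain ⟨ψ', h1, h2⟩ := Cfsg.Agent.S0967.result p M hM N hNp (trivIrr (G ⧸ N)) χ hχ
      exact ⟨ψ', h2, Subtype.ext h1.symm⟩
    · rintro ⟨ψ, hψ, rfl⟩
      exact Helper82.sameBlock_inflate N hMp hψ
  have hsumR : ∀ f : IrrCharacter G → ℝ, ∑ᶠ χ ∈ principalBlock M G, f χ =
      ∑ᶠ ψ ∈ principalBlock M (G ⧸ N), f (infl ψ) := by
    intro f
    rw [himg, finsum_mem_image hinj.injOn]
  have hsumN : ∀ f : IrrCharacter G → ℕ, ∑ᶠ χ ∈ principalBlock M G, f χ =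
      ∑ᶠ ψ ∈ principalBlock M (G ⧸ N), f (infl ψ) := by
    intro f
    rw [himg, finsum_mem_image hinj.injOn]
  have h2 : ∑ᶠ χ ∈ principalBlock M G, Complex.normSq ((χ : G → ℂ) x) =
      ∑ᶠ ψ ∈ principalBlock M (G ⧸ N),
        Complex.normSq ((ψ : G ⧸ N → ℂ) (QuotientGroup.mk x)) :=
    hsumR (fun χ => Complex.normSq ((χ : G → ℂ) x))
  refine ⟨?_, h2, ?_, ?_⟩
  · obtain ⟨z, hz⟩ := exists_int_sum_normSq (principalBlock M G)
      (fun k hk ψ hψ => powTw_mem_principalBlock hM k hk hψ) x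
    have hz' : ∑ᶠ χ ∈ principalBlock M G, Complex.normSq ((χ : G → ℂ) x) = (z : ℝ) := by
      rw [finsum_mem_irr, ← Finset.sum_filter]
      have h3 : ((∑ χ ∈ Finset.univ.filter (· ∈ principalBlock M G),
          Complex.normSq ((χ : G → ℂ) x) : ℝ) : ℂ) = ((z : ℝ) : ℂ) := by
        rw [Complex.ofReal_sum, Complex.ofReal_intCast, ← hz]
        exact Finset.sum_congr rfl fun χ _ => (Complex.mul_conj _).symm
      exact_mod_cast h3
    have hpos : (1 : ℝ) ≤ ∑ᶠ χ ∈ principalBlock M G, Complex.normSq ((χ : G → ℂ) x) := by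
      rw [finsum_mem_irr, ← Finset.sum_filter]
      have h4 : trivIrr G ∈ Finset.univ.filter (· ∈ principalBlock M G) :=
        Finset.mem_filter.2 ⟨Finset.mem_univ _, trivIrr_mem_principalBlock hMp⟩
      have h5 := Finset.single_le_sum (f := fun χ : IrrCharacter G =>
        Complex.normSq ((χ : G → ℂ) x)) (fun χ _ => Complex.normSq_nonneg _) h4
      have h6 : Complex.normSq ((trivIrr G : G → ℂ) x) = 1 := by
        show Complex.normSq 1 = 1
        simp
      rw [h6] at h5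
      exact h5
    rw [hz'] at hpos
    have hz1 : (1 : ℤ) ≤ z := by exact_mod_cast hpos
    refine ⟨z.toNat, by omega, ?_⟩
    rw [hz']
    have : ((z.toNat : ℤ) : ℝ) = (z : ℝ) := by rw [Int.toNat_of_nonneg (by omega)]
    exact_mod_cast this.symm
  · rw [h2, finsum_mem_irr]
    have h3 := Helper80.col_orth (QuotientGroup.mk x : G ⧸ N) (QuotientGroup.mk x : G ⧸ N)
    rw [if_pos (IsConj.refl _)] at h3
    have h4 : ∑ ψ : IrrCharacter (G ⧸ N), Complex.normSq ((ψ : G ⧸ N → ℂ) (QuotientGroup.mk x)) =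
        (Nat.card ↥(Subgroup.centralizer ({(QuotientGroup.mk x : G ⧸ N)} : Set (G ⧸ N))) : ℝ) := by
      have h5 : ((∑ ψ : IrrCharacter (G ⧸ N),
          Complex.normSq ((ψ : G ⧸ N → ℂ) (QuotientGroup.mk x)) : ℝ) : ℂ) =
          (((Nat.card ↥(Subgroup.centralizer ({(QuotientGroup.mk x : G ⧸ N)} : Set (G ⧸ N))) : ℕ)
            : ℝ) : ℂ) := by
        rw [Complex.ofReal_sum, Complex.ofReal_natCast, ← h3]
        exact Finset.sum_congr rfl fun χ _ => (Complex.mul_conj _).symm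
      exact_mod_cast h5
    rw [← h4]
    refine Finset.sum_le_sum fun ψ _ => ?_
    split_ifs
    · exact le_rfl
    · exact Complex.normSq_nonneg _
  · rw [hsumN (fun χ => charDegree (χ : G → ℂ) ^ 2)]
    have htot : ∑ ψ : IrrCharacter (G ⧸ N), charDegree (ψ : G ⧸ N → ℂ) ^ 2 = N.index := by
      rw [Helper80.sum_sq_charDegree]
      rfl
    have hdeg : ∀ ψ : IrrCharacter (G ⧸ N), charDegree (infl ψ : G → ℂ) = charDegree (ψ : G ⧸ N → ℂ) :=
      fun ψ => Helper80.charDegree_inflate N ψ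
    simp only [hdeg]
    rw [finsum_mem_irr, ← htot]
    constructor
    · intro heq B hB
      have hall : ∀ ψ : IrrCharacter (G ⧸ N), ψ ∈ principalBlock M (G ⧸ N) := by
        by_contra hcon
        push Not at hcon
        obtain ⟨ψ, hψ⟩ := hcon
        have hlt : ∑ ψ : IrrCharacter (G ⧸ N), (if ψ ∈ principalBlock M (G ⧸ N) then
            charDegree (ψ : G ⧸ N → ℂ) ^ 2 else 0) <
            ∑ ψ : IrrCharacter (G ⧸ N), charDegree (ψ : G ⧸ N → ℂ) ^ 2 := by
          apply Finset.sum_lt_sum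
          · intro χ _
            split_ifs
            · exact le_rfl
            · exact Nat.zero_le _
          · refine ⟨ψ, Finset.mem_univ _, ?_⟩
            rw [if_neg hψ]
            exact pow_pos (irr_charDegree_pos ψ) 2
        exact hlt.ne heq
      obtain ⟨ψ, hψ⟩ := IsPBlock.nonempty hMp hB
      exact IsPBlock.eq_of_mem_mem hMp hB isPBlock_principalBlock hψ (hall ψ)
    · intro hall
      refine Finset.sum_congr rfl fun ψ _ => ?_
      rw [if_pos]
      rw [← hall _ (isPBlock_blockOf ψ)]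
      exact mem_blockOf_self hMp ψ

end Cfsg.Agent.S4735
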