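import Cfsg.Statements.S4736
import Mathlib
import Cfsg.Agent.Lib.Helper82.PrincipalBlock
import Cfsg.Agent.Lib.Helper80.Quot
import Cfsg.Agent.S4713

set_option autoImplicit false
open Cfsg

namespace Cfsg.Agent.S4736

/-- Let p be a prime, M a maximal ideal of the algebraic integers containing p, and G a finite p-solvable group with Sylow p-subgroup P. Then P is abelian if and only if every irreducible character in the principal p-block of G has height zero. -/
theorem result {G : Type*} [Group G] [Finite G] (p : ℕ) [Fact p.Prime] (M : Ideal Cfsg.AlgInt) (hM : Cfsg.IsPModular p M) (hsolv : Cfsg.IsPSolvable p G) (P : Sylow p G) : IsMulCommutative P ↔ ∀ χ ∈ Cfsg.principalBlock M G, Cfsg.blockHeight p (Cfsg.principalBlock M G) (χ : G → ℂ) = 0 := by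
  have hp : p.Prime := Fact.out
  have hMp := Cfsg.Agent.Lib.Helper78.pmod_isPrime hM
  have htriv : Cfsg.charDegree ((Cfsg.Agent.Lib.Helper78.trivIrr G : Cfsg.IrrCharacter G) : G → ℂ) = 1 := by
    simp [Cfsg.charDegree, Cfsg.Agent.Lib.Helper78.trivIrr]
  have hinf : sInf ((fun χ : Cfsg.IrrCharacter G => (Cfsg.charDegree (χ : G → ℂ)).factorization p) ''
      (Cfsg.principalBlock M G)) = 0 := by
    rw [Nat.sInf_eq_zero]
    left
    refine ⟨Cfsg.Agent.Lib.Helper78.trivIrr G,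
      Cfsg.Agent.Lib.Helper78.trivIrr_mem_principalBlock hMp, ?_⟩
    simp [htriv]
  have hheight : ∀ χ : Cfsg.IrrCharacter G,
      Cfsg.blockHeight p (Cfsg.principalBlock M G) (χ : G → ℂ) = 0 ↔
        ¬ p ∣ Cfsg.charDegree (χ : G → ℂ) := by
    intro χ
    unfold Cfsg.blockHeight
    rw [hinf, Nat.sub_zero, Nat.factorization_eq_zero_iff]
    have h0 : Cfsg.charDegree (χ : G → ℂ) ≠ 0 :=
      (Cfsg.Agent.Lib.Helper80.charDegree_pos_of_irr χ.2).ne'
    constructor
    · rintro (h | h | h)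
      · exact absurd hp h
      · exact h
      · exact absurd h h0
    · intro h
      exact Or.inr (Or.inl h)
  set K := Cfsg.pPrimeCore p G with hK
  have hsolq : Cfsg.IsPSolvable p (G ⧸ K) := Cfsg.Agent.Lib.Helper76.isPSolvable_quotient K hsolv
  have hcoreq : Cfsg.pPrimeCore p (G ⧸ K) = ⊥ := Cfsg.Agent.Lib.Lead.pPrimeCore_quotient_pPrimeCore p G
  have hHH := Cfsg.Agent.Lib.Helper76.centralizer_pCore_le hsolq hcoreq
  set Pb : Sylow p (G ⧸ K) := P.mapSurjective (QuotientGroup.mk'_surjective K) with hPb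
  have hPbc : (Pb : Subgroup (G ⧸ K)) = (P : Subgroup G).map (QuotientGroup.mk' K) :=
    Sylow.coe_mapSurjective _ P
  -- (A) characters
  have hA : (∀ χ ∈ Cfsg.principalBlock M G, ¬ p ∣ Cfsg.charDegree (χ : G → ℂ)) ↔
      ∀ ψ : Cfsg.IrrCharacter (G ⧸ K), ¬ p ∣ Cfsg.charDegree (ψ : G ⧸ K → ℂ) := by
    constructor
    · intro h ψ
      have h1 := h (Cfsg.Agent.Lib.Helper80.inflateEquiv K ψ).1
        ((Cfsg.Agent.Lib.Helper82.mem_principalBlock_iff_of_isPSolvable p hM hsolv _).2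
          (Cfsg.Agent.Lib.Helper80.inflateEquiv K ψ).2)
      rwa [Cfsg.Agent.Lib.Helper80.charDegree_inflate] at h1
    · intro h χ hχ
      have hker := (Cfsg.Agent.Lib.Helper82.mem_principalBlock_iff_of_isPSolvable p hM hsolv χ).1 hχ
      obtain ⟨ψ, hψ⟩ := (Cfsg.Agent.Lib.Helper80.inflateEquiv K).surjective ⟨χ, hker⟩
      have h1 : Cfsg.charDegree (χ : G → ℂ) = Cfsg.charDegree (ψ : G ⧸ K → ℂ) := by
        rw [← Cfsg.Agent.Lib.Helper80.charDegree_inflate, hψ]
      rw [h1]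
      exact h ψ
  -- (C) the Sylow subgroups
  have hdisj : ∀ x ∈ (P : Subgroup G), x ∈ K → x = 1 := by
    intro x hxP hxK
    have h1 : orderOf x ∣ Nat.card K := by
      have := orderOf_dvd_natCard (⟨x, hxK⟩ : K)
      rwa [Subgroup.orderOf_mk] at this
    obtain ⟨k, hk⟩ := (IsPGroup.iff_orderOf.1 P.2) ⟨x, hxP⟩
    rw [Subgroup.orderOf_mk] at hk
    have hcop : (Nat.card K).Coprime p := Cfsg.Agent.Lib.Lead.card_pPrimeCore_coprime p
    have h2 : (orderOf x).Coprime (orderOf x) := by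
      have h3 : (orderOf x).Coprime (p ^ k) := (hcop.pow_right k).coprime_dvd_left h1
      rwa [← hk] at h3
    rw [Nat.coprime_self] at h2
    exact orderOf_eq_one_iff.1 h2
  have hC1 : IsMulCommutative P ↔ IsMulCommutative Pb := by
    constructor
    · intro h
      refine ⟨⟨?_⟩⟩
      rintro ⟨a, ha⟩ ⟨b, hb⟩
      have ha' : a ∈ (P : Subgroup G).map (QuotientGroup.mk' K) := hPbc ▸ ha
      have hb' : b ∈ (P : Subgroup G).map (QuotientGroup.mk' K) := hPbc ▸ hb
      obtain ⟨x, hx, rfl⟩ := ha'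
      obtain ⟨y, hy, rfl⟩ := hb'
      apply Subtype.ext
      show (QuotientGroup.mk' K) x * (QuotientGroup.mk' K) y =
        (QuotientGroup.mk' K) y * (QuotientGroup.mk' K) x
      have hxy : x * y = y * x := congrArg Subtype.val (h.is_comm.comm (⟨x, hx⟩ : P) ⟨y, hy⟩)
      rw [← map_mul, ← map_mul, hxy]
    · intro h
      refine ⟨⟨?_⟩⟩
      rintro ⟨x, hx⟩ ⟨y, hy⟩
      apply Subtype.ext
      show x * y = y * x
      have hx' : (QuotientGroup.mk' K) x ∈ (Pb : Subgroup (G ⧸ K)) := hPbc ▸ ⟨x, hx, rfl⟩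
      have hy' : (QuotientGroup.mk' K) y ∈ (Pb : Subgroup (G ⧸ K)) := hPbc ▸ ⟨y, hy, rfl⟩
      have h1 : (QuotientGroup.mk' K) x * (QuotientGroup.mk' K) y =
          (QuotientGroup.mk' K) y * (QuotientGroup.mk' K) x :=
        congrArg Subtype.val (h.is_comm.comm (⟨_, hx'⟩ : Pb) ⟨_, hy'⟩)
      rw [← map_mul, ← map_mul] at h1
      have h2 : (y * x)⁻¹ * (x * y) ∈ K := QuotientGroup.eq.1 h1.symm
      have h3 : (y * x)⁻¹ * (x * y) ∈ (P : Subgroup G) :=
        (P : Subgroup G).mul_mem ((P : Subgroup G).inv_mem ((P : Subgroup G).mul_mem hy hx))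
          ((P : Subgroup G).mul_mem hx hy)
      have h4 := hdisj _ h3 h2
      exact (inv_mul_eq_one.1 h4).symm
  have hC2 : IsMulCommutative Pb → (Pb : Subgroup (G ⧸ K)).Normal := by
    intro h
    have h1 : Cfsg.pCore p (G ⧸ K) ≤ Pb := Cfsg.Agent.Lib.Lead.pCore_le_sylow Pb
    have h2 : (Pb : Subgroup (G ⧸ K)) ≤ Subgroup.centralizer (Cfsg.pCore p (G ⧸ K) : Set (G ⧸ K)) := by
      intro a ha
      rw [Subgroup.mem_centralizer_iff]
      intro b hb
      exact congrArg Subtype.val (h.is_comm.comm (⟨b, h1 hb⟩ : Pb) ⟨a, ha⟩)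
    have h3 : (Pb : Subgroup (G ⧸ K)) = Cfsg.pCore p (G ⧸ K) := le_antisymm (h2.trans hHH) h1
    rw [h3]
    infer_instance
  have h4713 := Cfsg.Agent.S4713.result p hsolq Pb
  constructor
  · intro h χ hχ
    rw [hheight]
    have h1 := hC1.1 h
    exact hA.2 (h4713.1 ⟨hC2 h1, h1⟩) χ hχ
  · intro h
    have h1 : ∀ χ ∈ Cfsg.principalBlock M G, ¬ p ∣ Cfsg.charDegree (χ : G → ℂ) :=
      fun χ hχ => (hheight χ).1 (h χ hχ)
    exact hC1.2 (h4713.2 (hA.1 h1)).2

end Cfsg.Agent.S4736
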