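import Cfsg.Statements.S4955
import Mathlib
import Cfsg.Agent.Lib.Helper80.Linear
import Cfsg.Agent.Lib.Helper76.Galois
import Cfsg.Agent.Lib.Helper76.RootsSum
import Cfsg.Agent.Lib.Helper76.Eigen
import Cfsg.Agent.Lib.Helper82.CoprimeCountMul
import Cfsg.Agent.Lib.Helper15.Clifford2
import Cfsg.Agent.S0133

set_option autoImplicit false
open Cfsg

namespace Cfsg.Agent.S4955

open Cfsg.Agent.Lib.Helper74 Cfsg.Agent.Lib.Helper80 Cfsg.Agent.Lib.Helper76 Cfsg.Agent.Lib.Helper15
open scoped ComplexConjugate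

/-- irreducible characters of `X = V ⋊ G` (with `V` an abelian `p`-group, `G` a `p'`-group) do not vanish on `V`. -/
theorem char_ne_zero {X : Type*} [Group X] [Finite X] (p : ℕ) [Fact p.Prime] (V : Subgroup X)
    [hVn : V.Normal] (hVp : IsPGroup p V) (hab : ∀ a ∈ V, ∀ b ∈ V, a * b = b * a) (G : Subgroup X)
    (hGV : Subgroup.IsComplement' V G) (hG : ¬ p ∣ Nat.card G) (χ : X → ℂ)
    (hχ : IsIrrCharacter X χ) (v : X) (hv : v ∈ V) : χ v ≠ 0 := by
  classical
  have : Fintype X := Fintype.ofFinite X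
  have hχc : IsCharacter X χ := Cfsg.Agent.Lib.Helper74.IsIrrCharacter.isCharacter hχ
  have hres : IsCharacter V (fun n : V => χ n) := Cfsg.Agent.Lib.Helper74.IsCharacter.restrict hχc V
  -- a constituent
  obtain ⟨lam, he⟩ : ∃ lam : IrrCharacter V, classInner (fun n : V => χ n) (lam : V → ℂ) ≠ 0 := by
    by_contra hcon
    push Not at hcon
    have h1 := Cfsg.Agent.Lib.Helper74.IsCharacter.eq_sum_classInner hres
    have h2 : (fun n : V => χ n) = 0 := by
      rw [h1]
      apply Finset.sum_eq_zero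
      intro ψ _
      rw [hcon ψ, zero_smul]
    have h3 := congrFun h2 1
    exact Cfsg.Agent.Lib.Helper80.char_one_ne_zero_of_irr hχ h3
  have hcl := clifford_theorem V hχ lam.2 he
  have hlin : (lam : V → ℂ) 1 = 1 :=
    char_one_eq_one_of_comm (fun a b => Subtype.ext (hab a a.2 b b.2)) lam
  obtain ⟨f, hf⟩ := exists_hom_of_degree_one (Cfsg.Agent.Lib.Helper74.IrrCharacter.isCharacter lam) hlin
  set O := Finset.univ.image (fun g : X => cj V g (lam : V → ℂ)) with hO
  set e := classInner (fun n : V => χ n) (lam : V → ℂ) with hedef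
  -- the sum over `G`
  let A : ℂ := ∑ g : G, (lam : V → ℂ) ⟨g * v * (g : X)⁻¹, hVn.conj_mem v hv g⟩
  have hA : A ≠ 0 := by
    intro hA0
    obtain ⟨j, hj⟩ := IsPGroup.iff_card.mp hVp
    let eq := Finite.equivFin G
    let μ : Fin (Nat.card G) → ℂ := fun i =>
      (lam : V → ℂ) ⟨(eq.symm i : X) * v * (eq.symm i : X)⁻¹, hVn.conj_mem v hv _⟩
    have h1 : ∀ i, μ i ^ (p ^ j) = 1 := by
      intro i
      simp only [μ]
      rw [hf, ← Units.val_pow_eq_pow_val, ← map_pow, ← hj, pow_card_eq_one', map_one, Units.val_one]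
    have h0 : ∑ i, μ i = 0 := by
      rw [← hA0]
      exact (Equiv.sum_comp eq.symm
        (fun g : G => (lam : V → ℂ) ⟨g * v * (g : X)⁻¹, hVn.conj_mem v hv g⟩))
    exact hG (dvd_of_sum_roots_eq_zero p j _ μ h1 h0)
  have hψ : ∀ ψ ∈ O, ∑ g : G, ψ ⟨g * v * (g : X)⁻¹, hVn.conj_mem v hv g⟩ = A := by
    intro ψ hψ
    obtain ⟨h, -, rfl⟩ := Finset.mem_image.1 hψ
    obtain ⟨⟨a, g₀⟩, hag, -⟩ := hGV.existsUnique h
    simp only at hag
    have hAeq : A = ∑ g : G, (lam : V → ℂ) ⟨((Equiv.mulLeft (g₀ : G)) g : G) * v *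
        (((Equiv.mulLeft (g₀ : G)) g : G) : X)⁻¹, hVn.conj_mem v hv _⟩ :=
      (Equiv.sum_comp (Equiv.mulLeft (g₀ : G))
        (fun g : G => (lam : V → ℂ) ⟨g * v * (g : X)⁻¹, hVn.conj_mem v hv g⟩)).symm
    rw [hAeq]
    apply Finset.sum_congr rfl
    intro g _
    rw [cj_apply]
    apply congrArg (lam : V → ℂ)
    apply Subtype.ext
    simp only [Equiv.coe_mulLeft]
    have hw : (g₀ : X) * g * v * ((g₀ : X) * g)⁻¹ ∈ V := hVn.conj_mem v hv _
    have hc := hab a a.2 _ hw
    rw [← hag]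
    calc (a : X) * g₀ * (g * v * (g : X)⁻¹) * ((a : X) * g₀)⁻¹
        = (a : X) * ((g₀ : X) * g * v * ((g₀ : X) * g)⁻¹) * (a : X)⁻¹ := by group
      _ = (g₀ : X) * g * v * ((g₀ : X) * g)⁻¹ := by rw [hc]; group
  have hsum : (Nat.card G : ℂ) * χ v = e * ((O.card : ℂ) * A) := by
    have h1 : ∀ g : G, χ v = (fun n : V => χ n) ⟨g * v * (g : X)⁻¹, hVn.conj_mem v hv g⟩ := by
      intro g
      exact ((Cfsg.Agent.Lib.Helper74.IsCharacter.isClassFunction hχc) v g).symm
    have h2 : (Nat.card G : ℂ) * χ v = ∑ g : G, χ v := by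
      rw [Finset.sum_const, Finset.card_univ, Nat.card_eq_fintype_card, nsmul_eq_mul]
    rw [h2, Finset.sum_congr rfl (fun g _ => h1 g), hcl]
    simp only [Pi.smul_apply, Finset.sum_apply, smul_eq_mul]
    rw [← Finset.mul_sum, Finset.sum_comm, Finset.sum_congr rfl hψ, Finset.sum_const, nsmul_eq_mul]
  intro h0
  rw [h0, mul_zero] at hsum
  have hOne : O.Nonempty := ⟨cj V 1 (lam : V → ℂ), Finset.mem_image_of_mem _ (Finset.mem_univ _)⟩
  have : (O.card : ℂ) ≠ 0 := by exact_mod_cast hOne.card_pos.ne'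
  exact (mul_ne_zero he (mul_ne_zero this hA)) hsum.symm

theorem card_centralizer_eq {X : Type*} [Group X] [Finite X] (V : Subgroup X)
    (hab : ∀ a ∈ V, ∀ b ∈ V, a * b = b * a) (G : Subgroup X)
    (hGV : Subgroup.IsComplement' V G) (v : X) (hv : v ∈ V) :
    Nat.card (Subgroup.centralizer ({v} : Set X)) =
      Nat.card ↥(G ⊓ Subgroup.centralizer ({v} : Set X)) * Nat.card V := by
  rw [← Nat.card_prod]
  symm
  apply Nat.card_congr
  refine Equiv.ofBijective (fun q => ⟨(q.2 : X) * q.1, ?_⟩) ⟨?_, ?_⟩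
  · apply Subgroup.mul_mem
    · rw [Subgroup.mem_centralizer_singleton_iff]
      exact hab _ q.2.2 _ hv
    · exact (Subgroup.mem_inf.1 q.1.2).2
  · rintro ⟨⟨g, hg⟩, a⟩ ⟨⟨g', hg'⟩, a'⟩ h
    have h1 : (a : X) * g = a' * g' := congrArg Subtype.val h
    have h2 := @hGV.1 (a, ⟨g, (Subgroup.mem_inf.1 hg).1⟩) (a', ⟨g', (Subgroup.mem_inf.1 hg').1⟩) h1
    simp only [Prod.mk.injEq, Subtype.mk.injEq] at h2
    obtain ⟨h3, h4⟩ := h2
    subst h4
    have : a = a' := h3
    subst this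
    rfl
  · rintro ⟨c, hc⟩
    obtain ⟨⟨a, g⟩, hag⟩ := hGV.2 c
    simp only at hag
    have ha : (a : X) ∈ Subgroup.centralizer ({v} : Set X) := by
      rw [Subgroup.mem_centralizer_singleton_iff]
      exact hab _ a.2 _ hv
    have hg : (g : X) ∈ Subgroup.centralizer ({v} : Set X) := by
      have : (g : X) = (a : X)⁻¹ * c := by rw [← hag]; group
      rw [this]
      exact Subgroup.mul_mem _ (Subgroup.inv_mem _ ha) hc
    exact ⟨(⟨g, Subgroup.mem_inf.2 ⟨g.2, hg⟩⟩, a), Subtype.ext hag⟩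

/-- Let X be a finite group with an abelian normal Sylow p-subgroup V (a normal p-subgroup of index prime to p in which any two elements commute), and let G be a complement to V in X. Then for every v in V, writing C for the centralizer of v in G, the number k(X) of conjugacy classes of X satisfies k(X) ≤ (order of C)·(order of V) − ((order of G) − k(G)); the statement is written with the subtracted term moved to the left. In particular, if some v in V is centralized by no nonidentity element of G, then k(X) is at most the order of V. -/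
theorem result {X : Type*} [Group X] [Finite X] (p : ℕ) [Fact p.Prime] (V : Subgroup X) [V.Normal] (hVp : IsPGroup p V) (hidx : ¬ p ∣ V.index) (hab : ∀ a ∈ V, ∀ b ∈ V, a * b = b * a) (G : Subgroup X) (hGV : Subgroup.IsComplement' V G) (v : X) (hv : v ∈ V) : Nat.card (ConjClasses X) + Nat.card G ≤ Nat.card ↥(G ⊓ Subgroup.centralizer ({v} : Set X)) * Nat.card V + Nat.card (ConjClasses G) := by
  classical
  have hidx' : V.index = Nat.card G := hGV.symm.index_eq_card
  have hG : ¬ p ∣ Nat.card G := by rwa [← hidx']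
  rw [← card_centralizer_eq V hab G hGV v hv]
  set C := Subgroup.centralizer ({v} : Set X) with hC
  set S₀ := Finset.univ.filter
    (fun χ : IrrCharacter X => ∀ n ∈ V, (χ : X → ℂ) n = (χ : X → ℂ) 1) with hS₀
  have hS₀card : S₀.card = Nat.card (ConjClasses G) := by
    have h1 := sum_filter_ker_eq V (fun _ : IrrCharacter X => (1 : ℕ))
    rw [← hS₀] at h1
    simp only [Finset.sum_const, smul_eq_mul, mul_one, Finset.card_univ] at h1
    rw [h1, ← Nat.card_eq_fintype_card, Cfsg.Agent.S0133.result]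
    exact Cfsg.Agent.Lib.Helper82.card_conjClasses_congr hGV.symm.QuotientMulEquiv
  have hcardIrr : Fintype.card (IrrCharacter X) = Nat.card (ConjClasses X) := by
    rw [← Nat.card_eq_fintype_card, Cfsg.Agent.S0133.result]
  obtain ⟨ι, _, hne, k, hk, H⟩ := galois_avg (Nat.card X) Nat.card_pos
  have hι : (0 : ℝ) < Fintype.card ι := by exact_mod_cast Fintype.card_pos
  have h1 : ∀ χ : IrrCharacter X, (Fintype.card ι : ℝ) ≤ ∑ j, ‖(χ : X → ℂ) (v ^ k j)‖ ^ 2 := by
    intro χ
    have hne0 := char_ne_zero p V hVp hab G hGV hG χ χ.2 v hv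
    obtain ⟨χ, n, ρ, hirr, rfl⟩ := χ
    obtain ⟨μ, hμ1, hμ2⟩ := exists_char_eigenvalues ρ v (Nat.card X) Nat.card_pos pow_card_eq_one'
    have h3 := (H _ μ hμ1 (by
      have := hμ2 1
      simp only [pow_one] at this
      rw [← this]
      exact hne0)).2.2
    refine h3.trans (le_of_eq ?_)
    apply Finset.sum_congr rfl
    intro j _
    rw [← hμ2]
  have h2 : ∀ j, ∑ χ : IrrCharacter X, ‖(χ : X → ℂ) (v ^ k j)‖ ^ 2 = (Nat.card C : ℝ) := by
    intro j
    have hco := col_orth (v ^ k j) (v ^ k j)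
    rw [if_pos (IsConj.refl _)] at hco
    have hcent : Subgroup.centralizer ({v ^ k j} : Set X) = C := by
      have hcop : (k j).Coprime (orderOf v) :=
        Nat.Coprime.coprime_dvd_right (orderOf_dvd_natCard v) (hk j)
      obtain ⟨m, hm⟩ := exists_pow_eq_self_of_coprime hcop
      ext x
      rw [hC, Subgroup.mem_centralizer_singleton_iff, Subgroup.mem_centralizer_singleton_iff]
      constructor
      · intro hx
        have : Commute x (v ^ k j) := hx
        have h' := this.pow_right m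
        rw [hm] at h'
        exact h'
      · intro hx
        have : Commute x v := hx
        exact this.pow_right _
    rw [hcent] at hco
    have : ((∑ χ : IrrCharacter X, ‖(χ : X → ℂ) (v ^ k j)‖ ^ 2 : ℝ) : ℂ) = ((Nat.card C : ℝ) : ℂ) := by
      push_cast
      rw [← hco]
      apply Finset.sum_congr rfl
      intro χ _
      rw [Complex.mul_conj, Complex.normSq_eq_norm_sq]
      push_cast
      rfl
    exact_mod_cast this
  have h3 : ∀ χ ∈ S₀, ∑ j, ‖(χ : X → ℂ) (v ^ k j)‖ ^ 2 =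
      (Fintype.card ι : ℝ) * ((charDegree (χ : X → ℂ) : ℕ) : ℝ) ^ 2 := by
    intro χ hχ
    have hχ' := (Finset.mem_filter.1 hχ).2
    have : ∀ j, ‖(χ : X → ℂ) (v ^ k j)‖ ^ 2 = ((charDegree (χ : X → ℂ) : ℕ) : ℝ) ^ 2 := by
      intro j
      rw [hχ' _ (Subgroup.pow_mem V hv _), char_one_eq_charDegree (isCharacter_of_irr χ.2)]
      simp
    rw [Finset.sum_congr rfl (fun j _ => this j)]
    simp
  have h4 : ∑ χ ∈ S₀, ((charDegree (χ : X → ℂ) : ℕ) : ℝ) ^ 2 = (Nat.card G : ℝ) := by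
    have := sum_sq_charDegree_quot V
    rw [← hS₀, hidx'] at this
    exact_mod_cast this
  have h5 : (Fintype.card ι : ℝ) * Nat.card C =
      ∑ χ : IrrCharacter X, ∑ j, ‖(χ : X → ℂ) (v ^ k j)‖ ^ 2 := by
    rw [Finset.sum_comm, Finset.sum_congr rfl (fun j _ => h2 j)]
    simp
  rw [← Finset.sum_add_sum_compl S₀, Finset.sum_congr rfl h3, ← Finset.mul_sum, h4] at h5
  have h6 : (Fintype.card ι : ℝ) * (S₀ᶜ.card : ℝ) ≤
      ∑ χ ∈ S₀ᶜ, ∑ j, ‖(χ : X → ℂ) (v ^ k j)‖ ^ 2 := by
    have := Finset.card_nsmul_le_sum S₀ᶜ (fun χ => ∑ j, ‖(χ : X → ℂ) (v ^ k j)‖ ^ 2)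
      (Fintype.card ι : ℝ) (fun χ _ => h1 χ)
    rw [nsmul_eq_mul, mul_comm] at this
    exact this
  have h7 : (Nat.card G : ℝ) + (S₀ᶜ.card : ℝ) ≤ (Nat.card C : ℝ) := by
    have : (Fintype.card ι : ℝ) * ((Nat.card G : ℝ) + (S₀ᶜ.card : ℝ)) ≤
        (Fintype.card ι : ℝ) * (Nat.card C : ℝ) := by
      rw [h5, mul_add]
      linarith
    exact le_of_mul_le_mul_left this hι
  have h8 : Nat.card G + S₀ᶜ.card ≤ Nat.card C := by exact_mod_cast h7
  have h9 : S₀.card + S₀ᶜ.card = Nat.card (ConjClasses X) := by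
    rw [Finset.card_add_card_compl, hcardIrr]
  omega

end Cfsg.Agent.S4955
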