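import Cfsg.Statements.S4956
import Mathlib
import Cfsg.Agent.Lib.Helper82.CoprimeCountMul

set_option autoImplicit false
open Cfsg

namespace Cfsg.Agent.S4956

open Cfsg.Agent.Lib.Helper82

lemma card_subtype_eq_sum {α : Type*} [Fintype α] (P : α → Prop) [DecidablePred P] :
    Nat.card {a : α // P a} = ∑ a : α, if P a then 1 else 0 := by
  rw [Nat.card_eq_fintype_card, Fintype.card_subtype, Finset.card_filter]

/-- commuting of `a g` and `b h`. -/
lemma commute_iff {X : Type*} [Group X] (V : Subgroup X) [V.Normal] (G : Subgroup X)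
    (hGV : Subgroup.IsComplement' V G) (a b g h : X) (ha : a ∈ V) (hb : b ∈ V) (hg : g ∈ G) (hh : h ∈ G) :
    Commute (a * g) (b * h) ↔ (Commute g h ∧ a * (g * b * g⁻¹) = b * (h * a * h⁻¹)) := by
  constructor
  · intro hc
    have h1 : (a * (g * b * g⁻¹)) * (g * h) = (b * (h * a * h⁻¹)) * (h * g) := by
      have e1 : (a * (g * b * g⁻¹)) * (g * h) = (a * g) * (b * h) := by group
      have e2 : (b * (h * a * h⁻¹)) * (h * g) = (b * h) * (a * g) := by group
      rw [e1, e2, hc.eq]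
    have hinj := hGV.1
    have h2 := @hinj (⟨a * (g * b * g⁻¹), V.mul_mem ha (‹V.Normal›.conj_mem _ hb _)⟩, ⟨g * h, G.mul_mem hg hh⟩)
      (⟨b * (h * a * h⁻¹), V.mul_mem hb (‹V.Normal›.conj_mem _ ha _)⟩, ⟨h * g, G.mul_mem hh hg⟩) h1
    simp only [Prod.mk.injEq, Subtype.mk.injEq] at h2
    exact ⟨h2.2, h2.1⟩
  · rintro ⟨hc, he⟩
    have e1 : (a * g) * (b * h) = (a * (g * b * g⁻¹)) * (g * h) := by group
    have e2 : (b * h) * (a * g) = (b * (h * a * h⁻¹)) * (h * g) := by group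
    show (a * g) * (b * h) = (b * h) * (a * g)
    rw [e1, e2, he, hc.eq]

/-- For fixed `g h ∈ G`: count of the pairs `(a,b)` with `a g`, `b h` commuting. -/
lemma lemmaB {X : Type*} [Group X] [Finite X] (V : Subgroup X) [V.Normal]
    (hab : ∀ a ∈ V, ∀ b ∈ V, a * b = b * a) (G : Subgroup X)
    (hGV : Subgroup.IsComplement' V G) (hcop : (Nat.card V).Coprime (Nat.card G)) (g h : X)
    (hg : g ∈ G) (hh : h ∈ G) :
    Nat.card {p : V × V // Commute ((p.1 : X) * g) ((p.2 : X) * h)} =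
      Nat.card V * Nat.card {v : V // Commute g h ∧ g * v * g⁻¹ = v ∧ h * v * h⁻¹ = v} := by
  by_cases hc : Commute g h
  · have hog : (Nat.card V).Coprime (orderOf g) := by
      refine Nat.Coprime.coprime_dvd_right ?_ hcop
      have := orderOf_dvd_natCard (⟨g, hg⟩ : G)
      rwa [← Subgroup.orderOf_coe] at this
    have hoh : (Nat.card V).Coprime (orderOf h) := by
      refine Nat.Coprime.coprime_dvd_right ?_ hcop
      have := orderOf_dvd_natCard (⟨h, hh⟩ : G)
      rwa [← Subgroup.orderOf_coe] at this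
    rw [← Nat.card_congr (Equiv.subtypeEquivRight (fun v : V => by
      show (g * v * g⁻¹ = v ∧ h * v * h⁻¹ = v) ↔ _
      simp [hc])), ← card_pairs_eq_mul V hab g h hc hog hoh]
    refine Nat.card_congr (Equiv.subtypeEquivRight ?_)
    rintro ⟨a, b⟩
    rw [commute_iff V G hGV a b g h a.2 b.2 hg hh]
    simp [hc]
  · have e1 : IsEmpty {p : V × V // Commute ((p.1 : X) * g) ((p.2 : X) * h)} := by
      constructor
      rintro ⟨⟨a, b⟩, hp⟩
      rw [commute_iff V G hGV a b g h a.2 b.2 hg hh] at hp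
      exact hc hp.1
    have e2 : IsEmpty {v : V // Commute g h ∧ g * v * g⁻¹ = v ∧ h * v * h⁻¹ = v} := by
      constructor
      rintro ⟨v, hp⟩
      exact hc hp.1
    rw [@Nat.card_of_isEmpty _ e1, @Nat.card_of_isEmpty _ e2, mul_zero]

/-- The number of commuting pairs of `X = V G`. -/
lemma lemmaA {X : Type*} [Group X] [Finite X] (V : Subgroup X) [V.Normal]
    (hab : ∀ a ∈ V, ∀ b ∈ V, a * b = b * a) (G : Subgroup X)
    (hGV : Subgroup.IsComplement' V G) (hcop : (Nat.card V).Coprime (Nat.card G)) :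
    Nat.card {p : X × X // Commute p.1 p.2} =
      Nat.card V * Nat.card {t : V × (G × G) // Commute (t.2.1 : X) t.2.2 ∧
        (t.2.1 : X) * t.1 * (t.2.1 : X)⁻¹ = t.1 ∧ (t.2.2 : X) * t.1 * (t.2.2 : X)⁻¹ = t.1} := by
  classical
  have := Fintype.ofFinite X
  let e : G × V ≃ X := (Equiv.prodComm G V).trans (Equiv.ofBijective (fun p : V × G => (p.1 : X) * p.2) hGV)
  have he : ∀ (g : G) (a : V), e (g, a) = (a : X) * g := fun g a => rfl
  let E : (G × G) × (V × V) ≃ X × X := (Equiv.prodProdProdComm G G V V).trans (e.prodCongr e)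
  have hE : ∀ (g h : G) (a b : V), E ((g, h), (a, b)) = ((a : X) * g, (b : X) * h) := fun g h a b => rfl
  have h1 : Nat.card {p : X × X // Commute p.1 p.2} =
      Nat.card (Σ gh : G × G, {p : V × V // Commute ((p.1 : X) * gh.1) ((p.2 : X) * gh.2)}) := by
    refine Nat.card_congr ?_
    refine (Equiv.subtypeEquiv E.symm (p := fun p => Commute p.1 p.2)
      (q := fun r => Commute ((r.2.1 : X) * r.1.1) ((r.2.2 : X) * r.1.2)) ?_).trans
      (Equiv.subtypeProdEquivSigmaSubtype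
        (fun (gh : G × G) (p : V × V) => Commute ((p.1 : X) * gh.1) ((p.2 : X) * gh.2)))
    intro p
    obtain ⟨⟨⟨g, h⟩, ⟨a, b⟩⟩, rfl⟩ := E.surjective p
    rw [Equiv.symm_apply_apply, hE]
  have h2 : Nat.card {t : V × (G × G) // Commute (t.2.1 : X) t.2.2 ∧
        (t.2.1 : X) * t.1 * (t.2.1 : X)⁻¹ = t.1 ∧ (t.2.2 : X) * t.1 * (t.2.2 : X)⁻¹ = t.1} =
      Nat.card (Σ gh : G × G, {v : V // Commute (gh.1 : X) gh.2 ∧
        (gh.1 : X) * v * (gh.1 : X)⁻¹ = v ∧ (gh.2 : X) * v * (gh.2 : X)⁻¹ = v}) := by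
    refine Nat.card_congr ?_
    refine (Equiv.subtypeEquiv (Equiv.prodComm V (G × G))
      (q := fun r : (G × G) × V => Commute (r.1.1 : X) r.1.2 ∧
        (r.1.1 : X) * r.2 * (r.1.1 : X)⁻¹ = r.2 ∧ (r.1.2 : X) * r.2 * (r.1.2 : X)⁻¹ = r.2) ?_).trans
      (Equiv.subtypeProdEquivSigmaSubtype
        (fun (gh : G × G) (v : V) => Commute (gh.1 : X) gh.2 ∧
        (gh.1 : X) * v * (gh.1 : X)⁻¹ = v ∧ (gh.2 : X) * v * (gh.2 : X)⁻¹ = v))
    intro t
    rfl
  rw [h1, h2, Nat.card_sigma, Nat.card_sigma, Finset.mul_sum]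
  refine Finset.sum_congr rfl ?_
  rintro ⟨g, h⟩ _
  exact lemmaB V hab G hGV hcop g h g.2 h.2


lemma mem_H_iff {X : Type*} [Group X] (G : Subgroup X) (v g : X) :
    g ∈ G ⊓ Subgroup.centralizer ({v} : Set X) ↔ (g ∈ G ∧ g * v * g⁻¹ = v) := by
  rw [Subgroup.mem_inf, Subgroup.mem_centralizer_singleton_iff, mul_inv_eq_iff_eq_mul]

/-- commuting pairs in the stabilizer. -/
lemma lemmaC {X : Type*} [Group X] [Finite X] (G : Subgroup X) (v : X) :
    Nat.card {gh : G × G // Commute (gh.1 : X) gh.2 ∧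
        (gh.1 : X) * v * (gh.1 : X)⁻¹ = v ∧ (gh.2 : X) * v * (gh.2 : X)⁻¹ = v} =
      Nat.card (ConjClasses ↥(G ⊓ Subgroup.centralizer ({v} : Set X))) *
        Nat.card ↥(G ⊓ Subgroup.centralizer ({v} : Set X)) := by
  rw [← card_comm_eq_card_conjClasses_mul_card]
  refine Nat.card_congr ?_
  refine ⟨fun t => ⟨(⟨t.1.1, (mem_H_iff G v _).2 ⟨t.1.1.2, t.2.2.1⟩⟩,
      ⟨t.1.2, (mem_H_iff G v _).2 ⟨t.1.2.2, t.2.2.2⟩⟩), Subtype.ext t.2.1⟩,
    fun p => ⟨(⟨p.1.1, ((mem_H_iff G v _).1 p.1.1.2).1⟩, ⟨p.1.2, ((mem_H_iff G v _).1 p.1.2.2).1⟩),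
      congrArg Subtype.val p.2, ((mem_H_iff G v _).1 p.1.1.2).2, ((mem_H_iff G v _).1 p.1.2.2).2⟩, ?_, ?_⟩
  · intro t; rfl
  · intro p; rfl

lemma lemmaT {X : Type*} [Group X] [Finite X] (V G : Subgroup X) :
    Nat.card {t : V × (G × G) // Commute (t.2.1 : X) t.2.2 ∧
        (t.2.1 : X) * t.1 * (t.2.1 : X)⁻¹ = t.1 ∧ (t.2.2 : X) * t.1 * (t.2.2 : X)⁻¹ = t.1} =
      ∑ᶠ v : V, Nat.card (ConjClasses ↥(G ⊓ Subgroup.centralizer ({(v : X)} : Set X))) *
        Nat.card ↥(G ⊓ Subgroup.centralizer ({(v : X)} : Set X)) := by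
  classical
  have := Fintype.ofFinite X
  rw [finsum_eq_sum_of_fintype]
  rw [Nat.card_congr (Equiv.subtypeProdEquivSigmaSubtype
        (fun (v : V) (gh : G × G) => Commute (gh.1 : X) gh.2 ∧
        (gh.1 : X) * v * (gh.1 : X)⁻¹ = v ∧ (gh.2 : X) * v * (gh.2 : X)⁻¹ = v)), Nat.card_sigma]
  refine Finset.sum_congr rfl ?_
  intro v _
  exact lemmaC G v

/-- invariance of the class number of the stabilizer under conjugation by `G`. -/
lemma lemmaD {X : Type*} [Group X] (G : Subgroup X) (u x : X) (hu : u ∈ G) :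
    Nat.card (ConjClasses ↥(G ⊓ Subgroup.centralizer ({u * x * u⁻¹} : Set X))) =
      Nat.card (ConjClasses ↥(G ⊓ Subgroup.centralizer ({x} : Set X))) := by
  have hmap : (G ⊓ Subgroup.centralizer ({x} : Set X)).map (MulAut.conj u).toMonoidHom =
      G ⊓ Subgroup.centralizer ({u * x * u⁻¹} : Set X) := by
    ext y
    rw [Subgroup.mem_map, mem_H_iff]
    constructor
    · rintro ⟨c, hc, rfl⟩
      rw [mem_H_iff] at hc
      refine ⟨G.mul_mem (G.mul_mem hu hc.1) (G.inv_mem hu), ?_⟩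
      simp only [MulEquiv.coe_toMonoidHom, MulAut.conj_apply]
      have : u * c * u⁻¹ * (u * x * u⁻¹) * (u * c * u⁻¹)⁻¹ = u * (c * x * c⁻¹) * u⁻¹ := by group
      rw [this, hc.2]
    · rintro ⟨hy, hyx⟩
      refine ⟨u⁻¹ * y * u, ?_, ?_⟩
      · rw [mem_H_iff]
        refine ⟨G.mul_mem (G.mul_mem (G.inv_mem hu) hy) hu, ?_⟩
        have : u⁻¹ * y * u * x * (u⁻¹ * y * u)⁻¹ = u⁻¹ * (y * (u * x * u⁻¹) * y⁻¹) * u := by group
        rw [this, hyx]
        group
      · simp only [MulEquiv.coe_toMonoidHom, MulAut.conj_apply]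
        group
  rw [← hmap]
  exact (card_conjClasses_congr ((MulAut.conj u).subgroupMap _)).symm


/-- the fibre of `(u,s) ↦ u s u⁻¹` over `v`. -/
lemma lemmaE {X : Type*} [Group X] [Finite X] (V G : Subgroup X) (S : Finset X)
    (hrep : ∀ v ∈ V, ∃! s, s ∈ S ∧ ∃ g ∈ G, g * v * g⁻¹ = s) (v : X) (hv : v ∈ V) :
    Nat.card {e : G × S // (e.1 : X) * e.2 * (e.1 : X)⁻¹ = v} =
      Nat.card ↥(G ⊓ Subgroup.centralizer ({v} : Set X)) := by
  obtain ⟨s0, ⟨hs0, g0, hg0, hg0v⟩, huniq⟩ := hrep v hv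
  symm
  refine Nat.card_congr (Equiv.ofBijective (fun c => ⟨(⟨c * g0⁻¹, G.mul_mem ((mem_H_iff G v _).1 c.2).1 (G.inv_mem hg0)⟩,
    ⟨s0, hs0⟩), ?_⟩) ⟨?_, ?_⟩)
  · simp only
    rw [← hg0v]
    have : (c : X) * g0⁻¹ * (g0 * v * g0⁻¹) * ((c : X) * g0⁻¹)⁻¹ = c * v * (c : X)⁻¹ := by group
    rw [this]
    exact ((mem_H_iff G v _).1 c.2).2
  · intro c c' h
    simp only [Subtype.mk.injEq, Prod.mk.injEq, and_true] at h
    exact Subtype.ext (mul_right_cancel h)
  · rintro ⟨⟨⟨u, hu⟩, ⟨s, hs⟩⟩, hus⟩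
    simp only at hus
    have hs' : s = s0 := by
      apply huniq
      refine ⟨hs, u⁻¹, G.inv_mem hu, ?_⟩
      rw [← hus]; group
    subst hs'
    refine ⟨⟨u * g0, ?_⟩, ?_⟩
    · rw [mem_H_iff]
      refine ⟨G.mul_mem hu hg0, ?_⟩
      have : u * g0 * v * (u * g0)⁻¹ = u * (g0 * v * g0⁻¹) * u⁻¹ := by group
      rw [this, hg0v, hus]
    · simp

lemma lemmaF {X : Type*} [Group X] [Finite X] (V : Subgroup X) [V.Normal] (G : Subgroup X) (S : Finset X)
    (hSV : ∀ s ∈ S, s ∈ V)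
    (hrep : ∀ v ∈ V, ∃! s, s ∈ S ∧ ∃ g ∈ G, g * v * g⁻¹ = s) :
    ∑ᶠ v : V, Nat.card (ConjClasses ↥(G ⊓ Subgroup.centralizer ({(v : X)} : Set X))) *
        Nat.card ↥(G ⊓ Subgroup.centralizer ({(v : X)} : Set X)) =
      Nat.card G * ∑ s ∈ S, Nat.card (ConjClasses ↥(G ⊓ Subgroup.centralizer ({s} : Set X))) := by
  classical
  have := Fintype.ofFinite X
  rw [finsum_eq_sum_of_fintype]
  let π : G × S → V := fun e => ⟨(e.1 : X) * e.2 * (e.1 : X)⁻¹, ‹V.Normal›.conj_mem _ (hSV _ e.2.2) _⟩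
  have h1 : ∑ e : G × S, Nat.card (ConjClasses ↥(G ⊓ Subgroup.centralizer ({((π e : V) : X)} : Set X))) =
      Nat.card G * ∑ s ∈ S, Nat.card (ConjClasses ↥(G ⊓ Subgroup.centralizer ({s} : Set X))) := by
    rw [Fintype.sum_prod_type]
    have : ∀ u : G, ∑ s : S, Nat.card (ConjClasses ↥(G ⊓ Subgroup.centralizer ({((π (u, s) : V) : X)} : Set X))) =
        ∑ s ∈ S, Nat.card (ConjClasses ↥(G ⊓ Subgroup.centralizer ({s} : Set X))) := by
      intro u
      rw [← Finset.sum_coe_sort S]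
      refine Finset.sum_congr rfl ?_
      intro s _
      exact lemmaD G u s u.2
    rw [Finset.sum_congr rfl (fun u _ => this u), Finset.sum_const, Finset.card_univ, smul_eq_mul,
      Nat.card_eq_fintype_card]
  rw [← h1, ← Finset.sum_fiberwise Finset.univ π]
  refine Finset.sum_congr rfl ?_
  intro v _
  have h2 : ∀ e ∈ Finset.univ.filter (fun e => π e = v),
      Nat.card (ConjClasses ↥(G ⊓ Subgroup.centralizer ({((π e : V) : X)} : Set X))) =
      Nat.card (ConjClasses ↥(G ⊓ Subgroup.centralizer ({(v : X)} : Set X))) := by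
    intro e he
    rw [(Finset.mem_filter.1 he).2]
  rw [Finset.sum_congr rfl h2, Finset.sum_const, smul_eq_mul, mul_comm]
  congr 1
  rw [← lemmaE V G S hrep v v.2, Nat.card_eq_fintype_card, Fintype.card_subtype]
  congr 1
  ext e
  simp only [Finset.mem_filter, Finset.mem_univ, true_and, π, Subtype.ext_iff]

/-- Let X be a finite group, V an abelian normal subgroup of X (any two elements of V commute) and G a complement to V in X whose order is coprime to that of V. Let S be a set of representatives of the orbits of G on V under conjugation: S lies in V and every element of V is conjugate under G to exactly one member of S. Then the number of conjugacy classes of X equals the sum, over s in S, of the number of conjugacy classes of the centralizer of s in G. -/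
theorem result {X : Type*} [Group X] [Finite X] (V : Subgroup X) [V.Normal] (hab : ∀ a ∈ V, ∀ b ∈ V, a * b = b * a) (G : Subgroup X) (hGV : Subgroup.IsComplement' V G) (hcop : (Nat.card V).Coprime (Nat.card G)) (S : Finset X) (hSV : ∀ s ∈ S, s ∈ V) (hrep : ∀ v ∈ V, ∃! s, s ∈ S ∧ ∃ g ∈ G, g * v * g⁻¹ = s) : Nat.card (ConjClasses X) = ∑ s ∈ S, Nat.card (ConjClasses ↥(G ⊓ Subgroup.centralizer ({s} : Set X))) := by
  have hX := card_comm_eq_card_conjClasses_mul_card X
  have hcard : Nat.card V * Nat.card G = Nat.card X := hGV.card_mul_card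
  rw [lemmaA V hab G hGV hcop, lemmaT V G, lemmaF V G S hSV hrep, ← hcard, ← mul_assoc] at hX
  have hpos : 0 < Nat.card V * Nat.card G := Nat.mul_pos Nat.card_pos Nat.card_pos
  rw [mul_comm] at hX
  exact (Nat.eq_of_mul_eq_mul_right hpos hX).symm

end Cfsg.Agent.S4956
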