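import Cfsg.Statements.S4958
import Mathlib
import Cfsg.Agent.Lib.Helper78.KnorrC
import Cfsg.Agent.S4955

set_option autoImplicit false
open Cfsg

namespace Cfsg.Agent.S4958

/-- Let X be a finite group and V a normal subgroup of X in which every element has order dividing the prime p, whose index in X is prime to p and which is its own centralizer in X; so V is an elementary abelian normal Sylow p-subgroup, and any complement G to V in X is a group of order prime to p acting faithfully on the vector space V by conjugation (the coprime linear setting of the k(GV) problem). Let G be a complement to V in X and suppose that for some v in V the centralizer of v in G is abelian. Then the number of conjugacy classes of X is at most the order of V (the abelian-stabilizer criterion for the k(GV) problem). -/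
theorem result {X : Type*} [Group X] [Finite X] (p : ℕ) [Fact p.Prime] (V : Subgroup X) [V.Normal] (hVexp : ∀ v ∈ V, v ^ p = 1) (hidx : ¬ p ∣ V.index) (hself : Subgroup.centralizer (V : Set X) = V) (G : Subgroup X) (hGV : Subgroup.IsComplement' V G) (v : X) (hv : v ∈ V) (hab : ∀ a ∈ G ⊓ Subgroup.centralizer ({v} : Set X), ∀ b ∈ G ⊓ Subgroup.centralizer ({v} : Set X), a * b = b * a) : Nat.card (ConjClasses X) ≤ Nat.card V := by
  classical
  have hp : p.Prime := Fact.out
  have hVn : V.Normal := inferInstance
  have hVab : ∀ a ∈ V, ∀ b ∈ V, a * b = b * a := by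
    intro a ha b hb
    rw [← hself] at ha
    exact (Subgroup.mem_centralizer_iff.1 ha b hb).symm
  have hVp : IsPGroup p V := fun g => ⟨1, by rw [pow_one]; exact Subtype.ext (hVexp g g.2)⟩
  have hidx' : V.index = Nat.card G := hGV.symm.index_eq_card
  have hG : ¬ p ∣ Nat.card G := by rwa [← hidx']
  set A := G ⊓ Subgroup.centralizer ({v} : Set X) with hA
  let iA : CommGroup A :=
    { (inferInstance : Group A) with mul_comm := fun a b => Subtype.ext (hab a a.2 b b.2) }
  let iV : CommGroup V :=
    { (inferInstance : Group V) with mul_comm := fun a b => Subtype.ext (hVab a a.2 b b.2) }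
  let iAct : MulDistribMulAction A V :=
    { smul := fun a u => ⟨(a : X) * u * (a : X)⁻¹, hVn.conj_mem u u.2 a⟩
      one_smul := fun u => Subtype.ext (by
        show ((1 : A) : X) * u * ((1 : A) : X)⁻¹ = u
        simp)
      mul_smul := fun a b u => Subtype.ext (by
        show ((a * b : A) : X) * u * ((a * b : A) : X)⁻¹ = (a : X) * ((b : X) * u * (b : X)⁻¹) * (a : X)⁻¹
        rw [Subgroup.coe_mul]
        group)
      smul_mul := fun a u w => Subtype.ext (by
        show (a : X) * ((u * w : V) : X) * (a : X)⁻¹
          = ((a : X) * u * (a : X)⁻¹) * ((a : X) * w * (a : X)⁻¹)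
        rw [Subgroup.coe_mul]
        group)
      smul_one := fun a => Subtype.ext (by
        show (a : X) * ((1 : V) : X) * (a : X)⁻¹ = ((1 : V) : X)
        simp) }
  have hsmul : ∀ (a : A) (u : V), ((a • u : V) : X) = (a : X) * u * (a : X)⁻¹ := fun _ _ => rfl
  have : Fintype A := Fintype.ofFinite A
  have hAG : Nat.card A ∣ Nat.card G := Subgroup.card_dvd_of_le inf_le_left
  have hcop : (Fintype.card A).Coprime (Nat.card V) := by
    obtain ⟨n, hn⟩ := IsPGroup.iff_card.mp hVp
    rw [hn, ← Nat.card_eq_fintype_card]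
    apply Nat.Coprime.pow_right
    apply Nat.Coprime.symm
    rw [Nat.Prime.coprime_iff_not_dvd hp]
    exact fun h => hG (h.trans hAG)
  have hfaith : ∀ g : A, (∀ u : V, g • u = u) → g = 1 := by
    intro g hg
    have h1 : (g : X) ∈ Subgroup.centralizer (V : Set X) := by
      rw [Subgroup.mem_centralizer_iff]
      intro u hu
      have h2 := congrArg Subtype.val (hg ⟨u, hu⟩)
      rw [hsmul] at h2
      simp only at h2
      rw [mul_inv_eq_iff_eq_mul] at h2
      exact h2.symm
    rw [hself] at h1
    have h3 : (g : X) ∈ V ⊓ G := ⟨h1, (Subgroup.mem_inf.1 g.2).1⟩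
    rw [hGV.disjoint.eq_bot] at h3
    exact Subtype.ext (Subgroup.mem_bot.1 h3)
  have hcomm : ∀ a ∈ A, a * v = v * a := by
    intro a ha
    exact (Subgroup.mem_centralizer_singleton_iff.1 (Subgroup.mem_inf.1 ha).2)
  have hne : ∀ χ : IrrCharacter X, (χ : X → ℂ) v ≠ 0 := fun χ =>
    Cfsg.Agent.S4955.char_ne_zero p V hVp hVab G hGV hG χ χ.2 v hv
  refine Cfsg.Agent.Lib.Helper78.Knorr.knorr_abstract p (H := A) (V := V) hcop hfaith A
    (MulEquiv.refl A) v (hVexp v hv) hcomm hne ?_
  intro g k hk
  show Nat.card (Subgroup.centralizer ({v ^ k * (g : X)} : Set X)) ≤ _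
  set x : X := v ^ k * (g : X) with hx
  have hgv : Commute (g : X) v := hcomm g g.2
  have hvkg : Commute (v ^ k) (g : X) := (hgv.pow_right k).symm
  have hvp : v ^ p = 1 := hVexp v hv
  have hxp : x ^ p = (g : X) ^ p := by
    rw [hx, hvkg.mul_pow, ← pow_mul, mul_comm k p, pow_mul, hvp, one_pow, one_mul]
  have hgord : p.Coprime (orderOf (g : X)) := by
    rw [Nat.Prime.coprime_iff_not_dvd hp]
    intro h
    apply hG
    refine h.trans ?_
    have h1 : orderOf (g : X) = orderOf (⟨g, (Subgroup.mem_inf.1 g.2).1⟩ : G) :=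
      (Subgroup.orderOf_mk _ _).symm
    rw [h1]
    exact orderOf_dvd_natCard _
  obtain ⟨s, hs⟩ := exists_pow_eq_self_of_coprime hgord
  have hvord : k.Coprime (orderOf v) :=
    Nat.Coprime.coprime_dvd_right (orderOf_dvd_of_pow_eq_one hvp) hk
  obtain ⟨t, ht⟩ := exists_pow_eq_self_of_coprime hvord
  have key : ∀ c : Subgroup.centralizer ({x} : Set X),
      ∃ q : A × (Cfsg.Agent.Lib.Helper78.Knorr.dl g : V →* V).ker,
        (((q.2 : V) : X)) * (q.1 : X) = (c : X) := by
    rintro ⟨c, hc⟩
    have hcx : Commute c x := Subgroup.mem_centralizer_singleton_iff.1 hc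
    have hcg : Commute c (g : X) := by
      have h1 := (hcx.pow_right p).pow_right s
      rwa [hxp, hs] at h1
    have hcvk : Commute c (v ^ k) := by
      have h1 : v ^ k = x * (g : X)⁻¹ := by rw [hx, mul_inv_cancel_right]
      rw [h1]
      exact hcx.mul_right hcg.inv_right
    have hcv : Commute c v := by
      have h1 := hcvk.pow_right t
      rwa [ht] at h1
    obtain ⟨⟨u, a⟩, hua⟩ := hGV.2 c
    simp only at hua
    have huv : Commute (u : X) v := hVab u u.2 v hv
    have hav : Commute (a : X) v := by
      have h1 : (a : X) = (u : X)⁻¹ * c := by rw [← hua, inv_mul_cancel_left]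
      rw [h1]
      exact huv.inv_left.mul_left hcv
    have haA : (a : X) ∈ A :=
      Subgroup.mem_inf.2 ⟨a.2, Subgroup.mem_centralizer_singleton_iff.2 hav⟩
    have hag : Commute (a : X) (g : X) := hab a haA g g.2
    have hug : Commute (u : X) (g : X) := by
      have h1 : (u : X) = c * (a : X)⁻¹ := by rw [← hua, mul_inv_cancel_right]
      rw [h1]
      exact hcg.mul_left hag.inv_left
    have huker : u ∈ (Cfsg.Agent.Lib.Helper78.Knorr.dl g : V →* V).ker := by
      rw [MonoidHom.mem_ker, Cfsg.Agent.Lib.Helper78.Knorr.dl_eq_one_iff]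
      apply Subtype.ext
      rw [hsmul, mul_inv_eq_iff_eq_mul]
      exact hug.symm
    exact ⟨(⟨a, haA⟩, ⟨u, huker⟩), hua⟩
  choose f hf using key
  have hinj : Function.Injective f := by
    intro c c' h
    apply Subtype.ext
    rw [← hf c, ← hf c', h]
  have h1 := Nat.card_le_card_of_injective f hinj
  rw [Nat.card_prod] at h1
  rw [← Nat.card_eq_fintype_card]
  exact h1

end Cfsg.Agent.S4958
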