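import Cfsg.Statements.S4964
import Mathlib
import Cfsg.Agent.Lib.Helper82.QuotBlock
import Cfsg.Agent.Lib.Helper1.Coprime2
import Cfsg.Agent.Lib.Helper2.PGroupFrattini

set_option autoImplicit false
open Cfsg

namespace Cfsg.Agent.S4964

/-- a `p`-regular element acting trivially on `D / D'` (for a normal `p`-subgroup `D`)
centralizes `D`. -/
theorem mem_centralizer_of_mod_commutator {G : Type*} [Group G] [Finite G] (p : ℕ) [Fact p.Prime]
    (D : Subgroup G) [D.Normal] (hD : IsPGroup p D) (g : G) (hg : ¬ p ∣ orderOf g)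
    (h : (g : G ⧸ ⁅D, D⁆) ∈ Subgroup.centralizer
      ((D.map (QuotientGroup.mk' ⁅D, D⁆) : Subgroup (G ⧸ ⁅D, D⁆)) : Set (G ⧸ ⁅D, D⁆))) :
    g ∈ Subgroup.centralizer (D : Set G) := by
  set A := Subgroup.zpowers g with hA
  have hAK : A ≤ Subgroup.normalizer (D : Set G) := by
    rw [Subgroup.normalizer_eq_top]; exact le_top
  obtain ⟨k, hk⟩ := IsPGroup.iff_card.mp hD
  have hcop : (Nat.card A).Coprime (Nat.card D) := by
    rw [hk, Nat.card_zpowers]
    exact Nat.Coprime.pow_right k ((Nat.Prime.coprime_iff_not_dvd (Fact.out : p.Prime)).2 hg).symm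
  have hsup := Cfsg.Agent.Lib.Helper1.commutator_sup_centralizer A D hAK hcop (Or.inl inferInstance)
  have hcomm : ⁅D, A⁆ ≤ ⁅D, D⁆ := by
    rw [Subgroup.commutator_le]
    intro d hd a ha
    rw [← QuotientGroup.eq_one_iff]
    have ha' : (a : G ⧸ ⁅D, D⁆) ∈ Subgroup.centralizer
        ((D.map (QuotientGroup.mk' ⁅D, D⁆) : Subgroup (G ⧸ ⁅D, D⁆)) : Set (G ⧸ ⁅D, D⁆)) := by
      obtain ⟨i, rfl⟩ := Subgroup.mem_zpowers_iff.1 ha
      rw [QuotientGroup.mk_zpow]
      exact Subgroup.zpow_mem _ h i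
    have h1 := Subgroup.mem_centralizer_iff.1 ha' (d : G ⧸ ⁅D, D⁆)
      (Subgroup.mem_map_of_mem (QuotientGroup.mk' ⁅D, D⁆) hd)
    rw [commutatorElement_def]
    have : ((d * a * d⁻¹ * a⁻¹ : G) : G ⧸ ⁅D, D⁆) =
        ((d : G ⧸ ⁅D, D⁆) * (a : G ⧸ ⁅D, D⁆)) * (d : G ⧸ ⁅D, D⁆)⁻¹ * (a : G ⧸ ⁅D, D⁆)⁻¹ := by
      simp
    rw [this, h1]
    group
  have hle : D ≤ Subgroup.centralizer (A : Set G) := by
    have htop : ((D ⊓ Subgroup.centralizer (A : Set G)).subgroupOf D) ⊔ frattini ↥D = ⊤ := by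
      rw [eq_top_iff]
      have h1 : (⊤ : Subgroup ↥D) = (⁅D, A⁆ ⊔ (D ⊓ Subgroup.centralizer (A : Set G))).subgroupOf D := by
        rw [hsup, Subgroup.subgroupOf_self]
      rw [h1, Subgroup.subgroupOf_sup (hcomm.trans (Subgroup.commutator_le_left D D)) inf_le_left,
        sup_comm]
      apply sup_le_sup_left
      refine le_trans ?_ (Cfsg.Agent.Lib.Helper2.commutator_le_frattini hD)
      intro x hx
      have hx' : (x : G) ∈ ⁅D, D⁆ := hcomm (Subgroup.mem_subgroupOf.1 hx)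
      rw [← Subgroup.map_subtype_commutator] at hx'
      obtain ⟨y, hy, hyx⟩ := hx'
      have : y = x := Subtype.ext hyx
      rwa [← this]
    have h2 := frattini_nongenerating htop
    rw [Subgroup.subgroupOf_eq_top] at h2
    exact h2.trans inf_le_right
  exact Subgroup.le_centralizer_iff.1 hle (Subgroup.mem_zpowers g)

/-- Let D be a normal p-subgroup of the finite group G, let D′ be its commutator subgroup (normal in G), and fix a maximal ideal M of the algebraic integers containing p. Then (i) two irreducible characters of G ⧸ D′ lie in the same p-block if and only if their inflations to G do, and (ii) every p-block of G contains the inflation of some irreducible character of G ⧸ D′; so inflation induces a bijection between the p-blocks of G ⧸ D′ and the p-blocks of G. -/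
theorem result {G : Type*} [Group G] [Finite G] (p : ℕ) [Fact p.Prime] (M : Ideal Cfsg.AlgInt) (hM : Cfsg.IsPModular p M) (D : Subgroup G) [D.Normal] (hD : IsPGroup p D) : (∀ χ ψ : Cfsg.IrrCharacter (G ⧸ ⁅D, D⁆), Cfsg.SameBlock M (χ : G ⧸ ⁅D, D⁆ → ℂ) (ψ : G ⧸ ⁅D, D⁆ → ℂ) ↔ Cfsg.SameBlock M ((χ : G ⧸ ⁅D, D⁆ → ℂ) ∘ QuotientGroup.mk) ((ψ : G ⧸ ⁅D, D⁆ → ℂ) ∘ QuotientGroup.mk)) ∧ ∀ B : Set (Cfsg.IrrCharacter G), Cfsg.IsPBlock M B → ∃ χ : Cfsg.IrrCharacter (G ⧸ ⁅D, D⁆), ∃ θ ∈ B, (θ : G → ℂ) = (χ : G ⧸ ⁅D, D⁆ → ℂ) ∘ QuotientGroup.mk := by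
  classical
  cases nonempty_fintype G
  have : M.IsMaximal := hM.2.1
  have : CharP (Cfsg.Agent.Lib.Helper16.FM M) p := Cfsg.Agent.Lib.Helper16.charP_FM hM
  have hMp := Cfsg.Agent.Lib.Helper78.pmod_isPrime hM
  have hle : ⁅D, D⁆ ≤ D := Subgroup.commutator_le_left D D
  have hN : IsPGroup p ↥⁅D, D⁆ := hD.to_le hle
  refine ⟨fun χ ψ => ⟨fun h => Cfsg.Agent.Lib.Helper82.sameBlock_inflate ⁅D, D⁆ hMp h,
    fun h => Cfsg.Agent.Lib.Helper82.sameBlock_deflate p ⁅D, D⁆ hM hN ?_ χ ψ h⟩,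
    fun B hB => Cfsg.Agent.Lib.Helper82.exists_mem_block_inflate p ⁅D, D⁆ hM hN B hB⟩
  intro g hg hgN η
  have hQn : (D.map (QuotientGroup.mk' ⁅D, D⁆)).Normal :=
    Subgroup.Normal.map inferInstance _ (QuotientGroup.mk'_surjective _)
  have hQp : IsPGroup p ↥(D.map (QuotientGroup.mk' ⁅D, D⁆)) := hD.map _
  rw [← Cfsg.Agent.Lib.Helper16.lam_classSumZ_eq_zero_iff]
  by_contra hne
  have h1 := Cfsg.Agent.Lib.Helper16.mem_centralizer_of_lam_classSumZ_ne_zero M p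
    (D.map (QuotientGroup.mk' ⁅D, D⁆)) hQp η (g : G ⧸ ⁅D, D⁆) hne
  have h2 := mem_centralizer_of_mod_commutator p D hD g hg h1
  exact hgN (Subgroup.centralizer_le (by exact_mod_cast hle) h2)

end Cfsg.Agent.S4964
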