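import Cfsg.Statements.S4965
import Mathlib
-- import your own Cfsg.Agent.* helpers here

set_option autoImplicit false
open Cfsg

namespace Cfsg.Agent.S4965

/-- Let X be a finite group with an abelian normal subgroup V (any two elements of V commute), and let φ be the action of X ⧸ V on V induced by conjugation (well defined because V is abelian; the hypothesis hφ says that the class of x acts as conjugation by x). Then X has at most as many conjugacy classes as the semidirect product of V by X ⧸ V formed with this action: the split extension has the largest class number among extensions with the given action. -/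
theorem result {X : Type*} [Group X] [Finite X] (V : Subgroup X) [V.Normal] (hab : ∀ a ∈ V, ∀ b ∈ V, a * b = b * a) (φ : X ⧸ V →* MulAut ↥V) (hφ : ∀ (x : X) (v : ↥V), ((φ (QuotientGroup.mk x) v : ↥V) : X) = x * v * x⁻¹) : Nat.card (ConjClasses X) ≤ Nat.card (ConjClasses (SemidirectProduct ↥V (X ⧸ V) φ)) := by
  classical
  have hX := card_comm_eq_card_conjClasses_mul_card X
  have hS := card_comm_eq_card_conjClasses_mul_card (SemidirectProduct ↥V (X ⧸ V) φ)
  have hcard : Nat.card (SemidirectProduct ↥V (X ⧸ V) φ) = Nat.card X := by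
    rw [SemidirectProduct.card, Subgroup.card_eq_card_quotient_mul_card_subgroup V, mul_comm]
  have : Finite (SemidirectProduct ↥V (X ⧸ V) φ) := Nat.finite_of_card_ne_zero (by
    rw [hcard]; exact Nat.card_pos.ne')
  -- choice of a commuting pair above each pair of cosets
  let c : (X ⧸ V) → (X ⧸ V) → X × X := fun g h =>
    if H : ∃ p : X × X, Commute p.1 p.2 ∧ (QuotientGroup.mk p.1 : X ⧸ V) = g ∧
      (QuotientGroup.mk p.2 : X ⧸ V) = h then H.choose else (1, 1)
  have hc : ∀ x y : X, Commute x y →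
      Commute (c (QuotientGroup.mk x) (QuotientGroup.mk y)).1 (c (QuotientGroup.mk x) (QuotientGroup.mk y)).2 ∧
      (QuotientGroup.mk (c (QuotientGroup.mk x) (QuotientGroup.mk y)).1 : X ⧸ V) = QuotientGroup.mk x ∧
      (QuotientGroup.mk (c (QuotientGroup.mk x) (QuotientGroup.mk y)).2 : X ⧸ V) = QuotientGroup.mk y := by
    intro x y hxy
    have H : ∃ p : X × X, Commute p.1 p.2 ∧ (QuotientGroup.mk p.1 : X ⧸ V) = QuotientGroup.mk x ∧
      (QuotientGroup.mk p.2 : X ⧸ V) = QuotientGroup.mk y := ⟨(x, y), hxy, rfl, rfl⟩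
    have : c (QuotientGroup.mk x) (QuotientGroup.mk y) = H.choose := dif_pos H
    rw [this]
    exact H.choose_spec
  have hmem : ∀ x x0 : X, (QuotientGroup.mk x0 : X ⧸ V) = QuotientGroup.mk x → x * x0⁻¹ ∈ V := by
    intro x x0 h
    have h1 : x0⁻¹ * x ∈ V := QuotientGroup.eq.mp h
    have h2 := ‹V.Normal›.conj_mem _ h1 x0
    have h3 : x0 * (x0⁻¹ * x) * x0⁻¹ = x * x0⁻¹ := by group
    rwa [h3] at h2
  have hinj : Nat.card {p : X × X // Commute p.1 p.2} ≤
      Nat.card {p : (SemidirectProduct ↥V (X ⧸ V) φ) × (SemidirectProduct ↥V (X ⧸ V) φ) // Commute p.1 p.2} := by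
    refine Nat.card_le_card_of_injective (fun p => ⟨(⟨⟨p.1.1 * (c (QuotientGroup.mk p.1.1) (QuotientGroup.mk p.1.2)).1⁻¹,
        hmem _ _ (hc _ _ p.2).2.1⟩, QuotientGroup.mk p.1.1⟩,
      ⟨⟨p.1.2 * (c (QuotientGroup.mk p.1.1) (QuotientGroup.mk p.1.2)).2⁻¹,
        hmem _ _ (hc _ _ p.2).2.2⟩, QuotientGroup.mk p.1.2⟩), ?_⟩) ?_
    · obtain ⟨⟨x, y⟩, hxy⟩ := p
      obtain ⟨h0, h1, h2⟩ := hc x y hxy
      simp only at h0 h1 h2 hxy ⊢
      set x0 := (c (QuotientGroup.mk x) (QuotientGroup.mk y)).1 with hx0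
      set y0 := (c (QuotientGroup.mk x) (QuotientGroup.mk y)).2 with hy0
      apply SemidirectProduct.ext
      · simp only [SemidirectProduct.mul_left]
        apply Subtype.ext
        simp only [Subgroup.coe_mul]
        have e3 : φ (QuotientGroup.mk x) = φ (QuotientGroup.mk x0) := by rw [h1]
        have e4 : φ (QuotientGroup.mk y) = φ (QuotientGroup.mk y0) := by rw [h2]
        rw [e3, e4, hφ, hφ]
        simp only
        have e1 : x * x0⁻¹ * (x0 * (y * y0⁻¹) * x0⁻¹) = (x * y) * (x0 * y0)⁻¹ := by group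
        have e2 : y * y0⁻¹ * (y0 * (x * x0⁻¹) * y0⁻¹) = (y * x) * (y0 * x0)⁻¹ := by group
        rw [e1, e2, hxy.eq, h0.eq]
      · simp only [SemidirectProduct.mul_right]
        rw [← QuotientGroup.mk_mul, ← QuotientGroup.mk_mul, hxy.eq]
    · rintro ⟨⟨x, y⟩, hxy⟩ ⟨⟨x', y'⟩, hxy'⟩ h
      simp only [Subtype.mk.injEq, Prod.mk.injEq, SemidirectProduct.ext_iff] at h
      obtain ⟨⟨ha, hg⟩, ⟨hb, hh⟩⟩ := h
      rw [hg, hh] at ha hb
      apply Subtype.ext
      simp only [Prod.mk.injEq]
      exact ⟨mul_right_cancel ha, mul_right_cancel hb⟩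
  rw [hX, hS, hcard] at hinj
  exact Nat.le_of_mul_le_mul_right hinj Nat.card_pos

end Cfsg.Agent.S4965
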