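import Cfsg.Statements.S4966
import Mathlib

set_option autoImplicit false
open Cfsg

namespace Cfsg.Agent.S4966

section general

variable {F : Type*} [Field F] {V : Type*} [AddCommGroup V] [Module F V]

/-- `σ` is an isometry. -/
lemma asym_isometry (B : LinearMap.BilinForm F V) (σ : Module.End F V)
    (hσ : ∀ x y : V, B (σ y) x = B x y) (x y : V) : B (σ x) (σ y) = B x y := by
  rw [hσ, hσ]

lemma asym_injective (B : LinearMap.BilinForm F V) (hB : B.Nondegenerate) (σ : Module.End F V)
    (hσ : ∀ x y : V, B (σ y) x = B x y) : Function.Injective σ := by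
  rw [injective_iff_map_eq_zero]
  intro y hy
  apply hB.2
  intro x
  rw [← hσ, hy, map_zero, LinearMap.zero_apply]

lemma asym_commute {G : Type*} [Group G] (ρ : Representation F G V)
    (B : LinearMap.BilinForm F V) (hB : B.Nondegenerate)
    (hBinv : ∀ g : G, ∀ x y : V, B (ρ g x) (ρ g y) = B x y) (σ : Module.End F V)
    (hσ : ∀ x y : V, B (σ y) x = B x y) (g : G) : Commute σ (ρ g) := by
  ext y
  simp only [Module.End.mul_apply]
  rw [← sub_eq_zero]
  apply hB.1
  intro x
  have h1 : B (ρ g (σ y)) x = B (σ y) (ρ g⁻¹ x) := by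
    rw [← hBinv g (σ y) (ρ g⁻¹ x), ← Module.End.mul_apply (ρ g) (ρ g⁻¹), ← map_mul]
    simp
  have h2 : B x (ρ g y) = B (ρ g⁻¹ x) y := by
    rw [← hBinv g (ρ g⁻¹ x) y, ← Module.End.mul_apply (ρ g) (ρ g⁻¹), ← map_mul]
    simp
  rw [map_sub, LinearMap.sub_apply, hσ, h1, hσ, h2, sub_self]

/-- moving powers of `N = σ - 1` across the form. -/
lemma asym_pow (B : LinearMap.BilinForm F V) (σ : Module.End F V)
    (hσ : ∀ x y : V, B (σ y) x = B x y) (k : ℕ) (a b : V) :
    B (((σ - 1) ^ k) a) ((σ ^ k) b) = (-1) ^ k * B a (((σ - 1) ^ k) b) := by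
  induction k generalizing a b with
  | zero => simp
  | succ k ih =>
    have hc : Commute (σ - 1) (σ ^ k) := ((Commute.refl σ).sub_left (Commute.one_left σ)).pow_right k
    have h1 : ((σ - 1) ^ (k + 1)) a = (σ - 1) (((σ - 1) ^ k) a) := by
      rw [pow_succ', Module.End.mul_apply]
    have h2 : (σ ^ (k + 1)) b = σ ((σ ^ k) b) := by
      rw [pow_succ', Module.End.mul_apply]
    have h3 : ∀ x y : V, B ((σ - 1) x) (σ y) = - B x ((σ - 1) y) := by
      intro x y
      simp only [LinearMap.sub_apply, Module.End.one_apply, map_sub]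
      rw [asym_isometry B σ hσ]
      ring
    rw [h1, h2, h3]
    have h4 : (σ - 1) ((σ ^ k) b) = (σ ^ k) ((σ - 1) b) := by
      rw [← Module.End.mul_apply, hc.eq, Module.End.mul_apply]
    rw [h4, ih, pow_succ ((σ - 1)) k, Module.End.mul_apply]
    ring

end general



section odd

variable {F : Type*} [Field F] {V : Type*} [AddCommGroup V] [Module F V] [FiniteDimensional F V]

lemma odd_case (h2 : (2 : F) ≠ 0) {G : Type*} [Group G] (ρ : Representation F G V)
    (B : LinearMap.BilinForm F V) (hB : B.Nondegenerate)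
    (hBinv : ∀ g : G, ∀ x y : V, B (ρ g x) (ρ g y) = B x y) :
    ∃ U W : Submodule F V, IsCompl U W ∧ (∀ g : G, ∀ u ∈ U, ρ g u ∈ U) ∧ (∀ g : G, ∀ w ∈ W, ρ g w ∈ W) ∧
      (∃ A : LinearMap.BilinForm F V, (∀ x : V, A x x = 0) ∧
        (∀ g : G, ∀ x ∈ U, ∀ y ∈ U, A (ρ g x) (ρ g y) = A x y) ∧
        (∀ x ∈ U, (∀ y ∈ U, A x y = 0) → x = 0)) ∧
      (∃ S : LinearMap.BilinForm F V, (∀ x y : V, S x y = S y x) ∧
        (∀ g : G, ∀ x ∈ W, ∀ y ∈ W, S (ρ g x) (ρ g y) = S x y) ∧
        (∀ x ∈ W, (∀ y ∈ W, S x y = 0) → x = 0)) := by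
  classical
  set σ : Module.End F V := LinearMap.BilinForm.symmCompOfNondegenerate B.flip B hB with hσdef
  have hσ : ∀ x y : V, B (σ y) x = B x y := by
    intro x y
    rw [hσdef, LinearMap.BilinForm.symmCompOfNondegenerate_left_apply]
    rfl
  have hinj := asym_injective B hB σ hσ
  have hcomm := asym_commute ρ B hB hBinv σ hσ
  set N : Module.End F V := σ - 1 with hN
  obtain ⟨k, hk⟩ := Filter.eventually_atTop.mp N.eventually_isCompl_ker_pow_range_pow
  set n := max k 1 with hn
  have hn1 : 1 ≤ n := le_max_right _ _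
  have hcompl : IsCompl (LinearMap.ker (N ^ n)) (LinearMap.range (N ^ n)) := hk n (le_max_left _ _)
  have hNσ : Commute N σ := (Commute.refl σ).sub_left (Commute.one_left σ)
  have hNρ : ∀ g, Commute (N ^ n) (ρ g) := fun g =>
    ((hcomm g).sub_left (Commute.one_left _)).pow_left n
  have hσn_inj : Function.Injective (σ ^ n) := by
    rw [Module.End.coe_pow]
    exact hinj.iterate n
  have hσn_surj : Function.Surjective (σ ^ n) := LinearMap.injective_iff_surjective.mp hσn_inj
  -- orthogonality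
  have horth : ∀ u ∈ LinearMap.range (N ^ n), ∀ w ∈ LinearMap.ker (N ^ n), B u w = 0 := by
    rintro u ⟨a, rfl⟩ w hw
    obtain ⟨w', rfl⟩ := hσn_surj w
    rw [asym_pow B σ hσ]
    have : (N ^ n) w' = 0 := by
      apply hσn_inj
      rw [map_zero, ← Module.End.mul_apply, ← ((hNσ.pow_left n).pow_right n).eq, Module.End.mul_apply]
      exact hw
    rw [this, map_zero, mul_zero]
  have hσU : ∀ u ∈ LinearMap.range (N ^ n), σ u ∈ LinearMap.range (N ^ n) := by
    rintro u ⟨a, rfl⟩
    refine ⟨σ a, ?_⟩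
    rw [← Module.End.mul_apply, (hNσ.pow_left n).eq, Module.End.mul_apply]
  have hσW : ∀ w ∈ LinearMap.ker (N ^ n), σ w ∈ LinearMap.ker (N ^ n) := by
    intro w hw
    rw [LinearMap.mem_ker] at hw ⊢
    rw [← Module.End.mul_apply, (hNσ.pow_left n).eq, Module.End.mul_apply, hw, map_zero]
  have horth' : ∀ w ∈ LinearMap.ker (N ^ n), ∀ u ∈ LinearMap.range (N ^ n), B w u = 0 := by
    intro w hw u hu
    rw [← hσ]
    exact horth _ (hσU u hu) w hw
  have hdecomp : ∀ v : V, ∃ w ∈ LinearMap.ker (N ^ n), ∃ u ∈ LinearMap.range (N ^ n), w + u = v := by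
    intro v
    have : v ∈ LinearMap.ker (N ^ n) ⊔ LinearMap.range (N ^ n) := by
      rw [hcompl.sup_eq_top]; trivial
    exact Submodule.mem_sup.1 this
  refine ⟨LinearMap.range (N ^ n), LinearMap.ker (N ^ n), hcompl.symm, ?_, ?_, ⟨B - B.flip, ?_, ?_, ?_⟩,
    ⟨B + B.flip, ?_, ?_, ?_⟩⟩
  · rintro g u ⟨a, rfl⟩
    refine ⟨ρ g a, ?_⟩
    rw [← Module.End.mul_apply, (hNρ g).eq, Module.End.mul_apply]
  · intro g w hw
    rw [LinearMap.mem_ker] at hw ⊢
    rw [← Module.End.mul_apply, (hNρ g).eq, Module.End.mul_apply, hw, map_zero]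
  · intro x
    simp [LinearMap.BilinForm.flip_apply]
  · intro g x _ y _
    simp [LinearMap.BilinForm.flip_apply, hBinv]
  · intro x hx h
    have hNx : N x = 0 := by
      apply hB.1
      intro v
      obtain ⟨w, hw, u, hu, rfl⟩ := hdecomp v
      have hNxU : N x ∈ LinearMap.range (N ^ n) := by
        rw [hN, LinearMap.sub_apply, Module.End.one_apply]
        exact Submodule.sub_mem _ (hσU x hx) hx
      rw [map_add, horth _ hNxU w hw, zero_add]
      have := h u hu
      simp only [LinearMap.sub_apply, LinearMap.BilinForm.flip_apply] at this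
      rw [hN, LinearMap.sub_apply, Module.End.one_apply, map_sub, LinearMap.sub_apply, hσ]
      rw [← neg_sub, this, neg_zero]
    have hx0 : x ∈ LinearMap.ker (N ^ n) := by
      rw [LinearMap.mem_ker, ← Nat.sub_add_cancel hn1, pow_succ, Module.End.mul_apply, hNx, map_zero]
    have := hcompl.disjoint.le_bot (Submodule.mem_inf.2 ⟨hx0, hx⟩)
    simpa using this
  · intro x y
    simp [LinearMap.BilinForm.flip_apply, add_comm]
  · intro g x _ y _
    simp [LinearMap.BilinForm.flip_apply, hBinv]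
  · intro x hx h
    have h1 : σ x + x = 0 := by
      apply hB.1
      intro v
      obtain ⟨w, hw, u, hu, rfl⟩ := hdecomp v
      have hW : σ x + x ∈ LinearMap.ker (N ^ n) := Submodule.add_mem _ (hσW x hx) hx
      rw [map_add, horth' _ hW u hu, add_zero]
      have := h w hw
      simp only [LinearMap.add_apply, LinearMap.BilinForm.flip_apply] at this
      rw [map_add, LinearMap.add_apply, hσ, add_comm]
      exact this
    have h3 : N x = (-2 : F) • x := by
      rw [hN, LinearMap.sub_apply, Module.End.one_apply, eq_neg_of_add_eq_zero_left h1]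
      module
    have h4 : ∀ j : ℕ, (N ^ j) x = ((-2 : F) ^ j) • x := by
      intro j
      induction j with
      | zero => simp
      | succ j ih => rw [pow_succ, Module.End.mul_apply, h3, map_smul, ih, smul_smul, pow_succ, mul_comm]
    rw [LinearMap.mem_ker, h4] at hx
    rcases smul_eq_zero.1 hx with h5 | h5
    · exact absurd (pow_eq_zero_iff (by omega)|>.1 h5) (neg_ne_zero.2 h2)
    · exact h5

end odd


section two

/-- In a group of odd order a nonidentity element is not conjugate to its inverse. -/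
lemma not_isConj_inv {G : Type*} [Group G] [Finite G] (hodd : ¬ 2 ∣ Nat.card G) (g : G) (hg : g ≠ 1) :
    ¬ IsConj g g⁻¹ := by
  intro h
  obtain ⟨c, hc⟩ := isConj_iff.1 h
  have h2 : Commute (c ^ 2) g := by
    have : c ^ 2 * g * (c ^ 2)⁻¹ = g := by
      have e : c ^ 2 * g * (c ^ 2)⁻¹ = c * (c * g * c⁻¹) * c⁻¹ := by
        rw [pow_two]; group
      rw [e, hc]
      have e2 : c * g⁻¹ * c⁻¹ = (c * g * c⁻¹)⁻¹ := by group
      rw [e2, hc, inv_inv]
    exact mul_inv_eq_iff_eq_mul.1 this
  have hoc : Odd (orderOf c) := by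
    rw [← Nat.not_even_iff_odd, even_iff_two_dvd]
    exact fun hd => hodd (hd.trans (orderOf_dvd_natCard c))
  obtain ⟨j, hj⟩ := hoc
  have hcc : c = (c ^ 2) ^ (j + 1) := by
    rw [← pow_mul, show 2 * (j + 1) = orderOf c + 1 by omega, pow_succ, pow_orderOf_eq_one, one_mul]
  have h3 : Commute c g := by
    rw [hcc]; exact h2.pow_left _
  have h4 : g = g⁻¹ := by
    rw [← hc, h3.eq]; group
  have h5 : g ^ 2 = 1 := by
    rw [pow_two]
    nth_rewrite 2 [h4]
    exact mul_inv_cancel g
  have h6 : orderOf g ∣ 2 := orderOf_dvd_of_pow_eq_one h5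
  rcases (Nat.dvd_prime Nat.prime_two).1 h6 with h7 | h7
  · exact hg (orderOf_eq_one_iff.1 h7)
  · exact hodd (h7 ▸ orderOf_dvd_natCard g)

/-- A class function `c` with values `0,1` on an odd order group with `c g + c g⁻¹ = 1` for `g ≠ 1`. -/
lemma exists_half {G : Type*} [Group G] [Finite G] (hodd : ¬ 2 ∣ Nat.card G) (F : Type*) [Field F] :
    ∃ c : G → F, (∀ g h : G, c (h * g * h⁻¹) = c g) ∧ c 1 = 0 ∧ ∀ g : G, g ≠ 1 → c g + c g⁻¹ = 1 := by
  classical
  obtain ⟨f, hf⟩ := exists_injective_nat (ConjClasses G)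
  refine ⟨fun g => if f (ConjClasses.mk g) < f (ConjClasses.mk g⁻¹) then 1 else 0, ?_, ?_, ?_⟩
  · intro g h
    have e1 : ConjClasses.mk (h * g * h⁻¹) = ConjClasses.mk g :=
      ConjClasses.mk_eq_mk_iff_isConj.2 (isConj_iff.2 ⟨h⁻¹, by group⟩)
    have e2 : ConjClasses.mk (h * g * h⁻¹)⁻¹ = ConjClasses.mk g⁻¹ :=
      ConjClasses.mk_eq_mk_iff_isConj.2 (isConj_iff.2 ⟨h⁻¹, by group⟩)
    simp only [e1, e2]
  · simp
  · intro g hg
    have hne : f (ConjClasses.mk g) ≠ f (ConjClasses.mk g⁻¹) := by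
      intro h
      exact not_isConj_inv hodd g hg (ConjClasses.mk_eq_mk_iff_isConj.1 (hf h))
    simp only [inv_inv]
    rcases lt_or_gt_of_ne hne with h | h
    · rw [if_pos h, if_neg (not_lt.2 h.le), add_zero]
    · rw [if_neg (not_lt.2 h.le), if_pos h, zero_add]

lemma sub_one_pow_two_pow {R : Type*} [Ring R] (h2 : (2 : R) = 0) (a : R) (k : ℕ) :
    (a - 1) ^ (2 ^ k) = a ^ (2 ^ k) - 1 := by
  induction k with
  | zero => simp
  | succ k ih =>
    rw [pow_succ, pow_mul, ih, pow_mul]
    generalize a ^ 2 ^ k = b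
    have : (b - 1) ^ 2 = b ^ 2 - 1 - 2 * b + 2 := by
      rw [pow_two, pow_two, sub_mul, mul_sub, two_mul]
      simp only [mul_one, one_mul]
      have : (2 : R) = 1 + 1 := by norm_num
      rw [this]
      abel
    rw [this, h2]
    simp

end two


section unip

variable {F : Type*} [Field F] [CharP F 2] {V : Type*} [AddCommGroup V] [Module F V] [FiniteDimensional F V]

lemma unip_case {G : Type*} [Group G] [Finite G] (hodd : ¬ 2 ∣ Nat.card G) (ρ : Representation F G V)
    (B : LinearMap.BilinForm F V) (hB : B.Nondegenerate)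
    (hBinv : ∀ g : G, ∀ x y : V, B (ρ g x) (ρ g y) = B x y) (τ : Module.End F V)
    (hτ : ∀ x y : V, B (τ y) x = B x y) (K : ℕ) (hnil : (τ - 1) ^ K = 0) :
    ∃ U W : Submodule F V, IsCompl U W ∧ (∀ g : G, ∀ u ∈ U, ρ g u ∈ U) ∧ (∀ g : G, ∀ w ∈ W, ρ g w ∈ W) ∧
      (∃ A : LinearMap.BilinForm F V, (∀ x : V, A x x = 0) ∧
        (∀ g : G, ∀ x ∈ U, ∀ y ∈ U, A (ρ g x) (ρ g y) = A x y) ∧
        (∀ x ∈ U, (∀ y ∈ U, A x y = 0) → x = 0)) ∧
      (∃ S : LinearMap.BilinForm F V, (∀ x y : V, S x y = S y x) ∧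
        (∀ g : G, ∀ x ∈ W, ∀ y ∈ W, S (ρ g x) (ρ g y) = S x y) ∧
        (∀ x ∈ W, (∀ y ∈ W, S x y = 0) → x = 0)) ∧
      (∀ g : G, ∀ w ∈ W, ρ g w = w) := by
  classical
  have := Fintype.ofFinite G
  have hcomm := asym_commute ρ B hB hBinv τ hτ
  obtain ⟨c, hcl, hc1, hcinv⟩ := exists_half hodd F
  -- adjoint of `ρ g`
  have hadj : ∀ (g : G) (x y : V), B (ρ g⁻¹ x) y = B x (ρ g y) := by
    intro g x y
    rw [← hBinv g (ρ g⁻¹ x) y, ← Module.End.mul_apply (ρ g) (ρ g⁻¹), ← map_mul]
    simp
  set T : Module.End F V := ∑ g : G, ρ g with hT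
  have hρT : ∀ h : G, ρ h * T = T := by
    intro h
    rw [hT, Finset.mul_sum]
    simp_rw [← map_mul]
    exact Equiv.sum_comp (Equiv.mulLeft h) (fun g => ρ g)
  have hTρ : ∀ h : G, T * ρ h = T := by
    intro h
    rw [hT, Finset.sum_mul]
    simp_rw [← map_mul]
    exact Equiv.sum_comp (Equiv.mulRight h) (fun g => ρ g)
  have hcard : ((Fintype.card G : ℕ) : F) = 1 := by
    have ho : Odd (Fintype.card G) := by
      rw [← Nat.not_even_iff_odd, even_iff_two_dvd, ← Nat.card_eq_fintype_card]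
      exact hodd
    obtain ⟨j, hj⟩ := ho
    rw [hj]
    push_cast
    rw [CharTwo.two_eq_zero]
    simp
  have hTT : IsIdempotentElem T := by
    show T * T = T
    conv_lhs => rw [hT, Finset.sum_mul]
    rw [Finset.sum_congr rfl (fun g _ => hρT g), Finset.sum_const, Finset.card_univ,
      ← Nat.cast_smul_eq_nsmul F, hcard, one_smul]
  have hcompl : IsCompl (LinearMap.range T) (LinearMap.ker T) := LinearMap.IsIdempotentElem.isCompl hTT
  have hTadj : ∀ x y : V, B (T x) y = B x (T y) := by
    intro x y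
    rw [hT, LinearMap.sum_apply, LinearMap.sum_apply, map_sum, map_sum, LinearMap.sum_apply]
    rw [← Equiv.sum_comp (Equiv.inv G)]
    exact Finset.sum_congr rfl (fun g _ => hadj g x y)
  set z : Module.End F V := ∑ g : G, c g • ρ g with hz
  set z' : Module.End F V := ∑ g : G, c g • ρ g⁻¹ with hz'
  have hzadj : ∀ x y : V, B (z' x) y = B x (z y) := by
    intro x y
    rw [hz, hz', LinearMap.sum_apply, LinearMap.sum_apply, map_sum, map_sum, LinearMap.sum_apply]
    refine Finset.sum_congr rfl (fun g _ => ?_)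
    simp only [LinearMap.smul_apply, map_smul]
    rw [hadj]
  have hzz : z + z' = T - 1 := by
    have e1 : z' = ∑ g : G, c g⁻¹ • ρ g := by
      rw [hz', ← Equiv.sum_comp (Equiv.inv G)]
      simp
    rw [e1, hz, ← Finset.sum_add_distrib, hT, eq_sub_iff_add_eq]
    rw [← Finset.add_sum_erase _ _ (Finset.mem_univ (1 : G)),
      ← Finset.add_sum_erase (a := (1 : G)) Finset.univ (fun g => ρ g) (Finset.mem_univ (1 : G))]
    simp only [inv_one, hc1, zero_smul, add_zero, zero_add, map_one]
    rw [add_comm]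
    congr 1
    refine Finset.sum_congr rfl (fun g hg => ?_)
    rw [← add_smul, hcinv g (Finset.ne_of_mem_erase hg), one_smul]
  have hzρ : ∀ h : G, Commute z (ρ h) := by
    intro h
    show z * ρ h = ρ h * z
    rw [hz, Finset.sum_mul, Finset.mul_sum]
    rw [← Equiv.sum_comp (MulAut.conj h).toEquiv]
    refine Finset.sum_congr rfl (fun g _ => ?_)
    simp only [MulEquiv.toEquiv_eq_coe, EquivLike.coe_coe, MulAut.conj_apply, hcl, smul_mul_assoc,
      mul_smul_comm, ← map_mul]
    congr 2
    group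
  have hτz : Commute τ z := by
    rw [hz]
    exact Commute.sum_right _ _ _ (fun g _ => (hcomm g).smul_right _)
  have hTz : ∀ x : V, T x = 0 → T (z x) = 0 := by
    intro x hx
    have e : T * z = (∑ g, c g) • T := by
      rw [hz, Finset.mul_sum, Finset.sum_smul]
      exact Finset.sum_congr rfl (fun g _ => by rw [mul_smul_comm, hTρ])
    rw [← Module.End.mul_apply, e, LinearMap.smul_apply, hx, smul_zero]
  have hTz' : ∀ x : V, T x = 0 → T (z' x) = 0 := by
    intro x hx
    have e : T * z' = (∑ g, c g) • T := by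
      rw [hz', Finset.mul_sum, Finset.sum_smul]
      exact Finset.sum_congr rfl (fun g _ => by rw [mul_smul_comm, hTρ])
    rw [← Module.End.mul_apply, e, LinearMap.smul_apply, hx, smul_zero]
  have hTτ : Commute T τ := by
    rw [hT]
    exact Commute.sum_left _ _ _ (fun g _ => (hcomm g).symm)
  have hdecomp : ∀ v : V, ∃ w ∈ LinearMap.range T, ∃ u ∈ LinearMap.ker T, w + u = v := by
    intro v
    have : v ∈ LinearMap.range T ⊔ LinearMap.ker T := by
      rw [hcompl.sup_eq_top]; trivial
    exact Submodule.mem_sup.1 this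
  have hfix : ∀ g : G, ∀ w ∈ LinearMap.range T, ρ g w = w := by
    rintro g w ⟨a, rfl⟩
    rw [← Module.End.mul_apply, hρT]
  -- the basis of `W`
  let b := Module.finBasis F (LinearMap.range T)
  let P : V →ₗ[F] LinearMap.range T := T.rangeRestrict
  have hP : ∀ w : LinearMap.range T, P (w : V) = w := by
    rintro ⟨w, a, rfl⟩
    apply Subtype.ext
    show T (T a) = T a
    rw [← Module.End.mul_apply, hTT.eq]
  refine ⟨LinearMap.ker T, LinearMap.range T, hcompl.symm, ?_, ?_,
    ⟨B.compRight z + (B.compRight z).flip, ?_, ?_, ?_⟩,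
    ⟨∑ i, LinearMap.BilinForm.linMulLin ((b.coord i) ∘ₗ P) ((b.coord i) ∘ₗ P), ?_, ?_, ?_⟩, hfix⟩
  · intro g u hu
    rw [LinearMap.mem_ker] at hu ⊢
    rw [← Module.End.mul_apply, hTρ, hu]
  · intro g w hw
    rw [hfix g w hw]; exact hw
  · intro x
    simp only [LinearMap.add_apply, LinearMap.BilinForm.flip_apply]
    exact CharTwo.add_self_eq_zero _
  · intro g x _ y _
    simp only [LinearMap.add_apply, LinearMap.BilinForm.flip_apply, LinearMap.BilinForm.compRight_apply]
    have e : ∀ v : V, z (ρ g v) = ρ g (z v) := by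
      intro v
      rw [← Module.End.mul_apply, (hzρ g).eq, Module.End.mul_apply]
    rw [e, e, hBinv, hBinv]
  · intro x hx h
    rw [LinearMap.mem_ker] at hx
    have hA : ∀ y : V, (B.compRight z + (B.compRight z).flip) x y = B (z' x + τ (z x)) y := by
      intro y
      simp only [LinearMap.add_apply, LinearMap.BilinForm.flip_apply, LinearMap.BilinForm.compRight_apply]
      rw [map_add, LinearMap.add_apply, hzadj, hτ]
    have hD : z' x + τ (z x) = 0 := by
      apply hB.1
      intro v
      obtain ⟨w, ⟨a, rfl⟩, u, hu, rfl⟩ := hdecomp v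
      rw [map_add, ← hA u, h u hu, add_zero, ← hTadj, map_add, hTz' x hx, ← Module.End.mul_apply,
        hTτ.eq, Module.End.mul_apply, hTz x hx]
      simp
    -- `x = (τ - 1) z x`
    have hx1 : x = ((τ - 1) * z) x := by
      have h1 : (z + z') x = - x := by
        rw [hzz, LinearMap.sub_apply, hx, Module.End.one_apply, zero_sub]
      rw [LinearMap.add_apply] at h1
      rw [Module.End.mul_apply, LinearMap.sub_apply, Module.End.one_apply]
      have h2 : τ (z x) = - z' x := eq_neg_of_add_eq_zero_right hD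
      rw [h2]
      calc x = - (z x + z' x) := by rw [h1, neg_neg]
        _ = - z' x - z x := by abel
    have hx2 : ∀ j : ℕ, x = (((τ - 1) * z) ^ j) x := by
      intro j
      induction j with
      | zero => simp
      | succ j ih => rw [pow_succ, Module.End.mul_apply, ← hx1]; exact ih
    have hc2 : Commute (τ - 1) z := hτz.sub_left (Commute.one_left z)
    rw [hx2 K, hc2.mul_pow, hnil, zero_mul, LinearMap.zero_apply]
  · intro x y
    simp only [LinearMap.sum_apply, LinearMap.BilinForm.linMulLin_apply]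
    exact Finset.sum_congr rfl (fun i _ => mul_comm _ _)
  · intro g x hx y hy
    rw [hfix g x hx, hfix g y hy]
  · intro x hx h
    have h1 : ∀ j, b.coord j (P x) = 0 := by
      intro j
      have := h (b j : V) (b j).2
      simp only [LinearMap.sum_apply, LinearMap.BilinForm.linMulLin_apply, LinearMap.comp_apply, hP,
        Module.Basis.coord_apply, Module.Basis.repr_self] at this
      rw [Finset.sum_eq_single j] at this
      · simpa using this
      · intro i _ hij
        simp [Ne.symm hij]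
      · simp
    have h2 : P x = 0 := by
      apply b.ext_elem
      intro j
      simpa using h1 j
    have := hP ⟨x, hx⟩
    simp only at this
    rw [h2] at this
    exact (congrArg Subtype.val this).symm

end unip


section twocase

variable {F : Type*} [Field F] [Finite F] [CharP F 2] {V : Type*} [AddCommGroup V] [Module F V]
  [FiniteDimensional F V]

lemma two_case {G : Type*} [Group G] [Finite G] (hodd : ¬ 2 ∣ Nat.card G) (ρ : Representation F G V)
    (B : LinearMap.BilinForm F V) (hB : B.Nondegenerate)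
    (hBinv : ∀ g : G, ∀ x y : V, B (ρ g x) (ρ g y) = B x y) :
    ∃ U W : Submodule F V, IsCompl U W ∧ (∀ g : G, ∀ u ∈ U, ρ g u ∈ U) ∧ (∀ g : G, ∀ w ∈ W, ρ g w ∈ W) ∧
      (∃ A : LinearMap.BilinForm F V, (∀ x : V, A x x = 0) ∧
        (∀ g : G, ∀ x ∈ U, ∀ y ∈ U, A (ρ g x) (ρ g y) = A x y) ∧
        (∀ x ∈ U, (∀ y ∈ U, A x y = 0) → x = 0)) ∧
      (∃ S : LinearMap.BilinForm F V, (∀ x y : V, S x y = S y x) ∧
        (∀ g : G, ∀ x ∈ W, ∀ y ∈ W, S (ρ g x) (ρ g y) = S x y) ∧
        (∀ x ∈ W, (∀ y ∈ W, S x y = 0) → x = 0)) ∧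
      (∀ g : G, ∀ w ∈ W, ρ g w = w) := by
  classical
  set σ : Module.End F V := LinearMap.BilinForm.symmCompOfNondegenerate B.flip B hB with hσdef
  have hσ : ∀ x y : V, B (σ y) x = B x y := by
    intro x y
    rw [hσdef, LinearMap.BilinForm.symmCompOfNondegenerate_left_apply]
    rfl
  have hinj := asym_injective B hB σ hσ
  have hsurj : Function.Surjective σ := LinearMap.injective_iff_surjective.mp hinj
  have hcomm := asym_commute ρ B hB hBinv σ hσ
  have hV : Finite V := Module.finite_of_finite F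
  have hE : Finite (Module.End F V) := Finite.of_injective (fun f => (f : V → V)) DFunLike.coe_injective
  have hu : IsUnit σ := (Module.End.isUnit_iff σ).2 ⟨hinj, hsurj⟩
  have hr0 : orderOf hu.unit ≠ 0 := (orderOf_pos hu.unit).ne'
  have hr : σ ^ orderOf hu.unit = 1 := by
    have := congrArg Units.val (pow_orderOf_eq_one hu.unit)
    rw [Units.val_pow_eq_pow_val, IsUnit.unit_spec, Units.val_one] at this
    exact this
  obtain ⟨k, m, ⟨i, hi⟩, hkm⟩ := Nat.exists_eq_two_pow_mul_odd hr0
  have hisoi : ∀ (j : ℕ) (a b : V), B ((σ ^ j) a) ((σ ^ j) b) = B a b := by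
    intro j
    induction j with
    | zero => simp
    | succ j ih =>
      intro a b
      rw [pow_succ', Module.End.mul_apply, Module.End.mul_apply, asym_isometry B σ hσ, ih]
  have hinji : Function.Injective (σ ^ i) := by
    rw [Module.End.coe_pow]; exact hinj.iterate i
  have hsurji : Function.Surjective (σ ^ i) := by
    rw [Module.End.coe_pow]; exact hsurj.iterate i
  have h2 : (2 : Module.End F V) = 0 := by
    ext v
    have : (2 : Module.End F V) v = (2 : F) • v := by
      rw [two_smul]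
      have : (2 : Module.End F V) = 1 + 1 := by norm_num
      rw [this]; rfl
    rw [this, CharTwo.two_eq_zero, zero_smul, LinearMap.zero_apply]
  refine unip_case hodd ρ (B.compRight (σ ^ i)) ⟨?_, ?_⟩ ?_ (σ ^ m) ?_ (2 ^ k) ?_
  · intro x hx
    apply hB.1
    intro v
    obtain ⟨y, rfl⟩ := hsurji v
    exact hx y
  · intro y hy
    apply hinji
    rw [map_zero]
    apply hB.2
    intro x
    exact hy x
  · intro g x y
    simp only [LinearMap.BilinForm.compRight_apply]
    rw [← Module.End.mul_apply (σ ^ i), ((hcomm g).pow_left i).eq, Module.End.mul_apply, hBinv]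
  · intro x y
    simp only [LinearMap.BilinForm.compRight_apply]
    have : (σ ^ m) y = (σ ^ i) (σ ((σ ^ i) y)) := by
      rw [← Module.End.mul_apply σ, ← Module.End.mul_apply, ← pow_succ', ← pow_add, hi]
      congr 2
      omega
    rw [this, hisoi, hσ]
  · rw [sub_one_pow_two_pow h2, ← pow_mul, mul_comm, ← hkm, hr, sub_self]

end twocase

/-- Let F be a finite field of characteristic p, G a finite group of order prime to p, and V a finite-dimensional representation of G over F carrying a nondegenerate G-invariant bilinear form (equivalently, V is self-dual). Then V is the direct sum of two G-invariant subspaces U and W such that U carries a G-invariant alternating bilinear form that is nondegenerate on U and W carries a G-invariant symmetric bilinear form that is nondegenerate on W; moreover when p = 2 the decomposition can be chosen with G acting trivially on W. -/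
theorem result {F : Type*} [Field F] [Fintype F] (p : ℕ) [Fact p.Prime] [CharP F p] {G : Type*} [Group G] [Finite G] (hcop : ¬ p ∣ Nat.card G) {V : Type*} [AddCommGroup V] [Module F V] [FiniteDimensional F V] (ρ : Representation F G V) (B : LinearMap.BilinForm F V) (hB : B.Nondegenerate) (hBinv : ∀ g : G, ∀ x y : V, B (ρ g x) (ρ g y) = B x y) : ∃ U W : Submodule F V, IsCompl U W ∧ (∀ g : G, ∀ u ∈ U, ρ g u ∈ U) ∧ (∀ g : G, ∀ w ∈ W, ρ g w ∈ W) ∧ (∃ A : LinearMap.BilinForm F V, (∀ x : V, A x x = 0) ∧ (∀ g : G, ∀ x ∈ U, ∀ y ∈ U, A (ρ g x) (ρ g y) = A x y) ∧ (∀ x ∈ U, (∀ y ∈ U, A x y = 0) → x = 0)) ∧ (∃ S : LinearMap.BilinForm F V, (∀ x y : V, S x y = S y x) ∧ (∀ g : G, ∀ x ∈ W, ∀ y ∈ W, S (ρ g x) (ρ g y) = S x y) ∧ (∀ x ∈ W, (∀ y ∈ W, S x y = 0) → x = 0)) ∧ (p = 2 → ∀ g : G, ∀ w ∈ W, ρ g w = w) := by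
  by_cases hp2 : p = 2
  · subst hp2
    obtain ⟨U, W, h1, h2, h3, h4, h5, h6⟩ := two_case hcop ρ B hB hBinv
    exact ⟨U, W, h1, h2, h3, h4, h5, fun _ => h6⟩
  · have h2 : (2 : F) ≠ 0 := by
      intro h
      have h' : ((2 : ℕ) : F) = 0 := by exact_mod_cast h
      rw [CharP.cast_eq_zero_iff F p 2] at h'
      exact hp2 ((Nat.prime_dvd_prime_iff_eq (Fact.out : p.Prime) Nat.prime_two).1 h')
    obtain ⟨U, W, h1, h2, h3, h4, h5⟩ := odd_case h2 ρ B hB hBinv
    exact ⟨U, W, h1, h2, h3, h4, h5, fun h => absurd h hp2⟩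

end Cfsg.Agent.S4966
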