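import Cfsg.Statements.S4967
import Cfsg.Agent.Lib.Helper79.SelfDualField

set_option autoImplicit false
open Cfsg

namespace Cfsg.Agent.S4967

open Cfsg.Agent.Lib.Helper79.SelfDualField in
/-- Let F be a finite field with r elements and of characteristic p, H a finite abelian group of order prime to p, and V a faithful irreducible representation of H over F of dimension n (faithful: distinct elements act differently; irreducible: the only H-invariant subspaces are 0 and V). Call V self-dual when it carries a nondegenerate H-invariant bilinear form. If n = 1 and V is self-dual then H has order at most 2. If n ≥ 2 then V is self-dual if and only if n is even and the order of H divides r^(n/2) + 1. -/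
theorem result {F : Type*} [Field F] [Fintype F] (p : ℕ) [Fact p.Prime] [CharP F p] {H : Type*} [CommGroup H] [Finite H] (hcop : ¬ p ∣ Nat.card H) {V : Type*} [AddCommGroup V] [Module F V] [FiniteDimensional F V] (ρ : Representation F H V) (hfaith : Function.Injective ρ) (hirr : ∀ U : Submodule F V, (∀ h : H, ∀ u ∈ U, ρ h u ∈ U) → U = ⊥ ∨ U = ⊤) : (Module.finrank F V = 1 → (∃ B : LinearMap.BilinForm F V, B.Nondegenerate ∧ ∀ h : H, ∀ x y : V, B (ρ h x) (ρ h y) = B x y) → Nat.card H ≤ 2) ∧ (2 ≤ Module.finrank F V → ((∃ B : LinearMap.BilinForm F V, B.Nondegenerate ∧ ∀ h : H, ∀ x y : V, B (ρ h x) (ρ h y) = B x y) ↔ (Even (Module.finrank F V) ∧ Nat.card H ∣ Fintype.card F ^ (Module.finrank F V / 2) + 1))) := by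
  by_cases hpos : 0 < Module.finrank F V
  swap
  · constructor
    · intro h; omega
    · intro h; omega
  have hnt : Nontrivial V := Module.nontrivial_of_finrank_pos hpos
  obtain ⟨K, _, _, _, χ, e, he, hspan⟩ := exists_field_model ρ hirr
  have hinj : Function.Injective χ := by
    intro a b hab
    apply hfaith
    ext v
    obtain ⟨x, rfl⟩ := e.surjective v
    rw [← he, ← he, hab]
  have hrank : Module.finrank F K = Module.finrank F V := e.finrank_eq
  have hfwd : (∃ B : LinearMap.BilinForm F V, B.Nondegenerate ∧
      ∀ h : H, ∀ x y : V, B (ρ h x) (ρ h y) = B x y) →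
      (Module.finrank F V = 1 ∧ Nat.card H ≤ 2) ∨
      (Even (Module.finrank F V) ∧
        Nat.card H ∣ Fintype.card F ^ (Module.finrank F V / 2) + 1) := by
    rintro ⟨B, hnd, hB⟩
    rw [← hrank]
    apply forward χ hinj hspan (LinearMap.BilinForm.congr e.symm B) (hnd.congr e.symm)
    intro h x y
    simp only [LinearMap.BilinForm.congr_apply, LinearEquiv.symm_symm, he, hB]
  constructor
  · intro h1 hB
    rcases hfwd hB with h | h
    · exact h.2
    · exfalso
      rw [h1] at h
      exact absurd h.1 (by decide)
  · intro h2
    constructor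
    · intro hB
      rcases hfwd hB with h | h
      · omega
      · exact h
    · rintro ⟨_, hdvd⟩
      obtain ⟨B, hnd, hB⟩ := backward (F := F) χ _ hdvd
      refine ⟨LinearMap.BilinForm.congr e B, hnd.congr e, ?_⟩
      intro h x y
      simp only [LinearMap.BilinForm.congr_apply]
      have h3 : ∀ v : V, e.symm (ρ h v) = χ h * e.symm v := by
        intro v
        apply e.injective
        rw [he, LinearEquiv.apply_symm_apply, LinearEquiv.apply_symm_apply]
      rw [h3, h3, hB]

end Cfsg.Agent.S4967
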