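import Cfsg.Statements.S5014
import Cfsg.Agent.Lib.Helper83.RankOne

set_option autoImplicit false
open Cfsg

namespace Cfsg.Agent.S5014

open Cfsg.Agent.Lib.Helper83

/-- Let X = ⟨A, B⟩ be a rank one group with unipotent subgroups A and B and let Ω be the set of conjugates of A under X. Then Ω has at least three members, X acts doubly transitively on Ω by conjugation (any two ordered pairs of distinct members are carried to one another by a single element of X), and A acts regularly on Ω with A removed: for C, D in Ω different from A there is exactly one element of A conjugating C to D. -/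
theorem result {G : Type*} [Group G] {A B : Subgroup G} (h : Cfsg.IsRankOnePair A B) :
    (∃ C₁ ∈ Cfsg.unipotentSubgroups A B, ∃ C₂ ∈ Cfsg.unipotentSubgroups A B, ∃ C₃ ∈ Cfsg.unipotentSubgroups A B,
      C₁ ≠ C₂ ∧ C₁ ≠ C₃ ∧ C₂ ≠ C₃) ∧
    (∀ C₁ ∈ Cfsg.unipotentSubgroups A B, ∀ C₂ ∈ Cfsg.unipotentSubgroups A B, ∀ D₁ ∈ Cfsg.unipotentSubgroups A B,
      ∀ D₂ ∈ Cfsg.unipotentSubgroups A B, C₁ ≠ C₂ → D₁ ≠ D₂ →
        ∃ x ∈ A ⊔ B, Cfsg.conjBy C₁ x = D₁ ∧ Cfsg.conjBy C₂ x = D₂) ∧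
    (∀ C ∈ Cfsg.unipotentSubgroups A B, ∀ D ∈ Cfsg.unipotentSubgroups A B, C ≠ A → D ≠ A →
      ∃! a : G, a ∈ A ∧ Cfsg.conjBy C a = D) := by
  refine ⟨?_, ?_, ?_⟩
  · obtain ⟨a, ha, ha1⟩ := R1.exists_left h
    refine ⟨A, left_mem_unipotentSubgroups A B, B, R1.right_mem_unipotentSubgroups h,
      Cfsg.conjBy B a, (R1.mem_unipotentSubgroups h).mpr (Or.inr ⟨a, ha, rfl⟩), h.ne,
      (R1.conjBy_right_ne_left h ha).symm, ?_⟩
    intro h1
    exact ha1 (R1.eq_one_of_normalizes h ha h1.symm)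
  · intro C₁ hC₁ C₂ hC₂ D₁ hD₁ D₂ hD₂ hC hD
    obtain ⟨x, hx, rfl, rfl⟩ := R1.exists_conj_pair h hC₁ hC₂ hC
    obtain ⟨y, hy, rfl, rfl⟩ := R1.exists_conj_pair h hD₁ hD₂ hD
    refine ⟨y * x⁻¹, (A ⊔ B).mul_mem hy ((A ⊔ B).inv_mem hx), ?_, ?_⟩ <;>
    · rw [conjBy_conjBy]; simp
  · intro C hC D hD hCA hDA
    rcases (R1.mem_unipotentSubgroups h).mp hC with rfl | ⟨c, hc, rfl⟩
    · exact absurd rfl hCA
    rcases (R1.mem_unipotentSubgroups h).mp hD with rfl | ⟨d, hd, rfl⟩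
    · exact absurd rfl hDA
    refine ⟨d * c⁻¹, ⟨A.mul_mem hd (A.inv_mem hc), ?_⟩, ?_⟩
    · rw [conjBy_conjBy]; simp
    · rintro a ⟨ha, h1⟩
      rw [conjBy_conjBy] at h1
      have := R1.eq_of_conjBy_eq h (A.mul_mem ha hc) hd h1
      rw [← this]; simp

end Cfsg.Agent.S5014
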