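import Cfsg.Statements.S5015
import Cfsg.Agent.Lib.Helper83.RankOne

set_option autoImplicit false
open Cfsg

namespace Cfsg.Agent.S5015

open Cfsg.Agent.Lib.Helper83

/-- Let a group Y act doubly transitively on a set Ω with at least three points, and suppose that the stabilizer of a point α contains a nilpotent subgroup A, normalized by that stabilizer, which acts regularly on the points other than α. Then for any y in Y moving α, the subgroups A and y A y⁻¹ are the unipotent subgroups of a rank one group, and the normal closure of A in Y (the subgroup generated by all conjugates of A) is generated by A and y A y⁻¹ alone. -/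
theorem result {Y Ω : Type*} [Group Y] [MulAction Y Ω]
    (h2 : MulAction.IsMultiplyPretransitive Y Ω 2) (hΩ : 3 ≤ ENat.card Ω) (α : Ω) (A : Subgroup Y)
    (hA : A ≤ MulAction.stabilizer Y α) (hAn : ∀ y ∈ MulAction.stabilizer Y α, Cfsg.conjBy A y = A)
    (hnil : Group.IsNilpotent A) (hreg : ∀ β γ : Ω, β ≠ α → γ ≠ α → ∃! a : Y, a ∈ A ∧ a • β = γ)
    (y : Y) (hy : y ∉ MulAction.stabilizer Y α) :
    Cfsg.IsRankOnePair A (Cfsg.conjBy A y) ∧ Subgroup.normalClosure (A : Set Y) = A ⊔ Cfsg.conjBy A y := by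
  set β := y • α with hβ
  have hβα : β ≠ α := fun h => hy (MulAction.mem_stabilizer_iff.mpr h)
  -- Fact 1
  have F1 : ∀ g₁ g₂ : Y, g₁ • α = g₂ • α → Cfsg.conjBy A g₁ = Cfsg.conjBy A g₂ := by
    intro g₁ g₂ h
    rw [conjBy_eq_conjBy_iff]
    apply hAn
    rw [MulAction.mem_stabilizer_iff, mul_smul, h, inv_smul_smul]
  have hAfix : ∀ a ∈ A, a • α = α := fun a ha => MulAction.mem_stabilizer_iff.mp (hA ha)
  have hBfix : ∀ b ∈ Cfsg.conjBy A y, b • β = β := by
    intro b hb
    rw [mem_conjBy] at hb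
    have := hAfix _ hb
    rw [mul_smul, mul_smul, ← hβ, inv_smul_eq_iff] at this
    exact this
  -- Fact 3
  have F3 : ∀ γ δ : Ω, γ ≠ β → δ ≠ β → ∃! b : Y, b ∈ Cfsg.conjBy A y ∧ b • γ = δ := by
    intro γ δ hγ hδ
    obtain ⟨a, ⟨ha, haγ⟩, huniq⟩ := hreg (y⁻¹ • γ) (y⁻¹ • δ)
      (fun h => hγ (by rw [hβ, ← h, smul_inv_smul])) (fun h => hδ (by rw [hβ, ← h, smul_inv_smul]))
    refine ⟨y * a * y⁻¹, ⟨conj_mem_conjBy ha, ?_⟩, ?_⟩
    · rw [mul_smul, mul_smul, haγ, smul_inv_smul]
    · rintro b ⟨hb, hbγ⟩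
      rw [mem_conjBy] at hb
      have := huniq _ ⟨hb, by rw [mul_smul, mul_smul, smul_inv_smul, hbγ]⟩
      rw [← this]; simp [mul_assoc]
  -- a third point
  obtain ⟨γ, hγα, hγβ⟩ : ∃ γ : Ω, γ ≠ α ∧ γ ≠ β := by
    by_contra hcon
    push Not at hcon
    have hsub : (Set.univ : Set Ω) ⊆ {α, β} := by
      intro x _
      by_cases hx : x = α
      · left; exact hx
      · right; exact hcon x hx
    have h1 := Set.encard_le_encard hsub
    rw [Set.encard_univ, Set.encard_pair hβα.symm] at h1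
    have h3 : (3 : ℕ∞) ≤ 2 := le_trans hΩ h1
    exact absurd h3 (by decide)
  have hne : A ≠ Cfsg.conjBy A y := by
    intro h
    obtain ⟨a, ⟨ha, haβ⟩, -⟩ := hreg β γ hβα hγα
    rw [h] at ha
    exact hγβ (by rw [← haβ, hBfix a ha])
  refine ⟨⟨hne, hnil, isNilpotent_conjBy hnil y, ?_, ?_⟩, ?_⟩
  · intro a ha ha1
    have h1 : a⁻¹ • β ≠ β := by
      intro h
      obtain ⟨c, -, huniq⟩ := hreg β β hβα hβα
      have e1 := huniq a⁻¹ ⟨A.inv_mem ha, h⟩
      have e2 := huniq 1 ⟨A.one_mem, one_smul _ _⟩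
      apply ha1
      exact inv_eq_one.mp (e1.trans e2.symm)
    have h2 : a⁻¹ • β ≠ α := by
      intro h
      apply hβα
      rw [inv_smul_eq_iff, hAfix a ha] at h
      exact h
    obtain ⟨b, ⟨hb, hbγ⟩, -⟩ := F3 (a⁻¹ • β) α h1 hβα.symm
    refine ⟨b, hb, ?_, ?_⟩
    · rintro rfl
      rw [one_smul] at hbγ
      exact h2 hbγ
    · rw [conjBy_conjBy]
      apply F1
      rw [inv_smul_eq_iff, mul_smul, hbγ]
  · intro b hb hb1
    have h1 : b⁻¹ • α ≠ α := by
      intro h
      obtain ⟨c, -, huniq⟩ := F3 α α hβα.symm hβα.symm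
      have e1 := huniq b⁻¹ ⟨Subgroup.inv_mem _ hb, h⟩
      have e2 := huniq 1 ⟨Subgroup.one_mem _, one_smul _ _⟩
      apply hb1
      exact inv_eq_one.mp (e1.trans e2.symm)
    have h2 : b⁻¹ • α ≠ β := by
      intro h
      apply hβα
      rw [inv_smul_eq_iff, hBfix b hb] at h
      exact h.symm
    obtain ⟨a, ⟨ha, haγ⟩, -⟩ := hreg (b⁻¹ • α) β h1 hβα
    refine ⟨a, ha, ?_, ?_⟩
    · rintro rfl
      rw [one_smul] at haγ
      exact h2 haγ
    · rw [conjBy_conjBy]
      apply F1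
      rw [mul_smul, inv_smul_eq_iff, haγ]
  · apply le_antisymm
    · unfold Subgroup.normalClosure
      rw [Subgroup.closure_le]
      intro x hx
      rw [Group.mem_conjugatesOfSet_iff] at hx
      obtain ⟨a, ha, hax⟩ := hx
      rw [isConj_iff] at hax
      obtain ⟨g, rfl⟩ := hax
      have hmem : g * a * g⁻¹ ∈ Cfsg.conjBy A g := conj_mem_conjBy ha
      by_cases hg : g • α = α
      · rw [hAn g (MulAction.mem_stabilizer_iff.mpr hg)] at hmem
        exact Subgroup.mem_sup_left hmem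
      · obtain ⟨c, ⟨hc, hcβ⟩, -⟩ := hreg β (g • α) hβα hg
        have : Cfsg.conjBy A g = Cfsg.conjBy A (c * y) := F1 _ _ (by rw [mul_smul, hcβ])
        rw [this, ← conjBy_conjBy] at hmem
        exact conjBy_le_of_le le_sup_right (Subgroup.mem_sup_left hc) hmem
    · refine sup_le Subgroup.le_normalClosure ?_
      intro x hx
      rw [mem_conjBy] at hx
      have := (Subgroup.normalClosure_normal (s := (A : Set Y))).conj_mem _
        (Subgroup.le_normalClosure hx) y
      simpa [mul_assoc] using this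

end Cfsg.Agent.S5015
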