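import Cfsg.Statements.S5017
import Cfsg.Agent.Lib.Helper83.RankOne2

set_option autoImplicit false
open Cfsg

namespace Cfsg.Agent.S5017

open Cfsg.Agent.Lib.Helper83

/-- Let X be a rank one group with unipotent subgroups A and B and N a normal subgroup of X. Then either X = N A or N lies in the centre of X. Consequently a perfect rank one group is quasisimple. -/
theorem result {X : Type*} [Group X] {A B : Subgroup X} (h : Cfsg.IsRankOneGroup X A B) :
    (∀ N : Subgroup X, N.Normal → N ⊔ A = ⊤ ∨ N ≤ Subgroup.center X) ∧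
    (Group.IsPerfect X → Cfsg.IsQuasisimple X) := by
  refine ⟨fun N hN => R1G.dichotomy' h N hN, fun hP => ⟨hP, ?_⟩⟩
  have hnt : Nontrivial (X ⧸ Subgroup.center X) := by
    rw [QuotientGroup.nontrivial_iff]
    exact R1G.not_comm h
  refine { exists_pair_ne := hnt.exists_pair_ne, eq_bot_or_eq_top_of_normal := ?_ }
  intro M hM
  have hN : (M.comap (QuotientGroup.mk' (Subgroup.center X))).Normal := hM.comap _
  have hsurj := QuotientGroup.mk'_surjective (Subgroup.center X)
  rcases R1G.dichotomy' h _ hN with h1 | h1
  · right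
    set N := M.comap (QuotientGroup.mk' (Subgroup.center X)) with hNdef
    -- X ⧸ N is nilpotent and perfect
    have hs : Function.Surjective ((QuotientGroup.mk' N).comp A.subtype) := by
      intro q
      obtain ⟨x, rfl⟩ := QuotientGroup.mk'_surjective N q
      have hx : x ∈ N ⊔ A := by rw [h1]; trivial
      rw [Subgroup.mem_sup_of_normal_left] at hx
      obtain ⟨n, hn, a, ha, rfl⟩ := hx
      refine ⟨⟨a, ha⟩, ?_⟩
      simp only [MonoidHom.comp_apply, Subgroup.subtype_apply, QuotientGroup.mk'_apply]
      rw [QuotientGroup.eq]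
      have : a⁻¹ * (n * a) = a⁻¹ * n * a⁻¹⁻¹ := by simp [mul_assoc]
      rw [this]
      exact hN.conj_mem n hn a⁻¹
    have hnil : Group.IsNilpotent (X ⧸ N) := by
      haveI := h.2.nilpotent_left
      exact Group.nilpotent_of_surjective _ hs
    have hsub : Subsingleton (X ⧸ N) := by
      by_contra hns
      rw [not_subsingleton_iff_nontrivial] at hns
      exact Group.IsPerfect.not_isNilpotent (X ⧸ N) hnil
    have hNtop : N = ⊤ := by
      rwa [QuotientGroup.subsingleton_iff] at hsub
    rw [eq_top_iff]
    intro q _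
    obtain ⟨x, rfl⟩ := hsurj q
    have : x ∈ N := by rw [hNtop]; trivial
    exact this
  · left
    rw [eq_bot_iff]
    intro q hq
    obtain ⟨x, rfl⟩ := hsurj q
    have : x ∈ Subgroup.center X := h1 hq
    rw [Subgroup.mem_bot]
    exact (QuotientGroup.eq_one_iff x).mpr this

end Cfsg.Agent.S5017
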