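import Cfsg.Statements.S5019
import Cfsg.Agent.Lib.Helper83.Quad

set_option autoImplicit false
open Cfsg

namespace Cfsg.Agent.S5019

open Cfsg.Agent.Lib.Helper83

/-- Let X be a rank one group with abelian unipotent subgroups A and B, and suppose X acts on an abelian group N (written additively) in such a way that A acts quadratically, meaning a' • (a • n − n) = a • n − n for all a, a' in A and n in N, while X as a whole does not: y • (x • n − n) ≠ x • n − n for some x, y in X and n in N. Then X is a special rank one group. -/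
theorem result {X : Type*} [Group X] {A B : Subgroup X} (h : Cfsg.IsRankOneGroup X A B)
    (hab : Cfsg.HasAbelianUnipotents A B) {N : Type*} [AddCommGroup N] [DistribMulAction X N]
    (hq : ∀ a ∈ A, ∀ a' ∈ A, ∀ n : N, a' • (a • n - n) = a • n - n)
    (hX : ∃ x y : X, ∃ n : N, y • (x • n - n) ≠ x • n - n) : Cfsg.IsSpecialRankOnePair A B := by
  have hQ : QuadOn N A := quadOn_of A hq
  apply special_of_quad (N := N) h hab.1 hQ
  -- the kernel of the action is central
  let K : Subgroup X := (DistribMulAction.toAddMonoidEnd X N).ker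
  have hKn : K.Normal := MonoidHom.normal_ker _
  have hKmem : ∀ x : X, x ∈ K ↔ TT N x = 1 := fun x => MonoidHom.mem_ker
  rcases R1G.dichotomy h K hKn with h1 | ⟨k, hk, hkB⟩
  · intro x hx
    exact h1 ((hKmem x).mpr hx)
  · exfalso
    have hk1 : TT N k = 1 := (hKmem k).mp hk
    have hk2 : TT N k⁻¹ = 1 := (hKmem k⁻¹).mp (K.inv_mem hk)
    have hall : ∀ x : X, ∃ a ∈ A, TT N x = TT N a := by
      intro x
      have hx : x ∈ A ⊔ B := by rw [h.1]; trivial
      rw [← Subgroup.closure_eq A, ← Subgroup.closure_eq B, ← Subgroup.closure_union] at hx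
      induction hx using Subgroup.closure_induction with
      | mem x hx =>
        rcases hx with hx | hx
        · exact ⟨x, hx, rfl⟩
        · have hx' : x ∈ B := hx
          rw [← hkB, mem_conjBy] at hx'
          refine ⟨_, hx', ?_⟩
          rw [TT_mul, TT_mul, hk1, hk2, one_mul, mul_one]
      | one => exact ⟨1, A.one_mem, rfl⟩
      | mul x y _ _ hx hy =>
        obtain ⟨a, ha, hxa⟩ := hx
        obtain ⟨a', ha', hya⟩ := hy
        exact ⟨a * a', A.mul_mem ha ha', by rw [TT_mul, TT_mul, hxa, hya]⟩
      | inv x _ hx =>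
        obtain ⟨a, ha, hxa⟩ := hx
        refine ⟨a⁻¹, A.inv_mem ha, ?_⟩
        calc TT N x⁻¹ = TT N x⁻¹ * (TT N a * TT N a⁻¹) := by rw [TT_mul_inv, mul_one]
          _ = TT N a⁻¹ := by rw [← hxa, ← mul_assoc, TT_inv_mul, one_mul]
    obtain ⟨x, y, n, hxy⟩ := hX
    obtain ⟨a, ha, hxa⟩ := hall x
    obtain ⟨a', ha', hya⟩ := hall y
    apply hxy
    have e1 : ∀ m : N, x • m = a • m := fun m => by
      rw [← TT_apply, ← TT_apply, hxa]
    have e2 : ∀ m : N, y • m = a' • m := fun m => by
      rw [← TT_apply, ← TT_apply, hya]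
    rw [e1, e2]
    exact hq a ha a' ha' n

end Cfsg.Agent.S5019
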