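import Cfsg.Statements.S5020
import Mathlib
import Cfsg.Agent.Lib.Helper83.Special3
import Cfsg.Agent.Lib.Helper83.RankOne2
import Cfsg.Agent.Lib.Helper83.Simple
import Cfsg.Agent.Lib.Helper62.SL23
import Cfsg.Agent.Lib.Helper5.PermEmbed
import Cfsg.Agent.S0250
import Cfsg.Agent.S0251

set_option autoImplicit false
open Cfsg

namespace Cfsg.Agent.S5020

open Cfsg.Agent.Lib.Helper83
open scoped Pointwise commutatorElement

variable {X : Type*} [Group X]

theorem card_le_of_normal_sup {N C : Subgroup X} (hN : N.Normal) (h : N ⊔ C = ⊤) [Finite N] [Finite C] :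
    Finite X ∧ Nat.card X ≤ Nat.card N * Nat.card C := by
  have hset : (Set.univ : Set X) = (N : Set X) * (C : Set X) := by
    rw [← Subgroup.normal_mul, h]; rfl
  have hfin : (Set.univ : Set X).Finite := by
    rw [hset]
    exact Set.Finite.mul (Set.toFinite _) (Set.toFinite _)
  refine ⟨Set.finite_univ_iff.mp hfin, ?_⟩
  have h1 : Nat.card X = Nat.card (Set.univ : Set X) := (Nat.card_congr (Equiv.Set.univ X)).symm
  rw [h1, hset]
  exact Set.natCard_mul_le

theorem quat_sq {i j k : X} (r4 : j * i = k) (r5 : k * j = i) (r6 : i * k = j) : i * i = j * j := by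
  have hi : j * i * j = i := by rw [r4, r5]
  have hj : i * (j * i) = j := by rw [r4, r6]
  calc i * i = (j * i * j) * i := by rw [hi]
    _ = j * (i * (j * i)) := by group
    _ = j * j := by rw [hj]

theorem quat_inv {i j k : X} (r4 : j * i = k) (r6 : i * k = j) : k⁻¹ * i * k = i⁻¹ := by
  have h : i * k * i = k := by rw [r6, r4]
  calc k⁻¹ * i * k = k⁻¹ * (i * k * i) * i⁻¹ := by group
    _ = i⁻¹ := by rw [h]; group

theorem quat_four {i j k : X} (r4 : j * i = k) (r5 : k * j = i) (r6 : i * k = j) :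
    (i * i) * (i * i) = 1 := by
  have h1 : i * i = j * j := quat_sq r4 r5 r6
  have h2 : j⁻¹ * i * j = i⁻¹ := by
    have h : i * j * i = j := by rw [mul_assoc, r4, r6]
    calc j⁻¹ * i * j = j⁻¹ * (i * j * i) * i⁻¹ := by group
      _ = i⁻¹ := by rw [h]; group
  have h3 : j⁻¹ * (i * i) * j = (i * i)⁻¹ := by
    calc j⁻¹ * (i * i) * j = (j⁻¹ * i * j) * (j⁻¹ * i * j) := by group
      _ = (i * i)⁻¹ := by rw [h2]; group
  have h4 : j⁻¹ * (i * i) * j = i * i := by
    rw [h1]; group
  rw [h4] at h3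
  calc (i * i) * (i * i) = (i * i) * (i * i)⁻¹ := by rw [← h3]
    _ = 1 := by group

section braid
variable {s t : X}

theorem ss (hs : s ^ 3 = 1) : s * s = s⁻¹ := by
  rw [eq_inv_iff_mul_eq_one, ← hs, pow_succ, pow_two]

theorem sisi (hs : s ^ 3 = 1) : s⁻¹ * s⁻¹ = s := by
  have := ss hs
  calc s⁻¹ * s⁻¹ = (s * s)⁻¹ := by group
    _ = s := by rw [this, inv_inv]

theorem r1 (hs : s ^ 3 = 1) : s * (s * t * s) * s⁻¹ = s⁻¹ * t := by
  calc s * (s * t * s) * s⁻¹ = (s * s) * t := by group
    _ = s⁻¹ * t := by rw [ss hs]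

theorem r2 : s * (s⁻¹ * t) * s⁻¹ = t * s⁻¹ := by group

theorem r3 (hs : s ^ 3 = 1) : s * (t * s⁻¹) * s⁻¹ = s * t * s := by
  calc s * (t * s⁻¹) * s⁻¹ = s * t * (s⁻¹ * s⁻¹) := by group
    _ = s * t * s := by rw [sisi hs]

theorem r4 (hs : s ^ 3 = 1) (hb : s * t * s = t * s * t) : (s⁻¹ * t) * (s * t * s) = t * s⁻¹ := by
  calc (s⁻¹ * t) * (s * t * s) = s⁻¹ * (t * s * t) * s := by group
    _ = s⁻¹ * (s * t * s) * s := by rw [hb]
    _ = t * (s * s) := by group
    _ = t * s⁻¹ := by rw [ss hs]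

theorem r5 (hs : s ^ 3 = 1) (hb : s * t * s = t * s * t) : (t * s⁻¹) * (s⁻¹ * t) = s * t * s := by
  calc (t * s⁻¹) * (s⁻¹ * t) = t * (s⁻¹ * s⁻¹) * t := by group
    _ = t * s * t := by rw [sisi hs]
    _ = s * t * s := hb.symm

theorem r6 (hs : s ^ 3 = 1) (hb : s * t * s = t * s * t) : (s * t * s) * (t * s⁻¹) = s⁻¹ * t := by
  calc (s * t * s) * (t * s⁻¹) = s * (t * s * t) * s⁻¹ := by group
    _ = s * (s * t * s) * s⁻¹ := by rw [hb]
    _ = (s * s) * t := by group
    _ = s⁻¹ * t := by rw [ss hs]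

end braid


variable {A B : Subgroup X}

theorem normalCore_eq_bot (h : IsRankOneGroup X A B) : A.normalCore = ⊥ := by
  rw [eq_bot_iff]
  intro x hx
  have hxA : x ∈ A := Subgroup.normalCore_le A hx
  rcases R1G.dichotomy' h A.normalCore inferInstance with h1 | h1
  · exfalso
    have hA : A = ⊤ := by
      rw [eq_top_iff, ← h1]; exact sup_le (Subgroup.normalCore_le A) le_rfl
    obtain ⟨b, hb, hb1⟩ := R1.exists_right h.2
    exact hb1 (R1.eq_one_of_mem_of_mem h.2 (by rw [hA]; trivial) hb)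
  · exact R1G.center_inf h hxA (h1 hx)

theorem toPermHom_injective (h : IsRankOneGroup X A B) :
    Function.Injective (MulAction.toPermHom X (X ⧸ A)) := by
  rw [← MonoidHom.ker_eq_bot_iff, ← Subgroup.normalCore_eq_ker]
  exact normalCore_eq_bot h

theorem card_le_factorial (h : IsRankOneGroup X A B) [Finite X] :
    Nat.card X ≤ (A.index).factorial := by
  have h1 := Nat.card_le_card_of_injective _ (toPermHom_injective h)
  rwa [Nat.card_perm] at h1

theorem gens (h : IsRankOneGroup X A B) (hsp : SP A B) {p : ℕ} [Fact p.Prime] (hc : Nat.card A = p)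
    {a b : X} (hr : Rel A B a b) :
    a ^ p = 1 ∧ b ^ p = 1 ∧ A = Subgroup.zpowers a ∧ Subgroup.closure {a, b} = ⊤ := by
  have ha : a ^ p = 1 := by
    have := pow_card_eq_one' (G := A) (x := ⟨a, hr.1⟩)
    rw [hc] at this
    simpa using congrArg Subtype.val this
  have hA : A = Subgroup.zpowers a := by
    apply le_antisymm
    · intro x hx
      have h1 : (⟨x, hx⟩ : A) ∈ Subgroup.zpowers (⟨a, hr.1⟩ : A) :=
        mem_zpowers_of_prime_card hc (fun h0 => hr.2.2.1 (by simpa using congrArg Subtype.val h0))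
      obtain ⟨k, hk⟩ := h1
      exact ⟨k, by simpa using congrArg Subtype.val hk⟩
    · rw [Subgroup.zpowers_le]; exact hr.1
  refine ⟨ha, hsp.pow_eq_one_right hr ha, hA, ?_⟩
  rw [eq_top_iff, ← h.1]
  refine sup_le ?_ ?_
  · rw [hA, Subgroup.zpowers_le]
    exact Subgroup.subset_closure (by simp)
  · intro x hx
    rw [← hsp.swap_left hr, mem_conjBy, hA] at hx
    obtain ⟨k, hk⟩ := hx
    have hk' : a ^ k = (a * b⁻¹ * a)⁻¹ * x * (a * b⁻¹ * a) := hk
    have hx' : x = (b⁻¹) ^ k := by
      rw [← hsp.n_conj_a hr, conj_zpow, hk']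
      group
    rw [hx']
    exact Subgroup.zpow_mem _ (Subgroup.inv_mem _ (Subgroup.subset_closure (by simp))) _


theorem mem_normalizer_zpowers {c g : X} (h1 : g * c * g⁻¹ ∈ Subgroup.zpowers c)
    (h2 : g⁻¹ * c * g ∈ Subgroup.zpowers c) :
    g ∈ Subgroup.normalizer ((Subgroup.zpowers c : Subgroup X) : Set X) := by
  have key : ∀ g : X, g * c * g⁻¹ ∈ Subgroup.zpowers c → ∀ x ∈ Subgroup.zpowers c,
      g * x * g⁻¹ ∈ Subgroup.zpowers c := by
    intro g hg x hx
    obtain ⟨k, rfl⟩ := hx
    have : g * c ^ k * g⁻¹ = (g * c * g⁻¹) ^ k := by rw [conj_zpow]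
    simp only
    rw [this]
    exact Subgroup.zpow_mem _ hg _
  rw [Subgroup.mem_normalizer_iff]
  intro x
  constructor
  · exact key g h1 x
  · intro hx
    have := key g⁻¹ (by simpa using h2) _ hx
    simpa [mul_assoc] using this

theorem case_two (h : IsRankOneGroup X A B) (hsp : SP A B) (hc : Nat.card A = 2) :
    Nonempty (X ≃* Matrix.SpecialLinearGroup (Fin 2) (ZMod 2)) := by
  obtain ⟨a, ha, ha1⟩ := R1.exists_left h.2
  obtain ⟨b, hr⟩ := exists_rel h.2 ha ha1
  obtain ⟨ha2, hb2, hA, hgen⟩ := gens h hsp hc hr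
  have hai : a⁻¹ = a := by
    rw [inv_eq_iff_mul_eq_one, ← pow_two]; exact ha2
  have hbi : b⁻¹ = b := by
    rw [inv_eq_iff_mul_eq_one, ← pow_two]; exact hb2
  have haa : a * a = 1 := by rw [← pow_two]; exact ha2
  have hbb : b * b = 1 := by rw [← pow_two]; exact hb2
  have hbr : a * b * a = b * a * b := by
    have := hsp.braid hr
    rwa [hbi] at this
  have hc3 : (a * b) ^ 3 = 1 := by
    calc (a * b) ^ 3 = (a * b * a) * (b * a * b) := by rw [pow_succ, pow_two]; group
      _ = (a * b * a) * (a * b * a) := by rw [hbr]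
      _ = a * b * (a * a) * b * a := by group
      _ = a * (b * b) * a := by rw [haa]; group
      _ = 1 := by rw [hbb, mul_one, haa]
  have hinv : (a * b)⁻¹ = b * a := by rw [mul_inv_rev, hai, hbi]
  have hN : (Subgroup.zpowers (a * b)).Normal := by
    rw [← Subgroup.normalizer_eq_top_iff, eq_top_iff, ← hgen, Subgroup.closure_le]
    have hmem : b * a ∈ Subgroup.zpowers (a * b) := by
      rw [← hinv]; exact Subgroup.inv_mem _ (Subgroup.mem_zpowers _)
    rintro x (rfl | rfl)
    · apply mem_normalizer_zpowers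
      · have : x * (x * b) * x⁻¹ = b * x := by rw [hai, ← mul_assoc, haa, one_mul]
        rw [this]; exact hmem
      · have : x⁻¹ * (x * b) * x = b * x := by group
        rw [this]; exact hmem
    · apply mem_normalizer_zpowers
      · have : x * (a * x) * x⁻¹ = x * a := by group
        rw [this]; exact hmem
      · have : x⁻¹ * (a * x) * x = x * a := by rw [hbi, mul_assoc, mul_assoc, hbb, mul_one]
        rw [this]; exact hmem
  have hsup : Subgroup.zpowers (a * b) ⊔ Subgroup.zpowers a = ⊤ := by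
    rw [eq_top_iff, ← hgen, Subgroup.closure_le]
    rintro x (rfl | rfl)
    · exact Subgroup.mem_sup_right (Subgroup.mem_zpowers _)
    · have hx : a⁻¹ * (a * x) ∈ Subgroup.zpowers (a * x) ⊔ Subgroup.zpowers a :=
        Subgroup.mul_mem _ (Subgroup.inv_mem _ (Subgroup.mem_sup_right (Subgroup.mem_zpowers _)))
          (Subgroup.mem_sup_left (Subgroup.mem_zpowers _))
      simpa using hx
  have hf1 : Finite (Subgroup.zpowers (a * b)) :=
    (finite_zpowers.mpr (isOfFinOrder_iff_pow_eq_one.mpr ⟨3, by norm_num, hc3⟩)).to_subtype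
  have hf2 : Finite (Subgroup.zpowers a) :=
    (finite_zpowers.mpr (isOfFinOrder_iff_pow_eq_one.mpr ⟨2, by norm_num, ha2⟩)).to_subtype
  obtain ⟨hfin, hle⟩ := card_le_of_normal_sup hN hsup
  rw [Nat.card_zpowers, Nat.card_zpowers] at hle
  have ho1 : orderOf (a * b) ≤ 3 := orderOf_le_of_pow_eq_one (by norm_num) hc3
  have ho2 : orderOf a ≤ 2 := orderOf_le_of_pow_eq_one (by norm_num) ha2
  have hle6 : Nat.card X ≤ 6 := hle.trans (Nat.mul_le_mul ho1 ho2)
  have hidx : Nat.card A * A.index = Nat.card X := Subgroup.card_mul_index A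
  have hfact := card_le_factorial h
  have hpos : 0 < Nat.card X := Nat.card_pos
  rw [hc] at hidx
  have hm : A.index = 3 := by
    generalize A.index = m at hidx hfact
    have hm3 : m ≤ 3 := by omega
    interval_cases m
    · omega
    · simp at hfact; omega
    · simp [Nat.factorial] at hfact; omega
    · rfl
  have hX : Nat.card X = 6 := by rw [← hidx, hm]
  obtain ⟨e1⟩ := Cfsg.Agent.Lib.Helper5.nonempty_mulEquiv_perm_of_injective _ (toPermHom_injective h) 3
    hm (by rw [hX]; rfl)
  obtain ⟨e2⟩ := Cfsg.Agent.S0250.result (F := ZMod 2) (ZMod.card 2)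
  exact ⟨e1.trans e2.symm⟩


/-- the four-group `{1, i, j, k}` -/
def fourGroup (i j k : X) (hii : i * i = 1) (hjj : j * j = 1) (hkk : k * k = 1) (hij : i * j = k)
    (hji : j * i = k) (hjk : j * k = i) (hkj : k * j = i) (hki : k * i = j) (hik : i * k = j) :
    Subgroup X where
  carrier := {x | x = 1 ∨ x = i ∨ x = j ∨ x = k}
  mul_mem' := by
    intro x y hx hy
    simp only [Set.mem_ofPred_eq] at hx hy ⊢
    rcases hx with hx | hx | hx | hx <;> rcases hy with hy | hy | hy | hy <;> rw [hx, hy] <;>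
      simp [hii, hjj, hkk, hij, hji, hjk, hkj, hki, hik]
  one_mem' := Or.inl rfl
  inv_mem' := by
    intro x hx
    simp only [Set.mem_ofPred_eq] at hx ⊢
    rcases hx with hx | hx | hx | hx
    · left; rw [hx, inv_one]
    · right; left; rw [hx]; exact inv_eq_of_mul_eq_one_left hii
    · right; right; left; rw [hx]; exact inv_eq_of_mul_eq_one_left hjj
    · right; right; right; rw [hx]; exact inv_eq_of_mul_eq_one_left hkk

theorem card_le_twelve {s t i j k : X} (hs : s ^ 3 = 1) (c1 : s * i * s⁻¹ = j) (c2 : s * j * s⁻¹ = k)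
    (c3 : s * k * s⁻¹ = i) (q4 : j * i = k) (q5 : k * j = i) (q6 : i * k = j) (hii : i * i = 1)
    (ht : t = k * s) (hgen : Subgroup.closure {s, t} = ⊤) : Finite X ∧ Nat.card X ≤ 12 := by
  have hjj : j * j = 1 := by rw [← quat_sq q4 q5 q6]; exact hii
  have hkk : k * k = 1 := by rw [← quat_sq q5 q6 q4]; exact hjj
  have ii : i⁻¹ = i := inv_eq_of_mul_eq_one_left hii
  have ji : j⁻¹ = j := inv_eq_of_mul_eq_one_left hjj
  have ki : k⁻¹ = k := inv_eq_of_mul_eq_one_left hkk
  have hij : i * j = k := by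
    calc i * j = (j⁻¹ * i⁻¹)⁻¹ := by group
      _ = k := by rw [ii, ji, q4, ki]
  have hjk : j * k = i := by
    calc j * k = (k⁻¹ * j⁻¹)⁻¹ := by group
      _ = i := by rw [ji, ki, q5, ii]
  have hki : k * i = j := by
    calc k * i = (i⁻¹ * k⁻¹)⁻¹ := by group
      _ = j := by rw [ii, ki, q6, ji]
  set V := fourGroup i j k hii hjj hkk hij q4 hjk q5 hki q6 with hV
  have hmem : ∀ x, x ∈ V ↔ x = 1 ∨ x = i ∨ x = j ∨ x = k := fun x => Iff.rfl
  have d1 : s⁻¹ * j * s = i := by rw [← c1]; group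
  have d2 : s⁻¹ * k * s = j := by rw [← c2]; group
  have d3 : s⁻¹ * i * s = k := by rw [← c3]; group
  have hsN : s ∈ Subgroup.normalizer (V : Set X) := by
    rw [Subgroup.mem_normalizer_iff]
    intro x
    constructor
    · intro hx
      rcases (hmem x).1 hx with hx | hx | hx | hx
      · rw [hx]; simp
      · rw [hx, c1]; exact (hmem _).2 (by simp)
      · rw [hx, c2]; exact (hmem _).2 (by simp)
      · rw [hx, c3]; exact (hmem _).2 (by simp)
    · intro hx
      have e : x = s⁻¹ * (s * x * s⁻¹) * s := by group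
      rw [e]
      rcases (hmem _).1 hx with hx | hx | hx | hx
      · rw [hx]; simp
      · rw [hx, d3]; exact (hmem _).2 (by simp)
      · rw [hx, d1]; exact (hmem _).2 (by simp)
      · rw [hx, d2]; exact (hmem _).2 (by simp)
  have hkV : k ∈ V := (hmem _).2 (by simp)
  have hN : V.Normal := by
    rw [← Subgroup.normalizer_eq_top_iff, eq_top_iff, ← hgen, Subgroup.closure_le]
    rintro x (rfl | hx)
    · exact hsN
    · rw [Set.mem_singleton_iff.mp hx, ht]
      exact Subgroup.mul_mem _ (Subgroup.le_normalizer hkV) hsN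
  have hsup : V ⊔ Subgroup.zpowers s = ⊤ := by
    rw [eq_top_iff, ← hgen, Subgroup.closure_le]
    rintro x (rfl | hx)
    · exact Subgroup.mem_sup_right (Subgroup.mem_zpowers _)
    · rw [Set.mem_singleton_iff.mp hx, ht]
      exact Subgroup.mul_mem _ (Subgroup.mem_sup_left hkV) (Subgroup.mem_sup_right (Subgroup.mem_zpowers _))
  classical
  have hVset : (V : Set X) = (({1, i, j, k} : Finset X) : Set X) := by
    ext x
    simp only [SetLike.mem_coe, hmem, Finset.coe_insert, Finset.coe_singleton, Set.mem_insert_iff,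
      Set.mem_singleton_iff]
  have hf1 : Finite V := by
    have : (V : Set X).Finite := by rw [hVset]; exact Finset.finite_toSet _
    exact this.to_subtype
  have hV4 : Nat.card V ≤ 4 := by
    have : Nat.card V = (V : Set X).ncard := rfl
    rw [this, hVset, Set.ncard_coe_finset]
    exact Finset.card_le_four
  have hf2 : Finite (Subgroup.zpowers s) :=
    (finite_zpowers.mpr (isOfFinOrder_iff_pow_eq_one.mpr ⟨3, by norm_num, hs⟩)).to_subtype
  obtain ⟨hfin, hle⟩ := card_le_of_normal_sup hN hsup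
  rw [Nat.card_zpowers] at hle
  have ho1 : orderOf s ≤ 3 := orderOf_le_of_pow_eq_one (by norm_num) hs
  exact ⟨hfin, hle.trans (Nat.mul_le_mul hV4 ho1)⟩


open Cfsg.Agent.Lib.Helper62 in
theorem case_three (h : IsRankOneGroup X A B) (hsp : SP A B) (hc : Nat.card A = 3) :
    Nonempty (X ≃* Matrix.SpecialLinearGroup (Fin 2) (ZMod 3)) ∨
      Nonempty (X ≃* Matrix.ProjectiveSpecialLinearGroup (Fin 2) (ZMod 3)) := by
  obtain ⟨a, ha, ha1⟩ := R1.exists_left h.2
  obtain ⟨b, hr⟩ := exists_rel h.2 ha ha1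
  have : Fact (Nat.Prime 3) := ⟨Nat.prime_three⟩
  obtain ⟨ha3, hb3, hA, hgen⟩ := gens h hsp hc hr
  have hbr := hsp.braid hr
  obtain ⟨t, ht⟩ : ∃ t, t = b⁻¹ := ⟨_, rfl⟩
  rw [← ht] at hbr
  have q4 := r4 ha3 hbr
  have q5 := r5 ha3 hbr
  have q6 := r6 ha3 hbr
  have hgen' : Subgroup.closure {a, t} = ⊤ := by
    rw [eq_top_iff, ← hgen, Subgroup.closure_le]
    rintro x (rfl | hx)
    · exact Subgroup.subset_closure (by simp)
    · rw [Set.mem_singleton_iff.mp hx]
      have : b = t⁻¹ := by rw [ht, inv_inv]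
      rw [this]
      exact Subgroup.inv_mem _ (Subgroup.subset_closure (by simp))
  by_cases hz : (a * t * a) * (a * t * a) = 1
  · right
    obtain ⟨hfin, hle⟩ := card_le_twelve ha3 (r1 ha3) r2 (r3 ha3) q4 q5 q6 hz
      (by group : t = t * a⁻¹ * a) hgen'
    have hidx : Nat.card A * A.index = Nat.card X := Subgroup.card_mul_index A
    have hfact := card_le_factorial h
    have hpos : 0 < Nat.card X := Nat.card_pos
    rw [hc] at hidx
    have hm : A.index = 4 := by
      generalize A.index = m at hidx hfact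
      have hm3 : m ≤ 4 := by omega
      interval_cases m
      · omega
      · simp at hfact; omega
      · simp [Nat.factorial] at hfact; omega
      · simp [Nat.factorial] at hfact; omega
      · rfl
    have hX : Nat.card X = 12 := by rw [← hidx, hm]
    obtain ⟨e1⟩ := Cfsg.Agent.Lib.Helper5.nonempty_mulEquiv_alternatingGroup_of_injective _
      (toPermHom_injective h) 4 hm (by rw [hX]; rfl)
    obtain ⟨e2⟩ := Cfsg.Agent.S0251.result (F := ZMod 3) (ZMod.card 3)
    exact ⟨e1.trans e2.symm⟩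
  · left
    have e0 : a⁻¹ * (a * t * a) * a⁻¹⁻¹ = t * a⁻¹ := by
      rw [inv_inv, ← r3 ha3]; group
    have hd : SL23Data (a * t * a) a⁻¹ := by
      apply SL23Data.of_rel
      · have : (4 : ℕ) = 2 ^ (1 + 1) := rfl
        rw [this]
        apply orderOf_eq_prime_pow
        · rw [pow_one, pow_two]; exact hz
        · have := quat_four q4 q5 q6
          calc (a * t * a) ^ 2 ^ (1 + 1) = (a * t * a) * (a * t * a) * ((a * t * a) * (a * t * a)) := by
                norm_num [pow_succ, mul_assoc]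
            _ = 1 := this
      · rw [inv_pow, ha3, inv_one]
      · rw [e0, pow_two, pow_two, quat_sq q4 q5 q6, quat_sq q5 q6 q4]
      · rw [e0]; exact quat_inv q4 q6
      · rw [e0, q6]; group
    apply hd.nonempty_equiv_SL23_of_closure
    rw [eq_top_iff, ← hgen', Subgroup.closure_le]
    have h1 : a⁻¹ ∈ Subgroup.closure {a * t * a, a⁻¹} := Subgroup.subset_closure (by simp)
    have h2 : a * t * a ∈ Subgroup.closure {a * t * a, a⁻¹} := Subgroup.subset_closure (by simp)
    rintro x (rfl | hx)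
    · simpa using Subgroup.inv_mem _ h1
    · rw [Set.mem_singleton_iff.mp hx]
      have e : a⁻¹ * (a * t * a) * a⁻¹ = t := by group
      have h3 := Subgroup.mul_mem _ (Subgroup.mul_mem _ h1 h2) h1
      rwa [e] at h3

theorem eq_top_of_sup (hab : IsMulCommutative A) {N : Subgroup X} (hN : N.Normal) (h1 : N ⊔ A = ⊤)
    (hperf : commutator X = ⊤) : N = ⊤ := by
  rw [eq_top_iff, ← hperf, commutator_def, Subgroup.commutator_le]
  have hx : ∀ x : X, ∃ a ∈ A, (QuotientGroup.mk' N) x = (QuotientGroup.mk' N) a := by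
    intro x
    have hx : x ∈ ((N ⊔ A : Subgroup X) : Set X) := by rw [h1]; trivial
    rw [Subgroup.normal_mul] at hx
    obtain ⟨n, hn, a, ha, rfl⟩ := Set.mem_mul.mp hx
    refine ⟨a, ha, ?_⟩
    rw [map_mul]
    have : (QuotientGroup.mk' N) n = 1 := (QuotientGroup.eq_one_iff n).mpr hn
    rw [this, one_mul]
  intro x _ y _
  obtain ⟨a, ha, hxa⟩ := hx x
  obtain ⟨a', ha', hya⟩ := hx y
  have h2 : (QuotientGroup.mk' N) ⁅x, y⁆ = 1 := by
    rw [map_commutatorElement, hxa, hya, ← map_commutatorElement]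
    have : ⁅a, a'⁆ = 1 := by
      rw [commutatorElement_eq_one_iff_mul_comm]
      exact comm_of_isMulCommutative hab ha ha'
    rw [this, map_one]
  exact (QuotientGroup.eq_one_iff _).mp h2

theorem main (h : Cfsg.IsRankOneGroup X A B)
    (hs : Cfsg.IsSpecialRankOnePair A B) (hab : Cfsg.HasAbelianUnipotents A B) :
    (ENat.card A ≤ 3 ∧ (Nonempty (X ≃* Matrix.SpecialLinearGroup (Fin 2) (ZMod 2)) ∨
        Nonempty (X ≃* Matrix.SpecialLinearGroup (Fin 2) (ZMod 3)) ∨
        Nonempty (X ≃* Matrix.ProjectiveSpecialLinearGroup (Fin 2) (ZMod 3)))) ∨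
    (commutator X ⊔ A = ⊤ ∧ Cfsg.IsQuasisimple (commutator X) ∧
      3 < ENat.card ↥(⁅A, Cfsg.rankOneDiagonal A B⁆ : Subgroup X)) := by
  have hsp := SP.of hs hab
  by_cases hcard : 3 < ENat.card A
  · right
    have hperf : commutator X = ⊤ := by
      have := hsp.perfect hcard
      rw [h.1] at this
      exact this
    refine ⟨by rw [hperf]; simp, ?_, ?_⟩
    · apply isQuasisimple_top _ hperf
      apply isQuasisimple_of_normal hperf (R1G.not_comm h)
      intro N hN
      rcases R1G.dichotomy' h N hN with h1 | h1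
      · right; exact eq_top_of_sup hab.1 hN h1 hperf
      · left; exact h1
    · exact lt_of_lt_of_le hcard (ENat.card_le_card_of_injective
        (Subgroup.inclusion_injective (hsp.le_comm_diag' hcard)))
  · left
    push Not at hcard
    refine ⟨hcard, ?_⟩
    have hfin : Finite A := ENat.card_lt_top.mp (lt_of_le_of_lt hcard (by exact ENat.natCast_lt_top 3))
    have h3 : Nat.card A ≤ 3 := by
      rw [ENat.card_eq_coe_natCard] at hcard
      exact_mod_cast hcard
    have h2 : 1 < Nat.card A := (Subgroup.one_lt_card_iff_ne_bot A).mpr (R1.left_ne_bot h.2)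
    have : Nat.card A = 2 ∨ Nat.card A = 3 := by omega
    rcases this with hc | hc
    · left; exact case_two h hsp hc
    · right; exact case_three h hsp hc

/-- Let X be a special rank one group with abelian unipotent subgroups A and B, and H = N(A) ∩ N(B) its diagonal subgroup. Then either A has at most three elements and X is isomorphic to SL₂(2), SL₂(3) or PSL₂(3); or X = X' A with the commutator subgroup X' quasisimple and the commutator subgroup ⁅A, H⁆ having more than three elements. -/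
theorem result {X : Type*} [Group X] {A B : Subgroup X} (h : Cfsg.IsRankOneGroup X A B)
    (hs : Cfsg.IsSpecialRankOnePair A B) (hab : Cfsg.HasAbelianUnipotents A B) :
    (ENat.card A ≤ 3 ∧ (Nonempty (X ≃* Matrix.SpecialLinearGroup (Fin 2) (ZMod 2)) ∨
        Nonempty (X ≃* Matrix.SpecialLinearGroup (Fin 2) (ZMod 3)) ∨
        Nonempty (X ≃* Matrix.ProjectiveSpecialLinearGroup (Fin 2) (ZMod 3)))) ∨
    (commutator X ⊔ A = ⊤ ∧ Cfsg.IsQuasisimple (commutator X) ∧
      3 < ENat.card ↥(⁅A, Cfsg.rankOneDiagonal A B⁆ : Subgroup X)) := by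
  exact main h hs hab

end Cfsg.Agent.S5020
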