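import Cfsg.Statements.S5021
import Cfsg.Agent.Lib.Helper83.Special2

set_option autoImplicit false
open Cfsg

namespace Cfsg.Agent.S5021

open Cfsg.Agent.Lib.Helper83

/-- In a special rank one group with abelian unipotent subgroups A and B, either A is an elementary abelian p-group for some prime p, or A is torsion-free and divisible (every element of A has an n-th root in A for every positive n). -/
theorem result {X : Type*} [Group X] {A B : Subgroup X} (h : Cfsg.IsRankOneGroup X A B)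
    (hs : Cfsg.IsSpecialRankOnePair A B) (hab : Cfsg.HasAbelianUnipotents A B) :
    (∃ p : ℕ, p.Prime ∧ Cfsg.IsElementaryAbelian p A) ∨
    ((∀ a ∈ A, a ≠ 1 → ¬ IsOfFinOrder a) ∧ ∀ a ∈ A, ∀ n : ℕ, 0 < n → ∃ c ∈ A, c ^ n = a) := by
  have hsp : SP A B := SP.of hs hab
  -- torsion spreads
  have main : ∀ (q : ℕ), 1 ≤ q → ∀ z ∈ A, z ≠ 1 → z ^ q = 1 → ∀ x ∈ A, x ^ q = 1 := by
    intro q hq z hz hz1 hzq x hx
    by_contra hxq
    have hx1 : x ≠ 1 := by
      rintro rfl; exact hxq (one_pow q)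
    have hcomm : Commute x z := comm_of_isMulCommutative hab.1 hx hz
    have hxz : (x * z) ^ q = x ^ q := by
      rw [hcomm.mul_pow, hzq, mul_one]
    have hxz1 : x * z ≠ 1 := by
      intro h0
      rw [h0, one_pow] at hxz
      exact hxq hxz.symm
    obtain ⟨w, hw⟩ := exists_rel hsp.pair (A.pow_mem hx q) hxq
    obtain ⟨b, hb⟩ := exists_rel hsp.pair hx hx1
    obtain ⟨b', hb'⟩ := exists_rel hsp.pair (A.mul_mem hx hz) hxz1
    have e1 := SP.pow_rel q hq hsp hb hw
    have e2 := SP.pow_rel q hq hsp hb' (hxz.symm ▸ hw)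
    rw [e1] at e2
    rw [e2] at hb
    have := hb.unique_left hsp.pair hb'
    apply hz1
    have h3 : x * 1 = x * z := by rw [mul_one]; exact this
    exact (mul_left_cancel h3).symm
  by_cases htf : ∀ a ∈ A, a ≠ 1 → ¬ IsOfFinOrder a
  · right
    refine ⟨htf, ?_⟩
    intro a ha n hn
    by_cases ha1 : a = 1
    · exact ⟨1, A.one_mem, by rw [ha1, one_pow]⟩
    obtain ⟨y, hy⟩ := exists_rel hsp.pair ha ha1
    have hyn : y ^ n ≠ 1 := by
      intro h0
      have h1 := hsp.symm.pow_eq_one_right (hy.symm hsp.pair) h0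
      exact htf a ha ha1 (isOfFinOrder_iff_pow_eq_one.mpr ⟨n, hn, h1⟩)
    obtain ⟨c, hc⟩ := exists_rel (R1.symm hsp.pair) (B.pow_mem hy.2.1 n) hyn
    exact ⟨c, hc.2.1, SP.pow_rel n hn hsp.symm (hy.symm hsp.pair) hc⟩
  · left
    push Not at htf
    obtain ⟨a, ha, ha1, hfin⟩ := htf
    have hn0 : orderOf a ≠ 0 := (orderOf_pos_iff.mpr hfin).ne'
    have hn1 : orderOf a ≠ 1 := fun h => ha1 (orderOf_eq_one_iff.mp h)
    have hp : (orderOf a).minFac.Prime := Nat.minFac_prime hn1
    have hord := orderOf_pow_orderOf_div hn0 (Nat.minFac_dvd (orderOf a))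
    refine ⟨(orderOf a).minFac, hp, hab.1, ?_⟩
    refine main _ hp.one_lt.le (a ^ (orderOf a / (orderOf a).minFac)) (A.pow_mem ha _) ?_ ?_
    · intro h1
      rw [h1, orderOf_one] at hord
      exact hp.one_lt.ne hord
    · have := pow_orderOf_eq_one (a ^ (orderOf a / (orderOf a).minFac))
      rwa [hord] at this

end Cfsg.Agent.S5021
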