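import Cfsg.Statements.S5023
import Cfsg.Agent.Lib.Helper83.Quad

set_option autoImplicit false
open Cfsg

namespace Cfsg.Agent.S5023

open Cfsg.Agent.Lib.Helper83

/-- Let X be a rank one group with unipotent subgroups A and B that acts faithfully on an abelian group V (written additively) with A acting quadratically: a' • (a • v − v) = a • v − v for all a, a' in A and v in V. Then A is either torsion-free or an elementary abelian p-group for some prime p. -/
theorem result {X : Type*} [Group X] {A B : Subgroup X} (h : Cfsg.IsRankOneGroup X A B)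
    {V : Type*} [AddCommGroup V] [DistribMulAction X V] (hf : ∀ x : X, (∀ v : V, x • v = v) → x = 1)
    (hq : ∀ a ∈ A, ∀ a' ∈ A, ∀ v : V, a' • (a • v - v) = a • v - v) :
    (∀ a ∈ A, a ≠ 1 → ¬ IsOfFinOrder a) ∨ ∃ p : ℕ, p.Prime ∧ Cfsg.IsElementaryAbelian p A := by
  have hQ : QuadOn V A := quadOn_of A hq
  have hinj : ∀ x : X, TT V x = 1 → x = 1 := by
    intro x hx
    apply hf
    intro v
    rw [← TT_apply, hx]; rfl
  have hinj2 : ∀ x y : X, TT V x = TT V y → x = y := by
    intro x y hxy
    have : x * y⁻¹ = 1 := by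
      apply hinj
      rw [TT_mul, hxy, TT_mul_inv]
    exact mul_inv_eq_one.mp this
  have hAab : IsMulCommutative A := by
    refine ⟨⟨fun x y => ?_⟩⟩
    apply Subtype.ext
    apply hinj2
    show TT V ((x : X) * (y : X)) = TT V ((y : X) * (x : X))
    rw [TT_mul, TT_mul, TT_eq V (x : X), TT_eq V (y : X)]
    have e1 := hQ _ x.2 _ y.2
    have e2 := hQ _ y.2 _ x.2
    have f1 : (1 + tt V (x : X)) * (1 + tt V (y : X)) = 1 + tt V (x : X) + tt V (y : X) + tt V (x : X) * tt V (y : X) := by
      noncomm_ring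
    have f2 : (1 + tt V (y : X)) * (1 + tt V (x : X)) = 1 + tt V (x : X) + tt V (y : X) + tt V (y : X) * tt V (x : X) := by
      noncomm_ring
    rw [f1, f2, e1, e2]
  have hsp : Cfsg.IsSpecialRankOnePair A B :=
    special_of_quad (N := V) h hAab hQ (fun x hx => by rw [hinj x hx]; exact Subgroup.one_mem _)
  have hQB : QuadOn V B := by
    obtain ⟨x, -, hx⟩ := R1.exists_conj h.2
    rw [← hx]; exact hQ.conj x
  -- the fundamental relation
  have hR : ∀ a ∈ A, a ≠ 1 → ∃ b ∈ B, b ≠ 1 ∧ Cfsg.conjBy A b⁻¹ = Cfsg.conjBy B a⁻¹ ∧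
      tt V a + tt V b = tt V b * tt V a * tt V b + tt V a * tt V b * tt V a := by
    intro a ha ha1
    obtain ⟨b, hb, hb1, hab⟩ := h.2.cond_left a ha ha1
    refine ⟨b, hb, hb1, hab, ?_⟩
    have hs := hsp.2 a ha ha1 b hb hb1 hab
    have hαα := hQ a ha a ha
    have hββ := hQB b hb b hb
    have E : tt V (b⁻¹ * a * b) = tt V (a⁻¹ * b⁻¹ * a) := by rw [hs]
    rw [tt_conj', tt_conj', TT_inv_of_sq V a hαα, TT_inv_of_sq V b hββ, TT_eq V a, TT_eq V b] at E
    have hbi : tt V b⁻¹ = - tt V b := by
      have : tt V b⁻¹ = TT V b⁻¹ - 1 := rfl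
      rw [this, TT_inv_of_sq V b hββ]; abel
    rw [hbi] at E
    linear_combination (norm := noncomm_ring) E
  have hpow : ∀ a ∈ A, ∀ n : ℕ, TT V (a ^ n) = 1 + (n : AddMonoid.End V) * tt V a := by
    intro a ha n
    induction n with
    | zero => simp [TT_one]
    | succ n ih =>
      rw [pow_succ, TT_mul, ih, TT_eq V a]
      have hαα := hQ a ha a ha
      have : (1 + (n : AddMonoid.End V) * tt V a) * (1 + tt V a)
          = 1 + ((n : AddMonoid.End V) + 1) * tt V a + (n : AddMonoid.End V) * (tt V a * tt V a) := by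
        noncomm_ring
      rw [this, hαα, mul_zero, add_zero, Nat.cast_succ]
  -- main claim
  have main : ∀ (p : ℕ), ∀ a ∈ A, a ≠ 1 → a ^ p = 1 → ∀ a' ∈ A, a' ^ p = 1 := by
    intro p a ha ha1 hap a' ha'
    have hpα : (p : AddMonoid.End V) * tt V a = 0 := by
      have := hpow a ha p
      rw [hap, TT_one] at this
      exact (add_eq_left.mp this.symm)
    obtain ⟨b, hb, hb1, hab, hRel⟩ := hR a ha ha1
    set α := tt V a with hα
    set β := tt V b with hβ
    set α' := tt V a' with hα'
    set δ := α' * β * α - α' with hδ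
    have hα'α : α' * α = 0 := hQ a ha a' ha'
    have hδβ : δ * β = 0 := by
      have := congrArg (fun t => α' * t) hRel
      simp only [mul_add, ← mul_assoc, hα'α, zero_mul, zero_add, add_zero] at this
      rw [hδ, sub_mul, ← this, sub_self]
    have hδA : ∀ a'' ∈ A, δ * tt V a'' = 0 := by
      intro a'' ha''
      rw [hδ, sub_mul, mul_assoc, hQ a'' ha'' a ha, hQ a'' ha'' a' ha', mul_zero, sub_zero]
    let Y : Subgroup X :=
      { carrier := {x | δ * TT V x = δ}
        one_mem' := by show δ * TT V 1 = δ; rw [TT_one, mul_one]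
        mul_mem' := by
          intro x y hx hy
          show δ * TT V (x * y) = δ
          rw [TT_mul, ← mul_assoc, hx, hy]
        inv_mem' := by
          intro x hx
          show δ * TT V x⁻¹ = δ
          have hx' : δ * TT V x = δ := hx
          calc δ * TT V x⁻¹ = δ * TT V x * TT V x⁻¹ := by rw [hx']
            _ = δ := by rw [mul_assoc, TT_mul_inv, mul_one] }
    have hAY : A ≤ Y := by
      intro x hx
      show δ * TT V x = δ
      rw [TT_eq, mul_add, mul_one, hδA x hx, add_zero]
    have hbY : b ∈ Y := by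
      show δ * TT V b = δ
      rw [TT_eq, mul_add, mul_one, hδβ, add_zero]
    have hBY : B ≤ Y := by
      rw [conjBy_eq_conjBy_iff, inv_inv] at hab
      rw [← hab]
      exact conjBy_le_of_le hAY (Y.mul_mem (hAY ha) (Y.inv_mem hbY))
    have hY : ∀ x : X, δ * tt V x = 0 := by
      intro x
      have hx : x ∈ Y := by
        have : A ⊔ B ≤ Y := sup_le hAY hBY
        rw [h.1] at this
        exact this (Subgroup.mem_top x)
      have hx' : δ * TT V x = δ := hx
      rw [TT_eq, mul_add, mul_one] at hx'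
      exact add_eq_left.mp hx'
    have hγ : tt V (a' ^ p) = - ((p : AddMonoid.End V) * δ) := by
      have e1 : tt V (a' ^ p) = TT V (a' ^ p) - 1 := rfl
      have e2 : (p : AddMonoid.End V) * (α' * β * α) = 0 := by
        rw [← mul_assoc, (Nat.cast_commute p (α' * β)).eq, mul_assoc, hpα, mul_zero]
      rw [e1, hpow a' ha' p, hδ, mul_sub, e2]
      abel
    by_contra hc
    obtain ⟨d, hd, hd1, -, hRel2⟩ := hR (a' ^ p) (A.pow_mem ha' p) hc
    have hγd : tt V (a' ^ p) * tt V d = 0 := by
      rw [hγ, neg_mul, mul_assoc, hY d, mul_zero, neg_zero]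
    have hsum : tt V (a' ^ p) + tt V d = 0 := by
      rw [hRel2, mul_assoc, hγd, mul_zero, zero_mul, add_zero]
    have hcd : a' ^ p * d = 1 := by
      apply hinj
      rw [TT_mul, TT_eq V (a' ^ p), TT_eq V d]
      have : (1 + tt V (a' ^ p)) * (1 + tt V d) = 1 + (tt V (a' ^ p) + tt V d) + tt V (a' ^ p) * tt V d := by
        noncomm_ring
      rw [this, hsum, hγd, add_zero, add_zero]
    apply hc
    apply R1.eq_one_of_mem_of_mem h.2 (A.pow_mem ha' p)
    rw [eq_inv_of_mul_eq_one_left hcd]
    exact B.inv_mem hd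
  by_cases htf : ∀ a ∈ A, a ≠ 1 → ¬ IsOfFinOrder a
  · left; exact htf
  · right
    push Not at htf
    obtain ⟨a, ha, ha1, hfin⟩ := htf
    have hn0 : orderOf a ≠ 0 := (orderOf_pos_iff.mpr hfin).ne'
    have hn1 : orderOf a ≠ 1 := fun h => ha1 (orderOf_eq_one_iff.mp h)
    have hp : (orderOf a).minFac.Prime := Nat.minFac_prime hn1
    have hord := orderOf_pow_orderOf_div hn0 (Nat.minFac_dvd (orderOf a))
    refine ⟨(orderOf a).minFac, hp, hAab, ?_⟩
    refine main _ (a ^ (orderOf a / (orderOf a).minFac)) (A.pow_mem ha _) ?_ ?_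
    · intro h1
      rw [h1, orderOf_one] at hord
      exact hp.one_lt.ne hord
    · have := pow_orderOf_eq_one (a ^ (orderOf a / (orderOf a).minFac))
      rwa [hord] at this

end Cfsg.Agent.S5023
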