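import Cfsg.Statements.S5024
import Cfsg.Agent.Lib.Helper83.Root2

set_option autoImplicit false
open Cfsg

namespace Cfsg.Agent.S5024

open Cfsg.Agent.Lib.Helper83

/-- Let S be a set of abstract root subgroups of G, A and C members of S, B a rank one partner of A in S and D a rank one partner of C in S. If the rank one group ⟨A, B⟩ is contained in ⟨C, D⟩ then the two coincide, and C and D are conjugates of A inside ⟨A, B⟩. -/
theorem result {G : Type*} [Group G] {S : Set (Subgroup G)} (hS : Cfsg.IsRootSubgroupSet S)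
    {A B C D : Subgroup G} (hA : A ∈ S) (hC : C ∈ S) (hB : B ∈ Cfsg.rankOnePartners S A) (hD : D ∈ Cfsg.rankOnePartners S C)
    (hle : A ⊔ B ≤ C ⊔ D) : A ⊔ B = C ⊔ D ∧ C ∈ Cfsg.unipotentSubgroups A B ∧ D ∈ Cfsg.unipotentSubgroups A B := by
  obtain ⟨hBS, hAB⟩ := hB
  obtain ⟨hDS, hCD⟩ := hD
  have hAmem : A ∈ Cfsg.unipotentSubgroups C D := by
    refine mem_unipotentSubgroups_of_le hS hA hC hDS hCD (le_trans le_sup_left hle) ?_
    intro hc
    obtain ⟨a, ha, ha1⟩ := R1.exists_left hAB
    exact ha1 (R1.eq_one_of_commute hAB ha (fun b hb => hc a ha b (hle (Subgroup.mem_sup_right hb))))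
  have hBmem : B ∈ Cfsg.unipotentSubgroups C D := by
    refine mem_unipotentSubgroups_of_le hS hBS hC hDS hCD (le_trans le_sup_right hle) ?_
    intro hc
    obtain ⟨b, hb, hb1⟩ := R1.exists_right hAB
    exact hb1 (R1.eq_one_of_commute (R1.symm hAB) hb
      (fun a ha => hc b hb a (hle (Subgroup.mem_sup_left ha))))
  refine ⟨(R1.pair_of_mem hCD hAmem hBmem hAB.ne).2, ?_, ?_⟩
  · rw [R1.unipotentSubgroups_eq_of_mem hCD hAmem hBmem hAB.ne]
    exact left_mem_unipotentSubgroups C D
  · rw [R1.unipotentSubgroups_eq_of_mem hCD hAmem hBmem hAB.ne]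
    exact R1.right_mem_unipotentSubgroups hCD

end Cfsg.Agent.S5024
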