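import Cfsg.Statements.S5026
import Cfsg.Agent.Lib.Helper83.Root2

set_option autoImplicit false
open Cfsg

namespace Cfsg.Agent.S5026

open Cfsg.Agent.Lib.Helper83

/-- Let S be a degenerate set of abstract root subgroups of G (a set of abstract transvection groups) and let a, b be commuting non-identity elements of members of S with a b ≠ 1. Then the members of S centralizing a b are exactly those centralizing both a and b. -/
theorem result {G : Type*} [Group G] {S : Set (Subgroup G)} (hS : Cfsg.IsRootSubgroupSet S) (hdeg : Cfsg.IsDegenerateRootSet S)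
    {a b : G} (ha : a ∈ Cfsg.rootElements S) (hb : b ∈ Cfsg.rootElements S) (hab : a * b = b * a) (hab1 : a * b ≠ 1) :
    Cfsg.centralizingMembers S (Subgroup.zpowers (a * b)) =
      Cfsg.centralizingMembers S (Subgroup.zpowers a) ∩ Cfsg.centralizingMembers S (Subgroup.zpowers b) := by
  obtain ⟨ha1, A, hA, haA⟩ := ha
  obtain ⟨hb1, B, hB, hbB⟩ := hb
  ext E
  simp only [Cfsg.centralizingMembers, Set.mem_ofPred_eq, Set.mem_inter_iff,
    le_centralizer_zpowers_iff]
  constructor
  · rintro ⟨hE, hc⟩
    refine ⟨⟨hE, ?_⟩, ⟨hE, ?_⟩⟩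
    · exact degenerate_centralizes_left hS hdeg hA hB hE haA hbB hb1 hab hab1 hc
    · exact degenerate_centralizes_left hS hdeg hB hA hE hbB haA ha1 hab.symm (hab ▸ hab1)
        (hab ▸ hc)
  · rintro ⟨⟨hE, h1⟩, ⟨-, h2⟩⟩
    refine ⟨hE, fun e he => ?_⟩
    rw [mul_assoc, h2 e he, ← mul_assoc, h1 e he, mul_assoc]

end Cfsg.Agent.S5026
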