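import Cfsg.Statements.S5027
import Cfsg.Agent.Lib.Helper83.Root

set_option autoImplicit false
open Cfsg

namespace Cfsg.Agent.S5027

open Cfsg.Agent.Lib.Helper83
open scoped commutatorElement

/-- Let S be a set of abstract root subgroups of G such that every member of S has a rank one partner in S (the graph of rank one pairs on S has no isolated vertex). Then the second centre of G equals its centre. -/
theorem result {G : Type*} [Group G] {S : Set (Subgroup G)} (hS : Cfsg.IsRootSubgroupSet S)
    (hF : ∀ A ∈ S, ¬ Cfsg.IsIsolatedIn (Cfsg.FAdj S) S A) : Subgroup.upperCentralSeries G 2 = Subgroup.center G := by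
  apply le_antisymm
  · intro z hz
    rw [Subgroup.mem_upperCentralSeries_succ_iff, Subgroup.upperCentralSeries_one] at hz
    have hcent : ∀ A ∈ S, A ≤ Subgroup.centralizer {z} := by
      intro A hA a ha
      rw [Subgroup.mem_centralizer_singleton_iff]
      by_cases ha1 : a = 1
      · simp [ha1]
      obtain ⟨B, hB, hAB⟩ := exists_partner_of_not_isolated (hF A hA) hA
      have hζ := hz a
      by_contra hne
      have hζ1 : ⁅z, a⁆ ≠ 1 := by
        intro h
        rw [commutatorElement_eq_one_iff_mul_comm] at h
        exact hne h.symm
      refine root_central_translate hS hA hB hAB (z := ⁅z, a⁆) ?_ hζ1 ha ha1 (hS.conj_mem A hA z) ?_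
      · intro y _
        exact (Subgroup.mem_center_iff.mp hζ y).symm
      · have : ⁅z, a⁆ * a = z * a * z⁻¹ := by simp [commutatorElement_def]
        rw [this]
        exact conj_mem_conjBy ha
    have htop : (⊤ : Subgroup G) ≤ Subgroup.centralizer {z} := by
      rw [← hS.generates]
      exact iSup₂_le hcent
    rw [Subgroup.mem_center_iff]
    intro g
    exact Subgroup.mem_centralizer_singleton_iff.mp (htop (Subgroup.mem_top g))
  · rw [← Subgroup.upperCentralSeries_one]
    exact Subgroup.upperCentralSeries_mono G (by norm_num)

end Cfsg.Agent.S5027
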