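import Cfsg.Statements.S5030
import Cfsg.Agent.Lib.Helper83.Chain
import Cfsg.Agent.Lib.Helper83.Root3

set_option autoImplicit false
open Cfsg

namespace Cfsg.Agent.S5030

open Cfsg.Agent.Lib.Helper83

/-- Let S be a set of abstract root subgroups of G and A, B, C ∈ S with ⁅A, B⁆ ∈ S and ⁅B, C⁆ ∈ S, where A and C are different and commute. For a non-identity b ∈ B put X = ⟨A, b⁻¹ C b⟩ and Y = ⟨b⁻¹ A b, C⟩ and R = ⟨A, B, C⟩. Then X and Y are either both abelian or both nilpotent of class exactly two; X and Y commute elementwise; XY is normal in R with R = (XY) B; and R is nilpotent. -/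
theorem result {G : Type*} [Group G] {S : Set (Subgroup G)} (hS : Cfsg.IsRootSubgroupSet S)
    {A B C : Subgroup G} (hA : A ∈ S) (hB : B ∈ S) (hC : C ∈ S) (hAB : ⁅A, B⁆ ∈ S) (hBC : ⁅B, C⁆ ∈ S)
    (hAC : C ∈ Cfsg.commutingPartners S A)
    {b : G} (hb : b ∈ B) (hb1 : b ≠ 1) :
    ((IsMulCommutative ↥(A ⊔ Cfsg.conjBy C b⁻¹) ∧ IsMulCommutative ↥(Cfsg.conjBy A b⁻¹ ⊔ C)) ∨
      ((¬ IsMulCommutative ↥(A ⊔ Cfsg.conjBy C b⁻¹) ∧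
          ⁅⁅A ⊔ Cfsg.conjBy C b⁻¹, A ⊔ Cfsg.conjBy C b⁻¹⁆, A ⊔ Cfsg.conjBy C b⁻¹⁆ = ⊥) ∧
        (¬ IsMulCommutative ↥(Cfsg.conjBy A b⁻¹ ⊔ C) ∧
          ⁅⁅Cfsg.conjBy A b⁻¹ ⊔ C, Cfsg.conjBy A b⁻¹ ⊔ C⁆, Cfsg.conjBy A b⁻¹ ⊔ C⁆ = ⊥))) ∧
    ⁅A ⊔ Cfsg.conjBy C b⁻¹, Cfsg.conjBy A b⁻¹ ⊔ C⁆ = ⊥ ∧
    (∀ r ∈ A ⊔ B ⊔ C, Cfsg.conjBy ((A ⊔ Cfsg.conjBy C b⁻¹) ⊔ (Cfsg.conjBy A b⁻¹ ⊔ C)) r =
      (A ⊔ Cfsg.conjBy C b⁻¹) ⊔ (Cfsg.conjBy A b⁻¹ ⊔ C)) ∧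
    ((A ⊔ Cfsg.conjBy C b⁻¹) ⊔ (Cfsg.conjBy A b⁻¹ ⊔ C)) ⊔ B = A ⊔ B ⊔ C ∧
    Group.IsNilpotent ↥(A ⊔ B ⊔ C) := by
  have h : Chain S A B C := ⟨hS, hA, hB, hC, commutatorCase_of_mem hS hA hB hAB,
    CC.symm (commutatorCase_of_mem hS hB hC hBC), Cm.of_commutator_eq_bot hAC.2.2⟩
  have hβ : b⁻¹ ∈ B := B.inv_mem hb
  have hβ1 : b⁻¹ ≠ 1 := inv_ne_one.mpr hb1
  have hXX : ⁅A ⊔ conjBy C b⁻¹, A ⊔ conjBy C b⁻¹⁆ ≤ ⁅A, conjBy C b⁻¹⁆ :=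
    comm_sup_self h.AA (h.symm.AA.conj _)
  have hYY : ⁅conjBy A b⁻¹ ⊔ C, conjBy A b⁻¹ ⊔ C⁆ ≤ ⁅conjBy A b⁻¹, C⁆ :=
    comm_sup_self (h.AA.conj _) h.symm.AA
  have hX : IsMulCommutative ↥(A ⊔ conjBy C b⁻¹) ↔ ⁅A, ⁅C, B⁆⁆ = ⊥ := by
    rw [← Subgroup.commutator_self_eq_bot_iff, ← h.K_bot_iff hβ hβ1]
    constructor
    · intro h1; rw [eq_bot_iff, ← h1]; exact Subgroup.commutator_mono le_sup_left le_sup_right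
    · intro h1; rw [eq_bot_iff, ← h1]; exact hXX
  have hY : IsMulCommutative ↥(conjBy A b⁻¹ ⊔ C) ↔ ⁅A, ⁅C, B⁆⁆ = ⊥ := by
    rw [← Subgroup.commutator_self_eq_bot_iff, ← h.K_bot_iff' hβ hβ1]
    constructor
    · intro h1; rw [eq_bot_iff, ← h1]; exact Subgroup.commutator_mono le_sup_left le_sup_right
    · intro h1; rw [eq_bot_iff, ← h1]; exact hYY
  have hX3 : ⁅⁅A ⊔ conjBy C b⁻¹, A ⊔ conjBy C b⁻¹⁆, A ⊔ conjBy C b⁻¹⁆ = ⊥ := by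
    rw [eq_bot_iff, ← (h.K_central hβ).commutator_eq_bot]
    exact Subgroup.commutator_mono hXX le_rfl
  have hKY : Cm ⁅conjBy A b⁻¹, C⁆ (conjBy A b⁻¹ ⊔ C) := by
    have := h.symm.K_central hβ
    rwa [Subgroup.commutator_comm, sup_comm] at this
  have hY3 : ⁅⁅conjBy A b⁻¹ ⊔ C, conjBy A b⁻¹ ⊔ C⁆, conjBy A b⁻¹ ⊔ C⁆ = ⊥ := by
    rw [eq_bot_iff, ← hKY.commutator_eq_bot]
    exact Subgroup.commutator_mono hYY le_rfl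
  refine ⟨?_, (h.XY hβ).commutator_eq_bot, ?_, ?_, h.nilpotent⟩
  · by_cases h1 : ⁅A, ⁅C, B⁆⁆ = ⊥
    · left; exact ⟨hX.mpr h1, hY.mpr h1⟩
    · right; exact ⟨⟨fun h2 => h1 (hX.mp h2), hX3⟩, ⟨fun h2 => h1 (hY.mp h2), hY3⟩⟩
  · rw [h.M_eq hβ hβ1]; exact h.R_nz
  · rw [h.M_eq hβ hβ1]; exact h.MB_eq

end Cfsg.Agent.S5030
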