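import Cfsg.Statements.S5032
import Cfsg.Agent.Lib.Helper83.Graph2

set_option autoImplicit false
open Cfsg

namespace Cfsg.Agent.S5032

open Cfsg.Agent.Lib.Helper83

/-- Let S be a set of abstract root subgroups of G with more than one member. Then the graph of rank one pairs on S is connected if and only if S is a single conjugacy class of G and some member of S has a rank one partner in S. -/
theorem result {G : Type*} [Group G] {S : Set (Subgroup G)} (hS : Cfsg.IsRootSubgroupSet S) (h2 : ∃ A ∈ S, ∃ B ∈ S, A ≠ B) :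
    Cfsg.IsConnectedFamily (Cfsg.FAdj S) S ↔
      (Cfsg.IsConjClassOfSubgroups S ∧ ∃ A ∈ S, ¬ Cfsg.IsIsolatedIn (Cfsg.FAdj S) S A) := by
  constructor
  · intro hconn
    obtain ⟨A, hA, B, hB, hAB⟩ := h2
    refine ⟨⟨⟨A, hA⟩, fun A hA B hB => exists_conj_of_path (hconn A hA B hB)⟩, A, hA, ?_⟩
    obtain ⟨E, hE⟩ := exists_adj_of_comp (S := S) (A := A) ⟨B, ⟨hB, hconn A hA B hB⟩, Ne.symm hAB⟩
    exact not_isolated_of_partner hA hE.2.1 hE.2.2
  · rintro ⟨⟨-, hconj⟩, A₀, hA₀, hni₀⟩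
    obtain ⟨E₀, hE₀, hAE₀⟩ := exists_partner_of_not_isolated hni₀ hA₀
    have hni : ∀ D ∈ S, ∃ E, FAdj S D E := by
      intro D hD
      obtain ⟨g, rfl⟩ := hconj A₀ hA₀ D hD
      exact ⟨conjBy E₀ g, hD, hS.conj_mem E₀ hE₀ g, R1.conj hAE₀ g⟩
    intro A hA B hB
    obtain ⟨g, rfl⟩ := hconj A hA B hB
    exact path_conj hS hni g A hA

end Cfsg.Agent.S5032
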