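import Cfsg.Statements.S5033
import Cfsg.Agent.Lib.Helper83.Simple

set_option autoImplicit false
open Cfsg

namespace Cfsg.Agent.S5033

open Cfsg.Agent.Lib.Helper83

/-- Quasisimplicity criterion for groups generated by abstract root subgroups. Let S be a set of abstract root subgroups of G with more than one member such that: the graph of rank one pairs on S is connected; no two different members of S have the same set of commuting members of S; if S is degenerate then every member of S has more than three elements; and every rank one pair in S is special. Then for every A ∈ S one has G = G' A with A ∩ G' ≠ 1, and the commutator subgroup G' is quasisimple. Moreover G is perfect if S is non-degenerate, or if some rank one pair A, B in S generates a perfect group. -/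
theorem result {G : Type*} [Group G] {S : Set (Subgroup G)} (hS : Cfsg.IsRootSubgroupSet S) (h2 : ∃ A ∈ S, ∃ B ∈ S, A ≠ B)
    (h1 : Cfsg.IsConnectedFamily (Cfsg.FAdj S) S)
    (h2' : ∀ A ∈ S, ∀ C ∈ S, A ≠ C → Cfsg.centralizingMembers S A ≠ Cfsg.centralizingMembers S C)
    (h3 : Cfsg.IsDegenerateRootSet S → ∀ A ∈ S, 3 < ENat.card A)
    (h4 : ∀ A ∈ S, ∀ B ∈ Cfsg.rankOnePartners S A, Cfsg.IsSpecialRankOnePair A B) :
    (∀ A ∈ S, commutator G ⊔ A = ⊤ ∧ A ⊓ commutator G ≠ ⊥) ∧ Cfsg.IsQuasisimple ↥(commutator G) ∧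
    (Cfsg.IsNondegenerateRootSet S → commutator G = ⊤) ∧
    ((∃ A ∈ S, ∃ B ∈ Cfsg.rankOnePartners S A, Group.IsPerfect ↥(A ⊔ B)) → commutator G = ⊤) := by
  have hconj : ∀ A ∈ S, ∀ B ∈ S, ∃ g : G, B = conjBy A g :=
    fun A hA B hB => exists_conj_of_path (h1 A hA B hB)
  have hni : ∀ D ∈ S, ∃ E, FAdj S D E := by
    intro D hD
    obtain ⟨A₁, hA₁, A₂, hA₂, hne⟩ := h2
    by_cases h : A₁ = D
    · exact exists_adj_of_comp ⟨A₂, ⟨hA₂, h1 D hD A₂ hA₂⟩, fun e => hne (h.trans e.symm)⟩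
    · exact exists_adj_of_comp ⟨A₁, ⟨hA₁, h1 D hD A₁ hA₁⟩, h⟩
  have hP : ∀ A ∈ S, ∀ B ∈ S, IsRankOnePair A B →
      ⁅A ⊔ B, A ⊔ B⁆ = A ⊔ B ∨ ∃ C, ⁅A, C⁆ = ⊥ ∧ ⁅B, C⁆ ∈ S := by
    intro A hA B hB hAB
    by_cases hdeg : Cfsg.IsDegenerateRootSet S
    · left
      exact (SP.of (h4 A hA B ⟨hB, hAB⟩) ⟨hS.commutative A hA, hS.commutative B hB⟩).perfect
        (h3 hdeg A hA)
    · right
      unfold Cfsg.IsDegenerateRootSet at hdeg
      push Not at hdeg
      obtain ⟨P₀, hP₀, Q₀, hQ₀, c₀⟩ := hdeg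
      obtain ⟨g, hg⟩ := hconj _ c₀.1 A hA
      have hP : conjBy P₀ g ∈ S := hS.conj_mem P₀ hP₀ g
      have hQ : conjBy Q₀ g ∈ S := hS.conj_mem Q₀ hQ₀ g
      have hPQ : ⁅conjBy P₀ g, conjBy Q₀ g⁆ = A := by rw [← conjBy_commutator, ← hg]
      have cPQ := commutatorCase_of_mem hS hP hQ (by rw [hPQ]; exact hA)
      obtain ⟨E, hE⟩ := hni _ hP
      obtain ⟨C, hCL, -, hBC⟩ := exists_line_comm hS hA hB hAB hP hQ hE.2.1 hE.2.2 cPQ hPQ
      exact ⟨C, hCL.1.2.2, hBC⟩
  obtain ⟨A₀, hA₀, -⟩ := h2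
  obtain ⟨E₀, hE₀⟩ := hni A₀ hA₀
  have hperf : commutator G = ⊤ := by
    apply commutator_eq_top_of (B := E₀) hS hconj hA₀
    rcases hP A₀ hA₀ E₀ hE₀.2.1 hE₀.2.2 with h | ⟨C, -, hC⟩
    · exact Or.inl h
    · exact Or.inr ⟨C, hC⟩
  have hne : Subgroup.center G ≠ ⊤ := by
    intro hc
    obtain ⟨a, ha, ha1⟩ := R1.exists_left hE₀.2.2
    apply ha1
    apply R1.eq_one_of_commute hE₀.2.2 ha
    intro b _
    have : a ∈ Subgroup.center G := by rw [hc]; trivial
    exact (Subgroup.mem_center_iff.mp this b).symm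
  refine ⟨?_, ?_, fun _ => hperf, fun _ => hperf⟩
  · intro A hA
    rw [hperf]
    exact ⟨top_sup_eq A, by rw [inf_top_eq]; exact hS.ne_bot A hA⟩
  · exact isQuasisimple_top (isQuasisimple_of_normal hperf hne
      (fun N hN => normal_dichotomy hS hni hconj h2' hP hN)) hperf

end Cfsg.Agent.S5033
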