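import Cfsg.Statements.S5034
import Cfsg.Agent.Lib.Helper83.Nondeg

set_option autoImplicit false
open Cfsg

namespace Cfsg.Agent.S5034

open Cfsg.Agent.Lib.Helper83

/-- Let S be a non-degenerate class of abstract root subgroups of G, A ∈ S and B a rank one partner of A. Then some line partner C of A has ⁅B, C⁆ ∈ S, and the rank one pair A, B is special. -/
theorem result {G : Type*} [Group G] {S : Set (Subgroup G)} (hS : Cfsg.IsRootSubgroupClass S) (hnd : Cfsg.IsNondegenerateRootSet S)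
    {A B : Subgroup G} (hA : A ∈ S) (hB : B ∈ Cfsg.rankOnePartners S A) :
    (∃ C ∈ Cfsg.linePartners S A, C ∈ Cfsg.commutatorPartners S B) ∧ Cfsg.IsSpecialRankOnePair A B := by
  obtain ⟨hS', -, hconj⟩ := hS
  obtain ⟨-, -, P₀, hP₀, Q₀, hQ₀, c₀⟩ := hnd
  obtain ⟨g, hg⟩ := hconj _ c₀.1 A hA
  have hP : conjBy P₀ g ∈ S := hS'.conj_mem P₀ hP₀ g
  have hQ : conjBy Q₀ g ∈ S := hS'.conj_mem Q₀ hQ₀ g
  have hPQ : ⁅conjBy P₀ g, conjBy Q₀ g⁆ = A := by rw [← conjBy_commutator, ← hg]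
  have cPQ := commutatorCase_of_mem hS' hP hQ (by rw [hPQ]; exact hA)
  obtain ⟨g', hg'⟩ := hconj A hA _ hP
  have hPE : IsRankOnePair (conjBy P₀ g) (conjBy B g') := by
    rw [hg']; exact R1.conj hB.2 g'
  have first := exists_line_comm hS' hA hB.1 hB.2 hP hQ (hS'.conj_mem B hB.1 g') hPE cPQ hPQ
  refine ⟨first, ?_⟩
  obtain ⟨C, hCL, hCS, hBC⟩ := first
  have hCB : ⁅C, B⁆ ∈ S := by rw [Subgroup.commutator_comm]; exact hBC
  exact (exists_natMod hS' hA hB.1 hB.2 hCS (Cm.of_commutator_eq_bot hCL.1.2.2) hCB).symm.special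

end Cfsg.Agent.S5034
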