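import Cfsg.Statements.S5035


set_option autoImplicit false
open Cfsg

namespace Cfsg.Agent.S5035

/-- Let S be a set of abstract root subgroups of G whose graph of rank one pairs is connected, and f a homomorphism from G onto a group H. Then either the images of the members of S form a set of abstract root subgroups of H whose graph of rank one pairs is again connected, or H equals the image of a member of S. -/
theorem result {G H : Type*} [Group G] [Group H] {S : Set (Subgroup G)} (hS : Cfsg.IsRootSubgroupSet S)
    (hc : Cfsg.IsConnectedFamily (Cfsg.FAdj S) S) (f : G →* H) (hf : Function.Surjective f) :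
    (Cfsg.IsRootSubgroupSet ((fun A : Subgroup G => A.map f) '' S) ∧
      Cfsg.IsConnectedFamily (Cfsg.FAdj ((fun A : Subgroup G => A.map f) '' S)) ((fun A : Subgroup G => A.map f) '' S)) ∨
    ∃ A ∈ S, A.map f = ⊤ := by
  classical
  have hconj : ∀ (A : Subgroup G) (g : G), (Cfsg.conjBy A g).map f = Cfsg.conjBy (A.map f) (f g) := by
    intro A g
    ext y
    simp only [Subgroup.mem_map, MulEquiv.coe_toMonoidHom, MulAut.conj_apply, exists_exists_and_eq_and,
      map_mul, map_inv]
  have hself : ∀ (A : Subgroup H) (g : H), g ∈ A → Cfsg.conjBy A g = A := by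
    intro A g hg
    ext y
    simp only [Subgroup.mem_map, MulEquiv.coe_toMonoidHom, MulAut.conj_apply]
    constructor
    · rintro ⟨x, hx, rfl⟩
      exact A.mul_mem (A.mul_mem hg hx) (A.inv_mem hg)
    · intro hy
      exact ⟨g⁻¹ * y * g, A.mul_mem (A.mul_mem (A.inv_mem hg) hy) hg, by simp [mul_assoc]⟩
  have hconjinj : ∀ (A B : Subgroup H) (g : H), Cfsg.conjBy A g = Cfsg.conjBy B g → A = B := by
    intro A B g h
    exact Subgroup.map_injective (MulAut.conj g).injective h
  have hconj1 : ∀ (A : Subgroup H), Cfsg.conjBy A 1 = A := fun A => hself A 1 A.one_mem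
  -- images of a rank one pair
  have hpair : ∀ A ∈ S, ∀ B ∈ S, Cfsg.IsRankOnePair A B → A.map f ≠ B.map f →
      Cfsg.IsRankOnePair (A.map f) (B.map f) := by
    have hcond : ∀ A B : Subgroup G, Cfsg.RankOneCondition A B → A.map f ≠ B.map f →
        Cfsg.RankOneCondition (A.map f) (B.map f) := by
      intro A B h hne a' ha' ha'1
      obtain ⟨a, ha, rfl⟩ := ha'
      have ha1 : a ≠ 1 := by rintro rfl; exact ha'1 (map_one f)
      obtain ⟨b, hb, hb1, hab⟩ := h a ha ha1
      have hab' := congrArg (Subgroup.map f) hab
      rw [hconj, hconj, map_inv, map_inv] at hab'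
      refine ⟨f b, ⟨b, hb, rfl⟩, ?_, hab'⟩
      intro hfb
      rw [hfb, inv_one, hconj1] at hab'
      apply hne
      have h2 : Cfsg.conjBy (A.map f) (f a)⁻¹ = A.map f :=
        hself _ _ ((A.map f).inv_mem ⟨a, ha, rfl⟩)
      exact hconjinj _ _ (f a)⁻¹ (h2.trans hab')
    intro A hA B hB h hne
    have hcA := hS.commutative A hA
    have hcB := hS.commutative B hB
    refine ⟨hne, ?_, ?_, hcond A B h.cond_left hne, hcond B A h.cond_right hne.symm⟩
    · have := h.nilpotent_left
      exact Group.nilpotent_of_surjective (f.subgroupMap A) (f.subgroupMap_surjective A)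
    · have := h.nilpotent_right
      exact Group.nilpotent_of_surjective (f.subgroupMap B) (f.subgroupMap_surjective B)
  by_cases hbot : ∃ A ∈ S, A.map f = ⊥
  · right
    obtain ⟨A, hA, hAbot⟩ := hbot
    have hstep : ∀ B C : Subgroup G, Cfsg.FAdj S B C → B.map f = ⊥ → C.map f = ⊥ := by
      rintro B C ⟨hB, hC, hBC⟩ hBbot
      obtain ⟨⟨c, hc⟩, hc1'⟩ := Subgroup.ne_bot_iff_exists_ne_one.1 (hS.ne_bot C hC)
      have hc1 : c ≠ 1 := fun h => hc1' (Subtype.ext h)
      obtain ⟨b, hb, hb1, hcb⟩ := hBC.cond_right c hc hc1
      have h' := congrArg (Subgroup.map f) hcb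
      rw [hconj, hconj, hBbot] at h'
      have h3 : Cfsg.conjBy (⊥ : Subgroup H) (f c⁻¹) = ⊥ := Subgroup.map_bot _
      rw [h3] at h'
      exact (Subgroup.map_eq_bot_iff_of_injective _ (MulAut.conj (f b⁻¹)).injective).1 h'
    have hall : ∀ B ∈ S, B.map f = ⊥ := by
      intro B hB
      have hpath := hc A hA B hB
      induction hpath with
      | refl => exact hAbot
      | tail _ hbc ih => exact hstep _ _ hbc (ih hbc.1)
    refine ⟨A, hA, ?_⟩
    rw [hAbot]
    have h1 : (⨆ A ∈ S, A).map f = ⊤ := by
      rw [hS.generates, ← MonoidHom.range_eq_map, MonoidHom.range_eq_top]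
      exact hf
    rw [← h1, Subgroup.map_iSup]
    symm
    rw [iSup_eq_bot]
    intro B
    rw [Subgroup.map_iSup, iSup_eq_bot]
    intro hB
    exact hall B hB
  · left
    push Not at hbot
    constructor
    · refine ⟨?_, ?_, ?_, ?_, ?_⟩
      · rintro _ ⟨A, hA, rfl⟩
        have := hS.commutative A hA
        exact Subgroup.map_isMulCommutative A f
      · rintro _ ⟨A, hA, rfl⟩
        exact hbot A hA
      · rw [iSup_image]
        have h1 : (⨆ A ∈ S, A).map f = ⊤ := by
          rw [hS.generates, ← MonoidHom.range_eq_map, MonoidHom.range_eq_top]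
          exact hf
        rw [← h1, Subgroup.map_iSup]
        congr 1
        ext B
        rw [Subgroup.map_iSup]
      · rintro _ ⟨A, hA, rfl⟩ g'
        obtain ⟨g, rfl⟩ := hf g'
        exact ⟨Cfsg.conjBy A g, hS.conj_mem A hA g, hconj A g⟩
      · rintro _ ⟨A, hA, rfl⟩ _ ⟨B, hB, rfl⟩
        show ⁅A.map f, B.map f⁆ = ⊥ ∨ _
        rcases hS.pair A hA B hB with h | h | h
        · left
          rw [← Subgroup.map_commutator, h, Subgroup.map_bot]
        · by_cases hne : A.map f = B.map f
          · left
            rw [← hne]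
            have := hS.commutative A hA
            have hcm : IsMulCommutative (A.map f) := Subgroup.map_isMulCommutative A f
            rw [Subgroup.commutator_eq_bot_iff_le_centralizer]
            intro x hx
            rw [Subgroup.mem_centralizer_iff]
            intro y hy
            exact setLike_mul_comm hy hx
          · right; left
            exact hpair A hA B hB h hne
        · right; right
          obtain ⟨h1, h2, h3, h4⟩ := h
          refine ⟨?_, ?_, ?_, ?_⟩
          · exact ⟨⁅A, B⁆, h1, Subgroup.map_commutator A B f⟩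
          · rw [← Subgroup.map_commutator, ← Subgroup.map_sup]
            rintro _ ⟨c, hc, rfl⟩ _ ⟨x, hx, rfl⟩
            rw [← map_mul, ← map_mul, h2 c hc x hx]
          · rintro _ ⟨a, ha, rfl⟩ ha1
            have ha1' : a ≠ 1 := by rintro rfl; exact ha1 (map_one f)
            rw [← Subgroup.map_commutator, ← h3 a ha ha1', MonoidHom.map_closure]
            congr 1
            ext y
            simp only [Set.mem_image, SetLike.mem_coe, Subgroup.mem_map, exists_exists_and_eq_and,
              map_mul, map_inv]
          · rintro _ ⟨b, hb, rfl⟩ hb1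
            have hb1' : b ≠ 1 := by rintro rfl; exact hb1 (map_one f)
            rw [← Subgroup.map_commutator, ← h4 b hb hb1', MonoidHom.map_closure]
            congr 1
            ext y
            simp only [Set.mem_image, SetLike.mem_coe, Subgroup.mem_map, exists_exists_and_eq_and,
              map_mul, map_inv]
    · rintro _ ⟨A, hA, rfl⟩ _ ⟨B, hB, rfl⟩
      have hpath := hc A hA B hB
      show Relation.ReflTransGen _ (A.map f) (B.map f)
      induction hpath with
      | refl => exact Relation.ReflTransGen.refl
      | @tail C D _ hbc ih =>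
        by_cases hne : C.map f = D.map f
        · rw [← hne]; exact ih hbc.1
        · exact (ih hbc.1).tail ⟨⟨C, hbc.1, rfl⟩, ⟨D, hbc.2.1, rfl⟩, hpair C hbc.1 D hbc.2.1 hbc.2.2 hne⟩

end Cfsg.Agent.S5035
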