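import Cfsg.Statements.S5040
import Cfsg.Agent.Lib.Helper83.ND2

set_option autoImplicit false
open Cfsg

namespace Cfsg.Agent.S5040

open Cfsg.Agent.Lib.Helper83

/-- Let S be a non-degenerate class of abstract root subgroups of G and Δ a weak TI-subset of S. Then the members of Δ commute with one another elementwise. -/
theorem result {G : Type*} [Group G] {S : Set (Subgroup G)} (hS : Cfsg.IsRootSubgroupClass S) (hnd : Cfsg.IsNondegenerateRootSet S)
    {Δ : Set (Subgroup G)} (hΔ : Cfsg.IsWeakTISubset S Δ) : Cfsg.IsAbelianFamily Δ := by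
  have h := ND.of hS hnd
  obtain ⟨hΔS, -, hΔne, hTI⟩ := hΔ
  let St : Subgroup G :=
    { carrier := {g | ∀ D, conjBy D g ∈ Δ ↔ D ∈ Δ}
      one_mem' := by
        intro D
        rw [conjBy_one]
      mul_mem' := by
        intro g k hg hk D
        rw [← conjBy_conjBy, hg, hk]
      inv_mem' := by
        intro g hg D
        rw [← hg (conjBy D g⁻¹), conjBy_conjBy, mul_inv_cancel, conjBy_one] }
  have hSt : ∀ D ∈ S, (∃ A' ∈ Δ, Cm D A') → D ≤ St := by
    rintro D hD ⟨A', hA', hcm⟩ d hd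
    by_cases hd1 : d = 1
    · rw [hd1]; exact St.one_mem
    have hfix : conjBy A' d = A' := conjBy_eq_self_of_commute (hcm d hd)
    rcases hTI d ⟨hd1, D, hD, hd⟩ with h1 | h1
    · intro D'
      constructor
      · intro h2
        rw [← h1] at h2
        obtain ⟨D'', hD'', e⟩ := h2
        rw [← conjBy_inj.mp e]; exact hD''
      · intro h2
        rw [← h1]
        exact ⟨D', h2, rfl⟩
    · exact absurd hA' (Set.disjoint_left.mp h1 ⟨A', hA', hfix⟩)
  have hfin : ∀ A ∈ Δ, ∀ E ∈ S, IsRankOnePair A E → E ≤ St → False := by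
    intro A hA E hE hAE hESt
    have htop : St = ⊤ := by
      rw [eq_top_iff, ← h.generated (hΔS hA) hE hAE]
      refine sup_le (iSup₂_le fun C hC => ?_) hESt
      exact hSt C hC.1.1 ⟨A, hA, (Cm.of_commutator_eq_bot hC.1.2.2).symm⟩
    apply hΔne
    apply Set.Subset.antisymm hΔS
    intro D hD
    obtain ⟨g, rfl⟩ := h.hconj A (hΔS hA) D hD
    have hg : g ∈ St := by rw [htop]; trivial
    exact (hg A).mpr hA
  intro A hA B hB
  by_contra hcon
  have hAS := hΔS hA
  have hBS := hΔS hB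
  rcases h.hS.pair A hAS B hBS with h1 | h1 | h1
  · exact hcon (Cm.of_commutator_eq_bot h1)
  · exact hfin A hA B hBS h1 (hSt B hBS ⟨B, hB, Cm.of_comm (h.hS.commutative B hBS)⟩)
  · obtain ⟨E₁, -, hE₁, hr₁⟩ := h.hni B hBS
    have c' := CC.symm h1
    have hBL := left_mem_linePartners h.hS hBS hE₁ hr₁ c'
    obtain ⟨E, hE, eE⟩ := exists_comm_eq h.hS h.hni c'.1 hBL
    have hnm : NatMod S B A ⁅B, A⁆ E :=
      ⟨h.hS, hBS, hAS, c'.1, hE, c', commutatorCase_of_mem h.hS c'.1 hE (by rw [eE]; exact hBS),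
        rfl, eE⟩
    exact hfin A hA E hE hnm.r1 (hSt E hE ⟨B, hB, hnm.DA⟩)

end Cfsg.Agent.S5040
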