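import Cfsg.Statements.S5043
import Cfsg.Agent.Lib.Helper57.RootSLd

set_option autoImplicit false
open Matrix
open Cfsg

namespace Cfsg.Agent.S5043

/-- Let k be a field and n a natural number. In SL_{n+3}(k) (so in every dimension at least 3) the conjugates of the root subgroup of elementary transvections 1 + c E₁₂ (c ∈ k) — that is, the groups of transvections attached to an incident point–hyperplane pair — form a non-degenerate class of abstract k-root subgroups of SL_{n+3}(k) whose graph of rank one pairs is connected. -/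
theorem result (k : Type*) [Field k] (n : ℕ) :
    Cfsg.IsRootSubgroupClass {A : Subgroup (Matrix.SpecialLinearGroup (Fin (n + 3)) k) |
        ∃ g : Matrix.SpecialLinearGroup (Fin (n + 3)) k,
          A = Cfsg.conjBy (Subgroup.closure {t : Matrix.SpecialLinearGroup (Fin (n + 3)) k |
            ∃ c : k, (t : Matrix (Fin (n + 3)) (Fin (n + 3)) k) = Matrix.transvection 0 1 c}) g} ∧
    Cfsg.IsNondegenerateRootSet {A : Subgroup (Matrix.SpecialLinearGroup (Fin (n + 3)) k) |
        ∃ g : Matrix.SpecialLinearGroup (Fin (n + 3)) k,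
          A = Cfsg.conjBy (Subgroup.closure {t : Matrix.SpecialLinearGroup (Fin (n + 3)) k |
            ∃ c : k, (t : Matrix (Fin (n + 3)) (Fin (n + 3)) k) = Matrix.transvection 0 1 c}) g} ∧
    Cfsg.IsKRootSubgroupSet k {A : Subgroup (Matrix.SpecialLinearGroup (Fin (n + 3)) k) |
        ∃ g : Matrix.SpecialLinearGroup (Fin (n + 3)) k,
          A = Cfsg.conjBy (Subgroup.closure {t : Matrix.SpecialLinearGroup (Fin (n + 3)) k |
            ∃ c : k, (t : Matrix (Fin (n + 3)) (Fin (n + 3)) k) = Matrix.transvection 0 1 c}) g} ∧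
    Cfsg.IsConnectedFamily (Cfsg.FAdj {A : Subgroup (Matrix.SpecialLinearGroup (Fin (n + 3)) k) |
        ∃ g : Matrix.SpecialLinearGroup (Fin (n + 3)) k,
          A = Cfsg.conjBy (Subgroup.closure {t : Matrix.SpecialLinearGroup (Fin (n + 3)) k |
            ∃ c : k, (t : Matrix (Fin (n + 3)) (Fin (n + 3)) k) = Matrix.transvection 0 1 c}) g})
      {A : Subgroup (Matrix.SpecialLinearGroup (Fin (n + 3)) k) |
        ∃ g : Matrix.SpecialLinearGroup (Fin (n + 3)) k,
          A = Cfsg.conjBy (Subgroup.closure {t : Matrix.SpecialLinearGroup (Fin (n + 3)) k |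
            ∃ c : k, (t : Matrix (Fin (n + 3)) (Fin (n + 3)) k) = Matrix.transvection 0 1 c}) g} := by
  have h3 : 2 < Fintype.card (Fin (n + 3)) := by simp
  have h01 : (0 : Fin (n + 3)) ≠ 1 := by
    intro h
    have := congrArg Fin.val h
    simp at this
  have h02 : (0 : Fin (n + 3)) ≠ 2 := by
    intro h
    have := congrArg Fin.val h
    rw [Fin.val_zero, Fin.val_two] at this
    omega
  have h12 : (1 : Fin (n + 3)) ≠ 2 := by
    intro h
    have := congrArg Fin.val h
    rw [Fin.val_one, Fin.val_two] at this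
    omega
  rw [Cfsg.Agent.Lib.Helper57.RootSL.Sig_eq (K := k) h3 h01]
  exact ⟨⟨Cfsg.Agent.Lib.Helper57.RootSL.isRootSubgroupSet_Sig h3,
    Cfsg.Agent.Lib.Helper57.RootSL.isConjClass_Sig h3⟩,
    Cfsg.Agent.Lib.Helper57.RootSL.nondeg_Sig h01 h02 h12,
    Cfsg.Agent.Lib.Helper57.RootSL.isKRoot_Sig h3,
    Cfsg.Agent.Lib.Helper57.RootSL.connected_Sig⟩

end Cfsg.Agent.S5043
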