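import Cfsg.Statements.S5045
import Cfsg.Agent.Lib.Helper89.RootInv
import Cfsg.Agent.Lib.Helper4.SylowConj
import Cfsg.Agent.S0199
import Cfsg.Agent.Lib.Helper1.Cores

set_option autoImplicit false
open Cfsg

namespace Cfsg.Agent.S5045

open Cfsg.Agent.Lib.Helper89.RootInv

variable {G : Type*} [Group G] {D : Set G}

/-- the set of isolated vertices -/
abbrev Iso (D : Set G) : Set G := {w | Cfsg.IsIsolatedElem (Cfsg.OddAdj D) D w}

theorem iso_conj (hD : Cfsg.IsRootInvolutionSet D) {w : G} (hw : w ∈ Iso D) (g : G) :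
    g * w * g⁻¹ ∈ Iso D := by
  refine ⟨hD.conj_mem w hw.1 g, fun b => ⟨fun h => ?_, fun h => ?_⟩⟩
  · have := oddAdj_conj hD g⁻¹ h
    have h1 : g⁻¹ * (g * w * g⁻¹) * g⁻¹⁻¹ = w := by group
    rw [h1] at this
    exact (hw.2 _).1 this
  · have := oddAdj_conj hD g⁻¹ h
    have h1 : g⁻¹ * (g * w * g⁻¹) * g⁻¹⁻¹ = w := by group
    rw [h1] at this
    exact (hw.2 _).2 this

theorem closure_normal_of_conj {S : Set G}
    (h : ∀ x ∈ S, ∀ g : G, g * x * g⁻¹ ∈ S) : (Subgroup.closure S).Normal := by
  refine ⟨fun x hx g => ?_⟩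
  induction hx using Subgroup.closure_induction with
  | mem x hx => exact Subgroup.subset_closure (h x hx g)
  | one => simp
  | mul x y _ _ h₁ h₂ =>
    have : g * (x * y) * g⁻¹ = (g * x * g⁻¹) * (g * y * g⁻¹) := by group
    rw [this]; exact mul_mem h₁ h₂
  | inv x _ h₁ =>
    have : g * x⁻¹ * g⁻¹ = (g * x * g⁻¹)⁻¹ := by group
    rw [this]; exact inv_mem h₁

theorem iso_pair [Finite G] (hD : Cfsg.IsRootInvolutionSet D) {w v : G} (hw : w ∈ Iso D)
    (hv : v ∈ D) : IsPGroup 2 (Subgroup.closure ({w, v} : Set G)) := by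
  have h1 : ∃ k : ℕ, orderOf (w * v) = 2 ^ k := by
    rcases hD.pair w hw.1 v hv with h | h | ⟨h, -⟩
    · have h2 : (w * v) ^ 2 = 1 := by
        rw [pow_two]
        calc w * v * (w * v) = w * (v * w) * v := by group
          _ = w * (w * v) * v := by rw [h]
          _ = (w * w) * (v * v) := by group
          _ = 1 := by rw [sq hD hw.1, sq hD hv, one_mul]
      rcases (Nat.dvd_prime Nat.prime_two).1 (orderOf_dvd_of_pow_eq_one h2) with h3 | h3
      · exact ⟨0, by rw [h3, pow_zero]⟩
      · exact ⟨1, by rw [h3, pow_one]⟩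
    · by_cases hwv : w = v
      · refine ⟨0, ?_⟩
        rw [hwv, sq hD hv, orderOf_one, pow_zero]
      · exact absurd ⟨hw.1, hv, hwv, h⟩ (hw.2 v).1
    · exact ⟨2, by rw [h]; norm_num⟩
  obtain ⟨k, hk⟩ := h1
  exact Cfsg.Agent.Lib.Helper4.isPGroup_closure_pair (hD.orderOf_eq w hw.1) (hD.orderOf_eq v hv) hk

theorem exists_normal_two [Finite G] (hD : Cfsg.IsRootInvolutionSet D) :
    ∃ N : Subgroup G, N.Normal ∧ IsPGroup 2 N ∧ Iso D ⊆ N := by
  have : Fact (Nat.Prime 2) := ⟨Nat.prime_two⟩
  have key : ∀ w ∈ Iso D, ∃ N : Subgroup G, N.Normal ∧ IsPGroup 2 N ∧ w ∈ N := by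
    intro w hw
    have hX : IsPGroup 2 (Subgroup.zpowers w) := by
      apply IsPGroup.of_card (n := 1)
      rw [Nat.card_zpowers, hD.orderOf_eq w hw.1, pow_one]
    obtain ⟨N, hN, hN2, hle⟩ := Cfsg.Agent.S0199.result (Subgroup.zpowers w) hX (by
      intro g
      refine (iso_pair hD hw (hD.conj_mem w hw.1 g)).to_le ?_
      refine sup_le ?_ ?_
      · rw [Subgroup.zpowers_le]
        exact Subgroup.subset_closure (by simp)
      · rw [MonoidHom.map_zpowers, Subgroup.zpowers_le]
        exact Subgroup.subset_closure (by simp))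
    exact ⟨N, hN, hN2, hle (Subgroup.mem_zpowers w)⟩
  refine ⟨sSup {N : Subgroup G | N.Normal ∧ IsPGroup 2 N}, ?_, ?_, ?_⟩
  · exact Cfsg.Agent.Lib.Helper1.pCore_normal 2
  · exact Cfsg.Agent.Lib.Helper1.pCore_isPGroup 2
  · intro w hw
    obtain ⟨N, hN, hN2, hwN⟩ := key w hw
    exact (le_sSup (show N ∈ {N : Subgroup G | N.Normal ∧ IsPGroup 2 N} from ⟨hN, hN2⟩)) hwN

/-- a member of `D` lying in a normal 2-subgroup is isolated -/
theorem iso_of_mem_normal_two (hD : Cfsg.IsRootInvolutionSet D) {N : Subgroup G} (hN : N.Normal)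
    (hN2 : IsPGroup 2 N) {d : G} (hd : d ∈ D) (hdN : d ∈ N) : d ∈ Iso D := by
  have key : ∀ b, ¬ Cfsg.OddAdj D d b := by
    rintro b ⟨-, hb, hne, ho⟩
    have h1 : (d * b) ^ 2 ∈ N := by
      have : (d * b) ^ 2 = d * (b * d * b⁻¹) := by
        rw [pow_two, inv hD hb]; group
      rw [this]
      exact mul_mem hdN (hN.conj_mem d hdN b)
    obtain ⟨k, hk⟩ := hN2 ⟨_, h1⟩
    have hk' : ((d * b) ^ 2) ^ (2 ^ k) = 1 := by
      have := congrArg Subtype.val hk
      simpa using this
    rw [← pow_mul] at hk'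
    have h2 := orderOf_dvd_of_pow_eq_one hk'
    have h3 : Nat.Coprime (orderOf (d * b)) (2 * 2 ^ k) := by
      rw [← pow_succ']
      exact Nat.Coprime.pow_right _ (Nat.coprime_two_right.2 ho)
    have h4 : orderOf (d * b) = 1 := Nat.Coprime.eq_one_of_dvd h3 h2
    rw [orderOf_eq_one_iff] at h4
    apply hne
    rw [eq_inv_of_mul_eq_one_left h4, inv hD hb]
  exact ⟨hd, fun b => ⟨key b, fun h => key b (oddAdj_symm hD h)⟩⟩

theorem rtg_symm (hD : Cfsg.IsRootInvolutionSet D) {a b : G}
    (h : Relation.ReflTransGen (Cfsg.OddAdj D) a b) : Relation.ReflTransGen (Cfsg.OddAdj D) b a := by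
  induction h with
  | refl => exact Relation.ReflTransGen.refl
  | tail _ h2 ih => exact Relation.ReflTransGen.head (oddAdj_symm hD h2) ih

theorem comp_eq (hD : Cfsg.IsRootInvolutionSet D) {a b : G}
    (h : Relation.ReflTransGen (Cfsg.OddAdj D) a b) :
    Cfsg.elemComponentOf (Cfsg.OddAdj D) D a = Cfsg.elemComponentOf (Cfsg.OddAdj D) D b := by
  ext x
  exact ⟨fun hx => ⟨hx.1, (rtg_symm hD h).trans hx.2⟩, fun hx => ⟨hx.1, h.trans hx.2⟩⟩

theorem exists_adj {a : G} (h : ∃ a' ∈ Cfsg.elemComponentOf (Cfsg.OddAdj D) D a, a' ≠ a) :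
    ∃ g, Cfsg.OddAdj D a g := by
  obtain ⟨a', ha', hne⟩ := h
  rcases Relation.ReflTransGen.cases_head ha'.2 with h | ⟨g, hg, -⟩
  · exact absurd h.symm hne
  · exact ⟨g, hg⟩

theorem partners_subset (hD : Cfsg.IsRootInvolutionSet D) {a : G} (ha : a ∈ D)
    (h : ∃ a' ∈ Cfsg.elemComponentOf (Cfsg.OddAdj D) D a, a' ≠ a) :
    Cfsg.productPartners D a ⊆ Cfsg.elemComponentOf (Cfsg.OddAdj D) D a ∪ Iso D := by
  rintro e ⟨⟨he, hea, hne⟩, heaD⟩
  by_cases hW : e ∈ Iso D
  · exact Or.inr hW
  · left
    refine ⟨he, ?_⟩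
    obtain ⟨g, hg⟩ := exists_adj h
    have hf : ∃ f, Cfsg.OddAdj D f e := by
      by_contra hcon
      push Not at hcon
      exact hW ⟨he, fun b => ⟨fun hb => hcon b (oddAdj_symm hD hb), hcon b⟩⟩
    obtain ⟨f, hf⟩ := hf
    have haeD : a * e ∈ D := by rw [← hea]; exact heaD
    rcases oddAdj_or_oddAdj hD ha hea.symm haeD hf with h1 | h1
    · exact (Relation.ReflTransGen.single (oddAdj_symm hD h1)).tail hf
    · rcases oddAdj_or_oddAdj hD he hea heaD (oddAdj_symm hD hg) with h2 | h2
      · exact (Relation.ReflTransGen.single hg).tail h2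
      · rw [hea] at h2
        exact (((Relation.ReflTransGen.single hg).tail h2).tail (oddAdj_symm hD h1)).tail hf

/-- Let G be a finite group generated by a set D of root involutions, and W the set of members of D whose product with every other member of D has even order or is trivial (the isolated vertices of the odd-order-product graph on D). Then W is conjugation-invariant and generates a normal 2-subgroup of G meeting D in exactly W; the commutator of two members of D lying in different connected components of that graph, each with more than one member, lies in the subgroup generated by W; and for a in such a component, every member of D commuting with a, different from a and with product with a in D, lies in that component or in W. -/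
theorem result {G : Type*} [Group G] [Finite G] {D : Set G} (hD : Cfsg.IsRootInvolutionSet D) :
    (∀ w ∈ {w | Cfsg.IsIsolatedElem (Cfsg.OddAdj D) D w}, ∀ g : G, g * w * g⁻¹ ∈ {w | Cfsg.IsIsolatedElem (Cfsg.OddAdj D) D w}) ∧
    (Subgroup.closure {w | Cfsg.IsIsolatedElem (Cfsg.OddAdj D) D w}).Normal ∧
    IsPGroup 2 ↥(Subgroup.closure {w | Cfsg.IsIsolatedElem (Cfsg.OddAdj D) D w}) ∧
    (Subgroup.closure {w | Cfsg.IsIsolatedElem (Cfsg.OddAdj D) D w} : Set G) ∩ D = {w | Cfsg.IsIsolatedElem (Cfsg.OddAdj D) D w} ∧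
    (∀ a ∈ D, ∀ b ∈ D, (∃ a' ∈ Cfsg.elemComponentOf (Cfsg.OddAdj D) D a, a' ≠ a) →
      (∃ b' ∈ Cfsg.elemComponentOf (Cfsg.OddAdj D) D b, b' ≠ b) →
      Cfsg.elemComponentOf (Cfsg.OddAdj D) D a ≠ Cfsg.elemComponentOf (Cfsg.OddAdj D) D b →
        a * b * a⁻¹ * b⁻¹ ∈ Subgroup.closure {w | Cfsg.IsIsolatedElem (Cfsg.OddAdj D) D w}) ∧
    (∀ a ∈ D, (∃ a' ∈ Cfsg.elemComponentOf (Cfsg.OddAdj D) D a, a' ≠ a) →
      Cfsg.productPartners D a ⊆ Cfsg.elemComponentOf (Cfsg.OddAdj D) D a ∪ {w | Cfsg.IsIsolatedElem (Cfsg.OddAdj D) D w}) := by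
  obtain ⟨N, hN, hN2, hWN⟩ := exists_normal_two hD
  have hle : Subgroup.closure (Iso D) ≤ N := (Subgroup.closure_le N).2 hWN
  refine ⟨fun w hw g => iso_conj hD hw g, closure_normal_of_conj (fun w hw g => iso_conj hD hw g),
    hN2.to_le hle, ?_, ?_, fun a ha h => partners_subset hD ha h⟩
  · ext d
    constructor
    · rintro ⟨h1, h2⟩
      exact iso_of_mem_normal_two hD hN hN2 h2 (hle h1)
    · intro hd
      exact ⟨Subgroup.subset_closure hd, hd.1⟩
  · intro a ha b hb hca hcb hne
    have ha2 := sq hD ha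
    have hb2 := sq hD hb
    rw [inv hD ha, inv hD hb]
    rcases hD.pair a ha b hb with h | h | ⟨h, hz⟩
    · have : a * b * a * b = 1 := by
        calc a * b * a * b = a * (b * a) * b := by group
          _ = a * (a * b) * b := by rw [h]
          _ = (a * a) * (b * b) := by group
          _ = 1 := by rw [ha2, hb2, one_mul]
      rw [this]; exact one_mem _
    · exfalso
      apply hne
      by_cases hab : a = b
      · rw [hab]
      · exact comp_eq hD (Relation.ReflTransGen.single ⟨ha, hb, hab, h⟩)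
    · have hzeq : (a * b) ^ 2 = a * b * a * b := by rw [pow_two]; group
      rw [hzeq] at hz
      set z := a * b * a * b with hzdef
      have hz2 := sq hD hz
      -- `z` is inverted, hence centralized, by `a` and `b`
      have hzinv : b * a * b * a = z := by
        have h1 : z⁻¹ = b * a * b * a := by
          rw [hzdef]; simp only [mul_inv_rev, inv hD ha, inv hD hb, mul_assoc]
        rw [← h1, inv hD hz]
      have hza : z * a = a * z := by
        calc z * a = (b * a * b * a) * a := by rw [hzinv]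
          _ = b * a * b * (a * a) := by group
          _ = (a * a) * b * a * b := by rw [ha2]; group
          _ = a * z := by rw [hzdef]; group
      have hzb : z * b = b * z := by
        calc z * b = a * b * a * (b * b) := by rw [hzdef]; group
          _ = (b * b) * a * b * a := by rw [hb2]; group
          _ = b * (b * a * b * a) := by group
          _ = b * z := by rw [hzinv]
      have hzaD : z * a ∈ D := by
        have : z * a = (a * b) * a * (a * b)⁻¹ := by
          rw [hzdef, mul_inv_rev, inv hD ha, inv hD hb]; group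
        rw [this]; exact hD.conj_mem a ha _
      have hzbD : z * b ∈ D := by
        have : z * b = a * b * a⁻¹ := by
          rw [hzdef, inv hD ha]
          calc a * b * a * b * b = a * b * a * (b * b) := by group
            _ = a * b * a := by rw [hb2, mul_one]
        rw [this]; exact hD.conj_mem b hb _
      have hzna : z ≠ a := by
        intro h1
        have h2 : z * a = 1 := by rw [h1, ha2]
        rw [h2] at hzaD
        exact ne_one hD hzaD rfl
      have hznb : z ≠ b := by
        intro h1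
        have h2 : z * b = 1 := by rw [h1, hb2]
        rw [h2] at hzbD
        exact ne_one hD hzbD rfl
      have h1 := partners_subset hD ha hca ⟨⟨hz, hza, hzna⟩, hzaD⟩
      have h2 := partners_subset hD hb hcb ⟨⟨hz, hzb, hznb⟩, hzbD⟩
      rcases h1 with h1 | h1
      · rcases h2 with h2 | h2
        · exact absurd ((comp_eq hD h1.2).trans (comp_eq hD h2.2).symm) hne
        · exact Subgroup.subset_closure h2
      · exact Subgroup.subset_closure h1

end Cfsg.Agent.S5045
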