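import Cfsg.Statements.S5048
import Cfsg.Agent.Lib.Helper89.RootInv
import Cfsg.Agent.Lib.Helper89.RelBS
import Cfsg.Agent.Lib.Helper4.SylowConj

set_option autoImplicit false
open Cfsg

namespace Cfsg.Agent.S5048

open Cfsg.Agent.Lib.Helper89.RootInv Cfsg.Agent.Lib.Helper89

variable {G : Type*} [Group G] {D : Set G}

/-- involutions whose product has odd order are conjugate -/
theorem exists_conj_of_odd {a b : G} (ha : a * a = 1) (hb : b * b = 1)
    (ho : Odd (orderOf (a * b))) : ∃ g : G, g * a * g⁻¹ = b := by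
  obtain ⟨k, hk⟩ := ho
  refine ⟨(a * b) ^ k, ?_⟩
  have hai : a⁻¹ = a := inv_eq_of_mul_eq_one_left ha
  have hbi : b⁻¹ = b := inv_eq_of_mul_eq_one_left hb
  have h1 : a * (a * b)⁻¹ * a⁻¹ = a * b := by
    rw [mul_inv_rev, hai, hbi]
    calc a * (b * a) * a = a * b * (a * a) := by group
      _ = a * b := by rw [ha, mul_one]
  have h2 : a * ((a * b) ^ k)⁻¹ * a⁻¹ = (a * b) ^ k := by
    rw [← inv_pow, ← conj_pow, h1]
  have h3 : (a * b) ^ (2 * k + 1) = 1 := by rw [← hk, pow_orderOf_eq_one]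
  calc (a * b) ^ k * a * ((a * b) ^ k)⁻¹
      = (a * b) ^ k * (a * ((a * b) ^ k)⁻¹ * a⁻¹) * a := by group
    _ = (a * b) ^ k * (a * b) ^ k * a := by rw [h2]
    _ = (a * b) ^ (2 * k + 1) * (a * b)⁻¹ * a := by
        rw [pow_succ, two_mul, pow_add]; group
    _ = b := by
        rw [h3, one_mul, mul_inv_rev, hai, hbi, mul_assoc, ha, mul_one]

theorem rtg_conj (hD : Cfsg.IsRootInvolutionSet D) {a b : G}
    (h : Relation.ReflTransGen (Cfsg.OddAdj D) a b) : ∃ g : G, g * a * g⁻¹ = b := by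
  induction h with
  | refl => exact ⟨1, by simp⟩
  | tail _ h2 ih =>
    obtain ⟨g, rfl⟩ := ih
    obtain ⟨k, hk⟩ := exists_conj_of_odd (sq hD h2.1) (sq hD h2.2.1) h2.2.2.2
    exact ⟨k * g, by rw [← hk]; group⟩

theorem eq_top_of_mem (hD : Cfsg.IsRootInvolutionSet D)
    (hc : Cfsg.IsConnectedSet (Cfsg.OddAdj D) D) {N : Subgroup G} (hN : N.Normal) {d : G}
    (hd : d ∈ D) (hdN : d ∈ N) : N = ⊤ := by
  rw [eq_top_iff, ← hD.generates, Subgroup.closure_le]
  intro b hb
  obtain ⟨g, rfl⟩ := rtg_conj hD (hc d hd b hb)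
  exact hN.conj_mem d hdN g

/-- an element of odd order lies in every subgroup containing its square -/
theorem mem_of_sq_mem {N : Subgroup G} {u : G} (ho : Odd (orderOf u)) (h : u ^ 2 ∈ N) : u ∈ N := by
  obtain ⟨k, hk⟩ := ho
  have h1 : (u ^ 2) ^ (k + 1) = u := by
    rw [← pow_mul]
    have : 2 * (k + 1) = orderOf u + 1 := by omega
    rw [this, pow_succ, pow_orderOf_eq_one, one_mul]
  rw [← h1]
  exact pow_mem h _

theorem exists_partner (hD : Cfsg.IsRootInvolutionSet D)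
    (hc : Cfsg.IsConnectedSet (Cfsg.OddAdj D) D) (hDD : (D ∩ Cfsg.commutingProducts D).Nonempty)
    {d : G} (hd : d ∈ D) : ∃ a ∈ D, a * d = d * a ∧ a * d ∈ D := by
  obtain ⟨x, hx, a₀, ha₀, b₀, hb₀, hab, -, rfl⟩ := hDD
  obtain ⟨g, rfl⟩ := rtg_conj hD (hc b₀ hb₀ d hd)
  refine ⟨g * a₀ * g⁻¹, hD.conj_mem a₀ ha₀ g, ?_, ?_⟩
  · calc g * a₀ * g⁻¹ * (g * b₀ * g⁻¹) = g * (a₀ * b₀) * g⁻¹ := by group
      _ = g * (b₀ * a₀) * g⁻¹ := by rw [hab]
      _ = g * b₀ * g⁻¹ * (g * a₀ * g⁻¹) := by group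
  · have : g * a₀ * g⁻¹ * (g * b₀ * g⁻¹) = g * (a₀ * b₀) * g⁻¹ := by group
    rw [this]; exact hD.conj_mem _ hx g

/-- a proper normal subgroup lies in `O_{2,Z}(G)` -/
theorem le_twoZCore [Finite G] (hD : Cfsg.IsRootInvolutionSet D)
    (hc : Cfsg.IsConnectedSet (Cfsg.OddAdj D) D) (hDD : (D ∩ Cfsg.commutingProducts D).Nonempty)
    {N : Subgroup G} (hN : N.Normal) (hne : N ≠ ⊤) : N ≤ Cfsg.twoZCore G := by
  have hDN : ∀ d ∈ D, d ∉ N := fun d hd hdN => hne (eq_top_of_mem hD hc hN hd hdN)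
  have h1 : ∀ d ∈ D, ∀ n ∈ N, ¬ Cfsg.OddAdj D (n * d * n⁻¹) d := by
    intro d hd n hn hadj
    obtain ⟨a, ha, had, hadD⟩ := exists_partner hD hc hDD hd
    have hd2 := sq hD hd
    have ha2 := sq hD ha
    -- `f ≡ d` modulo `N`
    have hfd : d * (n * d * n⁻¹)⁻¹ ∈ N := by
      have : d * (n * d * n⁻¹)⁻¹ = (d * n * d⁻¹) * n⁻¹ := by group
      rw [this]
      exact mul_mem (hN.conj_mem n hn d) (inv_mem hn)
    have hq : ((n * d * n⁻¹ : G) : G ⧸ N) = (d : G ⧸ N) := by
      rw [eq_comm, QuotientGroup.eq]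
      have : d⁻¹ * (n * d * n⁻¹) = (d⁻¹ * n * d⁻¹⁻¹) * n⁻¹ := by group
      rw [this]
      exact mul_mem (hN.conj_mem n hn d⁻¹) (inv_mem hn)
    rcases oddAdj_or_oddAdj hD ha had hadD hadj with h | h
    · have h2 : (n * d * n⁻¹ * a) ^ 2 ∈ N := by
        rw [← QuotientGroup.eq_one_iff]
        simp only [QuotientGroup.mk_pow, QuotientGroup.mk_mul] at hq ⊢
        rw [hq, ← QuotientGroup.mk_mul, ← QuotientGroup.mk_pow, pow_two]
        have : d * a * (d * a) = 1 := by
          calc d * a * (d * a) = d * (a * d) * a := by group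
            _ = d * (d * a) * a := by rw [had]
            _ = (d * d) * (a * a) := by group
            _ = 1 := by rw [hd2, ha2, one_mul]
        rw [this]; rfl
      have h3 := mem_of_sq_mem h.2.2.2 h2
      apply hDN _ hadD
      rw [had]
      have : d * a = (d * (n * d * n⁻¹)⁻¹) * (n * d * n⁻¹ * a) := by group
      rw [this]
      exact mul_mem hfd h3
    · have h2 : (n * d * n⁻¹ * (a * d)) ^ 2 ∈ N := by
        rw [← QuotientGroup.eq_one_iff]
        simp only [QuotientGroup.mk_pow, QuotientGroup.mk_mul] at hq ⊢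
        rw [hq, ← QuotientGroup.mk_mul, ← QuotientGroup.mk_mul, ← QuotientGroup.mk_pow, pow_two]
        have : d * (a * d) * (d * (a * d)) = 1 := by
          calc d * (a * d) * (d * (a * d)) = d * a * (d * d) * a * d := by group
            _ = d * (a * a) * d := by rw [hd2]; group
            _ = 1 := by rw [ha2, mul_one, hd2]
        rw [this]; rfl
      have h3 := mem_of_sq_mem h.2.2.2 h2
      apply hDN a ha
      have h4 : d * (a * d) ∈ N := by
        have : d * (a * d) = (d * (n * d * n⁻¹)⁻¹) * (n * d * n⁻¹ * (a * d)) := by group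
        rw [this]
        exact mul_mem hfd h3
      have h5 : d * (a * d) = a := by
        rw [had, ← mul_assoc, hd2, one_mul]
      rwa [h5] at h4
  have h2 : ∀ d ∈ D, ∀ n ∈ N, cc d n ∈ Cfsg.pCore 2 G := by
    intro d hd
    apply cc_mem_pCore_two_of_pairs (sq hD hd)
    intro n hn
    have hf := hD.conj_mem d hd n
    have hk : ∃ k : ℕ, orderOf (d * (n * d * n⁻¹)) = 2 ^ k := by
      rcases hD.pair d hd _ hf with h | h | ⟨h, -⟩
      · have h3 : (d * (n * d * n⁻¹)) ^ 2 = 1 := by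
          rw [pow_two]
          calc d * (n * d * n⁻¹) * (d * (n * d * n⁻¹))
              = d * ((n * d * n⁻¹) * d) * (n * d * n⁻¹) := by group
            _ = d * (d * (n * d * n⁻¹)) * (n * d * n⁻¹) := by rw [h]
            _ = (d * d) * ((n * d * n⁻¹) * (n * d * n⁻¹)) := by group
            _ = 1 := by rw [sq hD hd, sq hD hf, one_mul]
        rcases (Nat.dvd_prime Nat.prime_two).1 (orderOf_dvd_of_pow_eq_one h3) with h4 | h4
        · exact ⟨0, by rw [h4, pow_zero]⟩
        · exact ⟨1, by rw [h4, pow_one]⟩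
      · by_cases hdf : n * d * n⁻¹ = d
        · refine ⟨0, ?_⟩
          rw [hdf, sq hD hd, orderOf_one, pow_zero]
        · exfalso
          refine h1 d hd n hn ⟨hf, hd, hdf, ?_⟩
          rw [orderOf_mul_swap (sq hD hf) (sq hD hd)]
          exact h
      · exact ⟨2, by rw [h]; norm_num⟩
    obtain ⟨k, hk⟩ := hk
    exact Cfsg.Agent.Lib.Helper4.isPGroup_closure_pair (hD.orderOf_eq d hd) (hD.orderOf_eq _ hf) hk
  intro n hn
  unfold Cfsg.twoZCore
  rw [Subgroup.mem_comap, Subgroup.mem_center_iff]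
  intro q
  obtain ⟨g, rfl⟩ := QuotientGroup.mk'_surjective _ q
  have hg : g ∈ Subgroup.closure D := by rw [hD.generates]; trivial
  set f := QuotientGroup.mk' (Cfsg.pCore 2 G) with hf
  induction hg using Subgroup.closure_induction with
  | mem d hd =>
    have h3 := h2 d hd n hn
    have h4 : f (cc d n) = 1 := by
      rw [hf, QuotientGroup.mk'_apply, QuotientGroup.eq_one_iff]; exact h3
    unfold cc at h4
    simp only [map_mul, map_inv] at h4
    have h5 : f d * f d = 1 := by rw [← map_mul, sq hD hd, map_one]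
    have h6 : f n * f d * (f n)⁻¹ = f d := by
      rw [eq_inv_of_mul_eq_one_right h4, inv_eq_of_mul_eq_one_left h5]
    exact (mul_inv_eq_iff_eq_mul.1 h6).symm
  | one => simp
  | mul x y _ _ h₁ h₂ =>
    rw [map_mul, mul_assoc, h₂, ← mul_assoc, h₁, mul_assoc]
  | inv x _ h₁ =>
    rw [map_inv]
    calc (f x)⁻¹ * f n = (f x)⁻¹ * (f n * f x) * (f x)⁻¹ := by group
      _ = (f x)⁻¹ * (f x * f n) * (f x)⁻¹ := by rw [h₁]
      _ = f n * (f x)⁻¹ := by group

theorem twoZCore_ne_top [Finite G] (hD : Cfsg.IsRootInvolutionSet D)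
    (hc : Cfsg.IsConnectedSet (Cfsg.OddAdj D) D) (hDD : (D ∩ Cfsg.commutingProducts D).Nonempty) :
    Cfsg.twoZCore G ≠ ⊤ := by
  intro htop
  obtain ⟨x, hx, a₀, ha₀, b₀, hb₀, hab, hne, rfl⟩ := hDD
  have hab' : a₀ ≠ b₀ := by
    rintro rfl
    exact hne (sq hD ha₀)
  rcases Relation.ReflTransGen.cases_head (hc a₀ ha₀ b₀ hb₀) with h | ⟨f, hf, -⟩
  · exact hab' h
  · obtain ⟨g, hg⟩ := exists_conj_of_odd (sq hD hf.1) (sq hD hf.2.1) hf.2.2.2
    have h1 : a₀ ∈ Cfsg.twoZCore G := by rw [htop]; trivial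
    unfold Cfsg.twoZCore at h1
    rw [Subgroup.mem_comap, Subgroup.mem_center_iff] at h1
    have h2 := h1 (QuotientGroup.mk' _ g)
    have h3 : a₀ * f ∈ Cfsg.pCore 2 G := by
      rw [← QuotientGroup.eq_one_iff, ← hg]
      have : ((a₀ * (g * a₀ * g⁻¹) : G) : G ⧸ Cfsg.pCore 2 G)
          = QuotientGroup.mk' _ a₀ * (QuotientGroup.mk' _ g * QuotientGroup.mk' _ a₀)
            * (QuotientGroup.mk' _ g)⁻¹ := by
        simp [mul_assoc]
      rw [this, h2]
      have h4 : QuotientGroup.mk' (Cfsg.pCore 2 G) a₀ * QuotientGroup.mk' (Cfsg.pCore 2 G) a₀ = 1 := by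
        rw [← map_mul, sq hD ha₀, map_one]
      calc QuotientGroup.mk' (Cfsg.pCore 2 G) a₀ *
            (QuotientGroup.mk' (Cfsg.pCore 2 G) a₀ * QuotientGroup.mk' (Cfsg.pCore 2 G) g) *
            (QuotientGroup.mk' (Cfsg.pCore 2 G) g)⁻¹
          = QuotientGroup.mk' (Cfsg.pCore 2 G) a₀ * QuotientGroup.mk' (Cfsg.pCore 2 G) a₀ := by group
        _ = 1 := h4
    obtain ⟨k, hk⟩ := (Cfsg.Agent.Lib.Lead.pCore_isPGroup 2 G) ⟨_, h3⟩
    have hk' : (a₀ * f) ^ (2 ^ k) = 1 := by
      have := congrArg Subtype.val hk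
      simpa using this
    have h5 := orderOf_dvd_of_pow_eq_one hk'
    have h6 : Nat.Coprime (orderOf (a₀ * f)) (2 ^ k) :=
      Nat.Coprime.pow_right _ (Nat.coprime_two_right.2 hf.2.2.2)
    have h7 : orderOf (a₀ * f) = 1 := Nat.Coprime.eq_one_of_dvd h6 h5
    rw [orderOf_eq_one_iff] at h7
    apply hf.2.2.1
    rw [eq_inv_of_mul_eq_one_left h7, inv hD hf.2.1]

theorem isSolvable_twoZCore [Finite G] : Group.IsSolvable (Cfsg.twoZCore G) := by
  have : Fact (Nat.Prime 2) := ⟨Nat.prime_two⟩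
  have hle : Cfsg.pCore 2 G ≤ Cfsg.twoZCore G := by
    intro x hx
    unfold Cfsg.twoZCore
    rw [Subgroup.mem_comap]
    have : QuotientGroup.mk' (Cfsg.pCore 2 G) x = 1 := by
      rw [QuotientGroup.mk'_apply, QuotientGroup.eq_one_iff]; exact hx
    rw [this]; exact one_mem _
  have hs1 : Group.IsSolvable (Cfsg.pCore 2 G) :=
    IsNilpotent.to_isSolvable (h := (Cfsg.Agent.Lib.Lead.pCore_isPGroup 2 G).isNilpotent)
  have hs2 : Group.IsSolvable (Subgroup.center (G ⧸ Cfsg.pCore 2 G)) :=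
    Group.isSolvable_of_comm fun a b => (inferInstance :
      IsMulCommutative (Subgroup.center (G ⧸ Cfsg.pCore 2 G))).is_comm.comm a b
  let φ : Cfsg.twoZCore G →* Subgroup.center (G ⧸ Cfsg.pCore 2 G) :=
    ((QuotientGroup.mk' (Cfsg.pCore 2 G)).comp (Cfsg.twoZCore G).subtype).codRestrict _
      (fun x => x.2)
  refine Group.isSolvable_of_ker_le_range (Subgroup.inclusion hle) φ ?_
  rintro ⟨x, hx⟩ hxk
  rw [MonoidHom.mem_ker] at hxk
  have h1 : QuotientGroup.mk' (Cfsg.pCore 2 G) x = 1 := congrArg Subtype.val hxk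
  rw [QuotientGroup.mk'_apply, QuotientGroup.eq_one_iff] at h1
  exact ⟨⟨x, h1⟩, rfl⟩

/-- Let G be a finite group generated by a set D of root involutions whose odd-order-product graph is connected, with some product of two different commuting members of D again in D. Then the largest solvable normal subgroup of G is the preimage of the centre of G/O₂(G), and the quotient of G by it is a simple group. -/
theorem result {G : Type*} [Group G] [Finite G] {D : Set G} (hD : Cfsg.IsRootInvolutionSet D)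
    (hc : Cfsg.IsConnectedSet (Cfsg.OddAdj D) D) (hDD : (D ∩ Cfsg.commutingProducts D).Nonempty) :
    Cfsg.solvableRadical G = Cfsg.twoZCore G ∧ IsSimpleGroup (G ⧸ Cfsg.twoZCore G) := by
  have hne := twoZCore_ne_top hD hc hDD
  have hsimple : IsSimpleGroup (G ⧸ Cfsg.twoZCore G) := by
    have hnt : Nontrivial (G ⧸ Cfsg.twoZCore G) := by
      by_contra hcon
      rw [not_nontrivial_iff_subsingleton, QuotientGroup.subsingleton_iff] at hcon
      exact hne hcon
    refine ⟨fun K hK => ?_⟩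
    have hKn : (K.comap (QuotientGroup.mk' (Cfsg.twoZCore G))).Normal := hK.comap _
    by_cases htop : K.comap (QuotientGroup.mk' (Cfsg.twoZCore G)) = ⊤
    · right
      rw [eq_top_iff]
      intro q _
      obtain ⟨g, rfl⟩ := QuotientGroup.mk'_surjective _ q
      have : g ∈ K.comap (QuotientGroup.mk' (Cfsg.twoZCore G)) := by rw [htop]; trivial
      exact this
    · left
      have hle := le_twoZCore hD hc hDD hKn htop
      rw [eq_bot_iff]
      intro q hq
      obtain ⟨g, rfl⟩ := QuotientGroup.mk'_surjective _ q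
      have h1 : g ∈ Cfsg.twoZCore G := hle hq
      rw [Subgroup.mem_bot, QuotientGroup.mk'_apply, QuotientGroup.eq_one_iff]
      exact h1
  refine ⟨?_, hsimple⟩
  apply le_antisymm
  · unfold Cfsg.solvableRadical
    apply sSup_le
    rintro N ⟨hN, hNs⟩
    by_cases htop : N = ⊤
    · exfalso
      subst htop
      have hGs : Group.IsSolvable G :=
        Group.isSolvable_of_surjective (f := (⊤ : Subgroup G).subtype)
          (fun x => ⟨⟨x, trivial⟩, rfl⟩)
      have hqs : Group.IsSolvable (G ⧸ Cfsg.twoZCore G) := inferInstance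
      have hcomm := IsSimpleGroup.comm_iff_isSolvable.2 hqs
      obtain ⟨x, hx, a₀, ha₀, b₀, hb₀, hab, -, rfl⟩ := hDD
      obtain ⟨g, hg⟩ := rtg_conj hD (hc a₀ ha₀ b₀ hb₀)
      apply hne
      apply eq_top_of_mem hD hc inferInstance hx
      rw [← QuotientGroup.eq_one_iff, ← hg]
      have : ((a₀ * (g * a₀ * g⁻¹) : G) : G ⧸ Cfsg.twoZCore G)
          = (a₀ : G ⧸ Cfsg.twoZCore G) * ((g : G ⧸ Cfsg.twoZCore G) * (a₀ : G ⧸ Cfsg.twoZCore G))
            * (g : G ⧸ Cfsg.twoZCore G)⁻¹ := by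
        simp [mul_assoc]
      rw [this, hcomm (g : G ⧸ Cfsg.twoZCore G) a₀]
      have h4 : (a₀ : G ⧸ Cfsg.twoZCore G) * (a₀ : G ⧸ Cfsg.twoZCore G) = 1 := by
        rw [← QuotientGroup.mk_mul, sq hD ha₀]; rfl
      calc (a₀ : G ⧸ Cfsg.twoZCore G) * ((a₀ : G ⧸ Cfsg.twoZCore G) * (g : G ⧸ Cfsg.twoZCore G))
            * (g : G ⧸ Cfsg.twoZCore G)⁻¹
          = (a₀ : G ⧸ Cfsg.twoZCore G) * (a₀ : G ⧸ Cfsg.twoZCore G) := by group
        _ = 1 := h4
    · exact le_twoZCore hD hc hDD hN htop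
  · unfold Cfsg.solvableRadical
    exact le_sSup ⟨inferInstance, isSolvable_twoZCore⟩

end Cfsg.Agent.S5048
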