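import Cfsg.Statements.S5049
import Cfsg.Agent.Lib.Lead.Cores

set_option autoImplicit false
open Cfsg

namespace Cfsg.Agent.S5049

section aux
variable {G : Type*} [Group G] {D : Set G}

theorem sq_one (hD : IsRootInvolutionSet D) {a : G} (ha : a ∈ D) : a * a = 1 := by
  have := hD.orderOf_eq a ha
  rw [← pow_two, ← this]; exact pow_orderOf_eq_one a

theorem inv_eq (hD : IsRootInvolutionSet D) {a : G} (ha : a ∈ D) : a⁻¹ = a :=
  inv_eq_of_mul_eq_one_left (sq_one hD ha)

/-- an element of the 2-core of odd order is trivial -/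
theorem eq_one_of_odd {x : G} (hx : x ∈ pCore 2 G) (ho : Odd (orderOf x)) : x = 1 := by
  obtain ⟨j, hj⟩ := (Cfsg.Agent.Lib.Lead.pCore_isPGroup 2 G) ⟨x, hx⟩
  have h1 : x ^ 2 ^ j = 1 := by
    have := congrArg Subtype.val hj
    simpa using this
  have h2 : orderOf x ∣ 2 ^ j := orderOf_dvd_of_pow_eq_one h1
  have h3 : Nat.Coprime (orderOf x) (2 ^ j) := by
    apply Nat.Coprime.pow_right
    exact ho.coprime_two_right
  have h4 : orderOf x = 1 := Nat.Coprime.eq_one_of_dvd h3 h2
  exact orderOf_eq_one_iff.1 h4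

/-- two members of `D` whose product lies in the 2-core commute -/
theorem commute_of_mem (hD : IsOddTranspositionSet D) {a b : G} (ha : a ∈ D) (hb : b ∈ D)
    (h : a * b ∈ pCore 2 G) : a * b = b * a := by
  rcases hD.1.pair a ha b hb with h1 | h1 | h1
  · exact h1
  · have := eq_one_of_odd h h1
    have h2 : a = b := by
      rw [← inv_eq hD.1 hb]; exact eq_inv_of_mul_eq_one_left this
    rw [h2]
  · exact absurd h1.1 (hD.2 a ha b hb)

/-- for `q` in the 2-core, `q a q⁻¹` and `a` commute and their product is in the 2-core. -/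
theorem conj_facts (hD : IsOddTranspositionSet D) {a q : G} (ha : a ∈ D) (hq : q ∈ pCore 2 G) :
    q * a * q⁻¹ ∈ D ∧ (q * a * q⁻¹) * a ∈ pCore 2 G ∧ (q * a * q⁻¹) * a = a * (q * a * q⁻¹) := by
  have hn := Cfsg.Agent.Lib.Lead.pCore_normal' 2 G
  have h1 : q * a * q⁻¹ ∈ D := hD.1.conj_mem a ha q
  have h2 : (q * a * q⁻¹) * a ∈ pCore 2 G := by
    have : (q * a * q⁻¹) * a = q * (a * q⁻¹ * a⁻¹) := by
      rw [inv_eq hD.1 ha]; group
    rw [this]
    exact Subgroup.mul_mem _ hq (hn.conj_mem _ (Subgroup.inv_mem _ hq) a)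
  exact ⟨h1, h2, commute_of_mem hD h1 ha h2⟩

theorem part_one (hD : IsOddTranspositionSet D) {a e q : G} (ha : a ∈ D) (he : e ∈ D)
    (hea : e * a = a * e) (hq : q ∈ pCore 2 G) :
    e * ((q * a * q⁻¹) * a) = ((q * a * q⁻¹) * a) * e := by
  have hn := Cfsg.Agent.Lib.Lead.pCore_normal' 2 G
  obtain ⟨h1, h2, h3⟩ := conj_facts hD ha hq
  generalize q * a * q⁻¹ = a' at h1 h2 h3 ⊢
  have key : e * a' = a' * e := by
    rcases hD.1.pair e he a' h1 with h | h | h
    · exact h
    · have hx : (e * a') ^ 2 ∈ pCore 2 G := by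
        have : (e * a') ^ 2 = (e * (a' * a) * e⁻¹) * (a * (a' * a) * a⁻¹) := by
          rw [inv_eq hD.1 ha, inv_eq hD.1 he, pow_two]
          calc e * a' * (e * a') = e * a' * (a * a) * e * a' * (a * a) := by
                rw [sq_one hD.1 ha]; group
            _ = e * a' * a * (a * e) * a' * a * a := by group
            _ = e * a' * a * (e * a) * a' * a * a := by rw [hea]
            _ = _ := by group
        rw [this]
        exact Subgroup.mul_mem _ (hn.conj_mem _ h2 e) (hn.conj_mem _ h2 a)
      have ho : Odd (orderOf ((e * a') ^ 2)) := 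
        Odd.of_dvd_nat h (orderOf_pow_dvd 2)
      have h5 := eq_one_of_odd hx ho
      have h6 : orderOf (e * a') ∣ 2 := orderOf_dvd_of_pow_eq_one h5
      have h7 : orderOf (e * a') = 1 := Nat.Coprime.eq_one_of_dvd h.coprime_two_right h6
      have h8 : e * a' = 1 := orderOf_eq_one_iff.1 h7
      have h9 : e = a' := by
        rw [← inv_eq hD.1 h1]; exact eq_inv_of_mul_eq_one_left h8
      rw [h9]
    · exact absurd h.1 (hD.2 e he a' h1)
  calc e * (a' * a) = (e * a') * a := by group
    _ = a' * (e * a) := by rw [key]; group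
    _ = _ := by rw [hea]; group

theorem part_two (hD : IsOddTranspositionSet D) {a b q : G} (ha : a ∈ D) (hb : b ∈ D) (hne : b ≠ a)
    (ho : Odd (orderOf (a * b))) (hq : q ∈ pCore 2 G) (hc : (a * b) * q = q * (a * b)) :
    a * q = q * a := by
  obtain ⟨h1, h2, h3⟩ := conj_facts hD ha hq
  obtain ⟨k1, k2, k3⟩ := conj_facts hD hb hq
  have hab : (q * a * q⁻¹) * (q * b * q⁻¹) = a * b := by
    calc (q * a * q⁻¹) * (q * b * q⁻¹) = q * (a * b) * q⁻¹ := by group
      _ = a * b := by rw [← hc]; group
  suffices hs : q * a * q⁻¹ = a by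
    calc a * q = (q * a * q⁻¹) * q := by rw [hs]
      _ = q * a := by group
  generalize q * a * q⁻¹ = a' at h1 h2 h3 hab ⊢
  generalize q * b * q⁻¹ = b' at k1 k2 k3 hab
  have haa := sq_one hD.1 ha
  have hbb := sq_one hD.1 hb
  have haa' := sq_one hD.1 h1
  have hbb' := sq_one hD.1 k1
  have hz : a' * a = b' * b := by
    calc a' * a = a' * (a * b) * b := by rw [mul_assoc, mul_assoc, hbb, mul_one]
      _ = a' * (a' * b') * b := by rw [hab]
      _ = (a' * a') * b' * b := by group
      _ = b' * b := by rw [haa', one_mul]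
  have hza : Commute (a' * a) a := by
    show a' * a * a = a * (a' * a)
    rw [← mul_assoc, ← h3]
  have hzb : Commute (a' * a) b := by
    show a' * a * b = b * (a' * a)
    rw [hz, ← mul_assoc, ← k3]
  have hzr : Commute (a' * a) (a * b) := hza.mul_right hzb
  have hzz : (a' * a) ^ 2 = 1 := by
    rw [pow_two]
    calc a' * a * (a' * a) = a' * a * (a * a') := by rw [h3]
      _ = a' * (a * a) * a' := by group
      _ = 1 := by rw [haa, mul_one, haa']
  have hprod : a' * b = (a' * a) * (a * b) := by
    calc a' * b = a' * (a * a) * b := by rw [haa, mul_one]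
      _ = _ := by group
  have hz1 : a' * a = 1 := by
    rcases hD.1.pair a' h1 b hb with h | h | h
    · exfalso
      have e1 : (a' * b) ^ 2 = 1 := by
        rw [pow_two]
        calc a' * b * (a' * b) = a' * b * (b * a') := by rw [h]
          _ = a' * (b * b) * a' := by group
          _ = 1 := by rw [hbb, mul_one, haa']
      rw [hprod, hzr.mul_pow, hzz, one_mul] at e1
      have h6 : orderOf (a * b) ∣ 2 := orderOf_dvd_of_pow_eq_one e1
      have h7 : orderOf (a * b) = 1 := Nat.Coprime.eq_one_of_dvd ho.coprime_two_right h6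
      have h8 : a * b = 1 := orderOf_eq_one_iff.1 h7
      apply hne
      rw [← inv_eq hD.1 ha]; exact eq_inv_of_mul_eq_one_right h8
    · have hz2 : orderOf (a' * a) ∣ 2 := orderOf_dvd_of_pow_eq_one hzz
      have hcop : Nat.Coprime (orderOf (a' * a)) (orderOf (a * b)) :=
        Nat.Coprime.coprime_dvd_left hz2 ho.coprime_two_left
      have heq := hzr.orderOf_mul_eq_mul_orderOf_of_coprime hcop
      rw [hprod, heq] at h
      exact eq_one_of_odd h2 (Nat.odd_mul.1 h).1
    · exact absurd h.1 (hD.2 a' h1 b hb)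
  rw [← inv_eq hD.1 ha]; exact eq_inv_of_mul_eq_one_left hz1

end aux

/-- Let G be a finite group generated by a set D of odd transpositions (root involutions with no product of order 4), Q = O₂(G), and for a ∈ D let Q_a be the commutator subgroup of Q with a. Then every member of D commuting with a centralizes Q_a; and for b ∈ D with ab of odd order greater than 1, the centralizer of ab in Q is the intersection of the centralizers of a and b in Q. -/
theorem result {G : Type*} [Group G] [Finite G] {D : Set G} (hD : Cfsg.IsOddTranspositionSet D) {a : G} (ha : a ∈ D) :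
    (∀ e ∈ Cfsg.commutingMembers D a, ∀ q ∈ ⁅Cfsg.pCore 2 G, Subgroup.zpowers a⁆, e * q = q * e) ∧
    (∀ b ∈ Cfsg.oddPartners D a,
      Cfsg.pCore 2 G ⊓ Subgroup.centralizer {a * b} = Cfsg.pCore 2 G ⊓ Subgroup.centralizer {a} ⊓ Subgroup.centralizer {b}) := by
  constructor
  · rintro e ⟨he, hea⟩ q hq
    have hle : ⁅Cfsg.pCore 2 G, Subgroup.zpowers a⁆ ≤ Subgroup.centralizer {e} := by
      rw [Subgroup.commutator_le]
      intro g₁ hg₁ g₂ hg₂
      rw [Subgroup.mem_centralizer_singleton_iff]
      obtain ⟨i, rfl⟩ := Subgroup.mem_zpowers_iff.1 hg₂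
      rw [← zpow_mod_orderOf, hD.1.orderOf_eq a ha]
      rcases Int.emod_two_eq_zero_or_one i with h | h
      · have : (i % ((2 : ℕ) : ℤ)) = 0 := h
        rw [this]; simp
      · have : (i % ((2 : ℕ) : ℤ)) = 1 := h
        rw [this, zpow_one, commutatorElement_def, inv_eq hD.1 ha]
        exact (part_one hD ha he hea hg₁).symm
    have := hle hq
    rw [Subgroup.mem_centralizer_singleton_iff] at this
    exact this.symm
  · rintro b ⟨hb, hne, ho⟩
    ext q
    simp only [Subgroup.mem_inf, Subgroup.mem_centralizer_singleton_iff]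
    constructor
    · rintro ⟨hq, hc⟩
      have h1 := part_two hD ha hb hne ho hq hc.symm
      refine ⟨⟨hq, h1.symm⟩, ?_⟩
      have : a * (b * q) = a * (q * b) := by
        calc a * (b * q) = a * b * q := by group
          _ = q * (a * b) := hc.symm
          _ = (q * a) * b := by group
          _ = a * (q * b) := by rw [← h1]; group
      exact (mul_left_cancel this).symm
    · rintro ⟨⟨hq, h1⟩, h2⟩
      refine ⟨hq, ?_⟩
      symm
      calc a * b * q = a * (b * q) := by group
        _ = (a * q) * b := by rw [← h2]; group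
        _ = q * (a * b) := by rw [← h1]; group

end Cfsg.Agent.S5049
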