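import Cfsg.Statements.S5057
import Mathlib

set_option autoImplicit false
open Cfsg

namespace Cfsg.Agent.S5057

set_option maxRecDepth 1000000 in
theorem key : ∀ σ : Equiv.Perm (Fin 6), Equiv.Perm.sign σ = 1 →
    (σ ^ 2 = 1 ∨ σ ^ 3 = 1 ∨ σ ^ 4 = 1 ∨ σ ^ 5 = 1) := by
  decide +kernel

theorem key' (x : ↥(alternatingGroup (Fin 6))) : x ^ 2 = 1 ∨ x ^ 3 = 1 ∨ x ^ 4 = 1 ∨ x ^ 5 = 1 := by
  rcases key x.1 (Equiv.Perm.mem_alternatingGroup.1 x.2) with h | h | h | h
  · exact Or.inl (Subtype.ext h)
  · exact Or.inr (Or.inl (Subtype.ext h))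
  · exact Or.inr (Or.inr (Or.inl (Subtype.ext h)))
  · exact Or.inr (Or.inr (Or.inr (Subtype.ext h)))

theorem cycleType_eq (x : ↥(alternatingGroup (Fin 6))) (hx : orderOf x = 2) :
    (x : Equiv.Perm (Fin 6)).cycleType = Multiset.replicate 2 2 := by
  have h2 : orderOf (x : Equiv.Perm (Fin 6)) = 2 := by rw [Subgroup.orderOf_coe, hx]
  obtain ⟨n, hn⟩ := Equiv.Perm.cycleType_prime_order (σ := (x : Equiv.Perm (Fin 6)))
    (by rw [h2]; exact Nat.prime_two)
  rw [h2] at hn
  have hsum := Equiv.Perm.sum_cycleType_le (x : Equiv.Perm (Fin 6))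
  rw [hn, Multiset.sum_replicate] at hsum
  simp only [smul_eq_mul, Fintype.card_fin] at hsum
  have hsign := Equiv.Perm.sign_of_cycleType (x : Equiv.Perm (Fin 6))
  rw [Equiv.Perm.mem_alternatingGroup.1 x.2, hn, Multiset.sum_replicate,
    Multiset.card_replicate] at hsign
  have hn2 : n ≤ 2 := by omega
  interval_cases n
  · exfalso; revert hsign; decide
  · exact hn
  · exfalso; revert hsign; decide

/-- The involutions of the alternating group of degree 6 form a class of root involutions (a single conjugacy class of involutions generating the group, any two of which commute, have product of odd order, or have product of order 4 whose square is again an involution of the class), and the product of any two of them has order at most 5. -/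
theorem result :
    Cfsg.IsRootInvolutionClass {g : ↥(alternatingGroup (Fin 6)) | orderOf g = 2} ∧
    ∀ d ∈ {g : ↥(alternatingGroup (Fin 6)) | orderOf g = 2}, ∀ e ∈ {g : ↥(alternatingGroup (Fin 6)) | orderOf g = 2},
      orderOf (d * e) ≤ 5 := by
  have hconj : ∀ d ∈ {g : ↥(alternatingGroup (Fin 6)) | orderOf g = 2},
      ∀ g : ↥(alternatingGroup (Fin 6)), g * d * g⁻¹ ∈
        {g : ↥(alternatingGroup (Fin 6)) | orderOf g = 2} := by
    intro d hd g
    have : orderOf (g * d * g⁻¹) = orderOf d := (MulAut.conj g).orderOf_eq d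
    exact this.trans hd
  have hne : ({g : ↥(alternatingGroup (Fin 6)) | orderOf g = 2}).Nonempty := by
    refine ⟨⟨Equiv.swap 0 1 * Equiv.swap 2 3, Equiv.Perm.mem_alternatingGroup.2 (by decide)⟩, ?_⟩
    exact orderOf_eq_prime (by decide) (by decide)
  refine ⟨⟨⟨fun d hd => hd, ?_, hconj, ?_⟩, hne, ?_⟩, ?_⟩
  · have hs : IsSimpleGroup (alternatingGroup (Fin 6)) := alternatingGroup.isSimpleGroup (by simp)
    have hN : (Subgroup.closure {g : ↥(alternatingGroup (Fin 6)) | orderOf g = 2}).Normal := by
      have : Subgroup.closure {g : ↥(alternatingGroup (Fin 6)) | orderOf g = 2} =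
          Subgroup.normalClosure {g : ↥(alternatingGroup (Fin 6)) | orderOf g = 2} := by
        apply le_antisymm Subgroup.closure_le_normalClosure
        unfold Subgroup.normalClosure
        apply Subgroup.closure_mono
        intro x hx
        obtain ⟨d, hd, hdx⟩ := Group.mem_conjugatesOfSet_iff.1 hx
        obtain ⟨g, rfl⟩ := isConj_iff.1 hdx
        exact hconj d hd g
      rw [this]
      infer_instance
    rcases hs.eq_bot_or_eq_top_of_normal _ hN with h | h
    · exfalso
      obtain ⟨d, hd⟩ := hne
      have hd' : d ∈ Subgroup.closure {g : ↥(alternatingGroup (Fin 6)) | orderOf g = 2} :=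
        Subgroup.subset_closure hd
      rw [h, Subgroup.mem_bot] at hd'
      have hd2 : orderOf d = 2 := hd
      rw [hd', orderOf_one] at hd2
      omega
    · exact h
  · intro a ha b hb
    have ha2 : a * a = 1 := by
      have := pow_orderOf_eq_one a
      rw [ha, pow_two] at this
      exact this
    have hb2 : b * b = 1 := by
      have := pow_orderOf_eq_one b
      rw [hb, pow_two] at this
      exact this
    have hcomm : (a * b) ^ 2 = 1 → a * b = b * a := by
      intro h
      calc a * b = a * b * ((a * b) * (b * a)) := by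
            have : (a * b) * (b * a) = a * (b * b) * a := by simp only [mul_assoc]
            rw [this, hb2, mul_one, ha2, mul_one]
        _ = (a * b) ^ 2 * (b * a) := by rw [pow_two]; simp only [mul_assoc]
        _ = b * a := by rw [h, one_mul]
    rcases key' (a * b) with h | h | h | h
    · exact Or.inl (hcomm h)
    · right; left
      have hd := orderOf_dvd_of_pow_eq_one h
      rcases (Nat.dvd_prime Nat.prime_three).1 hd with h1 | h1 <;> rw [h1] <;> decide
    · by_cases h2 : (a * b) ^ 2 = 1
      · exact Or.inl (hcomm h2)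
      · right; right
        have h4 : orderOf (a * b) = 4 := by
          have := orderOf_eq_prime_pow (p := 2) (n := 1) (x := a * b) (by rwa [pow_one])
            (by norm_num; exact h)
          simpa using this
        refine ⟨h4, ?_⟩
        exact orderOf_eq_prime (by rw [← pow_mul]; exact h) h2
    · right; left
      have hd := orderOf_dvd_of_pow_eq_one h
      rcases (Nat.dvd_prime Nat.prime_five).1 hd with h1 | h1 <;> rw [h1] <;> decide
  · intro a ha b hb
    have hc : IsConj (a : Equiv.Perm (Fin 6)) (b : Equiv.Perm (Fin 6)) := by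
      rw [Equiv.Perm.isConj_iff_cycleType_eq, cycleType_eq a ha, cycleType_eq b hb]
    have hsupp : (a : Equiv.Perm (Fin 6)).support.card + 2 ≤ Fintype.card (Fin 6) := by
      rw [← Equiv.Perm.sum_cycleType, cycleType_eq a ha]
      simp
    obtain ⟨g, hg⟩ := isConj_iff.1 (alternatingGroup.isConj_of hc hsupp)
    exact ⟨g, hg.symm⟩
  · intro d _ e _
    rcases key' (d * e) with h | h | h | h
    · exact (orderOf_le_of_pow_eq_one (by norm_num) h).trans (by norm_num)
    · exact (orderOf_le_of_pow_eq_one (by norm_num) h).trans (by norm_num)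
    · exact (orderOf_le_of_pow_eq_one (by norm_num) h).trans (by norm_num)
    · exact (orderOf_le_of_pow_eq_one (by norm_num) h).trans (by norm_num)

end Cfsg.Agent.S5057
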