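import Cfsg.Statements.S5059

set_option autoImplicit false
universe u
open Cfsg

namespace Cfsg.Agent.S5059

section aux
variable {k : Type u} [Field k] {M : Type u} [AddCommGroup M] [Module k M]

theorem nil_mul {a b c : M →ₗ[k] M} (hc : c * c = 0)
    (ha : LinearMap.ker a = LinearMap.ker c) (hb : LinearMap.range b = LinearMap.range c) :
    a * b = 0 := by
  ext m
  have h1 : b m ∈ LinearMap.range c := hb ▸ LinearMap.mem_range_self b m
  obtain ⟨x, hx⟩ := h1
  have h2 : c (c x) = 0 := by
    have := congrArg (fun f : M →ₗ[k] M => f x) hc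
    simpa using this
  have h3 : c x ∈ LinearMap.ker a := by
    rw [ha]; exact h2
  simp only [Module.End.mul_apply, LinearMap.zero_apply]
  rw [← hx]; exact h3

theorem mul_sub_one {s t : LinearMap.GeneralLinearGroup k M}
    (h : ((s : M →ₗ[k] M) - 1) * ((t : M →ₗ[k] M) - 1) = 0) :
    ((s * t : LinearMap.GeneralLinearGroup k M) : M →ₗ[k] M) - 1
      = ((s : M →ₗ[k] M) - 1) + ((t : M →ₗ[k] M) - 1) := by
  rw [Units.val_mul]
  have : (s : M →ₗ[k] M) * (t : M →ₗ[k] M) - 1 =
      ((s : M →ₗ[k] M) - 1) * ((t : M →ₗ[k] M) - 1) + (((s : M →ₗ[k] M) - 1) + ((t : M →ₗ[k] M) - 1)) := by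
    noncomm_ring
  rw [this, h, zero_add]

/-- unit `1 + n` for `n*n = 0`. -/
def unip (n : M →ₗ[k] M) (h : n * n = 0) : LinearMap.GeneralLinearGroup k M where
  val := 1 + n
  inv := 1 - n
  val_inv := by
    have : (1 + n) * (1 - n) = 1 - n * n := by noncomm_ring
    rw [this, h, sub_zero]
  inv_val := by
    have : (1 - n) * (1 + n) = 1 - n * n := by noncomm_ring
    rw [this, h, sub_zero]

variable [FiniteDimensional k M] {G : Subgroup (LinearMap.GeneralLinearGroup k M)}
  {σ : LinearMap.GeneralLinearGroup k M}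

theorem mem_class_of (hσ : σ ∈ minimalQuadraticElements G) {τ : LinearMap.GeneralLinearGroup k M}
    (hq : τ ∈ quadraticElements G)
    (hk : LinearMap.ker ((σ : M →ₗ[k] M) - 1) ≤ LinearMap.ker ((τ : M →ₗ[k] M) - 1))
    (hr : LinearMap.range ((τ : M →ₗ[k] M) - 1) ≤ LinearMap.range ((σ : M →ₗ[k] M) - 1)) :
    τ ∈ sameActionClass G σ := by
  have h1 : commutatorRank σ ≤ commutatorRank τ := hσ.2 τ hq
  have h2 : LinearMap.range ((τ : M →ₗ[k] M) - 1) = LinearMap.range ((σ : M →ₗ[k] M) - 1) :=
    Submodule.eq_of_le_of_finrank_le hr h1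
  have h3 : LinearMap.ker ((σ : M →ₗ[k] M) - 1) = LinearMap.ker ((τ : M →ₗ[k] M) - 1) := by
    apply Submodule.eq_of_le_of_finrank_le hk
    have e1 := LinearMap.finrank_range_add_finrank_ker ((σ : M →ₗ[k] M) - 1)
    have e2 := LinearMap.finrank_range_add_finrank_ker ((τ : M →ₗ[k] M) - 1)
    rw [h2] at e2
    omega
  refine ⟨⟨hq, fun ρ hρ => ?_⟩, h3.symm, h2⟩
  have : commutatorRank τ = commutatorRank σ := by
    unfold commutatorRank; rw [h2]
  rw [this]; exact hσ.2 ρ hρ

theorem mul_mem_class (hσ : σ ∈ minimalQuadraticElements G) {s t : LinearMap.GeneralLinearGroup k M}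
    (hs : s ∈ sameActionClass G σ) (ht : t ∈ sameActionClass G σ) :
    s * t ∈ sameActionClass G σ ∪ {1} := by
  have hc := hσ.1.2.1.1
  have hst := nil_mul hc hs.2.1 ht.2.2
  have hts := nil_mul hc ht.2.1 hs.2.2
  have hss := nil_mul hc hs.2.1 hs.2.2
  have htt := nil_mul hc ht.2.1 ht.2.2
  have e := mul_sub_one hst
  by_cases h0 : ((s : M →ₗ[k] M) - 1) + ((t : M →ₗ[k] M) - 1) = 0
  · right
    rw [h0, sub_eq_zero] at e
    exact Units.ext e
  · left
    apply mem_class_of hσ
    · refine ⟨G.mul_mem hs.1.1.1 ht.1.1.1, ⟨?_, ?_⟩, ?_⟩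
      · rw [e, add_mul, mul_add, mul_add, hss, hst, hts, htt]; simp
      · rw [e]; exact h0
      · rintro ρ ⟨c, hρ⟩
        have h1 : unip (c • ((s : M →ₗ[k] M) - 1)) (by rw [smul_mul_smul_comm, hss, smul_zero]) ∈ G :=
          hs.1.1.2.2 ⟨c, rfl⟩
        have h2 : unip (c • ((t : M →ₗ[k] M) - 1)) (by rw [smul_mul_smul_comm, htt, smul_zero]) ∈ G :=
          ht.1.1.2.2 ⟨c, rfl⟩
        have h3 := G.mul_mem h1 h2
        have h4 : ρ = unip (c • ((s : M →ₗ[k] M) - 1)) (by rw [smul_mul_smul_comm, hss, smul_zero]) *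
            unip (c • ((t : M →ₗ[k] M) - 1)) (by rw [smul_mul_smul_comm, htt, smul_zero]) := ?_
        · rw [h4]; exact h3
        apply Units.ext
        rw [hρ, e, Units.val_mul]
        show _ = (1 + c • ((s : M →ₗ[k] M) - 1)) * (1 + c • ((t : M →ₗ[k] M) - 1))
        rw [add_mul, mul_add, mul_add, smul_mul_smul_comm, hst]
        simp only [smul_add, one_mul, mul_one, smul_zero, add_zero]
        abel
    · rw [e]
      intro m hm
      have h1 : m ∈ LinearMap.ker ((s : M →ₗ[k] M) - 1) := by rw [hs.2.1]; exact hm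
      have h2 : m ∈ LinearMap.ker ((t : M →ₗ[k] M) - 1) := by rw [ht.2.1]; exact hm
      rw [LinearMap.mem_ker] at h1 h2 ⊢
      rw [LinearMap.add_apply, h1, h2, add_zero]
    · rw [e]
      rintro _ ⟨m, rfl⟩
      rw [LinearMap.add_apply]
      apply Submodule.add_mem
      · rw [← hs.2.2]; exact LinearMap.mem_range_self _ m
      · rw [← ht.2.2]; exact LinearMap.mem_range_self _ m

theorem inv_mem_class (hσ : σ ∈ minimalQuadraticElements G) {s : LinearMap.GeneralLinearGroup k M}
    (hs : s ∈ sameActionClass G σ) :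
    s⁻¹ ∈ sameActionClass G σ := by
  have hc := hσ.1.2.1.1
  have hss := nil_mul hc hs.2.1 hs.2.2
  have e : ((s⁻¹ : LinearMap.GeneralLinearGroup k M) : M →ₗ[k] M) - 1 = - ((s : M →ₗ[k] M) - 1) := by
    have h1 : s⁻¹ = unip (-((s : M →ₗ[k] M) - 1)) (by rw [neg_mul_neg, hss]) := by
      rw [inv_eq_iff_mul_eq_one]
      apply Units.ext
      rw [Units.val_mul]
      show (s : M →ₗ[k] M) * (1 + -((s : M →ₗ[k] M) - 1)) = 1
      have : (s : M →ₗ[k] M) * (1 + -((s : M →ₗ[k] M) - 1)) = 1 - ((s : M →ₗ[k] M) - 1) * ((s : M →ₗ[k] M) - 1) := by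
        noncomm_ring
      rw [this, hss, sub_zero]
    rw [h1]
    show (1 + -((s : M →ₗ[k] M) - 1)) - 1 = _
    abel
  apply mem_class_of hσ
  · refine ⟨G.inv_mem hs.1.1.1, ⟨?_, ?_⟩, ?_⟩
    · rw [e, neg_mul_neg, hss]
    · rw [e, neg_ne_zero]; exact hs.1.1.2.1.2
    · rintro ρ ⟨c, hρ⟩
      apply hs.1.1.2.2
      refine ⟨-c, ?_⟩
      rw [hρ, e, smul_neg, neg_smul]
  · rw [e, LinearMap.ker_neg, hs.2.1]
  · rw [e, LinearMap.range_neg, hs.2.2]

omit [FiniteDimensional k M] in
theorem pow_sub_one {s : LinearMap.GeneralLinearGroup k M}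
    (h : ((s : M →ₗ[k] M) - 1) * ((s : M →ₗ[k] M) - 1) = 0) (j : ℕ) :
    ((s ^ j : LinearMap.GeneralLinearGroup k M) : M →ₗ[k] M) = 1 + (j : k) • ((s : M →ₗ[k] M) - 1) := by
  induction j with
  | zero => simp
  | succ j ih =>
    rw [pow_succ, Units.val_mul, ih]
    generalize hn : (s : M →ₗ[k] M) - 1 = n at h ⊢
    have : (s : M →ₗ[k] M) = 1 + n := by rw [← hn]; abel
    rw [this, add_mul, mul_add, mul_add, smul_mul_assoc, smul_mul_assoc, h]
    simp only [one_mul, mul_one, smul_zero, add_zero, Nat.cast_succ, add_smul, one_smul]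
    abel

end aux

/-- Let k be a field of characteristic not 2 with k not of order 3, M a finite-dimensional k-vector space and G ≤ GL(M) such that (G, M) is a quadratic pair (M irreducible for G, and G generated by its quadratically acting elements σ whose scalar family 1 + c(σ − 1), c ∈ k, lies in G). Write 𝒬_d for the quadratic elements of G of minimal commutator rank, E(σ) for the subgroup generated by the members of 𝒬_d with the same fixed space and commutator space as σ, and Σ for the set of these subgroups. Then for σ ∈ 𝒬_d the subgroup E(σ) consists exactly of those members together with the identity, it is abelian, and if k has prime characteristic p every element of E(σ) has order dividing p. -/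
theorem result {k : Type u} [Field k] (hk2 : ringChar k ≠ 2) (hk3 : Nat.card k ≠ 3)
    {M : Type u} [AddCommGroup M] [Module k M] [FiniteDimensional k M]
    {G : Subgroup (LinearMap.GeneralLinearGroup k M)} (hG : Cfsg.IsQuadraticPair G)
    {σ : LinearMap.GeneralLinearGroup k M} (hσ : σ ∈ Cfsg.minimalQuadraticElements G) :
    (Cfsg.sameActionSubgroup G σ : Set (LinearMap.GeneralLinearGroup k M)) = Cfsg.sameActionClass G σ ∪ {1} ∧
    IsMulCommutative ↥(Cfsg.sameActionSubgroup G σ) ∧
    (∀ p : ℕ, p.Prime → ringChar k = p → ∀ x ∈ Cfsg.sameActionSubgroup G σ, x ^ p = 1) := by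
  have hc := hσ.1.2.1.1
  let E : Subgroup (LinearMap.GeneralLinearGroup k M) :=
    { carrier := Cfsg.sameActionClass G σ ∪ {1}
      one_mem' := Or.inr rfl
      mul_mem' := by
        rintro a b (ha | ha) (hb | hb)
        · exact mul_mem_class hσ ha hb
        · rw [Set.mem_singleton_iff] at hb; rw [hb, mul_one]; exact Or.inl ha
        · rw [Set.mem_singleton_iff] at ha; rw [ha, one_mul]; exact Or.inl hb
        · rw [Set.mem_singleton_iff] at ha hb; rw [ha, hb, mul_one]; exact Or.inr rfl
      inv_mem' := by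
        rintro a (ha | ha)
        · exact Or.inl (inv_mem_class hσ ha)
        · rw [Set.mem_singleton_iff] at ha; rw [ha, inv_one]; exact Or.inr rfl }
  have hE : Cfsg.sameActionSubgroup G σ = E := by
    apply le_antisymm
    · exact (Subgroup.closure_le E).2 (fun x hx => Or.inl hx)
    · rintro x (hx | hx)
      · exact Subgroup.subset_closure hx
      · rw [Set.mem_singleton_iff] at hx; rw [hx]; exact Subgroup.one_mem _
  refine ⟨by rw [hE]; rfl, ?_, ?_⟩
  · rw [hE]
    refine ⟨⟨?_⟩⟩
    rintro ⟨a, ha⟩ ⟨b, hb⟩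
    apply Subtype.ext
    show a * b = b * a
    rcases ha with ha | ha
    · rcases hb with hb | hb
      · apply Units.ext
        have e1 := mul_sub_one (nil_mul hc ha.2.1 hb.2.2)
        have e2 := mul_sub_one (nil_mul hc hb.2.1 ha.2.2)
        rw [add_comm, ← e2] at e1
        exact sub_left_injective e1
      · rw [Set.mem_singleton_iff] at hb; rw [hb, mul_one, one_mul]
    · rw [Set.mem_singleton_iff] at ha; rw [ha, mul_one, one_mul]
  · intro p hp hchar x hx
    rw [hE] at hx
    rcases hx with hx | hx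
    · apply Units.ext
      rw [pow_sub_one (nil_mul hc hx.2.1 hx.2.2)]
      have : (p : k) = 0 := by
        rw [← hchar]; exact ringChar.Nat.cast_ringChar
      rw [this, zero_smul, add_zero]; rfl
    · rw [Set.mem_singleton_iff] at hx; rw [hx, one_pow]

end Cfsg.Agent.S5059
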