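import Cfsg.Statements.S5067

set_option autoImplicit false

open Cfsg

namespace Cfsg.Agent.S5067

open Subgroup
open scoped commutatorElement

theorem aux {P : Type*} [Group P] [Group.IsNilpotent P] (hna : ¬ IsMulCommutative P)
    {E : Subgroup P} (hE : IsMulCommutative ↥E) :
    Group.nilpotencyClass ↥(Subgroup.normalClosure (E : Set P)) < Group.nilpotencyClass P := by
  set N := Subgroup.normalClosure (E : Set P) with hN
  set D : Subgroup P := commutator P with hD
  set T : Subgroup P := ⁅D, (⊤ : Subgroup P)⁆ with hT
  have hDn : D.Normal := by rw [hD]; infer_instance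
  have hTn : T.Normal := by rw [hT]; infer_instance
  have hnorm : (E ⊔ D).Normal := by
    constructor
    intro n hn g
    have h1 : g * n * g⁻¹ = ⁅g, n⁆ * n := by simp [commutatorElement_def]
    rw [h1]
    refine mul_mem (le_sup_right (a := E) ?_) hn
    exact Subgroup.commutator_mem_commutator (mem_top g) (mem_top n)
  have hND : N ≤ E ⊔ D := normalClosure_le_normal (le_sup_left (a := E) (b := D))
  have hcen : ∀ d ∈ D, ∀ g : P, Commute (QuotientGroup.mk' T d) (QuotientGroup.mk' T g) := by
    intro d hd g
    have h1 : ⁅d, g⁆ ∈ T := Subgroup.commutator_mem_commutator hd (mem_top g)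
    have h2 : QuotientGroup.mk' T ⁅d, g⁆ = 1 := (QuotientGroup.eq_one_iff _).2 h1
    rw [map_commutatorElement, commutatorElement_eq_one_iff_commute] at h2
    exact h2
  have hEE : ∀ a ∈ E, ∀ b ∈ E, Commute (QuotientGroup.mk' T a) (QuotientGroup.mk' T b) := by
    intro a ha b hb
    have h1 : a * b = b * a := by
      have := mul_comm' (⟨a, ha⟩ : E) ⟨b, hb⟩
      exact congrArg Subtype.val this
    have : Commute a b := h1
    exact this.map (QuotientGroup.mk' T)
  have h1 : ⁅N, N⁆ ≤ T := by
    rw [Subgroup.commutator_le]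
    intro a ha b hb
    obtain ⟨e1, he1, d1, hd1, rfl⟩ := Subgroup.mem_sup_of_normal_right.1 (hND ha)
    obtain ⟨e2, he2, d2, hd2, rfl⟩ := Subgroup.mem_sup_of_normal_right.1 (hND hb)
    rw [← QuotientGroup.eq_one_iff, ← QuotientGroup.mk'_apply, map_commutatorElement,
      commutatorElement_eq_one_iff_commute, map_mul, map_mul]
    refine Commute.mul_left (Commute.mul_right (hEE _ he1 _ he2) (hcen _ hd2 _).symm) ?_
    rw [← map_mul]
    exact hcen _ hd1 _
  have h2 : ∀ k, N.lowerCentralSeries (k + 1) ≤ (⊤ : Subgroup P).lowerCentralSeries (k + 2) := by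
    intro k
    induction k with
    | zero => exact h1
    | succ k ih =>
      rw [Subgroup.lowerCentralSeries_succ, Subgroup.lowerCentralSeries_succ _ (k + 1 + 1)]
      exact commutator_mono ih le_top
  have hc : 2 ≤ Group.nilpotencyClass P := by
    by_contra hlt
    exact hna (Group.IsNilpotent.nilpotencyClass_le_one_iff.1 (by omega))
  obtain ⟨c, hc'⟩ : ∃ c, Group.nilpotencyClass P = c + 2 := ⟨Group.nilpotencyClass P - 2, by omega⟩
  have h3 : N.lowerCentralSeries (c + 1) = ⊥ := by
    rw [eq_bot_iff]
    refine (h2 c).trans ?_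
    rw [← hc', Subgroup.lowerCentralSeries_nilpotencyClass]
  have h4 : Group.nilpotencyClass N ≤ c + 1 := by
    rw [← Subgroup.lowerCentralSeries_eq_bot_iff_nilpotencyClass_le, ← map_subtype_inj, Subgroup.map_bot,
      top_subtype_lowerCentralSeries, h3]
  omega

/-- Let P be a non-abelian nilpotent p-group (every element of p-power order; P possibly infinite) generated by two abelian subgroups E and F. Then the normal closure of E in P, and likewise that of F, has nilpotency class strictly smaller than that of P. -/
theorem result {P : Type*} [Group P] {p : ℕ} [Fact p.Prime] (hP : IsPGroup p P) [Group.IsNilpotent P]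
    (hna : ¬ IsMulCommutative P) {E F : Subgroup P} (hE : IsMulCommutative ↥E) (hF : IsMulCommutative ↥F) (hgen : E ⊔ F = ⊤) :
    Group.nilpotencyClass ↥(Subgroup.normalClosure (E : Set P)) < Group.nilpotencyClass P ∧
    Group.nilpotencyClass ↥(Subgroup.normalClosure (F : Set P)) < Group.nilpotencyClass P := by
  exact ⟨aux hna hE, aux hna hF⟩

end Cfsg.Agent.S5067
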