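import Cfsg.Statements.S5104
import Cfsg.Agent.Lib.Helper85.FusBasic

set_option autoImplicit false
open Cfsg

namespace Cfsg.Agent.S5104

open Cfsg.FusionSystem Cfsg.Agent.Lib.Helper85

/-- In a saturated fusion system over a finite p-group S, a fully centralized subgroup U with C_S(U) ≤ U is centric. -/
theorem result {Ω : Type*} [Group Ω] {S : Subgroup Ω} [Finite S] (p : ℕ) [Fact p.Prime] (hS : IsPGroup p S) (F : Cfsg.FusionSystem S) (hF : F.IsSaturated p) (U : Subgroup Ω) (hU : F.IsFullyCentralized U) (hC : Cfsg.FusionSystem.centralizerIn S U ≤ U) : F.IsCentric U := by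
  refine ⟨hU.1, fun Q hQ => ?_⟩
  have h1 := hU.2 Q hQ
  obtain ⟨φ, hφ, rfl⟩ := hQ
  have hQS : φ.range ≤ S := range_le F hφ
  -- the centre of the image
  have hZle : φ.range ⊓ Subgroup.centralizer (φ.range : Set Ω) ≤ centralizerIn S φ.range :=
    inf_le_inf_right _ hQS
  have hfin : Finite (centralizerIn S φ.range) :=
    Finite.of_injective (Subgroup.inclusion (inf_le_left : centralizerIn S φ.range ≤ S))
      (Subgroup.inclusion_injective _)
  -- injection from C_S(U) to Z(Q)
  have hmem : ∀ x : centralizerIn S U,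
      φ ⟨x, hC x.2⟩ ∈ φ.range ⊓ Subgroup.centralizer (φ.range : Set Ω) := by
    intro x
    refine Subgroup.mem_inf.mpr ⟨⟨_, rfl⟩, ?_⟩
    rw [Subgroup.mem_centralizer_iff]
    rintro _ ⟨y, rfl⟩
    rw [← map_mul, ← map_mul]
    congr 1
    apply Subtype.ext
    exact Subgroup.mem_centralizer_iff.mp x.2.2 y y.2
  have hfin2 : Finite ↥(φ.range ⊓ Subgroup.centralizer (φ.range : Set Ω)) :=
    Finite.of_injective (Subgroup.inclusion hZle) (Subgroup.inclusion_injective _)
  have h2 : Nat.card (centralizerIn S U) ≤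
      Nat.card ↥(φ.range ⊓ Subgroup.centralizer (φ.range : Set Ω)) := by
    apply Nat.card_le_card_of_injective (fun x : centralizerIn S U => (⟨φ ⟨x, hC x.2⟩, hmem x⟩ :
      ↥(φ.range ⊓ Subgroup.centralizer (φ.range : Set Ω))))
    intro x y hxy
    have h3 : φ ⟨x, hC x.2⟩ = φ ⟨y, hC y.2⟩ := congrArg Subtype.val hxy
    have h4 := F.injective_of_mem hφ h3
    have h6 : (x : Ω) = (y : Ω) := congrArg (fun z : U => (z : Ω)) h4
    exact Subtype.ext h6
  have h5 := Subgroup.eq_of_le_of_card_ge hZle (h1.trans h2)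
  rw [← h5]
  exact inf_le_left

end Cfsg.Agent.S5104
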