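import Cfsg.Statements.S5105
import Cfsg.Agent.Lib.Helper85.Cocycle
import Cfsg.Agent.Lib.Helper47.PCore

set_option autoImplicit false
open Cfsg

namespace Cfsg.Agent.S5105

open Cfsg.Agent.Lib.Helper85 Cfsg.Agent.Lib.Helper47

/-- Model Theorem, rigidity: if G is a model of a constrained fusion system over a finite p-group S (through ι : S → G), then every automorphism of G fixing ι(S) elementwise is conjugation by ι(z) for some z in the centre of S. -/
theorem result {Ω : Type*} [Group Ω] {S : Subgroup Ω} [Finite S] (p : ℕ) [Fact p.Prime] (hS : IsPGroup p S) (F : Cfsg.FusionSystem S) (hF : F.IsConstrained p) {G : Type*} [Group G] (ι : S →* G) (hG : F.IsModel p G ι) (ψ : G ≃* G) (hψ : ∀ x : S, ψ (ι x) = ι x) : ∃ z : S, z ∈ Subgroup.center S ∧ ∀ g : G, ψ g = ι z * g * (ι z)⁻¹ := by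
  obtain ⟨hfin, ⟨hinj, -⟩, ⟨T, hT⟩, hcent⟩ := hG
  have hQn : (pCore p G).Normal := Cfsg.Agent.Lib.Helper47.pCore_normal
  have hQT : pCore p G ≤ ι.range := hT ▸ pCore_le_sylow T
  have hfix : ∀ x ∈ ι.range, ψ x = x := by
    rintro _ ⟨x, rfl⟩; exact hψ x
  set N : Subgroup G := Subgroup.centralizer ((pCore p G : Subgroup G) : Set G) with hN
  have hNn : N.Normal := Subgroup.normal_centralizer
  have hNc : IsMulCommutative N := by
    refine ⟨⟨fun a b => Subtype.ext ?_⟩⟩
    exact (Subgroup.mem_centralizer_iff.mp b.2 a (hcent a.2))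
  have hNp : IsPGroup p N := pCore_isPGroup.to_le hcent
  have hmem : ∀ g : G, ψ g * g⁻¹ ∈ N := by
    intro g
    rw [hN, Subgroup.mem_centralizer_iff]
    intro x hx
    -- `y = g⁻¹ x g ∈ Q`
    have hy : g⁻¹ * x * g ∈ pCore p G := by
      have := hQn.conj_mem x hx g⁻¹
      simpa using this
    have h1 : ψ (g * (g⁻¹ * x * g) * g⁻¹) = g * (g⁻¹ * x * g) * g⁻¹ := by
      apply hfix; apply hQT
      have : g * (g⁻¹ * x * g) * g⁻¹ = x := by group
      rw [this]; exact hx
    rw [map_mul, map_mul, hfix _ (hQT hy), map_inv] at h1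
    -- `ψ g * y * (ψ g)⁻¹ = x`
    have h2 : ψ g * (g⁻¹ * x * g) * (ψ g)⁻¹ = x := by
      rw [h1]; group
    calc x * (ψ g * g⁻¹) = (ψ g * (g⁻¹ * x * g) * (ψ g)⁻¹) * (ψ g * g⁻¹) := by rw [h2]
      _ = ψ g * g⁻¹ * x := by group
  obtain ⟨k, hk⟩ := IsPGroup.iff_card.mp hNp
  have hcop : (Nat.card N).Coprime (T : Subgroup G).index := by
    rw [hk]
    apply Nat.Coprime.pow_left
    exact (Nat.Prime.coprime_iff_not_dvd Fact.out).mpr T.not_dvd_index
  obtain ⟨z, hz⟩ := cocycle_coboundary (T : Subgroup G) N hcop (fun g => ⟨ψ g * g⁻¹, hmem g⟩)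
    (by
      intro g h
      apply Subtype.ext
      simp only [Subgroup.coe_mul, MulAut.conjNormal_apply, map_mul]
      group)
    (by
      intro s hs
      apply Subtype.ext
      rw [hT] at hs
      simp only [hfix s hs, mul_inv_cancel, Subgroup.coe_one])
  obtain ⟨z', hz'⟩ := hQT (hcent z.2)
  have hconj : ∀ g : G, ψ g = ι z' * g * (ι z')⁻¹ := by
    intro g
    have h1 := congrArg Subtype.val (hz g)
    simp only [Subgroup.coe_mul, Subgroup.coe_inv, MulAut.conjNormal_apply] at h1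
    rw [hz']
    calc ψ g = (ψ g * g⁻¹) * g := by group
      _ = ((z : G) * (g * (z : G) * g⁻¹)⁻¹) * g := by rw [h1]
      _ = (z : G) * g * (z : G)⁻¹ := by group
  refine ⟨z', ?_, hconj⟩
  rw [Subgroup.mem_center_iff]
  intro s
  apply hinj
  have h1 := hconj (ι s)
  rw [hψ] at h1
  rw [map_mul, map_mul]
  calc ι s * ι z' = (ι z' * ι s * (ι z')⁻¹) * ι z' := by rw [← h1]
    _ = ι z' * ι s := by group

end Cfsg.Agent.S5105
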