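import Cfsg.Statements.S5107
import Cfsg.Agent.S5076
import Cfsg.Agent.Lib.Helper84.FusionSeries
import Cfsg.Agent.Lib.Helper85.FusBasic

set_option autoImplicit false
open Cfsg

namespace Cfsg.Agent.S5107

open Cfsg.FusionSystem Cfsg.Agent.Lib.Helper84

/-- If a Sylow p-subgroup S of a finite group G has nilpotency class at most two and its centre is strongly closed in S with respect to G, then every map of the fusion system of G on S is conjugation by an element of N_G(S), and S is the largest subgroup normal in that fusion system. -/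
theorem result {G : Type*} [Group G] [Finite G] (p : ℕ) [Fact p.Prime] (S : Sylow p G) (hcl : ⁅(S : Subgroup G), (S : Subgroup G)⁆ ≤ (S : Subgroup G) ⊓ Subgroup.centralizer ((S : Subgroup G) : Set G)) (hZ : Cfsg.IsStronglyClosed ((S : Subgroup G) ⊓ Subgroup.centralizer ((S : Subgroup G) : Set G)) (S : Subgroup G)) : (∀ (P : Subgroup G) (φ : P →* G), φ ∈ (Cfsg.groupFusionSystem (S : Subgroup G)).Hom P → ∃ g ∈ Subgroup.normalizer ((S : Subgroup G) : Set G), ∀ x : P, φ x = g * (x : G) * g⁻¹) ∧ (Cfsg.groupFusionSystem (S : Subgroup G)).core = S := by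
  set F := groupFusionSystem (S : Subgroup G) with hF
  have hsat : F.IsSaturated p := Cfsg.Agent.S5076.result p S
  have hSp : IsPGroup p (S : Subgroup G) := S.isPGroup'
  set Z := (S : Subgroup G) ⊓ Subgroup.centralizer ((S : Subgroup G) : Set G) with hZdef
  have hZsc : F.StronglyClosed Z := by
    refine ⟨inf_le_left, ?_⟩
    rintro R hR φ ⟨-, hφS, g, hg⟩ x
    have h1 := hφS x
    rw [hg] at h1 ⊢
    exact hZ.2 x (hR x.2) g h1
  have hSsc : F.StronglyClosed (S : Subgroup G) :=
    ⟨le_rfl, fun R _ φ hφ x => (F.le_of_mem hφ).2 x⟩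
  have hnormal : F.IsNormal (S : Subgroup G) := by
    rw [normal_iff_stronglyClosed hSp F hsat]
    refine ⟨hSsc, fun P hc hr => ?_⟩
    let Qc : ℕ → Subgroup G := fun i => if i = 0 then ⊥ else if i = 1 then Z else S
    refine series_le_centric_radical hSp Qc 2 ?_ rfl rfl ?_ ?_ hc hr
    · apply monotone_nat_of_le_succ
      intro n
      rcases n with _ | _ | n
      · exact bot_le
      · show Z ≤ (S : Subgroup G)
        exact inf_le_left
      · exact le_rfl
    · intro i
      rcases i with _ | _ | i
      · exact stronglyClosed_bot F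
      · exact hZsc
      · exact hSsc
    · intro i
      rcases i with _ | _ | i
      · show ⁅(S : Subgroup G), Z⁆ ≤ ⊥
        rw [Subgroup.commutator_le]
        intro a ha b hb
        rw [Subgroup.mem_bot, commutatorElement_eq_one_iff_mul_comm]
        exact (Subgroup.mem_centralizer_iff.mp hb.2 a ha)
      · exact hcl
      · show ⁅(S : Subgroup G), (S : Subgroup G)⁆ ≤ (S : Subgroup G)
        exact hcl.trans inf_le_left
  constructor
  · intro P φ hφ
    obtain ⟨ψ, ⟨-, -, g, hg⟩, hψP, hψS⟩ := hnormal.2 P φ hφ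
    rw [Cfsg.Agent.Lib.Helper85.map_subgroupOf_eq_iff] at hψS
    refine ⟨g, ?_, fun x => ?_⟩
    · apply mem_normalizer_of_conj_mem
      · intro h hh
        have := hψS.1 ⟨h, le_sup_right (a := P) hh⟩ hh
        rwa [hg] at this
      · intro h hh
        obtain ⟨x, hx, hxh⟩ := hψS.2 h hh
        rw [hg] at hxh
        rw [← hxh]
        simpa [mul_assoc] using hx
    · rw [← hψP, hg]; rfl
  · apply le_antisymm
    · exact sSup_le fun Q hQ => hQ.1
    · exact le_sSup hnormal

end Cfsg.Agent.S5107
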