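import Cfsg.Statements.S5111
import Cfsg.Agent.Lib.Helper84.FusionSat2
import Cfsg.Agent.Lib.Helper85.SylIn3
import Cfsg.Agent.Lib.Helper86.Centric
import Cfsg.Agent.Lib.Helper87.FusUtil
import Cfsg.Agent.Lib.Helper88.FusAbelian

set_option autoImplicit false
open Cfsg

namespace Cfsg.Agent.S5111

open Cfsg.FusionSystem Cfsg.Agent.Lib.Helper84
open Cfsg.Agent.Lib.Helper85 (SylIn sylIn_of_forall_normalizing exists_pow_pElement pow_eq_of_mod
  mem_normalizer_of_finite)

variable {Ω : Type*} [Group Ω] {S : Subgroup Ω}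

theorem isPGroup_zpowers {X : Type*} [Group X] {p i : ℕ} {d : X} (h : d ^ p ^ i = 1) :
    IsPGroup p (Subgroup.zpowers d) := by
  rintro ⟨_, m, rfl⟩
  refine ⟨i, Subtype.ext ?_⟩
  show (d ^ m) ^ p ^ i = 1
  rw [← zpow_natCast, ← zpow_mul, mul_comm, zpow_mul, zpow_natCast, h, one_zpow]

theorem stepB [Finite S] {p : ℕ} [Fact p.Prime] (hS : IsPGroup p S) (F : FusionSystem S)
    (hrec : ∀ P, F.IsFullyNormalized P → F.IsReceptive P)
    {P : Subgroup Ω} (hP : F.IsFullyNormalized P)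
    (ih : ∀ R, F.IsFullyNormalized R → Nat.card P < Nat.card R → F.IsFullyAutomized p R)
    (hPS : P ≠ S) (α : MulAut P) (hα : α ∈ F.autGroup P)
    (hαN : α ∈ Subgroup.normalizer (autInducedBy S P : Set (MulAut P)))
    (j : ℕ) (hj : α ^ p ^ j = 1) : α ∈ autInducedBy S P := by
  have hPle : P ≤ S := hP.1
  set N := normalizerIn S P with hN
  have hNS : N ≤ S := inf_le_left
  have hPN : P ≤ N := le_normalizerIn hPle
  have hfinN : Finite N := finite_of_le hNS
  have hαM : Mor F α.toMonoidHom := (mem_autGroup_iff F hPle α).mp hα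
  obtain ⟨χ, hχ, hχP⟩ := exists_extension_of_receptive F (hrec P hP) α hαM (le_refl N) (by
    intro g hg
    have h1 : conjAut P g hg.2 ∈ autInducedBy S P := conjAut_mem_autInducedBy hg.2 hg.1
    have h2 : α * conjAut P g hg.2 * α⁻¹ ∈ autInducedBy S P :=
      (Subgroup.mem_normalizer_iff.mp hαN _).mp h1
    obtain ⟨h, hh, hh'⟩ := (mem_autInducedBy_iff S P _).mp h2
    refine ⟨h, hh, fun x hx => ?_⟩
    have h3 := hh' (α x)
    simp only [MulAut.mul_apply, MulAut.inv_apply_self] at h3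
    rw [← h3]
    rfl)
  have hmap : (P.subgroupOf N).map χ = P := map_eq_of_agree α χ hPN hχP
  have hχN : ∀ c : N, χ c ∈ N := fun c => map_mem_normalizerIn F hχ hmap c c.2.2
  have hβ₀inj : Function.Injective (χ.codRestrict N hχN) := by
    intro a b hab
    exact F.injective_of_mem hχ (congrArg Subtype.val hab)
  let β : MulAut N := MulEquiv.ofBijective (χ.codRestrict N hχN)
    ⟨hβ₀inj, Finite.surjective_of_injective hβ₀inj⟩
  have hβM : Mor F β.toMonoidHom := mor_of_mem F hχ hχN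
  have hβ : β ∈ F.autGroup N := (mem_autGroup_iff F hNS β).mpr hβM
  have hβP : ∀ x : P, ((β ⟨x, hPN x.2⟩ : N) : Ω) = (α x : Ω) := fun x => hχP x x.2 (hPN x.2)
  have hpow : ∀ (k : ℕ) (x : P), (((β ^ k) ⟨x, hPN x.2⟩ : N) : Ω) = ((α ^ k) x : Ω) := by
    intro k
    induction k with
    | zero => intro x; simp
    | succ k ih =>
      intro x
      rw [pow_succ', pow_succ', MulAut.mul_apply, MulAut.mul_apply]
      have e : (β ^ k) ⟨x, hPN x.2⟩ = ⟨((α ^ k) x : Ω), hPN ((α ^ k) x).2⟩ := Subtype.ext (ih x)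
      rw [e]
      exact hβP _
  have hfinAN : Finite (MulAut N) := finite_mulAut_of_le hNS
  obtain ⟨k, hk1, i, hi⟩ := exists_pow_pElement (p := p) β j
  set γ := β ^ k with hγdef
  have hγ : γ ∈ F.autGroup N := Subgroup.pow_mem _ hβ k
  have hγP : ∀ x : P, ((γ ⟨x, hPN x.2⟩ : N) : Ω) = (α x : Ω) := by
    intro x
    rw [hγdef, hpow, pow_eq_of_mod hj hk1]
  -- `P < N`
  have hPltN : P < N := by
    obtain ⟨g, hgS, hgN, hgP⟩ := Cfsg.Agent.Lib.Helper87.exists_normalizing_not_mem hS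
      (lt_of_le_of_ne hPle hPS) le_rfl
    exact lt_of_le_of_ne hPN (fun h => hgP (h ▸ (⟨hgS, hgN⟩ : g ∈ N)))
  have hcardN : Nat.card P < Nat.card N := Cfsg.Agent.Lib.Helper87.card_lt_of_lt hPltN
  obtain ⟨N', hNN', hN'⟩ := exists_fullyNormalized F hNS
  obtain ⟨e, he⟩ := (isConj_iff F).mp hNN'
  obtain ⟨hN'S, R, hR⟩ := ih N' hN' (by rw [← isConj_card_eq hNN']; exact hcardN)
  have hfinA : Finite (F.autGroup N') := finite_autGroup F hN'S
  have hγ' : MulAut.congr e γ ∈ F.autGroup N' := congr_mem_autGroup he hγ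
  have hγ'p : (MulAut.congr e γ) ^ p ^ i = 1 := by
    rw [← map_pow, hi, map_one]
  obtain ⟨a, ha, hau⟩ := exists_conj_le_of_sylow R hR
    (U := Subgroup.zpowers (MulAut.congr e γ)) ((Subgroup.zpowers_le).mpr hγ') (isPGroup_zpowers hγ'p)
  obtain ⟨g, hgS, hg⟩ := (mem_autInducedBy_iff S N' _).mp (hau _ (Subgroup.mem_zpowers _))
  have haM : Mor F a.toMonoidHom := (mem_autGroup_iff F hN'S a).mp ha
  let ρ : N ≃* N' := e.trans a
  have hρM : Mor F ρ.toMonoidHom := haM.comp he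
  have hρg : ∀ y : N, ((ρ (γ y) : N') : Ω) = g * (ρ y : Ω) * g⁻¹ := by
    intro y
    rw [← hg (ρ y)]
    show _ = ((a (e (γ (e.symm (a⁻¹ (a (e y)))))) : N') : Ω)
    rw [MulAut.inv_apply_self, MulEquiv.symm_apply_apply]
    rfl
  set P' := (P.subgroupOf N).map (N'.subtype.comp ρ.toMonoidHom) with hP'
  have hconj : F.IsConj P P' := Cfsg.Agent.Lib.Helper86.isConj_map F hρM hPN
  have hP'S : P' ≤ S := isConj_le_right hconj
  have hfinP' : Finite P' := finite_of_le hP'S
  have hcard := hP.2 P' hconj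
  have hN'le : N' ≤ normalizerIn S P' := by
    intro y' hy'
    refine ⟨hN'S hy', mem_normalizer_of_finite ?_⟩
    rintro _ ⟨x, hx, rfl⟩
    set n := ρ.symm ⟨y', hy'⟩ with hn
    have hy'n : y' = ((ρ n : N') : Ω) := by rw [hn, MulEquiv.apply_symm_apply]
    refine ⟨n * x * n⁻¹, ?_, ?_⟩
    · exact conj_mem_of_mem_normalizer n.2.2 hx
    · show ((ρ (n * x * n⁻¹) : N') : Ω) = y' * ((ρ x : N') : Ω) * y'⁻¹
      rw [map_mul, map_mul, map_inv, hy'n]
      rfl
  have hfinN2 : Finite (normalizerIn S P') := finite_of_le inf_le_left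
  have hN'eq : N' = normalizerIn S P' := by
    apply Subgroup.eq_of_le_of_card_ge hN'le
    rw [← isConj_card_eq hNN']
    exact hcard
  have hgN' : g ∈ N' := by
    rw [hN'eq]
    refine ⟨hgS, mem_normalizer_of_finite ?_⟩
    rintro _ ⟨x, hx, rfl⟩
    refine ⟨γ x, ?_, ?_⟩
    · have h5 := hγP ⟨x, hx⟩
      show ((γ x : N) : Ω) ∈ P
      have e5 : (⟨((⟨x, hx⟩ : P) : Ω), hPN hx⟩ : N) = x := Subtype.ext rfl
      rw [e5] at h5
      rw [h5]
      exact (α _).2
    · exact hρg x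
  set n := ρ.symm ⟨g, hgN'⟩ with hn
  have hgn : g = ((ρ n : N') : Ω) := by rw [hn, MulEquiv.apply_symm_apply]
  refine (mem_autInducedBy_iff S P α).mpr ⟨n, hNS n.2, fun x => ?_⟩
  rw [← hγP x]
  have h6 : ρ (γ ⟨x, hPN x.2⟩) = ρ (n * ⟨x, hPN x.2⟩ * n⁻¹) := by
    apply Subtype.ext
    rw [hρg, map_mul, map_mul, map_inv, hgn]
    rfl
  have h7 := ρ.injective h6
  rw [h7]
  rfl

theorem fullyAutomized_aux [Finite S] {p : ℕ} [Fact p.Prime] (hS : IsPGroup p S)
    (F : FusionSystem S) (hSa : F.IsFullyAutomized p S)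
    (hrec : ∀ P, F.IsFullyNormalized P → F.IsReceptive P) (n : ℕ) :
    ∀ P, F.IsFullyNormalized P → Nat.card S - Nat.card P = n → F.IsFullyAutomized p P := by
  induction n using Nat.strong_induction_on with
  | _ n ih =>
    intro P hP hn
    by_cases hPS : P = S
    · rw [hPS]; exact hSa
    · have hfin : Finite (MulAut P) := finite_mulAut_of_le hP.1
      refine ⟨hP.1, sylIn_of_forall_normalizing (autInducedBy_le_autGroup F hP.1)
        (isPGroup_autInducedBy hS P) ?_⟩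
      rintro a haA haN ⟨k, hk⟩
      refine stepB hS F hrec hP ?_ hPS a haA haN k hk
      intro R hR hlt
      have hRle : Nat.card R ≤ Nat.card S := Subgroup.card_le_of_le hR.1
      exact ih (Nat.card S - Nat.card R) (by omega) R hR rfl

/-- A fusion system over a finite p-group S is saturated if and only if the inner automorphisms of S form a Sylow p-subgroup of Aut_F(S) and every fully normalized subgroup of S is receptive. -/
theorem result {Ω : Type*} [Group Ω] {S : Subgroup Ω} [Finite S] (p : ℕ) [Fact p.Prime] (hS : IsPGroup p S) (F : Cfsg.FusionSystem S) : F.IsSaturated p ↔ (F.IsFullyAutomized p S ∧ ∀ P : Subgroup Ω, F.IsFullyNormalized P → F.IsReceptive P) := by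
  constructor
  · intro hF
    exact ⟨Cfsg.Agent.Lib.Helper88.fullyAutomized_top p F hF,
      fun P hP => (sat_fullyNormalized hS hF hP).2.2⟩
  · rintro ⟨hSa, hrec⟩ P hP
    obtain ⟨Q, hPQ, hQ⟩ := exists_fullyNormalized F hP
    exact ⟨Q, hPQ, fullyAutomized_aux hS F hSa hrec _ Q hQ rfl, hrec Q hQ⟩

end Cfsg.Agent.S5111
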