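import Cfsg.Statements.S5130
import Cfsg.Agent.Lib.Helper85.FusDirFactor2
import Cfsg.Agent.S5097
import Cfsg.Agent.S5119

set_option autoImplicit false
open Cfsg

namespace Cfsg.Agent.S5130

open Cfsg.FusionSystem Cfsg.Agent.Lib.Helper84 Cfsg.Agent.Lib.Helper85

variable {Ω : Type*} [Group Ω] {S : Subgroup Ω}

theorem transport_mem (F : FusionSystem S) {P Q : Subgroup Ω} (hPQ : P ≤ Q) {φ : P →* Ω}
    (hφ : φ ∈ F.Hom P) (hφQ : ∀ x, φ x ∈ Q) {ψ : Q →* Ω} (hψ : ψ ∈ F.Hom Q) :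
    ∃ χ ∈ F.Hom ((P.subgroupOf Q).map ψ),
      ∀ (x : P) (hx : ψ (Subgroup.inclusion hPQ x) ∈ (P.subgroupOf Q).map ψ),
        χ ⟨ψ (Subgroup.inclusion hPQ x), hx⟩ = ψ ⟨φ x, hφQ x⟩ := by
  have hu := Lib.Helper84.restrict_mem F hψ hPQ
  have hr : (ψ.comp (Subgroup.inclusion hPQ)).range = (P.subgroupOf Q).map ψ := by
    ext y
    constructor
    · rintro ⟨x, rfl⟩
      exact ⟨Subgroup.inclusion hPQ x, x.2, rfl⟩
    · rintro ⟨x, hx, rfl⟩
      exact ⟨⟨x, hx⟩, rfl⟩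
  obtain ⟨c, hc, hc1, hc2, -⟩ := inv_mem' F hu hr
  have hcm : ∀ y, c y ∈ P := fun y => hc2.le ⟨y, rfl⟩
  have hw := F.comp_mem hc hφ hcm
  have hwm : ∀ y, (φ.comp (c.codRestrict P hcm)) y ∈ Q := fun y => hφQ _
  refine ⟨_, F.comp_mem hw hψ hwm, fun x hx => ?_⟩
  have e1 : (⟨c ⟨ψ (Subgroup.inclusion hPQ x), hx⟩, hcm _⟩ : P) = x := Subtype.ext (hc1 x hx)
  show ψ ⟨φ ⟨c ⟨ψ (Subgroup.inclusion hPQ x), hx⟩, hcm _⟩, _⟩ = _
  simp only [e1]

/-- Let F be a saturated fusion system over a finite p-group S that is the direct product of two subgroups S₁ and S₂, each strongly closed in F. Let R be the full subsystem of F over S₁ (all maps of F between subgroups of S₁) and R′ the subsystem over S₁ of those maps that extend to the subgroup generated with S₂ fixing S₂ elementwise. Then R and R′ are saturated, R′ is normal in F and in R, and R is weakly normal in F. -/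
theorem result {Ω : Type*} [Group Ω] {S : Subgroup Ω} [Finite S] (p : ℕ) [Fact p.Prime] (hS : IsPGroup p S) (F : Cfsg.FusionSystem S) (hF : F.IsSaturated p) (S₁ S₂ : Subgroup Ω) (hprod : Cfsg.IsInternalDirectProduct S₁ S₂ S) (h₁ : F.StronglyClosed S₁) (h₂ : F.StronglyClosed S₂) (R R' : Cfsg.FusionSystem S₁) (hR : ∀ P : Subgroup Ω, P ≤ S₁ → R.Hom P = F.Hom P) (hR' : ∀ P : Subgroup Ω, P ≤ S₁ → R'.Hom P = F.centralizerHom S₂ P) : R.IsSaturated p ∧ R'.IsSaturated p ∧ R'.IsNormalIn F p ∧ R'.IsNormalIn R p ∧ R.IsWeaklyNormalIn F p := by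
  obtain ⟨h1S, h2S, hcomm, hinf, hsup⟩ := hprod
  have hfin₁ : Finite S₁ := finite_of_le h1S
  have hS₁p : IsPGroup p S₁ := hS.to_le h1S
  have hdecS : ∀ g ∈ S, ∃ a ∈ S₁, ∃ b ∈ S₂, g = a * b := by
    intro g hg
    rw [← hsup] at hg
    exact exists_mul_of_mem_sup hcomm hg
  have hS₂c : ∀ b ∈ S₂, b ∈ Subgroup.centralizer (S₁ : Set Ω) := by
    intro b hb
    apply Subgroup.mem_centralizer_iff.2
    intro a ha
    exact hcomm a ha b hb
  -- `R` saturated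
  have hRsat : R.IsSaturated p := full_subsystem_saturated F hF h₁ (fun g hg => by
    obtain ⟨a, ha, b, hb, rfl⟩ := hdecS g hg
    exact ⟨a, ha, b, hS₂c b hb, rfl⟩) R hR
  -- the centralizer system
  obtain ⟨C, hC⟩ := Cfsg.Agent.S5097.result F S₂ h2S
  have hfc : F.IsFullyCentralized S₂ := by
    refine ⟨h2S, ?_⟩
    rintro _ ⟨φ, hφ, rfl⟩
    have hfin₂ : Finite S₂ := finite_of_le h2S
    have hle : φ.range ≤ S₂ := by
      rintro _ ⟨x, rfl⟩
      exact h₂.2 S₂ le_rfl φ hφ x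
    have heq : φ.range = S₂ := Subgroup.eq_of_le_of_card_ge hle
      (Nat.card_congr (MonoidHom.ofInjective (F.injective_of_mem hφ)).toEquiv).le
    rw [heq]
  have hCsat : C.IsSaturated p := centralizerSystem_saturated hS hF hfc C hC
  have hS₁C : S₁ ≤ centralizerIn S S₂ := le_centralizerIn_of_commute h1S hcomm
  have hfinC : Finite (centralizerIn S S₂) := finite_of_le (centralizerIn_le S S₂)
  have hR'sat : R'.IsSaturated p := by
    apply full_subsystem_saturated C hCsat (S₁ := S₁) ⟨hS₁C, ?_⟩ ?_ R'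
      (fun P hP => by rw [hR' P hP, hC P])
    · intro R₀ hR₀ φ hφ x
      rw [hC] at hφ
      exact h₁.2 R₀ hR₀ φ hφ.1 x
    · intro g hg
      obtain ⟨a, ha, b, hb, rfl⟩ := hdecS g hg.1
      exact ⟨a, ha, b, hS₂c b hb, rfl⟩
  have hsubR'F : R'.IsSubsystemOf F := by
    intro P φ hφ
    rw [hR' P (R'.le_of_mem hφ).1] at hφ
    exact hφ.1
  have hsubRF : R.IsSubsystemOf F := by
    intro P φ hφ
    rw [hR P (R.le_of_mem hφ).1] at hφ
    exact hφ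
  have hsubR'R : R'.IsSubsystemOf R := by
    intro P φ hφ
    rw [hR P (R'.le_of_mem hφ).1]
    exact hsubR'F P hφ
  have hmapS₁ : ∀ {P Q : Subgroup Ω} (_ : Q ≤ S₁) {ψ : Q →* Ω}, ψ ∈ F.Hom Q →
      (P.subgroupOf Q).map ψ ≤ S₁ := by
    rintro P Q hQ ψ hψ _ ⟨x, -, rfl⟩
    exact h₁.2 Q hQ ψ hψ x
  have hinvR'F : R'.IsInvariantIn F := by
    rw [Cfsg.Agent.S5119.result p hS F hF R' hsubR'F h₁]
    intro P Q hPQ hQ φ hφ hφQ ψ hψ
    rw [hR' P (hPQ.trans hQ)] at hφ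
    rw [hR' _ (hmapS₁ hQ hψ)]
    exact centralizerHom_transport F hF h₂ h₁ hcomm hPQ hQ hφ hφQ hψ
  have hscR : R.StronglyClosed S₁ := ⟨le_rfl, fun R₀ _ φ hφ x => (R.le_of_mem hφ).2 x⟩
  have hinvR'R : R'.IsInvariantIn R := by
    rw [Cfsg.Agent.S5119.result p hS₁p R hRsat R' hsubR'R hscR]
    intro P Q hPQ hQ φ hφ hφQ ψ hψ
    rw [hR' P (hPQ.trans hQ)] at hφ
    rw [hR Q hQ] at hψ
    rw [hR' _ (hmapS₁ hQ hψ)]
    exact centralizerHom_transport F hF h₂ h₁ hcomm hPQ hQ hφ hφQ hψ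
  have hinvRF : R.IsInvariantIn F := by
    rw [Cfsg.Agent.S5119.result p hS F hF R hsubRF h₁]
    intro P Q hPQ hQ φ hφ hφQ ψ hψ
    rw [hR P (hPQ.trans hQ)] at hφ
    rw [hR _ (hmapS₁ hQ hψ)]
    exact transport_mem F hPQ hφ hφQ hψ
  -- automorphisms preserve the centre
  have hcen : ∀ (α : MulAut S₁) (a : S₁), (a : Ω) ∈ Subgroup.centralizer (S₁ : Set Ω) →
      (a : Ω)⁻¹ * (α a : S₁) ∈ S₁ ⊓ Subgroup.centralizer (S₁ : Set Ω) := by
    intro α a ha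
    refine ⟨S₁.mul_mem (S₁.inv_mem a.2) (α a).2, Subgroup.mul_mem _ (Subgroup.inv_mem _ ha) ?_⟩
    apply Subgroup.mem_centralizer_iff.2
    intro s hs
    obtain ⟨s', hs'⟩ := α.surjective ⟨s, hs⟩
    have h1 : s' * a = a * s' := Subtype.ext (Subgroup.mem_centralizer_iff.1 ha s' s'.2)
    have h2 : α s' * α a = α a * α s' := by rw [← map_mul, h1, map_mul]
    rw [hs'] at h2
    exact congrArg (Subtype.val : S₁ → Ω) h2
  refine ⟨hRsat, hR'sat, ⟨⟨hR'sat, hF, hinvR'F⟩, ?_⟩, ⟨⟨hR'sat, hRsat, hinvR'R⟩, ?_⟩,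
    hRsat, hF, hinvRF⟩
  · intro α hα
    have hα1 := (mem_autGroup_iff R' le_rfl α).1 hα
    unfold Mor at hα1
    rw [hR' S₁ le_rfl] at hα1
    obtain ⟨-, -, -, α', hα', hα'1, hα'2⟩ := hα1
    have hXS : S₁ ⊔ centralizerIn S S₁ ≤ S := sup_le h1S (centralizerIn_le S S₁)
    have hX : S₁ ⊔ centralizerIn S S₁ ≤ S₁ ⊔ S₂ := by rw [hsup]; exact hXS
    have hSX : S ≤ S₁ ⊔ centralizerIn S S₁ := by
      have h0 : S₁ ⊔ S₂ ≤ S₁ ⊔ centralizerIn S S₁ :=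
        sup_le_sup_left (fun b hb => ⟨h2S hb, hS₂c b hb⟩) S₁
      rwa [hsup] at h0
    have hβ₀ := Lib.Helper84.restrict_mem F hα' hX
    have hfinX : Finite ↥(S₁ ⊔ centralizerIn S S₁) := finite_of_le hXS
    refine ⟨autOfHom _ (F.injective_of_mem hβ₀) (fun y => hSX ((F.le_of_mem hβ₀).2 y)), ?_,
      fun x => hα'1 x, fun c hc => ?_⟩
    · rw [mem_autGroup_iff F hXS]
      exact hβ₀
    · obtain ⟨a, ha, b, hb, hcab⟩ := hdecS c hc.1
      have hac : a ∈ Subgroup.centralizer (S₁ : Set Ω) := by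
        have : a = c * b⁻¹ := by rw [hcab]; group
        rw [this]
        exact Subgroup.mul_mem _ hc.2 (Subgroup.inv_mem _ (hS₂c b hb))
      have e1 : Subgroup.inclusion hX c =
          Subgroup.inclusion le_sup_left (⟨a, ha⟩ : S₁) * Subgroup.inclusion le_sup_right (⟨b, hb⟩ : S₂) :=
        Subtype.ext hcab
      have e2 : α' (Subgroup.inclusion hX c) = ((α ⟨a, ha⟩ : S₁) : Ω) * b := by
        rw [e1, map_mul, hα'1, hα'2]
        rfl
      show (c : Ω)⁻¹ * α' (Subgroup.inclusion hX c) ∈ _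
      rw [e2, hcab]
      have h3 := hcen α ⟨a, ha⟩ hac
      have h4 : (a * b)⁻¹ * (((α ⟨a, ha⟩ : S₁) : Ω) * b) = a⁻¹ * ((α ⟨a, ha⟩ : S₁) : Ω) := by
        have h5 := hcomm _ h3.1 b hb
        calc (a * b)⁻¹ * (((α ⟨a, ha⟩ : S₁) : Ω) * b)
            = b⁻¹ * ((a⁻¹ * ((α ⟨a, ha⟩ : S₁) : Ω)) * b) := by group
          _ = a⁻¹ * ((α ⟨a, ha⟩ : S₁) : Ω) := by rw [h5]; group
      rw [h4]
      exact h3
  · intro α hα
    have hα1 := hsubR'R S₁ ((mem_autGroup_iff R' le_rfl α).1 hα)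
    have hX : S₁ ⊔ centralizerIn S₁ S₁ ≤ S₁ := sup_le le_rfl (centralizerIn_le S₁ S₁)
    have hβ₀ := Lib.Helper84.restrict_mem R hα1 hX
    have hfinX : Finite ↥(S₁ ⊔ centralizerIn S₁ S₁) := finite_of_le hX
    refine ⟨autOfHom _ (R.injective_of_mem hβ₀)
      (fun y => (le_sup_left : S₁ ≤ S₁ ⊔ centralizerIn S₁ S₁) ((R.le_of_mem hβ₀).2 y)), ?_,
      fun x => rfl, fun c hc => ?_⟩
    · rw [mem_autGroup_iff R hX]
      exact hβ₀
    · exact hcen α ⟨c, hc.1⟩ hc.2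

end Cfsg.Agent.S5130
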