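import Cfsg.Statements.S5160
import Cfsg.Agent.S5076
import Cfsg.Agent.S5077
import Cfsg.Agent.Lib.Helper86.PrimeIndex

set_option autoImplicit false
open Cfsg

namespace Cfsg.Agent.S5160

open Cfsg.FusionSystem Cfsg.Agent.Lib.Helper84 Cfsg.Agent.Lib.Helper86

/-- Let G be a finite group with nontrivial Sylow p-subgroup S and F its fusion system on S. Suppose (a) no nontrivial proper subgroup of S is strongly closed in F, and (b) the automorphisms of S induced by G are generated by those induced, for R running over the fully normalized radical centric subgroups of F, by the subgroup of N_G(R) generated by its elements of p-power order. Then F is simple. -/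
theorem result {G : Type*} [Group G] [Finite G] (p : ℕ) [Fact p.Prime] (S : Sylow p G) (hS1 : (S : Subgroup G) ≠ ⊥) (ha : ∀ T : Subgroup G, (Cfsg.groupFusionSystem (S : Subgroup G)).StronglyClosed T → T = ⊥ ∨ T = (S : Subgroup G)) (hb : Cfsg.autInducedBy ⊤ (S : Subgroup G) = ⨆ (R : Subgroup G) (_ : (Cfsg.groupFusionSystem (S : Subgroup G)).IsFullyNormalized R ∧ (Cfsg.groupFusionSystem (S : Subgroup G)).IsRadical p R ∧ (Cfsg.groupFusionSystem (S : Subgroup G)).IsCentric R), Cfsg.autInducedBy (Subgroup.closure {g : G | g ∈ Subgroup.normalizer (R : Set G) ∧ ∃ k : ℕ, orderOf g = p ^ k}) (S : Subgroup G)) : (Cfsg.groupFusionSystem (S : Subgroup G)).IsSimple p := by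
  have hSp : IsPGroup p (S : Subgroup G) := S.isPGroup'
  have hsat : (groupFusionSystem (S : Subgroup G)).IsSaturated p := Cfsg.Agent.S5076.result p S
  have hsat' := (Cfsg.Agent.S5077.result p hSp (groupFusionSystem (S : Subgroup G))).1 hsat
  refine ⟨hsat, hS1, ?_⟩
  intro T E hE
  obtain ⟨⟨hEsat, -, hinv⟩, -⟩ := hE
  rcases ha T hinv.2.1 with hT | hT
  · exact Or.inl hT
  · refine Or.inr ⟨hT, ?_⟩
    subst hT
    set F := groupFusionSystem (S : Subgroup G) with hFdef
    have hEF : ∀ P : Subgroup G, E.Hom P ⊆ F.Hom P := hinv.1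
    -- conjugation maps are in F
    have hconjF : ∀ (R : Subgroup G) (_ : R ≤ (S : Subgroup G)) (β : MulAut R) (g : G)
        (_ : ∀ x : R, ((β x : R) : G) = g * x * g⁻¹), Mor F β.toMonoidHom := by
      intro R hRS β g hg
      exact ⟨hRS, fun x => hRS (β x).2, g, hg⟩
    -- key: Aut_F(S) ≤ Aut_E(S)
    have hkey : F.autGroup (S : Subgroup G) ≤ E.autGroup (S : Subgroup G) := by
      have h1 : F.autGroup (S : Subgroup G) ≤ autInducedBy ⊤ (S : Subgroup G) := by
        intro α hα
        obtain ⟨-, -, g, hg⟩ := (mem_autGroup_iff F le_rfl α).1 hα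
        exact (mem_autInducedBy_iff _ _ _).2 ⟨g, Subgroup.mem_top g, hg⟩
      refine h1.trans ?_
      rw [hb]
      refine iSup_le fun R => iSup_le fun hR => ?_
      obtain ⟨hRn, -, hRc⟩ := hR
      have hRS : R ≤ (S : Subgroup G) := hRn.1
      have hRa : F.IsFullyAutomized p R := (hsat'.1 R hRn).2
      -- elements of the closure act on R as elements of Aut_E(R)
      have hcl : ∀ g ∈ Subgroup.closure {g : G | g ∈ Subgroup.normalizer (R : Set G) ∧
          ∃ k : ℕ, orderOf g = p ^ k}, g ∈ Subgroup.normalizer (R : Set G) ∧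
          ∀ β : MulAut R, (∀ x : R, ((β x : R) : G) = g * x * g⁻¹) → β ∈ E.autGroup R := by
        intro g hg
        induction hg using Subgroup.closure_induction with
        | mem g hg =>
          obtain ⟨hgN, k, hk⟩ := hg
          refine ⟨hgN, ?_⟩
          intro β hβ
          rw [mem_autGroup_iff E hRS]
          refine pElement_mem_aut_of_invariant F E hinv hRa β (hconjF R hRS β g hβ) k ?_
          ext x
          rw [autInducedBy_pow hβ, ← hk, pow_orderOf_eq_one]
          simp
        | one =>
          refine ⟨Subgroup.one_mem _, ?_⟩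
          intro β hβ
          have : β = 1 := by
            ext x
            rw [hβ]; simp
          rw [this]; exact Subgroup.one_mem _
        | mul g h hg' hh' ihg ihh =>
          refine ⟨Subgroup.mul_mem _ ihg.1 ihh.1, ?_⟩
          intro β hβ
          have h1 := ihg.2 (conjAut R g ihg.1) (fun x => rfl)
          have h2 := ihh.2 (conjAut R h ihh.1) (fun x => rfl)
          have h3 : β = conjAut R g ihg.1 * conjAut R h ihh.1 := by
            ext x
            rw [hβ, MulAut.mul_apply, conjAut_apply, conjAut_apply]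
            group
          rw [h3]
          exact Subgroup.mul_mem _ h1 h2
        | inv g hg' ihg =>
          refine ⟨Subgroup.inv_mem _ ihg.1, ?_⟩
          intro β hβ
          have h2 := ihg.2 β⁻¹ (by
            intro x
            have h3 := hβ (β⁻¹ x)
            rw [MulAut.apply_inv_self] at h3
            rw [h3]
            group)
          simpa using (E.autGroup R).inv_mem h2
      intro α hα
      obtain ⟨g, hg, hg'⟩ := (mem_autInducedBy_iff _ _ α).1 hα
      obtain ⟨hgN, hgE⟩ := hcl g hg
      have h2 : Mor E (conjAut R g hgN).toMonoidHom :=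
        (mem_autGroup_iff E hRS _).1 (hgE _ (fun x => rfl))
      rw [mem_autGroup_iff E le_rfl]
      refine aut_mem_of_restrict_centric hSp F E hsat hEsat hEF α (hconjF _ le_rfl α g hg') _ R hRS
        hRc le_rfl ?_
      have h3 : ((S : Subgroup G).subtype.comp α.toMonoidHom).comp (Subgroup.inclusion hRS) =
          R.subtype.comp (conjAut R g hgN).toMonoidHom := by
        ext x
        exact hg' _
      rw [h3]
      exact h2
    intro P
    apply Set.Subset.antisymm (hEF P)
    intro φ hφ
    have hPS : P ≤ (S : Subgroup G) := (F.le_of_mem hφ).1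
    obtain ⟨α, hα, φ₀, hφ₀, hfac⟩ := hinv.2.2.2 P hPS φ hφ
    have hαE : Mor E α.toMonoidHom := (mem_autGroup_iff E le_rfl α).1 (hkey hα)
    have hφ₀S := (E.le_of_mem hφ₀).2
    have h1 := Mor.comp_hom hαE (mor_of_mem E hφ₀ hφ₀S)
    have h2 : φ = ((S : Subgroup G).subtype.comp α.toMonoidHom).comp (φ₀.codRestrict _ hφ₀S) := by
      ext x
      exact hfac x (hφ₀S x)
    rw [h2]
    exact h1

end Cfsg.Agent.S5160
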