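import Cfsg.Statements.S5164

set_option autoImplicit false
open Cfsg

namespace Cfsg.Agent.S5164

open Equiv


/-- A `p`-group of permutations of fewer than `p ^ 2` points is commutative. -/
theorem comm_of_small {α : Type*} [Finite α] (p : ℕ) [Fact p.Prime] (H : Subgroup (Perm α))
    (hH : IsPGroup p H) (hcard : Nat.card α < p ^ 2) (x y : Perm α) (hx : x ∈ H) (hy : y ∈ H) :
    x * y = y * x := by
  classical
  have hp : p.Prime := Fact.out
  ext a
  let O := MulAction.orbit H a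
  obtain ⟨k, hk⟩ := hH.card_orbit a
  have hOle : Nat.card O ≤ Nat.card α := Nat.card_le_card_of_injective _ Subtype.val_injective
  have hk1 : k ≤ 1 := by
    by_contra hcon
    have h2 : 2 ≤ k := by omega
    have : p ^ 2 ≤ p ^ k := Nat.pow_le_pow_right hp.pos h2
    have h3 : Nat.card O = p ^ k := hk
    omega
  have hOp : Nat.card O ≤ p := by
    have h3 : Nat.card O = p ^ k := hk
    rw [h3]
    calc p ^ k ≤ p ^ 1 := Nat.pow_le_pow_right hp.pos hk1
      _ = p := pow_one p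
  let f : H →* Perm O := MulAction.toPermHom H O
  obtain ⟨m, hm⟩ := (IsPGroup.iff_card (p := p) (G := H)).mp hH
  have hd1 : Nat.card f.range ∣ p ^ m := hm ▸ Subgroup.card_range_dvd f
  have hd2 : Nat.card f.range ∣ p * (p - 1).factorial := by
    have h1 : Nat.card f.range ∣ Nat.card (Perm O) := Subgroup.card_subgroup_dvd_card _
    rw [Nat.card_perm] at h1
    have h2 : (Nat.card O).factorial ∣ p.factorial := Nat.factorial_dvd_factorial hOp
    have h3 : p.factorial = p * (p - 1).factorial := (Nat.mul_factorial_pred hp.ne_zero).symm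
    rw [← h3]
    exact h1.trans h2
  have hcop : Nat.Coprime p (p - 1).factorial := by
    rw [hp.coprime_iff_not_dvd, hp.dvd_factorial]
    have := hp.pos
    omega
  have hcop2 : Nat.Coprime (Nat.card f.range) (p - 1).factorial :=
    Nat.Coprime.coprime_dvd_left hd1 (Nat.Coprime.pow_left m hcop)
  have hd3 : Nat.card f.range ∣ p := hcop2.dvd_of_dvd_mul_right hd2
  have : IsCyclic f.range := isCyclic_of_card_dvd_prime hd3
  have : IsMulCommutative f.range := IsCyclic.isMulCommutative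
  have hc := mul_comm' (⟨f ⟨x, hx⟩, ⟨_, rfl⟩⟩ : f.range) ⟨f ⟨y, hy⟩, ⟨_, rfl⟩⟩
  have hc' : f ⟨x, hx⟩ * f ⟨y, hy⟩ = f ⟨y, hy⟩ * f ⟨x, hx⟩ := congrArg Subtype.val hc
  have hc'' := congrArg (fun σ : Perm O => ((σ ⟨a, MulAction.mem_orbit_self a⟩ : O) : α)) hc'
  exact hc''

/-- If a `p`-subgroup contains two non-commuting elements, no Sylow `p`-subgroup is commutative. -/
theorem not_comm_of_pSubgroup {G : Type*} [Group G] [Finite G] (p : ℕ) [Fact p.Prime]
    (S : Sylow p G) (H : Subgroup G) (hH : IsPGroup p H) (x y : G) (hx : x ∈ H) (hy : y ∈ H)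
    (hxy : x * y ≠ y * x) : ¬ IsMulCommutative S := by
  intro hS
  obtain ⟨R, hR⟩ := hH.exists_le_sylow
  obtain ⟨g, hg⟩ := MulAction.exists_smul_eq G R S
  have key : ∀ z ∈ H, g * z * g⁻¹ ∈ (S : Subgroup G) := by
    intro z hz
    rw [← hg, Sylow.coe_subgroup_smul]
    have := Subgroup.smul_mem_pointwise_smul _ (MulAut.conj g) (R : Subgroup G) (hR hz)
    simpa using this
  have hc := mul_comm' (⟨g * x * g⁻¹, key x hx⟩ : S) ⟨g * y * g⁻¹, key y hy⟩
  have hc' : (g * x * g⁻¹) * (g * y * g⁻¹) = (g * y * g⁻¹) * (g * x * g⁻¹) :=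
    congrArg Subtype.val hc
  apply hxy
  have h1 : g * (x * y) * g⁻¹ = g * (y * x) * g⁻¹ := by
    calc g * (x * y) * g⁻¹ = (g * x * g⁻¹) * (g * y * g⁻¹) := by group
      _ = (g * y * g⁻¹) * (g * x * g⁻¹) := hc'
      _ = g * (y * x) * g⁻¹ := by group
  exact mul_left_cancel (mul_right_cancel h1)



/-- The Heisenberg group acting on `ZMod p × ZMod p`. -/
def heis (p : ℕ) : Subgroup (Perm (ZMod p × ZMod p)) where
  carrier := {σ | ∃ u v w : ZMod p, ∀ x, σ x = (x.1 + u * x.2 + w, x.2 + v)}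
  one_mem' := ⟨0, 0, 0, by intro x; simp⟩
  mul_mem' := by
    rintro σ τ ⟨u, v, w, h⟩ ⟨u', v', w', h'⟩
    refine ⟨u + u', v + v', w + w' + u * v', fun x => ?_⟩
    rw [Perm.mul_apply, h', h]
    ext <;> simp <;> ring
  inv_mem' := by
    rintro σ ⟨u, v, w, h⟩
    refine ⟨-u, -v, u * v - w, fun x => ?_⟩
    rw [Perm.inv_eq_iff_eq, h]
    ext <;> simp <;> ring

theorem heis_pow (p : ℕ) (σ : Perm (ZMod p × ZMod p)) (u v w : ZMod p)
    (h : ∀ x, σ x = (x.1 + u * x.2 + w, x.2 + v)) (k : ℕ) :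
    ∀ x, (σ ^ k) x = (x.1 + k * u * x.2 + (k * w + (k.choose 2 : ℕ) * u * v), x.2 + k * v) := by
  induction k with
  | zero => intro x; simp
  | succ k ih =>
    intro x
    rw [pow_succ, Perm.mul_apply, ih, h]
    have hc : ((k + 1).choose 2 : ℕ) = k + k.choose 2 := by
      rw [Nat.choose_succ_succ' k 1, Nat.choose_one_right]
    rw [hc]
    ext <;> simp <;> ring

theorem heis_isPGroup (p : ℕ) : IsPGroup p (heis p) := by
  rintro ⟨σ, u, v, w, h⟩
  refine ⟨2, Subtype.ext ?_⟩
  show σ ^ (p ^ 2) = 1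
  rw [sq, pow_mul]
  have h1 := heis_pow p σ u v w h p
  have h2 : ∀ x, (σ ^ p) x = (x.1 + 0 * x.2 + ((p.choose 2 : ℕ) * u * v), x.2 + 0) := by
    intro x
    rw [h1]
    simp
  have h3 := heis_pow p (σ ^ p) 0 0 _ h2 p
  ext x : 1
  rw [h3]
  simp

def ha (p : ℕ) : Perm (ZMod p × ZMod p) where
  toFun x := (x.1 + x.2, x.2)
  invFun x := (x.1 - x.2, x.2)
  left_inv x := by simp
  right_inv x := by simp

def hb (p : ℕ) : Perm (ZMod p × ZMod p) where
  toFun x := (x.1, x.2 + 1)
  invFun x := (x.1, x.2 - 1)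
  left_inv x := by simp
  right_inv x := by simp

theorem ha_mem (p : ℕ) : ha p ∈ heis p := ⟨1, 0, 0, fun x => by simp [ha]⟩
theorem hb_mem (p : ℕ) : hb p ∈ heis p := ⟨0, 1, 0, fun x => by simp [hb]⟩

theorem ha_hb_ne (p : ℕ) [Fact p.Prime] : ha p * hb p ≠ hb p * ha p := by
  intro h
  have h1 := congrArg (fun σ : Perm (ZMod p × ZMod p) => (σ (0, 0)).1) h
  simp [ha, hb] at h1

/-- An element of `p`-power order, `p` odd, is an even permutation. -/
theorem sign_eq_one_of_pow {α : Type*} [Fintype α] [DecidableEq α] (p k : ℕ) (hp : Odd p)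
    (σ : Perm α) (h : σ ^ (p ^ k) = 1) : Perm.sign σ = 1 := by
  have h1 : (Perm.sign σ) ^ (p ^ k) = 1 := by rw [← map_pow, h, map_one]
  rcases Int.units_eq_one_or (Perm.sign σ) with h2 | h2
  · exact h2
  · rw [h2, (hp.pow).neg_one_pow] at h1
    exact absurd h1 (by decide)



def da : Perm (Fin 6) := c[0, 1, 2, 3] * c[4, 5]
def db : Perm (Fin 6) := c[0, 2] * c[4, 5]

theorem da_pow : da ^ (2 ^ 2) = 1 := by decide
theorem db_pow : db ^ (2 ^ 1) = 1 := by decide
theorem da_db : db * da * db⁻¹ = da⁻¹ := by decide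
theorem da_db_ne : da * db ≠ db * da := by decide
theorem da_sign : Perm.sign da = 1 := by decide
theorem db_sign : Perm.sign db = 1 := by decide

theorem isPGroup_zpowers {G : Type*} [Group G] (p k : ℕ) (g : G) (h : g ^ (p ^ k) = 1) :
    IsPGroup p (Subgroup.zpowers g) := by
  rintro ⟨x, n, rfl⟩
  refine ⟨k, Subtype.ext ?_⟩
  show (g ^ n) ^ (p ^ k) = 1
  rw [← zpow_natCast, ← zpow_mul, mul_comm, zpow_mul, zpow_natCast, h, one_zpow]

theorem d8_isPGroup : IsPGroup 2 (Subgroup.zpowers db ⊔ Subgroup.zpowers da : Subgroup (Perm (Fin 6))) := by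
  apply IsPGroup.to_sup_of_normal_right' (isPGroup_zpowers 2 1 db db_pow) (isPGroup_zpowers 2 2 da da_pow)
  rw [Subgroup.zpowers_le]
  rw [Subgroup.mem_normalizer_iff]
  intro h
  have key : ∀ n : ℤ, db * da ^ n * db⁻¹ = da ^ (-n) := by
    intro n
    have := (MulAut.conj db).toMonoidHom.map_zpow da n
    simp only [MulEquiv.coe_toMonoidHom, MulAut.conj_apply] at this
    rw [this, da_db, inv_zpow, zpow_neg]
  constructor
  · rintro ⟨n, rfl⟩
    exact ⟨-n, (key n).symm⟩
  · rintro ⟨n, hn⟩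
    refine ⟨-n, ?_⟩
    have h1 : h = db⁻¹ * (db * h * db⁻¹) * db := by group
    have h2 : db⁻¹ = db := by decide
    rw [h1, ← hn]
    show da ^ (-n) = _
    rw [← key n, h2]

theorem nonabelian_pSubgroup (n p : ℕ) (hn : 6 ≤ n) [Fact p.Prime] (hnp : p ^ 2 ≤ n) :
    ∃ (H : Subgroup (alternatingGroup (Fin n))) (x y : alternatingGroup (Fin n)),
      IsPGroup p H ∧ x ∈ H ∧ y ∈ H ∧ x * y ≠ y * x := by
  classical
  have hp : p.Prime := Fact.out
  rcases hp.eq_two_or_odd' with rfl | hodd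
  · -- p = 2
    let e : Fin 6 ↪ Fin n := Fin.castLEEmb hn
    let ι := Perm.viaEmbeddingHom e
    have hι : Function.Injective ι := Perm.viaEmbeddingHom_injective e
    have hsign : ∀ σ : Perm (Fin 6), Perm.sign (ι σ) = Perm.sign σ := by
      intro σ
      exact @Perm.sign_extendDomain _ _ _ _ _ _ σ _ (fun a => Classical.propDecidable _) _
    let H₀ : Subgroup (Perm (Fin 6)) := Subgroup.zpowers db ⊔ Subgroup.zpowers da
    refine ⟨(H₀.map ι).subgroupOf (alternatingGroup (Fin n)),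
      ⟨ι da, by rw [Perm.mem_alternatingGroup, hsign, da_sign]⟩,
      ⟨ι db, by rw [Perm.mem_alternatingGroup, hsign, db_sign]⟩, ?_, ?_, ?_, ?_⟩
    · exact (d8_isPGroup.map ι).comap_of_injective _ (Subgroup.subtype_injective _)
    · rw [Subgroup.mem_subgroupOf]
      exact ⟨da, (le_sup_right : Subgroup.zpowers da ≤ H₀) (Subgroup.mem_zpowers da), rfl⟩
    · rw [Subgroup.mem_subgroupOf]
      exact ⟨db, (le_sup_left : Subgroup.zpowers db ≤ H₀) (Subgroup.mem_zpowers db), rfl⟩
    · intro h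
      have h1 : ι da * ι db = ι db * ι da := congrArg Subtype.val h
      rw [← map_mul, ← map_mul] at h1
      exact da_db_ne (hι h1)
  · -- p odd
    have : NeZero p := ⟨hp.ne_zero⟩
    have hcard : Fintype.card (ZMod p × ZMod p) ≤ Fintype.card (Fin n) := by
      rw [Fintype.card_prod, ZMod.card, Fintype.card_fin, ← sq]
      exact hnp
    obtain ⟨e⟩ := Function.Embedding.nonempty_of_card_le hcard
    let ι := Perm.viaEmbeddingHom e
    have hι : Function.Injective ι := Perm.viaEmbeddingHom_injective e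
    have heven : ∀ σ ∈ heis p, ι σ ∈ alternatingGroup (Fin n) := by
      intro σ hσ
      obtain ⟨k, hk⟩ := heis_isPGroup p ⟨σ, hσ⟩
      have hk' : σ ^ (p ^ k) = 1 := congrArg Subtype.val hk
      rw [Perm.mem_alternatingGroup]
      apply sign_eq_one_of_pow p k hodd
      rw [← map_pow, hk', map_one]
    refine ⟨((heis p).map ι).subgroupOf (alternatingGroup (Fin n)),
      ⟨ι (ha p), heven _ (ha_mem p)⟩, ⟨ι (hb p), heven _ (hb_mem p)⟩, ?_, ?_, ?_, ?_⟩
    · exact ((heis_isPGroup p).map ι).comap_of_injective _ (Subgroup.subtype_injective _)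
    · rw [Subgroup.mem_subgroupOf]
      exact ⟨ha p, ha_mem p, rfl⟩
    · rw [Subgroup.mem_subgroupOf]
      exact ⟨hb p, hb_mem p, rfl⟩
    · intro h
      have h1 : ι (ha p) * ι (hb p) = ι (hb p) * ι (ha p) := congrArg Subtype.val h
      rw [← map_mul, ← map_mul] at h1
      exact ha_hb_ne p (hι h1)

theorem result (n p : ℕ) (hn : 6 ≤ n) [Fact p.Prime] (S : Sylow p (alternatingGroup (Fin n))) (hS : (S : Subgroup (alternatingGroup (Fin n))) ≠ ⊥) : IsMulCommutative S ↔ n < p ^ 2 := by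
  constructor
  · intro hc
    by_contra hcon
    obtain ⟨H, x, y, hH, hx, hy, hxy⟩ := nonabelian_pSubgroup n p hn (not_lt.mp hcon)
    exact not_comm_of_pSubgroup p S H hH x y hx hy hxy hc
  · intro hlt
    refine ⟨⟨fun x y => ?_⟩⟩
    have hH : IsPGroup p ((S : Subgroup (alternatingGroup (Fin n))).map (alternatingGroup (Fin n)).subtype) :=
      S.isPGroup'.map _
    have := comm_of_small p _ hH (by simpa using hlt) (x : alternatingGroup (Fin n)) (y : alternatingGroup (Fin n))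
      ⟨x, x.2, rfl⟩ ⟨y, y.2, rfl⟩
    exact Subtype.ext (Subtype.ext this)

end Cfsg.Agent.S5164
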