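import Cfsg.Statements.S5345

set_option autoImplicit false
open Cfsg

namespace Cfsg.Agent.S5345

variable {G : Type*} [Group G]

lemma sq_of_order {d : G} (h : orderOf d = 2) : d * d = 1 := by
  have := pow_orderOf_eq_one d
  rwa [h, pow_two] at this

lemma comm_of_sq {a b : G} (ha : a * a = 1) (hb : b * b = 1) (h : (a * b) ^ 2 = 1) : a * b = b * a := by
  rw [pow_two] at h
  calc a * b = (b * b) * a * b * (a * a) := by rw [ha, hb, one_mul, mul_one]
    _ = b * (b * a) * (b * a) * a := by group
    _ = b * ((a * b) * (a * b))⁻¹ * a := by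
        have hai : a⁻¹ = a := inv_eq_of_mul_eq_one_left ha
        have hbi : b⁻¹ = b := inv_eq_of_mul_eq_one_left hb
        simp only [mul_inv_rev, hai, hbi, mul_assoc]
    _ = b * a := by rw [h, inv_one, mul_one]

/-- Members of `D` lying in a common 2-subgroup commute. -/
lemma comm_in_two_group {D : Set G} (hD : Cfsg.IsThreeTranspositionSet D) (T : Subgroup G)
    (hT : IsPGroup 2 T) {a b : G} (ha : a ∈ D) (hb : b ∈ D) (haT : a ∈ T) (hbT : b ∈ T) :
    a * b = b * a := by
  have ha2 := sq_of_order (hD.1 a ha)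
  have hb2 := sq_of_order (hD.1 b hb)
  rcases hD.2 a ha b hb with h | h
  · exact comm_of_sq ha2 hb2 h
  · obtain ⟨k, hk⟩ := hT ⟨a * b, T.mul_mem haT hbT⟩
    have hk' : (a * b) ^ (2 ^ k) = 1 := by
      have := congrArg Subtype.val hk
      simpa using this
    have h1 := orderOf_dvd_of_pow_eq_one hk'
    have h2 := orderOf_dvd_of_pow_eq_one h
    have hc : Nat.Coprime (2 ^ k) 3 := Nat.Coprime.pow_left _ (by norm_num)
    have h3 := orderOf_eq_one_iff.1 (Nat.eq_one_of_dvd_coprimes hc h1 h2)
    have : a = b⁻¹ := eq_inv_of_mul_eq_one_left h3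
    rw [this]; simp

/-- A set of pairwise commuting involutions generates a 2-group. -/
lemma isPGroup_closure {E : Set G} (hinv : ∀ e ∈ E, e * e = 1)
    (hcomm : ∀ a ∈ E, ∀ b ∈ E, a * b = b * a) : IsPGroup 2 (Subgroup.closure E) := by
  have hc : IsMulCommutative (Subgroup.closure E) := Subgroup.isMulCommutative_closure hcomm
  have key : ∀ x ∈ Subgroup.closure E, x * x = 1 := by
    intro x hx
    induction hx using Subgroup.closure_induction with
    | mem x hx => exact hinv x hx
    | one => simp
    | mul x y hx hy ihx ihy =>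
      have := Subgroup.mul_comm_of_mem_isMulCommutative (H := Subgroup.closure E) hx hy
      calc x * y * (x * y) = x * (y * x) * y := by group
        _ = x * (x * y) * y := by rw [this]
        _ = (x * x) * (y * y) := by group
        _ = 1 := by rw [ihx, ihy, one_mul]
    | inv x hx ih =>
      have : x⁻¹ = x := inv_eq_of_mul_eq_one_left ih
      rw [this, ih]
  intro x
  refine ⟨1, ?_⟩
  apply Subtype.ext
  have := key x x.2
  simpa [pow_two] using this

/-- Let D be a conjugation-invariant generating set of 3-transpositions of a finite group G and T a Sylow 2-subgroup of G. Then the members of D lying in T generate an abelian subgroup, and their number is the width of D (the largest number of pairwise commuting members of D). -/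
theorem result {G : Type*} [Group G] [Finite G] {D : Set G} (hD : Cfsg.IsThreeTranspositionGroup D) (T : Sylow 2 G) : IsMulCommutative (Subgroup.closure {d : G | d ∈ D ∧ d ∈ T}) ∧ {d : G | d ∈ D ∧ d ∈ T}.ncard = Cfsg.commutingWidth D := by
  obtain ⟨hset, hconj, -⟩ := hD
  have hcomm : ∀ x ∈ {d : G | d ∈ D ∧ d ∈ T}, ∀ y ∈ {d : G | d ∈ D ∧ d ∈ T}, x * y = y * x := by
    rintro x ⟨hx, hxT⟩ y ⟨hy, hyT⟩
    exact comm_in_two_group hset T T.2 hx hy hxT hyT
  refine ⟨Subgroup.isMulCommutative_closure hcomm, ?_⟩
  symm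
  unfold Cfsg.commutingWidth
  apply IsGreatest.csSup_eq
  constructor
  · exact ⟨_, fun x hx => hx.1, Set.toFinite _, hcomm, rfl⟩
  · rintro n ⟨E, hED, hEfin, hEc, rfl⟩
    have hP : IsPGroup 2 (Subgroup.closure E) :=
      isPGroup_closure (fun e he => sq_of_order (hset.1 e (hED he))) hEc
    obtain ⟨Q, hQ⟩ := hP.exists_le_sylow
    haveI : Fact (Nat.Prime 2) := ⟨Nat.prime_two⟩
    obtain ⟨g, hg⟩ := MulAction.exists_smul_eq G Q T
    apply Set.ncard_le_ncard_of_injOn (fun x => g * x * g⁻¹) _ _ (Set.toFinite _)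
    · intro x hx
      refine ⟨hconj g x (hED hx), ?_⟩
      have hxQ : x ∈ Q := hQ (Subgroup.subset_closure hx)
      rw [← hg]
      show g * x * g⁻¹ ∈ (g • Q : Sylow 2 G)
      rw [Sylow.smul_def, ← SetLike.mem_coe]
      exact ⟨x, hxQ, rfl⟩
    · intro x _ y _ hxy
      simpa using hxy

end Cfsg.Agent.S5345
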