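import Cfsg.Statements.S5346
import Cfsg.Agent.Lib.Helper89.WidthOne
import Cfsg.Agent.Lib.Helper8.ThreeTransp

set_option autoImplicit false
open Cfsg

namespace Cfsg.Agent.S5346

open Cfsg.Agent.Lib.Helper89 Cfsg.Agent.Lib.Helper8 Cfsg.Agent.Lib.Lead

variable {G : Type*} [Group G]

/-- Width one means that different members do not commute. -/
theorem width_eq_one_iff [Finite G] {D : Set G} {d : G} (hd : d ∈ D) :
    Cfsg.commutingWidth D = 1 ↔ ∀ a ∈ D, ∀ b ∈ D, Commute a b → a = b := by
  unfold Cfsg.commutingWidth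
  have hbdd : BddAbove {n : ℕ | ∃ E : Set G, E ⊆ D ∧ E.Finite ∧ (∀ a ∈ E, ∀ b ∈ E, Commute a b) ∧
      E.ncard = n} := by
    refine ⟨Nat.card G, ?_⟩
    rintro n ⟨E, -, -, -, rfl⟩
    rw [← Set.ncard_univ]
    exact Set.ncard_le_ncard (Set.subset_univ _) (Set.toFinite _)
  constructor
  · intro h a ha b hb hab
    by_contra hne
    have hmem : 2 ∈ {n : ℕ | ∃ E : Set G, E ⊆ D ∧ E.Finite ∧ (∀ a ∈ E, ∀ b ∈ E, Commute a b) ∧
        E.ncard = n} := by
      refine ⟨{a, b}, ?_, Set.toFinite _, ?_, Set.ncard_pair hne⟩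
      · rintro x (rfl | rfl)
        · exact ha
        · exact hb
      · rintro x (rfl | rfl) y (rfl | rfl)
        · exact Commute.refl _
        · exact hab
        · exact hab.symm
        · exact Commute.refl _
    have := le_csSup hbdd hmem
    omega
  · intro h
    apply IsGreatest.csSup_eq
    constructor
    · exact ⟨{d}, by simpa using hd, Set.toFinite _, by simp, Set.ncard_singleton d⟩
    · rintro n ⟨E, hED, -, hc, rfl⟩
      rw [Set.ncard_le_one (Set.toFinite _)]
      intro a ha b hb
      exact h a (hED ha) b (hED hb) (hc a ha b hb)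

/-- Let D be a conjugation-invariant generating set of 3-transpositions of a finite group G and d a member of D. Then D has width 1 (no two different members of D commute) if and only if G is the product of the subgroup generated by d with the largest normal 3-subgroup of G. -/
theorem result {G : Type*} [Group G] [Finite G] {D : Set G} (hD : Cfsg.IsThreeTranspositionGroup D) {d : G} (hd : d ∈ D) : Cfsg.commutingWidth D = 1 ↔ Subgroup.zpowers d ⊔ Cfsg.pCore 3 G = ⊤ := by
  rw [width_eq_one_iff hd]
  obtain ⟨hset, hconj, hgen⟩ := hD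
  constructor
  · intro h
    have hbr : ∀ p ∈ D, ∀ q ∈ D, p * q * p = q * p * q := by
      intro p hp q hq
      rcases tt_commute_or_braid hset hp hq with hc | hc
      · rw [h p hp q hq hc]
      · exact hc
    rw [eq_top_iff, ← hgen, Subgroup.closure_le]
    intro e he
    have h1 := mul_mem_pCore_three (fun p hp => tt_mul_self hset hp) hconj hbr hd he
    have h2 : e = d * (d * e) := by
      rw [← mul_assoc, tt_mul_self hset hd, one_mul]
    rw [h2]
    exact Subgroup.mul_mem_sup (Subgroup.mem_zpowers d) h1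
  · intro h a ha b hb hab
    have hN : IsPGroup 3 (Cfsg.pCore 3 G) := pCore_isPGroup 3 G
    have : (Cfsg.pCore 3 G).Normal := pCore_normal' 3 G
    have hd2 := tt_mul_self hset hd
    -- an element of the core whose square is one is trivial
    have htriv : ∀ x ∈ Cfsg.pCore 3 G, x * x = 1 → x = 1 := by
      intro x hx hx2
      obtain ⟨k, hk⟩ := hN ⟨x, hx⟩
      have hk' : x ^ 3 ^ k = 1 := by simpa using congrArg Subtype.val hk
      have h1 : orderOf x ∣ 3 ^ k := orderOf_dvd_of_pow_eq_one hk'
      have h2 : orderOf x ∣ 2 := orderOf_dvd_of_pow_eq_one (by rw [pow_two]; exact hx2)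
      have h3 : Nat.Coprime (3 ^ k) 2 := Nat.Coprime.pow_left _ (by norm_num)
      exact orderOf_eq_one_iff.mp (Nat.eq_one_of_dvd_coprimes h3 h1 h2)
    have hcos : ∀ x ∈ D, d * x ∈ Cfsg.pCore 3 G := by
      intro x hx
      have hx' : x ∈ Subgroup.zpowers d ⊔ Cfsg.pCore 3 G := by rw [h]; trivial
      obtain ⟨y, hy, n, hn, rfl⟩ := Subgroup.mem_sup_of_normal_right.mp hx'
      obtain ⟨k, rfl⟩ := Subgroup.mem_zpowers_iff.mp hy
      rcases Int.even_or_odd' k with ⟨m, rfl | rfl⟩
      · exfalso
        have e1 : d ^ (2 * m) = 1 := by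
          rw [zpow_mul, zpow_ofNat, pow_two, hd2, one_zpow]
        rw [e1, one_mul] at hx
        exact tt_ne_one hset hx (htriv n hn (tt_mul_self hset hx))
      · have e1 : d ^ (2 * m + 1) = d := by
          rw [zpow_add, zpow_mul, zpow_ofNat, pow_two, hd2, one_zpow, one_mul, zpow_one]
        rw [e1, ← mul_assoc, hd2, one_mul]
        exact hn
    have h1 : a * b ∈ Cfsg.pCore 3 G := by
      have e1 : a * b = (d * a)⁻¹ * (d * b) := by
        rw [mul_inv_rev, tt_inv hset ha]; group
      rw [e1]
      exact Subgroup.mul_mem _ (Subgroup.inv_mem _ (hcos a ha)) (hcos b hb)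
    have h2 : a * b * (a * b) = 1 := by
      calc a * b * (a * b) = a * (b * a) * b := by group
        _ = a * (a * b) * b := by rw [hab.eq]
        _ = (a * a) * (b * b) := by group
        _ = 1 := by rw [tt_mul_self hset ha, tt_mul_self hset hb, one_mul]
    have h3 := htriv _ h1 h2
    rw [← tt_inv hset hb]
    exact eq_inv_of_mul_eq_one_left h3

end Cfsg.Agent.S5346
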