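import Cfsg.Statements.S5349
import Cfsg.Agent.Lib.Helper89.TTClass

set_option autoImplicit false
open Cfsg

namespace Cfsg.Agent.S5349

open Cfsg.Agent.Lib.Helper89 Cfsg.Agent.Lib.Helper8 Cfsg.Agent.Lib.Lead

/-- Let D be a conjugacy class of 3-transpositions generating the finite group G, with at least two members, and d a member of D. Then the set of members of D commuting with exactly the same members of D as d coincides with the set of members of D lying in the coset of d modulo the largest normal 2-subgroup of G, and also with the orbit of d under conjugation by that normal 2-subgroup. -/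
theorem result {G : Type*} [Group G] [Finite G] {D : Set G} (hD : Cfsg.IsThreeTranspositionClass D) (hD2 : ∃ a ∈ D, ∃ b ∈ D, a ≠ b) {d : G} (hd : d ∈ D) : {v : G | v ∈ D ∧ ∀ e ∈ D, Commute v e ↔ Commute d e} = {v : G | v ∈ D ∧ d⁻¹ * v ∈ Cfsg.pCore 2 G} ∧ {v : G | v ∈ D ∧ ∀ e ∈ D, Commute v e ↔ Commute d e} = {v : G | ∃ g ∈ Cfsg.pCore 2 G, v = g * d * g⁻¹} := by
  have hN : (Cfsg.pCore 2 G).Normal := pCore_normal' 2 G
  have hP : IsPGroup 2 (Cfsg.pCore 2 G) := pCore_isPGroup 2 G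
  have h1 : ∀ v, (∃ g ∈ Cfsg.pCore 2 G, v = g * d * g⁻¹) → v ∈ D ∧ d⁻¹ * v ∈ Cfsg.pCore 2 G := by
    rintro v ⟨g, hg, rfl⟩
    refine ⟨ttc_conj_mem hD g hd, ?_⟩
    have : d⁻¹ * (g * d * g⁻¹) = (d⁻¹ * g * d⁻¹⁻¹) * g⁻¹ := by group
    rw [this]
    exact (Cfsg.pCore 2 G).mul_mem (hN.conj_mem g hg d⁻¹) ((Cfsg.pCore 2 G).inv_mem hg)
  have h2 : ∀ v, (v ∈ D ∧ d⁻¹ * v ∈ Cfsg.pCore 2 G) → v ∈ D ∧ ∀ e ∈ D, Commute v e ↔ Commute d e := by
    rintro v ⟨hv, hdv⟩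
    exact ⟨hv, (sim_of_coset hD.1 hP hd hv hdv).symm⟩
  have h3 : ∀ v, (v ∈ D ∧ ∀ e ∈ D, Commute v e ↔ Commute d e) →
      ∃ g ∈ Cfsg.pCore 2 G, v = g * d * g⁻¹ := by
    rintro v ⟨hv, hs⟩
    have hs' : Sim D d v := Sim.symm hs
    obtain ⟨e, he, hde⟩ := exists_not_commute hD hD2 hd
    exact ⟨e * (d * v) * e⁻¹, hN.conj_mem _ (mul_mem_pCore_of_sim hD hd hv hs') e,
      (conj_eq_of_sim hD.1 hd hv he hs' hde).symm⟩
  constructor
  · ext v
    exact ⟨fun h => h1 v (h3 v h), h2 v⟩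
  · ext v
    exact ⟨h3 v, fun h => h2 v (h1 v h)⟩

end Cfsg.Agent.S5349
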