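import Cfsg.Statements.S5350
import Cfsg.Agent.Lib.Helper8.Fischer5

set_option autoImplicit false
open Cfsg

namespace Cfsg.Agent.S5350

open Cfsg.Agent.Lib.Helper8 Cfsg.Agent.Lib.Helper89 Cfsg.Agent.Lib.Lead

/-- Let D be a conjugacy class of 3-transpositions generating the finite group G, with at least two members, and d a member of D. Then the set of members w of D whose commuting partners in D (other than w) are exactly those of d (other than d) coincides with the set of members of D lying in the coset of d modulo the largest normal 3-subgroup of G, and also with the orbit of d under conjugation by that normal 3-subgroup. -/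
theorem result {G : Type*} [Group G] [Finite G] {D : Set G} (hD : Cfsg.IsThreeTranspositionClass D) (hD2 : ∃ a ∈ D, ∃ b ∈ D, a ≠ b) {d : G} (hd : d ∈ D) : {w : G | w ∈ D ∧ {y : G | y ∈ D ∧ y ≠ d ∧ Commute d y} = {y : G | y ∈ D ∧ y ≠ w ∧ Commute w y}} = {w : G | w ∈ D ∧ d⁻¹ * w ∈ Cfsg.pCore 3 G} ∧ {w : G | w ∈ D ∧ {y : G | y ∈ D ∧ y ≠ d ∧ Commute d y} = {y : G | y ∈ D ∧ y ≠ w ∧ Commute w y}} = {w : G | ∃ g ∈ Cfsg.pCore 3 G, w = g * d * g⁻¹} := by
  have hT := hD.1
  have hN := pCore_isPGroup 3 G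
  have hNn : (Cfsg.pCore 3 G).Normal := pCore_normal' 3 G
  have h12 : ∀ w : G, (w ∈ D ∧ Dp D d = Dp D w) ↔ (w ∈ D ∧ d⁻¹ * w ∈ Cfsg.pCore 3 G) := by
    intro w
    constructor
    · rintro ⟨hw, h⟩
      refine ⟨hw, ?_⟩
      rw [tt_inv hT hd]
      exact mul_mem_pCore_three_of_Dp_eq hD hd hw h
    · rintro ⟨hw, h⟩
      exact ⟨hw, Dp_eq_of_coset hT hN hd hw h⟩
  refine ⟨?_, ?_⟩
  · ext w
    exact h12 w
  · ext w
    show (w ∈ D ∧ Dp D d = Dp D w) ↔ _
    constructor
    · rintro ⟨hw, h⟩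
      by_cases hdw : d = w
      · exact ⟨1, one_mem _, by rw [← hdw]; group⟩
      · refine ⟨d * w, mul_mem_pCore_three_of_Dp_eq hD hd hw h, ?_⟩
        exact (tt_mul_star hT hd hw (not_commute_of_Dp_eq hw hdw h)).symm
    · rintro ⟨g, hg, rfl⟩
      rw [h12]
      refine ⟨ttc_conj_mem hD g hd, ?_⟩
      have e : d⁻¹ * (g * d * g⁻¹) = (d⁻¹ * g * d⁻¹⁻¹) * g⁻¹ := by group
      rw [e]
      exact mul_mem (hNn.conj_mem g hg d⁻¹) (inv_mem hg)

end Cfsg.Agent.S5350
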