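import Cfsg.Statements.S5352
import Cfsg.Agent.Lib.Helper89.TTLayer

set_option autoImplicit false
open Cfsg

namespace Cfsg.Agent.S5352

open Cfsg.Agent.Lib.Helper89 Cfsg.Agent.Lib.Helper8 Cfsg.Agent.Lib.Lead Cfsg.Agent.Lib.Helper31

/-- The structure of `F*(G)`, in a reusable form. -/
theorem exists_component {G : Type*} [Group G] [Finite G] {D : Set G}
    (hD : Cfsg.IsThreeTranspositionClass D) (hD2 : ∃ a ∈ D, ∃ b ∈ D, a ≠ b)
    (h2 : Cfsg.pCore 2 G ≤ Subgroup.center G) (h3 : Cfsg.pCore 3 G ≤ Subgroup.center G) :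
    ∃ L : Subgroup G, L.Normal ∧ Cfsg.IsComponent L ∧ Cfsg.layer G = L ∧
      Cfsg.generalizedFittingSubgroup G = L ⊔ Subgroup.center G := by
  have hE := Cfsg.Agent.S5351.layer_ne_bot hD hD2 h2 h3
  obtain ⟨L, hL⟩ := exists_component_of_layer_ne_bot hE
  have hlayer : Cfsg.layer G = L := by
    apply le_antisymm
    · apply sSup_le
      intro K hK
      rw [IsComponent.unique_of_ttc hD h2 h3 hK hL]
    · exact IsComponent.le_layer hL
  refine ⟨L, IsComponent.normal_of_ttc hD hL, hL, hlayer, ?_⟩
  rw [Cfsg.generalizedFittingSubgroup, hlayer]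
  congr 1
  exact le_antisymm (Cfsg.Agent.S5351.fitting_le_center hD h2 h3)
    (Cfsg.Agent.Lib.Helper29.center_le_fittingSubgroup G)

/-- Let D be a conjugacy class of 3-transpositions generating the finite group G, with at least two members, and suppose the largest normal 2-subgroup and the largest normal 3-subgroup of G are both central. Then G has a quasisimple normal subgroup L such that the generalized Fitting subgroup of G is the product of L and the centre; and either L = G or the image of D in G/L has width 1, in the sense that two members of D whose commutator lies in L have the same image modulo L. -/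
theorem result {G : Type*} [Group G] [Finite G] {D : Set G} (hD : Cfsg.IsThreeTranspositionClass D) (hD2 : ∃ a ∈ D, ∃ b ∈ D, a ≠ b) (h2 : Cfsg.pCore 2 G ≤ Subgroup.center G) (h3 : Cfsg.pCore 3 G ≤ Subgroup.center G) : ∃ L : Subgroup G, L.Normal ∧ Cfsg.IsQuasisimple L ∧ Cfsg.generalizedFittingSubgroup G = L ⊔ Subgroup.center G ∧ (L = ⊤ ∨ ∀ a ∈ D, ∀ b ∈ D, a * b * a⁻¹ * b⁻¹ ∈ L → a⁻¹ * b ∈ L) := by
  obtain ⟨L, hn, hL, -, hF⟩ := exists_component hD hD2 h2 h3
  exact ⟨L, hn, hL.2, hF, Or.inr fun a ha b hb hab =>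
    IsComponent.mul_mem_of_commutator_mem hD hL ha hb hab⟩

end Cfsg.Agent.S5352
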