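import Cfsg.Statements.S5353
import Cfsg.Agent.Lib.Helper89.TTPrim

set_option autoImplicit false
open Cfsg

namespace Cfsg.Agent.S5353

open Cfsg.Agent.Lib.Helper8 Cfsg.Agent.Lib.Helper89 Cfsg.Agent.Lib.Helper31

variable {G : Type*} [Group G] {D : Set G}

/-- If all members of `D` lie in one coset of the normal subgroup `L`, then `L` has index at most
two. -/
theorem index_le_two_of_coset [Finite G] (hD : Cfsg.IsThreeTranspositionClass D) (L : Subgroup G)
    [L.Normal] (h : ∀ a ∈ D, ∀ b ∈ D, a⁻¹ * b ∈ L) : L.index ≤ 2 := by
  obtain ⟨d, hd, -⟩ := hD.2.1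
  set f := QuotientGroup.mk' L with hf
  have h1 : ∀ x : G, f x ∈ Subgroup.zpowers (f d) := by
    intro x
    have hx : x ∈ Subgroup.closure D := by rw [hD.2.2]; trivial
    induction hx using Subgroup.closure_induction with
    | mem e he =>
      have h2 : f d = f e := by
        rw [hf, QuotientGroup.mk'_apply, QuotientGroup.mk'_apply, QuotientGroup.eq]
        exact h d hd e he
      rw [← h2]
      exact Subgroup.mem_zpowers _
    | one => rw [map_one]; exact one_mem _
    | mul x y _ _ h₁ h₂ => rw [map_mul]; exact mul_mem h₁ h₂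
    | inv x _ h₁ => rw [map_inv]; exact inv_mem h₁
  have htop : Subgroup.zpowers (f d) = ⊤ := by
    rw [eq_top_iff]
    intro q _
    obtain ⟨x, rfl⟩ := QuotientGroup.mk'_surjective L q
    exact h1 x
  have h2 : Nat.card (G ⧸ L) = orderOf (f d) := by
    rw [← Nat.card_zpowers, htop, Subgroup.card_top]
  have h3 : (f d) ^ 2 = 1 := by
    rw [← map_pow, pow_two, tt_mul_self hD.1 hd, map_one]
  have h4 : orderOf (f d) ≤ 2 := orderOf_le_of_pow_eq_one (by norm_num) h3
  calc L.index = Nat.card (G ⧸ L) := rfl
    _ ≤ 2 := by rw [h2]; exact h4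

/-- Members of `D` joined in the commuting graph lie in the same coset of a normal component. -/
theorem mul_mem_of_reachable (hD : Cfsg.IsThreeTranspositionClass D) {L : Subgroup G}
    (hL : Cfsg.IsComponent L) [hn : L.Normal] {a b : D}
    (h : (Cfsg.commutingGraph D).Reachable a b) : (a : G)⁻¹ * b ∈ L := by
  rw [SimpleGraph.reachable_iff_reflTransGen] at h
  induction h with
  | refl => rw [inv_mul_cancel]; exact one_mem _
  | @tail b c _ hbc ih =>
    have hc : Commute (b : G) (c : G) := by
      unfold Cfsg.commutingGraph at hbc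
      rw [SimpleGraph.fromRel_adj] at hbc
      rcases hbc.2 with h | h
      · exact h
      · exact h.symm
    have h1 : (b : G) * c * (b : G)⁻¹ * (c : G)⁻¹ ∈ L := by
      have : (b : G) * c * (b : G)⁻¹ * (c : G)⁻¹ = 1 := by
        rw [hc.eq]; group
      rw [this]; exact one_mem _
    have h2 := IsComponent.mul_mem_of_commutator_mem hD hL b.2 c.2 h1
    have h3 : (a : G)⁻¹ * c = ((a : G)⁻¹ * b) * ((b : G)⁻¹ * c) := by group
    rw [h3]
    exact mul_mem ih h2

/-- Let D be a conjugacy class of 3-transpositions generating the finite group G, with at least two members, such that the largest normal 2-subgroup and the largest normal 3-subgroup of G are central, and let L be a quasisimple normal subgroup with generalized Fitting subgroup of G equal to L times the centre. If L has index at most 2 then G acts primitively on D by conjugation; and if the commuting graph of D is connected then L has index at most 2. -/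
theorem result {G : Type*} [Group G] [Finite G] {D : Set G} (hD : Cfsg.IsThreeTranspositionClass D) (hD2 : ∃ a ∈ D, ∃ b ∈ D, a ≠ b) (h2 : Cfsg.pCore 2 G ≤ Subgroup.center G) (h3 : Cfsg.pCore 3 G ≤ Subgroup.center G) (L : Subgroup G) [L.Normal] (hL : Cfsg.IsQuasisimple L) (hF : Cfsg.generalizedFittingSubgroup G = L ⊔ Subgroup.center G) : (L.index ≤ 2 → Cfsg.IsPrimitiveUnderConj D) ∧ ((Cfsg.commutingGraph D).Connected → L.index ≤ 2) := by
  constructor
  · intro hidx
    apply isPrimitive_of_kerProp hD hD2 _ h3
    apply kerProp_of_dichotomy hD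
    intro N hN
    rcases normal_dichotomy_of_genFitting hD h2 h3 L hL hF N with h | h
    · left
      exact (commutator_le_of_index_le_two L hidx).trans h
    · right
      exact h
  · intro hconn
    have hLc : Cfsg.IsComponent L := ⟨Subgroup.Normal.isSubnormal inferInstance, hL⟩
    apply index_le_two_of_coset hD
    intro a ha b hb
    exact mul_mem_of_reachable hD hLc (hconn.preconnected ⟨a, ha⟩ ⟨b, hb⟩)

end Cfsg.Agent.S5353
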