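import Cfsg.Statements.S5354
import Cfsg.Agent.Lib.Helper89.TTPrim
import Cfsg.Agent.Lib.Helper8.Fischer2
import Cfsg.Agent.S5352
import Cfsg.Agent.S5353

set_option autoImplicit false
open Cfsg

namespace Cfsg.Agent.S5354

open Cfsg.Agent.Lib.Helper8 Cfsg.Agent.Lib.Helper89 Cfsg.Agent.Lib.Helper31

variable {G : Type*} [Group G] {D : Set G}

local notation:75 g:76 " ⋆ " x:75 => g * x * g⁻¹

theorem isClass (hD : Cfsg.IsThreeTranspositionGroup D) (hprim : Cfsg.IsPrimitiveUnderConj D) :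
    Cfsg.IsThreeTranspositionClass D := by
  obtain ⟨d, hd, -⟩ := hprim.2.1
  refine ⟨hD.1, ⟨d, hd, ?_⟩, hD.2.2⟩
  ext x
  change x ∈ D ↔ IsConj d x
  rw [isConj_iff]
  constructor
  · intro hx
    exact hprim.1 d hd x hx
  · rintro ⟨g, rfl⟩
    exact hD.2.1 g d hd

/-- connectedness in the commuting graph, as a relation on `G` -/
def CC (D : Set G) : G → G → Prop :=
  Relation.ReflTransGen (fun a b => a ∈ D ∧ b ∈ D ∧ Commute a b)

theorem CC_invRel (hD : Cfsg.IsThreeTranspositionClass D) : InvRel (CC D) where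
  refl := fun _ => Relation.ReflTransGen.refl
  symm := by
    intro x y h
    induction h with
    | refl => exact Relation.ReflTransGen.refl
    | tail _ h2 ih => exact Relation.ReflTransGen.head ⟨h2.2.1, h2.1, h2.2.2.symm⟩ ih
  trans := fun h h' => Relation.ReflTransGen.trans h h'
  conj := by
    intro g x y h
    induction h with
    | refl => exact Relation.ReflTransGen.refl
    | tail _ h2 ih =>
      exact Relation.ReflTransGen.tail ih ⟨ttc_conj_mem hD g h2.1, ttc_conj_mem hD g h2.2.1,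
        (Commute.conj_iff g).2 h2.2.2⟩

theorem CC_universal (hD : Cfsg.IsThreeTranspositionClass D) (hK : KerProp D)
    (hw : ∃ a ∈ D, ∃ b ∈ D, a ≠ b ∧ Commute a b) : ∀ x ∈ D, ∀ y ∈ D, CC D x y := by
  obtain ⟨a, ha, b, hb, hab, hc⟩ := hw
  exact blk hD hK (CC_invRel hD) ha hb hab hc (Relation.ReflTransGen.single ⟨ha, hb, hc⟩)

theorem reachable_of_CC {x y : G} (h : CC D x y) (hx : x ∈ D) :
    ∃ hy : y ∈ D, (Cfsg.commutingGraph D).Reachable ⟨x, hx⟩ ⟨y, hy⟩ := by
  induction h with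
  | refl => exact ⟨hx, SimpleGraph.Reachable.refl _⟩
  | @tail b c _ h2 ih =>
    obtain ⟨hb, hr⟩ := ih
    refine ⟨h2.2.1, ?_⟩
    by_cases hbc : b = c
    · subst hbc; exact hr
    · refine hr.trans (SimpleGraph.Adj.reachable ?_)
      unfold Cfsg.commutingGraph
      rw [SimpleGraph.fromRel_adj]
      exact ⟨fun h => hbc (congrArg Subtype.val h), Or.inl h2.2.2⟩

theorem pCore_two_le_center [Finite G] (hD : Cfsg.IsThreeTranspositionClass D) (hK : KerProp D) :
    Cfsg.pCore 2 G ≤ Subgroup.center G := by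
  have : Fact (Nat.Prime 2) := ⟨Nat.prime_two⟩
  have hn : (Cfsg.pCore 2 G).Normal := Cfsg.Agent.Lib.Helper1.pCore_normal 2
  intro g hg
  apply mem_center_of_commute hD
  intro d hd
  have h1 : d⁻¹ * (g ⋆ d) ∈ Cfsg.pCore 2 G := by
    have : d⁻¹ * (g ⋆ d) = (d⁻¹ * g * d⁻¹⁻¹) * g⁻¹ := by group
    rw [this]
    exact mul_mem (hn.conj_mem g hg d⁻¹) (inv_mem hg)
  have h2 := sim_of_coset hD.1 (Cfsg.Agent.Lib.Helper1.pCore_isPGroup 2) hd (ttc_conj_mem hD g hd) h1
  exact (cj_eq_self_iff.1 (v_trivial hD hK hd (ttc_conj_mem hD g hd) h2).symm).symm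

theorem pCore_three_le_center [Finite G] (hD : Cfsg.IsThreeTranspositionClass D) (hK : KerProp D)
    (hw : ∃ a ∈ D, ∃ b ∈ D, a ≠ b ∧ Commute a b) :
    Cfsg.pCore 3 G ≤ Subgroup.center G := by
  have : Fact (Nat.Prime 3) := ⟨Nat.prime_three⟩
  have hn : (Cfsg.pCore 3 G).Normal := Cfsg.Agent.Lib.Helper1.pCore_normal 3
  intro g hg
  apply mem_center_of_commute hD
  intro d hd
  have h1 : d⁻¹ * (g ⋆ d) ∈ Cfsg.pCore 3 G := by
    have : d⁻¹ * (g ⋆ d) = (d⁻¹ * g * d⁻¹⁻¹) * g⁻¹ := by group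
    rw [this]
    exact mul_mem (hn.conj_mem g hg d⁻¹) (inv_mem hg)
  have h2 := Dp_eq_of_coset hD.1 (Cfsg.Agent.Lib.Helper1.pCore_isPGroup 3) hd
    (ttc_conj_mem hD g hd) h1
  exact (cj_eq_self_iff.1 (w_trivial hD hK hw hd (ttc_conj_mem hD g hd) h2).symm).symm

theorem closure_ne_top (hD : Cfsg.IsThreeTranspositionClass D) (hD2 : ∃ a ∈ D, ∃ b ∈ D, a ≠ b)
    {d : G} (hd : d ∈ D) : Subgroup.closure {y : G | y ∈ D ∧ Commute d y} ≠ ⊤ := by
  intro htop
  obtain ⟨c, hc, hdc⟩ := exists_not_commute hD hD2 hd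
  apply hdc
  have hle : Subgroup.closure {y : G | y ∈ D ∧ Commute d y} ≤ Subgroup.centralizer {d} := by
    rw [Subgroup.closure_le]
    intro y hy
    rw [SetLike.mem_coe, Subgroup.mem_centralizer_singleton_iff]
    exact hy.2.symm
  have : c ∈ Subgroup.centralizer {d} := hle (by rw [htop]; trivial)
  exact (Subgroup.mem_centralizer_singleton_iff.1 this).symm

theorem maximal [Finite G] (hD : Cfsg.IsThreeTranspositionClass D) (hK : KerProp D)
    (hw : ∃ a ∈ D, ∃ b ∈ D, a ≠ b ∧ Commute a b) {d : G} (hd : d ∈ D) (H : Subgroup G)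
    (hH : Cfsg.IsDSubgroup D H) (hle : Subgroup.closure {y : G | y ∈ D ∧ Commute d y} ≤ H) :
    H = Subgroup.closure {y : G | y ∈ D ∧ Commute d y} ∨ H = ⊤ := by
  have hT := hD.1
  by_cases hsub : ∀ e ∈ D, e ∈ H → Commute d e
  · left
    apply le_antisymm _ hle
    unfold Cfsg.IsDSubgroup at hH
    rw [← hH]
    apply Subgroup.closure_mono
    intro e he
    exact ⟨he.1, hsub e he.1 he.2⟩
  · right
    push Not at hsub
    obtain ⟨e, he, heH, hde⟩ := hsub
    have hCH : ∀ y ∈ D, Commute d y → y ∈ H := fun y hy hc => hle (Subgroup.subset_closure ⟨hy, hc⟩)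
    have hdH : d ∈ H := hCH d hd (Commute.refl d)
    -- the `H`-class of `d`
    set Δ : Set G := {x | ∃ h ∈ H, h ⋆ d = x} with hΔ
    have hΔH : ∀ x ∈ Δ, x ∈ H := by
      rintro _ ⟨h, hh, rfl⟩
      exact mul_mem (mul_mem hh hdH) (inv_mem hh)
    have hΔD : ∀ x ∈ Δ, x ∈ D := by
      rintro _ ⟨h, _, rfl⟩
      exact ttc_conj_mem hD h hd
    have hΔc : ∀ x ∈ Δ, ∀ k ∈ H, k ⋆ x ∈ Δ := by
      rintro _ ⟨h, hh, rfl⟩ k hk
      exact ⟨k * h, mul_mem hk hh, cj_mul k h d⟩
    have hdΔ : d ∈ Δ := ⟨1, one_mem _, by simp⟩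
    have step : ∀ x ∈ Δ, ∀ z ∈ D, z ∈ H → ¬ Commute x z → z ∈ Δ := by
      intro x hx z hz hzH hxz
      have h1 := (swap_star hT (hΔD x hx) hz hxz).1
      rw [← h1]
      exact hΔc x hx _ (mul_mem (mul_mem (hΔH x hx) hzH) (hΔH x hx))
    have heΔ : e ∈ Δ := step d hdΔ e he heH hde
    -- some member of `D_d` lies in `Δ`
    obtain ⟨y, hy, hye⟩ : ∃ y ∈ Dp D d, ¬ Commute e y := by
      by_contra hcon
      push Not at hcon
      have hsub : Dp D d ⊆ Dp D e := by
        intro y hy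
        refine ⟨hy.1, ?_, hcon y hy⟩
        rintro rfl
        exact hde hy.2.2
      have heq := (Dp_eqv hD).eq_of_subset hD hd he hsub
      have := w_trivial hD hK hw hd he heq
      rw [← this] at hde
      exact hde (Commute.refl d)
    have hyΔ : y ∈ Δ := step e heΔ y hy.1 (hCH y hy.1 hy.2.2) hye
    have hDpH : Subgroup.closure (Dp D d) ≤ H := by
      rw [Subgroup.closure_le]
      intro z hz
      exact hCH z hz.1 hz.2.2
    have hDpΔ : ∀ z ∈ Dp D d, z ∈ Δ := by
      intro z hz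
      obtain ⟨h, hh, rfl⟩ := conn hD hK hw hd y hy z hz
      exact hΔc y hyΔ h (hDpH hh)
    have hCΔ : ∀ z ∈ D, Commute d z → z ∈ Δ := by
      intro z hz hc
      by_cases hzd : z = d
      · rw [hzd]; exact hdΔ
      · exact hDpΔ z ⟨hz, hzd, hc⟩
    have hnb : ∀ x ∈ Δ, ∀ z ∈ D, Commute x z → z ∈ Δ := by
      rintro _ ⟨h, hh, rfl⟩ z hz hc
      have h1 : Commute d (h⁻¹ ⋆ z) := by
        have := (Commute.conj_iff h⁻¹).2 hc
        rwa [cj_inv_cj] at this
      have h2 := hΔc _ (hCΔ _ (ttc_conj_mem hD h⁻¹ hz) h1) h hh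
      rwa [cj_cj_inv] at h2
    have hall : ∀ x, CC D d x → x ∈ Δ := by
      intro x hx
      induction hx with
      | refl => exact hdΔ
      | tail _ h2 ih => exact hnb _ ih _ h2.2.1 h2.2.2
    rw [eq_top_iff, ← hD.2.2, Subgroup.closure_le]
    intro x hx
    exact hΔH x (hall x (CC_universal hD hK hw d hd x hx))

/-- Let D be a conjugation-invariant generating set of 3-transpositions of the finite group G on which G acts primitively by conjugation, and suppose two different members of D commute (width at least 2). Then G has a quasisimple normal subgroup L of index at most 2 with the generalized Fitting subgroup of G equal to L times the centre, the commuting graph of D is connected, and for d in D the subgroup generated by the members of D commuting with d is a maximal D-subgroup: it is proper, and every subgroup generated by members of D that contains it is either it or G. -/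
theorem result {G : Type*} [Group G] [Finite G] {D : Set G} (hD : Cfsg.IsThreeTranspositionGroup D) (hprim : Cfsg.IsPrimitiveUnderConj D) (hw : ∃ a ∈ D, ∃ b ∈ D, a ≠ b ∧ Commute a b) : (∃ L : Subgroup G, L.Normal ∧ Cfsg.IsQuasisimple L ∧ L.index ≤ 2 ∧ Cfsg.generalizedFittingSubgroup G = L ⊔ Subgroup.center G) ∧ (Cfsg.commutingGraph D).Connected ∧ ∀ d ∈ D, Subgroup.closure {y : G | y ∈ D ∧ Commute d y} ≠ ⊤ ∧ ∀ H : Subgroup G, Cfsg.IsDSubgroup D H → Subgroup.closure {y : G | y ∈ D ∧ Commute d y} ≤ H → H = Subgroup.closure {y : G | y ∈ D ∧ Commute d y} ∨ H = ⊤ := by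
  have hDc := isClass hD hprim
  have hK := kerProp_of_isPrimitive hDc hprim
  have hD2 := hprim.2.1
  have h2 := pCore_two_le_center hDc hK
  have h3 := pCore_three_le_center hDc hK hw
  have hconn : (Cfsg.commutingGraph D).Connected := by
    obtain ⟨d, hd, -⟩ := hD2
    have : Nonempty D := ⟨⟨d, hd⟩⟩
    refine ⟨?_⟩
    rintro ⟨x, hx⟩ ⟨y, hy⟩
    obtain ⟨_, h⟩ := reachable_of_CC (CC_universal hDc hK hw x hx y hy) hx
    exact h
  refine ⟨?_, hconn, ?_⟩
  · obtain ⟨L, hLn, hLc, -, hF⟩ := Cfsg.Agent.S5352.exists_component hDc hD2 h2 h3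
    exact ⟨L, hLn, hLc.2, (Cfsg.Agent.S5353.result hDc hD2 h2 h3 L hLc.2 hF).2 hconn, hF⟩
  · intro d hd
    exact ⟨closure_ne_top hDc hD2 hd, fun H hH hle => maximal hDc hK hw hd H hH hle⟩

end Cfsg.Agent.S5354
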