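import Cfsg.Statements.S5355
import Cfsg.Agent.Lib.Helper89.TTClass
import Cfsg.Agent.Lib.Helper89.Sym4

set_option autoImplicit false
open Cfsg

namespace Cfsg.Agent.S5355

open Cfsg.Agent.Lib.Helper89 Cfsg.Agent.Lib.Helper8

variable {G : Type*} [Group G] {D : Set G}

/-- If `c` commutes with `e e'`, where `e ~ e'` are different, then `c` commutes with `e`. -/
theorem commute_of_commute_mul (hD : Cfsg.IsThreeTranspositionSet D) {c e e' : G} (hc : c ∈ D)
    (he : e ∈ D) (he' : e' ∈ D) (hs : Sim D e e') (hne : e ≠ e') (h : Commute c (e * e')) :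
    Commute c e := by
  by_contra hce
  have hce1 : ¬ Commute e c := fun h => hce h.symm
  have hce' : ¬ Commute e' c := fun h => hce1 ((hs c hc).mpr h)
  have h1 : c * e * c = e * c * e := tt_braid hD hc he hce
  have h2 : c * e' * c = e' * c * e' := tt_braid hD hc he' (fun h => hce' h.symm)
  have hc2 := tt_mul_self hD hc
  have he2 := tt_mul_self hD he
  have he2' := tt_mul_self hD he'
  apply hne
  have h3 : (e * c * e) * (e' * c * e') = e * e' := by
    rw [← h1, ← h2]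
    calc c * e * c * (c * e' * c) = c * e * (c * c) * e' * c := by group
      _ = c * (e * e') * c := by rw [hc2]; group
      _ = (e * e') * c * c := by rw [h.eq]
      _ = e * e' := by rw [mul_assoc, hc2, mul_one]
  have h4 : c * (e * e') * c = 1 := by
    calc c * (e * e') * c = (e * e) * c * e * e' * c * (e' * e') := by rw [he2, he2']; group
      _ = e * ((e * c * e) * (e' * c * e')) * e' := by group
      _ = e * (e * e') * e' := by rw [h3]
      _ = (e * e) * (e' * e') := by group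
      _ = 1 := by rw [he2, he2', one_mul]
  have h5 : e * e' = 1 := by
    calc e * e' = (c * c) * (e * e') * (c * c) := by rw [hc2]; group
      _ = c * (c * (e * e') * c) * c := by group
      _ = 1 := by rw [h4, mul_one, hc2]
  rw [← tt_inv hD he']
  exact eq_inv_of_mul_eq_one_left h5

theorem eq_of_ncard_two {α : Type*} {s : Set α} (hs : s.ncard = 2) {p q r : α} (hp : p ∈ s)
    (hq : q ∈ s) (hr : r ∈ s) (hpq : p ≠ q) (hpr : p ≠ r) : q = r := by
  obtain ⟨x, y, _, rfl⟩ := Set.ncard_eq_two.mp hs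
  simp only [Set.mem_insert_iff, Set.mem_singleton_iff] at hp hq hr
  rcases hp with rfl | rfl <;> rcases hq with rfl | rfl <;> rcases hr with rfl | rfl <;>
    first | rfl | exact absurd rfl hpq | exact absurd rfl hpr

theorem ncard_transport (hD : Cfsg.IsThreeTranspositionClass D) {d : G} (hd : d ∈ D)
    (hm : {y : G | y ∈ D ∧ Commute d y}.ncard = 2) {x : G} (hx : x ∈ D) :
    {y : G | y ∈ D ∧ Commute x y}.ncard = 2 := by
  obtain ⟨g, rfl⟩ := ttc_isConj hD hd hx
  have : {y : G | y ∈ D ∧ Commute (g * d * g⁻¹) y} =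
      (fun y => g * y * g⁻¹) '' {y : G | y ∈ D ∧ Commute d y} := by
    ext y
    constructor
    · rintro ⟨hy, hc⟩
      refine ⟨g⁻¹ * y * g, ⟨ttc_conj_mem' hD g hy, ?_⟩, by group⟩
      have e1 : y = g * (g⁻¹ * y * g) * g⁻¹ := by group
      rw [e1, Commute.conj_iff] at hc
      exact hc
    · rintro ⟨z, ⟨hz, hc⟩, rfl⟩
      exact ⟨ttc_conj_mem hD g hz, (Commute.conj_iff g).mpr hc⟩
  rw [this, Set.ncard_image_of_injective _ (fun a b h => by simpa using h), hm]

theorem s4_identity : ((Equiv.swap 1 2 : Equiv.Perm (Fin 4)) * (Equiv.swap 0 1 * Equiv.swap 2 3) *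
    (Equiv.swap 1 2)⁻¹)⁻¹ * (1 * (Equiv.swap 0 1 * Equiv.swap 2 3) * 1⁻¹) =
    Equiv.swap 1 3 * (Equiv.swap 0 1 * Equiv.swap 2 3) * (Equiv.swap 1 3)⁻¹ := by
  decide +kernel

/-- Let D be a conjugacy class of 3-transpositions generating the finite group G, with at least two members, and d a member of D. Suppose that every member of D commuting with d commutes with exactly the same members of D as d does, and that exactly one member of D other than d commutes with d. Then G is isomorphic to the symmetric group of degree 4. -/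
theorem result {G : Type*} [Group G] [Finite G] {D : Set G} (hD : Cfsg.IsThreeTranspositionClass D) (hD2 : ∃ a ∈ D, ∃ b ∈ D, a ≠ b) {d : G} (hd : d ∈ D) (hV : {y : G | y ∈ D ∧ Commute d y} = {v : G | v ∈ D ∧ ∀ e ∈ D, Commute v e ↔ Commute d e}) (hm : {y : G | y ∈ D ∧ Commute d y}.ncard = 2) : Nonempty (G ≃* Equiv.Perm (Fin 4)) := by
  -- the partner of `d`
  obtain ⟨d', hd', hdd'⟩ : ∃ d', d' ∈ {y : G | y ∈ D ∧ Commute d y} ∧ d ≠ d' := by
    obtain ⟨x, y, hxy, hs⟩ := Set.ncard_eq_two.mp hm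
    by_cases h : d = x
    · exact ⟨y, by rw [hs]; simp, by rw [h]; exact hxy⟩
    · exact ⟨x, by rw [hs]; simp, h⟩
  have hsim : Sim D d d' := by
    have : d' ∈ {v : G | v ∈ D ∧ ∀ e ∈ D, Commute v e ↔ Commute d e} := hV ▸ hd'
    exact Sim.symm this.2
  obtain ⟨e, he, hde⟩ := exists_not_commute hD hD2 hd
  have hd'e : ¬ Commute d' e := fun h => hde ((hsim e he).mpr h)
  have hx := tt_mul_self hD.1 hd
  have hy := tt_mul_self hD.1 he
  have hz := tt_mul_self hD.1 hd'.1
  have hxz : d' * d = d * d' := hd'.2.eq.symm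
  have hxy : e * d * e = d * e * d := (tt_braid hD.1 hd he hde).symm
  have hyz : d' * e * d' = e * d' * e := tt_braid hD.1 hd'.1 he hd'e
  set φ := sym4Hom hx hy hz hxz hxy hyz with hφ
  have hinj : Function.Injective φ := sym4Hom_injective hx hy hz hxz hxy hyz hdd'
  have h01 : φ (Equiv.swap 0 1) = d := sym4Hom_swap01 _ _ _ _ _ _
  have h23 : φ (Equiv.swap 2 3) = d' := sym4Hom_swap23 _ _ _ _ _ _
  have hA : ∀ σ, φ σ * d * (φ σ)⁻¹ ∈ D := fun σ => ttc_conj_mem hD _ hd
  have hA' : ∀ σ, φ σ * d' * (φ σ)⁻¹ ∈ D := fun σ => ttc_conj_mem hD _ hd'.1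
  have hS : ∀ σ, Sim D (φ σ * d * (φ σ)⁻¹) (φ σ * d' * (φ σ)⁻¹) := fun σ => hsim.conj hD _
  have hne : ∀ σ, φ σ * d * (φ σ)⁻¹ ≠ φ σ * d' * (φ σ)⁻¹ := fun σ h => hdd' (by simpa using h)
  have hU : ∀ σ, (φ σ * d * (φ σ)⁻¹) * (φ σ * d' * (φ σ)⁻¹) =
      φ (σ * (Equiv.swap 0 1 * Equiv.swap 2 3) * σ⁻¹) := by
    intro σ
    rw [map_mul, map_mul, map_mul, map_inv, h01, h23]; group
  have hsub : D ⊆ (φ.range : Set G) := by
    intro x hxD
    by_contra hxr
    have hnc : ∀ σ, ¬ Commute x (φ σ * d * (φ σ)⁻¹) := by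
      intro σ hc
      have hcard := ncard_transport hD hd hm (hA σ)
      by_cases h1 : φ σ * d * (φ σ)⁻¹ = x
      · apply hxr
        rw [← h1, ← h01, ← map_inv, ← map_mul, ← map_mul]
        exact ⟨_, rfl⟩
      · have := eq_of_ncard_two hcard (p := φ σ * d * (φ σ)⁻¹) (q := x)
          (r := φ σ * d' * (φ σ)⁻¹) ⟨hA σ, Commute.refl _⟩ ⟨hxD, hc.symm⟩
          ⟨hA' σ, (hS σ).commute (hA' σ)⟩ h1 (hne σ)
        apply hxr
        rw [this, ← h23, ← map_inv, ← map_mul, ← map_mul]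
        exact ⟨_, rfl⟩
    have hnc' : ∀ σ, ¬ Commute x (φ (σ * (Equiv.swap 0 1 * Equiv.swap 2 3) * σ⁻¹)) := by
      intro σ hc
      rw [← hU] at hc
      exact hnc σ (commute_of_commute_mul hD.1 hxD (hA σ) (hA' σ) (hS σ) (hne σ) hc)
    have hW : ∀ σ, φ (σ * (Equiv.swap 0 1 * Equiv.swap 2 3) * σ⁻¹) * x *
        (φ (σ * (Equiv.swap 0 1 * Equiv.swap 2 3) * σ⁻¹))⁻¹ ∈ {y : G | y ∈ D ∧ Commute x y} := by
      intro σ
      refine ⟨ttc_conj_mem hD _ hxD, ?_⟩
      rw [← hU]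
      exact ((sim_conj_mul hD (hA σ) (hA' σ) hxD (hS σ)).commute hxD).symm
    have hWne : ∀ σ, x ≠ φ (σ * (Equiv.swap 0 1 * Equiv.swap 2 3) * σ⁻¹) * x *
        (φ (σ * (Equiv.swap 0 1 * Equiv.swap 2 3) * σ⁻¹))⁻¹ := by
      intro σ h
      apply hnc' σ
      show x * _ = _ * x
      rw [eq_mul_inv_iff_mul_eq] at h
      exact h
    have hcard := ncard_transport hD hd hm hxD
    have heq := eq_of_ncard_two hcard ⟨hxD, Commute.refl x⟩ (hW 1) (hW (Equiv.swap 1 2))
      (hWne 1) (hWne _)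
    apply hnc' (Equiv.swap 1 3)
    rw [← s4_identity, map_mul, map_inv]
    set P := φ (1 * (Equiv.swap 0 1 * Equiv.swap 2 3) * 1⁻¹)
    set Q := φ (Equiv.swap 1 2 * (Equiv.swap 0 1 * Equiv.swap 2 3) * (Equiv.swap 1 2)⁻¹)
    show x * (Q⁻¹ * P) = Q⁻¹ * P * x
    calc x * (Q⁻¹ * P) = Q⁻¹ * (Q * x * Q⁻¹) * P := by group
      _ = Q⁻¹ * (P * x * P⁻¹) * P := by rw [heq]
      _ = Q⁻¹ * P * x := by group
  have hsurj : Function.Surjective φ := by
    rw [← MonoidHom.range_eq_top, eq_top_iff, ← hD.2.2, Subgroup.closure_le]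
    exact hsub
  exact ⟨(MulEquiv.ofBijective φ ⟨hinj, hsurj⟩).symm⟩

end Cfsg.Agent.S5355
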