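import Cfsg.Statements.S5357
import Cfsg.Agent.Lib.Helper44.Transport
import Cfsg.Agent.Lib.Helper44.Criterion
import Cfsg.Agent.Lib.Helper13.SymmForm

set_option autoImplicit false
open scoped MatrixGroups
open Cfsg

namespace Cfsg.Agent.S5357

open Cfsg.Agent.Lib.Helper44 QuadraticMap Module Matrix

section abstract

variable {V : Type*} [AddCommGroup V] [Module (ZMod 3) V]

theorem a1 : ∀ c b : ZMod 3, c ≠ 0 → b ≠ 0 → -(c⁻¹ * b) * (c⁻¹ * b) = -1 := by decide +kernel
theorem a2 : ∀ c b : ZMod 3, c ≠ 0 → b ≠ 0 → -(c⁻¹ * b) ≠ 0 := by decide +kernel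
theorem a3 : ∀ c : ZMod 3, c ≠ 0 → ((2 : ℕ) : ZMod 3) * c ≠ 0 := by decide
theorem a4 : ∀ c : ZMod 3, c + c + 0 + -c + (0 + 0) = c := by decide

theorem refl_conj' (Q : QuadraticForm (ZMod 3) V) (v w : V) :
    refl Q v * refl Q w * refl Q v = refl Q (refl Q v w) := by
  have := conj_refl (refl_mem Q v) w
  rwa [refl_inv] at this

theorem braid (Q : QuadraticForm (ZMod 3) V) {c : ZMod 3} (hc : c ≠ 0) {v w : V} (hv : Q v = c)
    (hw : Q w = c) (h : polar Q v w ≠ 0) :
    refl Q v * refl Q w * refl Q v = refl Q w * refl Q v * refl Q w := by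
  rw [refl_conj', refl_conj']
  have key : refl Q w v = (-(c⁻¹ * polar Q v w)) • refl Q v w := by
    rw [refl_apply, refl_apply, hv, hw, polar_comm Q w v, smul_sub, smul_smul]
    have h1 : -(c⁻¹ * polar Q v w) * (c⁻¹ * polar Q v w) = -1 := a1 _ _ hc h
    rw [h1, neg_smul, neg_smul, one_smul]
    abel
  rw [key, refl_smul]
  exact a2 _ _ hc h

theorem prod_cases (Q : QuadraticForm (ZMod 3) V) {c : ZMod 3} (hc : c ≠ 0) {v w : V} (hv : Q v = c)
    (hw : Q w = c) : (refl Q v * refl Q w) ^ 2 = 1 ∨ (refl Q v * refl Q w) ^ 3 = 1 := by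
  by_cases h : polar Q v w = 0
  · left
    have c1 := refl_conj' Q v w
    rw [refl_apply_of_polar_eq_zero Q h] at c1
    rw [pow_two, ← mul_assoc, c1, refl_mul_self]
  · right
    have : (refl Q v * refl Q w) ^ 3
        = (refl Q v * refl Q w * refl Q v) * (refl Q w * refl Q v * refl Q w) := by
      simp only [pow_succ, pow_zero, one_mul, mul_assoc]
    rw [this, ← braid Q hc hv hw h, refl_conj', refl_mul_self]

theorem conj_of_braid (Q : QuadraticForm (ZMod 3) V) {c : ZMod 3} (hc : c ≠ 0) {v w : V}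
    (hv : Q v = c) (hw : Q w = c) (h : polar Q v w ≠ 0) :
    (refl Q v * refl Q w) * refl Q v * (refl Q v * refl Q w)⁻¹ = refl Q w := by
  rw [braid Q hc hv hw h, _root_.mul_inv_rev, refl_inv, refl_inv]
  calc refl Q w * refl Q v * refl Q w * (refl Q w * refl Q v)
      = refl Q w * refl Q v * (refl Q w * refl Q w) * refl Q v := by simp only [mul_assoc]
    _ = refl Q w * (refl Q v * refl Q v) := by rw [refl_mul_self, mul_one, mul_assoc]
    _ = refl Q w := by rw [refl_mul_self, mul_one]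

theorem refl_ne_one (Q : QuadraticForm (ZMod 3) V) {v : V} (hv : Q v ≠ 0) : refl Q v ≠ 1 := by
  intro h
  have h1 := refl_apply_self Q hv
  rw [h] at h1
  have h2 : v = -v := h1
  have h3 : (2 : ZMod 3) • v = 0 := by
    rw [two_smul]
    nth_rewrite 1 [h2]
    simp
  have h4 : v = 0 := by
    have := congrArg (fun x => (2 : ZMod 3) • x) h3
    simp only [smul_smul, smul_zero] at this
    rwa [show (2 : ZMod 3) * 2 = 1 from by decide, one_smul] at this
  apply hv
  rw [h4, QuadraticMap.map_zero]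

theorem two_ne : (2 : ZMod 3) ≠ 0 := by decide

theorem nd_top {Q : QuadraticForm (ZMod 3) V} (hQ : (polarBilin Q).Nondegenerate) :
    ∀ w ∈ (⊤ : Submodule (ZMod 3) V), (∀ w' ∈ (⊤ : Submodule (ZMod 3) V), polarBilin Q w w' = 0) → w = 0 := by
  intro w _ h
  apply hQ.1 w
  intro y
  exact h y trivial

theorem Q_of_polar_self (Q : QuadraticForm (ZMod 3) V) {z : V} {c : ZMod 3}
    (h : polarBilin Q z z = 2 * c) : Q z = c := by
  rw [polarBilin_apply_apply, polar_self, nsmul_eq_mul] at h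
  have : ((2 : ℕ) : ZMod 3) = 2 := rfl
  rw [this] at h
  exact mul_left_cancel₀ two_ne h

variable [FiniteDimensional (ZMod 3) V]

theorem exists_norm {Q : QuadraticForm (ZMod 3) V} (hQ : (polarBilin Q).Nondegenerate)
    (hn : 2 ≤ finrank (ZMod 3) V) (c : ZMod 3) : ∃ v, Q v = c := by
  obtain ⟨z, _, hz⟩ := Cfsg.Agent.Lib.Helper13.symm_exists_norm two_ne (polarBilin Q)
    (polarBilin_isSymm Q) ⊤ (by rw [finrank_top]; exact hn) (nd_top hQ) (2 * c)
  exact ⟨z, Q_of_polar_self Q hz⟩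

theorem exists_link {Q : QuadraticForm (ZMod 3) V} (hQ : (polarBilin Q).Nondegenerate)
    (hn : 4 ≤ finrank (ZMod 3) V) {c : ZMod 3} (hc : c ≠ 0) {v w : V} (hv : Q v = c) (hw : Q w = c)
    (hvw : polar Q v w = 0) : ∃ u, Q u = c ∧ polar Q v u ≠ 0 ∧ polar Q u w ≠ 0 := by
  have hS := polarBilin_isSymm Q
  have hself : ∀ x, Q x = c → polarBilin Q x x ≠ 0 := by
    intro x hx
    rw [polarBilin_apply_apply, polar_self, hx, nsmul_eq_mul]
    exact a3 c hc
  obtain ⟨_, hr1, hnd1⟩ := Cfsg.Agent.Lib.Helper13.symm_split (polarBilin Q) hS ⊤ v trivial (hself v hv)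
  have hw1 : w ∈ (⊤ ⊓ LinearMap.ker (polarBilin Q v) : Submodule (ZMod 3) V) := by
    refine ⟨trivial, ?_⟩
    exact hvw
  obtain ⟨_, hr2, hnd2⟩ := Cfsg.Agent.Lib.Helper13.symm_split (polarBilin Q) hS _ w hw1 (hself w hw)
  rw [finrank_top] at hr1
  obtain ⟨z, hz, hzz⟩ := Cfsg.Agent.Lib.Helper13.symm_exists_norm two_ne (polarBilin Q) hS _
    (by omega) (hnd2 (hnd1 (nd_top hQ))) (2 * (-c))
  have hQz := Q_of_polar_self Q hzz
  have hvz : polar Q v z = 0 := hz.1.2
  have hwz : polar Q w z = 0 := hz.2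
  refine ⟨v + w + z, ?_, ?_, ?_⟩
  · rw [QuadraticMap.map_add (⇑Q), QuadraticMap.map_add (⇑Q), polar_add_left, hv, hw, hQz, hvw, hvz,
      hwz]
    exact a4 c
  · rw [polar_add_right, polar_add_right, hvw, hvz, polar_self, hv, nsmul_eq_mul, add_zero, add_zero]
    exact a3 c hc
  · rw [polar_add_left, polar_add_left, hvw, polar_comm Q z w, hwz, polar_self, hw, nsmul_eq_mul,
      add_zero, zero_add]
    exact a3 c hc

end abstract

/-- Let Q be a non-degenerate quadratic form on the n-dimensional coordinate space over the field with three elements, n ≥ 5, and c a non-zero scalar. In the subgroup of the isometry group of Q generated by the reflections in vectors v with Q(v) = c, these reflections form a single conjugacy class of 3-transpositions generating that subgroup. -/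
theorem result (n : ℕ) (hn : 5 ≤ n) (Q : QuadraticForm (ZMod 3) (Fin n → ZMod 3)) (hQ : (QuadraticMap.polarBilin Q).Nondegenerate) (c : ZMod 3) (hc : c ≠ 0) : Cfsg.IsThreeTranspositionClass {g : ↥(Cfsg.reflectionSubgroup (⇑Q) c) | (g : ↥(Cfsg.isometryGroup (ZMod 3) (⇑Q))) ∈ Cfsg.reflectionsOfNorm (⇑Q) c} := by
  have hfin : finrank (ZMod 3) (Fin n → ZMod 3) = n := by simp
  have hmem : ∀ g : ↥(Cfsg.isometryGroup (ZMod 3) (⇑Q)),
      g ∈ Cfsg.reflectionsOfNorm (⇑Q) c ↔ ∃ v, Q v = c ∧ g = reflElt Q v := by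
    intro g
    constructor
    · rintro ⟨v, hv, hg⟩
      exact ⟨v, hv, isometryGroup_ext (by rw [hg, reflElt_coe])⟩
    · rintro ⟨v, hv, rfl⟩
      exact ⟨v, hv, reflElt_coe Q v⟩
  have hsub : ∀ v, Q v = c → reflElt Q v ∈ Cfsg.reflectionSubgroup (⇑Q) c := by
    intro v hv
    exact Subgroup.subset_closure ((hmem _).2 ⟨v, hv, rfl⟩)
  have hE : ∀ v, (isoEquiv Q (reflElt Q v) : (Fin n → ZMod 3) ≃ₗ[ZMod 3] (Fin n → ZMod 3)) = refl Q v := by
    intro v; rw [isoEquiv_reflElt]
  have hinj : ∀ a b : ↥(Cfsg.isometryGroup (ZMod 3) (⇑Q)),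
      (isoEquiv Q a : (Fin n → ZMod 3) ≃ₗ[ZMod 3] (Fin n → ZMod 3)) = isoEquiv Q b → a = b := by
    intro a b h
    exact (isoEquiv Q).injective (Subtype.ext h)
  have hconj1 : ∀ v w (hv : Q v = c) (hw : Q w = c), polar Q v w ≠ 0 →
      IsConj (⟨reflElt Q v, hsub v hv⟩ : ↥(Cfsg.reflectionSubgroup (⇑Q) c))
        ⟨reflElt Q w, hsub w hw⟩ := by
    intro v w hv hw h
    rw [isConj_iff]
    refine ⟨⟨reflElt Q v * reflElt Q w, Subgroup.mul_mem _ (hsub v hv) (hsub w hw)⟩, ?_⟩
    apply Subtype.ext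
    show (reflElt Q v * reflElt Q w) * reflElt Q v * (reflElt Q v * reflElt Q w)⁻¹ = reflElt Q w
    apply hinj
    simp only [map_mul, map_inv, Subgroup.coe_mul, Subgroup.coe_inv, hE]
    exact conj_of_braid Q hc hv hw h
  have hconj : ∀ v w (hv : Q v = c) (hw : Q w = c),
      IsConj (⟨reflElt Q v, hsub v hv⟩ : ↥(Cfsg.reflectionSubgroup (⇑Q) c))
        ⟨reflElt Q w, hsub w hw⟩ := by
    intro v w hv hw
    by_cases h : polar Q v w = 0
    · obtain ⟨u, hu, h1, h2⟩ := exists_link hQ (by rw [hfin]; omega) hc hv hw h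
      exact (hconj1 v u hv hu h1).trans (hconj1 u w hu hw h2)
    · exact hconj1 v w hv hw h
  refine ⟨⟨?_, ?_⟩, ?_, ?_⟩
  · rintro ⟨d, hdH⟩ hd
    obtain ⟨v, hv, rfl⟩ := (hmem d).1 hd
    apply orderOf_eq_prime
    · apply Subtype.ext
      show (reflElt Q v) ^ 2 = 1
      apply hinj
      simp only [map_pow, map_one, Subgroup.coe_pow, Subgroup.coe_one, hE]
      rw [pow_two, refl_mul_self]
    · intro h
      have h1 : reflElt Q v = 1 := congrArg Subtype.val h
      have h2 := hE v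
      rw [h1, map_one] at h2
      exact refl_ne_one Q (by rw [hv]; exact hc) h2.symm
  · rintro ⟨d, hdH⟩ hd ⟨e, heH⟩ he
    obtain ⟨v, hv, rfl⟩ := (hmem d).1 hd
    obtain ⟨w, hw, rfl⟩ := (hmem e).1 he
    rcases prod_cases Q hc hv hw with h | h
    · left
      apply Subtype.ext
      show (reflElt Q v * reflElt Q w) ^ 2 = 1
      apply hinj
      simp only [map_pow, map_mul, map_one, Subgroup.coe_pow, Subgroup.coe_mul, Subgroup.coe_one, hE]
      exact h
    · right
      apply Subtype.ext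
      show (reflElt Q v * reflElt Q w) ^ 3 = 1
      apply hinj
      simp only [map_pow, map_mul, map_one, Subgroup.coe_pow, Subgroup.coe_mul, Subgroup.coe_one, hE]
      exact h
  · obtain ⟨v, hv⟩ := exists_norm hQ (by rw [hfin]; omega) c
    refine ⟨⟨reflElt Q v, hsub v hv⟩, (hmem _).2 ⟨v, hv, rfl⟩, ?_⟩
    ext ⟨g, hgH⟩
    show _ ↔ IsConj _ _
    constructor
    · intro hg
      obtain ⟨w, hw, rfl⟩ := (hmem g).1 hg
      exact hconj v w hv hw
    · intro hg
      rw [isConj_iff] at hg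
      obtain ⟨⟨x, hx⟩, hxg⟩ := hg
      have hxg' : x * reflElt Q v * x⁻¹ = g := congrArg Subtype.val hxg
      apply (hmem g).2
      refine ⟨(isoEquiv Q x : (Fin n → ZMod 3) ≃ₗ[ZMod 3] (Fin n → ZMod 3)) v, ?_, ?_⟩
      · rw [mem_OQ.1 (isoEquiv Q x).2, hv]
      · rw [← hxg']
        apply hinj
        simp only [map_mul, map_inv, Subgroup.coe_mul, Subgroup.coe_inv, hE]
        exact conj_refl (isoEquiv Q x).2 v
  · exact Subgroup.closure_closure_coe_preimage

end Cfsg.Agent.S5357
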