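import Cfsg.Statements.S5358
import Cfsg.Agent.Lib.Helper14.Quad

set_option autoImplicit false
open Cfsg

namespace Cfsg.Agent.S5358

open Cfsg.Agent.Lib.Helper14 Matrix

theorem zmod3_cases (x : ZMod 3) (hx : x ≠ 0) : x = 1 ∨ x = -1 := by
  revert x; decide

theorem refl_refl {n : ℕ} (Q : QuadraticForm (ZMod 3) (Fin n → ZMod 3)) (u v x : Fin n → ZMod 3) :
    (Cfsg.reflectionMatrix (⇑Q) u * Cfsg.reflectionMatrix (⇑Q) v) *ᵥ x =
      x - ((Q v)⁻¹ * QuadraticMap.polar (⇑Q) v x) • v
        - ((Q u)⁻¹ * (QuadraticMap.polar (⇑Q) u x -
            ((Q v)⁻¹ * QuadraticMap.polar (⇑Q) v x) * QuadraticMap.polar (⇑Q) u v)) • u := by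
  rw [← Matrix.mulVec_mulVec, reflectionMatrix_mulVec, reflectionMatrix_mulVec]
  congr 3
  have h := QuadraticMap.polar_sub_right Q u x (((Q v)⁻¹ * QuadraticMap.polar (⇑Q) v x) • v)
  rw [h, QuadraticMap.polar_smul_right]
  rfl

/-- Let Q be a non-degenerate quadratic form on the n-dimensional coordinate space over the field with three elements and u, v vectors of the same non-zero norm Q(u) = Q(v) spanning different lines (v ≠ u and v ≠ −u). Then the reflection matrices of u and v commute if and only if u and v are orthogonal for the polar form of Q. -/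
theorem result (n : ℕ) (Q : QuadraticForm (ZMod 3) (Fin n → ZMod 3)) (hQ : (QuadraticMap.polarBilin Q).Nondegenerate) (u v : Fin n → ZMod 3) (hu : Q u ≠ 0) (huv : Q u = Q v) (h1 : v ≠ u) (h2 : v ≠ -u) : Commute (Cfsg.reflectionMatrix (⇑Q) u) (Cfsg.reflectionMatrix (⇑Q) v) ↔ QuadraticMap.polar (⇑Q) u v = 0 := by
  have hsymm : QuadraticMap.polar (⇑Q) v u = QuadraticMap.polar (⇑Q) u v :=
    QuadraticMap.polar_comm _ _ _
  constructor
  · intro h
    by_contra hne
    have hx := congrArg (fun M => M *ᵥ u) h.eq
    simp only [refl_refl] at hx
    rw [hsymm, QuadraticMap.polar_self, ← huv] at hx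
    rcases zmod3_cases _ hu with hq | hq <;> rcases zmod3_cases _ hne with hp | hp
    all_goals
      rw [hq, hp] at hx
    · apply h2
      ext i
      show v i = - u i
      have := congrFun hx i
      simp at this
      generalize u i = a at this ⊢
      generalize v i = b at this ⊢
      revert a b; decide
    · apply h1
      ext i
      have := congrFun hx i
      simp at this
      have key : ∀ (a b : ZMod 3), a + b - a = a - 2 * a - b → b = a := by decide
      apply key
      rw [← sub_eq_zero] at this ⊢
      rw [← this]
      ring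
    · apply h1
      ext i
      have := congrFun hx i
      simp at this
      have key : ∀ (a b : ZMod 3), a + b - a = a - 2 * a - b → b = a := by decide
      apply key
      rw [← sub_eq_zero] at this ⊢
      rw [← this]
      ring
    · apply h2
      ext i
      show v i = - u i
      have := congrFun hx i
      simp at this
      generalize u i = a at this ⊢
      generalize v i = b at this ⊢
      revert a b; decide
  · intro h
    show _ * _ = _ * _
    apply Matrix.ext_of_mulVec_single
    intro i
    rw [refl_refl, refl_refl, hsymm, h]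
    simp only [mul_zero, sub_zero]
    abel

end Cfsg.Agent.S5358
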