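import Cfsg.Statements.S5359
import Cfsg.Agent.S5357
import Cfsg.Agent.Lib.Helper44.CriterionOdd
import Cfsg.Agent.Lib.Helper44.OmegaOdd

set_option autoImplicit false
open scoped MatrixGroups
open Cfsg

namespace Cfsg.Agent.S5359

open Cfsg.Agent.Lib.Helper44 QuadraticMap Module Matrix Cfsg.Agent.S5357

section abstract

variable {V : Type*} [AddCommGroup V] [Module (ZMod 3) V]

/-- the subgroup generated by the reflections of norm `c` -/
def Rc (Q : QuadraticForm (ZMod 3) V) (c : ZMod 3) : Subgroup ↥(OQ Q) :=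
  Subgroup.closure {g | ∃ v, Q v = c ∧ g = reflO Q v}

theorem reflO_mem_Rc (Q : QuadraticForm (ZMod 3) V) {c : ZMod 3} {v : V} (hv : Q v = c) :
    reflO Q v ∈ Rc Q c := Subgroup.subset_closure ⟨v, hv, rfl⟩

theorem conj_reflO (Q : QuadraticForm (ZMod 3) V) (g : ↥(OQ Q)) (v : V) :
    g * reflO Q v * g⁻¹ = reflO Q ((g : V ≃ₗ[ZMod 3] V) v) := Subtype.ext (conj_refl g.2 v)

theorem reflO_inv (Q : QuadraticForm (ZMod 3) V) (v : V) : (reflO Q v)⁻¹ = reflO Q v :=
  Subtype.ext (refl_inv Q v)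

theorem Rc_conj (Q : QuadraticForm (ZMod 3) V) (c : ZMod 3) {n : ↥(OQ Q)} (hn : n ∈ Rc Q c)
    (g : ↥(OQ Q)) : g * n * g⁻¹ ∈ Rc Q c := by
  induction hn using Subgroup.closure_induction with
  | mem x hx =>
    obtain ⟨v, hv, rfl⟩ := hx
    rw [conj_reflO]
    exact reflO_mem_Rc Q (by rw [mem_OQ.1 g.2, hv])
  | one => simp
  | mul x y _ _ hx hy =>
    have : g * (x * y) * g⁻¹ = (g * x * g⁻¹) * (g * y * g⁻¹) := by group
    rw [this]; exact mul_mem hx hy
  | inv x _ hx =>
    have : g * x⁻¹ * g⁻¹ = (g * x * g⁻¹)⁻¹ := by group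
    rw [this]; exact inv_mem hx

theorem b1 : ∀ c : ZMod 3, -c + -c - 0 = c := by decide
theorem b2 : ∀ c b : ZMod 3, c ≠ 0 → b ≠ 0 → c * b ≠ 0 := by decide
theorem b3 : ∀ c b : ZMod 3, c ≠ 0 → b ≠ 0 → (c * b) * (c * b) * -c = -c := by decide
theorem b4 : ∀ c b : ZMod 3, c ≠ 0 → b ≠ 0 → (c * b) * b = c := by decide
theorem b5 : ∀ c : ZMod 3, -c + -c - c = 0 := by decide
theorem b6 : ∀ c : ZMod 3, ((2 : ℕ) : ZMod 3) * -c - c = 0 := by decide
theorem b7 : ∀ x : ZMod 3, x ≠ 0 → x = 1 ∨ x = -1 := by decide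
theorem b8 : ∀ x : ZMod 3, x ≠ 0 → x * x = 1 := by decide
theorem b9 : ¬ IsSquare (-1 : ZMod 3) := by decide
theorem b10 : ∀ c x : ZMod 3, c ≠ 0 → x ≠ 0 → x = c ∨ x = -c := by decide

theorem Q_sub (Q : QuadraticForm (ZMod 3) V) (x y : V) : Q (x - y) = Q x + Q y - polar Q x y := by
  have := Q_add_smul Q x y (-1)
  simp only [neg_smul, one_smul, ← sub_eq_add_neg] at this
  rw [this]; ring

theorem pair_orth (Q : QuadraticForm (ZMod 3) V) {c : ZMod 3} (hc : c ≠ 0) {w w' : V}
    (hw : Q w = -c) (hw' : Q w' = -c) (h : polar Q w w' = 0) :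
    reflO Q w * reflO Q w' ∈ Rc Q c := by
  have hu : Q (w - w') = c := by rw [Q_sub, hw, hw', h]; exact b1 c
  have h1 : refl Q (w - w') w = w' :=
    refl_sub_apply (x := w') (y := w) (by rw [hw, hw']) (by rw [hu]; exact hc)
  have h2 : reflO Q w' = reflO Q (w - w') * reflO Q w * (reflO Q (w - w'))⁻¹ := by
    rw [conj_reflO]
    congr 1
    exact h1.symm
  have h3 : reflO Q w * reflO Q w' =
      (reflO Q w * reflO Q (w - w') * (reflO Q w)⁻¹) * (reflO Q (w - w'))⁻¹ := by
    rw [h2, reflO_inv Q w]; group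
  rw [h3]
  exact mul_mem (Rc_conj Q c (reflO_mem_Rc Q hu) _) (inv_mem (reflO_mem_Rc Q hu))

variable [FiniteDimensional (ZMod 3) V]

theorem exists_perp {Q : QuadraticForm (ZMod 3) V} (hQ : (polarBilin Q).Nondegenerate)
    (hn : 5 ≤ finrank (ZMod 3) V) {d : ZMod 3} (hd : d ≠ 0) {w e : V} (hw : Q w = d) (he : Q e = 0)
    (he0 : e ≠ 0) (hwe : polar Q w e = 0) : ∃ z, Q z = d ∧ polar Q w z = 0 ∧ polar Q e z = 0 := by
  have hS := polarBilin_isSymm Q
  have hsym : ∀ a b, polarBilin Q a b = polarBilin Q b a := fun a b => hS.eq a b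
  have hww : polarBilin Q w w ≠ 0 := by
    rw [polarBilin_apply_apply, polar_self, hw, nsmul_eq_mul]
    exact a3 d hd
  have hee : polarBilin Q e e = 0 := by
    rw [polarBilin_apply_apply, polar_self, he, smul_zero]
  obtain ⟨_, hr1, hnd1⟩ := Cfsg.Agent.Lib.Helper13.symm_split (polarBilin Q) hS ⊤ w trivial hww
  have hnd1' := hnd1 (nd_top hQ)
  have he1 : e ∈ (⊤ ⊓ LinearMap.ker (polarBilin Q w) : Submodule (ZMod 3) V) := ⟨trivial, hwe⟩
  obtain ⟨f, hf, hef⟩ : ∃ f ∈ (⊤ ⊓ LinearMap.ker (polarBilin Q w) : Submodule (ZMod 3) V),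
      polarBilin Q e f ≠ 0 := by
    by_contra hcon
    push Not at hcon
    exact he0 (hnd1' e he1 hcon)
  obtain ⟨h₁, hh₁, hh₁h₁, heh₁⟩ : ∃ h₁ ∈ (⊤ ⊓ LinearMap.ker (polarBilin Q w) : Submodule (ZMod 3) V),
      polarBilin Q h₁ h₁ ≠ 0 ∧ polarBilin Q e h₁ ≠ 0 := by
    by_cases hff : polarBilin Q f f = 0
    · refine ⟨f + e, Submodule.add_mem _ hf he1, ?_, ?_⟩
      · simp only [map_add, LinearMap.add_apply, hff, hee, hsym f e]
        intro h0
        apply hef
        generalize polarBilin Q e f = t at h0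
        revert t; decide
      · simp only [map_add, hee, add_zero]; exact hef
    · exact ⟨f, hf, hff, hef⟩
  obtain ⟨hd2, hr2, hnd2⟩ := Cfsg.Agent.Lib.Helper13.symm_split (polarBilin Q) hS _ h₁ hh₁ hh₁h₁
  have hnd2' := hnd2 hnd1'
  set t : ZMod 3 := polarBilin Q h₁ e / polarBilin Q h₁ h₁ with ht
  have hh₂ := hd2 e he1
  have hh₂h₂ : polarBilin Q (e - t • h₁) (e - t • h₁) ≠ 0 := by
    have h1 : polarBilin Q (e - t • h₁) (e - t • h₁) =
        - (polarBilin Q e h₁ * polarBilin Q e h₁ / polarBilin Q h₁ h₁) := by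
      simp only [map_sub, LinearMap.sub_apply, map_smul, LinearMap.smul_apply, smul_eq_mul, hee,
        hsym h₁ e, ht]
      field_simp
      ring
    rw [h1]
    exact neg_ne_zero.2 (div_ne_zero (mul_ne_zero heh₁ heh₁) hh₁h₁)
  obtain ⟨_, hr3, hnd3⟩ := Cfsg.Agent.Lib.Helper13.symm_split (polarBilin Q) hS _ (e - t • h₁) hh₂ hh₂h₂
  rw [finrank_top] at hr1
  obtain ⟨z, hz, hzz⟩ := Cfsg.Agent.Lib.Helper13.symm_exists_norm two_ne (polarBilin Q) hS _
    (by omega) (hnd3 hnd2') (2 * d)
  have hwz : polarBilin Q w z = 0 := hz.1.1.2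
  have hh₁z : polarBilin Q h₁ z = 0 := hz.1.2
  have hh₂z : polarBilin Q (e - t • h₁) z = 0 := hz.2
  refine ⟨z, Q_of_polar_self Q hzz, hwz, ?_⟩
  simp only [map_sub, LinearMap.sub_apply, map_smul, LinearMap.smul_apply, hh₁z, smul_zero,
    sub_zero] at hh₂z
  exact hh₂z

theorem pair_mem {Q : QuadraticForm (ZMod 3) V} (hQ : (polarBilin Q).Nondegenerate)
    (hn : 5 ≤ finrank (ZMod 3) V) {c : ZMod 3} (hc : c ≠ 0) {w w' : V}
    (hw : Q w = -c) (hw' : Q w' = -c) : reflO Q w * reflO Q w' ∈ Rc Q c := by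
  by_cases h : polar Q w w' = 0
  · exact pair_orth Q hc hw hw' h
  · set ε : ZMod 3 := c * polar Q w w' with hε
    have hε0 : ε ≠ 0 := b2 _ _ hc h
    have hr : reflO Q w' = reflO Q (ε • w') := Subtype.ext (refl_smul Q w' hε0).symm
    have hw'' : Q (ε • w') = -c := by
      rw [QuadraticMap.map_smul, hw', smul_eq_mul]; exact b3 _ _ hc h
    have hp : polar Q w (ε • w') = c := by
      rw [polar_smul_right, smul_eq_mul]; exact b4 _ _ hc h
    rw [hr]
    by_cases he0 : w - ε • w' = 0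
    · rw [← sub_eq_zero.1 he0, reflO_mul_self]; exact one_mem _
    · have hQe : Q (w - ε • w') = 0 := by rw [Q_sub, hw, hw'', hp]; exact b5 c
      have hwe : polar Q w (w - ε • w') = 0 := by
        rw [polar_sub_right, polar_self, hw, hp, nsmul_eq_mul]; exact b6 c
      obtain ⟨z, hz, hwz, hez⟩ := exists_perp hQ hn (neg_ne_zero.2 hc) hw hQe he0 hwe
      have hw''z : polar Q (ε • w') z = 0 := by
        rw [polar_sub_left, hwz, zero_sub, neg_eq_zero] at hez
        exact hez
      have : reflO Q w * reflO Q (ε • w') =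
          (reflO Q w * reflO Q z) * (reflO Q z * reflO Q (ε • w')) := by
        rw [mul_assoc, ← mul_assoc (reflO Q z), reflO_mul_self, one_mul]
      rw [this]
      exact mul_mem (pair_orth Q hc hw hz hwz) (pair_orth Q hc hz hw'' (by rw [polar_comm]; exact hw''z))

omit [FiniteDimensional (ZMod 3) V] in
theorem exists_list_of_mem_Rc {Q : QuadraticForm (ZMod 3) V} {c : ZMod 3} {g : ↥(OQ Q)}
    (hg : g ∈ Rc Q c) : ∃ l : List V, (∀ v ∈ l, Q v = c) ∧ g = (l.map (reflO Q)).prod := by
  induction hg using Subgroup.closure_induction with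
  | mem x hx =>
    obtain ⟨v, hv, rfl⟩ := hx
    exact ⟨[v], by simpa using hv, by simp⟩
  | one => exact ⟨[], by simp, by simp⟩
  | mul x y _ _ hx hy =>
    obtain ⟨l₁, h₁, rfl⟩ := hx
    obtain ⟨l₂, h₂, rfl⟩ := hy
    refine ⟨l₁ ++ l₂, ?_, by simp⟩
    intro v hv
    rcases List.mem_append.1 hv with h | h
    · exact h₁ v h
    · exact h₂ v h
  | inv x _ hx =>
    obtain ⟨l, h, rfl⟩ := hx
    refine ⟨l.reverse, fun v hv => h v (List.mem_reverse.1 hv), ?_⟩
    apply Subtype.ext
    rw [Subgroup.coe_inv, prod_reflO_coe, prod_reflO_coe, prod_refl_inv]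

theorem not_mem_Rc {Q : QuadraticForm (ZMod 3) V} (hQ : (polarBilin Q).Nondegenerate)
    {c : ZMod 3} (hc : c ≠ 0) {w : V} (hw : Q w = -c) : reflO Q w ∉ Rc Q c := by
  intro hmem
  obtain ⟨l, hl, hg⟩ := exists_list_of_mem_Rc hmem
  have h1 : ((w :: l).map (reflO Q)).prod ∈ commutator ↥(OQ Q) := by
    rw [List.map_cons, List.prod_cons, ← hg, reflO_mul_self]; exact one_mem _
  have hne : ∀ v ∈ w :: l, Q v ≠ 0 := by
    intro v hv
    rcases List.mem_cons.1 hv with rfl | hv
    · rw [hw]; exact neg_ne_zero.2 hc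
    · rw [hl v hv]; exact hc
  obtain ⟨he, hs⟩ := (prod_reflO_mem_commutator_iff two_ne hQ (w :: l) hne).1 h1
  have h2 : (l.map Q).prod = c ^ l.length := by
    clear hg h1 hne he hs hmem
    induction l with
    | nil => simp
    | cons v l ih =>
      rw [List.map_cons, List.prod_cons, hl v (by simp), ih (fun u hu => hl u (by simp [hu])),
        List.length_cons, pow_succ, mul_comm]
  rw [List.map_cons, List.prod_cons, hw, h2] at hs
  rw [List.length_cons] at he
  obtain ⟨m, hm⟩ := he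
  have h3 : -c * c ^ l.length = -1 := by
    have : -c * c ^ l.length = -(c ^ (l.length + 1)) := by rw [pow_succ]; ring
    rw [this, hm, ← two_mul, pow_mul, pow_two, b8 c hc, one_pow]
  rw [h3] at hs
  exact b9 hs

theorem index_Rc {Q : QuadraticForm (ZMod 3) V} (hQ : (polarBilin Q).Nondegenerate)
    (hn : 5 ≤ finrank (ZMod 3) V) {c : ZMod 3} (hc : c ≠ 0) : (Rc Q c).index = 2 := by
  obtain ⟨w, hw⟩ := exists_norm hQ (by omega) (-c)
  have hnot := not_mem_Rc hQ hc hw
  have hor : ∀ l : List V, (∀ v ∈ l, Q v ≠ 0) →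
      (l.map (reflO Q)).prod ∈ Rc Q c ∨ (l.map (reflO Q)).prod * reflO Q w ∈ Rc Q c := by
    intro l
    induction l with
    | nil => intro _; left; simp
    | cons v l ih =>
      intro hl
      have ih' := ih (fun u hu => hl u (by simp [hu]))
      rw [List.map_cons, List.prod_cons]
      set b := (l.map (reflO Q)).prod with hb
      have hv : Q v = c ∨ Q v = -c := by
        exact b10 c (Q v) hc (hl v (by simp))
      rcases hv with hv | hv
      · rcases ih' with h | h
        · left; exact mul_mem (reflO_mem_Rc Q hv) h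
        · right; rw [mul_assoc]; exact mul_mem (reflO_mem_Rc Q hv) h
      · have hvw := pair_mem hQ hn hc hv hw
        rcases ih' with h | h
        · right
          have : reflO Q v * b * reflO Q w =
              (reflO Q v * reflO Q w) * (reflO Q w * b * (reflO Q w)⁻¹) := by
            rw [reflO_inv]
            calc reflO Q v * b * reflO Q w = reflO Q v * 1 * b * reflO Q w := by rw [mul_one]
              _ = reflO Q v * (reflO Q w * reflO Q w) * b * reflO Q w := by rw [reflO_mul_self]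
              _ = _ := by simp only [mul_assoc]
          rw [this]
          exact mul_mem hvw (Rc_conj Q c h _)
        · left
          have : reflO Q v * b =
              (reflO Q v * reflO Q w) * (reflO Q w * (b * reflO Q w) * (reflO Q w)⁻¹) := by
            rw [reflO_inv]
            calc reflO Q v * b = reflO Q v * 1 * (b * 1) := by rw [mul_one, mul_one]
              _ = reflO Q v * (reflO Q w * reflO Q w) * (b * (reflO Q w * reflO Q w)) := by
                  rw [reflO_mul_self]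
              _ = _ := by simp only [mul_assoc]
          rw [this]
          exact mul_mem hvw (Rc_conj Q c h _)
  rw [Subgroup.index_eq_two_iff]
  refine ⟨reflO Q w, fun b => ?_⟩
  obtain ⟨l, hl, hbl⟩ := exists_list_refl hQ (Or.inl ⟨2, by decide, by decide⟩) b.2
  have hb : b = (l.map (reflO Q)).prod := Subtype.ext (by rw [prod_reflO_coe]; exact hbl)
  rcases hor l hl with h | h
  · right
    rw [← hb] at h
    refine ⟨h, fun h' => hnot ?_⟩
    have := mul_mem (inv_mem h) h'
    simpa using this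
  · left
    rw [← hb] at h
    refine ⟨h, fun h' => hnot ?_⟩
    have := mul_mem (inv_mem h') h
    simpa using this

end abstract

/-- Let Q be a non-degenerate quadratic form on the n-dimensional coordinate space over the field with three elements, n odd and at least 5, and c a non-zero scalar. Then the subgroup of the isometry group of Q generated by the reflections in vectors of norm c has index 2 in the isometry group. -/
theorem result (n : ℕ) (hn : 5 ≤ n) (hodd : Odd n) (Q : QuadraticForm (ZMod 3) (Fin n → ZMod 3)) (hQ : (QuadraticMap.polarBilin Q).Nondegenerate) (c : ZMod 3) (hc : c ≠ 0) : (Cfsg.reflectionSubgroup (⇑Q) c).index = 2 := by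
  have hfin : finrank (ZMod 3) (Fin n → ZMod 3) = n := by simp
  have hmap : (Cfsg.reflectionSubgroup (⇑Q) c).map ((isoEquiv Q : _ ≃* _) : _ →* _) = Rc Q c := by
    unfold Cfsg.reflectionSubgroup Rc
    rw [MonoidHom.map_closure]
    congr 1
    ext g
    constructor
    · rintro ⟨x, ⟨v, hv, hx⟩, rfl⟩
      refine ⟨v, hv, ?_⟩
      have : x = reflElt Q v := isometryGroup_ext (by rw [hx, reflElt_coe])
      rw [this]
      exact isoEquiv_reflElt Q v
    · rintro ⟨v, hv, rfl⟩
      exact ⟨reflElt Q v, ⟨v, hv, reflElt_coe Q v⟩, isoEquiv_reflElt Q v⟩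
  have h1 := Subgroup.index_map_equiv (H := Cfsg.reflectionSubgroup (⇑Q) c) (isoEquiv Q)
  rw [hmap] at h1
  rw [← h1]
  exact index_Rc hQ (by rw [hfin]; exact hn) hc

end Cfsg.Agent.S5359
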