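import Cfsg.Statements.S5360
import Cfsg.Agent.S5357
import Cfsg.Agent.S5353
import Cfsg.Agent.S5352
import Cfsg.Agent.Lib.Helper8.Fischer5

set_option autoImplicit false
open scoped MatrixGroups
open Cfsg

namespace Cfsg.Agent.S5360

open Cfsg.Agent.Lib.Helper44 QuadraticMap Module Matrix Cfsg.Agent.S5357

section abstract

variable {V : Type*} [AddCommGroup V] [Module (ZMod 3) V]

theorem commute_of_polar (Q : QuadraticForm (ZMod 3) V) {v w : V} (h : polar Q v w = 0) :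
    Commute (refl Q v) (refl Q w) := by
  have c1 := refl_conj' Q v w
  rw [refl_apply_of_polar_eq_zero Q h] at c1
  show refl Q v * refl Q w = refl Q w * refl Q v
  calc refl Q v * refl Q w = refl Q v * refl Q w * (refl Q v * refl Q v) := by
        rw [refl_mul_self, mul_one]
    _ = (refl Q v * refl Q w * refl Q v) * refl Q v := by simp only [mul_assoc]
    _ = refl Q w * refl Q v := by rw [c1]

theorem eq_of_commute (Q : QuadraticForm (ZMod 3) V) {c : ZMod 3} (hc : c ≠ 0) {v w : V}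
    (hv : Q v = c) (hw : Q w = c) (h : polar Q v w ≠ 0)
    (hcomm : Commute (refl Q v) (refl Q w)) : refl Q v = refl Q w := by
  have hb := braid Q hc hv hw h
  have h1 : refl Q v * refl Q w * refl Q v = refl Q w := by
    rw [hcomm.eq, mul_assoc, refl_mul_self, mul_one]
  have h2 : refl Q w * refl Q v * refl Q w = refl Q v := by
    rw [← hcomm.eq, mul_assoc, refl_mul_self, mul_one]
  rw [← h2, ← hb, h1]

theorem refl_ne_of_polar (Q : QuadraticForm (ZMod 3) V) {u w x : V} (hu : Q u ≠ 0)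
    (h1 : polar Q u x ≠ 0) (h2 : polar Q w x = 0) : refl Q u ≠ refl Q w := by
  intro h
  have h3 : refl Q u x = refl Q w x := by rw [h]
  rw [refl_apply_of_polar_eq_zero Q h2, refl_apply, sub_eq_self] at h3
  have hu0 : u ≠ 0 := by
    rintro rfl
    exact hu (QuadraticMap.map_zero _)
  rcases smul_eq_zero.1 h3 with h4 | h4
  · rcases mul_eq_zero.1 h4 with h5 | h5
    · exact hu (inv_eq_zero.1 h5)
    · exact h1 h5
  · exact hu0 h4

theorem b1 : ∀ c : ZMod 3, c + c + -c + (0 + 0) + 0 = c := by decide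
theorem b2 : ∀ c b : ZMod 3, c ≠ 0 → b ≠ 0 → c + (-(b / (2 * c))) * (-(b / (2 * c))) * c
    + (-(b / (2 * c))) * b = 0 := by decide +kernel

variable [FiniteDimensional (ZMod 3) V]

/-- orthogonal `v`, `w` of norm `c`: some `u` of norm `c` is orthogonal to `v`, not to `w`, and
its reflection is not that of `w`. -/
theorem exists_sep_two {Q : QuadraticForm (ZMod 3) V} (hQ : (polarBilin Q).Nondegenerate)
    (hn : 5 ≤ finrank (ZMod 3) V) {c : ZMod 3} (hc : c ≠ 0) {v w : V} (hv : Q v = c) (hw : Q w = c)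
    (hvw : polar Q v w = 0) :
    ∃ u, Q u = c ∧ polar Q v u = 0 ∧ polar Q w u ≠ 0 ∧ refl Q u ≠ refl Q w := by
  have hS := polarBilin_isSymm Q
  have hself : ∀ x, Q x = c → polarBilin Q x x ≠ 0 := by
    intro x hx
    rw [polarBilin_apply_apply, polar_self, hx, nsmul_eq_mul]
    exact a3 c hc
  obtain ⟨_, hr1, hnd1⟩ := Cfsg.Agent.Lib.Helper13.symm_split (polarBilin Q) hS ⊤ v trivial (hself v hv)
  have hw1 : w ∈ (⊤ ⊓ LinearMap.ker (polarBilin Q v) : Submodule (ZMod 3) V) := ⟨trivial, hvw⟩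
  obtain ⟨_, hr2, hnd2⟩ := Cfsg.Agent.Lib.Helper13.symm_split (polarBilin Q) hS _ w hw1 (hself w hw)
  rw [finrank_top] at hr1
  obtain ⟨x, hx, hxx⟩ := Cfsg.Agent.Lib.Helper13.symm_exists_norm two_ne (polarBilin Q) hS _
    (by omega) (hnd2 (hnd1 (nd_top hQ))) (2 * c)
  have hQx := Q_of_polar_self Q hxx
  obtain ⟨_, hr3, hnd3⟩ := Cfsg.Agent.Lib.Helper13.symm_split (polarBilin Q) hS _ x hx (hself x hQx)
  obtain ⟨z, hz, hzz⟩ := Cfsg.Agent.Lib.Helper13.symm_exists_norm two_ne (polarBilin Q) hS _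
    (by omega) (hnd3 (hnd2 (hnd1 (nd_top hQ)))) (2 * (-c))
  have hQz := Q_of_polar_self Q hzz
  have hvx : polar Q v x = 0 := hx.1.2
  have hwx : polar Q w x = 0 := hx.2
  have hvz : polar Q v z = 0 := hz.1.1.2
  have hwz : polar Q w z = 0 := hz.1.2
  have hxz : polar Q x z = 0 := hz.2
  have hQu : Q (w + x + z) = c := by
    rw [QuadraticMap.map_add (⇑Q), QuadraticMap.map_add (⇑Q), polar_add_left, hw, hQx, hQz, hwx, hwz,
      hxz]
    exact a4 c
  refine ⟨w + x + z, hQu, ?_, ?_, ?_⟩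
  · rw [polar_add_right, polar_add_right, hvw, hvx, hvz]; simp
  · rw [polar_add_right, polar_add_right, hwx, hwz, polar_self, hw, nsmul_eq_mul, add_zero, add_zero]
    exact a3 c hc
  · apply refl_ne_of_polar Q (x := x) (by rw [hQu]; exact hc) _ hwx
    rw [polar_add_left, polar_add_left, hwx, polar_comm Q z x, hxz, polar_self, hQx, nsmul_eq_mul,
      add_zero, zero_add]
    exact a3 c hc

theorem b4 : ∀ c b : ZMod 3, c ≠ 0 → b + -(b / (2 * c)) * (2 * c) = 0 := by decide +kernel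

theorem exists_orth {Q : QuadraticForm (ZMod 3) V} (hQ : (polarBilin Q).Nondegenerate)
    (hn : 5 ≤ finrank (ZMod 3) V) {c : ZMod 3} (hc : c ≠ 0) {v : V} (hv : Q v = c) :
    ∃ u, Q u = c ∧ polar Q v u = 0 := by
  have hS := polarBilin_isSymm Q
  have hvv : polarBilin Q v v ≠ 0 := by
    rw [polarBilin_apply_apply, polar_self, hv, nsmul_eq_mul]
    exact a3 c hc
  obtain ⟨_, hr1, hnd1⟩ := Cfsg.Agent.Lib.Helper13.symm_split (polarBilin Q) hS ⊤ v trivial hvv
  rw [finrank_top] at hr1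
  obtain ⟨x, hx, hxx⟩ := Cfsg.Agent.Lib.Helper13.symm_exists_norm two_ne (polarBilin Q) hS _
    (by omega) (hnd1 (nd_top hQ)) (2 * c)
  exact ⟨x, Q_of_polar_self Q hxx, hx.2⟩

theorem b3 : ∀ c b : ZMod 3, c ≠ 0 → b ≠ 0 →
    c + (-(b / (2 * c)) * -(b / (2 * c)) * c) + -(b / (2 * c)) * b = 0 := by decide +kernel

/-- non-orthogonal `v`, `w` of norm `c` with different reflections: the component `w₀` of `w`
orthogonal to `v` is a non-zero singular vector, and some `y` orthogonal to `v` is not orthogonal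
to `w₀`. -/
theorem exists_singular {Q : QuadraticForm (ZMod 3) V} (hQ : (polarBilin Q).Nondegenerate)
    {c : ZMod 3} (hc : c ≠ 0) {v w : V} (hv : Q v = c) (hw : Q w = c)
    (hvw : polar Q v w ≠ 0) (hne : refl Q v ≠ refl Q w) :
    ∃ (k : ZMod 3) (w₀ y : V), w = w₀ + k • v ∧ polar Q v w₀ = 0 ∧ Q w₀ = 0 ∧ polar Q v y = 0 ∧
      polar Q w₀ y ≠ 0 := by
  have h2c : (2 : ZMod 3) * c ≠ 0 := mul_ne_zero two_ne hc
  have hvv : polar Q v v = 2 * c := by rw [polar_self, hv, nsmul_eq_mul]; rfl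
  set k : ZMod 3 := polar Q v w / (2 * c) with hk
  set w₀ : V := w + (-k) • v with hw₀
  have h1 : polar Q v w₀ = 0 := by
    rw [hw₀, polar_add_right, polar_smul_right, hvv, hk, smul_eq_mul]
    exact b4 c _ hc
  have h2 : Q w₀ = 0 := by
    rw [hw₀, QuadraticMap.map_add (⇑Q), QuadraticMap.map_smul, polar_smul_right, hw, hv,
      polar_comm Q w v, smul_eq_mul, smul_eq_mul, hk]
    exact b3 c _ hc hvw
  have h3 : w₀ ≠ 0 := by
    intro h0
    apply hne
    have hwk : w = k • v := by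
      have : w = w₀ + k • v := by rw [hw₀]; simp
      rw [this, h0, zero_add]
    have hk0 : k ≠ 0 := by
      rw [hk]; exact div_ne_zero hvw h2c
    rw [hwk, refl_smul Q v hk0]
  obtain ⟨y', hy'⟩ : ∃ y', polar Q w₀ y' ≠ 0 := by
    by_contra hcon
    push Not at hcon
    exact h3 (hQ.1 w₀ hcon)
  refine ⟨k, w₀, y' + (-(polar Q v y' / (2 * c))) • v, by rw [hw₀]; simp, h1, h2, ?_, ?_⟩
  · rw [polar_add_right, polar_smul_right, hvv, smul_eq_mul]
    exact b4 c _ hc
  · rw [polar_add_right, polar_smul_right, polar_comm Q w₀ v, h1, smul_zero, add_zero]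
    exact hy'

/-- non-orthogonal `v`, `w` of norm `c` with different reflections: some `u` of norm `c` is
orthogonal to `v` and not to `w`. -/
theorem exists_sep_three {Q : QuadraticForm (ZMod 3) V} (hQ : (polarBilin Q).Nondegenerate)
    {c : ZMod 3} (hc : c ≠ 0) {v w : V} (hv : Q v = c) (hw : Q w = c)
    (hvw : polar Q v w ≠ 0) (hne : refl Q v ≠ refl Q w) :
    ∃ u, Q u = c ∧ polar Q v u = 0 ∧ polar Q w u ≠ 0 := by
  obtain ⟨k, w₀, y, hw', h1, h2, h3, h4⟩ := exists_singular hQ hc hv hw hvw hne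
  have hww : polar Q w₀ w₀ = 0 := by rw [polar_self, h2]; simp
  refine ⟨y + ((c - Q y) / polar Q w₀ y) • w₀, ?_, ?_, ?_⟩
  · rw [QuadraticMap.map_add (⇑Q), QuadraticMap.map_smul, polar_smul_right, h2, polar_comm Q y w₀,
      smul_eq_mul, smul_eq_mul]
    field_simp
    ring
  · rw [polar_add_right, polar_smul_right, h1, h3]; simp
  · rw [hw', polar_add_left, polar_smul_left, polar_add_right, polar_add_right, polar_smul_right,
      polar_smul_right, hww, h1, h3]
    simpa using h4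

/-- non-orthogonal `v`, `w` of norm `c` with different reflections have a common orthogonal vector
of norm `c`. -/
theorem exists_common {Q : QuadraticForm (ZMod 3) V} (hQ : (polarBilin Q).Nondegenerate)
    (hn : 5 ≤ finrank (ZMod 3) V) {c : ZMod 3} (hc : c ≠ 0) {v w : V} (hv : Q v = c) (hw : Q w = c)
    (hvw : polar Q v w ≠ 0) (hne : refl Q v ≠ refl Q w) :
    ∃ u, Q u = c ∧ polar Q v u = 0 ∧ polar Q w u = 0 := by
  obtain ⟨k, w₀, y, hw', h1, h2, h3, h4⟩ := exists_singular hQ hc hv hw hvw hne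
  have hS := polarBilin_isSymm Q
  have hww : polar Q w₀ w₀ = 0 := by rw [polar_self, h2]; simp
  have hvv : polarBilin Q v v ≠ 0 := by
    rw [polarBilin_apply_apply, polar_self, hv, nsmul_eq_mul]
    exact a3 c hc
  -- an anisotropic vector `p` in the hyperbolic plane spanned by `w₀`, `y`
  set p : V := y + ((1 - Q y) / polar Q w₀ y) • w₀ with hp
  have hQp : Q p = 1 := by
    rw [hp, QuadraticMap.map_add (⇑Q), QuadraticMap.map_smul, polar_smul_right, h2,
      polar_comm Q y w₀, smul_eq_mul, smul_eq_mul]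
    field_simp
    ring
  have hvp : polar Q v p = 0 := by
    rw [hp, polar_add_right, polar_smul_right, h1, h3]; simp
  have hpw : polar Q p w₀ = polar Q w₀ y := by
    rw [hp, polar_add_left, polar_smul_left, hww, polar_comm Q y w₀]; simp
  have hpp : polarBilin Q p p ≠ 0 := by
    rw [polarBilin_apply_apply, polar_self, hQp]; decide
  obtain ⟨_, hr1, hnd1⟩ := Cfsg.Agent.Lib.Helper13.symm_split (polarBilin Q) hS ⊤ v trivial hvv
  have hp1 : p ∈ (⊤ ⊓ LinearMap.ker (polarBilin Q v) : Submodule (ZMod 3) V) := ⟨trivial, hvp⟩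
  have hw1 : w₀ ∈ (⊤ ⊓ LinearMap.ker (polarBilin Q v) : Submodule (ZMod 3) V) := ⟨trivial, h1⟩
  obtain ⟨hd2, hr2, hnd2⟩ := Cfsg.Agent.Lib.Helper13.symm_split (polarBilin Q) hS _ p hp1 hpp
  rw [finrank_top] at hr1
  set w₁ : V := w₀ - (polarBilin Q p w₀ / polarBilin Q p p) • p with hw₁
  have hw₁mem := hd2 w₀ hw1
  have hw₁w₁ : polarBilin Q w₁ w₁ ≠ 0 := by
    have hpp' : polar Q p p = 2 := by rw [polar_self, hQp]; rfl
    rw [hw₁]
    simp only [polarBilin_apply_apply, polar_sub_left, polar_sub_right, polar_smul_left,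
      polar_smul_right, hww, hpw, polar_comm Q w₀ p, hpp', smul_eq_mul]
    generalize polar Q w₀ y = b at h4
    revert b; decide +kernel
  obtain ⟨_, hr3, hnd3⟩ := Cfsg.Agent.Lib.Helper13.symm_split (polarBilin Q) hS _ w₁ hw₁mem hw₁w₁
  obtain ⟨u, hu, huu⟩ := Cfsg.Agent.Lib.Helper13.symm_exists_norm two_ne (polarBilin Q) hS _
    (by omega) (hnd3 (hnd2 (hnd1 (nd_top hQ)))) (2 * c)
  have hQu := Q_of_polar_self Q huu
  have hvu : polar Q v u = 0 := hu.1.1.2
  have hpu : polar Q p u = 0 := hu.1.2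
  have hw₁u : polar Q w₁ u = 0 := hu.2
  have hw₀u : polar Q w₀ u = 0 := by
    rw [hw₁, polar_sub_left, polar_smul_left, hpu, smul_zero, sub_zero] at hw₁u
    exact hw₁u
  refine ⟨u, hQu, hvu, ?_⟩
  rw [hw', polar_add_left, polar_smul_left, hw₀u, hvu]; simp

end abstract

section grp

open Cfsg.Agent.Lib.Helper8 Cfsg.Agent.Lib.Helper89

variable {G : Type*} [Group G] {D : Set G}

local notation:75 g:76 " ⋆ " x:75 => g * x * g⁻¹

theorem structure_of_class [Finite G] (hD : Cfsg.IsThreeTranspositionClass D)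
    (hD2 : ∃ a ∈ D, ∃ b ∈ D, a ≠ b)
    (hV : ∀ a ∈ D, ∀ b ∈ D, Sim D a b → a = b)
    (hW : ∀ a ∈ D, ∀ b ∈ D, Dp D a = Dp D b → a = b)
    (hconn : (Cfsg.commutingGraph D).Connected) :
    Cfsg.IsQuasisimple (commutator G) ∧ (commutator G).index ≤ 2 ∧
      Cfsg.generalizedFittingSubgroup G = Subgroup.center G ⊔ commutator G ∧
      Cfsg.IsPrimitiveUnderConj D := by
  have h2 : Cfsg.pCore 2 G ≤ Subgroup.center G := by
    have : Fact (Nat.Prime 2) := ⟨Nat.prime_two⟩
    have hn : (Cfsg.pCore 2 G).Normal := Cfsg.Agent.Lib.Helper1.pCore_normal 2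
    intro g hg
    apply mem_center_of_commute hD
    intro d hd
    have h1 : d⁻¹ * (g ⋆ d) ∈ Cfsg.pCore 2 G := by
      have : d⁻¹ * (g ⋆ d) = (d⁻¹ * g * d⁻¹⁻¹) * g⁻¹ := by group
      rw [this]
      exact mul_mem (hn.conj_mem g hg d⁻¹) (inv_mem hg)
    have h2 := sim_of_coset hD.1 (Cfsg.Agent.Lib.Helper1.pCore_isPGroup 2) hd
      (ttc_conj_mem hD g hd) h1
    exact (cj_eq_self_iff.1 (hV _ hd _ (ttc_conj_mem hD g hd) h2).symm).symm
  have h3 : Cfsg.pCore 3 G ≤ Subgroup.center G := by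
    have : Fact (Nat.Prime 3) := ⟨Nat.prime_three⟩
    have hn : (Cfsg.pCore 3 G).Normal := Cfsg.Agent.Lib.Helper1.pCore_normal 3
    intro g hg
    apply mem_center_of_commute hD
    intro d hd
    have h1 : d⁻¹ * (g ⋆ d) ∈ Cfsg.pCore 3 G := by
      have : d⁻¹ * (g ⋆ d) = (d⁻¹ * g * d⁻¹⁻¹) * g⁻¹ := by group
      rw [this]
      exact mul_mem (hn.conj_mem g hg d⁻¹) (inv_mem hg)
    have h2 := Dp_eq_of_coset hD.1 (Cfsg.Agent.Lib.Helper1.pCore_isPGroup 3) hd
      (ttc_conj_mem hD g hd) h1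
    exact (cj_eq_self_iff.1 (hW _ hd _ (ttc_conj_mem hD g hd) h2).symm).symm
  obtain ⟨L, hLn, hL, -, hF⟩ := Cfsg.Agent.S5352.exists_component hD hD2 h2 h3
  have key := Cfsg.Agent.S5353.result hD hD2 h2 h3 L hL.2 hF
  have hidx := key.2 hconn
  have hprim := key.1 hidx
  have hLeq : commutator G = L := by
    apply le_antisymm (commutator_le_of_index_le_two L hidx)
    have hp : Group.IsPerfect L := hL.2.1
    have := Subgroup.isPerfect_iff.1 hp
    rw [← this, commutator_def]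
    exact Subgroup.commutator_mono le_top le_top
  rw [hLeq]
  exact ⟨hL.2, hidx, by rw [hF, sup_comm], hprim⟩

end grp

theorem result (n : ℕ) (hn : 5 ≤ n) (Q : QuadraticForm (ZMod 3) (Fin n → ZMod 3)) (hQ : (QuadraticMap.polarBilin Q).Nondegenerate) (c : ZMod 3) (hc : c ≠ 0) : Cfsg.IsQuasisimple (commutator ↥(Cfsg.reflectionSubgroup (⇑Q) c)) ∧ (commutator ↥(Cfsg.reflectionSubgroup (⇑Q) c)).index ≤ 2 ∧ Cfsg.generalizedFittingSubgroup ↥(Cfsg.reflectionSubgroup (⇑Q) c) = Subgroup.center ↥(Cfsg.reflectionSubgroup (⇑Q) c) ⊔ commutator ↥(Cfsg.reflectionSubgroup (⇑Q) c) ∧ Cfsg.IsPrimitiveUnderConj {g : ↥(Cfsg.reflectionSubgroup (⇑Q) c) | (g : ↥(Cfsg.isometryGroup (ZMod 3) (⇑Q))) ∈ Cfsg.reflectionsOfNorm (⇑Q) c} := by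
  have hfin : finrank (ZMod 3) (Fin n → ZMod 3) = n := by simp
  have hn' : 5 ≤ finrank (ZMod 3) (Fin n → ZMod 3) := by rw [hfin]; exact hn
  have hD := Cfsg.Agent.S5357.result n hn Q hQ c hc
  have hmem : ∀ g : ↥(Cfsg.isometryGroup (ZMod 3) (⇑Q)),
      g ∈ Cfsg.reflectionsOfNorm (⇑Q) c ↔ ∃ v, Q v = c ∧ g = reflElt Q v := by
    intro g
    constructor
    · rintro ⟨v, hv, hg⟩
      exact ⟨v, hv, isometryGroup_ext (by rw [hg, reflElt_coe])⟩
    · rintro ⟨v, hv, rfl⟩
      exact ⟨v, hv, reflElt_coe Q v⟩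
  have hsub : ∀ v, Q v = c → reflElt Q v ∈ Cfsg.reflectionSubgroup (⇑Q) c := by
    intro v hv
    exact Subgroup.subset_closure ((hmem _).2 ⟨v, hv, rfl⟩)
  have hE : ∀ v, (isoEquiv Q (reflElt Q v) : (Fin n → ZMod 3) ≃ₗ[ZMod 3] (Fin n → ZMod 3)) = refl Q v := by
    intro v; rw [isoEquiv_reflElt]
  have hinj : ∀ a b : ↥(Cfsg.isometryGroup (ZMod 3) (⇑Q)),
      (isoEquiv Q a : (Fin n → ZMod 3) ≃ₗ[ZMod 3] (Fin n → ZMod 3)) = isoEquiv Q b → a = b := by
    intro a b h
    exact (isoEquiv Q).injective (Subtype.ext h)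
  -- the element of `R` attached to a vector of norm `c`
  let r : ∀ v, Q v = c → ↥(Cfsg.reflectionSubgroup (⇑Q) c) := fun v hv => ⟨reflElt Q v, hsub v hv⟩
  have hrD : ∀ v hv, r v hv ∈ {g : ↥(Cfsg.reflectionSubgroup (⇑Q) c) |
      (g : ↥(Cfsg.isometryGroup (ZMod 3) (⇑Q))) ∈ Cfsg.reflectionsOfNorm (⇑Q) c} :=
    fun v hv => (hmem _).2 ⟨v, hv, rfl⟩
  have hDr : ∀ g ∈ {g : ↥(Cfsg.reflectionSubgroup (⇑Q) c) |
      (g : ↥(Cfsg.isometryGroup (ZMod 3) (⇑Q))) ∈ Cfsg.reflectionsOfNorm (⇑Q) c},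
      ∃ v hv, g = r v hv := by
    rintro ⟨g, hg⟩ hgD
    obtain ⟨v, hv, rfl⟩ := (hmem g).1 hgD
    exact ⟨v, hv, rfl⟩
  have hreq : ∀ v hv w hw, r v hv = r w hw ↔ refl Q v = refl Q w := by
    intro v hv w hw
    constructor
    · intro h
      have h1 : reflElt Q v = reflElt Q w := congrArg Subtype.val h
      rw [← hE v, ← hE w, h1]
    · intro h
      apply Subtype.ext
      apply hinj
      rw [hE, hE, h]
  have hrc : ∀ v hv w hw, Commute (r v hv) (r w hw) ↔ Commute (refl Q v) (refl Q w) := by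
    intro v hv w hw
    constructor
    · intro h
      have h1 : reflElt Q v * reflElt Q w = reflElt Q w * reflElt Q v := congrArg Subtype.val h.eq
      have h2 := congrArg (fun x => (isoEquiv Q x : (Fin n → ZMod 3) ≃ₗ[ZMod 3] (Fin n → ZMod 3))) h1
      simp only [map_mul, Subgroup.coe_mul, hE] at h2
      exact h2
    · intro h
      apply Subtype.ext
      show reflElt Q v * reflElt Q w = reflElt Q w * reflElt Q v
      apply hinj
      simp only [map_mul, Subgroup.coe_mul, hE]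
      exact h
  have : Finite ↥(Cfsg.reflectionSubgroup (⇑Q) c) := inferInstance
  obtain ⟨v₀, hv₀⟩ := exists_norm hQ (by rw [hfin]; omega) c
  have hself : ∀ x, Q x = c → polar Q x x ≠ 0 := by
    intro x hx
    rw [polar_self, hx, nsmul_eq_mul]
    exact a3 c hc
  apply structure_of_class hD
  · -- two different reflections
    obtain ⟨u, hu, h1⟩ := exists_orth hQ hn' hc hv₀
    refine ⟨r u hu, hrD u hu, r v₀ hv₀, hrD v₀ hv₀, fun h => ?_⟩
    exact refl_ne_of_polar Q (x := u) (by rw [hu]; exact hc) (hself u hu) h1 ((hreq u hu v₀ hv₀).1 h)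
  · -- `V`-triviality
    intro a ha b hb hab
    obtain ⟨v, hv, rfl⟩ := hDr a ha
    obtain ⟨w, hw, rfl⟩ := hDr b hb
    have hcomm : Commute (r v hv) (r w hw) := ((hab _ (hrD v hv)).1 (Commute.refl _)).symm
    by_cases hp : polar Q v w = 0
    · exfalso
      obtain ⟨u, hu, h1, h2, h3⟩ := exists_sep_two hQ hn' hc hv hw hp
      have h4 : Commute (r w hw) (r u hu) :=
        (hab _ (hrD u hu)).1 ((hrc v hv u hu).2 (commute_of_polar Q h1))
      exact h3 (eq_of_commute Q hc hw hu h2 ((hrc w hw u hu).1 h4)).symm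
    · exact (hreq v hv w hw).2 (eq_of_commute Q hc hv hw hp ((hrc v hv w hw).1 hcomm))
  · -- `W`-triviality
    intro a ha b hb hab
    obtain ⟨v, hv, rfl⟩ := hDr a ha
    obtain ⟨w, hw, rfl⟩ := hDr b hb
    by_contra hne
    have hne' : refl Q v ≠ refl Q w := fun h => hne ((hreq v hv w hw).2 h)
    by_cases hp : polar Q v w = 0
    · -- then `w` is in `Dp v` but not in `Dp w`
      have h1 : r w hw ∈ Cfsg.Agent.Lib.Helper8.Dp _ (r v hv) :=
        ⟨hrD w hw, fun h => hne h.symm, (hrc v hv w hw).2 (commute_of_polar Q hp)⟩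
      rw [hab] at h1
      exact h1.2.1 rfl
    · obtain ⟨u, hu, h1, h2⟩ := exists_sep_three hQ hc hv hw hp hne'
      have huv : refl Q u ≠ refl Q v := by
        apply refl_ne_of_polar Q (x := u) (by rw [hu]; exact hc) (hself u hu) h1
      have h3 : r u hu ∈ Cfsg.Agent.Lib.Helper8.Dp _ (r v hv) :=
        ⟨hrD u hu, fun h => huv ((hreq u hu v hv).1 h), (hrc v hv u hu).2 (commute_of_polar Q h1)⟩
      rw [hab] at h3
      exact h3.2.1 ((hreq u hu w hw).2
        (eq_of_commute Q hc hw hu h2 ((hrc w hw u hu).1 h3.2.2)).symm)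
  · -- connectedness of the commuting graph
    have hadj : ∀ v hv w hw, polar Q v w = 0 →
        (Cfsg.commutingGraph _).Reachable ⟨r v hv, hrD v hv⟩ ⟨r w hw, hrD w hw⟩ := by
      intro v hv w hw hp
      apply SimpleGraph.Adj.reachable
      rw [Cfsg.commutingGraph, SimpleGraph.fromRel_adj]
      refine ⟨fun h => ?_, Or.inl ((hrc v hv w hw).2 (commute_of_polar Q hp))⟩
      have h1 : r v hv = r w hw := congrArg Subtype.val h
      exact refl_ne_of_polar Q (x := w) (by rw [hw]; exact hc) (hself w hw) hp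
        ((hreq v hv w hw).1 h1).symm
    haveI : Nonempty ↥{g : ↥(Cfsg.reflectionSubgroup (⇑Q) c) |
      (g : ↥(Cfsg.isometryGroup (ZMod 3) (⇑Q))) ∈ Cfsg.reflectionsOfNorm (⇑Q) c} :=
      ⟨⟨r v₀ hv₀, hrD v₀ hv₀⟩⟩
    refine ⟨?_⟩
    rintro ⟨a, ha⟩ ⟨b, hb⟩
    obtain ⟨v, hv, rfl⟩ := hDr a ha
    obtain ⟨w, hw, rfl⟩ := hDr b hb
    by_cases hp : polar Q v w = 0
    · exact hadj v hv w hw hp
    · by_cases hne : refl Q v = refl Q w
      · have : (⟨r v hv, ha⟩ : ↥{g : ↥(Cfsg.reflectionSubgroup (⇑Q) c) |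
          (g : ↥(Cfsg.isometryGroup (ZMod 3) (⇑Q))) ∈ Cfsg.reflectionsOfNorm (⇑Q) c}) =
            ⟨r w hw, hb⟩ := Subtype.ext ((hreq v hv w hw).2 hne)
        rw [this]
      · obtain ⟨u, hu, h1, h2⟩ := exists_common hQ hn' hc hv hw hp hne
        exact (hadj v hv u hu h1).trans (hadj w hw u hu h2).symm

end Cfsg.Agent.S5360
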