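import Cfsg.Statements.S5363

set_option autoImplicit false
open Cfsg

namespace Cfsg.Agent.S5363

variable {G : Type*} [Group G]

lemma sq_of_order {d : G} (h : orderOf d = 2) : d * d = 1 := by
  have := pow_orderOf_eq_one d
  rwa [h, pow_two] at this

lemma inv_of_order {d : G} (h : orderOf d = 2) : d⁻¹ = d :=
  inv_eq_of_mul_eq_one_left (sq_of_order h)

/-- key for `⇒` -/
lemma comm_of_odd [Finite G] {D : Set G} (hinv : ∀ d ∈ D, orderOf d = 2)
    (h : ∀ a ∈ D, ∀ b ∈ D, Odd (orderOf (a * b)) ∨ orderOf (a * b) = 2)
    {a b y : G} (ha : a ∈ D) (hb : b ∈ D) (hy : y ∈ D) (hne : b ≠ a) (hab : Commute a b)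
    (hyab : Commute (a * b) y) : Commute a y := by
  have ha2 := sq_of_order (hinv a ha)
  have hb2 := sq_of_order (hinv b hb)
  have hy2 := sq_of_order (hinv y hy)
  rcases h y hy a ha with hodd | h2
  · -- y * b = (y * a) * (a * b)
    have hz : orderOf (a * b) = 2 := by
      apply orderOf_eq_prime
      · rw [pow_two]
        calc a * b * (a * b) = a * (b * a) * b := by group
          _ = a * (a * b) * b := by rw [hab.eq]
          _ = (a * a) * (b * b) := by group
          _ = 1 := by rw [ha2, hb2, one_mul]
      · intro h1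
        apply hne
        have : b = a⁻¹ := eq_inv_of_mul_eq_one_right h1
        rw [this, inv_of_order (hinv a ha)]
    have hc : Commute (y * a) (a * b) := by
      apply Commute.mul_left hyab.symm
      show a * (a * b) = a * b * a
      rw [mul_assoc a b a, hab.symm.eq]
    have hcop : Nat.Coprime (orderOf (y * a)) (orderOf (a * b)) := by
      rw [hz]; exact Nat.Coprime.symm (Nat.coprime_two_left.2 hodd)
    have hord := hc.orderOf_mul_eq_mul_orderOf_of_coprime hcop
    have hyb : y * a * (a * b) = y * b := by
      calc y * a * (a * b) = y * (a * a) * b := by group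
        _ = y * b := by rw [ha2, mul_one]
    rw [hyb, hz] at hord
    rcases h y hy b hb with hodd' | h2'
    · exfalso
      rw [hord] at hodd'
      exact (Nat.not_odd_iff_even.2 (even_two.mul_left _)) hodd'
    · rw [h2'] at hord
      have h1 : orderOf (y * a) = 1 := by omega
      have h1' := orderOf_eq_one_iff.1 h1
      have : y = a⁻¹ := eq_inv_of_mul_eq_one_left h1'
      rw [this]
      exact (Commute.refl a).inv_right
  · have h3 : (y * a) * (y * a) = 1 := by
      have := pow_orderOf_eq_one (y * a)
      rwa [h2, pow_two] at this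
    show a * y = y * a
    calc a * y = (y * y) * a * y * (a * a) := by rw [hy2, ha2, one_mul, mul_one]
      _ = y * ((y * a) * (y * a)) * a := by group
      _ = y * a := by rw [h3, mul_one]

lemma mem_of_pow {D : Set G} (hinv : ∀ d ∈ D, orderOf d = 2)
    (hconj : ∀ g : G, ∀ d ∈ D, g * d * g⁻¹ ∈ D) {a b : G} (ha : a ∈ D) (hb : b ∈ D) :
    ∀ n : ℕ, a * (a * b) ^ n ∈ D ∧ a * (a * b) ^ (n + 1) ∈ D := by
  have ha2 := sq_of_order (hinv a ha)
  have hb2 := sq_of_order (hinv b hb)
  intro n
  induction n with
  | zero =>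
    refine ⟨by simpa using ha, ?_⟩
    have : a * (a * b) ^ (0 + 1) = b := by
      rw [zero_add, pow_one, ← mul_assoc, ha2, one_mul]
    rw [this]; exact hb
  | succ n ih =>
    refine ⟨ih.2, ?_⟩
    have h := hconj (b * a) _ ih.1
    have : b * a * (a * (a * b) ^ n) * (b * a)⁻¹ = a * (a * b) ^ (n + 1 + 1) := by
      rw [mul_inv_rev, inv_of_order (hinv a ha), inv_of_order (hinv b hb)]
      calc b * a * (a * (a * b) ^ n) * (a * b) = b * (a * a) * ((a * b) ^ n * (a * b)) := by group
        _ = (a * a) * b * ((a * b) ^ n * (a * b)) := by rw [ha2]; group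
        _ = a * ((a * b) * ((a * b) ^ n * (a * b))) := by simp only [mul_assoc]
        _ = a * (a * b) ^ (n + 1 + 1) := by rw [← pow_succ, ← pow_succ']
    rw [← this]; exact h

/-- Let D be a conjugation-invariant set of involutions of a finite group G. Then every product of two members of D has odd order or order 2 if and only if, for every a in D and every b in D different from a and commuting with a, the members of D commuting with a b are exactly those commuting with both a and b. -/
theorem result {G : Type*} [Group G] [Finite G] {D : Set G} (hinv : ∀ d ∈ D, orderOf d = 2) (hconj : ∀ g : G, ∀ d ∈ D, g * d * g⁻¹ ∈ D) : (∀ a ∈ D, ∀ b ∈ D, Odd (orderOf (a * b)) ∨ orderOf (a * b) = 2) ↔ ∀ a ∈ D, ∀ b ∈ D, b ≠ a → Commute a b → {y : G | y ∈ D ∧ Commute (a * b) y} = {y : G | y ∈ D ∧ Commute a y} ∩ {y : G | y ∈ D ∧ Commute b y} := by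
  constructor
  · intro h a ha b hb hne hab
    ext y
    constructor
    · rintro ⟨hy, hc⟩
      refine ⟨⟨hy, comm_of_odd hinv h ha hb hy hne hab hc⟩, ⟨hy, ?_⟩⟩
      have hc' : Commute (b * a) y := by rw [← hab.eq]; exact hc
      exact comm_of_odd hinv h hb ha hy hne.symm hab.symm hc'
    · rintro ⟨⟨hy, h1⟩, ⟨-, h2⟩⟩
      exact ⟨hy, h1.mul_left h2⟩
  · intro h a ha b hb
    by_cases hodd : Odd (orderOf (a * b))
    · left; exact hodd
    right
    have ha2 := sq_of_order (hinv a ha)
    have hb2 := sq_of_order (hinv b hb)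
    have hai := inv_of_order (hinv a ha)
    have hbi := inv_of_order (hinv b hb)
    rw [Nat.not_odd_iff_even] at hodd
    obtain ⟨k, hk⟩ := hodd
    have hpos : 0 < orderOf (a * b) := orderOf_pos _
    have hk0 : 0 < k := by omega
    set z := (a * b) ^ k with hz
    have hz2 : z * z = 1 := by
      rw [hz, ← pow_add, ← hk, pow_orderOf_eq_one]
    have hz1 : z ≠ 1 := by
      intro h1
      have := orderOf_le_of_pow_eq_one hk0 h1
      omega
    have hzi : z⁻¹ = z := inv_eq_of_mul_eq_one_left hz2
    have hconjpow : ∀ g : G, g * z * g⁻¹ = (g * (a * b) * g⁻¹) ^ k := by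
      intro g; rw [hz, conj_pow]
    have haz : a * z * a⁻¹ = z := by
      rw [hconjpow]
      have : a * (a * b) * a⁻¹ = (a * b)⁻¹ := by
        rw [mul_inv_rev, hai, hbi, ← mul_assoc, ha2, one_mul]
      rw [this, inv_pow, ← hz, hzi]
    have hbz : b * z * b⁻¹ = z := by
      rw [hconjpow]
      have : b * (a * b) * b⁻¹ = (a * b)⁻¹ := by
        rw [mul_inv_rev, hai, hbi]
        calc b * (a * b) * b = b * a * (b * b) := by group
          _ = b * a := by rw [hb2, mul_one]
      rw [this, inv_pow, ← hz, hzi]
    have haz' : Commute a z := by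
      show a * z = z * a
      exact mul_inv_eq_iff_eq_mul.1 haz
    have hbz' : Commute b z := by
      show b * z = z * b
      exact mul_inv_eq_iff_eq_mul.1 hbz
    have ha' : a * z ∈ D := (mem_of_pow hinv hconj ha hb k).1
    have hne : a * z ≠ a := by
      intro h1
      exact hz1 (mul_eq_left.1 h1)
    have hcomm : Commute a (a * z) := (Commute.refl a).mul_right haz'
    have hset := h a ha (a * z) ha' hne hcomm
    have hmem : b ∈ {y : G | y ∈ D ∧ Commute (a * (a * z)) y} := by
      refine ⟨hb, ?_⟩
      rw [← mul_assoc, ha2, one_mul]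
      exact hbz'.symm
    rw [hset] at hmem
    have hab : Commute a b := hmem.1.2
    have h2 : (a * b) ^ 2 = 1 := by
      rw [pow_two]
      calc a * b * (a * b) = a * (b * a) * b := by group
        _ = a * (a * b) * b := by rw [hab.eq]
        _ = (a * a) * (b * b) := by group
        _ = 1 := by rw [ha2, hb2, one_mul]
    have hdvd := orderOf_dvd_of_pow_eq_one h2
    have hle := Nat.le_of_dvd (by norm_num) hdvd
    omega

end Cfsg.Agent.S5363
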