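import Cfsg.Statements.S5366

set_option autoImplicit false
open Cfsg

namespace Cfsg.Agent.S5366

open Cfsg.LineSystem

variable {X : Type*} {L : Set (Set X)}

/-- `z` is the third point of a line through `x` and `y`. -/
def Third (L : Set (Set X)) (x y z : X) : Prop :=
  z ≠ x ∧ z ≠ y ∧ x ≠ y ∧ ({x, y, z} : Set X) ∈ L

theorem Third.unique (hPL : IsPartialLinear L) {x y z z' : X} (h : Third L x y z)
    (h' : Third L x y z') : z' = z := by
  have heq := hPL _ h.2.2.2 _ h'.2.2.2 x y h.2.2.1 (by simp) (by simp) (by simp) (by simp)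
  have : z' ∈ ({x, y, z} : Set X) := by rw [heq]; simp
  rcases this with h1 | h1 | h1
  · exact absurd h1 h'.1
  · exact absurd h1 h'.2.1
  · exact h1

theorem lm_third (hPL : IsPartialLinear L) {x y z : X} (h : Third L x y z) :
    lineMap L x y = z := by
  have hex : ∃ z : X, z ≠ x ∧ z ≠ y ∧ x ≠ y ∧ ({x, y, z} : Set X) ∈ L := ⟨z, h⟩
  unfold lineMap
  rw [dif_pos hex]
  exact Third.unique hPL h hex.choose_spec

theorem lm_fix {x y : X} (h : ¬ ∃ z, Third L x y z) : lineMap L x y = y := by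
  have h' : ¬ ∃ z : X, z ≠ x ∧ z ≠ y ∧ x ≠ y ∧ ({x, y, z} : Set X) ∈ L := h
  unfold lineMap
  rw [dif_neg h']

theorem Third.swap {x y z : X} (h : Third L x y z) : Third L y x z :=
  ⟨h.2.1, h.1, h.2.2.1.symm, by rw [Set.insert_comm]; exact h.2.2.2⟩

theorem Third.rot {x y z : X} (h : Third L x y z) : Third L x z y :=
  ⟨h.2.2.1.symm, h.2.1.symm, h.1.symm, by
    have : ({x, z, y} : Set X) = {x, y, z} := by rw [Set.pair_comm]
    rw [this]; exact h.2.2.2⟩

theorem lm_self (x : X) : lineMap L x x = x :=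
  lm_fix (fun ⟨_, h⟩ => h.2.2.1 rfl)

theorem lm_invol (hPL : IsPartialLinear L) (x : X) : Function.Involutive (lineMap L x) := by
  intro y
  by_cases h : ∃ z, Third L x y z
  · obtain ⟨z, hz⟩ := h
    rw [lm_third hPL hz, lm_third hPL hz.rot]
  · rw [lm_fix h, lm_fix h]

/-- the permutation `t(x)` -/
noncomputable def tp (hPL : IsPartialLinear L) (x : X) : Equiv.Perm X :=
  (lm_invol hPL x).toPerm

theorem tp_apply (hPL : IsPartialLinear L) (x y : X) : tp hPL x y = lineMap L x y := rfl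

/-- an automorphism transports thirds -/
theorem Third.map {σ : Equiv.Perm X} (hσ : IsIso L L σ) {x y z : X} (h : Third L x y z) :
    Third L (σ x) (σ y) (σ z) := by
  refine ⟨fun hh => h.1 (σ.injective hh), fun hh => h.2.1 (σ.injective hh),
    fun hh => h.2.2.1 (σ.injective hh), ?_⟩
  have := (hσ _).1 h.2.2.2
  rwa [Set.image_insert_eq, Set.image_pair] at this

theorem Third.comap {σ : Equiv.Perm X} (hσ : IsIso L L σ) {x y z : X}
    (h : Third L (σ x) (σ y) (σ z)) : Third L x y z := by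
  refine ⟨fun hh => h.1 (congrArg σ hh), fun hh => h.2.1 (congrArg σ hh),
    fun hh => h.2.2.1 (congrArg σ hh), ?_⟩
  apply (hσ _).2
  rw [Set.image_insert_eq, Set.image_pair]
  exact h.2.2.2

theorem lm_conj (hPL : IsPartialLinear L) {σ : Equiv.Perm X} (hσ : IsIso L L σ) (y w : X) :
    σ (lineMap L y w) = lineMap L (σ y) (σ w) := by
  by_cases h : ∃ z, Third L y w z
  · obtain ⟨z, hz⟩ := h
    rw [lm_third hPL hz, lm_third hPL (hz.map hσ)]
  · rw [lm_fix h, lm_fix]
    rintro ⟨z', hz'⟩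
    apply h
    refine ⟨σ.symm z', Third.comap hσ ?_⟩
    rwa [Equiv.apply_symm_apply]

/-- A model plane with an explicit reflection map. -/
structure Model {Y : Type*} (M : Set (Set Y)) (t : Y → Y → Y) : Prop where
  m1 : ∀ p q r, Third M p q r → r = t p q
  m2 : ∀ p q, (¬ ∃ z, Third M p q z) → t p q = q
  m3 : ∀ p q₁ q₂ q₃, ({q₁, q₂, q₃} : Set Y) ∈ M → ({t p q₁, t p q₂, t p q₃} : Set Y) ∈ M

theorem tri_iff {S : Set X} {Y : Type*} {M : Set (Set Y)} (e : ↥S ≃ Y)
    (he : IsIso (restrict L S) M e) (x y z : ↥S) :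
    ({x.1, y.1, z.1} : Set X) ∈ L ↔ ({e x, e y, e z} : Set Y) ∈ M := by
  have himg : e '' ({x, y, z} : Set ↥S) = {e x, e y, e z} := by
    rw [Set.image_insert_eq, Set.image_pair]
  constructor
  · intro hκ
    have hsub : ({x.1, y.1, z.1} : Set X) ⊆ S := by
      rintro _ (rfl | rfl | rfl)
      · exact x.2
      · exact y.2
      · exact z.2
    have ht : ({x, y, z} : Set ↥S) ∈ restrict L S := by
      refine ⟨_, hκ, hsub, ?_⟩
      ext s
      simp [Subtype.ext_iff]
    rw [← himg]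
    exact (he _).1 ht
  · intro hM
    rw [← himg] at hM
    obtain ⟨κ, hκ, hκS, heq⟩ := (he _).2 hM
    have : κ = {x.1, y.1, z.1} := by
      ext k
      constructor
      · intro hk
        have h1 : (⟨k, hκS hk⟩ : ↥S) ∈ ({x, y, z} : Set ↥S) := by rw [heq]; exact hk
        rcases h1 with h1 | h1 | h1
        · exact Or.inl (congrArg Subtype.val h1)
        · exact Or.inr (Or.inl (congrArg Subtype.val h1))
        · exact Or.inr (Or.inr (congrArg Subtype.val h1))
      · have hx : x ∈ ({x, y, z} : Set ↥S) := by simp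
        have hy : y ∈ ({x, y, z} : Set ↥S) := by simp
        have hz : z ∈ ({x, y, z} : Set ↥S) := by simp
        rw [heq] at hx hy hz
        rintro (rfl | rfl | rfl)
        · exact hx
        · exact hy
        · exact hz
    rw [← this]; exact hκ

theorem plane_aut (hPL : IsPartialLinear L) {S : Set X} (hS : IsSubspace L S) {Y : Type*}
    {M : Set (Set Y)} {t : Y → Y → Y} (hM : Model M t) (e : ↥S ≃ Y)
    (he : IsIso (restrict L S) M e) (x q₁ q₂ q₃ : ↥S) (hl : ({q₁.1, q₂.1, q₃.1} : Set X) ∈ L) :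
    ({lineMap L x.1 q₁.1, lineMap L x.1 q₂.1, lineMap L x.1 q₃.1} : Set X) ∈ L := by
  have key : ∀ q : ↥S, lineMap L x.1 q.1 = (e.symm (t (e x) (e q))).1 := by
    intro q
    by_cases h : ∃ z, Third M (e x) (e q) z
    · obtain ⟨z, hz⟩ := h
      rw [← hM.m1 _ _ _ hz]
      apply lm_third hPL
      refine ⟨?_, ?_, ?_, ?_⟩
      · intro hh
        apply hz.1
        rw [← Subtype.ext hh, Equiv.apply_symm_apply]
      · intro hh
        apply hz.2.1
        rw [← Subtype.ext hh, Equiv.apply_symm_apply]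
      · intro hh
        apply hz.2.2.1
        rw [Subtype.ext hh]
      · rw [tri_iff e he, Equiv.apply_symm_apply]
        exact hz.2.2.2
    · rw [hM.m2 _ _ h, Equiv.symm_apply_apply]
      apply lm_fix
      rintro ⟨z, hz⟩
      apply h
      have hzS : z ∈ S := hS _ hz.2.2.2 x.1 x.2 q.1 q.2 hz.2.2.1 (by simp) (by simp) (by simp)
      refine ⟨e ⟨z, hzS⟩, ?_, ?_, ?_, ?_⟩
      · intro hh
        exact hz.1 (congrArg Subtype.val (e.injective hh))
      · intro hh
        exact hz.2.1 (congrArg Subtype.val (e.injective hh))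
      · intro hh
        exact hz.2.2.1 (congrArg Subtype.val (e.injective hh))
      · exact (tri_iff e he x q ⟨z, hzS⟩).1 hz.2.2.2
  rw [key, key, key, tri_iff e he]
  simp only [Equiv.apply_symm_apply]
  exact hM.m3 _ _ _ _ ((tri_iff e he _ _ _).1 hl)

theorem span_isSubspace (U : Set X) : IsSubspace L (span L U) := by
  intro l hl x hx y hy hne hxl hyl z hz
  rintro T ⟨hUT, hT⟩
  exact hT l hl x (hx T ⟨hUT, hT⟩) y (hy T ⟨hUT, hT⟩) hne hxl hyl hz

theorem subset_span (U : Set X) : U ⊆ span L U := by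
  intro u hu
  rintro T ⟨hUT, -⟩
  exact hUT hu

/-! ### the dual affine plane -/

/-- the transposition attached to a two-element subset -/
def tau (s : DualAffinePoint) : Equiv.Perm (Fin 4) :=
  Equiv.swap (s.1.min' (Finset.card_pos.1 (by rw [s.2]; decide)))
    (s.1.max' (Finset.card_pos.1 (by rw [s.2]; decide)))

/-- the reflection map of the dual affine plane -/
def tD (p q : DualAffinePoint) : DualAffinePoint :=
  ⟨q.1.map (tau p).toEmbedding, by rw [Finset.card_map]; exact q.2⟩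

/-- decidable form of being a line -/
def LineD (s₁ s₂ s₃ : DualAffinePoint) : Prop :=
  ∃ i : Fin 4, ∀ s : DualAffinePoint, (s = s₁ ∨ s = s₂ ∨ s = s₃) ↔ i ∉ s.1

instance (s₁ s₂ s₃ : DualAffinePoint) : Decidable (LineD s₁ s₂ s₃) := by
  unfold LineD; infer_instance

theorem d1 : ∀ p q r : DualAffinePoint, r ≠ p → r ≠ q → p ≠ q → LineD p q r → r = tD p q := by
  decide +kernel

theorem d2 : ∀ p q : DualAffinePoint,
    (¬ ∃ z : DualAffinePoint, z ≠ p ∧ z ≠ q ∧ p ≠ q ∧ LineD p q z) → tD p q = q := by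
  decide +kernel

theorem d3 : ∀ q₁ q₂ q₃ : DualAffinePoint, LineD q₁ q₂ q₃ →
    ∀ p, LineD (tD p q₁) (tD p q₂) (tD p q₃) := by
  decide +kernel

theorem mem_dual_iff (s₁ s₂ s₃ : DualAffinePoint) :
    ({s₁, s₂, s₃} : Set DualAffinePoint) ∈ dualAffinePlaneTwo ↔ LineD s₁ s₂ s₃ := by
  constructor
  · rintro ⟨i, hi⟩
    refine ⟨i, fun s => ?_⟩
    have := Set.ext_iff.1 hi s
    simpa using this
  · rintro ⟨i, hi⟩
    refine ⟨i, Set.ext fun s => ?_⟩
    simpa using hi s

theorem modelD : Model dualAffinePlaneTwo tD where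
  m1 := fun p q r h => d1 p q r h.1 h.2.1 h.2.2.1 ((mem_dual_iff _ _ _).1 h.2.2.2)
  m2 := by
    intro p q h
    apply d2
    rintro ⟨z, h1, h2, h3, h4⟩
    exact h ⟨z, h1, h2, h3, (mem_dual_iff _ _ _).2 h4⟩
  m3 := fun p q₁ q₂ q₃ h => (mem_dual_iff _ _ _).2 (d3 _ _ _ ((mem_dual_iff _ _ _).1 h) p)

/-! ### the affine plane -/

theorem a1 : ∀ (v w : Fin 2 → ZMod 3) (c₁ c₂ c₃ : ZMod 3), c₁ ≠ c₂ → c₁ ≠ c₃ → c₂ ≠ c₃ →
    v + c₃ • w = -(v + c₁ • w) - (v + c₂ • w) := by
  decide +kernel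

theorem a2 : ∀ p q : Fin 2 → ZMod 3, p ≠ q → -p - q ≠ p ∧ -p - q ≠ q ∧
    -p - q = p + (2 : ZMod 3) • (q - p) := by
  decide +kernel

theorem a3 : ∀ p : Fin 2 → ZMod 3, -p - p = p := by decide +kernel

theorem lineA {p q : Fin 2 → ZMod 3} (h : p ≠ q) :
    ({p, q, -p - q} : Set (Fin 2 → ZMod 3)) ∈ affinePlaneThree := by
  refine ⟨p, q - p, sub_ne_zero.2 h.symm, ?_⟩
  ext x
  constructor
  · rintro (rfl | rfl | rfl)
    · exact ⟨0, by simp⟩
    · exact ⟨1, by simp⟩
    · exact ⟨2, (a2 p q h).2.2⟩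
  · rintro ⟨k, rfl⟩
    fin_cases k
    · left
      show p + (0 : ZMod 3) • (q - p) = p
      simp
    · right; left
      show p + (1 : ZMod 3) • (q - p) = q
      simp
    · right; right
      exact (a2 p q h).2.2.symm

theorem modelA : Model affinePlaneThree (fun p q : Fin 2 → ZMod 3 => -p - q) where
  m1 := by
    rintro p q r ⟨h1, h2, h3, v, w, hw, heq⟩
    have hp : p ∈ ({p, q, r} : Set (Fin 2 → ZMod 3)) := by simp
    have hq : q ∈ ({p, q, r} : Set (Fin 2 → ZMod 3)) := by simp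
    have hr : r ∈ ({p, q, r} : Set (Fin 2 → ZMod 3)) := by simp
    rw [heq] at hp hq hr
    obtain ⟨c₁, rfl⟩ := hp
    obtain ⟨c₂, rfl⟩ := hq
    obtain ⟨c₃, rfl⟩ := hr
    exact a1 v w c₁ c₂ c₃ (fun hh => h3 (by rw [hh])) (fun hh => h1 (by rw [hh]))
      (fun hh => h2 (by rw [hh]))
  m2 := by
    intro p q h
    by_cases hpq : p = q
    · subst hpq; exact a3 p
    · exact absurd ⟨-p - q, (a2 p q hpq).1, (a2 p q hpq).2.1, hpq, lineA hpq⟩ h
  m3 := by
    rintro p q₁ q₂ q₃ ⟨v, w, hw, heq⟩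
    refine ⟨-p - v, -w, neg_ne_zero.2 hw, ?_⟩
    have himg : ({-p - q₁, -p - q₂, -p - q₃} : Set (Fin 2 → ZMod 3)) =
        (fun q => -p - q) '' {q₁, q₂, q₃} := by
      rw [Set.image_insert_eq, Set.image_pair]
    rw [himg, heq]
    ext x
    constructor
    · rintro ⟨_, ⟨k, rfl⟩, rfl⟩
      exact ⟨k, by simp only [smul_neg]; abel⟩
    · rintro ⟨k, rfl⟩
      exact ⟨v + k • w, ⟨k, rfl⟩, by simp only [smul_neg]; abel⟩

/-! ### the maps `t(x)` are automorphisms -/

theorem lm_line (hF : Cfsg.IsFischerSpace L) (x : X) {l : Set X} (hl : l ∈ L) :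
    lineMap L x '' l ∈ L := by
  have hPL := hF.1
  obtain ⟨q₁, q₂, q₃, h12, h13, h23, rfl⟩ := Set.ncard_eq_three.1 (hF.2.1 l hl)
  rw [Set.image_insert_eq, Set.image_pair]
  have T123 : Third L q₁ q₂ q₃ := ⟨h13.symm, h23.symm, h12, hl⟩
  by_cases hx : x ∈ ({q₁, q₂, q₃} : Set X)
  · rcases hx with rfl | rfl | rfl
    · rw [lm_self, lm_third hPL T123, lm_third hPL T123.rot]
      exact T123.rot.2.2.2
    · rw [lm_self, lm_third hPL T123.swap, lm_third hPL T123.swap.rot]
      have : ({q₃, x, q₁} : Set X) = {q₁, x, q₃} := by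
        ext y; simp only [Set.mem_insert_iff, Set.mem_singleton_iff]; tauto
      rw [this]; exact hl
    · rw [lm_self, lm_third hPL T123.rot.swap, lm_third hPL T123.rot.swap.rot]
      have : ({q₂, q₁, x} : Set X) = {q₁, q₂, x} := by
        ext y; simp only [Set.mem_insert_iff, Set.mem_singleton_iff]; tauto
      rw [this]; exact hl
  · by_cases hcol : ∃ q ∈ ({q₁, q₂, q₃} : Set X), ∃ z, Third L x q z
    · obtain ⟨q, hq, z, hz⟩ := hcol
      have hne : ({q₁, q₂, q₃} : Set X) ≠ {x, q, z} := by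
        intro hh
        apply hx
        rw [hh]; simp
      have hS := span_isSubspace (L := L) (({q₁, q₂, q₃} : Set X) ∪ {x, q, z})
      have hsub := subset_span (L := L) (({q₁, q₂, q₃} : Set X) ∪ {x, q, z})
      have hxS := hsub (Or.inr (by simp : x ∈ ({x, q, z} : Set X)))
      have h1S := hsub (Or.inl (by simp : q₁ ∈ ({q₁, q₂, q₃} : Set X)))
      have h2S := hsub (Or.inl (by simp : q₂ ∈ ({q₁, q₂, q₃} : Set X)))
      have h3S := hsub (Or.inl (by simp : q₃ ∈ ({q₁, q₂, q₃} : Set X)))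
      rcases hF.2.2 _ hl _ hz.2.2.2 hne ⟨q, hq, by simp⟩ with ⟨e, he⟩ | ⟨e, he⟩
      · exact plane_aut hPL hS modelD e he ⟨x, hxS⟩ ⟨q₁, h1S⟩ ⟨q₂, h2S⟩ ⟨q₃, h3S⟩ hl
      · exact plane_aut hPL hS modelA e he ⟨x, hxS⟩ ⟨q₁, h1S⟩ ⟨q₂, h2S⟩ ⟨q₃, h3S⟩ hl
    · push Not at hcol
      rw [lm_fix (fun ⟨z, hz⟩ => hcol q₁ (by simp) z hz),
        lm_fix (fun ⟨z, hz⟩ => hcol q₂ (by simp) z hz),
        lm_fix (fun ⟨z, hz⟩ => hcol q₃ (by simp) z hz)]
      exact hl

theorem tp_isIso (hF : Cfsg.IsFischerSpace L) (x : X) : IsIso L L (tp hF.1 x) := by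
  intro l
  constructor
  · exact fun hl => lm_line hF x hl
  · intro hl
    have h1 := lm_line hF x hl
    have h2 : lineMap L x '' (tp hF.1 x '' l) = l := by
      rw [← Set.image_comp]
      have : (lineMap L x ∘ (tp hF.1 x)) = id := by
        funext y
        exact lm_invol hF.1 x y
      rw [this, Set.image_id]
    rwa [h2] at h1

/-- Let L be a nondegenerate Fischer space on the point type X (every point on a line). Then for every point x the map t(x) — sending a point collinear with x to the third point of their common line and fixing every other point — is a permutation of X of order 2 and an automorphism of the line system; and the set of all t(x) satisfies the 3-transposition order conditions in the permutation group of X (any two have product of order at most 3). -/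
theorem result {X : Type*} (L : Set (Set X)) (hL : Cfsg.IsFischerSpace L) (hnd : Cfsg.LineSystem.IsNondegenerate L) : (∀ x : X, ∃ σ : Equiv.Perm X, ⇑σ = Cfsg.LineSystem.lineMap L x ∧ orderOf σ = 2 ∧ Cfsg.LineSystem.IsIso L L σ) ∧ Cfsg.IsThreeTranspositionSet {σ : Equiv.Perm X | ∃ x : X, ⇑σ = Cfsg.LineSystem.lineMap L x} := by
  have hPL := hL.1
  have hmul : ∀ x, tp hPL x * tp hPL x = 1 := by
    intro x
    ext y
    exact lm_invol hPL x y
  have hord : ∀ x, orderOf (tp hPL x) = 2 := by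
    intro x
    apply orderOf_eq_prime
    · rw [pow_two]; exact hmul x
    · intro h1
      obtain ⟨l, hl, hxl⟩ := hnd x
      obtain ⟨q₁, q₂, q₃, h12, h13, h23, rfl⟩ := Set.ncard_eq_three.1 (hL.2.1 l hl)
      have T123 : Third L q₁ q₂ q₃ := ⟨h13.symm, h23.symm, h12, hl⟩
      have key : ∀ y z, Third L x y z → False := by
        intro y z hz
        have h2 : tp hPL x y = z := lm_third hPL hz
        rw [h1] at h2
        exact hz.2.1 h2.symm
      rcases hxl with rfl | rfl | rfl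
      · exact key _ _ T123
      · exact key _ _ T123.swap
      · exact key _ _ T123.rot.swap
  have hconj : ∀ x y, tp hPL x * tp hPL y * tp hPL x = tp hPL (lineMap L x y) := by
    intro x y
    ext w
    show tp hPL x (lineMap L y (lineMap L x w)) = lineMap L (lineMap L x y) w
    rw [lm_conj hPL (tp_isIso hL x)]
    show lineMap L (lineMap L x y) (lineMap L x (lineMap L x w)) = _
    rw [lm_invol hPL x w]
  refine ⟨fun x => ⟨tp hPL x, rfl, hord x, tp_isIso hL x⟩, ?_, ?_⟩
  · rintro σ ⟨x, hx⟩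
    have : σ = tp hPL x := DFunLike.coe_injective hx
    rw [this]; exact hord x
  · rintro σ ⟨x, hx⟩ ρ ⟨y, hy⟩
    have h1 : σ = tp hPL x := DFunLike.coe_injective hx
    have h2 : ρ = tp hPL y := DFunLike.coe_injective hy
    rw [h1, h2]
    by_cases h : ∃ z, Third L x y z
    · right
      obtain ⟨z, hz⟩ := h
      have e1 := hconj x y
      have e2 := hconj y x
      rw [lm_third hPL hz] at e1
      rw [lm_third hPL hz.swap] at e2
      calc (tp hPL x * tp hPL y) ^ 3
          = (tp hPL x * tp hPL y * tp hPL x) * (tp hPL y * tp hPL x * tp hPL y) := by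
            simp only [pow_succ, pow_zero, one_mul, mul_assoc]
        _ = 1 := by rw [e1, e2, hmul]
    · left
      have e1 := hconj x y
      rw [lm_fix h] at e1
      calc (tp hPL x * tp hPL y) ^ 2 = (tp hPL x * tp hPL y * tp hPL x) * tp hPL y := by
            simp only [pow_succ, pow_zero, one_mul, mul_assoc]
        _ = 1 := by rw [e1, hmul]

end Cfsg.Agent.S5366
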