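import Cfsg.Statements.S5367
import Cfsg.Agent.Lib.Helper8.Fischer
import Cfsg.Agent.Lib.Helper89.Sym4

set_option autoImplicit false
open Cfsg

namespace Cfsg.Agent.S5367

open Cfsg.Agent.Lib.Helper8 Cfsg.Agent.Lib.Helper89 Cfsg.LineSystem

/-- A parametrisation of the subspace generated by `U` gives an isomorphism of line systems. -/
theorem iso_of_param {X Y : Type*} {L : Set (Set X)} {M : Set (Set Y)} (hPL : IsPartialLinear L)
    (h2 : ∀ κ ∈ L, ∃ x ∈ κ, ∃ y ∈ κ, x ≠ y)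
    (P : Y → X) (hinj : Function.Injective P)
    (ha : ∀ l ∈ M, P '' l ∈ L)
    (hb : ∀ y₁ y₂, y₁ ≠ y₂ → (∃ κ ∈ L, P y₁ ∈ κ ∧ P y₂ ∈ κ) → ∃ l ∈ M, y₁ ∈ l ∧ y₂ ∈ l)
    (U : Set X) (hU : U ⊆ Set.range P)
    (hgen : ∀ T, IsSubspace L T → U ⊆ T → ∀ y, P y ∈ T) :
    Isomorphic (restrict L (span L U)) M := by
  have hline : ∀ κ ∈ L, ∀ y₁ y₂, y₁ ≠ y₂ → P y₁ ∈ κ → P y₂ ∈ κ → ∃ l ∈ M, κ = P '' l := by
    intro κ hκ y₁ y₂ hne h1 h2
    obtain ⟨l, hl, m1, m2⟩ := hb y₁ y₂ hne ⟨κ, hκ, h1, h2⟩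
    exact ⟨l, hl, hPL κ hκ _ (ha l hl) (P y₁) (P y₂) (fun hh => hne (hinj hh)) h1 h2
      ⟨y₁, m1, rfl⟩ ⟨y₂, m2, rfl⟩⟩
  have hsub : IsSubspace L (Set.range P) := by
    rintro κ hκ _ ⟨y₁, rfl⟩ _ ⟨y₂, rfl⟩ hne h1 h2
    obtain ⟨l, -, rfl⟩ := hline κ hκ y₁ y₂ (fun hh => hne (congrArg P hh)) h1 h2
    exact Set.image_subset_range P l
  have hspan : span L U = Set.range P := by
    apply Set.Subset.antisymm
    · exact Set.sInter_subset_of_mem ⟨hU, hsub⟩
    · rintro _ ⟨y, rfl⟩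
      rintro T ⟨hT1, hT2⟩
      exact hgen T hT2 hT1 y
  let e : ↥(span L U) ≃ Y := (Equiv.setCongr hspan).trans (Equiv.ofInjective P hinj).symm
  have he : ∀ x : ↥(span L U), P (e x) = x.1 := by
    intro x
    have := Equiv.apply_ofInjective_symm hinj (Equiv.setCongr hspan x)
    exact this
  refine ⟨e, ?_⟩
  intro t
  constructor
  · rintro ⟨κ, hκ, hκS, rfl⟩
    obtain ⟨x, hx, z, hz, hxz⟩ := h2 κ hκ
    have hx' := hκS hx
    have hz' := hκS hz
    rw [hspan] at hx' hz'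
    obtain ⟨y₁, rfl⟩ := hx'
    obtain ⟨y₂, rfl⟩ := hz'
    obtain ⟨l, hl, rfl⟩ := hline κ hκ y₁ y₂ (fun hh => hxz (congrArg P hh)) hx hz
    have : e '' {x : ↥(span L U) | (x : X) ∈ P '' l} = l := by
      ext y
      constructor
      · rintro ⟨x, ⟨y', hy', hx⟩, rfl⟩
        rw [← he x] at hx
        rw [← hinj hx]; exact hy'
      · intro hy
        refine ⟨e.symm y, ⟨y, hy, ?_⟩, by simp⟩
        rw [← he (e.symm y)]; simp
    rw [this]; exact hl
  · intro hM
    refine ⟨P '' (e '' t), ha _ hM, ?_, ?_⟩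
    · exact (Set.image_subset_range P _).trans hspan.ge
    · ext x
      constructor
      · intro hx
        exact ⟨e x, ⟨x, hx, rfl⟩, he x⟩
      · rintro ⟨_, ⟨x', hx', rfl⟩, h3⟩
        rw [he x'] at h3
        rw [← Subtype.ext h3]; exact hx'

variable {G : Type*} [Group G] {D : Set G}

local notation:75 g:76 " ⋆ " x:75 => g * x * g⁻¹

theorem cj_dist (g x y : G) : g ⋆ (x ⋆ y) = (g ⋆ x) ⋆ (g ⋆ y) := by group

theorem cj_self (x : G) : x ⋆ x = x := by group

theorem nc_conj (g : G) {x y : G} (h : ¬ Commute x y) : ¬ Commute (g ⋆ x) (g ⋆ y) :=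
  fun hh => h ((Commute.conj_iff g).1 hh)

/-- The three points of a line: any two of them determine the line. -/
theorem tri (hT : Cfsg.IsThreeTranspositionSet D) (hconj : ∀ g : G, ∀ d ∈ D, g * d * g⁻¹ ∈ D)
    {x y : G} (hx : x ∈ D) (hy : y ∈ D) (hxy : ¬ Commute x y) {u v : G}
    (hu : u = x ∨ u = y ∨ u = y ⋆ x) (hv : v = x ∨ v = y ∨ v = y ⋆ x) (huv : u ≠ v) :
    ¬ Commute u v ∧ ∀ z : G, (z = x ∨ z = y ∨ z = y ⋆ x) ↔ (z = u ∨ z = v ∨ z = v ⋆ u) := by
  have ht : y ⋆ x ∈ D := hconj y x hx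
  have e0 : x ⋆ y = y ⋆ x := tt_star_comm hT hx hy hxy
  have nxt : ¬ Commute x (y ⋆ x) := by
    have := nc_conj x hxy
    rwa [cj_self, e0] at this
  have nyt : ¬ Commute y (y ⋆ x) := by
    have := nc_conj y (fun hh : Commute y x => hxy hh.symm)
    rwa [cj_self] at this
  have e1 : x ⋆ (y ⋆ x) = y := by rw [← e0]; exact tt_star_star hT hx y
  have e2 : y ⋆ (y ⋆ x) = x := tt_star_star hT hy x
  have e3 : (y ⋆ x) ⋆ x = y := by rw [← tt_star_comm hT hx ht nxt]; exact e1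
  have e4 : (y ⋆ x) ⋆ y = x := by rw [← tt_star_comm hT hy ht nyt]; exact e2
  rcases hu with rfl | rfl | rfl <;> rcases hv with rfl | rfl | rfl
  · exact absurd rfl huv
  · exact ⟨hxy, fun z => Iff.rfl⟩
  · exact ⟨nxt, fun z => by rw [e3]; tauto⟩
  · exact ⟨fun hh => hxy hh.symm, fun z => by rw [e0]; tauto⟩
  · exact absurd rfl huv
  · exact ⟨nyt, fun z => by rw [e4]; tauto⟩
  · exact ⟨fun hh => nxt hh.symm, fun z => by rw [e1]; tauto⟩
  · exact ⟨fun hh => nyt hh.symm, fun z => by rw [e2]; tauto⟩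
  · exact absurd rfl huv

/-- the line through two points -/
def ln (x y : D) : Set D :=
  {z : D | (z : G) = x ∨ (z : G) = y ∨ (z : G) = (y : G) * (x : G) * (y : G)⁻¹}

theorem ln_mem {x y : D} (h : ¬ Commute (x : G) (y : G)) : ln x y ∈ Cfsg.threeTranspositionLines D :=
  ⟨x, y, h, rfl⟩

theorem ln_eq (hT : Cfsg.IsThreeTranspositionSet D) (hconj : ∀ g : G, ∀ d ∈ D, g * d * g⁻¹ ∈ D)
    {x y u v : D} (hxy : ¬ Commute (x : G) (y : G)) (hu : u ∈ ln x y) (hv : v ∈ ln x y)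
    (huv : u ≠ v) : ¬ Commute (u : G) (v : G) ∧ ln x y = ln u v := by
  obtain ⟨h1, h2⟩ := tri hT hconj x.2 y.2 hxy hu hv (fun hh => huv (Subtype.ext hh))
  exact ⟨h1, Set.ext fun z => h2 z.1⟩

theorem partialLinear (hT : Cfsg.IsThreeTranspositionSet D)
    (hconj : ∀ g : G, ∀ d ∈ D, g * d * g⁻¹ ∈ D) :
    IsPartialLinear (Cfsg.threeTranspositionLines D) := by
  rintro _ ⟨x, y, hxy, rfl⟩ _ ⟨x', y', hxy', rfl⟩ p q hpq h1 h2 h3 h4
  exact (ln_eq hT hconj hxy h1 h2 hpq).2.trans (ln_eq hT hconj hxy' h3 h4 hpq).2.symm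

theorem left_mem (x y : D) : x ∈ ln x y := Or.inl rfl
theorem right_mem (x y : D) : y ∈ ln x y := Or.inr (Or.inl rfl)

theorem ne_of_nc {x y : D} (h : ¬ Commute (x : G) (y : G)) : x ≠ y := by
  rintro rfl
  exact h (Commute.refl _)

theorem ncard_three
    (hconj : ∀ g : G, ∀ d ∈ D, g * d * g⁻¹ ∈ D) :
    ∀ l ∈ Cfsg.threeTranspositionLines D, l.ncard = 3 := by
  rintro _ ⟨x, y, hxy, rfl⟩
  rw [Set.ncard_eq_three]
  have hne := ne_of_nc hxy
  have h3 : (⟨y.1 ⋆ x.1, hconj _ _ x.2⟩ : D) ∈ ln x y := Or.inr (Or.inr rfl)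
  refine ⟨x, y, ⟨y.1 ⋆ x.1, hconj _ _ x.2⟩, hne, ?_, ?_, ?_⟩
  · intro hh
    have h4 : x.1 = y.1 ⋆ x.1 := congrArg Subtype.val hh
    exact hxy (cj_eq_self_iff.1 h4.symm).symm
  · intro hh
    have h4 : y.1 = y.1 ⋆ x.1 := congrArg Subtype.val hh
    apply hne
    apply Subtype.ext
    have h5 : y.1 ⋆ y.1 = y.1 ⋆ x.1 := by rw [cj_self]; exact h4
    exact (cj_injective y.1 h5).symm
  · ext z
    simp only [Set.mem_ofPred_eq, Set.mem_insert_iff, Set.mem_singleton_iff, Subtype.ext_iff]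

/-- subspaces are closed under taking third points -/
theorem sub_closed (hconj : ∀ g : G, ∀ d ∈ D, g * d * g⁻¹ ∈ D) {T : Set D}
    (hTs : IsSubspace (Cfsg.threeTranspositionLines D) T) {x y : D} (hx : x ∈ T) (hy : y ∈ T)
    (hxy : ¬ Commute (x : G) (y : G)) : (⟨y.1 ⋆ x.1, hconj _ _ x.2⟩ : D) ∈ T :=
  hTs _ (ln_mem hxy) x hx y hy (ne_of_nc hxy) (left_mem x y) (right_mem x y) (Or.inr (Or.inr rfl))

/-! ### the dual affine plane -/

/-- the transposition attached to a two-element subset -/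
def tau (s : DualAffinePoint) : Equiv.Perm (Fin 4) :=
  Equiv.swap (s.1.min' (Finset.card_pos.1 (by rw [s.2]; decide)))
    (s.1.max' (Finset.card_pos.1 (by rw [s.2]; decide)))

theorem tau_inj : ∀ s₁ s₂ : DualAffinePoint, tau s₁ = tau s₂ → s₁ = s₂ := by decide +kernel

theorem tau_line : ∀ i : Fin 4, ∃ s₁ s₂ s₃ : DualAffinePoint,
    (∀ s : DualAffinePoint, i ∉ s.1 ↔ s = s₁ ∨ s = s₂ ∨ s = s₃) ∧
    tau s₁ * tau s₂ ≠ tau s₂ * tau s₁ ∧ tau s₃ = tau s₂ * tau s₁ * (tau s₂)⁻¹ := by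
  decide +kernel

theorem tau_nc : ∀ s₁ s₂ : DualAffinePoint, tau s₁ * tau s₂ ≠ tau s₂ * tau s₁ →
    ∃ i : Fin 4, i ∉ s₁.1 ∧ i ∉ s₂.1 := by
  decide +kernel

theorem tau_surj : ∀ j k : Fin 4, j ≠ k → ∃ s : DualAffinePoint, tau s = Equiv.swap j k := by
  decide +kernel

theorem tau_cases : ∀ s : DualAffinePoint, tau s = Equiv.swap 0 1 ∨ tau s = Equiv.swap 1 2 ∨
    tau s = Equiv.swap 0 2 ∨ tau s = Equiv.swap 2 3 ∨ tau s = Equiv.swap 1 3 ∨
    tau s = Equiv.swap 0 3 := by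
  decide +kernel

theorem tau_conj : ∀ s : DualAffinePoint, ∃ f : Equiv.Perm (Fin 4),
    f * Equiv.swap 0 1 * f⁻¹ = tau s := by
  decide +kernel

theorem caseA (hT : Cfsg.IsThreeTranspositionSet D) (hconj : ∀ g : G, ∀ d ∈ D, g * d * g⁻¹ ∈ D)
    {a b c : D} (hab : ¬ Commute (a : G) (b : G)) (hac : ¬ Commute (a : G) (c : G))
    (hbc : Commute (b : G) (c : G)) (hne : b ≠ c) :
    Isomorphic (restrict (Cfsg.threeTranspositionLines D)
      (span (Cfsg.threeTranspositionLines D) (ln a b ∪ ln a c))) dualAffinePlaneTwo := by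
  obtain ⟨φ, f1, f2, f3, finj⟩ : ∃ φ : Equiv.Perm (Fin 4) →* G, φ (Equiv.swap 0 1) = b ∧
      φ (Equiv.swap 1 2) = a ∧ φ (Equiv.swap 2 3) = c ∧ Function.Injective φ := by
    have h1 := tt_mul_self hT b.2
    have h2 := tt_mul_self hT a.2
    have h3 := tt_mul_self hT c.2
    have h4 : c.1 * b.1 = b.1 * c.1 := hbc.eq.symm
    have h5 : a.1 * b.1 * a.1 = b.1 * a.1 * b.1 := tt_braid hT a.2 b.2 hab
    have h6 : c.1 * a.1 * c.1 = a.1 * c.1 * a.1 := (tt_braid hT a.2 c.2 hac).symm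
    exact ⟨sym4Hom h1 h2 h3 h4 h5 h6, sym4Hom_swap01 .., sym4Hom_swap12 .., sym4Hom_swap23 ..,
      sym4Hom_injective _ _ _ _ _ _ (fun hh => hne (Subtype.ext hh))⟩
  have hτD : ∀ s, φ (tau s) ∈ D := by
    intro s
    obtain ⟨f, hf⟩ := tau_conj s
    rw [← hf, map_mul, map_mul, map_inv, f1]
    exact hconj _ _ b.2
  have hnc : ∀ σ ρ : Equiv.Perm (Fin 4), σ * ρ ≠ ρ * σ → ¬ Commute (φ σ) (φ ρ) := by
    intro σ ρ h hc
    apply h
    apply finj
    rw [map_mul, map_mul]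
    exact hc.eq
  have e02 : b.1 ⋆ a.1 = φ (Equiv.swap 0 2) := by
    rw [← f1, ← f2, ← map_mul, ← map_inv, ← map_mul]
    congr 1
    decide
  have e13 : c.1 ⋆ a.1 = φ (Equiv.swap 1 3) := by
    rw [← f3, ← f2, ← map_mul, ← map_inv, ← map_mul]
    congr 1
    decide
  apply iso_of_param (partialLinear hT hconj) _ (fun s => (⟨φ (tau s), hτD s⟩ : D))
  · intro s₁ s₂ h
    exact tau_inj _ _ (finj (congrArg Subtype.val h))
  · rintro _ ⟨i, rfl⟩
    obtain ⟨s₁, s₂, s₃, h1, h2, h3⟩ := tau_line i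
    have : (fun s => (⟨φ (tau s), hτD s⟩ : D)) '' {s : DualAffinePoint | i ∉ s.1} =
        ln ⟨φ (tau s₁), hτD s₁⟩ ⟨φ (tau s₂), hτD s₂⟩ := by
      ext z
      constructor
      · rintro ⟨s, hs, rfl⟩
        rcases (h1 s).1 hs with rfl | rfl | rfl
        · exact Or.inl rfl
        · exact Or.inr (Or.inl rfl)
        · refine Or.inr (Or.inr ?_)
          show φ (tau s) = _
          rw [h3, map_mul, map_mul, map_inv]
      · rintro (h | h | h)
        · exact ⟨s₁, (h1 s₁).2 (Or.inl rfl), Subtype.ext h.symm⟩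
        · exact ⟨s₂, (h1 s₂).2 (Or.inr (Or.inl rfl)), Subtype.ext h.symm⟩
        · refine ⟨s₃, (h1 s₃).2 (Or.inr (Or.inr rfl)), Subtype.ext ?_⟩
          show φ (tau s₃) = _
          rw [h, h3, map_mul, map_mul, map_inv]
    rw [this]
    exact ln_mem (hnc _ _ h2)
  · rintro y₁ y₂ hy ⟨_, ⟨x, y, hxy, rfl⟩, h1, h2⟩
    have h3 := (ln_eq hT hconj hxy h1 h2 (fun hh =>
      hy (tau_inj _ _ (finj (congrArg Subtype.val hh))))).1
    obtain ⟨i, hi1, hi2⟩ := tau_nc y₁ y₂ (by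
      intro hh
      apply h3
      show φ (tau y₁) * φ (tau y₂) = φ (tau y₂) * φ (tau y₁)
      rw [← map_mul, ← map_mul, hh])
    exact ⟨_, ⟨i, rfl⟩, hi1, hi2⟩
  · have hR : ∀ z : D, ∀ j k : Fin 4, j ≠ k → z.1 = φ (Equiv.swap j k) →
        z ∈ Set.range (fun s => (⟨φ (tau s), hτD s⟩ : D)) := by
      intro z j k hjk hz
      obtain ⟨s, hs⟩ := tau_surj j k hjk
      exact ⟨s, Subtype.ext (by show φ (tau s) = z.1; rw [hs, hz])⟩
    rintro z (h | h)
    · rcases h with h | h | h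
      · exact hR z 1 2 (by decide) (h.trans f2.symm)
      · exact hR z 0 1 (by decide) (h.trans f1.symm)
      · exact hR z 0 2 (by decide) (h.trans e02)
    · rcases h with h | h | h
      · exact hR z 1 2 (by decide) (h.trans f2.symm)
      · exact hR z 2 3 (by decide) (h.trans f3.symm)
      · exact hR z 1 3 (by decide) (h.trans e13)
  · intro T hTs hUT s
    have ha : a ∈ T := hUT (Or.inl (left_mem a b))
    have hb : b ∈ T := hUT (Or.inl (right_mem a b))
    have hc : c ∈ T := hUT (Or.inr (right_mem a c))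
    have h02 : (⟨b.1 ⋆ a.1, hconj _ _ a.2⟩ : D) ∈ T := hUT (Or.inl (Or.inr (Or.inr rfl)))
    have h13 : (⟨c.1 ⋆ a.1, hconj _ _ a.2⟩ : D) ∈ T := hUT (Or.inr (Or.inr (Or.inr rfl)))
    have h03 := sub_closed hconj hTs h13 hb (by
      show ¬ Commute (c.1 ⋆ a.1) b.1
      rw [e13, ← f1]
      exact hnc _ _ (by decide))
    rcases tau_cases s with h | h | h | h | h | h
    · convert hb using 1
      exact Subtype.ext (by show φ (tau s) = b.1; rw [h, f1])
    · convert ha using 1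
      exact Subtype.ext (by show φ (tau s) = a.1; rw [h, f2])
    · convert h02 using 1
      exact Subtype.ext (by show φ (tau s) = b.1 ⋆ a.1; rw [h, e02])
    · convert hc using 1
      exact Subtype.ext (by show φ (tau s) = c.1; rw [h, f3])
    · convert h13 using 1
      exact Subtype.ext (by show φ (tau s) = c.1 ⋆ a.1; rw [h, e13])
    · convert h03 using 1
      apply Subtype.ext
      show φ (tau s) = b.1 ⋆ (c.1 ⋆ a.1)
      rw [h, e13, ← f1, ← map_mul, ← map_inv, ← map_mul]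
      congr 1
      decide
  · rintro _ ⟨x, y, hxy, rfl⟩
    exact ⟨x, left_mem x y, y, right_mem x y, ne_of_nc hxy⟩

/-! ### the affine plane -/

/-- the nine points -/
def Q (a b c : G) (i j : Fin 3) : G :=
  match i, j with
  | 0, 0 => a
  | 0, 1 => c
  | 0, 2 => a ⋆ c
  | 1, 0 => b
  | 1, 1 => a ⋆ (b ⋆ c)
  | 1, 2 => c ⋆ (a ⋆ b)
  | 2, 0 => a ⋆ b
  | 2, 1 => b ⋆ (a ⋆ c)
  | 2, 2 => b ⋆ c

/-- the nine points, labelled by vectors -/
def Pt (a b c : G) (v : Fin 2 → ZMod 3) : G := Q a b c (v 0) (v 1)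

/-- `x` acts on the nine points as the reflection in the point `p` -/
def Refl (a b c : G) (x : G) (p : Fin 2 → ZMod 3) : Prop :=
  ∀ u : Fin 2 → ZMod 3, x ⋆ Pt a b c u = Pt a b c (-p - u)

theorem vec_id : ∀ p r u : Fin 2 → ZMod 3, -r - (-p - (-r - u)) = -(-r - p) - u := by
  decide +kernel

theorem vec_base : ∀ δ : Fin 2 → ZMod 3, δ ≠ 0 →
    (0 + δ = ![1, 0] ∨ 0 + δ + δ = ![1, 0]) ∨ (0 + δ = ![0, 1] ∨ 0 + δ + δ = ![0, 1]) ∨
    (![1, 0] + δ = ![0, 1] ∨ ![1, 0] + δ + δ = ![0, 1]) ∨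
    (![1, 0] + δ = ![0, 2] ∨ ![1, 0] + δ + δ = ![0, 2]) := by
  decide +kernel

theorem vec_fix : ∀ u v : Fin 2 → ZMod 3, -u - v = v → u = v := by decide +kernel

theorem vec_third : ∀ v w : Fin 2 → ZMod 3, -(v + w) - v = v + (2 : ZMod 3) • w := by
  decide +kernel

theorem vec_shift : ∀ u v x : Fin 2 → ZMod 3, -u - (-u - x) = x ∧ -v - (-u - x) = x + (u - v) := by
  decide +kernel

theorem Refl.conj {a b c g x : G} {r p q : Fin 2 → ZMod 3} (hg : g⁻¹ = g) (hgr : Refl a b c g r)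
    (hxp : Refl a b c x p) (hq : -r - p = q) : Refl a b c (g ⋆ x) q := by
  intro u
  have e1 : (g ⋆ x) ⋆ Pt a b c u = g ⋆ (x ⋆ (g⁻¹ ⋆ Pt a b c u)) := by group
  have e2 : g⁻¹ ⋆ Pt a b c u = g ⋆ Pt a b c u := congrArg (fun h => h * Pt a b c u * h⁻¹) hg
  rw [e1, e2, hgr u, hxp, hgr, vec_id, hq]

section planeB

set_option linter.unusedSectionVars false

variable (hT : Cfsg.IsThreeTranspositionSet D) (hconj : ∀ g : G, ∀ d ∈ D, g * d * g⁻¹ ∈ D)
  {a b c : G} (ha : a ∈ D) (hb : b ∈ D) (hc : c ∈ D) (nab : ¬ Commute a b) (nac : ¬ Commute a c)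
  (nbc : ¬ Commute b c) (nbac : ¬ Commute b (a ⋆ c))

include hT hconj ha hb hc nab nac nbc nbac

theorem reflA : Refl a b c a 0 := by
  have hacD := hconj a c hc
  have A12 : a ⋆ (c ⋆ (a ⋆ b)) = b ⋆ (a ⋆ c) := by
    rw [cj_dist a c, tt_star_star hT ha, tt_star_comm hT hacD hb (fun hh => nbac hh.symm)]
  have A21 : a ⋆ (b ⋆ (a ⋆ c)) = c ⋆ (a ⋆ b) := by rw [← A12, tt_star_star hT ha]
  intro u
  show a ⋆ Q a b c (u 0) (u 1) = Q a b c (-0 - u 0 : ZMod 3) (-0 - u 1 : ZMod 3)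
  generalize u 0 = i
  generalize u 1 = j
  fin_cases i <;> fin_cases j
  · exact cj_self a
  · exact rfl
  · exact tt_star_star hT ha c
  · exact rfl
  · exact tt_star_star hT ha _
  · exact A12
  · exact tt_star_star hT ha b
  · exact A21
  · exact rfl

theorem reflB : Refl a b c b ![1, 0] := by
  have habD := hconj a b hb
  have nabc : ¬ Commute (a ⋆ b) c := by
    have := nc_conj a nbac
    rwa [tt_star_star hT ha] at this
  have B00 : b ⋆ a = a ⋆ b := tt_star_comm hT hb ha (fun hh => nab hh.symm)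
  have B20 : b ⋆ (a ⋆ b) = a := by rw [← B00, tt_star_star hT hb]
  have B11 : b ⋆ (a ⋆ (b ⋆ c)) = c ⋆ (a ⋆ b) := by
    rw [cj_dist b a, tt_star_star hT hb, B00, tt_star_comm hT habD hc nabc]
  have B12 : b ⋆ (c ⋆ (a ⋆ b)) = a ⋆ (b ⋆ c) := by rw [← B11, tt_star_star hT hb]
  intro u
  show b ⋆ Q a b c (u 0) (u 1) = Q a b c (-1 - u 0 : ZMod 3) (-0 - u 1 : ZMod 3)
  generalize u 0 = i
  generalize u 1 = j
  fin_cases i <;> fin_cases j
  · exact B00
  · exact rfl
  · exact rfl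
  · exact cj_self b
  · exact B11
  · exact B12
  · exact B20
  · exact tt_star_star hT hb _
  · exact tt_star_star hT hb _

theorem reflC : Refl a b c c ![0, 1] := by
  have hacD := hconj a c hc
  have C00 : c ⋆ a = a ⋆ c := tt_star_comm hT hc ha (fun hh => nac hh.symm)
  have C02 : c ⋆ (a ⋆ c) = a := by rw [← C00, tt_star_star hT hc]
  have C10 : c ⋆ b = b ⋆ c := tt_star_comm hT hc hb (fun hh => nbc hh.symm)
  have C22 : c ⋆ (b ⋆ c) = b := by rw [← C10, tt_star_star hT hc]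
  have C11 : c ⋆ (a ⋆ (b ⋆ c)) = b ⋆ (a ⋆ c) := by
    rw [cj_dist c a, C22, C00, tt_star_comm hT hacD hb (fun hh => nbac hh.symm)]
  have C21 : c ⋆ (b ⋆ (a ⋆ c)) = a ⋆ (b ⋆ c) := by rw [← C11, tt_star_star hT hc]
  intro u
  show c ⋆ Q a b c (u 0) (u 1) = Q a b c (-0 - u 0 : ZMod 3) (-1 - u 1 : ZMod 3)
  generalize u 0 = i
  generalize u 1 = j
  fin_cases i <;> fin_cases j
  · exact C00
  · exact cj_self c
  · exact C02
  · exact C10
  · exact C11
  · exact tt_star_star hT hc _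
  · exact rfl
  · exact C21
  · exact C22

theorem reflAll (v : Fin 2 → ZMod 3) : Refl a b c (Pt a b c v) v := by
  have R00 := reflA hT hconj ha hb hc nab nac nbc nbac
  have R10 := reflB hT hconj ha hb hc nab nac nbc nbac
  have R01 := reflC hT hconj ha hb hc nab nac nbc nbac
  have ia := tt_inv hT ha
  have ib := tt_inv hT hb
  have ic := tt_inv hT hc
  have R20 : Refl a b c (a ⋆ b) ![2, 0] := R00.conj ia R10 (by decide +kernel)
  have R02 : Refl a b c (a ⋆ c) ![0, 2] := R00.conj ia R01 (by decide +kernel)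
  have R22 : Refl a b c (b ⋆ c) ![2, 2] := R10.conj ib R01 (by decide +kernel)
  have R11 : Refl a b c (a ⋆ (b ⋆ c)) ![1, 1] := R00.conj ia R22 (by decide +kernel)
  have R12 : Refl a b c (c ⋆ (a ⋆ b)) ![1, 2] := R01.conj ic R20 (by decide +kernel)
  have R21 : Refl a b c (b ⋆ (a ⋆ c)) ![2, 1] := R10.conj ib R02 (by decide +kernel)
  have key : ∀ i j : ZMod 3, Refl a b c (Q a b c i j) ![i, j] := by
    intro i j
    fin_cases i <;> fin_cases j
    · have : (0 : Fin 2 → ZMod 3) = ![0, 0] := by decide +kernel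
      rw [this] at R00
      exact R00
    · exact R01
    · exact R02
    · exact R10
    · exact R11
    · exact R12
    · exact R20
    · exact R21
    · exact R22
  have hv : ![v 0, v 1] = v := by
    funext k
    fin_cases k <;> rfl
  have := key (v 0) (v 1)
  rwa [hv] at this

theorem Pt_injective : Function.Injective (Pt a b c) := by
  intro u v huv
  by_contra hne
  have hR := reflAll hT hconj ha hb hc nab nac nbc nbac
  have hper : ∀ x, Pt a b c x = Pt a b c (x + (u - v)) := by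
    intro x
    have h1 := hR u (-u - x)
    have h2 := hR v (-u - x)
    rw [(vec_shift u v x).1] at h1
    rw [(vec_shift u v x).2] at h2
    rw [← h1, ← h2, huv]
  have h00 : Pt a b c 0 = a := rfl
  have h10 : Pt a b c ![1, 0] = b := rfl
  have h01 : Pt a b c ![0, 1] = c := rfl
  have h02 : Pt a b c ![0, 2] = a ⋆ c := rfl
  have hper2 : ∀ x, Pt a b c x = Pt a b c (x + (u - v) + (u - v)) := fun x =>
    (hper x).trans (hper _)
  rcases vec_base (u - v) (sub_ne_zero.2 hne) with (h | h) | (h | h) | (h | h) | (h | h)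
  · have := hper 0; rw [h, h00, h10] at this; exact nab (this ▸ Commute.refl a)
  · have := hper2 0; rw [h, h00, h10] at this; exact nab (this ▸ Commute.refl a)
  · have := hper 0; rw [h, h00, h01] at this; exact nac (this ▸ Commute.refl a)
  · have := hper2 0; rw [h, h00, h01] at this; exact nac (this ▸ Commute.refl a)
  · have := hper ![1, 0]; rw [h, h10, h01] at this; exact nbc (this ▸ Commute.refl b)
  · have := hper2 ![1, 0]; rw [h, h10, h01] at this; exact nbc (this ▸ Commute.refl b)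
  · have := hper ![1, 0]; rw [h, h10, h02] at this; exact nbac (this ▸ Commute.refl b)
  · have := hper2 ![1, 0]; rw [h, h10, h02] at this; exact nbac (this ▸ Commute.refl b)

theorem Pt_nc {u v : Fin 2 → ZMod 3} (huv : u ≠ v) : ¬ Commute (Pt a b c u) (Pt a b c v) := by
  intro hcm
  have h1 := reflAll hT hconj ha hb hc nab nac nbc nbac u v
  rw [cj_eq_self_iff.2 hcm] at h1
  exact huv (vec_fix u v (Pt_injective hT hconj ha hb hc nab nac nbc nbac h1).symm)

theorem Pt_mem (v : Fin 2 → ZMod 3) : Pt a b c v ∈ D := by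
  have key : ∀ i j : ZMod 3, Q a b c i j ∈ D := by
    intro i j
    fin_cases i <;> fin_cases j
    · exact ha
    · exact hc
    · exact hconj _ _ hc
    · exact hb
    · exact hconj _ _ (hconj _ _ hc)
    · exact hconj _ _ (hconj _ _ hb)
    · exact hconj _ _ hb
    · exact hconj _ _ (hconj _ _ hc)
    · exact hconj _ _ hc
  exact key _ _

end planeB

theorem caseB (hT : Cfsg.IsThreeTranspositionSet D) (hconj : ∀ g : G, ∀ d ∈ D, g * d * g⁻¹ ∈ D)
    {a b c : D} (nab : ¬ Commute (a : G) (b : G)) (nac : ¬ Commute (a : G) (c : G))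
    (nbc : ¬ Commute (b : G) (c : G)) (nbac : ¬ Commute (b : G) ((a : G) ⋆ (c : G))) :
    Isomorphic (restrict (Cfsg.threeTranspositionLines D)
      (span (Cfsg.threeTranspositionLines D) (ln a b ∪ ln a c))) affinePlaneThree := by
  have hR := reflAll hT hconj a.2 b.2 c.2 nab nac nbc nbac
  have hI := Pt_injective hT hconj a.2 b.2 c.2 nab nac nbc nbac
  have hN := fun (u v : Fin 2 → ZMod 3) (h : u ≠ v) => Pt_nc hT hconj a.2 b.2 c.2 nab nac nbc nbac h
  have hM := Pt_mem hT hconj a.2 b.2 c.2 nab nac nbc nbac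
  apply iso_of_param (partialLinear hT hconj) _ (fun v => (⟨Pt a.1 b.1 c.1 v, hM v⟩ : D))
  · intro u v h
    exact hI (congrArg Subtype.val h)
  · rintro _ ⟨v, w, hw, rfl⟩
    have hvw : v ≠ v + w := fun hh => hw (by simpa using hh.symm)
    have h3 : Pt a.1 b.1 c.1 (v + w) ⋆ Pt a.1 b.1 c.1 v = Pt a.1 b.1 c.1 (v + (2 : ZMod 3) • w) := by
      rw [hR (v + w) v, vec_third]
    have : (fun v => (⟨Pt a.1 b.1 c.1 v, hM v⟩ : D)) '' {x | ∃ k : ZMod 3, x = v + k • w} =
        ln ⟨Pt a.1 b.1 c.1 v, hM v⟩ ⟨Pt a.1 b.1 c.1 (v + w), hM (v + w)⟩ := by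
      ext z
      constructor
      · rintro ⟨x, ⟨k, rfl⟩, rfl⟩
        fin_cases k
        · left
          show Pt a.1 b.1 c.1 (v + (0 : ZMod 3) • w) = Pt a.1 b.1 c.1 v
          simp
        · right; left
          show Pt a.1 b.1 c.1 (v + (1 : ZMod 3) • w) = Pt a.1 b.1 c.1 (v + w)
          simp
        · right; right
          exact h3.symm
      · rintro (h | h | h)
        · exact ⟨v, ⟨0, by simp⟩, Subtype.ext h.symm⟩
        · exact ⟨v + w, ⟨1, by simp⟩, Subtype.ext h.symm⟩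
        · exact ⟨v + (2 : ZMod 3) • w, ⟨2, rfl⟩, Subtype.ext (h.trans h3).symm⟩
    rw [this]
    exact ln_mem (hN _ _ hvw)
  · intro y₁ y₂ hne _
    exact ⟨_, ⟨y₁, y₂ - y₁, sub_ne_zero.2 hne.symm, rfl⟩, ⟨0, by simp⟩, ⟨1, by simp⟩⟩
  · rintro z (h | h)
    · rcases h with h | h | h
      · exact ⟨0, Subtype.ext h.symm⟩
      · exact ⟨![1, 0], Subtype.ext h.symm⟩
      · refine ⟨![2, 0], Subtype.ext ?_⟩
        show a.1 ⋆ b.1 = z.1
        rw [h]
        exact tt_star_comm hT a.2 b.2 nab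
    · rcases h with h | h | h
      · exact ⟨0, Subtype.ext h.symm⟩
      · exact ⟨![0, 1], Subtype.ext h.symm⟩
      · refine ⟨![0, 2], Subtype.ext ?_⟩
        show a.1 ⋆ c.1 = z.1
        rw [h]
        exact tt_star_comm hT a.2 c.2 nac
  · intro T hTs hUT v
    have t00 : a ∈ T := hUT (Or.inl (left_mem a b))
    have t10 : b ∈ T := hUT (Or.inl (right_mem a b))
    have t01 : c ∈ T := hUT (Or.inr (right_mem a c))
    have t20 := sub_closed hconj hTs t10 t00 (fun hh => nab hh.symm)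
    have t02 := sub_closed hconj hTs t01 t00 (fun hh => nac hh.symm)
    have t22 := sub_closed hconj hTs t01 t10 (fun hh => nbc hh.symm)
    have t11 := sub_closed hconj hTs t22 t00 (hN ![2, 2] 0 (by decide +kernel))
    have t12 := sub_closed hconj hTs t20 t01 (hN ![2, 0] ![0, 1] (by decide +kernel))
    have t21 := sub_closed hconj hTs t02 t10 (hN ![0, 2] ![1, 0] (by decide +kernel))
    have key : ∀ (i j : ZMod 3) (h : Q a.1 b.1 c.1 i j ∈ D), (⟨Q a.1 b.1 c.1 i j, h⟩ : D) ∈ T := by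
      intro i j h
      fin_cases i <;> fin_cases j
      · exact t00
      · exact t01
      · exact t02
      · exact t10
      · exact t11
      · exact t12
      · exact t20
      · exact t21
      · exact t22
    exact key _ _ _
  · rintro _ ⟨x, y, hxy, rfl⟩
    exact ⟨x, left_mem x y, y, right_mem x y, ne_of_nc hxy⟩

/-- Let D be a conjugation-invariant generating set of 3-transpositions of a finite group G. Then the line system on D whose lines are the triples {x, y, y x y⁻¹} for non-commuting members x, y of D is a Fischer space: two points lie on at most one line, lines have three points, and two different meeting lines generate a subspace isomorphic to the dual affine plane of order two or to the affine plane of order three. -/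
theorem result {G : Type*} [Group G] [Finite G] {D : Set G} (hD : Cfsg.IsThreeTranspositionGroup D) : Cfsg.IsFischerSpace (Cfsg.threeTranspositionLines D) := by
  obtain ⟨hT, hconj, -⟩ := hD
  refine ⟨partialLinear hT hconj, ncard_three hconj, ?_⟩
  rintro _ ⟨x, y, hxy, rfl⟩ _ ⟨x', y', hxy', rfl⟩ hlm ⟨a, ha1, ha2⟩
  -- rewrite both lines as lines through `a`
  obtain ⟨b, hb, hab⟩ : ∃ b ∈ ln x y, a ≠ b := by
    by_cases h : a = x
    · exact ⟨y, right_mem x y, fun hh => ne_of_nc hxy (h.symm.trans hh)⟩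
    · exact ⟨x, left_mem x y, h⟩
  obtain ⟨c, hc, hac⟩ : ∃ c ∈ ln x' y', a ≠ c := by
    by_cases h : a = x'
    · exact ⟨y', right_mem x' y', fun hh => ne_of_nc hxy' (h.symm.trans hh)⟩
    · exact ⟨x', left_mem x' y', h⟩
  obtain ⟨nab, e1⟩ := ln_eq hT hconj hxy ha1 hb hab
  obtain ⟨nac, e2⟩ := ln_eq hT hconj hxy' ha2 hc hac
  change ln x y ≠ ln x' y' at hlm
  change Isomorphic (restrict _ (span _ (ln x y ∪ ln x' y'))) _ ∨
    Isomorphic (restrict _ (span _ (ln x y ∪ ln x' y'))) _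
  rw [e1, e2] at hlm ⊢
  have hbc : b ≠ c := fun hh => hlm (by rw [hh])
  by_cases h1 : Commute (b : G) (c : G)
  · left
    exact caseA hT hconj nab nac h1 hbc
  · by_cases h2 : Commute (b : G) ((a : G) ⋆ (c : G))
    · left
      -- replace `c` by the third point of the line
      have hc' : (⟨a.1 ⋆ c.1, hconj _ _ c.2⟩ : D) ∈ ln a c := by
        refine Or.inr (Or.inr ?_)
        exact tt_star_comm hT a.2 c.2 nac
      have hac' : a ≠ ⟨a.1 ⋆ c.1, hconj _ _ c.2⟩ := by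
        intro hh
        have h3 : a.1 = a.1 ⋆ c.1 := congrArg Subtype.val hh
        have h4 : a.1 ⋆ a.1 = a.1 ⋆ c.1 := by rw [cj_self]; exact h3
        exact hac (Subtype.ext (cj_injective a.1 h4))
      obtain ⟨nac', e3⟩ := ln_eq hT hconj nac (left_mem a c) hc' hac'
      rw [e3] at hlm ⊢
      exact caseA hT hconj nab nac' h2 (fun hh => hlm (by rw [hh]))
    · right
      exact caseB hT hconj nab nac h1 h2

end Cfsg.Agent.S5367
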