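import Cfsg.Statements.S5394
import Cfsg.Agent.Lib.Helper92.M24Invol

set_option autoImplicit false
open Cfsg

namespace Cfsg.Agent.S5394

open Cfsg.Agent.Lib.Helper27 Cfsg.Agent.Lib.Helper92
open scoped Pointwise

theorem fix_of_conj_z0 {g k : Equiv.Perm GolayPt} (hk : k ∈ M24) (h : k * g * k⁻¹ = permOf z0c) :
    (Finset.univ.filter fun p => g p = p) ∈ octads := by
  have h1 := fix_conj k g
  rw [h] at h1
  have h2 : (Finset.univ.filter fun p => g p = p) =
      k⁻¹ • Finset.univ.filter (fun p => permOf z0c p = p) := by rw [h1, inv_smul_smul]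
  rw [h2]
  exact smul_mem_octads (M24.inv_mem hk) fix_z0_mem

theorem fpf_of_conj_t0 {g k : Equiv.Perm GolayPt} (h : k * g * k⁻¹ = permOf t0c) :
    ∀ p, g p ≠ p := by
  intro p hp
  apply fix_t0 (k p)
  rw [← h]
  simp [hp]

theorem not_fpf_of_octad {g : Equiv.Perm GolayPt}
    (h : (Finset.univ.filter fun p => g p = p) ∈ octads) : ¬ ∀ p, g p ≠ p := by
  intro hf
  have h8 := h.2
  have : (Finset.univ.filter fun p => g p = p) = ∅ := by
    ext p; simp [hf p]
  rw [this] at h8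
  simp at h8

/-- The automorphism group of the length-24 code built from the squares modulo 23 has exactly two conjugacy classes of involutions: an involution either fixes exactly the eight points of an octad or has no fixed points, both kinds occur, and any two involutions of the same kind are conjugate in the group. -/
theorem result : (∀ g ∈ Cfsg.M24, orderOf g = 2 → (Finset.univ.filter fun p => g p = p) ∈ Cfsg.octads ∨ ∀ p, g p ≠ p) ∧ (∃ g ∈ Cfsg.M24, orderOf g = 2 ∧ (Finset.univ.filter fun p => g p = p) ∈ Cfsg.octads) ∧ (∃ g ∈ Cfsg.M24, orderOf g = 2 ∧ ∀ p, g p ≠ p) ∧ ∀ g ∈ Cfsg.M24, ∀ h ∈ Cfsg.M24, orderOf g = 2 → orderOf h = 2 → ((∀ p, g p ≠ p) ↔ (∀ p, h p ≠ p)) → ∃ k ∈ Cfsg.M24, k * g * k⁻¹ = h := by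
  refine ⟨?_, ⟨permOf z0c, permOf_mem_M24 z0c_check, orderOf_z0, fix_z0_mem⟩,
    ⟨permOf t0c, permOf_mem_M24 t0c_check, orderOf_t0, fix_t0⟩, ?_⟩
  · intro g hg h2
    rcases invol_class hg h2 with ⟨k, hk, he⟩ | ⟨k, _, he⟩
    · exact Or.inl (fix_of_conj_z0 hk he)
    · exact Or.inr (fpf_of_conj_t0 he)
  · intro g hg h hh hg2 hh2 hiff
    have key : ∀ {a b k m z : Equiv.Perm GolayPt}, k ∈ M24 → m ∈ M24 → k * a * k⁻¹ = z →
        m * b * m⁻¹ = z → ∃ n ∈ M24, n * a * n⁻¹ = b := by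
      intro a b k m z hk hm h1 h2
      refine ⟨m⁻¹ * k, M24.mul_mem (M24.inv_mem hm) hk, ?_⟩
      have : b = m⁻¹ * z * m := by rw [← h2]; group
      rw [this, ← h1]; group
    rcases invol_class hg hg2 with ⟨k, hk, he⟩ | ⟨k, hk, he⟩ <;>
      rcases invol_class hh hh2 with ⟨m, hm, he'⟩ | ⟨m, hm, he'⟩
    · exact key hk hm he he'
    · exact absurd (hiff.2 (fpf_of_conj_t0 he')) (not_fpf_of_octad (fix_of_conj_z0 hk he))
    · exact absurd (hiff.1 (fpf_of_conj_t0 he)) (not_fpf_of_octad (fix_of_conj_z0 hm he'))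
    · exact key hk hm he he'

end Cfsg.Agent.S5394
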