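import Cfsg.Statements.S5395
import Cfsg.Agent.Lib.Helper29.Extraspecial

set_option autoImplicit false
open Cfsg

namespace Cfsg.Agent.S5395

open Cfsg.Agent.Lib.Helper29

/-- For a finite extraspecial 2-group E, an automorphism of E that induces the identity on E modulo its centre is inner (so these automorphisms form exactly the inner automorphism group, an elementary abelian 2-group of order |E|/2). -/
theorem result {E : Type*} [Group E] [Finite E] (hE : Cfsg.IsExtraspecial 2 E) (φ : E ≃* E) (hφ : ∀ x : E, φ x * x⁻¹ ∈ Subgroup.center E) : ∃ g : E, ∀ x : E, φ x = g * x * g⁻¹ := by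
  apply IsExtraspecial.inner_of_central hE φ.toMonoidHom
  · intro y
    have h := hφ y
    have h2 := (Subgroup.mem_center_iff.mp h) y⁻¹
    show y⁻¹ * φ y ∈ _
    have : y⁻¹ * φ y = φ y * y⁻¹ := by
      calc y⁻¹ * φ y = y⁻¹ * (φ y * y⁻¹) * y := by group
        _ = (φ y * y⁻¹) * y⁻¹ * y := by rw [h2]
        _ = φ y * y⁻¹ := by group
    rw [this]; exact h
  · intro y hy
    show φ y = y
    by_cases h1 : y = 1
    · rw [h1, map_one]
    · have hc : φ y ∈ Subgroup.center E := by
        have := (Subgroup.center E).mul_mem (hφ y) hy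
        simpa using this
      exact center_eq_of_ne_one hE.2 hc hy (by simpa using h1) h1

end Cfsg.Agent.S5395
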