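import Cfsg.Statements.S5420
import Cfsg.Agent.Lib.Helper90.Basic

set_option autoImplicit false
open Cfsg
open Cfsg.Agent.Lib.Helper90

namespace Cfsg.Agent.S5420

theorem result {G : Type*} [Group G] [Finite G] (Q : Subgroup G) (hL1 : Cfsg.IsExtraspecial 2 ↥Q) (hL2 : Subgroup.centralizer (Q : Set G) = ((Subgroup.center ↥Q).map Q.subtype)) (hL3 : Subgroup.centralizer (((Subgroup.center ↥Q).map Q.subtype) : Set G) ≤ Subgroup.normalizer (Q : Set G)) (hZ : ((Subgroup.center ↥Q).map Q.subtype) ≤ Cfsg.pCore 2 G) : Cfsg.IsLargeExtraspecial Q := by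
  have : Fact (Nat.Prime 2) := ⟨Nat.prime_two⟩
  refine ⟨hL1, hL2, hL3, ?_⟩
  intro K hK hQK
  apply eq_bot_of_centralizes Q hL1.1.1 hL2 hL3 K hK hQK
  intro k hk
  rw [Subgroup.mem_centralizer_iff]
  intro y hy
  have hy' : y ∈ (Subgroup.center ↥Q).map Q.subtype := hy
  have hyQ : y ∈ Q := ((mem_center_map_iff Q y).mp hy').1
  have h1 : y * k * y⁻¹ ∈ K := (Subgroup.mem_normalizer_iff.mp (hQK hyQ) k).mp hk
  have h2 : k * y⁻¹ * k⁻¹ ∈ Cfsg.pCore 2 G :=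
    Subgroup.Normal.conj_mem inferInstance _ ((Cfsg.pCore 2 G).inv_mem (hZ hy')) k
  have h3 : y * k * y⁻¹ * k⁻¹ ∈ K := K.mul_mem h1 (K.inv_mem hk)
  have h4 : y * k * y⁻¹ * k⁻¹ ∈ Cfsg.pCore 2 G := by
    have := (Cfsg.pCore 2 G).mul_mem (hZ hy') h2
    have e : y * (k * y⁻¹ * k⁻¹) = y * k * y⁻¹ * k⁻¹ := by group
    rwa [e] at this
  have h5 := eq_one_of_mem_odd_of_mem_two hK (pCore_isPGroup 2) h3 h4
  have := congrArg (· * (k * y)) h5
  simpa [mul_assoc] using this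

end Cfsg.Agent.S5420
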