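import Cfsg.Statements.S5421
import Cfsg.Agent.Lib.Helper90.Large

set_option autoImplicit false
open Cfsg
open Cfsg.Agent.Lib.Helper90

namespace Cfsg.Agent.S5421

theorem result {G : Type*} [Group G] [Finite G] (Q : Subgroup G) (hL1 : Cfsg.IsExtraspecial 2 ↥Q) (hL2 : Subgroup.centralizer (Q : Set G) = ((Subgroup.center ↥Q).map Q.subtype)) (hL3 : Subgroup.centralizer (((Subgroup.center ↥Q).map Q.subtype) : Set G) ≤ Subgroup.normalizer (Q : Set G)) (b : G) (hbQ : b ∈ Q) (hbZ : b ∉ ((Subgroup.center ↥Q).map Q.subtype)) (hb : orderOf b = 2) (hZ : ((Subgroup.center ↥Q).map Q.subtype) ≤ (Cfsg.pCore 2 ↥(Subgroup.centralizer ({b} : Set G))).map (Subgroup.centralizer ({b} : Set G)).subtype) : Cfsg.IsLargeExtraspecial Q := by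
  have : Fact (Nat.Prime 2) := ⟨Nat.prime_two⟩
  refine ⟨hL1, hL2, hL3, ?_⟩
  obtain ⟨z, hES, hZmem⟩ := ES.of_isExtraspecial hL1
  have hb1 : b ≠ 1 := fun h => hbZ ((hZmem b).mpr (Or.inl h))
  have hbz : b ≠ z := fun h => hbZ ((hZmem b).mpr (Or.inr h))
  have hbb : b * b = 1 := by
    have := pow_orderOf_eq_one b
    rwa [hb, pow_two] at this
  intro K hK hQK
  refine large_of_involution Q z hES hL2 hL3 b hbQ hb1 hbz hbb
    ((Cfsg.pCore 2 ↥(Subgroup.centralizer ({b} : Set G))).map (Subgroup.centralizer ({b} : Set G)).subtype)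
    ((pCore_isPGroup 2).map _) (hZ ((hZmem z).mpr (Or.inr rfl))) ?_ K hK hQK
  rintro c hc _ ⟨r, hr, rfl⟩
  have hcC : c ∈ Subgroup.centralizer ({b} : Set G) := Subgroup.mem_centralizer_singleton_iff.mpr hc
  refine ⟨⟨c, hcC⟩ * r * ⟨c, hcC⟩⁻¹, ?_, by simp⟩
  exact Subgroup.Normal.conj_mem inferInstance r hr _

end Cfsg.Agent.S5421
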