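import Cfsg.Statements.S5422
import Cfsg.Agent.Lib.Helper90.Swap
import Cfsg.Agent.Lib.Helper90.FourGroup

set_option autoImplicit false
open Cfsg
open Cfsg.Agent.Lib.Helper90

namespace Cfsg.Agent.S5422

theorem result {G : Type*} [Group G] [Finite G] (Q : Subgroup G) (hL1 : Cfsg.IsExtraspecial 2 ↥Q) (hL2 : Subgroup.centralizer (Q : Set G) = ((Subgroup.center ↥Q).map Q.subtype)) (hL3 : Subgroup.centralizer (((Subgroup.center ↥Q).map Q.subtype) : Set G) ≤ Subgroup.normalizer (Q : Set G)) (w : ℕ) (hw : 2 ≤ w) (hcard : Nat.card ↥Q = 2 ^ (2 * w + 1)) (g : G) (hg : g ∉ Subgroup.normalizer (((Subgroup.center ↥Q).map Q.subtype) : Set G)) (hZg : (((Subgroup.center ↥Q).map Q.subtype)).map (MulAut.conj g).toMonoidHom ≤ Q) : ((Subgroup.center ↥Q).map Q.subtype) ≤ (Q).map (MulAut.conj g).toMonoidHom ∧ (Subgroup.centralizer ((((Subgroup.center ↥Q).map Q.subtype) ⊔ (((Subgroup.center ↥Q).map Q.subtype)).map (MulAut.conj g).toMonoidHom : Subgroup G) :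 Set G)).relIndex (Subgroup.normalizer ((((Subgroup.center ↥Q).map Q.subtype) ⊔ (((Subgroup.center ↥Q).map Q.subtype)).map (MulAut.conj g).toMonoidHom : Subgroup G) : Set G)) = 6 ∧ Cfsg.IsLargeExtraspecial Q := by
  obtain ⟨z, hES, hZmem⟩ := ES.of_isExtraspecial hL1
  obtain ⟨s, hs_def⟩ : ∃ s, s = g * z * g⁻¹ := ⟨_, rfl⟩
  have hzZ : z ∈ (Subgroup.center ↥Q).map Q.subtype := (hZmem z).mpr (Or.inr rfl)
  have hsZg : s ∈ ((Subgroup.center ↥Q).map Q.subtype).map (MulAut.conj g).toMonoidHom :=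
    ⟨z, hzZ, by simp [hs_def]⟩
  have hsQ : s ∈ Q := hZg hsZg
  have hsz : s ≠ z := by
    intro h
    apply hg
    rw [Subgroup.mem_normalizer_iff]
    intro y
    rw [hZmem, hZmem]
    constructor
    · rintro (rfl | rfl)
      · left; simp
      · right; rw [← hs_def, h]
    · rintro (h1 | h1)
      · left
        have := congrArg (fun w => g⁻¹ * w * g) h1
        simpa [mul_assoc] using this
      · right
        rw [← h, hs_def] at h1
        have := congrArg (fun w => g⁻¹ * w * g) h1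
        simpa [mul_assoc] using this
  have hs1 : s ≠ 1 := by
    intro h1
    apply hES.z_ne
    rw [hs_def] at h1
    have := congrArg (fun w => g⁻¹ * w * g) h1
    simpa [mul_assoc] using this
  have hss : s * s = 1 := by
    rw [hs_def]
    calc g * z * g⁻¹ * (g * z * g⁻¹) = g * (z * z) * g⁻¹ := by group
      _ = 1 := by rw [hES.z_sq]; group
  have hzs : z * s = s * z := (hES.z_comm s hsQ).symm
  obtain ⟨q0, hq0, hq0s⟩ := hES.exists_conj hsQ hs1 hsz
  have hq0z : q0 * z * q0⁻¹ = z := by rw [hES.z_comm q0 hq0]; group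
  obtain ⟨x, hxs, hxz⟩ := hES.exists_transvection hL2 hL3 hs_def hsQ hsz
  -- the four group
  have hFour : Four (((Subgroup.center ↥Q).map Q.subtype) ⊔ (((Subgroup.center ↥Q).map Q.subtype)).map (MulAut.conj g).toMonoidHom) z s := by
    apply Four.of_le _ z s hES.z_ne hs1 hsz.symm hES.z_sq hss hzs
      (le_sup_left (a := (Subgroup.center ↥Q).map Q.subtype) hzZ)
      (le_sup_right (a := (Subgroup.center ↥Q).map Q.subtype) hsZg)
    apply sup_le
    · intro y hy
      rw [mem_fourSubgroup]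
      rcases (hZmem y).mp hy with h1 | h1
      · exact Or.inl h1
      · exact Or.inr (Or.inl h1)
    · rintro _ ⟨y, hy, rfl⟩
      rw [mem_fourSubgroup]
      rcases (hZmem y).mp hy with rfl | rfl
      · left; simp
      · right; right; left; simp [hs_def]
  -- the swap
  have hxinv_z : x⁻¹ * z * x = z * s := by
    have h1 : x * (z * s) * x⁻¹ = z := by
      calc x * (z * s) * x⁻¹ = (x * z * x⁻¹) * (x * s * x⁻¹) := by group
        _ = z * (s * s) := by rw [hxz, hxs]; group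
        _ = z := by rw [hss, mul_one]
    calc x⁻¹ * z * x = x⁻¹ * (x * (z * s) * x⁻¹) * x := by rw [h1]
      _ = z * s := by group
  have hxinv_s : x⁻¹ * s * x = s := by
    calc x⁻¹ * s * x = x⁻¹ * (x * s * x⁻¹) * x := by rw [hxs]
      _ = s := by group
  obtain ⟨n, hn_def⟩ : ∃ n, n = x * q0 * x⁻¹ := ⟨_, rfl⟩
  have hnz : n * z * n⁻¹ = s := by
    rw [hn_def]
    calc x * q0 * x⁻¹ * z * (x * q0 * x⁻¹)⁻¹ = x * (q0 * (x⁻¹ * z * x) * q0⁻¹) * x⁻¹ := by group
      _ = x * ((q0 * z * q0⁻¹) * (q0 * s * q0⁻¹)) * x⁻¹ := by rw [hxinv_z]; group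
      _ = x * ((z * z) * s) * x⁻¹ := by rw [hq0z, hq0s]; group
      _ = s := by rw [hES.z_sq, one_mul, hxs]
  have hns : n * s * n⁻¹ = z := by
    rw [hn_def]
    calc x * q0 * x⁻¹ * s * (x * q0 * x⁻¹)⁻¹ = x * (q0 * (x⁻¹ * s * x) * q0⁻¹) * x⁻¹ := by group
      _ = (x * z * x⁻¹) * (x * s * x⁻¹) := by rw [hxinv_s, hq0s]; group
      _ = z * (s * s) := by rw [hxz, hxs]; group
      _ = z := by rw [hss, mul_one]
  have hzQg : z ∈ Q.map (MulAut.conj g).toMonoidHom := by
    rw [mem_map_conj_iff]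
    have h1 : (g⁻¹ * n) * z = z * (g⁻¹ * n) := by
      calc g⁻¹ * n * z = g⁻¹ * (n * z * n⁻¹) * n := by group
        _ = g⁻¹ * (g * z * g⁻¹) * n := by rw [hnz, hs_def]
        _ = z * (g⁻¹ * n) := by group
    have h2 : g⁻¹ * n ∈ Subgroup.normalizer (Q : Set G) :=
      hL3 ((hES.mem_centralizer_center_iff _).mpr h1)
    have h3 := (Subgroup.mem_normalizer_iff.mp h2 s).mp hsQ
    have e : g⁻¹ * n * s * (g⁻¹ * n)⁻¹ = g⁻¹ * (n * s * n⁻¹) * g := by group
    rw [e, hns] at h3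
    exact h3
  refine ⟨?_, hFour.relIndex_eq_six q0 x hq0z hq0s hxs hxz, hL1, hL2, hL3, ?_⟩
  · intro y hy
    rcases (hZmem y).mp hy with rfl | rfl
    · exact Subgroup.one_mem _
    · exact hzQg
  · intro K hK hQK
    refine large_of_involution Q z hES hL2 hL3 s hsQ hs1 hsz hss
      (Q.map (MulAut.conj g).toMonoidHom) (hES.two.map _) hzQg ?_ K hK hQK
    intro c hc r hr
    rw [mem_map_conj_iff] at hr ⊢
    have h1 : (g⁻¹ * c * g) * z = z * (g⁻¹ * c * g) := by
      rw [hs_def] at hc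
      calc g⁻¹ * c * g * z = g⁻¹ * (c * (g * z * g⁻¹)) * g := by group
        _ = g⁻¹ * ((g * z * g⁻¹) * c) * g := by rw [hc]
        _ = z * (g⁻¹ * c * g) := by group
    have h2 : g⁻¹ * c * g ∈ Subgroup.normalizer (Q : Set G) :=
      hL3 ((hES.mem_centralizer_center_iff _).mpr h1)
    have h3 := (Subgroup.mem_normalizer_iff.mp h2 _).mp hr
    have e : g⁻¹ * c * g * (g⁻¹ * r * g) * (g⁻¹ * c * g)⁻¹ = g⁻¹ * (c * r * c⁻¹) * g := by group
    rw [e] at h3
    exact h3

end Cfsg.Agent.S5422
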