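import Cfsg.Statements.S5423
import Cfsg.Agent.Lib.Helper90.Holo4

set_option autoImplicit false
open Cfsg

namespace Cfsg.Agent.S5423

open Cfsg.Agent.Lib.Helper90

/-- Let G be a finite group that is the split extension of an elementary abelian normal subgroup U of order 2^(n+1), n ≥ 1, by its full automorphism group: U has a complement M in G whose conjugation action on U is faithful and realizes every automorphism of U. Let Z be a subgroup of U of order 2 and Q the largest normal 2-subgroup of the centralizer C of Z. Then Q is extraspecial of order 2^(2n+1) with an elementary abelian subgroup of order 2^(n+1) (plus type), Q is a large extraspecial 2-subgroup of G, and C is the split extension of Q by the general linear group of degree n over the field with two elements. -/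
theorem result {G : Type*} [Group G] [Finite G] (n : ℕ) (hn : 1 ≤ n) (U M : Subgroup G) [U.Normal] (hU : Cfsg.IsElementaryAbelian 2 U) (hUcard : Nat.card ↥U = 2 ^ (n + 1)) (hUM : U ⊓ M = ⊥) (hUM' : U ⊔ M = ⊤) (hfaith : ∀ m ∈ M, (∀ u ∈ U, m * u * m⁻¹ = u) → m = 1) (hfull : ∀ φ : ↥U ≃* ↥U, ∃ m ∈ M, ∀ u : ↥U, ((φ u : ↥U) : G) = m * u * m⁻¹) (Z : Subgroup G) (hZU : Z ≤ U) (hZ : Nat.card ↥Z = 2) (Q : Subgroup G) (hQ : Q = (Cfsg.pCore 2 ↥(Subgroup.centralizer (Z : Set G))).map (Subgroup.centralizer (Z : Set G)).subtype) : Cfsg.IsExtraspecial 2 ↥Q ∧ Nat.card ↥Q = 2 ^ (2 * n + 1) ∧ (∃ E : Subgroup G, E ≤ Q ∧ Cfsg.IsElementaryAbelian 2 E ∧ Nat.card ↥E = 2 ^ (n + 1)) ∧ Cfsg.IsLargeExtraspecial Q ∧ ∃ K : Subgroup G, K ≤ Subgroup.centralizer (Z : Set G) ∧ Q ⊓ K = ⊥ ∧ Q ⊔ K = Subgroup.centralizer (Z : Set G) ∧ Nonempty (↥K ≃* Matrix.GeneralLinearGroup (Fin n) (ZMod 2)) := by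
  -- the generator of `Z`
  obtain ⟨z, hzZ, hz1, hZz⟩ : ∃ z ∈ Z, z ≠ 1 ∧ ∀ x ∈ Z, x = 1 ∨ x = z := by
    obtain ⟨a, b, hab, hall⟩ := Nat.card_eq_two_iff.mp hZ
    have hmem : ∀ x : ↥Z, x = a ∨ x = b := by
      intro x
      have : x ∈ ({a, b} : Set ↥Z) := by rw [hall]; trivial
      simpa using this
    rcases hmem 1 with h1 | h1
    · refine ⟨b, b.2, ?_, ?_⟩
      · intro h
        apply hab
        rw [← h1]
        exact (Subtype.ext h).symm
      · intro x hx
        rcases hmem ⟨x, hx⟩ with h | h
        · left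
          rw [← h1] at h
          exact congrArg Subtype.val h
        · right
          exact congrArg Subtype.val h
    · refine ⟨a, a.2, ?_, ?_⟩
      · intro h
        apply hab
        rw [← h1]
        exact Subtype.ext h
      · intro x hx
        rcases hmem ⟨x, hx⟩ with h | h
        · right
          exact congrArg Subtype.val h
        · left
          rw [← h1] at h
          exact congrArg Subtype.val h
  have hcentZ : Subgroup.centralizer (Z : Set G) = Subgroup.centralizer ({z} : Set G) := by
    apply le_antisymm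
    · apply Subgroup.centralizer_le
      intro x hx
      rw [Set.mem_singleton_iff] at hx
      rw [hx]; exact hzZ
    · intro x hx
      rw [Subgroup.mem_centralizer_singleton_iff] at hx
      rw [Subgroup.mem_centralizer_iff]
      intro y hy
      rcases hZz y hy with rfl | rfl
      · simp
      · exact hx.symm
  obtain ⟨D, hD⟩ := exists_affData n U M
    (fun a ha b hb => by
      have := hU.1.is_comm.comm ⟨a, ha⟩ ⟨b, hb⟩
      exact congrArg Subtype.val this)
    (fun a ha => by rw [← pow_two]; exact hU.2 a ha) hUcard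
    (fun m _ u hu => (inferInstance : U.Normal).conj_mem u hu m) hUM hfaith hfull z (hZU hzZ) hz1
    (fun x _ => by
      have hx : x ∈ U ⊔ M := by rw [hUM']; trivial
      rw [← SetLike.mem_coe, Subgroup.normal_mul] at hx
      obtain ⟨u, hu, m, hm, rfl⟩ := Set.mem_mul.mp hx
      exact ⟨u, hu, m, hm, rfl⟩)
  rw [hcentZ] at hQ ⊢
  rw [← hD] at hQ ⊢
  exact D.main hn Q hQ

end Cfsg.Agent.S5423
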