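import Cfsg.Statements.S5426
import Cfsg.Agent.Lib.Helper90.Setting
import Cfsg.Agent.Lib.Helper90.CompData2
import Cfsg.Agent.Lib.Helper90.Section
import Cfsg.Agent.Lib.Helper21.Layer
import Cfsg.Agent.Lib.Helper23.LBal1
import Cfsg.Agent.Lib.Helper91.Subnormal
import Cfsg.Agent.S0013
import Cfsg.Agent.S1265

set_option autoImplicit false
open Cfsg
open Cfsg.Agent.Lib.Helper90
open scoped commutatorElement

namespace Cfsg.Agent.S5426

variable {G : Type*} [Group G]

/-- no component of `G` centralises `z`. -/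
theorem no_component [Finite G] {Q : Subgroup G} {z : G} (hES : ES Q z)
    (hL2 : Subgroup.centralizer (Q : Set G) = ((Subgroup.center ↥Q).map Q.subtype))
    (hL3 : Subgroup.centralizer (((Subgroup.center ↥Q).map Q.subtype) : Set G) ≤
      Subgroup.normalizer (Q : Set G))
    (L : Subgroup G) (hL : Cfsg.IsComponent L) :
    ¬ L ≤ Subgroup.centralizer ({z} : Set G) := by
  have : Fact (Nat.Prime 2) := ⟨Nat.prime_two⟩
  intro hle
  have h1 : L ≤ Subgroup.normalizer (Q : Set G) := fun l hl =>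
    hL3 ((hES.mem_centralizer_center_iff l).mpr (Subgroup.mem_centralizer_singleton_iff.mp (hle hl)))
  have hsolv : Group.IsSolvable Q := by
    have := hES.two.isNilpotent
    infer_instance
  have h2 := Cfsg.Agent.Lib.Helper21.IsComponent.commutator_eq_bot_of_isSolvable hL hsolv h1
  have h3 : L ≤ Subgroup.centralizer (Q : Set G) :=
    Subgroup.commutator_eq_bot_iff_le_centralizer.mp h2
  refine Cfsg.Agent.Lib.Helper21.IsComponent.not_le_of_isSolvable hL hsolv (fun l hl => ?_)
  have := h3 hl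
  rw [hL2] at this
  exact ((mem_center_map_iff Q l).mp this).1

theorem oddCore_eq_bot [Finite G] {Q : Subgroup G}
    (hL4 : ∀ K : Subgroup G, Odd (Nat.card K) → Q ≤ Subgroup.normalizer (K : Set G) → K = ⊥) :
    Cfsg.pPrimeCore 2 G = ⊥ := by
  apply hL4
  · exact (Nat.coprime_two_right).mp (Cfsg.Agent.Lib.Lead.card_pPrimeCore_coprime 2)
  · have : (Cfsg.pPrimeCore 2 G).Normal := inferInstance
    rw [Subgroup.normalizer_eq_top]
    exact le_top

/-- the case `O₂(G) ≠ 1`. -/
theorem case_abelian [Finite G] {Q : Subgroup G} {z : G} (hES : ES Q z)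
    (hL2 : Subgroup.centralizer (Q : Set G) = ((Subgroup.center ↥Q).map Q.subtype))
    (hL3 : Subgroup.centralizer (((Subgroup.center ↥Q).map Q.subtype) : Set G) ≤
      Subgroup.normalizer (Q : Set G))
    (hL4 : ∀ K : Subgroup G, Odd (Nat.card K) → Q ≤ Subgroup.normalizer (K : Set G) → K = ⊥)
    (hO2 : Cfsg.pCore 2 G ≠ ⊥) :
    IsMulCommutative ↥(Subgroup.normalClosure ({z} : Set G)) ∧
      Cfsg.generalizedFittingSubgroup G = Cfsg.pCore 2 G := by
  have : Fact (Nat.Prime 2) := ⟨Nat.prime_two⟩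
  have hPn : (Cfsg.pCore 2 G).Normal := inferInstance
  have hP2 : IsPGroup 2 (Cfsg.pCore 2 G) := pCore_isPGroup 2
  have hnt : Nontrivial (Cfsg.pCore 2 G) := (Subgroup.nontrivial_iff_ne_bot _).mpr hO2
  have hcn := IsPGroup.center_nontrivial hP2
  have hZn : ((Subgroup.center ↥(Cfsg.pCore 2 G)).map (Cfsg.pCore 2 G).subtype).Normal :=
    inferInstance
  have hZ1 : (Subgroup.center ↥(Cfsg.pCore 2 G)).map (Cfsg.pCore 2 G).subtype ≠ ⊥ := by
    intro h
    rw [Subgroup.map_eq_bot_iff_of_injective _ (Subgroup.subtype_injective _)] at h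
    exact (Subgroup.nontrivial_iff_ne_bot _).mp hcn h
  have hzZ := z_mem_of_normal hES hL2 hL3 hL4 _ hZ1
  have hMZ : Subgroup.normalClosure ({z} : Set G) ≤
      (Subgroup.center ↥(Cfsg.pCore 2 G)).map (Cfsg.pCore 2 G).subtype :=
    Subgroup.normalClosure_le_normal (Set.singleton_subset_iff.mpr hzZ)
  constructor
  · refine ⟨⟨fun a b => ?_⟩⟩
    obtain ⟨ha1, ha2⟩ := (mem_center_map_iff _ _).mp (hMZ a.2)
    obtain ⟨hb1, -⟩ := (mem_center_map_iff _ _).mp (hMZ b.2)
    ext
    exact (ha2 b hb1).symm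
  · apply Cfsg.Agent.Lib.Helper23.genFitting_eq_pCore 2 (oddCore_eq_bot hL4)
    unfold Cfsg.layer
    rw [sSup_eq_bot]
    intro L hL
    exfalso
    apply no_component hES hL2 hL3 L hL
    have hsolv : Group.IsSolvable (Cfsg.pCore 2 G) := by
      have := hP2.isNilpotent
      infer_instance
    have h2 := Cfsg.Agent.Lib.Helper21.IsComponent.commutator_eq_bot_of_isSolvable hL hsolv
      (by rw [Subgroup.normalizer_eq_top]; exact le_top)
    have h3 := Subgroup.commutator_eq_bot_iff_le_centralizer.mp h2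
    intro l hl
    rw [Subgroup.mem_centralizer_singleton_iff]
    exact (Subgroup.mem_centralizer_iff.mp (h3 hl) z ((mem_center_map_iff _ _).mp hzZ).1).symm


/-- a component of a group with trivial Fitting subgroup has trivial centre. -/
theorem component_triv [Finite G] (hF : Cfsg.fittingSubgroup G = ⊥) (L : Subgroup G)
    (hL : Cfsg.IsComponent L) : ∀ x ∈ L, (∀ l ∈ L, l * x = x * l) → x = 1 := by
  intro x hx hxc
  have hsub : ((Subgroup.center ↥L).map L.subtype).IsSubnormal :=
    Subgroup.IsSubnormal.trans' (Subgroup.Normal.isSubnormal inferInstance) hL.1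
  have hnil : Group.IsNilpotent ↥((Subgroup.center ↥L).map L.subtype) :=
    Cfsg.Agent.Lib.Helper91.isNilpotent_map _
      (Cfsg.Agent.Lib.Helper29.isNilpotent_of_isMulCommutative _)
  have h1 := Cfsg.Agent.Lib.Helper91.le_fittingSubgroup_of_isSubnormal hsub hnil
  rw [hF] at h1
  exact Subgroup.mem_bot.mp (h1 ((mem_center_map_iff L x).mpr ⟨hx, hxc⟩))

theorem component_simple [Finite G] (L : Subgroup G)
    (hL : Cfsg.IsComponent L) (htriv : ∀ x ∈ L, (∀ l ∈ L, l * x = x * l) → x = 1) :
    IsSimpleGroup ↥L ∧ ¬ IsMulCommutative ↥L := by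
  have hnt := Cfsg.Agent.Lib.Helper21.IsQuasisimple.nontrivial hL.2
  constructor
  · refine ⟨fun N hN => ?_⟩
    rcases Cfsg.Agent.Lib.Helper21.IsQuasisimple.normal_eq_top_or_le_center hL.2 N hN with h | h
    · exact Or.inr h
    · left
      rw [eq_bot_iff]
      intro x hx
      have h1 := Subgroup.mem_center_iff.mp (h hx)
      rw [Subgroup.mem_bot]
      ext
      exact htriv x x.2 (fun l hl => congrArg Subtype.val (h1 ⟨l, hl⟩))
  · intro hc
    apply Cfsg.Agent.Lib.Helper21.IsQuasisimple.not_isSolvable hL.2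
    have : Group.IsNilpotent ↥L := Cfsg.Agent.Lib.Helper29.isNilpotent_of_isMulCommutative _
    infer_instance

theorem component_conj [Finite G] (L : Subgroup G) (hL : Cfsg.IsComponent L) (g : G) :
    g ∈ Subgroup.normalizer (L : Set G) ∨
      ∀ l ∈ L, g * l * g⁻¹ ∈ Subgroup.centralizer (L : Set G) := by
  have hg := Cfsg.Agent.Lib.Helper21.IsComponent.map_mulEquiv (MulAut.conj g) hL
  by_cases h : L.map (MulAut.conj g).toMonoidHom = L
  · left
    apply mem_normalizer_of_conj_mem
    intro v hv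
    rw [← h]
    exact ⟨v, hv, by simp⟩
  · right
    intro l hl
    exact Cfsg.Agent.Lib.Helper21.IsComponent.le_centralizer_of_ne hg hL h ⟨l, hl, by simp⟩

/-- existence of the configuration when `O₂(G) = 1`. -/
theorem exists_compData [Finite G] {Q : Subgroup G} {z : G} (hES : ES Q z)
    (hL2 : Subgroup.centralizer (Q : Set G) = ((Subgroup.center ↥Q).map Q.subtype))
    (hL3 : Subgroup.centralizer (((Subgroup.center ↥Q).map Q.subtype) : Set G) ≤
      Subgroup.normalizer (Q : Set G))
    (hL4 : ∀ K : Subgroup G, Odd (Nat.card K) → Q ≤ Subgroup.normalizer (K : Set G) → K = ⊥)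
    (hO2 : Cfsg.pCore 2 G = ⊥) :
    Cfsg.generalizedFittingSubgroup G = Cfsg.layer G ∧
    ∃ (L : Subgroup G) (z₁ z' : G), Cfsg.IsComponent L ∧ CompData Q L z z₁ z' := by
  have : Fact (Nat.Prime 2) := ⟨Nat.prime_two⟩
  have hF : Cfsg.fittingSubgroup G = ⊥ := by
    rw [Cfsg.Agent.Lib.Helper23.fitting_eq_pCore 2 (oddCore_eq_bot hL4), hO2]
  have hFs : Cfsg.generalizedFittingSubgroup G = Cfsg.layer G := by
    unfold Cfsg.generalizedFittingSubgroup
    rw [hF, sup_bot_eq]
  refine ⟨hFs, ?_⟩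
  have hlay : Cfsg.layer G ≠ ⊥ := by
    intro h
    have h1 := Cfsg.Agent.S1265.result (G := G)
    rw [hFs, h] at h1
    apply hES.z_ne
    apply Subgroup.mem_bot.mp
    apply h1
    rw [Subgroup.mem_centralizer_iff]
    intro y hy
    rw [Subgroup.mem_bot.mp hy]
    simp
  obtain ⟨L, hL⟩ : ∃ L : Subgroup G, Cfsg.IsComponent L := by
    by_contra hcon
    push Not at hcon
    apply hlay
    unfold Cfsg.layer
    rw [sSup_eq_bot]
    intro K hK
    exact absurd hK (hcon K)
  have htriv := component_triv hF L hL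
  have hzlay : z ∈ Cfsg.layer G :=
    z_mem_of_normal hES hL2 hL3 hL4 _ hlay
  have hle : Cfsg.layer G ≤ L ⊔ Subgroup.centralizer (L : Set G) := by
    apply sSup_le
    intro K hK
    by_cases h : K = L
    · rw [h]; exact le_sup_left
    · exact (Cfsg.Agent.Lib.Helper21.IsComponent.le_centralizer_of_ne hK hL h).trans le_sup_right
  obtain ⟨z₁, hz₁, z', hz', hzeq⟩ := exists_mul_of_mem_sup_of_commute (C := L)
    (A := Subgroup.centralizer (L : Set G))
    (fun c hc a ha => (Subgroup.mem_centralizer_iff.mp ha c hc).symm) (hle hzlay)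
  refine ⟨L, z₁, z', hL, hES, ?_, ?_, htriv, hz₁, hz', hzeq, ?_, component_conj L hL⟩
  · intro x hx
    have : x ∈ Subgroup.centralizer (Q : Set G) := Subgroup.mem_centralizer_iff.mpr hx
    rw [hL2] at this
    exact (hES.mem_center_map_iff' x).mp this
  · intro c hc q hq
    exact (Subgroup.mem_normalizer_iff.mp (hL3 ((hES.mem_centralizer_center_iff c).mpr hc)) q).mp hq
  · intro h1
    apply no_component hES hL2 hL3 L hL
    intro l hl
    rw [Subgroup.mem_centralizer_singleton_iff, hzeq, h1, one_mul]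
    exact Subgroup.mem_centralizer_iff.mp hz' l hl


/-- the case where `Q` normalises a component. -/
theorem case_simple [Finite G] {Q L : Subgroup G} {z z₁ z' : G} (hES : ES Q z)
    (hL2 : Subgroup.centralizer (Q : Set G) = ((Subgroup.center ↥Q).map Q.subtype))
    (hL3 : Subgroup.centralizer (((Subgroup.center ↥Q).map Q.subtype) : Set G) ≤
      Subgroup.normalizer (Q : Set G))
    (hL : Cfsg.IsComponent L) (h : CompData Q L z z₁ z')
    (hQL : Q ≤ Subgroup.normalizer (L : Set G)) :
    Subgroup.normalClosure ({z} : Set G) = Cfsg.layer G ∧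
      IsSimpleGroup ↥(Subgroup.normalClosure ({z} : Set G)) ∧
      ¬ IsMulCommutative ↥(Subgroup.normalClosure ({z} : Set G)) := by
  have hzL : z ∈ L := by rw [h.z_mem_of_normalizes hQL]; exact h.z₁_mem
  obtain ⟨hsimple, hnc⟩ := component_simple L hL h.triv
  have hlay : Cfsg.layer G = L := by
    apply le_antisymm
    · apply sSup_le
      intro K hK
      by_cases hKL : K = L
      · rw [hKL]
      · exfalso
        apply no_component hES hL2 hL3 K hK
        intro k hk
        rw [Subgroup.mem_centralizer_singleton_iff]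
        exact (Subgroup.mem_centralizer_iff.mp
          (Cfsg.Agent.Lib.Helper21.IsComponent.le_centralizer_of_ne hK hL hKL hk) z hzL).symm
    · exact Cfsg.Agent.Lib.Helper21.IsComponent.le_layer hL
  have hLn : L.Normal := by rw [← hlay]; infer_instance
  have hML : Subgroup.normalClosure ({z} : Set G) = L := by
    apply le_antisymm
    · exact Subgroup.normalClosure_le_normal (Set.singleton_subset_iff.mpr hzL)
    · have hn : ((Subgroup.normalClosure ({z} : Set G)).subgroupOf L).Normal := inferInstance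
      rcases hsimple.eq_bot_or_eq_top_of_normal _ hn with h1 | h1
      · exfalso
        apply hES.z_ne
        have h2 : (⟨z, hzL⟩ : L) ∈ (Subgroup.normalClosure ({z} : Set G)).subgroupOf L :=
          Subgroup.mem_subgroupOf.mpr (Subgroup.subset_normalClosure (Set.mem_singleton z))
        rw [h1] at h2
        exact congrArg Subtype.val (Subgroup.mem_bot.mp h2)
      · exact Subgroup.subgroupOf_eq_top.mp h1
  rw [hML, hlay]
  exact ⟨rfl, hsimple, hnc⟩


/-- the case where some `u ∈ Q` moves a component: global structure. -/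
theorem case_product_global [Finite G] {Q L : Subgroup G} {z z₁ z' u : G} (hES : ES Q z)
    (hL2 : Subgroup.centralizer (Q : Set G) = ((Subgroup.center ↥Q).map Q.subtype))
    (hL3 : Subgroup.centralizer (((Subgroup.center ↥Q).map Q.subtype) : Set G) ≤
      Subgroup.normalizer (Q : Set G))
    (hL : Cfsg.IsComponent L) (h : CompData Q L z z₁ z')
    (hun : u ∉ Subgroup.normalizer (L : Set G)) (hz : z = z₁ * (u * z₁ * u⁻¹)) :
    Subgroup.normalClosure ({z} : Set G) = Cfsg.layer G ∧
      L ⊓ L.map (MulAut.conj u).toMonoidHom = ⊥ ∧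
      (∀ x ∈ L, ∀ y ∈ L.map (MulAut.conj u).toMonoidHom, x * y = y * x) ∧
      L ⊔ L.map (MulAut.conj u).toMonoidHom = Subgroup.normalClosure ({z} : Set G) ∧
      ∀ g, g ∈ Subgroup.normalizer (L : Set G) ∨ u⁻¹ * g ∈ Subgroup.normalizer (L : Set G) := by
  obtain ⟨hsimple, hnc⟩ := component_simple L hL h.triv
  have hu' := (h.conj u).resolve_left hun
  have hL₂ := Cfsg.Agent.Lib.Helper21.IsComponent.map_mulEquiv (MulAut.conj u) hL
  obtain ⟨L₂, hL₂_def⟩ : ∃ L₂, L₂ = L.map (MulAut.conj u).toMonoidHom := ⟨_, rfl⟩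
  rw [← hL₂_def] at hL₂ ⊢
  have hL₂C : L₂ ≤ Subgroup.centralizer (L : Set G) := by
    rw [hL₂_def]
    rintro _ ⟨l, hl, rfl⟩
    simpa using hu' l hl
  have hz₂ : u * z₁ * u⁻¹ ∈ L₂ := by
    rw [hL₂_def]; exact ⟨z₁, h.z₁_mem, by simp⟩
  have hcomp : ∀ K, Cfsg.IsComponent K → K = L ∨ K = L₂ := by
    intro K hK
    by_contra hcon
    push Not at hcon
    apply no_component hES hL2 hL3 K hK
    intro k hk
    have h1 := Subgroup.mem_centralizer_iff.mp
      (Cfsg.Agent.Lib.Helper21.IsComponent.le_centralizer_of_ne hK hL hcon.1 hk) z₁ h.z₁_mem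
    have h2 := Subgroup.mem_centralizer_iff.mp
      (Cfsg.Agent.Lib.Helper21.IsComponent.le_centralizer_of_ne hK hL₂ hcon.2 hk) _ hz₂
    rw [Subgroup.mem_centralizer_singleton_iff, hz]
    calc k * (z₁ * (u * z₁ * u⁻¹)) = (k * z₁) * (u * z₁ * u⁻¹) := by group
      _ = z₁ * (k * (u * z₁ * u⁻¹)) := by rw [← h1]; group
      _ = z₁ * (u * z₁ * u⁻¹) * k := by rw [← h2]; group
  have hlay : Cfsg.layer G = L ⊔ L₂ := by
    apply le_antisymm
    · apply sSup_le
      intro K hK
      rcases hcomp K hK with rfl | rfl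
      · exact le_sup_left
      · exact le_sup_right
    · exact sup_le (Cfsg.Agent.Lib.Helper21.IsComponent.le_layer hL)
        (Cfsg.Agent.Lib.Helper21.IsComponent.le_layer hL₂)
  have hMn : (Subgroup.normalClosure ({z} : Set G)).Normal := Subgroup.normalClosure_normal
  have hzM : z ∈ Subgroup.normalClosure ({z} : Set G) :=
    Subgroup.subset_normalClosure (Set.mem_singleton z)
  have hLM : L ≤ Subgroup.normalClosure ({z} : Set G) := by
    have hn : ((Subgroup.normalClosure ({z} : Set G)).subgroupOf L).Normal := inferInstance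
    rcases hsimple.eq_bot_or_eq_top_of_normal _ hn with h1 | h1
    · exfalso
      apply h.z₁_ne
      apply h.triv z₁ h.z₁_mem
      intro l hl
      have h2 : z * l * z⁻¹ * l⁻¹ ∈ Subgroup.normalClosure ({z} : Set G) := by
        have e : z * l * z⁻¹ * l⁻¹ = z * (l * z⁻¹ * l⁻¹) := by group
        rw [e]
        exact Subgroup.mul_mem _ hzM (hMn.conj_mem _ (Subgroup.inv_mem _ hzM) l)
      have h3 : z * l * z⁻¹ * l⁻¹ = z₁ * l * z₁⁻¹ * l⁻¹ := by
        rw [h.z_eq]
        calc z₁ * z' * l * (z₁ * z')⁻¹ * l⁻¹ = z₁ * (z' * l) * z'⁻¹ * z₁⁻¹ * l⁻¹ := by group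
          _ = z₁ * l * z₁⁻¹ * l⁻¹ := by rw [← h.comm hl h.z'_mem]; group
      have h4 : z₁ * l * z₁⁻¹ * l⁻¹ ∈ L :=
        L.mul_mem (L.mul_mem (L.mul_mem h.z₁_mem hl) (L.inv_mem h.z₁_mem)) (L.inv_mem hl)
      have h5 : (⟨_, h4⟩ : L) ∈ (Subgroup.normalClosure ({z} : Set G)).subgroupOf L := by
        rw [Subgroup.mem_subgroupOf]
        rw [h3] at h2
        exact h2
      rw [h1] at h5
      have h6 : z₁ * l * z₁⁻¹ * l⁻¹ = 1 := congrArg Subtype.val (Subgroup.mem_bot.mp h5)
      calc l * z₁ = (z₁ * l * z₁⁻¹ * l⁻¹)⁻¹ * (z₁ * l) := by group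
        _ = z₁ * l := by rw [h6]; group
    · exact Subgroup.subgroupOf_eq_top.mp h1
  have hL₂M : L₂ ≤ Subgroup.normalClosure ({z} : Set G) := by
    rw [hL₂_def]
    rintro _ ⟨l, hl, rfl⟩
    simpa using hMn.conj_mem l (hLM hl) u
  have hMlay : Subgroup.normalClosure ({z} : Set G) = Cfsg.layer G := by
    apply le_antisymm
    · apply Subgroup.normalClosure_le_normal
      rw [Set.singleton_subset_iff, hlay, hz]
      exact Subgroup.mul_mem _ (Subgroup.mem_sup_left h.z₁_mem) (Subgroup.mem_sup_right hz₂)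
    · rw [hlay]; exact sup_le hLM hL₂M
  refine ⟨hMlay, ?_, ?_, by rw [hMlay, hlay], ?_⟩
  · rw [eq_bot_iff]
    intro x hx
    obtain ⟨hx1, hx2⟩ := Subgroup.mem_inf.mp hx
    exact Subgroup.mem_bot.mpr (h.triv x hx1 (fun l hl => h.comm hl (hL₂C hx2)))
  · intro x hx y hy
    exact h.comm hx (hL₂C hy)
  · intro g
    have hg := Cfsg.Agent.Lib.Helper21.IsComponent.map_mulEquiv (MulAut.conj g) hL
    rcases hcomp _ hg with h1 | h1
    · left
      apply mem_normalizer_of_conj_mem
      intro v hv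
      rw [← h1]
      exact ⟨v, hv, by simp⟩
    · right
      apply mem_normalizer_of_conj_mem
      intro v hv
      have h2 : g * v * g⁻¹ ∈ L.map (MulAut.conj u).toMonoidHom := by
        rw [← hL₂_def, ← h1]
        exact ⟨v, hv, by simp⟩
      rw [mem_map_conj_iff] at h2
      have e : u⁻¹ * g * v * (u⁻¹ * g)⁻¹ = u⁻¹ * (g * v * g⁻¹) * u := by group
      rw [e]; exact h2


/-- the Sylow and Frattini statements. -/
theorem case_product_sylow [Finite G] {Q L : Subgroup G} {z z₁ z' u : G}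
    (h : CompData Q L z z₁ z') (hu : u ∈ Q)
    (hun : u ∉ Subgroup.normalizer (L : Set G))
    (hconj2 : ∀ g, g ∈ Subgroup.normalizer (L : Set G) ∨
      u⁻¹ * g ∈ Subgroup.normalizer (L : Set G)) :
    ∃ R : Sylow 2 ↥L, (R : Subgroup ↥L) = (Subgroup.centralizer ({z₁} : Set G)).subgroupOf L ∧
      (frattini ↥(R : Subgroup ↥L)).map ((L.subtype).comp (R : Subgroup ↥L).subtype) ≤
        Subgroup.zpowers z₁ := by
  have : Fact (Nat.Prime 2) := ⟨Nat.prime_two⟩
  have hR₀ : IsPGroup 2 ((Subgroup.centralizer ({z₁} : Set G)).subgroupOf L) := by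
    intro r
    refine ⟨2, ?_⟩
    have h1 : ((r : L) : G) * z₁ = z₁ * ((r : L) : G) :=
      Subgroup.mem_centralizer_singleton_iff.mp (Subgroup.mem_subgroupOf.mp r.2)
    have h2 := h.pow_four hu hun (r : L).2 h1
    ext
    simpa using h2
  obtain ⟨R, hR⟩ := hR₀.exists_le_sylow
  have hReq : (R : Subgroup ↥L) = (Subgroup.centralizer ({z₁} : Set G)).subgroupOf L := by
    apply le_antisymm _ hR
    intro x hx
    have h1 := h.le_of_isPGroup hu hconj2 ((R : Subgroup ↥L).map L.subtype) (R.2.map _)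
      (by rintro _ ⟨y, -, rfl⟩; exact y.2)
      (by
        intro y hy
        obtain ⟨hy1, hy2⟩ := Subgroup.mem_inf.mp hy
        exact ⟨⟨y, hy1⟩, hR (Subgroup.mem_subgroupOf.mpr hy2), rfl⟩)
    have h2 := h1 ⟨x, hx, rfl⟩
    exact Subgroup.mem_subgroupOf.mpr (Subgroup.mem_inf.mp h2).2
  refine ⟨R, hReq, ?_⟩
  have hmem : ∀ r : (R : Subgroup ↥L), ((r : L) : G) * z₁ = z₁ * ((r : L) : G) := by
    intro r
    have h1 : (r : L) ∈ (Subgroup.centralizer ({z₁} : Set G)).subgroupOf L := hReq ▸ r.2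
    exact Subgroup.mem_centralizer_singleton_iff.mp (Subgroup.mem_subgroupOf.mp h1)
  have hzp := mem_zpowers_iff_of_sq h.z₁_sq
  rw [Subgroup.map_le_iff_le_comap]
  have hN : ((Subgroup.zpowers z₁).comap ((L.subtype).comp (R : Subgroup ↥L).subtype)).Normal := by
    refine ⟨fun n hn g => ?_⟩
    rw [Subgroup.mem_comap] at hn ⊢
    have e : ((L.subtype).comp (R : Subgroup ↥L).subtype) (g * n * g⁻¹) =
        ((g : L) : G) * ((n : L) : G) * ((g : L) : G)⁻¹ := by simp
    rw [e]
    have hn' : ((n : L) : G) ∈ Subgroup.zpowers z₁ := hn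
    rcases (hzp _).mp hn' with h1 | h1
    · rw [h1]; simp
    · rw [h1, hmem g]; simp
  apply Cfsg.Agent.S0013.result 2 R.2 _
  · rw [commutator_def, Subgroup.commutator_le]
    intro a _ b _
    rw [Subgroup.mem_comap]
    have e : ((L.subtype).comp (R : Subgroup ↥L).subtype) ⁅a, b⁆ =
        ((a : L) : G) * ((b : L) : G) * ((a : L) : G)⁻¹ * ((b : L) : G)⁻¹ := by
      simp [commutatorElement_def]
    rw [e, hzp]
    rcases h.comm_mem hu hun (a : L).2 (hmem a) (b : L).2 (hmem b) with h1 | h1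
    · left; rw [h1]; group
    · right; rw [h1]; group
  · intro x
    rw [Subgroup.mem_comap]
    have e : ((L.subtype).comp (R : Subgroup ↥L).subtype) (x ^ 2) =
        ((x : L) : G) * ((x : L) : G) := by
      simp [pow_two]
    rw [e, hzp]
    exact h.sq_mem hu hun (x : L).2 (hmem x)

/-- `Q` is not `O₂(C_G(z))` in the product case. -/
theorem case_product_ne [Finite G] {Q L : Subgroup G} {z z₁ z' u y : G}
    (h : CompData Q L z z₁ z') (hu : u ∈ Q)
    (hun : u ∉ Subgroup.normalizer (L : Set G)) (hz : z = z₁ * (u * z₁ * u⁻¹))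
    (hM : L ⊔ L.map (MulAut.conj u).toMonoidHom = Subgroup.normalClosure ({z} : Set G))
    (hy : y ∈ L) (hyz : y * z₁ = z₁ * y) (hy1 : y ≠ 1) (hyz1 : y ≠ z₁) :
    Q ≠ (Cfsg.pCore 2 ↥(Subgroup.centralizer ({z} : Set G))).map
      (Subgroup.centralizer ({z} : Set G)).subtype := by
  intro hQ
  have hn : ((Subgroup.normalClosure ({z} : Set G)).subgroupOf
      (Subgroup.centralizer ({z} : Set G))).Normal := by
    have : (Subgroup.normalClosure ({z} : Set G)).Normal := Subgroup.normalClosure_normal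
    infer_instance
  have hp : IsPGroup 2 ((Subgroup.normalClosure ({z} : Set G)).subgroupOf
      (Subgroup.centralizer ({z} : Set G))) := by
    intro m
    refine ⟨2, ?_⟩
    have h1 : ((m : Subgroup.centralizer ({z} : Set G)) : G) ∈
        L ⊔ L.map (MulAut.conj u).toMonoidHom := by
      rw [hM]; exact Subgroup.mem_subgroupOf.mp m.2
    have h2 := h.pow_four_of_mem_sup hu hun hz h1
      (Subgroup.mem_centralizer_singleton_iff.mp (m : Subgroup.centralizer ({z} : Set G)).2)
    ext
    simpa using h2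
  have hle := le_pCore _ hp
  have hyC : y ∈ Subgroup.centralizer ({z} : Set G) :=
    Subgroup.mem_centralizer_singleton_iff.mpr ((h.comm_z_iff hy).mpr hyz)
  have hyQ : y ∈ Q := by
    rw [hQ]
    refine ⟨⟨y, hyC⟩, hle ?_, rfl⟩
    rw [Subgroup.mem_subgroupOf, ← hM]
    exact Subgroup.mem_sup_left hy
  rcases h.eq_of_mem_Q hu hun hy hyQ with h1 | h1
  · exact hy1 h1
  · exact hyz1 h1

/-- Let Q be a large extraspecial 2-subgroup of the finite group G (extraspecial; centralizer equal to its centre; normal in the centralizer of its centre; normalizing no non-trivial subgroup of odd order) with centre generated by z, and let M be the normal closure of z in G. Then one of the following holds: Q is normal in G; or M is abelian and the generalized Fitting subgroup of G is its largest normal 2-subgroup; or M is the generalized Fitting subgroup of G and is a non-abelian simple group; or M is the generalized Fitting subgroup of G and is the direct product of a non-abelian simple subgroup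 L and its conjugate u L u⁻¹ by some u in Q (the two meet trivially and commute elementwise), with z = z₁ (u z₁ u⁻¹) for some z₁ in L whose centralizer in L is a Sylow 2-subgroup of L with Frattini subgroup inside the subgroup generated by z₁, and Q is not the largest normal 2-subgroup of the centralizer of z. -/
theorem result {G : Type*} [Group G] [Finite G] (Q : Subgroup G) (hQ : Cfsg.IsLargeExtraspecial Q) (z : G) (hz : ((Subgroup.center ↥Q).map Q.subtype) = Subgroup.zpowers z) (M : Subgroup G) (hM : M = Subgroup.normalClosure ({z} : Set G)) : Q.Normal ∨ (IsMulCommutative ↥M ∧ Cfsg.generalizedFittingSubgroup G = Cfsg.pCore 2 G) ∨ (M = Cfsg.generalizedFittingSubgroup G ∧ IsSimpleGroup ↥M ∧ ¬ IsMulCommutative ↥M) ∨ (M = Cfsg.generalizedFittingSubgroup G ∧ ∃ (L : Subgroup G) (u : G), u ∈ Q ∧ IsSimpleGroup ↥L ∧ ¬ IsMulCommutative ↥L ∧ L ⊓ (L).map (MulAut.conj u).toMonoidHom = ⊥ ∧ (∀ x ∈ L, ∀ y ∈ (L).map (MulAut.conj u).toMonoidHom, x * y = y * x) ∧ L ⊔ (L).map (MulAut.conj u).toMonoidHom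 = M ∧ ∃ z₁ ∈ L, z = z₁ * (u * z₁ * u⁻¹) ∧ (∃ R : Sylow 2 ↥L, (R : Subgroup ↥L) = (Subgroup.centralizer ({z₁} : Set G)).subgroupOf L ∧ (frattini ↥(R : Subgroup ↥L)).map ((L.subtype).comp (R : Subgroup ↥L).subtype) ≤ Subgroup.zpowers z₁) ∧ Q ≠ (Cfsg.pCore 2 ↥(Subgroup.centralizer ({z} : Set G))).map (Subgroup.centralizer ({z} : Set G)).subtype) := by
  have : Fact (Nat.Prime 2) := ⟨Nat.prime_two⟩
  obtain ⟨hL1, hL2, hL3, hL4⟩ := hQ
  obtain ⟨z0, hES, hZmem⟩ := ES.of_isExtraspecial hL1
  have hzz0 : z0 = z := by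
    have h1 : z0 ∈ Subgroup.zpowers z := hz ▸ (hZmem z0).mpr (Or.inr rfl)
    have h2 : z ∈ (Subgroup.center ↥Q).map Q.subtype := hz ▸ Subgroup.mem_zpowers z
    rcases (hZmem z).mp h2 with h3 | h3
    · exfalso
      rw [h3, Subgroup.zpowers_one_eq_bot] at h1
      exact hES.z_ne (Subgroup.mem_bot.mp h1)
    · exact h3.symm
  subst hzz0
  subst hM
  by_cases hO2 : Cfsg.pCore 2 G = ⊥
  · obtain ⟨hFs, L, z₁, z', hL, h⟩ := exists_compData hES hL2 hL3 hL4 hO2
    by_cases hQL : Q ≤ Subgroup.normalizer (L : Set G)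
    · right; right; left
      rw [hFs]
      exact case_simple hES hL2 hL3 hL h hQL
    · right; right; right
      obtain ⟨u, hu, hun⟩ := SetLike.not_le_iff_exists.mp hQL
      obtain ⟨hsimple, hnc⟩ := component_simple L hL h.triv
      obtain ⟨y, hyz, hy1, hyz1⟩ := exists_comm_ne_of_simple hnc (⟨z₁, h.z₁_mem⟩ : L)
        (fun e => h.z₁_ne (congrArg Subtype.val e)) (by ext; exact h.z₁_sq)
      have hyz' : (y : G) * z₁ = z₁ * (y : G) := congrArg Subtype.val hyz
      have hy1' : (y : G) ≠ 1 := fun e => hy1 (by ext; exact e)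
      have hyz1' : (y : G) ≠ z₁ := fun e => hyz1 (by ext; exact e)
      have hz' := h.z_eq_mul_conj hu hun y.2 hyz' hy1' hyz1'
      obtain ⟨g1, g2, g3, g4, g5⟩ := case_product_global hES hL2 hL3 hL h hun hz'
      rw [hFs]
      exact ⟨g1, L, u, hu, hsimple, hnc, g2, g3, g4, z₁, h.z₁_mem, hz',
        case_product_sylow h hu hun g5, case_product_ne h hu hun hz' g4 y.2 hyz' hy1' hyz1'⟩
  · right; left
    exact case_abelian hES hL2 hL3 hL4 hO2

end Cfsg.Agent.S5426
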