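import Cfsg.Statements.S5427
import Cfsg.Agent.Lib.Helper90.Setting
import Cfsg.Agent.S5421
import Cfsg.Agent.S5422

set_option autoImplicit false
open Cfsg
open Cfsg.Agent.Lib.Helper90

namespace Cfsg.Agent.S5427

/-- Let z be an involution of the finite group G whose centralizer C has generalized Fitting subgroup Q, an extraspecial 2-group of width at least 2 (order 2^(2w+1), w ≥ 2). Let K be a subgroup of G such that the subgroup U generated by the K-conjugates of z is abelian and C is generated by the C-conjugates of U. Suppose that either some K-conjugate of z other than z lies in Q, or some element u of U ∩ Q outside the subgroup generated by z has z in the largest normal 2-subgroup of its centralizer. Then G is simple and Q is a large extraspecial 2-subgroup of G. -/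
theorem result {G : Type*} [Group G] [Finite G] (z : G) (hz : orderOf z = 2) (Q : Subgroup G) (hQC : Q ≤ Subgroup.centralizer ({z} : Set G)) (hF : (Cfsg.generalizedFittingSubgroup ↥(Subgroup.centralizer ({z} : Set G))).map (Subgroup.centralizer ({z} : Set G)).subtype = Q) (hQ : Cfsg.IsExtraspecial 2 ↥Q) (w : ℕ) (hw : 2 ≤ w) (hcard : Nat.card ↥Q = 2 ^ (2 * w + 1)) (K U : Subgroup G) (hU : U = Subgroup.closure {x : G | ∃ k ∈ K, x = k * z * k⁻¹}) (hUab : IsMulCommutative ↥U) (hgen : Subgroup.closure {x : G | ∃ c ∈ Subgroup.centralizer ({z} : Set G), ∃ u ∈ U, x = c * u * c⁻¹} = Subgroup.centralizer ({z} : Set G)) (h3 : (∃ k ∈ K, k * z * k⁻¹ ∈ Q ∧ k * z * k⁻¹ ≠ z) ∨ ∃ u ∈ U ⊓ Q, u ∉ Subgroup.zpowers z ∧ (∃ hz' : z ∈ Subgroup.centralizer ({u} : Set G), (⟨z, hz'⟩ : ↥(Subgroup.centralizer ({u} : Set G))) ∈ Cfsg.pCore 2 ↥(Subgroup.centralizer ({u} : Set G)))) : IsSimpleGroup G ∧ Cfsg.IsLargeExtraspecial Q := by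
  obtain ⟨hES, hL2, hL3⟩ := setting_of_genFitting z hz Q hF hQ
  have hZmem := hES.mem_center_map_iff'
  have hlarge : Cfsg.IsLargeExtraspecial Q := by
    rcases h3 with ⟨g, -, hsQ, hsz⟩ | ⟨u, huUQ, huz, hz', hzO⟩
    · have hs1 : g * z * g⁻¹ ≠ 1 := by
        intro h1
        apply hES.z_ne
        have := congrArg (fun w => g⁻¹ * w * g) h1
        simpa [mul_assoc] using this
      refine (Cfsg.Agent.S5422.result _ hQ hL2 hL3 w hw hcard g ?_ ?_).2.2
      · intro hg
        have h1 := (Subgroup.mem_normalizer_iff.mp hg z).mp ((hZmem z).mpr (Or.inr rfl))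
        rcases (hZmem _).mp h1 with h2 | h2
        · exact hs1 h2
        · exact hsz h2
      · rintro _ ⟨y, hy, rfl⟩
        rcases (hZmem y).mp hy with rfl | rfl
        · simp
        · simpa using hsQ
    · obtain ⟨huU, huQ⟩ := Subgroup.mem_inf.mp huUQ
      have hsq : ∀ x ∈ U, x * x = 1 := by
        intro x hx
        have hx' := hx
        rw [hU] at hx'
        induction hx' using Subgroup.closure_induction with
        | mem x hx1 =>
          obtain ⟨k, -, rfl⟩ := hx1
          calc k * z * k⁻¹ * (k * z * k⁻¹) = k * (z * z) * k⁻¹ := by group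
            _ = 1 := by rw [hES.z_sq]; group
        | one => simp
        | mul x y hx1 hy1 hx2 hy2 =>
          rw [← hU] at hx1 hy1
          have hc : x * y = y * x := by
            have := hUab.is_comm.comm ⟨x, hx1⟩ ⟨y, hy1⟩
            exact congrArg Subtype.val this
          calc x * y * (x * y) = x * (y * x) * y := by group
            _ = (x * x) * (y * y) := by rw [← hc]; group
            _ = 1 := by rw [hx2 hx1, hy2 hy1, one_mul]
        | inv x hx1 hx2 =>
          rw [← hU] at hx1
          have := hx2 hx1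
          calc x⁻¹ * x⁻¹ = (x * x)⁻¹ := by group
            _ = 1 := by rw [this, inv_one]
      have hu1 : u ≠ 1 := fun h => huz (h ▸ Subgroup.one_mem _)
      have hu2 : orderOf u = 2 := by
        apply orderOf_eq_prime
        · rw [pow_two]; exact hsq u huU
        · exact hu1
      refine Cfsg.Agent.S5421.result Q hQ hL2 hL3 u huQ ?_ hu2 ?_
      · rw [hES.center_map_eq_zpowers]; exact huz
      · intro y hy
        rcases (hZmem y).mp hy with rfl | rfl
        · exact Subgroup.one_mem _
        · exact ⟨⟨y, hz'⟩, hzO, rfl⟩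
  refine ⟨isSimpleGroup_of_large hES hlarge ?_, hlarge⟩
  have hN : (Subgroup.normalClosure ({z} : Set G)).Normal := Subgroup.normalClosure_normal
  have hUM : U ≤ Subgroup.normalClosure ({z} : Set G) := by
    rw [hU, Subgroup.closure_le]
    rintro _ ⟨k, -, rfl⟩
    exact hN.conj_mem z (Subgroup.subset_normalClosure (Set.mem_singleton z)) k
  rw [← hgen, Subgroup.closure_le]
  rintro _ ⟨c, -, u, hu, rfl⟩
  exact hN.conj_mem u (hUM hu) c

end Cfsg.Agent.S5427
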