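import Cfsg.Statements.S5428
import Cfsg.Agent.Lib.Helper90.Setting
import Cfsg.Agent.Lib.Helper90.Section
import Cfsg.Agent.Lib.Helper90.Coprime

set_option autoImplicit false
open Cfsg
open Cfsg.Agent.Lib.Helper90

namespace Cfsg.Agent.S5428

/-- Let z be an involution of the finite group G whose centralizer C has generalized Fitting subgroup Q extraspecial (as a 2-group), let A be a subgroup of C of odd order, and let R be the centralizer of A in Q; suppose R has order at least 32, the largest normal subgroup of odd order of the centralizer of the subgroup generated by A and R lies in A, the order of that centralizer is not divisible by 4, and g is an element of G with g z g⁻¹ in R but outside the centre Z of Q. Let M be the subgroup generated by A and the centralizer of A (A is normal in it). Then: the centralizer in M of the subgroup generated by R and A, joined with A, equals the subgroup generated by A and Z; the image of R in M/A is a large extraspecial 2-subgroup of M/A; and g z g⁻¹ is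 conjugate to z inside the subgroup generated by R and the centralizer of A in g Q g⁻¹. -/
theorem result {G : Type*} [Group G] [Finite G] (z : G) (hz : orderOf z = 2) (Q : Subgroup G) (hQC : Q ≤ Subgroup.centralizer ({z} : Set G)) (hF : (Cfsg.generalizedFittingSubgroup ↥(Subgroup.centralizer ({z} : Set G))).map (Subgroup.centralizer ({z} : Set G)).subtype = Q) (hQ : Cfsg.IsExtraspecial 2 ↥Q) (A : Subgroup G) (hA : A ≤ Subgroup.centralizer ({z} : Set G)) (hAodd : Odd (Nat.card ↥A)) (R : Subgroup G) (hR : R = Q ⊓ Subgroup.centralizer (A : Set G)) (hR32 : 32 ≤ Nat.card ↥R) (hO : (Cfsg.oddCore ↥(Subgroup.centralizer ((A ⊔ R : Subgroup G) : Set G))).map (Subgroup.centralizer ((A ⊔ R : Subgroup G) : Set G)).subtype ≤ A) (h4 : ¬ 4 ∣ Nat.card ↥(Subgroup.centralizer ((A ⊔ R : Subgroup G) : Set G))) (g : G) (hgR : g * z * g⁻¹ ∈ R) (hgZ : g * z * g⁻¹ ∉ ((Subgroup.center ↥Q).map Q.subtype)) (M : Subgroup G) (hM : M = Subgroup.centralizer (A : Set G) ⊔ A) [hn : (A.subgroupOf M).Normal] : (M ⊓ Subgroup.centralizer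 ((R ⊔ A : Subgroup G) : Set G)) ⊔ A = A ⊔ ((Subgroup.center ↥Q).map Q.subtype) ∧ Cfsg.IsLargeExtraspecial ((R.subgroupOf M).map (QuotientGroup.mk' (A.subgroupOf M))) ∧ ∃ x ∈ R ⊔ ((Q).map (MulAut.conj g).toMonoidHom ⊓ Subgroup.centralizer (A : Set G)), x * (g * z * g⁻¹) * x⁻¹ = z := by
  obtain ⟨hES, hL2, hL3⟩ := setting_of_genFitting z hz Q hF hQ
  have hZmem := hES.mem_center_map_iff'
  have hsz : g * z * g⁻¹ ≠ z := fun h => hgZ ((hZmem _).mpr (Or.inr h))
  have hmemR : ∀ x, x ∈ R ↔ x ∈ Q ∧ ∀ a ∈ A, a * x = x * a := by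
    intro x
    rw [hR, Subgroup.mem_inf, Subgroup.mem_centralizer_iff]
    rfl
  have hgQ : g * z * g⁻¹ ∈ Q := ((hmemR _).mp hgR).1
  have hPD := PairData.of_large hES hL2 hL3 g hgQ hsz
  obtain ⟨s, hs_def⟩ : ∃ s, s = g * z * g⁻¹ := ⟨_, rfl⟩
  obtain ⟨Q', hQ'_def⟩ : ∃ Q', Q' = Q.map (MulAut.conj g).toMonoidHom := ⟨_, rfl⟩
  rw [← hs_def, ← hQ'_def] at hPD
  rw [← hs_def] at hsz hgQ hgR
  rw [← hs_def, ← hQ'_def]
  have hAz : ∀ a ∈ A, a * z = z * a := fun a ha => Subgroup.mem_centralizer_singleton_iff.mp (hA ha)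
  have hAs : ∀ a ∈ A, a * s = s * a := ((hmemR s).mp hgR).2
  have hAN : A ≤ Subgroup.normalizer (Q : Set G) := fun a ha =>
    hL3 ((hES.mem_centralizer_center_iff a).mpr (hAz a ha))
  have hAN' : A ≤ Subgroup.normalizer (Q' : Set G) := by
    intro a ha
    apply mem_normalizer_of_conj_mem
    exact hPD.norm' a (hAs a ha)
  have hzs : z * s = s * z := hPD.zs_comm
  have hss : s * s = 1 := hPD.es'.z_sq
  obtain ⟨r, hrQ, hrA, hrs⟩ := hES.exists_conj_coprime A hAN hAodd hgQ hAs hPD.es'.z_ne hsz
  obtain ⟨r', hr'Q, hr'A, hr'z⟩ := hPD.es'.exists_conj_coprime A hAN' hAodd hPD.z_mem hAz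
    hES.z_ne hsz.symm
  have hr's : r' * s * r'⁻¹ = s := by rw [hPD.es'.z_comm r' hr'Q]; group
  have hx : (r' * r) * s * (r' * r)⁻¹ = z := by
    calc (r' * r) * s * (r' * r)⁻¹ = r' * (r * s * r⁻¹) * r'⁻¹ := by group
      _ = (r' * z * r'⁻¹) * (r' * s * r'⁻¹) := by rw [hrs]; group
      _ = z * (s * s) := by rw [hr'z, hr's, ← hzs]; group
      _ = z := by rw [hss, mul_one]
  have hxA : ∀ a ∈ A, a * (r' * r) = (r' * r) * a := by
    intro a ha
    calc a * (r' * r) = (a * r') * r := by group
      _ = r' * (a * r) := by rw [hr'A a ha]; group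
      _ = (r' * r) * a := by rw [hrA a ha]; group
  have hzR : z ∈ R := (hmemR z).mpr ⟨hES.z_mem, hAz⟩
  have hzA : z ∉ A := fun h => hES.z_ne (eq_one_of_mem_odd_of_mem_two hAodd hES.two h hES.z_mem)
  have hCM : Subgroup.centralizer (A : Set G) ≤ M := by rw [hM]; exact le_sup_left
  have hAM : A ≤ M := by rw [hM]; exact le_sup_right
  have hRM : R ≤ M := fun x hx => hCM (Subgroup.mem_centralizer_iff.mpr ((hmemR x).mp hx).2)
  -- the centraliser `D` of `A R`
  have hD : ∀ d, (∀ a ∈ A, a * d = d * a) → (∀ p ∈ R, p * d = d * p) → d ∈ A ∨ z * d ∈ A := by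
    intro d hdA hdR
    have hmemD : ∀ y, (∀ a ∈ A, a * y = y * a) → (∀ p ∈ R, p * y = y * p) →
        y ∈ Subgroup.centralizer ((A ⊔ R : Subgroup G) : Set G) := by
      intro y hyA hyR
      have : A ⊔ R ≤ Subgroup.centralizer ({y} : Set G) := by
        apply sup_le
        · intro a ha; exact Subgroup.mem_centralizer_singleton_iff.mpr (hyA a ha)
        · intro p hp; exact Subgroup.mem_centralizer_singleton_iff.mpr (hyR p hp)
      rw [Subgroup.mem_centralizer_iff]
      intro h hh
      exact Subgroup.mem_centralizer_singleton_iff.mp (this hh)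
    have hdD := hmemD d hdA hdR
    have hzD := hmemD z hAz (fun p hp => hES.z_comm p ((hmemR p).mp hp).1)
    have hzo : orderOf (⟨z, hzD⟩ : Subgroup.centralizer ((A ⊔ R : Subgroup G) : Set G)) = 2 := by
      rw [Subgroup.orderOf_mk]; exact hz
    rcases mem_oddCore_or_of_not_four_dvd _ hzo h4 ⟨d, hdD⟩ with h | h
    · left; exact hO ⟨_, h, rfl⟩
    · right; exact hO ⟨_, h, rfl⟩
  have hdecomp : ∀ x ∈ M, ∃ c, (∀ a ∈ A, a * c = c * a) ∧ ∃ a ∈ A, x = c * a := by
    intro x hx
    rw [hM] at hx
    obtain ⟨c, hc, a, ha, h⟩ := exists_mul_of_mem_sup_of_commute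
      (fun c hc a ha => Subgroup.mem_centralizer_iff.mp hc a ha) hx
    exact ⟨c, Subgroup.mem_centralizer_iff.mp hc, a, ha, h⟩
  refine ⟨?_, ?_, r' * r, ?_, hx⟩
  · apply le_antisymm
    · apply sup_le _ le_sup_left
      intro d hd
      obtain ⟨-, hd2⟩ := Subgroup.mem_inf.mp hd
      rw [Subgroup.mem_centralizer_iff] at hd2
      rcases hD d (fun a ha => hd2 a (Subgroup.mem_sup_right ha))
        (fun p hp => hd2 p (Subgroup.mem_sup_left hp)) with h | h
      · exact Subgroup.mem_sup_left h
      · have e : d = (z * d) * z := by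
          have h1 : z * d = d * z := hd2 z (Subgroup.mem_sup_left hzR)
          calc d = d * (z * z) := by rw [hES.z_sq, mul_one]
            _ = (d * z) * z := by group
            _ = (z * d) * z := by rw [h1]
        rw [e]
        exact Subgroup.mul_mem _ (Subgroup.mem_sup_left h)
          (Subgroup.mem_sup_right ((hZmem z).mpr (Or.inr rfl)))
    · apply sup_le le_sup_right
      intro y hy
      apply Subgroup.mem_sup_left
      rcases (hZmem y).mp hy with rfl | rfl
      · exact Subgroup.one_mem _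
      · refine Subgroup.mem_inf.mpr ⟨hRM hzR, ?_⟩
        have : R ⊔ A ≤ Subgroup.centralizer ({y} : Set G) := by
          apply sup_le
          · intro p hp
            exact Subgroup.mem_centralizer_singleton_iff.mpr (hES.z_comm p ((hmemR p).mp hp).1)
          · intro a ha; exact Subgroup.mem_centralizer_singleton_iff.mpr (hAz a ha)
        rw [Subgroup.mem_centralizer_iff]
        intro h hh
        exact Subgroup.mem_centralizer_singleton_iff.mp (this hh)
  · refine large_section hES M A R (fun x hx => ((hmemR x).mp hx).1) hzR hRM hzA ?_ ?_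
      (r' * r)⁻¹ ?_ ?_ ?_
    · intro x hxM hxR
      -- `x` centralises `R`
      have hxc : ∀ p ∈ R, x * p * x⁻¹ = p := by
        intro p hp
        have h1 := hxR p⁻¹ (R.inv_mem hp)
        rw [inv_inv] at h1
        obtain ⟨a, ha_def⟩ : ∃ a, a = p⁻¹ * x * p * x⁻¹ := ⟨_, rfl⟩
        rw [← ha_def] at h1
        have h2 : x * p * x⁻¹ = p * a := by rw [ha_def]; group
        obtain ⟨k, hk⟩ := (hES.two.to_le (fun x hx => ((hmemR x).mp hx).1 : R ≤ Q)) ⟨p, hp⟩
        have hk' : p ^ (2 ^ k) = 1 := by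
          have := congrArg Subtype.val hk
          simpa using this
        have h3 : (p * a) ^ (2 ^ k) = 1 := by
          rw [← h2, conj_pow, hk']; group
        have hcm : Commute p a := (((hmemR p).mp hp).2 a h1).symm
        rw [hcm.mul_pow, hk', one_mul] at h3
        rw [h2, eq_one_of_pow_two_pow hAodd h1 k h3, mul_one]
      obtain ⟨c, hcA, a, ha, rfl⟩ := hdecomp x hxM
      have hcR : ∀ p ∈ R, p * c = c * p := by
        intro p hp
        have h1 := hxc p hp
        have h2 : a * p = p * a := ((hmemR p).mp hp).2 a ha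
        have h3 : c * p * c⁻¹ = p := by
          calc c * p * c⁻¹ = c * (p * a) * a⁻¹ * c⁻¹ := by group
            _ = c * a * p * (c * a)⁻¹ := by rw [← h2]; group
            _ = p := h1
        calc p * c = (c * p * c⁻¹) * c := by rw [h3]
          _ = c * p := by group
      rcases hD c hcA hcR with h | h
      · left; exact A.mul_mem h ha
      · right
        rw [← mul_assoc]
        exact A.mul_mem h ha
    · intro x hxM hxz p hp
      obtain ⟨a, ha_def⟩ : ∃ a, a = x * z * x⁻¹ * z := ⟨_, rfl⟩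
      rw [← ha_def] at hxz
      have h1 : x * z * x⁻¹ = a * z := by
        rw [ha_def, mul_assoc _ z z, hES.z_sq, mul_one]
      have h2 : (a * z) * (a * z) = 1 := by
        rw [← h1]
        calc x * z * x⁻¹ * (x * z * x⁻¹) = x * (z * z) * x⁻¹ := by group
          _ = 1 := by rw [hES.z_sq]; group
      have h3 : a ^ (2 ^ 1) = 1 := by
        rw [pow_one, pow_two]
        calc a * a = a * a * (z * z) := by rw [hES.z_sq, mul_one]
          _ = a * (a * z) * z := by group
          _ = a * (z * a) * z := by rw [hAz a hxz]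
          _ = (a * z) * (a * z) := by group
          _ = 1 := h2
      have ha1 := eq_one_of_pow_two_pow hAodd hxz 1 h3
      rw [ha1, one_mul] at h1
      have hxz' : x * z = z * x := by
        calc x * z = (x * z * x⁻¹) * x := by group
          _ = z * x := by rw [h1]
      obtain ⟨hpQ, hpA⟩ := (hmemR p).mp hp
      refine (hmemR _).mpr ⟨hPD.norm x hxz' p hpQ, ?_⟩
      intro b hb
      obtain ⟨c, hcA, a0, ha0, rfl⟩ := hdecomp x hxM
      have h4 : (c * a0)⁻¹ * b * (c * a0) ∈ A := by
        have e : (c * a0)⁻¹ * b * (c * a0) = a0⁻¹ * b * a0 := by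
          calc (c * a0)⁻¹ * b * (c * a0) = a0⁻¹ * c⁻¹ * (b * c) * a0 := by group
            _ = a0⁻¹ * b * a0 := by rw [hcA b hb]; group
        rw [e]
        exact A.mul_mem (A.mul_mem (A.inv_mem ha0) hb) ha0
      have h5 := hpA _ h4
      calc b * (c * a0 * p * (c * a0)⁻¹)
          = (c * a0) * (((c * a0)⁻¹ * b * (c * a0)) * p) * (c * a0)⁻¹ := by group
        _ = (c * a0) * (p * ((c * a0)⁻¹ * b * (c * a0))) * (c * a0)⁻¹ := by rw [h5]
        _ = c * a0 * p * (c * a0)⁻¹ * b := by group
    · exact M.inv_mem (hCM (Subgroup.mem_centralizer_iff.mpr hxA))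
    · have e : (r' * r)⁻¹ * z * (r' * r)⁻¹⁻¹ = s := by
        rw [← hx]; group
      rw [e]
      exact hgR
    · have e : (r' * r)⁻¹ * z * (r' * r)⁻¹⁻¹ = s := by
        rw [← hx]; group
      rw [e]
      intro h
      have h1 := eq_one_of_mem_odd_of_mem_two hAodd hES.two h (Q.mul_mem hgQ hES.z_mem)
      apply hsz
      calc s = (s * z) * z⁻¹ := by group
        _ = z := by rw [h1, hES.z_inv, one_mul]
  · apply Subgroup.mul_mem
    · apply Subgroup.mem_sup_right
      exact Subgroup.mem_inf.mpr ⟨hr'Q, Subgroup.mem_centralizer_iff.mpr hr'A⟩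
    · apply Subgroup.mem_sup_left
      exact (hmemR r).mpr ⟨hrQ, hrA⟩

end Cfsg.Agent.S5428
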