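import Cfsg.Statements.S5429
import Cfsg.Agent.Lib.Helper90.Setting
import Cfsg.Agent.Lib.Helper90.Section
import Cfsg.Agent.Lib.Helper90.Pair

set_option autoImplicit false
open Cfsg
open Cfsg.Agent.Lib.Helper90

namespace Cfsg.Agent.S5429

/-- in `C_Q(t)` a non-central element is moved by `z`. -/
theorem exists_conj_in_centralizer {G : Type*} [Group G] {Q : Subgroup G} {z t s : G}
    (hES : ES Q z) (ht : t ∈ Q) (ht1 : t ≠ 1) (htz : t ≠ z) (htt : t * t = 1)
    (hs : s ∈ Q) (hs1 : s ≠ 1) (hsz : s ≠ z) (hst : s ≠ t) (hszt : s ≠ z * t) :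
    ∃ r ∈ Q, r * t = t * r ∧ r * s * r⁻¹ = z * s := by
  by_contra hcon
  push Not at hcon
  have h1 : ∀ p ∈ Q, p * t = t * p → s * p = p * s := by
    intro p hp hpt
    rcases hES.comm p hp s hs with h | h
    · exact h.symm
    · exfalso
      apply hcon p hp hpt
      rw [h]; group
  rcases hES.double_centralizer ht ht1 htz htt hs h1 with h | h | h | h
  · exact hs1 h
  · exact hsz h
  · exact hst h
  · exact hszt h

/-- Let z be an involution of the finite group G with centralizer C whose generalized Fitting subgroup Q is extraspecial of width at least 3 (order 2^(2w+1), w ≥ 3); let g be an element of G with g z g⁻¹ in Q but outside the centre Z of Q, and t an involution lying in both Q and g Q g⁻¹ that is not conjugate to z; write P for the centralizer of t in Q and suppose that the elements of C acting trivially by conjugation on P modulo the subgroup generated by t and z are exactly the elements of Q. Then the image of P in the centralizer of t modulo the subgroup generated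 by t is a large extraspecial 2-subgroup there, and g z g⁻¹ is conjugate to z inside the subgroup generated by P and the centralizer of t in g Q g⁻¹. -/
theorem result {G : Type*} [Group G] [Finite G] (z : G) (hz : orderOf z = 2) (Q : Subgroup G) (hQC : Q ≤ Subgroup.centralizer ({z} : Set G)) (hF : (Cfsg.generalizedFittingSubgroup ↥(Subgroup.centralizer ({z} : Set G))).map (Subgroup.centralizer ({z} : Set G)).subtype = Q) (hQ : Cfsg.IsExtraspecial 2 ↥Q) (w : ℕ) (hw : 3 ≤ w) (hcard : Nat.card ↥Q = 2 ^ (2 * w + 1)) (g : G) (hgQ : g * z * g⁻¹ ∈ Q) (hgZ : g * z * g⁻¹ ∉ ((Subgroup.center ↥Q).map Q.subtype)) (t : G) (ht : orderOf t = 2) (htQ : t ∈ Q ⊓ (Q).map (MulAut.conj g).toMonoidHom) (htz : ¬ IsConj z t) (P : Subgroup G) (hP : P = Q ⊓ Subgroup.centralizer ({t} : Set G)) (hCP : ∀ c ∈ Subgroup.centralizer ({z} : Set G), (∀ x ∈ P, ∃ y ∈ Subgroup.closure ({t, z} : Set G), c * x * c⁻¹ = x * y) ↔ c ∈ Q) [hn : ((Subgroup.zpowers t).subgroupOf (Subgroup.centralizer ({t} : Set G))).Normal]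 : Cfsg.IsLargeExtraspecial ((P.subgroupOf (Subgroup.centralizer ({t} : Set G))).map (QuotientGroup.mk' ((Subgroup.zpowers t).subgroupOf (Subgroup.centralizer ({t} : Set G))))) ∧ ∃ x ∈ P ⊔ ((Q).map (MulAut.conj g).toMonoidHom ⊓ Subgroup.centralizer ({t} : Set G)), x * (g * z * g⁻¹) * x⁻¹ = z := by
  obtain ⟨hES, hL2, hL3⟩ := setting_of_genFitting z hz Q hF hQ
  have hZmem := hES.mem_center_map_iff'
  have hsz : g * z * g⁻¹ ≠ z := fun h => hgZ ((hZmem _).mpr (Or.inr h))
  have hPD := PairData.of_large hES hL2 hL3 g hgQ hsz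
  have hsconj : IsConj z (g * z * g⁻¹) := isConj_iff.mpr ⟨g, rfl⟩
  obtain ⟨s, hs_def⟩ : ∃ s, s = g * z * g⁻¹ := ⟨_, rfl⟩
  obtain ⟨Q', hQ'_def⟩ : ∃ Q', Q' = Q.map (MulAut.conj g).toMonoidHom := ⟨_, rfl⟩
  rw [← hs_def, ← hQ'_def] at hPD
  rw [← hs_def] at hsz hsconj hgQ
  rw [← hQ'_def] at htQ
  rw [← hs_def, ← hQ'_def]
  obtain ⟨htQ1, htQ2⟩ := Subgroup.mem_inf.mp htQ
  have htt : t * t = 1 := by
    have := pow_orderOf_eq_one t
    rwa [ht, pow_two] at this
  have ht1 : t ≠ 1 := by
    intro h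
    rw [h, orderOf_one] at ht
    omega
  have htz' : t ≠ z := fun h => htz (h ▸ IsConj.refl _)
  have hts : t ≠ s := fun h => htz (h ▸ hsconj)
  have hmemP : ∀ x, x ∈ P ↔ x ∈ Q ∧ x * t = t * x := by
    intro x
    rw [hP, Subgroup.mem_inf, Subgroup.mem_centralizer_singleton_iff]
  -- conjugates of `z` avoid `t`, `z t`, `s t`
  have hnc1 : ∀ y, IsConj z y → y ≠ z * t := by
    intro y hy h
    obtain ⟨q0, -, hq0t⟩ := hES.exists_conj htQ1 ht1 htz'
    apply htz
    rw [h, ← hq0t] at hy
    exact hy.trans (isConj_iff.mpr ⟨q0⁻¹, by group⟩)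
  have hnc2 : ∀ y, IsConj z y → y ≠ s * t := by
    intro y hy h
    obtain ⟨q0, -, hq0t⟩ := hPD.es'.exists_conj htQ2 ht1 hts
    apply htz
    rw [h, ← hq0t] at hy
    exact hy.trans (isConj_iff.mpr ⟨q0⁻¹, by group⟩)
  have hzs : z * s = s * z := hPD.zs_comm
  have hss : s * s = 1 := hPD.es'.z_sq
  have hzt : z * t = t * z := (hES.z_comm t htQ1).symm
  have hst : s * t = t * s := (hPD.es'.z_comm t htQ2).symm
  obtain ⟨r, hrQ, hrt, hrs⟩ := exists_conj_in_centralizer hES htQ1 ht1 htz' htt hgQ hPD.es'.z_ne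
    hsz hts.symm (hnc1 s hsconj)
  obtain ⟨r', hr'Q, hr't, hr'z⟩ := exists_conj_in_centralizer hPD.es' htQ2 ht1 hts htt hPD.z_mem
    hES.z_ne hsz.symm htz'.symm (hnc2 z (IsConj.refl z))
  have hr's : r' * s * r'⁻¹ = s := by rw [hPD.es'.z_comm r' hr'Q]; group
  have hx : (r' * r) * s * (r' * r)⁻¹ = z := by
    calc (r' * r) * s * (r' * r)⁻¹ = r' * (r * s * r⁻¹) * r'⁻¹ := by group
      _ = (r' * z * r'⁻¹) * (r' * s * r'⁻¹) := by rw [hrs]; group
      _ = z * (s * s) := by rw [hr'z, hr's, ← hzs]; group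
      _ = z := by rw [hss, mul_one]
  have hxt : (r' * r) * t = t * (r' * r) := by
    calc (r' * r) * t = r' * (r * t) := by group
      _ = (r' * t) * r := by rw [hrt]; group
      _ = t * (r' * r) := by rw [hr't]; group
  have hzpow := mem_zpowers_iff_of_sq htt
  have hcent : ∀ x, x * z * x⁻¹ * z ∈ Subgroup.zpowers t → x * z = z * x := by
    intro x hx
    rcases (hzpow _).mp hx with h | h
    · calc x * z = (x * z * x⁻¹ * z) * (z⁻¹ * x) := by group
        _ = z * x := by rw [h, hES.z_inv, one_mul]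
    · exfalso
      apply hnc1 (x * z * x⁻¹) (isConj_iff.mpr ⟨x, rfl⟩)
      calc x * z * x⁻¹ = (x * z * x⁻¹ * z) * z⁻¹ := by group
        _ = z * t := by rw [h, hES.z_inv, hzt]
  refine ⟨?_, r' * r, ?_, hx⟩
  · refine large_section hES (Subgroup.centralizer ({t} : Set G)) (Subgroup.zpowers t) P
      (fun x hx => ((hmemP x).mp hx).1) ((hmemP z).mpr ⟨hES.z_mem, hzt⟩)
      (fun x hx => Subgroup.mem_centralizer_singleton_iff.mpr ((hmemP x).mp hx).2)
      (fun h => by
        rcases (hzpow z).mp h with h | h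
        · exact hES.z_ne h
        · exact htz' h.symm) ?_ ?_ (r' * r)⁻¹ ?_ ?_ ?_
    · intro x hxT hxP
      rw [Subgroup.mem_centralizer_singleton_iff] at hxT
      have hxz : x * z = z * x := by
        apply hcent
        have h1 := hxP z ((hmemP z).mpr ⟨hES.z_mem, hzt⟩)
        have h2 := Subgroup.inv_mem _ h1
        have e : (z * x * z⁻¹ * x⁻¹)⁻¹ = x * z * x⁻¹ * z⁻¹ := by group
        rwa [e, hES.z_inv] at h2
      have hxQ : x ∈ Q := by
        rw [← hCP x (Subgroup.mem_centralizer_singleton_iff.mpr hxz)]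
        intro p hp
        rcases (hzpow _).mp (hxP p hp) with h | h
        · refine ⟨1, Subgroup.one_mem _, ?_⟩
          calc x * p * x⁻¹ = (p * x * p⁻¹ * x⁻¹)⁻¹ * p := by group
            _ = p * 1 := by rw [h]; group
        · refine ⟨t, Subgroup.subset_closure (by simp), ?_⟩
          have htinv : t⁻¹ = t := inv_eq_of_mul_eq_one_right htt
          calc x * p * x⁻¹ = (p * x * p⁻¹ * x⁻¹)⁻¹ * p := by group
            _ = p * t := by rw [h, htinv, ((hmemP p).mp hp).2]
      have hxc : ∀ p ∈ Q, p * t = t * p → x * p = p * x := by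
        intro p hp hpt
        rcases hES.comm p hp x hxQ with h | h
        · exact h.symm
        · exfalso
          have h1 := hxP p ((hmemP p).mpr ⟨hp, hpt⟩)
          have e : p * x * p⁻¹ * x⁻¹ = z := by rw [h]; group
          rw [e] at h1
          rcases (hzpow z).mp h1 with h | h
          · exact hES.z_ne h
          · exact htz' h.symm
      rcases hES.double_centralizer htQ1 ht1 htz' htt hxQ hxc with h | h | h | h
      · left; rw [h]; exact Subgroup.one_mem _
      · right; rw [h, hES.z_sq]; exact Subgroup.one_mem _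
      · left; rw [h]; exact Subgroup.mem_zpowers _
      · right
        rw [h, ← mul_assoc, hES.z_sq, one_mul]; exact Subgroup.mem_zpowers _
    · intro x hxT hxz p hp
      rw [Subgroup.mem_centralizer_singleton_iff] at hxT
      obtain ⟨hpQ, hpt⟩ := (hmemP p).mp hp
      refine (hmemP _).mpr ⟨hPD.norm x (hcent x hxz) p hpQ, ?_⟩
      have hxT' : x⁻¹ * t = t * x⁻¹ := by
        calc x⁻¹ * t = x⁻¹ * (t * x) * x⁻¹ := by group
          _ = x⁻¹ * (x * t) * x⁻¹ := by rw [hxT]
          _ = t * x⁻¹ := by group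
      calc x * p * x⁻¹ * t = x * p * (x⁻¹ * t) := by group
        _ = x * (p * t) * x⁻¹ := by rw [hxT']; group
        _ = (x * t) * p * x⁻¹ := by rw [hpt]; group
        _ = t * (x * p * x⁻¹) := by rw [hxT]; group
    · exact Subgroup.inv_mem _ (Subgroup.mem_centralizer_singleton_iff.mpr hxt)
    · have e : (r' * r)⁻¹ * z * (r' * r)⁻¹⁻¹ = s := by
        rw [← hx]; group
      rw [e]
      exact (hmemP s).mpr ⟨hgQ, hst⟩
    · have e : (r' * r)⁻¹ * z * (r' * r)⁻¹⁻¹ = s := by
        rw [← hx]; group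
      rw [e]
      intro h
      rcases (hzpow _).mp h with h | h
      · apply hsz
        calc s = (s * z) * z⁻¹ := by group
          _ = z := by rw [h, hES.z_inv, one_mul]
      · apply hnc1 s hsconj
        calc s = (s * z) * z⁻¹ := by group
          _ = z * t := by rw [h, hES.z_inv, hzt]
  · apply Subgroup.mul_mem
    · apply Subgroup.mem_sup_right
      exact Subgroup.mem_inf.mpr ⟨hr'Q, Subgroup.mem_centralizer_singleton_iff.mpr hr't⟩
    · apply Subgroup.mem_sup_left
      exact (hmemP r).mpr ⟨hrQ, hrt⟩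

end Cfsg.Agent.S5429
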