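import Cfsg.Statements.S5430
import Cfsg.Agent.Lib.Helper90.PairIndex

set_option autoImplicit false
open Cfsg
open Cfsg.Agent.Lib.Helper90

namespace Cfsg.Agent.S5430

theorem result {G : Type*} [Group G] [Finite G] (Q : Subgroup G) (hQ : Cfsg.IsLargeExtraspecial Q) (z : G) (hz : ((Subgroup.center ↥Q).map Q.subtype) = Subgroup.zpowers z) (hz2 : orderOf z = 2) (w : ℕ) (hw : 2 ≤ w) (hcard : Nat.card ↥Q = 2 ^ (2 * w + 1)) (g : G) (hgH : g ∉ Subgroup.centralizer ({z} : Set G)) (hgQ : g * z * g⁻¹ ∈ Q) (V X R E : Subgroup G) (hV : V = Subgroup.closure ({z, g * z * g⁻¹} : Set G)) (hX : X = Q ⊔ (Q).map (MulAut.conj g).toMonoidHom) (hR : R = ((Q).map (MulAut.conj g).toMonoidHom ⊓ Subgroup.centralizer ({z} : Set G)) ⊔ (Q ⊓ Subgroup.centralizer ({g * z * g⁻¹} : Set G))) (hE : E = Q ⊓ (Q).map (MulAut.conj g).toMonoidHom) : R = X ⊓ Subgroup.centralizer (V : Set G) ∧ R = (Cfsg.pCore 2 ↥X).map X.subtype ∧ (∃ h : (R.subgroupOf X).Normal, Nonempty (↥X ⧸ R.subgroupOf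 X ≃* Equiv.Perm (Fin 3))) ∧ Subgroup.normalizer (V : Set G) = X ⊔ (Subgroup.centralizer ({z} : Set G) ⊓ Subgroup.centralizer (V : Set G)) ∧ (∀ y ∈ Subgroup.normalizer (V : Set G), ∀ x ∈ X, y * x * y⁻¹ ∈ X) ∧ R ≤ Subgroup.centralizer ({z} : Set G) ⊓ Subgroup.centralizer (V : Set G) ∧ (∀ x ∈ X, ∀ c ∈ Subgroup.centralizer ({z} : Set G) ⊓ Subgroup.centralizer (V : Set G), x * c * x⁻¹ * c⁻¹ ∈ R) ∧ X ⊓ (Subgroup.centralizer ({z} : Set G) ⊓ Subgroup.centralizer (V : Set G)) = R := by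
  have : Fact (Nat.Prime 2) := ⟨Nat.prime_two⟩
  obtain ⟨hL1, hL2, hL3, -⟩ := hQ
  obtain ⟨z0, hES, hZmem⟩ := ES.of_isExtraspecial hL1
  have hz1 : z ≠ 1 := by
    intro h; rw [h, orderOf_one] at hz2; omega
  have hzz0 : z = z0 := by
    have h1 : z ∈ (Subgroup.center ↥Q).map Q.subtype := by rw [hz]; exact Subgroup.mem_zpowers z
    exact ((hZmem z).mp h1).resolve_left hz1
  subst hzz0
  have hsz : g * z * g⁻¹ ≠ z := by
    intro h
    apply hgH
    rw [Subgroup.mem_centralizer_singleton_iff]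
    calc g * z = (g * z * g⁻¹) * g := by group
      _ = z * g := by rw [h]
  have hPD := PairData.of_large hES hL2 hL3 g hgQ hsz
  obtain ⟨s, hs_def⟩ : ∃ s, s = g * z * g⁻¹ := ⟨_, rfl⟩
  obtain ⟨Q', hQ'⟩ : ∃ Q' : Subgroup G, Q' = Q.map (MulAut.conj g).toMonoidHom := ⟨_, rfl⟩
  rw [← hs_def, ← hQ'] at hPD
  rw [← hs_def] at hV hR hgQ hsz
  rw [← hQ'] at hX hR hE
  have hFour := hPD.four V hV
  obtain ⟨q, hq, hqs⟩ := hPD.es.exists_conj hPD.s_mem hPD.es'.z_ne hPD.ne.symm
  obtain ⟨q', hq', hq'z⟩ := hPD.es'.exists_conj hPD.z_mem hPD.es.z_ne hPD.ne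
  rw [← hPD.zs_comm] at hq'z
  have hqz : q * z * q⁻¹ = z := by rw [hPD.es.z_comm q hq]; group
  have hq's : q' * s * q'⁻¹ = s := by rw [hPD.es'.z_comm q' hq']; group
  have hQX : Q ≤ X := by rw [hX]; exact le_sup_left
  have hQ'X : Q' ≤ X := by rw [hX]; exact le_sup_right
  have hXNV : X ≤ Subgroup.normalizer (V : Set G) := by
    rw [hX]; exact sup_le (hPD.Q_le_normalizer_V hFour) (hPD.Q'_le_normalizer_V hFour)
  have hRX : R ≤ X := by rw [hR, hX]; exact hPD.R_le_X
  have hXNR : X ≤ Subgroup.normalizer (R : Set G) := by rw [hR, hX]; exact hPD.X_le_normalizer_R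
  have hRC : R ≤ Subgroup.centralizer (V : Set G) := by
    intro r hr
    exact (hFour.mem_centralizer_iff r).mpr (hPD.R_comm (hR ▸ hr))
  have hCz : Subgroup.centralizer (V : Set G) ≤ Subgroup.centralizer ({z} : Set G) := by
    intro c hc
    exact Subgroup.mem_centralizer_singleton_iff.mpr ((hFour.mem_centralizer_iff c).mp hc).1
  have hsurj := hFour.rho_comp_surjective X hXNV q q' (hQX hq) (hQ'X hq') hqz hqs hq's hq'z
  have hker := hFour.rho_comp_ker X hXNV
  -- index computation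
  have hidxC : ((Subgroup.centralizer (V : Set G)).subgroupOf X).index = 6 := by
    rw [← hker, Subgroup.index_ker, MonoidHom.range_eq_top.mpr hsurj, Subgroup.card_top,
      Nat.card_eq_fintype_card, Fintype.card_perm, Fintype.card_fin]
    rfl
  have hidxR := hPD.index_R_le hs_def hQ' X R hX hR
  have hle' : R.subgroupOf X ≤ (Subgroup.centralizer (V : Set G)).subgroupOf X := by
    intro x hx
    exact Subgroup.mem_subgroupOf.mpr (hRC (Subgroup.mem_subgroupOf.mp hx))
  have heq' : R.subgroupOf X = (Subgroup.centralizer (V : Set G)).subgroupOf X := by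
    apply le_antisymm hle'
    rw [← Subgroup.relIndex_eq_one]
    have h1 := Subgroup.relIndex_mul_index hle'
    rw [hidxC] at h1
    have h2 : (R.subgroupOf X).index ≠ 0 := Subgroup.index_ne_zero_of_finite
    omega
  have h1 : R = X ⊓ Subgroup.centralizer (V : Set G) := by
    apply le_antisymm (le_inf hRX hRC)
    intro x hx
    have h2 : (⟨x, hx.1⟩ : X) ∈ (Subgroup.centralizer (V : Set G)).subgroupOf X :=
      Subgroup.mem_subgroupOf.mpr hx.2
    rw [← heq'] at h2
    exact Subgroup.mem_subgroupOf.mp h2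
  have hnorm : (R.subgroupOf X).Normal := (Subgroup.normal_subgroupOf_iff_le_normalizer hRX).mpr hXNR
  have hR2 : IsPGroup 2 R := by
    rw [hR]
    apply IsPGroup.to_sup_of_normal_right' (hPD.es'.two.to_le inf_le_left) (hPD.es.two.to_le inf_le_left)
    intro p hp
    apply mem_normalizer_of_conj_mem
    intro v hv
    obtain ⟨hpQ, hpz⟩ := (hPD.mem_P' p).mp hp
    obtain ⟨hvQ, hvs⟩ := (hPD.mem_P v).mp hv
    rw [hPD.mem_P]
    refine ⟨hPD.norm p hpz v hvQ, ?_⟩
    have hps : p * s = s * p := hPD.es'.z_comm p hpQ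
    have hps' : p⁻¹ * s = s * p⁻¹ := hPD.es'.z_comm _ (Q'.inv_mem hpQ)
    calc p * v * p⁻¹ * s = p * v * (p⁻¹ * s) := by group
      _ = p * (v * s) * p⁻¹ := by rw [hps']; group
      _ = (p * s) * v * p⁻¹ := by rw [hvs]; group
      _ = s * (p * v * p⁻¹) := by rw [hps]; group
  -- C(z) ∩ C(V) normalises X
  have hCnX : ∀ c ∈ Subgroup.centralizer (V : Set G), ∀ x ∈ X, c * x * c⁻¹ ∈ X := by
    intro c hc
    obtain ⟨hcz, hcs⟩ := (hFour.mem_centralizer_iff c).mp hc
    have hle : X ≤ X.comap (MulAut.conj c).toMonoidHom := by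
      conv_lhs => rw [hX]
      apply sup_le
      · intro a ha
        rw [Subgroup.mem_comap]
        simpa using hQX (hPD.norm c hcz a ha)
      · intro a ha
        rw [Subgroup.mem_comap]
        simpa using hQ'X (hPD.norm' c hcs a ha)
    intro x hx
    have := hle hx
    rw [Subgroup.mem_comap] at this
    simpa using this
  have h4 : Subgroup.normalizer (V : Set G) = X ⊔ (Subgroup.centralizer ({z} : Set G) ⊓ Subgroup.centralizer (V : Set G)) := by
    apply le_antisymm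
    · intro n hn
      obtain ⟨x, hx⟩ := hsurj (hFour.rho ⟨n, hn⟩)
      have h5 : (Subgroup.inclusion hXNV x)⁻¹ * ⟨n, hn⟩ ∈ hFour.rho.ker := by
        rw [MonoidHom.mem_ker, map_mul, map_inv, ← hx]
        simp
      rw [hFour.rho_ker, Subgroup.mem_subgroupOf] at h5
      have h6 : (x : G)⁻¹ * n ∈ Subgroup.centralizer (V : Set G) := by simpa using h5
      have h7 : n = (x : G) * ((x : G)⁻¹ * n) := by group
      rw [h7]
      exact Subgroup.mul_mem _ (le_sup_left (a := X) x.2)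
        (le_sup_right (a := X) (Subgroup.mem_inf.mpr ⟨hCz h6, h6⟩))
    · exact sup_le hXNV (inf_le_right.trans (Subgroup.centralizer_le_normalizer _))
  refine ⟨h1, ?_, ⟨hnorm, ?_⟩, h4, ?_, le_inf (hRC.trans hCz) hRC, ?_, ?_⟩
  · -- O_2(X)
    apply le_antisymm
    · intro r hr
      exact ⟨⟨r, hRX hr⟩, le_pCore (R.subgroupOf X) hR2.comap_subtype (Subgroup.mem_subgroupOf.mpr hr), rfl⟩
    · rintro _ ⟨x, hx, rfl⟩
      have hN : ((Cfsg.pCore 2 ↥X).map (hFour.rho.comp (Subgroup.inclusion hXNV))).Normal :=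
        Subgroup.Normal.map inferInstance _ hsurj
      have hbot := normal_two_subgroup_perm_three _ ((pCore_isPGroup 2 (G := X)).map
        (hFour.rho.comp (Subgroup.inclusion hXNV)))
      have h5 : (hFour.rho.comp (Subgroup.inclusion hXNV)) x ∈
          (Cfsg.pCore 2 ↥X).map (hFour.rho.comp (Subgroup.inclusion hXNV)) :=
        Subgroup.mem_map_of_mem _ hx
      rw [hbot, Subgroup.mem_bot, ← MonoidHom.mem_ker, hker, ← heq'] at h5
      exact Subgroup.mem_subgroupOf.mp h5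
  · obtain ⟨_, ⟨e⟩⟩ := hFour.quotient_equiv_perm X hXNV q q' (hQX hq) (hQ'X hq') hqz hqs hq's hq'z
    exact ⟨(QuotientGroup.quotientMulEquivOfEq heq').trans e⟩
  · have hle : Subgroup.normalizer (V : Set G) ≤ Subgroup.normalizer (X : Set G) := by
      rw [h4]
      apply sup_le Subgroup.le_normalizer
      intro c hc
      exact mem_normalizer_of_conj_mem _ _ (hCnX c hc.2)
    intro y hy x hx
    exact (Subgroup.mem_normalizer_iff.mp (hle hy) x).mp hx
  · intro x hx c hc
    rw [h1]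
    constructor
    · have h5 := hCnX c hc.2 x⁻¹ (X.inv_mem hx)
      have := X.mul_mem hx h5
      have e : x * (c * x⁻¹ * c⁻¹) = x * c * x⁻¹ * c⁻¹ := by group
      rwa [e] at this
    · apply Subgroup.mul_mem _ _ (Subgroup.inv_mem _ hc.2)
      rw [Subgroup.mem_centralizer_iff]
      intro v hv
      have hxN := hXNV hx
      have h5 : x⁻¹ * v * x ∈ V := by
        rw [Subgroup.mem_normalizer_iff.mp hxN]
        have e : x * (x⁻¹ * v * x) * x⁻¹ = v := by group
        rw [e]; exact hv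
      have h6 := Subgroup.mem_centralizer_iff.mp hc.2 _ h5
      calc v * (x * c * x⁻¹) = x * ((x⁻¹ * v * x) * c) * x⁻¹ := by group
        _ = x * (c * (x⁻¹ * v * x)) * x⁻¹ := by rw [h6]
        _ = x * c * x⁻¹ * v := by group
  · rw [h1]
    apply le_antisymm
    · exact inf_le_inf_left _ inf_le_right
    · exact inf_le_inf_left _ (le_inf hCz le_rfl)

end Cfsg.Agent.S5430
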