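import Cfsg.Statements.S5431
import Cfsg.Agent.Lib.Helper90.PairStructure

set_option autoImplicit false
open Cfsg
open Cfsg.Agent.Lib.Helper90
open scoped commutatorElement

namespace Cfsg.Agent.S5431

theorem result {G : Type*} [Group G] [Finite G] (Q : Subgroup G) (hQ : Cfsg.IsLargeExtraspecial Q) (z : G) (hz : ((Subgroup.center ↥Q).map Q.subtype) = Subgroup.zpowers z) (hz2 : orderOf z = 2) (w : ℕ) (hw : 2 ≤ w) (hcard : Nat.card ↥Q = 2 ^ (2 * w + 1)) (g : G) (hgH : g ∉ Subgroup.centralizer ({z} : Set G)) (hgQ : g * z * g⁻¹ ∈ Q) (V X R E : Subgroup G) (hV : V = Subgroup.closure ({z, g * z * g⁻¹} : Set G)) (hX : X = Q ⊔ (Q).map (MulAut.conj g).toMonoidHom) (hR : R = ((Q).map (MulAut.conj g).toMonoidHom ⊓ Subgroup.centralizer ({z} : Set G)) ⊔ (Q ⊓ Subgroup.centralizer ({g * z * g⁻¹} : Set G))) (hE : E = Q ⊓ (Q).map (MulAut.conj g).toMonoidHom) : (Subgroup.center ↥R).map R.subtype = V ∧ E ≤ (Subgroup.upperCentralSeries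 ↥R 2).map R.subtype ∧ Subgroup.upperCentralSeries ↥R 3 = ⊤ ∧ Cfsg.IsElementaryAbelian 2 E ∧ (∀ x ∈ R, ∀ y ∈ R, x * y * x⁻¹ * y⁻¹ ∈ E ∧ x ^ 2 ∈ E) ∧ ((Q).map (MulAut.conj g).toMonoidHom ⊓ Subgroup.centralizer ({z} : Set G)) ⊓ (Q ⊓ Subgroup.centralizer ({g * z * g⁻¹} : Set G)) = E ∧ ⁅X, E⁆ ≤ V := by
  obtain ⟨hL1, hL2, hL3, -⟩ := hQ
  obtain ⟨z0, hES, hZmem⟩ := ES.of_isExtraspecial hL1
  have hz1 : z ≠ 1 := by
    intro h; rw [h, orderOf_one] at hz2; omega
  have hzz0 : z = z0 := by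
    have h1 : z ∈ (Subgroup.center ↥Q).map Q.subtype := by rw [hz]; exact Subgroup.mem_zpowers z
    exact ((hZmem z).mp h1).resolve_left hz1
  subst hzz0
  have hsz : g * z * g⁻¹ ≠ z := by
    intro h
    apply hgH
    rw [Subgroup.mem_centralizer_singleton_iff]
    calc g * z = (g * z * g⁻¹) * g := by group
      _ = z * g := by rw [h]
  have hPD := PairData.of_large hES hL2 hL3 g hgQ hsz
  obtain ⟨s, hs_def⟩ : ∃ s, s = g * z * g⁻¹ := ⟨_, rfl⟩
  obtain ⟨Q', hQ'⟩ : ∃ Q' : Subgroup G, Q' = Q.map (MulAut.conj g).toMonoidHom := ⟨_, rfl⟩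
  rw [← hs_def, ← hQ'] at hPD
  rw [← hs_def] at hV hR hgQ hsz ⊢
  rw [← hQ'] at hX hR hE ⊢
  have hFour := hPD.four V hV
  have hs1 : s ≠ 1 := hPD.es'.z_ne
  have hss : s * s = 1 := hPD.es'.z_sq
  have hER : E ≤ R := by
    rw [hE, hR]; exact hPD.E_le_P.trans le_sup_right
  -- centre of R
  have hcenter : ∀ y, y ∈ (Subgroup.center ↥R).map R.subtype ↔ y ∈ V := by
    intro y
    rw [mem_center_map_iff]
    constructor
    · rintro ⟨-, hc⟩
      rw [hFour.mem]
      apply hES.centralizer_centralizer hL2 hL3 hgQ hs1 hsz hss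
      intro p hp hps
      have hpR : p ∈ R := by
        rw [hR]
        exact le_sup_right (a := Q' ⊓ Subgroup.centralizer ({z} : Set G)) ((hPD.mem_P p).mpr ⟨hp, hps⟩)
      exact (hc p hpR).symm
    · intro hy
      have hVE : y ∈ E := by
        rw [hE]
        rcases (hFour.mem y).mp hy with rfl | rfl | rfl | rfl
        · exact Subgroup.one_mem _
        · exact hPD.z_mem_E
        · exact hPD.s_mem_E
        · exact Subgroup.mul_mem _ hPD.z_mem_E hPD.s_mem_E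
      refine ⟨hER hVE, ?_⟩
      intro r hr
      rw [hR] at hr
      have h1 := (hFour.mem_centralizer_iff r).mpr (hPD.R_comm hr)
      exact (Subgroup.mem_centralizer_iff.mp h1 y hy).symm
  have hcomm : ∀ x ∈ R, ∀ y ∈ R, x * y * x⁻¹ * y⁻¹ ∈ E := by
    intro x hx y hy
    rw [hR] at hx hy
    rw [hE]
    exact hPD.comm_RR hx hy
  have hZ2 : ∀ e (he : e ∈ E), (⟨e, hER he⟩ : R) ∈ Subgroup.upperCentralSeries ↥R 2 := by
    intro e he
    rw [Subgroup.mem_upperCentralSeries_succ_iff]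
    intro y
    rw [Subgroup.upperCentralSeries_one]
    have h1 : e * (y : G) * e⁻¹ * (y : G)⁻¹ ∈ V := by
      apply comm_swap_mem
      have hyX : (y : G) ∈ Q ⊔ Q' := hPD.R_le_X (hR ▸ y.2)
      exact hPD.comm_XE hFour hyX (hE ▸ he)
    rw [← hcenter] at h1
    obtain ⟨c, hc, hc'⟩ := h1
    have : c = ⁅(⟨e, hER he⟩ : R), y⁆ := by
      ext
      rw [← Subgroup.subtype_apply, hc']
      simp [commutatorElement_def]
    rw [← this]; exact hc
  refine ⟨?_, ?_, ?_, ?_, ?_, ?_, ?_⟩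
  · ext y; exact hcenter y
  · intro e he
    exact ⟨⟨e, hER he⟩, hZ2 e he, rfl⟩
  · rw [eq_top_iff]
    intro x _
    rw [Subgroup.mem_upperCentralSeries_succ_iff]
    intro y
    have h1 := hcomm x x.2 y y.2
    have h2 := hZ2 _ h1
    have : (⟨(x : G) * y * (x : G)⁻¹ * (y : G)⁻¹, hER h1⟩ : R) = ⁅x, y⁆ := by
      ext
      simp [commutatorElement_def]
    rw [← this]; exact h2
  · constructor
    · constructor
      constructor
      intro a b
      ext
      exact hPD.E_comm (hE ▸ a.2) (hE ▸ b.2)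
    · intro a ha
      rw [pow_two]
      exact hPD.E_sq (hE ▸ ha)
  · intro x hx y hy
    refine ⟨hcomm x hx y hy, ?_⟩
    rw [pow_two, hE]
    exact hPD.sq_R (hR ▸ hx)
  · rw [hE]
    apply le_antisymm
    · intro y hy
      exact ⟨hy.2.1, hy.1.1⟩
    · intro y hy
      exact ⟨(hPD.mem_P' y).mpr ⟨hy.2, hES.z_comm y hy.1⟩, hPD.E_le_P hy⟩
  · rw [Subgroup.commutator_le]
    intro x hx e he
    rw [commutatorElement_def]
    exact hPD.comm_XE hFour (hX ▸ hx) (hE ▸ he)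

end Cfsg.Agent.S5431
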