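import Cfsg.Statements.S5434
import Cfsg.Agent.Lib.Helper90.ESConverse
import Cfsg.Agent.S0026
import Cfsg.Agent.S0027

set_option autoImplicit false
open Cfsg
open Cfsg.Agent.Lib.Helper90

namespace Cfsg.Agent.S5434

theorem result {G : Type*} [Group G] [Finite G] (Q : Subgroup G) (hQ : Cfsg.IsLargeExtraspecial Q) (A : Subgroup G) (hA : A ≤ Subgroup.normalizer (Q : Set G)) (hAodd : Odd (Nat.card ↥A)) (hA1 : A ≠ ⊥) : (Q ⊓ Subgroup.centralizer (A : Set G)) ⊔ ⁅Q, A⁆ = Q ∧ (∀ x ∈ Q ⊓ Subgroup.centralizer (A : Set G), ∀ y ∈ ⁅Q, A⁆, x * y = y * x) ∧ Cfsg.IsExtraspecial 2 ↥⁅Q, A⁆ ∧ (Q ⊓ Subgroup.centralizer (A : Set G) = ((Subgroup.center ↥Q).map Q.subtype) ∨ Cfsg.IsExtraspecial 2 ↥(Q ⊓ Subgroup.centralizer (A : Set G))) := by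
  have : Fact (Nat.Prime 2) := ⟨Nat.prime_two⟩
  obtain ⟨hL1, hL2, hL3, -⟩ := hQ
  obtain ⟨z, hES, hZmem⟩ := ES.of_isExtraspecial hL1
  have hcop : (Nat.card A).Coprime (Nat.card Q) := by
    obtain ⟨n, hn⟩ := IsPGroup.iff_card.mp hES.two
    rw [hn]
    apply Nat.Coprime.pow_right
    exact (Nat.coprime_two_right).mpr hAodd
  have hsolv : Group.IsSolvable A ∨ Group.IsSolvable Q := by
    right
    have := hES.two.isNilpotent
    infer_instance
  have h26 := Cfsg.Agent.S0026.result A Q hA hcop hsolv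
  have h27 := Cfsg.Agent.S0027.result A Q hA hcop hsolv
  obtain ⟨C, hC⟩ : ∃ C : Subgroup G, C = Q ⊓ Subgroup.centralizer (A : Set G) := ⟨_, rfl⟩
  obtain ⟨R, hR⟩ : ∃ R : Subgroup G, R = ⁅Q, A⁆ := ⟨_, rfl⟩
  rw [← hC, ← hR] at h26 ⊢
  rw [← hR] at h27
  -- A centralises z
  have hAz : ∀ a ∈ A, a * z = z * a := by
    intro a ha
    have haN := hA ha
    have h1 : a * z * a⁻¹ ∈ Q := (Subgroup.mem_normalizer_iff.mp haN z).mp hES.z_mem
    have h2 : ∀ q ∈ Q, q * (a * z * a⁻¹) = (a * z * a⁻¹) * q := by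
      intro q hq
      have h3 : a⁻¹ * q * a ∈ Q := by
        rw [Subgroup.mem_normalizer_iff.mp haN]
        have e : a * (a⁻¹ * q * a) * a⁻¹ = q := by group
        rw [e]; exact hq
      have h4 := hES.z_comm _ h3
      calc q * (a * z * a⁻¹) = a * ((a⁻¹ * q * a) * z) * a⁻¹ := by group
        _ = a * (z * (a⁻¹ * q * a)) * a⁻¹ := by rw [h4]
        _ = _ := by group
    rcases hES.center _ h1 h2 with h3 | h3
    · exfalso
      apply hES.z_ne
      have := congrArg (fun w => a⁻¹ * w * a) h3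
      simpa [mul_assoc] using this
    · calc a * z = (a * z * a⁻¹) * a := by group
        _ = z * a := by rw [h3]
  have hZA : ⁅(Subgroup.center ↥Q).map Q.subtype, A⁆ = ⊥ := by
    rw [Subgroup.commutator_eq_bot_iff_le_centralizer]
    intro y hy
    rw [Subgroup.mem_centralizer_iff]
    intro a ha
    rcases (hZmem y).mp hy with rfl | rfl
    · simp
    · exact hAz a ha
  have hCQ : C ≤ Q := by rw [hC]; exact inf_le_left
  have hRC : ⁅R, C⁆ = ⊥ := by
    rw [hR]
    apply Subgroup.commutator_commutator_eq_bot_of_rotate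
    · have : ⁅A, C⁆ = ⊥ := by
        rw [Subgroup.commutator_comm, Subgroup.commutator_eq_bot_iff_le_centralizer, hC]
        exact inf_le_right
      rw [this]
      exact Subgroup.commutator_bot_left _
    · have h1 : ⁅C, Q⁆ ≤ (Subgroup.center ↥Q).map Q.subtype := by
        rw [Subgroup.commutator_le]
        intro c hc q hq
        rw [hZmem, commutatorElement_def]
        rcases hES.comm c (hCQ hc) q hq with h | h
        · left; rw [h]; group
        · right; rw [h]; group
      rw [eq_bot_iff, ← hZA]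
      exact Subgroup.commutator_mono h1 le_rfl
  have hcomm : ∀ x ∈ R, ∀ y ∈ C, x * y = y * x := by
    rw [Subgroup.commutator_eq_bot_iff_le_centralizer] at hRC
    intro x hx y hy
    exact (Subgroup.mem_centralizer_iff.mp (hRC hx) y hy).symm
  have hnonabR : ∃ x ∈ R, ∃ y ∈ R, x * y ≠ y * x := by
    by_contra hcon
    push Not at hcon
    have h1 := hES.central_factor_abelian R C h26 hcomm hcon
    have h2 : R ≤ (Subgroup.center ↥Q).map Q.subtype := fun y hy => (hZmem y).mpr (h1 y hy)
    have h3 : R = ⊥ := by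
      rw [eq_bot_iff, ← h27, ← hZA]
      exact Subgroup.commutator_mono h2 le_rfl
    rw [hR, Subgroup.commutator_comm, Subgroup.commutator_eq_bot_iff_le_centralizer, hL2] at h3
    apply hA1
    rw [eq_bot_iff]
    intro a ha
    have haQ : a ∈ Q := ((mem_center_map_iff Q a).mp (h3 ha)).1
    exact Subgroup.mem_bot.mpr (eq_one_of_mem_odd_of_mem_two hAodd hES.two ha haQ)
  refine ⟨by rw [sup_comm]; exact h26, fun x hx y hy => (hcomm y hy x hx).symm,
    (hES.central_factor R C h26 hcomm hnonabR).isExtraspecial, ?_⟩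
  by_cases hab : ∀ x ∈ C, ∀ y ∈ C, x * y = y * x
  · left
    have h1 := hES.central_factor_abelian C R (by rw [sup_comm]; exact h26)
      (fun x hx y hy => (hcomm y hy x hx).symm) hab
    apply le_antisymm
    · exact fun y hy => (hZmem y).mpr (h1 y hy)
    · intro y hy
      rcases (hZmem y).mp hy with rfl | rfl
      · exact Subgroup.one_mem _
      · rw [hC]
        refine Subgroup.mem_inf.mpr ⟨hES.z_mem, ?_⟩
        rw [Subgroup.mem_centralizer_iff]
        intro a ha
        exact hAz a ha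
  · right
    push Not at hab
    exact (hES.central_factor C R (by rw [sup_comm]; exact h26)
      (fun x hx y hy => (hcomm y hy x hx).symm) hab).isExtraspecial

end Cfsg.Agent.S5434
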