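import Cfsg.Statements.S5435
import Cfsg.Agent.S0215
import Cfsg.Agent.Lib.Helper2.PGroupFrattini
import Cfsg.Agent.Lib.Helper11.Basic2
import Cfsg.Agent.Lib.Helper31.ThompsonTransfer
import Cfsg.Agent.Lib.Helper47.Frat
import Cfsg.Agent.Lib.Helper73.DihedralRec
import Cfsg.Agent.Lib.Helper55.Involutions

set_option autoImplicit false
open Cfsg

namespace Cfsg.Agent.S5435

open Subgroup Cfsg.Agent.Lib.Helper55
open scoped commutatorElement

theorem mem_zpowers_involution {G : Type*} [Group G] {z x : G} (hz : orderOf z = 2) :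
    x ∈ zpowers z ↔ x = 1 ∨ x = z := by
  constructor
  · rintro ⟨k, rfl⟩
    have h2 : z ^ (2 : ℤ) = 1 := by
      have := pow_orderOf_eq_one z
      rw [hz] at this
      exact_mod_cast this
    rcases Int.even_or_odd' k with ⟨m, rfl | rfl⟩
    · left; show z ^ (2 * m) = 1; rw [zpow_mul, h2, one_zpow]
    · right; show z ^ (2 * m + 1) = z; rw [zpow_add, zpow_mul, h2, one_zpow, one_mul, zpow_one]
  · rintro (rfl | rfl)
    · exact one_mem _
    · exact mem_zpowers _

theorem nonempty_d8 {R : Type*} [Group R] [Finite R] (a b z : R) (hz1 : z ≠ 1) (hzz : z * z = 1)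
    (ha : a * a = z) (hb : b * b = 1) (hba : b * a * b⁻¹ = a * z) (hcard : Nat.card R ≤ 8) :
    Nonempty (R ≃* DihedralGroup 4) := by
  have ha4 : orderOf a = 4 := by
    have := orderOf_eq_prime_pow (p := 2) (n := 1) (x := a) (by
      rw [pow_one, pow_two, ha]; exact hz1) (by
      have : a ^ 2 ^ (1 + 1) = (a * a) * (a * a) := by
        norm_num
        rw [show (4 : ℕ) = 2 + 2 from rfl, pow_add, pow_two]
      rw [this, ha, hzz])
    simpa using this
  have hinv : a⁻¹ = a * z := by
    apply inv_eq_of_mul_eq_one_right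
    rw [← mul_assoc, ha, hzz]
  have hbn : b ∉ zpowers a := by
    intro h
    obtain ⟨k, rfl⟩ := h
    have h1 : a ^ k * a * (a ^ k)⁻¹ = a := by group
    rw [h1] at hba
    exact hz1 (by simpa using hba.symm)
  have hcard8 : Nat.card R = 2 * 4 := by
    have h1 : Nat.card (zpowers a) = 4 := by rw [Nat.card_zpowers, ha4]
    have h2 : 4 ∣ Nat.card R := h1 ▸ card_subgroup_dvd_card (zpowers a)
    have h3 : Nat.card R ≠ 4 := by
      intro h
      have := eq_top_of_card_eq (zpowers a) (by rw [h1, h])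
      exact hbn (this ▸ mem_top b)
    have h4 : 0 < Nat.card R := Nat.card_pos
    obtain ⟨k, hk⟩ := h2
    omega
  exact Cfsg.Agent.Lib.Helper73.nonempty_mulEquiv_dihedralGroup 4 a b ha4 (by rw [pow_two, hb])
    (by rw [hba, hinv]) hbn hcard8

/-- the purely 2-local part -/
theorem card_le_eight {L : Type*} [Group L] [Finite L] (R : Subgroup L) (z y t g : L)
    (hzz : z * z = 1) (hyz : y ≠ z)
    (hRz : ∀ x : L, x ∈ R ↔ x * z = z * x)
    (hsq : ∀ x ∈ R, x * x = 1 ∨ x * x = z)
    (hcomm : ∀ x ∈ R, ∀ x' ∈ R, x * x' * x⁻¹ * x'⁻¹ = 1 ∨ x * x' * x⁻¹ * x'⁻¹ = z)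
    (hcen : ∀ w ∈ R, (∀ r ∈ R, r * w = w * r) → w * w = 1 → w = 1 ∨ w = z)
    (hy : y = g * z * g⁻¹) (hyR : y ∈ R) (htR : t ∈ R) (hty : t * y * t⁻¹ = z * y) :
    Nat.card R ≤ 8 := by
  classical
  have hz1 : z⁻¹ = z := inv_eq_of_mul_eq_one_left hzz
  have hyy : y * y = 1 := by
    rw [hy]
    calc g * z * g⁻¹ * (g * z * g⁻¹) = g * (z * z) * g⁻¹ := by group
      _ = 1 := by rw [hzz]; group
  have hy1 : y⁻¹ = y := inv_eq_of_mul_eq_one_left hyy
  have hzR : z ∈ R := (hRz z).2 rfl
  -- conjugating back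
  have hback : ∀ a : L, a * y = y * a → g⁻¹ * a * g ∈ R := by
    intro a ha
    rw [hRz]
    have h1 : a * (g * z * g⁻¹) = (g * z * g⁻¹) * a := by rw [← hy]; exact ha
    calc g⁻¹ * a * g * z = g⁻¹ * (a * (g * z * g⁻¹)) * g := by group
      _ = g⁻¹ * ((g * z * g⁻¹) * a) * g := by rw [h1]
      _ = z * (g⁻¹ * a * g) := by group
  -- `A = C_R(y)` is elementary abelian
  have hAsq : ∀ a ∈ R, a * y = y * a → a * a = 1 := by
    intro a haR ha
    rcases hsq a haR with h | h
    · exact h
    · rcases hsq _ (hback a ha) with h' | h'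
      · have : a * a = g * (g⁻¹ * a * g * (g⁻¹ * a * g)) * g⁻¹ := by group
        rw [this, h']; group
      · exfalso
        apply hyz
        have : a * a = g * (g⁻¹ * a * g * (g⁻¹ * a * g)) * g⁻¹ := by group
        rw [h', ← hy, h] at this
        exact this.symm
  have hAcomm : ∀ a ∈ R, a * y = y * a → ∀ b ∈ R, b * y = y * b → a * b = b * a := by
    intro a haR ha b hbR hb
    have key : a * b * a⁻¹ * b⁻¹ = 1 := by
      rcases hcomm a haR b hbR with h | h
      · exact h
      · rcases hcomm _ (hback a ha) _ (hback b hb) with h' | h'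
        · have : a * b * a⁻¹ * b⁻¹ =
              g * ((g⁻¹ * a * g) * (g⁻¹ * b * g) * (g⁻¹ * a * g)⁻¹ * (g⁻¹ * b * g)⁻¹) * g⁻¹ := by
            group
          rw [this, h']; group
        · exfalso
          apply hyz
          have : a * b * a⁻¹ * b⁻¹ =
              g * ((g⁻¹ * a * g) * (g⁻¹ * b * g) * (g⁻¹ * a * g)⁻¹ * (g⁻¹ * b * g)⁻¹) * g⁻¹ := by
            group
          rw [h', ← hy, h] at this
          exact this.symm
    calc a * b = (a * b * a⁻¹ * b⁻¹) * (b * a) := by group
      _ = b * a := by rw [key, one_mul]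
  -- step 1
  have hstep1 : ∀ x ∈ R, ∃ a ∈ R, a * y = y * a ∧ (x = a ∨ x = t * a) := by
    intro x hx
    rcases hcomm x hx y hyR with h | h
    · refine ⟨x, hx, ?_, Or.inl rfl⟩
      calc x * y = (x * y * x⁻¹ * y⁻¹) * (y * x) := by group
        _ = y * x := by rw [h, one_mul]
    · refine ⟨t⁻¹ * x, R.mul_mem (R.inv_mem htR) hx, ?_, Or.inr (by group)⟩
      have h1 : x * y * x⁻¹ = z * y := by
        calc x * y * x⁻¹ = (x * y * x⁻¹ * y⁻¹) * y := by group
          _ = z * y := by rw [h]
      calc t⁻¹ * x * y = t⁻¹ * (x * y * x⁻¹) * x := by group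
        _ = t⁻¹ * (t * y * t⁻¹) * x := by rw [h1, hty]
        _ = y * (t⁻¹ * x) := by group
  have hyt : y * t * y⁻¹ = z * t := by
    have h1 : y * t = z * t * y := by
      have h2 : t * y = z * y * t := by
        calc t * y = (t * y * t⁻¹) * t := by group
          _ = z * y * t := by rw [hty]
      have h3 : z * t = t * z := ((hRz t).1 htR).symm
      calc y * t = z * (z * y * t) := by rw [← mul_assoc, ← mul_assoc, hzz, one_mul]
        _ = z * (t * y) := by rw [h2]
        _ = z * t * y := by group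
    calc y * t * y⁻¹ = z * t * y * y⁻¹ := by rw [h1]
      _ = z * t := by group
  -- step 2
  have hstep2 : ∀ a ∈ R, a * y = y * a →
      ∃ c ∈ R, c * y = y * c ∧ c * t = t * c ∧ (a = c ∨ a = y * c) := by
    intro a haR ha
    rcases hcomm a haR t htR with h | h
    · refine ⟨a, haR, ha, ?_, Or.inl rfl⟩
      calc a * t = (a * t * a⁻¹ * t⁻¹) * (t * a) := by group
        _ = t * a := by rw [h, one_mul]
    · refine ⟨y⁻¹ * a, R.mul_mem (R.inv_mem hyR) haR, ?_, ?_, Or.inr (by group)⟩
      · calc y⁻¹ * a * y = y⁻¹ * (a * y) := by group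
          _ = y⁻¹ * (y * a) := by rw [ha]
          _ = y * (y⁻¹ * a) := by group
      · have h1 : a * t * a⁻¹ = z * t := by
          calc a * t * a⁻¹ = (a * t * a⁻¹ * t⁻¹) * t := by group
            _ = z * t := by rw [h]
        calc y⁻¹ * a * t = y⁻¹ * (a * t * a⁻¹) * a := by group
          _ = y⁻¹ * (y * t * y⁻¹) * a := by rw [h1, hyt]
          _ = t * (y⁻¹ * a) := by group
  -- step 3
  have hstep3 : ∀ c ∈ R, c * y = y * c → c * t = t * c → c = 1 ∨ c = z := by
    intro c hcR hcy hct
    apply hcen c hcR _ (hAsq c hcR hcy)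
    intro r hr
    obtain ⟨a, haR, hay, h | h⟩ := hstep1 r hr
    · rw [h]; exact hAcomm a haR hay c hcR hcy
    · rw [h]
      calc t * a * c = t * (a * c) := by group
        _ = t * (c * a) := by rw [hAcomm a haR hay c hcR hcy]
        _ = (t * c) * a := by group
        _ = (c * t) * a := by rw [hct]
        _ = c * (t * a) := by group
  let f : Bool × Bool × Bool → L := fun i =>
    (if i.1 then t else 1) * (if i.2.1 then y else 1) * (if i.2.2 then z else 1)
  have hsub : (R : Set L) ⊆ ((Finset.univ.image f : Finset L) : Set L) := by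
    intro x hx
    obtain ⟨a, haR, hay, h1⟩ := hstep1 x hx
    obtain ⟨c, hcR, hcy, hct, h2⟩ := hstep2 a haR hay
    have h3 := hstep3 c hcR hcy hct
    simp only [Finset.coe_image, Finset.coe_univ, Set.image_univ, Set.mem_range]
    rcases h1 with rfl | rfl <;> rcases h2 with rfl | rfl <;> rcases h3 with rfl | rfl
    · exact ⟨(false, false, false), by simp [f]⟩
    · exact ⟨(false, false, true), by simp [f]⟩
    · exact ⟨(false, true, false), by simp [f]⟩
    · exact ⟨(false, true, true), by simp [f]⟩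
    · exact ⟨(true, false, false), by simp [f]⟩
    · exact ⟨(true, false, true), by simp [f]⟩
    · exact ⟨(true, true, false), by simp [f]⟩
    · exact ⟨(true, true, true), by simp [f, mul_assoc]⟩
  have h1 : Nat.card R = (R : Set L).ncard := _root_.Nat.card_coe_set_eq (R : Set L)
  rw [h1]
  calc (R : Set L).ncard ≤ ((Finset.univ.image f : Finset L) : Set L).ncard :=
        Set.ncard_le_ncard hsub (Finset.finite_toSet _)
    _ = (Finset.univ.image f).card := Set.ncard_coe_finset _
    _ ≤ (Finset.univ : Finset (Bool × Bool × Bool)).card := Finset.card_image_le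
    _ = 8 := by simp

/-- Let L be a finite non-abelian simple group with an involution z whose centralizer R is a Sylow 2-subgroup of L whose Frattini subgroup is the subgroup generated by z. Then R is dihedral of order 8. -/
theorem result {L : Type*} [Group L] [Finite L] [IsSimpleGroup L] (hL : ¬ IsMulCommutative L) (z : L) (hz : orderOf z = 2) (R : Sylow 2 L) (hR : (R : Subgroup L) = Subgroup.centralizer ({z} : Set L)) (hΦ : (frattini ↥(R : Subgroup L)).map (R : Subgroup L).subtype = Subgroup.zpowers z) : Nonempty (↥(R : Subgroup L) ≃* DihedralGroup 4) := by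
  haveI : Fact (2 : ℕ).Prime := ⟨Nat.prime_two⟩
  have hzz : z * z = 1 := mul_self_of_orderOf_two hz
  have hz1 : z ≠ 1 := ne_one_of_orderOf_two hz
  have hzinv : z⁻¹ = z := inv_eq_self_of_orderOf_two hz
  have hRz : ∀ x : L, x ∈ (R : Subgroup L) ↔ x * z = z * x := by
    intro x
    rw [hR, mem_centralizer_singleton_iff]
  have hzR : z ∈ (R : Subgroup L) := (hRz z).2 rfl
  have hsq : ∀ x ∈ (R : Subgroup L), x * x = 1 ∨ x * x = z := by
    intro x hx
    have h1 := Cfsg.Agent.Lib.Helper2.pow_p_mem_frattini R.2 (⟨x, hx⟩ : (R : Subgroup L))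
    have h2 : x * x ∈ (frattini ↥(R : Subgroup L)).map (R : Subgroup L).subtype :=
      ⟨_, h1, by simp [pow_two]⟩
    rw [hΦ] at h2
    exact (mem_zpowers_involution hz).1 h2
  have hcomm : ∀ x ∈ (R : Subgroup L), ∀ x' ∈ (R : Subgroup L),
      x * x' * x⁻¹ * x'⁻¹ = 1 ∨ x * x' * x⁻¹ * x'⁻¹ = z := by
    intro x hx x' hx'
    have h1 : ⁅(⟨x, hx⟩ : (R : Subgroup L)), ⟨x', hx'⟩⁆ ∈ frattini ↥(R : Subgroup L) := by
      apply Cfsg.Agent.Lib.Helper2.commutator_le_frattini R.2
      rw [commutator_def]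
      exact commutator_mem_commutator (mem_top _) (mem_top _)
    have h2 : x * x' * x⁻¹ * x'⁻¹ ∈ (frattini ↥(R : Subgroup L)).map (R : Subgroup L).subtype :=
      ⟨_, h1, rfl⟩
    rw [hΦ] at h2
    exact (mem_zpowers_involution hz).1 h2
  -- `N_L(R) = R`
  have hnorm : normalizer ((R : Subgroup L) : Set L) ≤ (R : Subgroup L) := by
    intro n hn
    have h1 := Cfsg.Agent.Lib.Helper47.normalizer_le_normalizer_frattiniOf (R : Subgroup L) hn
    rw [Cfsg.Agent.Lib.Helper47.frattiniOf, hΦ] at h1
    have h2 : n * z * n⁻¹ ∈ zpowers z := (mem_normalizer_iff.1 h1 z).1 (mem_zpowers z)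
    rw [hRz]
    rcases (mem_zpowers_involution hz).1 h2 with h | h
    · exfalso
      apply hz1
      calc z = n⁻¹ * (n * z * n⁻¹) * n := by group
        _ = 1 := by rw [h]; group
    · calc n * z = (n * z * n⁻¹) * n := by group
        _ = z * n := by rw [h]
  -- central involutions of `R`
  have hcen : ∀ w ∈ (R : Subgroup L), (∀ r ∈ (R : Subgroup L), r * w = w * r) → w * w = 1 →
      w = 1 ∨ w = z := by
    intro w hw hwc hww
    by_contra hne
    push_neg at hne
    obtain ⟨hw1, hwz⟩ := hne
    have hwo : orderOf w = 2 := orderOf_two_of hw1 hww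
    have hnot : (⟨w, hw⟩ : (R : Subgroup L)) ∉ frattini ↥(R : Subgroup L) := by
      intro h
      have h2 : w ∈ (frattini ↥(R : Subgroup L)).map (R : Subgroup L).subtype := ⟨_, h, rfl⟩
      rw [hΦ] at h2
      rcases (mem_zpowers_involution hz).1 h2 with h | h
      · exact hw1 h
      · exact hwz h
    unfold frattini Order.radical at hnot
    simp only [Subgroup.mem_iInf, not_forall] at hnot
    obtain ⟨M, hM, hwM⟩ := hnot
    obtain ⟨hMN, hMi⟩ := Cfsg.Agent.Lib.Helper2.isCoatom_normal_index R.2 hM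
    have hcard : Nat.card (↥(R : Subgroup L) ⧸ M) = 2 := by rw [← Subgroup.index_eq_card, hMi]
    haveI : IsCyclic (↥(R : Subgroup L) ⧸ M) := isCyclic_of_prime_card hcard
    letI : CommGroup (↥(R : Subgroup L) ⧸ M) := IsCyclic.commGroup
    let φ : ↥(R : Subgroup L) →* (↥(R : Subgroup L) ⧸ M) := QuotientGroup.mk' M
    have hs1 : φ ⟨w, hw⟩ ≠ 1 := by
      intro h
      exact hwM ((QuotientGroup.eq_one_iff _).1 h)
    have htwo : ∀ a : ↥(R : Subgroup L) ⧸ M, a = 1 ∨ a = φ ⟨w, hw⟩ := by
      intro a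
      by_contra hcon
      push_neg at hcon
      obtain ⟨u, -, hu⟩ := (Nat.card_eq_two_iff' (1 : ↥(R : Subgroup L) ⧸ M)).1 hcard
      exact hcon.2 ((hu a hcon.1).trans (hu _ hs1).symm)
    obtain ⟨k, hk, hk1, hk2⟩ := Cfsg.Agent.Lib.Helper31.exists_conj_of_transfer_eq_one
      (R : Subgroup L) R.not_dvd_index φ w ⟨1, by rw [hwo, pow_one]⟩
      (by
        intro k n hn hnd hk
        rw [hwo] at hnd
        have hn2 : n = 2 := by
          have := Nat.le_of_dvd (by norm_num) hnd
          omega
        subst hn2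
        have : (⟨k⁻¹ * w ^ 2 * k, hk⟩ : (R : Subgroup L)) = 1 := by
          ext
          simp [pow_two, hww]
        rw [this, map_one])
      (φ ⟨w, hw⟩) hs1
      (by
        rw [← map_pow]
        have : (⟨w, hw⟩ : (R : Subgroup L)) ^ 2 = 1 := by
          ext
          simp [pow_two, hww]
        rw [this, map_one])
      (fun k hk => htwo _)
      (Cfsg.Agent.Lib.Helper31.hom_eq_one_of_simple hL _ w)
      (R : Subgroup L) R.2
      (by
        intro r hr
        rw [mem_centralizer_singleton_iff]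
        exact hwc r hr)
    have hkN : k⁻¹ ∈ normalizer ((R : Subgroup L) : Set L) := by
      apply Cfsg.Agent.Lib.Helper11.mem_normalizer_of_conj_mem
      intro a ha
      rw [inv_inv]
      exact hk2 a ha
    have hkR : k⁻¹ ∈ (R : Subgroup L) := hnorm hkN
    have hkw : k⁻¹ * w * k = w := by
      have := hwc _ hkR
      calc k⁻¹ * w * k = w * k⁻¹ * k := by rw [this]
        _ = w := by group
    apply hs1
    have : (⟨k⁻¹ * w * k, hk⟩ : (R : Subgroup L)) = ⟨w, hw⟩ := by
      ext
      exact hkw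
    rw [← this]
    exact hk1
  -- `z` is not isolated
  obtain ⟨g, hgR, hgz⟩ : ∃ g : L, g * z * g⁻¹ ∈ (R : Subgroup L) ∧ g * z * g⁻¹ ≠ z := by
    by_contra hcon
    push_neg at hcon
    obtain ⟨N, hN, hodd, hc⟩ := Cfsg.Agent.S0215.result R z hz hzR hcon
    rcases hN.eq_bot_or_eq_top with h | h
    · -- `z` central
      have hzc : z ∈ center L := by
        rw [mem_center_iff]
        intro x
        have h1 := hc x
        rw [h, mem_bot] at h1
        calc x * z = (z * x * z⁻¹ * x⁻¹)⁻¹ * (z * x) := by group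
          _ = z * x := by rw [h1]; simp
      rcases (inferInstance : (center L).Normal).eq_bot_or_eq_top with h' | h'
      · rw [h', mem_bot] at hzc
        exact hz1 hzc
      · apply hL
        refine ⟨⟨fun a b => ?_⟩⟩
        have : a ∈ center L := h' ▸ mem_top a
        exact ((mem_center_iff.1 this) b).symm
    · rw [h, card_top] at hodd
      have h2 : 2 ∣ Nat.card L := hz ▸ orderOf_dvd_natCard z
      exact (Nat.not_even_iff_odd.2 hodd) (even_iff_two_dvd.2 h2)
  obtain ⟨y, hy⟩ : ∃ y : L, y = g * z * g⁻¹ := ⟨_, rfl⟩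
  rw [← hy] at hgR hgz
  have hyo : orderOf y = 2 := by rw [hy]; exact orderOf_conj_two g hz
  have hyy : y * y = 1 := mul_self_of_orderOf_two hyo
  have hy1 : y ≠ 1 := ne_one_of_orderOf_two hyo
  -- `y` is not central in `R`
  obtain ⟨t, htR, hty⟩ : ∃ t ∈ (R : Subgroup L), t * y * t⁻¹ = z * y := by
    by_contra hcon
    push_neg at hcon
    have : ∀ r ∈ (R : Subgroup L), r * y = y * r := by
      intro r hr
      rcases hcomm r hr y hgR with h | h
      · calc r * y = (r * y * r⁻¹ * y⁻¹) * (y * r) := by group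
          _ = y * r := by rw [h, one_mul]
      · exfalso
        apply hcon r hr
        calc r * y * r⁻¹ = (r * y * r⁻¹ * y⁻¹) * y := by group
          _ = z * y := by rw [h]
    rcases hcen y hgR this hyy with h | h
    · exact hy1 h
    · exact hgz h
  have hcard := card_le_eight (R : Subgroup L) z y t g hzz hgz hRz hsq hcomm hcen hy hgR htR hty
  have hzt : t * z = z * t := (hRz t).1 htR
  have hzy : y * z = z * y := (hRz y).1 hgR
  have hyinv : y⁻¹ = y := inv_eq_self_of_orderOf_two hyo
  rcases hsq t htR with htt | htt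
  · -- `t` an involution
    have htinv : t⁻¹ = t := inv_eq_of_mul_eq_one_left htt
    refine nonempty_d8 (⟨t * y, mul_mem htR hgR⟩ : (R : Subgroup L)) ⟨t, htR⟩ ⟨z, hzR⟩ ?_ ?_ ?_ ?_ ?_ hcard
    · intro h; exact hz1 (congrArg Subtype.val h)
    · ext; exact hzz
    · ext
      show t * y * (t * y) = z
      calc t * y * (t * y) = (t * y * t⁻¹) * y := by rw [htinv]; group
        _ = z * (y * y) := by rw [hty]; group
        _ = z := by rw [hyy, mul_one]
    · ext; exact htt
    · ext
      show t * (t * y) * t⁻¹ = t * y * z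
      calc t * (t * y) * t⁻¹ = t * (t * y * t⁻¹) := by group
        _ = t * (z * y) := by rw [hty]
        _ = t * (y * z) := by rw [hzy]
        _ = t * y * z := by group
  · -- `t` of order four
    refine nonempty_d8 (⟨t, htR⟩ : (R : Subgroup L)) ⟨y, hgR⟩ ⟨z, hzR⟩ ?_ ?_ ?_ ?_ ?_ hcard
    · intro h; exact hz1 (congrArg Subtype.val h)
    · ext; exact hzz
    · ext; exact htt
    · ext; exact hyy
    · ext
      show y * t * y⁻¹ = t * z
      have h2 : t * y = z * y * t := by
        calc t * y = (t * y * t⁻¹) * t := by group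
          _ = z * y * t := by rw [hty]
      have h1 : y * t = z * t * y := by
        calc y * t = z * (z * y * t) := by rw [← mul_assoc, ← mul_assoc, hzz, one_mul]
          _ = z * (t * y) := by rw [h2]
          _ = z * t * y := by group
      calc y * t * y⁻¹ = z * t * y * y⁻¹ := by rw [h1]
        _ = z * t := by group
        _ = t * z := hzt.symm

end Cfsg.Agent.S5435
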