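import Cfsg.Statements.S5436
import Cfsg.Agent.Lib.Helper90.Setting
import Cfsg.Agent.S5422

set_option autoImplicit false
open Cfsg
open Cfsg.Agent.Lib.Helper90

namespace Cfsg.Agent.S5436

theorem closure_conj_normal {G : Type*} [Group G] (z : G) (H : Subgroup G) :
    (Subgroup.closure {x : H | IsConj z (x : G)}).Normal := by
  refine ⟨fun n hn c => ?_⟩
  induction hn using Subgroup.closure_induction with
  | mem x hx =>
    apply Subgroup.subset_closure
    obtain ⟨d, hd⟩ := isConj_iff.mp hx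
    refine isConj_iff.mpr ⟨(c : G) * d, ?_⟩
    simp only [Subgroup.coe_mul, Subgroup.coe_inv, ← hd]
    group
  | one => simp
  | mul x y _ _ hx hy =>
    have e : c * (x * y) * c⁻¹ = (c * x * c⁻¹) * (c * y * c⁻¹) := by group
    rw [e]; exact Subgroup.mul_mem _ hx hy
  | inv x _ hx =>
    have e : c * x⁻¹ * c⁻¹ = (c * x * c⁻¹)⁻¹ := by group
    rw [e]; exact Subgroup.inv_mem _ hx

theorem le_normalClosure {G : Type*} [Group G] (z : G) (H : Subgroup G)
    (Q : Subgroup H) [Q.Normal] (s : H) (hsQ : s ∈ Q) (hsc : IsConj z (s : G))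
    (hnotz : (s : G) ∉ Subgroup.zpowers z)
    (hsimp : IsSimpleGroup (H ⧸ Q))
    (hirr : ∀ W : Subgroup H, W.Normal → W ≤ Q → (W = Q ∨ ∀ x ∈ W, (x : G) ∈ Subgroup.zpowers z))
    (hwcl : Subgroup.closure {x : H | IsConj z (x : G)} ≠ Q) :
    H ≤ Subgroup.normalClosure ({z} : Set G) := by
  have hconjM : ∀ x : G, IsConj z x → x ∈ Subgroup.normalClosure ({z} : Set G) := by
    intro x hx
    obtain ⟨c, hc⟩ := isConj_iff.mp hx
    rw [← hc]
    exact (Subgroup.normalClosure_normal (s := ({z} : Set G))).conj_mem z (Subgroup.subset_normalClosure (Set.mem_singleton z)) c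
  have hQM : Q ≤ (Subgroup.normalClosure ({z} : Set G)).subgroupOf H := by
    rcases hirr ((Subgroup.normalClosure ({z} : Set G)).subgroupOf H ⊓ Q) inferInstance
      inf_le_right with h | h
    · exact inf_eq_right.mp h
    · exact absurd (h s (Subgroup.mem_inf.mpr
        ⟨Subgroup.mem_subgroupOf.mpr (hconjM _ hsc), hsQ⟩)) hnotz
  have hmapN : (((Subgroup.normalClosure ({z} : Set G)).subgroupOf H).map
      (QuotientGroup.mk' Q)).Normal :=
    Subgroup.Normal.map inferInstance _ (QuotientGroup.mk'_surjective Q)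
  rcases hsimp.eq_bot_or_eq_top_of_normal _ hmapN with h | h
  · exfalso
    have hMQ : (Subgroup.normalClosure ({z} : Set G)).subgroupOf H ≤ Q := by
      intro x hx
      have : QuotientGroup.mk' Q x ∈ (⊥ : Subgroup (_ ⧸ Q)) := by
        rw [← h]; exact Subgroup.mem_map_of_mem _ hx
      rw [Subgroup.mem_bot] at this
      exact (QuotientGroup.eq_one_iff x).mp this
    have hWQ : Subgroup.closure {x : H | IsConj z (x : G)} ≤ Q := by
      rw [Subgroup.closure_le]
      intro x hx
      apply hMQ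
      rw [Subgroup.mem_subgroupOf]
      exact hconjM _ hx
    rcases hirr _ (closure_conj_normal z H) hWQ with h1 | h1
    · exact hwcl h1
    · exact hnotz (h1 s (Subgroup.subset_closure hsc))
  · intro x hx
    have h1 : QuotientGroup.mk' Q ⟨x, hx⟩ ∈ (((Subgroup.normalClosure ({z} : Set G)).subgroupOf
      H).map (QuotientGroup.mk' Q)) := by rw [h]; trivial
    obtain ⟨y, hy, hyx⟩ := h1
    have h2 : y⁻¹ * ⟨x, hx⟩ ∈ Q := by
      have := QuotientGroup.eq.mp hyx
      exact this
    have h3 := Subgroup.mul_mem _ hy (hQM h2)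
    rw [mul_inv_cancel_left, Subgroup.mem_subgroupOf] at h3
    exact h3

/-- Let z be an involution of the finite group G with centralizer H whose generalized Fitting subgroup Q is extraspecial of width at least 2 (order 2^(2w+1), w ≥ 2); suppose some conjugate of z other than z lies in Q, H/Q is a non-abelian simple group, H acts irreducibly by conjugation on Q modulo the subgroup generated by z (the only H-invariant subgroups of Q containing z are that subgroup and Q), and Q is not the subgroup generated by the conjugates of z lying in H. Then G is simple. -/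
theorem result {G : Type*} [Group G] [Finite G] (z : G) (hz : orderOf z = 2) (Q : Subgroup (Subgroup.centralizer ({z} : Set G))) [Q.Normal] (hF : Cfsg.generalizedFittingSubgroup ↥(Subgroup.centralizer ({z} : Set G)) = Q) (hQ : Cfsg.IsExtraspecial 2 ↥Q) (w : ℕ) (hw : 2 ≤ w) (hcard : Nat.card ↥Q = 2 ^ (2 * w + 1)) (hnwc : ∃ g : G, (∃ hq : g * z * g⁻¹ ∈ Subgroup.centralizer ({z} : Set G), (⟨g * z * g⁻¹, hq⟩ : Subgroup.centralizer ({z} : Set G)) ∈ Q) ∧ g * z * g⁻¹ ≠ z) (hsimp : IsSimpleGroup (↥(Subgroup.centralizer ({z} : Set G)) ⧸ Q)) (hna : ¬ IsMulCommutative (↥(Subgroup.centralizer ({z} : Set G)) ⧸ Q)) (hirr : ∀ W : Subgroup (Subgroup.centralizer ({z} : Set G)), W.Normal → W ≤ Q → (W = Q ∨ ∀ x ∈ W, (x : G) ∈ Subgroup.zpowers z)) (hwcl : Subgroup.closure {x : Subgroup.centralizer ({z} : Set G) | IsConj z (x : G)} ≠ Q) : IsSimpleGroup G := by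
  obtain ⟨g, ⟨hq, hsQ⟩, hsz⟩ := hnwc
  obtain ⟨z', hES', -⟩ := ES.of_isExtraspecial hQ
  have hQ₀ : Cfsg.IsExtraspecial 2 ↥(Q.map (Subgroup.centralizer ({z} : Set G)).subtype) :=
    (ES.map_subtype hES').isExtraspecial
  have hF' : (Cfsg.generalizedFittingSubgroup ↥(Subgroup.centralizer ({z} : Set G))).map
      (Subgroup.centralizer ({z} : Set G)).subtype =
      Q.map (Subgroup.centralizer ({z} : Set G)).subtype := by rw [hF]
  obtain ⟨hES, hL2, hL3⟩ := setting_of_genFitting z hz _ hF' hQ₀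
  have hcard₀ : Nat.card ↥(Q.map (Subgroup.centralizer ({z} : Set G)).subtype) = 2 ^ (2 * w + 1) := by
    rw [← hcard]
    exact Subgroup.card_map_of_injective (Subgroup.subtype_injective _)
  have hs1 : g * z * g⁻¹ ≠ 1 := by
    intro h1
    apply hES.z_ne
    have := congrArg (fun w => g⁻¹ * w * g) h1
    simpa [mul_assoc] using this
  have hsQ₀ : g * z * g⁻¹ ∈ Q.map (Subgroup.centralizer ({z} : Set G)).subtype :=
    ⟨⟨g * z * g⁻¹, hq⟩, hsQ, rfl⟩
  have hZmem := hES.mem_center_map_iff'
  have hlarge : Cfsg.IsLargeExtraspecial (Q.map (Subgroup.centralizer ({z} : Set G)).subtype) := by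
    refine (Cfsg.Agent.S5422.result _ hQ₀ hL2 hL3 w hw hcard₀ g ?_ ?_).2.2
    · intro hg
      have h1 := (Subgroup.mem_normalizer_iff.mp hg z).mp ((hZmem z).mpr (Or.inr rfl))
      rcases (hZmem _).mp h1 with h2 | h2
      · exact hs1 h2
      · exact hsz h2
    · rintro _ ⟨y, hy, rfl⟩
      rcases (hZmem y).mp hy with rfl | rfl
      · simp
      · simpa using hsQ₀
  refine isSimpleGroup_of_large hES hlarge ?_
  -- `H ≤ M`
  have hnotz : g * z * g⁻¹ ∉ Subgroup.zpowers z := by
    intro h
    rw [← hES.center_map_eq_zpowers] at h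
    rcases (hZmem _).mp h with h2 | h2
    · exact hs1 h2
    · exact hsz h2
  exact le_normalClosure z _ Q ⟨g * z * g⁻¹, hq⟩ hsQ (isConj_iff.mpr ⟨g, rfl⟩) hnotz hsimp hirr hwcl

end Cfsg.Agent.S5436
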