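import Cfsg.Statements.S5437

set_option autoImplicit false
open Cfsg

namespace Cfsg.Agent.S5437

theorem result {G : Type*} [Group G] [Finite G] (I : Set G) (hI : ∀ x ∈ I, orderOf x = 2) (hIc : ∀ g : G, ∀ x ∈ I, g * x * g⁻¹ ∈ I) (H : Subgroup G) : ((∀ x ∈ I, x ∈ H → (∀ g : G, g * x * g⁻¹ ∈ H → ∃ h ∈ H, h * x * h⁻¹ = g * x * g⁻¹) ∧ Subgroup.centralizer ({x} : Set G) ≤ H) ↔ (∀ g : G, g ∉ H → ∀ x ∈ I, ¬ (x ∈ H ∧ x ∈ (H : Subgroup G).map (MulAut.conj g).toMonoidHom))) ∧ ((∀ g : G, g ∉ H → ∀ x ∈ I, ¬ (x ∈ H ∧ x ∈ (H : Subgroup G).map (MulAut.conj g).toMonoidHom)) ↔ ∀ x ∈ I, x ∈ H → ∃! c : G ⧸ H, x • c = c) := by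
  have key : ∀ (g x : G), x ∈ (H : Subgroup G).map (MulAut.conj g).toMonoidHom ↔ g⁻¹ * x * g ∈ H := by
    intro g x
    constructor
    · rintro ⟨y, hy, rfl⟩
      simp only [MulEquiv.coe_toMonoidHom, MulAut.conj_apply]
      have : g⁻¹ * (g * y * g⁻¹) * g = y := by group
      rw [this]; exact hy
    · intro h
      refine ⟨g⁻¹ * x * g, h, ?_⟩
      simp only [MulEquiv.coe_toMonoidHom, MulAut.conj_apply]
      group
  constructor
  · constructor
    · intro h1 g hg x hx ⟨hxH, hxg⟩
      rw [key] at hxg
      obtain ⟨hf, hc⟩ := h1 x hx hxH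
      have h2 : g⁻¹ * x * g⁻¹⁻¹ ∈ H := by simpa using hxg
      obtain ⟨h, hh, he⟩ := hf g⁻¹ h2
      have h3 : g * h ∈ Subgroup.centralizer ({x} : Set G) := by
        rw [Subgroup.mem_centralizer_singleton_iff]
        have : h * x = g⁻¹ * x * g * h := by
          have := congrArg (· * h) he
          simpa [mul_assoc] using this
        calc g * h * x = g * (h * x) := by group
          _ = g * (g⁻¹ * x * g * h) := by rw [this]
          _ = x * (g * h) := by group
      have h4 := hc h3
      exact hg (by simpa using H.mul_mem h4 (H.inv_mem hh))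
    · intro h2 x hx hxH
      constructor
      · intro g hg
        by_cases hgH : g ∈ H
        · exact ⟨g, hgH, rfl⟩
        · exfalso
          have hgH' : g⁻¹ ∉ H := fun h => hgH (by simpa using H.inv_mem h)
          exact h2 g⁻¹ hgH' x hx ⟨hxH, by rw [key]; simpa using hg⟩
      · intro c hc
        by_contra hcH
        rw [Subgroup.mem_centralizer_singleton_iff] at hc
        refine h2 c hcH x hx ⟨hxH, ?_⟩
        rw [key]
        have : c⁻¹ * x * c = x := by
          calc c⁻¹ * x * c = c⁻¹ * (x * c) := by group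
            _ = c⁻¹ * (c * x) := by rw [hc]
            _ = x := by group
        rw [this]; exact hxH
  · constructor
    · intro h2 x hx hxH
      refine ⟨(QuotientGroup.mk 1 : G ⧸ H), ?_, ?_⟩
      · show x • (QuotientGroup.mk 1 : G ⧸ H) = _
        rw [MulAction.Quotient.smul_mk, QuotientGroup.eq]
        simpa using H.inv_mem hxH
      · intro c hc
        induction c using QuotientGroup.induction_on with
        | H g =>
          have hc' : x • (QuotientGroup.mk g : G ⧸ H) = QuotientGroup.mk g := hc
          rw [MulAction.Quotient.smul_mk, QuotientGroup.eq] at hc'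
          by_contra hne
          have hgH : g ∉ H := by
            intro hg
            apply hne
            rw [QuotientGroup.eq]
            simpa using H.inv_mem hg
          refine h2 g hgH x hx ⟨hxH, ?_⟩
          rw [key]
          have : g⁻¹ * x * g = ((x • g)⁻¹ * g)⁻¹ := by simp [smul_eq_mul, mul_assoc]
          rw [this]; exact H.inv_mem hc'
    · intro h3 g hg x hx ⟨hxH, hxg⟩
      rw [key] at hxg
      obtain ⟨c, _, huniq⟩ := h3 x hx hxH
      have e1 : (QuotientGroup.mk 1 : G ⧸ H) = c := by
        apply huniq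
        show x • (QuotientGroup.mk 1 : G ⧸ H) = _
        rw [MulAction.Quotient.smul_mk, QuotientGroup.eq]
        simpa using H.inv_mem hxH
      have e2 : (QuotientGroup.mk g : G ⧸ H) = c := by
        apply huniq
        show x • (QuotientGroup.mk g : G ⧸ H) = _
        rw [MulAction.Quotient.smul_mk, QuotientGroup.eq]
        have : (x • g)⁻¹ * g = (g⁻¹ * x * g)⁻¹ := by simp [smul_eq_mul, mul_assoc]
        rw [this]; exact H.inv_mem hxg
      have e3 : (QuotientGroup.mk 1 : G ⧸ H) = QuotientGroup.mk g := e1.trans e2.symm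
      rw [QuotientGroup.eq] at e3
      exact hg (by simpa using e3)

end Cfsg.Agent.S5437
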