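import Cfsg.Statements.S5438

set_option autoImplicit false
open Cfsg
open scoped Pointwise

namespace Cfsg.Agent.S5438

/-- a `p`-subgroup is conjugate into a given Sylow subgroup. -/
theorem exists_conj_le_sylow {G : Type*} [Group G] [Finite G] {p : ℕ} [Fact p.Prime] (P : Sylow p G)
    (U : Subgroup G) (hU : IsPGroup p U) : ∃ s : G, ∀ u ∈ U, s * u * s⁻¹ ∈ P := by
  obtain ⟨R, hR⟩ := hU.exists_le_sylow
  obtain ⟨s, hs⟩ := MulAction.exists_smul_eq G R P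
  refine ⟨s, fun u hu => ?_⟩
  have h1 : MulAut.conj s • u ∈ MulAut.conj s • (R : Subgroup G) :=
    Subgroup.smul_mem_pointwise_smul u (MulAut.conj s) (R : Subgroup G) (hR hu)
  have h2 : ((s • R : Sylow p G) : Subgroup G) = MulAut.conj s • (R : Subgroup G) := rfl
  rw [← h2, hs] at h1
  have h3 : s * u * s⁻¹ ∈ (P : Subgroup G) := by simpa using h1
  exact h3

/-- a `p`-element is conjugate into a given Sylow subgroup. -/
theorem exists_conj_mem_sylow {G : Type*} [Group G] [Finite G] {p : ℕ} [Fact p.Prime] (P : Sylow p G)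
    (x : G) (hx : ∃ k : ℕ, orderOf x = p ^ k) : ∃ s : G, s * x * s⁻¹ ∈ P := by
  have hU : IsPGroup p (Subgroup.zpowers x) := by
    obtain ⟨k, hk⟩ := hx
    apply IsPGroup.of_card (n := k)
    rw [Nat.card_zpowers, hk]
  obtain ⟨s, hs⟩ := exists_conj_le_sylow P _ hU
  exact ⟨s, hs x (Subgroup.mem_zpowers x)⟩

theorem result {G : Type*} [Group G] [Finite G] (z : G) (hz : Cfsg.IsTwoCentralInvolution z) (H : Subgroup G) (hzH : z ∈ H) (hfix : ∀ g : G, g⁻¹ * z * g ∈ H → g ∈ H) : Odd H.index ∧ ∀ x ∈ H, (∃ k : ℕ, orderOf x = 2 ^ k) → ∀ g : G, g * x * g⁻¹ ∈ H → ∃ h ∈ H, h * x * h⁻¹ = g * x * g⁻¹ := by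
  have : Fact (Nat.Prime 2) := ⟨Nat.prime_two⟩
  obtain ⟨hz2, P, hzP, hcP⟩ := hz
  have hPH : (P : Subgroup G) ≤ H := by
    intro p hp
    apply hfix
    have : p⁻¹ * z * p = z := by
      rw [mul_assoc, ← hcP p hp, ← mul_assoc, inv_mul_cancel, one_mul]
    rw [this]; exact hzH
  refine ⟨?_, ?_⟩
  · rw [← Nat.not_even_iff_odd, even_iff_two_dvd]
    intro h
    exact P.not_dvd_index (h.trans (Subgroup.index_dvd_of_le hPH))
  -- Claim B
  have claimB : ∀ x ∈ H, (∃ k : ℕ, orderOf x = 2 ^ k) → ∃ h ∈ H, h * x * h⁻¹ ∈ P := by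
    intro x hx hk
    obtain ⟨s, hs⟩ := exists_conj_mem_sylow (P.subtype hPH) (⟨x, hx⟩ : H) (by
      obtain ⟨k, hk⟩ := hk
      exact ⟨k, by rw [← hk]; exact Subgroup.orderOf_mk x hx⟩)
    refine ⟨s, s.2, ?_⟩
    have h3 : s * ⟨x, hx⟩ * s⁻¹ ∈ ((P.subtype hPH : Sylow 2 H) : Subgroup H) := hs
    rw [Sylow.coe_subtype, Subgroup.mem_subgroupOf] at h3
    have h4 : (s : G) * x * (s : G)⁻¹ ∈ (P : Subgroup G) := by simpa using h3
    exact h4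
  -- Sub-lemma D
  have lemD : ∀ s e : G, Commute (s * z * s⁻¹) (e * z * e⁻¹) → s⁻¹ * e ∈ H := by
    intro s e hc
    apply hfix
    have hw : (e⁻¹ * s * z * s⁻¹ * e) ∈ H := by
      apply hfix
      have h1 : Commute (e⁻¹ * s * z * s⁻¹ * e) z := by
        have h2 : e⁻¹ * ((s * z * s⁻¹) * (e * z * e⁻¹)) * e = e⁻¹ * ((e * z * e⁻¹) * (s * z * s⁻¹)) * e := by
          rw [hc.eq]
        show (e⁻¹ * s * z * s⁻¹ * e) * z = z * (e⁻¹ * s * z * s⁻¹ * e)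
        calc (e⁻¹ * s * z * s⁻¹ * e) * z = e⁻¹ * ((s * z * s⁻¹) * (e * z * e⁻¹)) * e := by group
          _ = e⁻¹ * ((e * z * e⁻¹) * (s * z * s⁻¹)) * e := h2
          _ = z * (e⁻¹ * s * z * s⁻¹ * e) := by group
      have : (e⁻¹ * s * z * s⁻¹ * e)⁻¹ * z * (e⁻¹ * s * z * s⁻¹ * e) = z := by
        rw [mul_assoc, ← h1.eq, ← mul_assoc, inv_mul_cancel, one_mul]
      rw [this]; exact hzH
    have : (s⁻¹ * e)⁻¹ * z * (s⁻¹ * e) = e⁻¹ * s * z * s⁻¹ * e := by group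
    rw [this]; exact hw
  have hconjorder : ∀ a : G, orderOf (a * z * a⁻¹) = 2 := by
    intro a
    have := orderOf_injective (MulAut.conj a).toMonoidHom (MulAut.conj a).injective z
    simpa [hz2] using this
  -- Claim C
  have claimC : ∀ x a b : G, Commute (a * z * a⁻¹) x → Commute (b * z * b⁻¹) x →
      ∃ c : G, Commute c x ∧ b⁻¹ * c * a ∈ H := by
    intro x a b ha hb
    have haC : a * z * a⁻¹ ∈ Subgroup.centralizer ({x} : Set G) :=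
      Subgroup.mem_centralizer_singleton_iff.mpr ha.eq
    have hbC : b * z * b⁻¹ ∈ Subgroup.centralizer ({x} : Set G) :=
      Subgroup.mem_centralizer_singleton_iff.mpr hb.eq
    obtain ⟨U⟩ : Nonempty (Sylow 2 (Subgroup.centralizer ({x} : Set G))) := inferInstance
    obtain ⟨c1, hc1⟩ := exists_conj_mem_sylow U (⟨_, haC⟩ : Subgroup.centralizer ({x} : Set G))
      ⟨1, by rw [Subgroup.orderOf_mk, hconjorder, pow_one]⟩
    obtain ⟨c2, hc2⟩ := exists_conj_mem_sylow U (⟨_, hbC⟩ : Subgroup.centralizer ({x} : Set G))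
      ⟨1, by rw [Subgroup.orderOf_mk, hconjorder, pow_one]⟩
    have hUp : IsPGroup 2 ((U : Subgroup _).map (Subgroup.centralizer ({x} : Set G)).subtype) :=
      U.2.map _
    obtain ⟨s, hs⟩ := exists_conj_le_sylow P _ hUp
    have h1 := hs _ (Subgroup.mem_map_of_mem _ hc1)
    have h2 := hs _ (Subgroup.mem_map_of_mem _ hc2)
    simp only [Subgroup.subtype_apply, Subgroup.coe_mul, InvMemClass.coe_inv] at h1 h2
    have k1 := hcP _ h1
    have k2 := hcP _ h2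
    have d1 : (s⁻¹)⁻¹ * ((c1 : G) * a) ∈ H := by
      apply lemD
      show (s⁻¹ * z * s⁻¹⁻¹) * ((c1 : G) * a * z * ((c1 : G) * a)⁻¹) = ((c1 : G) * a * z * ((c1 : G) * a)⁻¹) * (s⁻¹ * z * s⁻¹⁻¹)
      calc (s⁻¹ * z * s⁻¹⁻¹) * ((c1 : G) * a * z * ((c1 : G) * a)⁻¹)
          = s⁻¹ * (z * (s * (↑c1 * (a * z * a⁻¹) * (↑c1)⁻¹) * s⁻¹)) * s := by group
        _ = s⁻¹ * ((s * (↑c1 * (a * z * a⁻¹) * (↑c1)⁻¹) * s⁻¹) * z) * s := by rw [k1]
        _ = _ := by group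
    have d2 : (s⁻¹)⁻¹ * ((c2 : G) * b) ∈ H := by
      apply lemD
      show (s⁻¹ * z * s⁻¹⁻¹) * ((c2 : G) * b * z * ((c2 : G) * b)⁻¹) = ((c2 : G) * b * z * ((c2 : G) * b)⁻¹) * (s⁻¹ * z * s⁻¹⁻¹)
      calc (s⁻¹ * z * s⁻¹⁻¹) * ((c2 : G) * b * z * ((c2 : G) * b)⁻¹)
          = s⁻¹ * (z * (s * (↑c2 * (b * z * b⁻¹) * (↑c2)⁻¹) * s⁻¹)) * s := by group
        _ = s⁻¹ * ((s * (↑c2 * (b * z * b⁻¹) * (↑c2)⁻¹) * s⁻¹) * z) * s := by rw [k2]
        _ = _ := by group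
    refine ⟨((c2⁻¹ * c1 : Subgroup.centralizer ({x} : Set G)) : G), ?_, ?_⟩
    · exact Subgroup.mem_centralizer_singleton_iff.mp (c2⁻¹ * c1).2
    · have := H.mul_mem (H.inv_mem d2) d1
      have e : ((s⁻¹)⁻¹ * ((c2 : G) * b))⁻¹ * ((s⁻¹)⁻¹ * ((c1 : G) * a)) = b⁻¹ * ((c2⁻¹ * c1 : Subgroup.centralizer ({x} : Set G)) : G) * a := by
        simp only [Subgroup.coe_mul, InvMemClass.coe_inv]
        group
      rw [e] at this
      exact this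
  intro x hx hk g hg
  obtain ⟨h1, hh1, hp1⟩ := claimB x hx hk
  have hk' : ∃ k : ℕ, orderOf (g * x * g⁻¹) = 2 ^ k := by
    obtain ⟨k, hk⟩ := hk
    refine ⟨k, ?_⟩
    have := orderOf_injective (MulAut.conj g).toMonoidHom (MulAut.conj g).injective x
    simpa [hk] using this
  obtain ⟨h2, hh2, hp2⟩ := claimB _ hg hk'
  have k1 := hcP _ hp1
  have k2 := hcP _ hp2
  obtain ⟨c, hc, hcH⟩ := claimC x h1⁻¹ (h2 * g)⁻¹ (by
      show (h1⁻¹ * z * h1⁻¹⁻¹) * x = x * (h1⁻¹ * z * h1⁻¹⁻¹)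
      calc (h1⁻¹ * z * h1⁻¹⁻¹) * x = h1⁻¹ * (z * (h1 * x * h1⁻¹)) * h1 := by group
        _ = h1⁻¹ * ((h1 * x * h1⁻¹) * z) * h1 := by rw [k1]
        _ = _ := by group) (by
      show ((h2 * g)⁻¹ * z * (h2 * g)⁻¹⁻¹) * x = x * ((h2 * g)⁻¹ * z * (h2 * g)⁻¹⁻¹)
      calc ((h2 * g)⁻¹ * z * (h2 * g)⁻¹⁻¹) * x = (h2 * g)⁻¹ * (z * (h2 * (g * x * g⁻¹) * h2⁻¹)) * (h2 * g) := by group
        _ = (h2 * g)⁻¹ * ((h2 * (g * x * g⁻¹) * h2⁻¹) * z) * (h2 * g) := by rw [k2]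
        _ = _ := by group)
  refine ⟨g * c, ?_, ?_⟩
  · have := H.mul_mem (H.mul_mem (H.inv_mem hh2) hcH) hh1
    have e : h2⁻¹ * ((h2 * g)⁻¹⁻¹ * c * h1⁻¹) * h1 = g * c := by group
    rw [e] at this; exact this
  · calc g * c * x * (g * c)⁻¹ = g * (c * x) * c⁻¹ * g⁻¹ := by group
      _ = g * (x * c) * c⁻¹ * g⁻¹ := by rw [hc.eq]
      _ = g * x * g⁻¹ := by group

end Cfsg.Agent.S5438
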