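import Cfsg.Statements.S5439

set_option autoImplicit false
open Cfsg

namespace Cfsg.Agent.S5439

variable {G : Type*} [Group G]

theorem step_aux (a b : G) (ha : a * a = 1) (hb : b * b = 1) (k : ℕ) :
    (a * b) ^ (k + 2) * a = (a * b) * ((a * b) ^ k * a) * (a * b)⁻¹ := by
  have hainv : a⁻¹ = a := inv_eq_of_mul_eq_one_right ha
  have hbinv : b⁻¹ = b := inv_eq_of_mul_eq_one_right hb
  rw [mul_inv_rev, hainv, hbinv]
  have h1 : (a * b) ^ (k + 2) = (a * b) * (a * b) ^ k * (a * b) := by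
    rw [pow_succ, pow_succ']
  rw [h1]
  calc a * b * (a * b) ^ k * (a * b) * a = a * b * (a * b) ^ k * (a * b * a) := by group
    _ = a * b * (a * b) ^ k * ((a * a) * a * b * a) := by rw [ha]; group
    _ = a * b * ((a * b) ^ k * a) * ((a * a) * (b * a)) := by group
    _ = a * b * ((a * b) ^ k * a) * (b * a) := by rw [ha]; group

/-- for involutions `a b`, `(ab)^(2k) * a` is conjugate to `a`. -/
theorem conj_even (a b : G) (ha : a * a = 1) (hb : b * b = 1) (k : ℕ) :
    IsConj a ((a * b) ^ (2 * k) * a) := by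
  induction k with
  | zero => simpa using IsConj.refl a
  | succ k ih =>
    have : 2 * (k + 1) = 2 * k + 2 := by ring
    rw [this, step_aux a b ha hb]
    exact ih.trans (isConj_iff.mpr ⟨a * b, rfl⟩)

/-- for involutions `a b`, `(ab)^(2k+1) * a` is conjugate to `b`. -/
theorem conj_odd (a b : G) (ha : a * a = 1) (hb : b * b = 1) (k : ℕ) :
    IsConj b ((a * b) ^ (2 * k + 1) * a) := by
  induction k with
  | zero =>
    rw [isConj_iff]
    refine ⟨a, ?_⟩
    have : a⁻¹ = a := inv_eq_of_mul_eq_one_right ha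
    rw [this]; simp
  | succ k ih =>
    have : 2 * (k + 1) + 1 = (2 * k + 1) + 2 := by ring
    rw [this, step_aux a b ha hb]
    exact ih.trans (isConj_iff.mpr ⟨a * b, rfl⟩)

theorem sq_of_conj {a₀ a : G} (h : orderOf a₀ = 2) (hc : IsConj a₀ a) : a * a = 1 := by
  obtain ⟨c, hc⟩ := isConj_iff.mp hc
  have h2 : a₀ * a₀ = 1 := by
    have := pow_orderOf_eq_one a₀
    rw [h, pow_two] at this; exact this
  rw [← hc]
  calc c * a₀ * c⁻¹ * (c * a₀ * c⁻¹) = c * (a₀ * a₀) * c⁻¹ := by group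
    _ = 1 := by rw [h2]; group

theorem result {G : Type*} [Group G] [Finite G] (I J : Set G) (a₀ b₀ : G) (ha₀ : orderOf a₀ = 2) (hb₀ : orderOf b₀ = 2) (hI : I = {x | IsConj a₀ x}) (hJ : J = {x | IsConj b₀ x}) (hIJ : I ≠ J) (H : Subgroup G) (hfix : ∀ x ∈ I ∪ J, ∃! c : G ⧸ H, x • c = c) (hcent : ∀ a ∈ I, a ∈ H → ∀ b ∈ I ∪ J, b ∈ H → a ≠ b → a * b = b * a → Subgroup.centralizer ({a * b} : Set G) ≤ H) : H = ⊤ := by
  by_contra hne
  obtain ⟨g, hg⟩ : ∃ g : G, g ∉ H := by
    by_contra hcon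
    push Not at hcon
    exact hne (by rw [eq_top_iff]; intro x _; exact hcon x)
  -- fixing cosets
  have fixmk : ∀ (x y : G), x • (QuotientGroup.mk y : G ⧸ H) = QuotientGroup.mk y ↔ y⁻¹ * x * y ∈ H := by
    intro x y
    rw [MulAction.Quotient.smul_mk, QuotientGroup.eq]
    have : (x • y)⁻¹ * y = (y⁻¹ * x * y)⁻¹ := by simp [smul_eq_mul, mul_assoc]
    rw [this, inv_mem_iff]
  have ha₀I : a₀ ∈ I := by rw [hI]; exact IsConj.refl a₀
  have hb₀J : b₀ ∈ J := by rw [hJ]; exact IsConj.refl b₀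
  obtain ⟨c1, hc1, -⟩ := hfix a₀ (Or.inl ha₀I)
  obtain ⟨y, rfl⟩ := QuotientGroup.mk_surjective c1
  obtain ⟨c2, hc2, -⟩ := hfix b₀ (Or.inr hb₀J)
  obtain ⟨y', rfl⟩ := QuotientGroup.mk_surjective c2
  have hc1' := (fixmk a₀ y).mp hc1
  have hc2' := (fixmk b₀ y').mp hc2
  obtain ⟨a, ha_def⟩ : ∃ a, a = y⁻¹ * a₀ * y := ⟨_, rfl⟩
  obtain ⟨b, hb_def⟩ : ∃ b, b = (g * y'⁻¹) * b₀ * (g * y'⁻¹)⁻¹ := ⟨_, rfl⟩
  rw [← ha_def] at hc1'
  have haI : a ∈ I := by
    rw [hI]; exact isConj_iff.mpr ⟨y⁻¹, by simp [ha_def]⟩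
  have hbJ : b ∈ J := by
    rw [hJ]; exact isConj_iff.mpr ⟨g * y'⁻¹, hb_def.symm⟩
  have haa : a * a = 1 := sq_of_conj ha₀ (by rw [hI] at haI; exact haI)
  have hbb : b * b = 1 := sq_of_conj hb₀ (by rw [hJ] at hbJ; exact hbJ)
  have hbg : b • (QuotientGroup.mk g : G ⧸ H) = QuotientGroup.mk g := by
    rw [fixmk]
    have : g⁻¹ * b * g = y'⁻¹ * b₀ * y' := by rw [hb_def]; group
    rw [this]; exact hc2'
  have hbH : b ∉ H := by
    intro hb
    obtain ⟨c, _, hu⟩ := hfix b (Or.inr hbJ)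
    have e1 : (QuotientGroup.mk 1 : G ⧸ H) = c := hu _ ((fixmk _ _).mpr (by simpa using hb))
    have e2 : (QuotientGroup.mk g : G ⧸ H) = c := hu _ hbg
    have e3 := e1.trans e2.symm
    rw [QuotientGroup.eq] at e3
    exact hg (by simpa using e3)
  have hainv : a⁻¹ = a := inv_eq_of_mul_eq_one_right haa
  have hbinv : b⁻¹ = b := inv_eq_of_mul_eq_one_right hbb
  have hnpos : 0 < orderOf (a * b) := orderOf_pos _
  rcases Nat.even_or_odd' (orderOf (a * b)) with ⟨m, hm | hm⟩
  · -- even order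
    obtain ⟨t, ht_def⟩ : ∃ t, t = (a * b) ^ m := ⟨_, rfl⟩
    have htt : t * t = 1 := by
      rw [ht_def, ← pow_add, ← two_mul, ← hm, pow_orderOf_eq_one]
    have ht1 : t ≠ 1 := by
      rw [ht_def]
      apply pow_ne_one_of_lt_orderOf <;> omega
    have htinv : t⁻¹ = t := inv_eq_of_mul_eq_one_right htt
    have hat : a * t * a⁻¹ = t := by
      rw [ht_def, ← conj_pow]
      have : a * (a * b) * a⁻¹ = (a * b)⁻¹ := by
        rw [mul_inv_rev, hainv, hbinv, ← mul_assoc, haa, one_mul]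
      rw [this, inv_pow, ← ht_def, htinv]
    have hbt : b * t * b⁻¹ = t := by
      rw [ht_def, ← conj_pow]
      have : b * (a * b) * b⁻¹ = (a * b)⁻¹ := by
        rw [mul_inv_rev, hainv, hbinv]
        calc b * (a * b) * b = b * a * (b * b) := by group
          _ = b * a := by rw [hbb, mul_one]
      rw [this, inv_pow, ← ht_def, htinv]
    have hat' : a * t = t * a := by
      have := congrArg (· * a) hat
      simpa using this
    have hbt' : b * t = t * b := by
      have := congrArg (· * b) hbt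
      simpa using this
    have htH : t ∈ H := by
      obtain ⟨c, _, hu⟩ := hfix a (Or.inl haI)
      have e1 : (QuotientGroup.mk 1 : G ⧸ H) = c := hu _ ((fixmk _ _).mpr (by simpa using hc1'))
      have e2 : (QuotientGroup.mk t : G ⧸ H) = c := hu _ ((fixmk _ _).mpr (by
        have : t⁻¹ * a * t = a := by
          rw [mul_assoc, hat', ← mul_assoc, inv_mul_cancel, one_mul]
        rw [this]; exact hc1'))
      have e3 := e1.trans e2.symm
      rw [QuotientGroup.eq] at e3
      simpa using e3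
    have hcIJ : t * a ∈ I ∪ J := by
      rcases Nat.even_or_odd' m with ⟨k, hk | hk⟩
      · left
        rw [hI] at haI ⊢
        have := conj_even a b haa hbb k
        rw [← hk, ← ht_def] at this
        exact IsConj.trans haI this
      · right
        rw [hJ] at hbJ ⊢
        have := conj_odd a b haa hbb k
        rw [← hk, ← ht_def] at this
        exact IsConj.trans hbJ this
    have hac : a * (t * a) = t := by
      rw [← mul_assoc, hat', mul_assoc, haa, mul_one]
    have hca : (t * a) * a = t := by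
      rw [mul_assoc, haa, mul_one]
    have hle := hcent a haI hc1' (t * a) hcIJ (H.mul_mem htH hc1')
      (by intro h; apply ht1; have := congrArg (· * a⁻¹) h; simpa using this.symm)
      (by rw [hac, hca])
    rw [hac] at hle
    exact hbH (hle (by rw [Subgroup.mem_centralizer_singleton_iff]; exact hbt'))
  · -- odd order: a and b are conjugate
    have h1 := conj_odd a b haa hbb m
    rw [← hm, pow_orderOf_eq_one, one_mul] at h1
    apply hIJ
    rw [hI] at haI
    rw [hJ] at hbJ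
    have h2 : IsConj a₀ b₀ := haI.trans (h1.symm.trans hbJ.symm)
    rw [hI, hJ]
    ext x
    show IsConj a₀ x ↔ IsConj b₀ x
    exact ⟨fun h => h2.symm.trans h, fun h => h2.trans h⟩

end Cfsg.Agent.S5439
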