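import Cfsg.Statements.S5459
-- import your own Cfsg.Agent.* helpers here

set_option autoImplicit false
open Cfsg
open scoped commutatorElement

namespace Cfsg.Agent.S5459

section aux
variable {G : Type*} [Group G]

/-- reachability in the commuting graph, phrased on elements of the group -/
def Reach (D : Set G) (x y : G) : Prop :=
  ∃ (hx : x ∈ D) (hy : y ∈ D), (Cfsg.commutingGraph D).Reachable ⟨x, hx⟩ ⟨y, hy⟩

theorem Reach.refl {D : Set G} {x : G} (hx : x ∈ D) : Reach D x x :=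
  ⟨hx, hx, SimpleGraph.Reachable.refl _⟩

theorem Reach.symm {D : Set G} {x y : G} (h : Reach D x y) : Reach D y x := by
  obtain ⟨hx, hy, h⟩ := h
  exact ⟨hy, hx, h.symm⟩

theorem Reach.trans {D : Set G} {x y z : G} (h : Reach D x y) (h' : Reach D y z) :
    Reach D x z := by
  obtain ⟨hx, hy, h⟩ := h
  obtain ⟨hy', hz, h'⟩ := h'
  exact ⟨hx, hz, h.trans h'⟩

theorem Reach.of_commute {D : Set G} {x y : G} (hx : x ∈ D) (hy : y ∈ D) (h : Commute x y) :
    Reach D x y := by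
  refine ⟨hx, hy, ?_⟩
  by_cases hxy : x = y
  · subst hxy; exact SimpleGraph.Reachable.refl _
  · apply SimpleGraph.Adj.reachable
    rw [Cfsg.commutingGraph, SimpleGraph.fromRel_adj]
    exact ⟨fun h => hxy (congrArg Subtype.val h), Or.inl h⟩

theorem Reach.conj {D : Set G} (hD : ∀ g x, x ∈ D → g * x * g⁻¹ ∈ D) {x y : G} (g : G)
    (h : Reach D x y) : Reach D (g * x * g⁻¹) (g * y * g⁻¹) := by
  obtain ⟨hx, hy, h⟩ := h
  refine ⟨hD g x hx, hD g y hy, ?_⟩
  let f : Cfsg.commutingGraph D →g Cfsg.commutingGraph D :=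
    { toFun := fun v => ⟨g * v.1 * g⁻¹, hD g v.1 v.2⟩
      map_rel' := by
        intro a b hab
        rw [Cfsg.commutingGraph, SimpleGraph.fromRel_adj] at hab ⊢
        obtain ⟨hne, hc⟩ := hab
        refine ⟨?_, ?_⟩
        · intro h
          apply hne
          have h1 : g * a.1 * g⁻¹ = g * b.1 * g⁻¹ := congrArg Subtype.val h
          apply Subtype.ext
          simpa using h1
        · have hc' : Commute a.1 b.1 := by
            rcases hc with hc | hc
            · exact hc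
            · exact hc.symm
          left
          show Commute (g * a.1 * g⁻¹) (g * b.1 * g⁻¹)
          have := hc'.eq
          unfold Commute SemiconjBy
          calc g * a.1 * g⁻¹ * (g * b.1 * g⁻¹) = g * (a.1 * b.1) * g⁻¹ := by group
            _ = g * (b.1 * a.1) * g⁻¹ := by rw [this]
            _ = g * b.1 * g⁻¹ * (g * a.1 * g⁻¹) := by group }
  exact h.map f

theorem comm_calc (y u w : G) (h1 : y * u * y⁻¹ = u⁻¹) (h2 : w * u * w⁻¹ = u⁻¹)
    (h3 : y * w * y⁻¹ * w⁻¹ = u ^ 4) : Commute y (u * w * u⁻¹) := by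
  have e1 : y * u = u⁻¹ * y := by
    calc y * u = (y * u * y⁻¹) * y := by group
      _ = u⁻¹ * y := by rw [h1]
  have e1' : y * u⁻¹ = u * y := by
    calc y * u⁻¹ = u * (u⁻¹ * y) * u⁻¹ := by group
      _ = u * (y * u) * u⁻¹ := by rw [e1]
      _ = u * y := by group
  have e2 : w * u = u⁻¹ * w := by
    calc w * u = (w * u * w⁻¹) * w := by group
      _ = u⁻¹ * w := by rw [h2]
  have e2' : w * u⁻¹ = u * w := by
    calc w * u⁻¹ = u * (u⁻¹ * w) * u⁻¹ := by group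
      _ = u * (w * u) * u⁻¹ := by rw [e2]
      _ = u * w := by group
  have e3 : y * w = u ^ 4 * w * y := by
    calc y * w = (y * w * y⁻¹ * w⁻¹) * w * y := by group
      _ = u ^ 4 * w * y := by rw [h3]
  unfold Commute SemiconjBy
  calc y * (u * w * u⁻¹) = (y * u) * w * u⁻¹ := by group
    _ = u⁻¹ * (y * w) * u⁻¹ := by rw [e1]; group
    _ = u ^ 3 * w * (y * u⁻¹) := by rw [e3]; group
    _ = u ^ 3 * (w * u) * y := by rw [e1']; group
    _ = u * (u * w) * y := by rw [e2, pow_succ, pow_succ, pow_one]; simp only [mul_assoc, mul_inv_cancel_left]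
    _ = u * (w * u⁻¹) * y := by rw [e2']
    _ = u * w * u⁻¹ * y := by simp only [mul_assoc]

theorem conj_calc (y u : G) (h1 : y * u * y⁻¹ = u⁻¹) : u * y * u⁻¹ = u ^ 2 * y := by
  have e1 : y * u = u⁻¹ * y := by
    calc y * u = (y * u * y⁻¹) * y := by group
      _ = u⁻¹ * y := by rw [h1]
  have e1' : y * u⁻¹ = u * y := by
    calc y * u⁻¹ = u * (u⁻¹ * y) * u⁻¹ := by group
      _ = u * (y * u) * u⁻¹ := by rw [e1]
      _ = u * y := by group
  calc u * y * u⁻¹ = u * (y * u⁻¹) := by group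
    _ = u ^ 2 * y := by rw [e1', pow_two]; simp only [mul_assoc]

theorem exists_root (Z : Subgroup G) (hodd : Odd (Nat.card Z)) (k : ℕ) (z : G) (hz : z ∈ Z) :
    ∃ u ∈ Z, u ^ (2 ^ k) = z := by
  have hcop : (Nat.card Z).Coprime (2 ^ k) := by
    apply Nat.Coprime.pow_right
    exact Nat.coprime_two_right.mpr hodd
  obtain ⟨u, hu⟩ := (powCoprime hcop).surjective ⟨z, hz⟩
  refine ⟨u.1, u.2, ?_⟩
  have := congrArg Subtype.val hu
  simpa using this

end aux

/-- Let G be a finite group with a quasisimple normal subgroup L and an involution d such that G is generated by L and d, the centre of L has odd order, and d inverts every element of the centre of L. If the commuting graph on the conjugacy class of the image of d in G modulo the centre of L is connected, then the commuting graph on the conjugacy class of d is connected. -/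
theorem result {G : Type*} [Group G] [Finite G] (L : Subgroup G) [L.Normal] (hL : Cfsg.IsQuasisimple ↥L) (d : G) (hd : orderOf d = 2) (hgen : L ⊔ Subgroup.zpowers d = ⊤) (hodd : Odd (Nat.card ↥(Subgroup.center ↥L))) (hinv : ∀ c ∈ (Subgroup.center ↥L).map L.subtype, d * c * d⁻¹ = c⁻¹) [hn : ((Subgroup.center ↥L).map L.subtype).Normal] (hconn : (Cfsg.commutingGraph (conjugatesOf (QuotientGroup.mk d : G ⧸ (Subgroup.center ↥L).map L.subtype))).Connected) : (Cfsg.commutingGraph (conjugatesOf d)).Connected := by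
  set Z : Subgroup G := (Subgroup.center ↥L).map L.subtype with hZ
  set D : Set G := conjugatesOf d with hDdef
  have hoddZ : Odd (Nat.card Z) := by
    have : Nat.card Z = Nat.card (Subgroup.center ↥L) :=
      Subgroup.card_map_of_injective L.subtype_injective
    rw [this]; exact hodd
  have hdD : d ∈ D := mem_conjugatesOf_self
  have memD : ∀ x, x ∈ D ↔ ∃ g, g * d * g⁻¹ = x := by
    intro x
    rw [hDdef]; show IsConj d x ↔ _; rw [isConj_iff]
  have hDconj : ∀ g x, x ∈ D → g * x * g⁻¹ ∈ D := by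
    intro g x hx
    obtain ⟨k, rfl⟩ := (memD x).1 hx
    exact (memD _).2 ⟨g * k, by group⟩
  -- every member of D inverts Z
  have hinvD : ∀ x ∈ D, ∀ c ∈ Z, x * c * x⁻¹ = c⁻¹ := by
    intro x hx c hc
    obtain ⟨k, rfl⟩ := (memD x).1 hx
    have hc' : k⁻¹ * c * k⁻¹⁻¹ ∈ Z := hn.conj_mem c hc k⁻¹
    have := hinv _ hc'
    calc k * d * k⁻¹ * c * (k * d * k⁻¹)⁻¹ = k * (d * (k⁻¹ * c * k⁻¹⁻¹) * d⁻¹) * k⁻¹ := by group
      _ = k * (k⁻¹ * c * k⁻¹⁻¹)⁻¹ * k⁻¹ := by rw [this]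
      _ = c⁻¹ := by group
  have hZL : Z ≤ L := by
    rintro _ ⟨c, _, rfl⟩
    exact c.2
  have hZcent : ∀ c ∈ Z, ∀ l ∈ L, c * l = l * c := by
    rintro _ ⟨c, hc, rfl⟩ l hl
    have := (Subgroup.mem_center_iff.1 hc) ⟨l, hl⟩
    have h2 := congrArg Subtype.val this
    simpa using h2.symm
  -- the stabiliser of the component of d
  let H : Subgroup G :=
    { carrier := {g | Reach D d (g * d * g⁻¹)}
      one_mem' := by
        show Reach D d (1 * d * 1⁻¹)
        simpa using Reach.refl hdD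
      mul_mem' := by
        intro a b ha hb
        show Reach D d (a * b * d * (a * b)⁻¹)
        have h1 : Reach D (a * d * a⁻¹) (a * (b * d * b⁻¹) * a⁻¹) := Reach.conj hDconj a hb
        have h2 : a * (b * d * b⁻¹) * a⁻¹ = a * b * d * (a * b)⁻¹ := by group
        rw [h2] at h1
        exact Reach.trans ha h1
      inv_mem' := by
        intro a ha
        show Reach D d (a⁻¹ * d * a⁻¹⁻¹)
        have h1 : Reach D (a⁻¹ * d * a⁻¹⁻¹) (a⁻¹ * (a * d * a⁻¹) * a⁻¹⁻¹) :=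
          Reach.conj hDconj a⁻¹ ha
        have h2 : a⁻¹ * (a * d * a⁻¹) * a⁻¹⁻¹ = d := by group
        rw [h2] at h1
        exact h1.symm }
  have memH : ∀ g, g ∈ H ↔ Reach D d (g * d * g⁻¹) := fun g => Iff.rfl
  -- path lifting
  have hlift : ∀ v : conjugatesOf (QuotientGroup.mk d : G ⧸ Z),
      ∃ y, Reach D d y ∧ (QuotientGroup.mk y : G ⧸ Z) = v.1 := by
    intro v
    have hr := hconn.preconnected ⟨(QuotientGroup.mk d : G ⧸ Z), mem_conjugatesOf_self⟩ v
    rw [SimpleGraph.reachable_iff_reflTransGen] at hr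
    induction hr with
    | refl => exact ⟨d, Reach.refl hdD, rfl⟩
    | @tail b c _ hbc ih =>
      obtain ⟨y, hy, hyb⟩ := ih
      rw [Cfsg.commutingGraph, SimpleGraph.fromRel_adj] at hbc
      obtain ⟨_, hcomm⟩ := hbc
      have hcomm' : Commute b.1 c.1 := by
        rcases hcomm with h | h
        · exact h
        · exact h.symm
      -- a lift of c in D
      have hc : IsConj (QuotientGroup.mk d : G ⧸ Z) c.1 := c.2
      rw [isConj_iff] at hc
      obtain ⟨gbar, hg⟩ := hc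
      obtain ⟨g, rfl⟩ := QuotientGroup.mk_surjective gbar
      set w := g * d * g⁻¹ with hw
      have hwD : w ∈ D := (memD w).2 ⟨g, rfl⟩
      have hwc : (QuotientGroup.mk w : G ⧸ Z) = c.1 := by
        rw [← hg, hw]; simp
      have hyD : y ∈ D := hy.2.1
      have hz : y * w * y⁻¹ * w⁻¹ ∈ Z := by
        rw [← QuotientGroup.eq_one_iff]
        have : ((y * w * y⁻¹ * w⁻¹ : G) : G ⧸ Z) = b.1 * c.1 * (b.1)⁻¹ * (c.1)⁻¹ := by
          rw [← hyb, ← hwc]; simp
        rw [this, hcomm'.eq]; group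
      obtain ⟨u, huZ, hu⟩ := exists_root Z hoddZ 2 _ hz
      have hu4 : y * w * y⁻¹ * w⁻¹ = u ^ 4 := by rw [← hu]; norm_num
      have hcm : Commute y (u * w * u⁻¹) :=
        comm_calc y u w (hinvD y hyD u huZ) (hinvD w hwD u huZ) hu4
      refine ⟨u * w * u⁻¹, hy.trans (Reach.of_commute hyD (hDconj u w hwD) hcm), ?_⟩
      rw [← hwc]
      have hu1 : (QuotientGroup.mk u : G ⧸ Z) = 1 := (QuotientGroup.eq_one_iff u).2 huZ
      simp [hu1]
  -- G = Z H
  have hZH : ∀ g : G, ∃ u ∈ Z, ∃ h ∈ H, g = u * h := by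
    intro g
    have hx : (QuotientGroup.mk (g * d * g⁻¹) : G ⧸ Z) ∈
        conjugatesOf (QuotientGroup.mk d : G ⧸ Z) := by
      show IsConj _ _
      rw [isConj_iff]
      exact ⟨QuotientGroup.mk g, by simp⟩
    obtain ⟨y, hy, hyx⟩ := hlift ⟨_, hx⟩
    have hyD : y ∈ D := hy.2.1
    obtain ⟨k, hk⟩ := (memD y).1 hyD
    have hkH : k ∈ H := by rw [memH, hk]; exact hy
    have hz : (g * d * g⁻¹) * y⁻¹ ∈ Z := by
      rw [← QuotientGroup.eq_one_iff]
      have : (((g * d * g⁻¹) * y⁻¹ : G) : G ⧸ Z) =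
          (QuotientGroup.mk (g * d * g⁻¹) : G ⧸ Z) * (QuotientGroup.mk y : G ⧸ Z)⁻¹ := by simp
      rw [this, hyx]; simp
    obtain ⟨u, huZ, hu⟩ := exists_root Z hoddZ 1 _ hz
    have hconj : u * y * u⁻¹ = g * d * g⁻¹ := by
      rw [conj_calc y u (hinvD y hyD u huZ)]
      have : u ^ 2 = g * d * g⁻¹ * y⁻¹ := by rw [← hu]; norm_num
      rw [this]; group
    have hcH : (u * k)⁻¹ * g ∈ H := by
      rw [memH]
      have : (u * k)⁻¹ * g * d * ((u * k)⁻¹ * g)⁻¹ = d := by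
        calc (u * k)⁻¹ * g * d * ((u * k)⁻¹ * g)⁻¹ = k⁻¹ * u⁻¹ * (g * d * g⁻¹) * u * k := by group
          _ = k⁻¹ * u⁻¹ * (u * (k * d * k⁻¹) * u⁻¹) * u * k := by rw [← hconj, hk]
          _ = d := by group
      rw [this]; exact Reach.refl hdD
    exact ⟨u, huZ, k * ((u * k)⁻¹ * g), H.mul_mem hkH hcH, by group⟩
  -- L ≤ H by perfectness
  have hLH : L ≤ H := by
    have hperf : ⁅L, L⁆ = L := Subgroup.isPerfect_iff.1 hL.1
    rw [← hperf, Subgroup.commutator_le]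
    intro a ha b hb
    obtain ⟨u1, hu1, h1, hh1, rfl⟩ := hZH a
    obtain ⟨u2, hu2, h2, hh2, rfl⟩ := hZH b
    have hl1 : h1 ∈ L := by
      have := L.mul_mem (L.inv_mem (hZL hu1)) ha
      simpa using this
    have hl2 : h2 ∈ L := by
      have := L.mul_mem (L.inv_mem (hZL hu2)) hb
      simpa using this
    have e : ⁅u1 * h1, u2 * h2⁆ = ⁅h1, h2⁆ := by
      rw [commutatorElement_def, commutatorElement_def]
      have c11 := hZcent u1 hu1 h1 hl1
      have c12 := hZcent u1 hu1 h2 hl2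
      have c1u := hZcent u1 hu1 u2 (hZL hu2)
      have c21 := hZcent u2 hu2 h1 hl1
      have c22 := hZcent u2 hu2 h2 hl2
      have c21' : u2 * h1⁻¹ = h1⁻¹ * u2 := hZcent u2 hu2 _ (L.inv_mem hl1)
      have c12' : u1 * h2⁻¹ = h2⁻¹ * u1 := hZcent u1 hu1 _ (L.inv_mem hl2)
      have c11' : u1 * h1⁻¹ = h1⁻¹ * u1 := hZcent u1 hu1 _ (L.inv_mem hl1)
      have c22' : u2 * h2⁻¹ = h2⁻¹ * u2 := hZcent u2 hu2 _ (L.inv_mem hl2)
      calc u1 * h1 * (u2 * h2) * (u1 * h1)⁻¹ * (u2 * h2)⁻¹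
          = u1 * h1 * (u2 * h2) * h1⁻¹ * u1⁻¹ * h2⁻¹ * u2⁻¹ := by group
        _ = u1 * h1 * (h2 * u2) * h1⁻¹ * u1⁻¹ * h2⁻¹ * u2⁻¹ := by rw [c22]
        _ = u1 * h1 * h2 * (u2 * h1⁻¹) * u1⁻¹ * h2⁻¹ * u2⁻¹ := by group
        _ = u1 * h1 * h2 * (h1⁻¹ * u2) * u1⁻¹ * h2⁻¹ * u2⁻¹ := by rw [c21']
        _ = (u1 * h1) * h2 * h1⁻¹ * u2 * u1⁻¹ * h2⁻¹ * u2⁻¹ := by group
        _ = (h1 * u1) * h2 * h1⁻¹ * u2 * u1⁻¹ * h2⁻¹ * u2⁻¹ := by rw [c11]
        _ = h1 * (u1 * h2) * h1⁻¹ * u2 * u1⁻¹ * h2⁻¹ * u2⁻¹ := by group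
        _ = h1 * (h2 * u1) * h1⁻¹ * u2 * u1⁻¹ * h2⁻¹ * u2⁻¹ := by rw [c12]
        _ = h1 * h2 * (u1 * h1⁻¹) * u2 * u1⁻¹ * h2⁻¹ * u2⁻¹ := by group
        _ = h1 * h2 * (h1⁻¹ * u1) * u2 * u1⁻¹ * h2⁻¹ * u2⁻¹ := by rw [c11']
        _ = h1 * h2 * h1⁻¹ * (u1 * u2) * u1⁻¹ * h2⁻¹ * u2⁻¹ := by group
        _ = h1 * h2 * h1⁻¹ * (u2 * u1) * u1⁻¹ * h2⁻¹ * u2⁻¹ := by rw [c1u]
        _ = h1 * h2 * h1⁻¹ * (u2 * h2⁻¹) * u2⁻¹ := by group
        _ = h1 * h2 * h1⁻¹ * (h2⁻¹ * u2) * u2⁻¹ := by rw [c22']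
        _ = h1 * h2 * h1⁻¹ * h2⁻¹ := by group
    rw [e]
    rw [commutatorElement_def]
    exact H.mul_mem (H.mul_mem (H.mul_mem hh1 hh2) (H.inv_mem hh1)) (H.inv_mem hh2)
  have hHtop : ∀ g : G, g ∈ H := by
    intro g
    obtain ⟨u, hu, h, hh, rfl⟩ := hZH g
    exact H.mul_mem (hLH (hZL hu)) hh
  have hall : ∀ v : D, (Cfsg.commutingGraph D).Reachable ⟨d, hdD⟩ v := by
    intro v
    obtain ⟨g, hg⟩ := (memD v.1).1 v.2
    have := (memH g).1 (hHtop g)
    obtain ⟨_, _, h⟩ := this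
    have hv : (⟨g * d * g⁻¹, by rw [hg]; exact v.2⟩ : D) = v := Subtype.ext hg
    rw [← hv]
    exact h
  have : Nonempty D := ⟨⟨d, hdD⟩⟩
  refine SimpleGraph.Connected.mk ?_
  intro v w
  exact (hall v).symm.trans (hall w)

end Cfsg.Agent.S5459
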