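import Cfsg.Statements.S5515
import Cfsg.Agent.Lib.Helper45.ASUniq
import Cfsg.Agent.Lib.Helper45.POutWrap
import Cfsg.Agent.S1265

set_option autoImplicit false
open Cfsg

namespace Cfsg.Agent.S5515

/-- Let G and G′ be finite groups whose generalized Fitting subgroups are isomorphic to PΩ⁺(8, 3) (the commutator subgroup of the isometry group of the hyperbolic quadratic form in dimension 8 over the field with three elements, modulo its centre) with quotients isomorphic to the symmetric group of degree 3. Then G and G′ are isomorphic. -/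
theorem result {G G' : Type*} [Group G] [Finite G] [Group G'] [Finite G'] (hF : Nonempty (↥(Cfsg.generalizedFittingSubgroup G) ≃* Cfsg.POmega (ZMod 3) (Cfsg.quadFormPlus 4 (ZMod 3)))) (hF' : Nonempty (↥(Cfsg.generalizedFittingSubgroup G') ≃* Cfsg.POmega (ZMod 3) (Cfsg.quadFormPlus 4 (ZMod 3)))) [hn : (Cfsg.generalizedFittingSubgroup G).Normal] [hn' : (Cfsg.generalizedFittingSubgroup G').Normal] (hq : Nonempty (G ⧸ Cfsg.generalizedFittingSubgroup G ≃* Equiv.Perm (Fin 3))) (hq' : Nonempty (G' ⧸ Cfsg.generalizedFittingSubgroup G' ≃* Equiv.Perm (Fin 3))) : Nonempty (G ≃* G') := by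
  classical
  obtain ⟨e⟩ := hF
  obtain ⟨e'⟩ := hF'
  obtain ⟨q⟩ := hq
  obtain ⟨q'⟩ := hq'
  obtain ⟨o⟩ := Cfsg.Agent.Lib.Helper45.POut.out_eight_odd (F := ZMod 3)
    (by rw [ZMod.ringChar_zmod_n]; norm_num)
  have hZ : Function.Injective (MulAut.conj : Cfsg.POmega (ZMod 3) (Cfsg.quadFormPlus 4 (ZMod 3)) →*
      MulAut (Cfsg.POmega (ZMod 3) (Cfsg.quadFormPlus 4 (ZMod 3)))) := by
    have h1 := Cfsg.Agent.Lib.Helper13.OOut.conj_injective (Cfsg.Agent.Lib.Helper44.plusQF 4 (ZMod 3))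
      (Cfsg.Agent.Lib.Helper44.plusQF_nondeg 4 (ZMod 3)) (by simp)
    rw [Cfsg.Agent.Lib.Helper44.plusQF_coe] at h1
    exact h1
  let _ : Unique (ZMod 3 ≃+* ZMod 3) := Unique.mk' _
  have o' : Cfsg.Out (Cfsg.POmega (ZMod 3) (Cfsg.quadFormPlus 4 (ZMod 3))) ≃* Equiv.Perm (Fin 4) :=
    o.trans MulEquiv.prodUnique
  have h6 : (Cfsg.generalizedFittingSubgroup G).index = 6 := by
    rw [Subgroup.index, Nat.card_congr q.toEquiv, Nat.card_eq_fintype_card, Fintype.card_perm,
      Fintype.card_fin]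
    rfl
  have h6' : (Cfsg.generalizedFittingSubgroup G').index = 6 := by
    rw [Subgroup.index, Nat.card_congr q'.toEquiv, Nat.card_eq_fintype_card, Fintype.card_perm,
      Fintype.card_fin]
    rfl
  exact Cfsg.Agent.Lib.Helper45.ASU.iso_of_out_s4 _ _ e e' Cfsg.Agent.S1265.result
    Cfsg.Agent.S1265.result hZ o' h6 h6'

end Cfsg.Agent.S5515
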