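import Cfsg.Statements.S5541

set_option autoImplicit false
open Cfsg

namespace Cfsg.Agent.S5541

theorem result {H : Type*} [Group H] {U : Type*} [AddCommGroup U] [Module ℝ U] [FiniteDimensional ℝ U] (ρ : Representation ℝ H U) (hirr : ∀ W : Submodule ℝ U, (∀ g : H, W.map (ρ g) ≤ W) → W = ⊥ ∨ W = ⊤) (B : LinearMap.BilinForm ℝ U) (hB0 : B ≠ 0) (hBs : ∀ u v, B u v = B v u) (hBi : ∀ (g : H) (u v : U), B (ρ g u) (ρ g v) = B u v) : (∃ m : U →ₗ[ℝ] U →ₗ[ℝ] U, m ≠ 0 ∧ (∀ u v, m u v = m v u) ∧ (∀ (g : H) (u v : U), m (ρ g u) (ρ g v) = ρ g (m u v)) ∧ ∀ m' : U →ₗ[ℝ] U →ₗ[ℝ] U, (∀ (g : H) (u v : U), m' (ρ g u) (ρ g v) = ρ g (m' u v)) → ∃ c : ℝ, m' = c • m) ↔ (∃ t : U →ₗ[ℝ] U →ₗ[ℝ] U →ₗ[ℝ] ℝ, t ≠ 0 ∧ (∀ u v w, t u v w = t v u w ∧ t u v w = t u w v) ∧ (∀ (g : H) (u v w : U), t (ρ g u) (ρ g v) (ρ g w) = t u v w) ∧ ∀ t' : U →ₗ[ℝ] U →ₗ[ℝ] U →ₗ[ℝ] ℝ, (∀ (g : H) (u v w : U), t' (ρ g u) (ρ g v) (ρ g w) = t' u v w) → ∃ c : ℝ, t'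 = c • t) := by
  -- surjectivity of ρ g
  have hsurj : ∀ (g : H) (v : U), ρ g (ρ g⁻¹ v) = v := by
    intro g v
    have : (ρ g * ρ g⁻¹) v = v := by rw [← map_mul, mul_inv_cancel, map_one]; rfl
    exact this
  -- left separating
  have hker : LinearMap.ker B = ⊥ := by
    rcases hirr (LinearMap.ker B) (by
      intro g
      rintro _ ⟨w, hw, rfl⟩
      rw [SetLike.mem_coe, LinearMap.mem_ker] at hw
      rw [LinearMap.mem_ker]
      ext v
      have h1 : B (ρ g w) (ρ g (ρ g⁻¹ v)) = B w (ρ g⁻¹ v) := hBi g w _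
      rw [hsurj] at h1
      rw [h1, hw]; rfl) with h | h
    · exact h
    · exfalso
      apply hB0
      exact LinearMap.ker_eq_top.mp h
  have hsepL : ∀ x : U, (∀ y, B x y = 0) → x = 0 := by
    intro x hx
    have : x ∈ LinearMap.ker B := by
      rw [LinearMap.mem_ker]; ext y; exact hx y
    rw [hker] at this
    exact (Submodule.mem_bot ℝ).mp this
  have hnd : B.Nondegenerate := by
    refine ⟨hsepL, ?_⟩
    intro y hy
    exact hsepL y (fun x => by rw [hBs]; exact hy x)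
  have hext : ∀ x y : U, (∀ w, B x w = B y w) → x = y := by
    intro x y h
    have : x - y = 0 := hsepL _ (fun w => by rw [map_sub, LinearMap.sub_apply, h w, sub_self])
    exact sub_eq_zero.mp this
  -- the two transfer maps
  let Φ : (U →ₗ[ℝ] U →ₗ[ℝ] U) → (U →ₗ[ℝ] U →ₗ[ℝ] U →ₗ[ℝ] ℝ) := fun m => m.compr₂ B
  let Ψ : (U →ₗ[ℝ] U →ₗ[ℝ] U →ₗ[ℝ] ℝ) → (U →ₗ[ℝ] U →ₗ[ℝ] U) :=
    fun t => t.compr₂ (B.toDual hnd).symm.toLinearMap
  have hΦ : ∀ m u v w, Φ m u v w = B (m u v) w := fun m u v w => rfl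
  have hΨ : ∀ t u v w, B (Ψ t u v) w = t u v w := by
    intro t u v w
    exact LinearMap.BilinForm.apply_toDual_symm_apply (hB := hnd) (t u v) w
  have hΦinv : ∀ m : U →ₗ[ℝ] U →ₗ[ℝ] U, (∀ (g : H) (u v : U), m (ρ g u) (ρ g v) = ρ g (m u v)) →
      ∀ (g : H) (u v w : U), Φ m (ρ g u) (ρ g v) (ρ g w) = Φ m u v w := by
    intro m hm g u v w
    rw [hΦ, hΦ, hm, hBi]
  have hΨeq : ∀ t : U →ₗ[ℝ] U →ₗ[ℝ] U →ₗ[ℝ] ℝ,
      (∀ (g : H) (u v w : U), t (ρ g u) (ρ g v) (ρ g w) = t u v w) →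
      ∀ (g : H) (u v : U), Ψ t (ρ g u) (ρ g v) = ρ g (Ψ t u v) := by
    intro t ht g u v
    apply hext
    intro w
    have h1 : B (ρ g (Ψ t u v)) (ρ g (ρ g⁻¹ w)) = B (Ψ t u v) (ρ g⁻¹ w) := hBi g _ _
    rw [hsurj] at h1
    rw [h1, hΨ, hΨ]
    have h2 := ht g u v (ρ g⁻¹ w)
    rw [hsurj] at h2
    exact h2
  constructor
  · rintro ⟨m, hm0, hmc, hme, hmu⟩
    have huniq : ∀ t' : U →ₗ[ℝ] U →ₗ[ℝ] U →ₗ[ℝ] ℝ,
        (∀ (g : H) (u v w : U), t' (ρ g u) (ρ g v) (ρ g w) = t' u v w) → ∃ c : ℝ, t' = c • Φ m := by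
      intro t' ht'
      obtain ⟨c, hc⟩ := hmu (Ψ t') (hΨeq t' ht')
      refine ⟨c, ?_⟩
      ext u v w
      rw [← hΨ, hc]
      simp [hΦ]
    have ht0 : Φ m ≠ 0 := by
      intro h
      apply hm0
      ext u v
      apply hext
      intro w
      have : Φ m u v w = 0 := by rw [h]; rfl
      rw [hΦ] at this
      simp [this]
    have hs1 : ∀ u v w, Φ m u v w = Φ m v u w := by
      intro u v w
      rw [hΦ, hΦ, hmc]
    -- the twisted form
    let t2 : U →ₗ[ℝ] U →ₗ[ℝ] U →ₗ[ℝ] ℝ :=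
      LinearMap.mk₂ ℝ (fun u v => (Φ m u).flip v)
        (by intro a b c; ext w; simp)
        (by intro r a b; ext w; simp)
        (by intro a b c; ext w; simp)
        (by intro r a b; ext w; simp)
    have ht2 : ∀ u v w, t2 u v w = Φ m u w v := fun u v w => rfl
    obtain ⟨c, hc⟩ := huniq t2 (by
      intro g u v w
      rw [ht2, ht2]
      exact hΦinv m hme g u w v)
    have hc' : ∀ u v w, Φ m u w v = c * Φ m u v w := by
      intro u v w
      rw [← ht2, hc]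
      simp
    have hs2 : ∀ u v w, Φ m u v w = Φ m u w v := by
      -- c^2 = 1
      obtain ⟨u0, v0, w0, h0⟩ : ∃ u v w, Φ m u v w ≠ 0 := by
        by_contra hcon
        push Not at hcon
        apply ht0
        ext u v w
        exact hcon u v w
      have hcc : c * c = 1 := by
        have h1 := hc' u0 v0 w0
        have h2 := hc' u0 w0 v0
        rw [h1] at h2
        have : (c * c - 1) * Φ m u0 v0 w0 = 0 := by linarith
        rcases mul_eq_zero.mp this with h | h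
        · linarith
        · exact absurd h h0
      have hcpm : c = 1 ∨ c = -1 := by
        have : (c - 1) * (c + 1) = 0 := by ring_nf; linarith
        rcases mul_eq_zero.mp this with h | h
        · left; linarith
        · right; linarith
      rcases hcpm with h | h
      · intro u v w
        rw [hc' u v w, h, one_mul]
      · exfalso
        apply h0
        have a1 : ∀ u v w, Φ m u w v = - Φ m u v w := by
          intro u v w; rw [hc', h]; ring
        have e1 : Φ m u0 v0 w0 = - Φ m u0 v0 w0 := by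
          calc Φ m u0 v0 w0 = - Φ m u0 w0 v0 := by rw [a1 u0 v0 w0]; ring
            _ = - Φ m w0 u0 v0 := by rw [hs1]
            _ = Φ m w0 v0 u0 := by rw [a1 w0 u0 v0]
            _ = Φ m v0 w0 u0 := by rw [hs1]
            _ = - Φ m v0 u0 w0 := by rw [a1 v0 u0 w0]
            _ = - Φ m u0 v0 w0 := by rw [hs1]
        linarith
    exact ⟨Φ m, ht0, fun u v w => ⟨hs1 u v w, hs2 u v w⟩, hΦinv m hme, huniq⟩
  · rintro ⟨t, ht0, hts, hti, htu⟩
    refine ⟨Ψ t, ?_, ?_, hΨeq t hti, ?_⟩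
    · intro h
      apply ht0
      ext u v w
      rw [← hΨ, h]
      simp
    · intro u v
      apply hext
      intro w
      rw [hΨ, hΨ]
      exact (hts u v w).1
    · intro m' hm'
      obtain ⟨c, hc⟩ := htu (Φ m') (hΦinv m' hm')
      refine ⟨c, ?_⟩
      ext u v
      apply hext
      intro w
      rw [← hΦ, hc]
      simp [hΨ]

end Cfsg.Agent.S5541
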