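import Cfsg.Statements.S5543
import Cfsg.Agent.Lib.Helper92.Majorana

set_option autoImplicit false
open Cfsg

namespace Cfsg.Agent.S5543

open Cfsg.Agent.Lib.Helper92 Cfsg.Axial

theorem exists_not_mem {α : Type*} [Finite α] (s : Finset α) (h : s.card < Nat.card α) :
    ∃ z, z ∉ s := by
  classical
  by_contra hcon
  push Not at hcon
  have := Fintype.ofFinite α
  have : s = Finset.univ := Finset.eq_univ_iff_forall.mpr hcon
  rw [this, Finset.card_univ, Nat.card_eq_fintype_card] at h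
  exact lt_irrefl _ h

theorem result {V : Type*} [AddCommGroup V] [Module ℝ V] [FiniteDimensional ℝ V] (mul : V →ₗ[ℝ] V →ₗ[ℝ] V) (B : LinearMap.BilinForm ℝ V) (hV : Cfsg.Axial.IsMajoranaAmbient mul B) (X : Subgroup (V ≃ₗ[ℝ] V)) (hX : ∀ x ∈ X, x * x = 1) (ax : (V ≃ₗ[ℝ] V) → V) (hax : ∀ x ∈ X, x ≠ 1 → Cfsg.Axial.IsMajoranaPair mul B x (ax x)) (h1 : ∀ x ∈ X, x ≠ 1 → B (ax x) (ax x) = 1) (h2A : ∀ x ∈ X, ∀ y ∈ X, x ≠ 1 → y ≠ 1 → x ≠ y → mul (ax x) (ax y) = (1 / 8 : ℝ) • (ax x + ax y - ax (x * y))) : Nat.card ↥X ≤ 4 := by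
  classical
  by_contra hcard
  push Not at hcard
  have : Finite ↥X := Nat.finite_of_card_ne_zero (by omega)
  -- choose x, y, z
  obtain ⟨x, hx⟩ := exists_not_mem ({1} : Finset ↥X) (by simp; omega)
  obtain ⟨y, hy⟩ := exists_not_mem ({1, x} : Finset ↥X)
    (lt_of_le_of_lt (Finset.card_le_two) (by omega))
  obtain ⟨z, hz⟩ := exists_not_mem ({1, x, y, x * y} : Finset ↥X)
    (lt_of_le_of_lt (Finset.card_le_four) (by omega))
  simp only [Finset.mem_insert, Finset.mem_singleton, not_or] at hx hy hz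
  obtain ⟨x, hxX⟩ := x
  obtain ⟨y, hyX⟩ := y
  obtain ⟨z, hzX⟩ := z
  have hx1 : x ≠ 1 := fun h => hx (Subtype.ext h)
  have hy1 : y ≠ 1 := fun h => hy.1 (Subtype.ext h)
  have hyx : y ≠ x := fun h => hy.2 (Subtype.ext h)
  have hz1 : z ≠ 1 := fun h => hz.1 (Subtype.ext h)
  have hzx : z ≠ x := fun h => hz.2.1 (Subtype.ext h)
  have hzy : z ≠ y := fun h => hz.2.2.1 (Subtype.ext h)
  have hzxy : z ≠ x * y := fun h => hz.2.2.2 (Subtype.ext h)
  have hxx := hX x hxX
  have hyy := hX y hyX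
  have hzz := hX z hzX
  have comm : ∀ u ∈ X, ∀ v ∈ X, u * v = v * u := by
    intro u hu v hv
    have huv := hX (u * v) (X.mul_mem hu hv)
    have huu := hX u hu
    have hvv := hX v hv
    calc u * v = v * v * (u * v) * (u * u) := by rw [huu, hvv]; group
      _ = v * (v * u) * (v * u) * u := by group
      _ = v * ((v * u) * (v * u)) * u := by group
      _ = v * u := by rw [hX (v * u) (X.mul_mem hv hu)]; group
  have cxy := comm x hxX y hyX
  have cxz := comm x hxX z hzX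
  have cyz := comm y hyX z hzX
  -- names
  obtain ⟨p, hp⟩ : ∃ p, p = x * y := ⟨_, rfl⟩
  obtain ⟨q, hq⟩ : ∃ q, q = x * z := ⟨_, rfl⟩
  obtain ⟨r, hr⟩ : ∃ r, r = y * z := ⟨_, rfl⟩
  obtain ⟨s, hs⟩ : ∃ s, s = x * y * z := ⟨_, rfl⟩
  have hpX : p ∈ X := hp ▸ X.mul_mem hxX hyX
  have hqX : q ∈ X := hq ▸ X.mul_mem hxX hzX
  have hrX : r ∈ X := hr ▸ X.mul_mem hyX hzX
  have hsX : s ∈ X := hs ▸ X.mul_mem (X.mul_mem hxX hyX) hzX
  have e_xp : x * p = y := by rw [hp, ← mul_assoc, hxx, one_mul]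
  have e_xq : x * q = z := by rw [hq, ← mul_assoc, hxx, one_mul]
  have e_xr : x * r = s := by rw [hr, hs, mul_assoc]
  have e_xs : x * s = r := by rw [hs, hr, mul_assoc, ← mul_assoc x x, hxx, one_mul]
  have e_yq : y * q = s := by rw [hq, hs, ← mul_assoc, ← cxy]
  have e_pz : p * z = s := by rw [hp, hs]
  have e_pq : p * q = r := by
    rw [hp, hq, hr]
    calc x * y * (x * z) = x * (y * x) * z := by group
      _ = x * (x * y) * z := by rw [cxy]
      _ = (x * x) * y * z := by group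
      _ = y * z := by rw [hxx, one_mul]
  have e_rs : r * s = x := by
    rw [← e_xr, comm x hxX r hrX, ← mul_assoc, hX r hrX, one_mul]
  have hp1 : p ≠ 1 := by
    intro h
    apply hyx
    rw [← e_xp, h, mul_one]
  have hq1 : q ≠ 1 := by
    intro h
    apply hzx
    rw [← e_xq, h, mul_one]
  have hr1 : r ≠ 1 := by
    intro h
    apply hzy
    have : y * r = z := by rw [hr, ← mul_assoc, hyy, one_mul]
    rw [← this, h, mul_one]
  have hs1 : s ≠ 1 := by
    intro h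
    apply hzxy
    have : p * s = z := by rw [← e_pz, ← mul_assoc, hX p hpX, one_mul]
    rw [← this, h, mul_one, hp]
  have n_xp : x ≠ p := by
    intro h
    apply hy1
    rw [← e_xp, ← h, hxx]
  have n_xq : x ≠ q := by
    intro h
    apply hz1
    rw [← e_xq, ← h, hxx]
  have n_xr : x ≠ r := by
    intro h
    apply hs1
    rw [← e_xr, ← h, hxx]
  have n_xs : x ≠ s := by
    intro h
    apply hr1
    rw [← e_xs, ← h, hxx]
  have n_yq : y ≠ q := by
    intro h
    apply hs1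
    rw [← e_yq, ← h, hyy]
  have n_pz : p ≠ z := by
    intro h
    exact hzxy (by rw [← h, hp])
  have n_pq : p ≠ q := by
    intro h
    apply hr1
    rw [← e_pq, ← h, hX p hpX]
  have n_rs : r ≠ s := by
    intro h
    apply hx1
    rw [← e_rs, ← h, hX r hrX]
  -- the products
  have m_xy := h2A x hxX y hyX hx1 hy1 (Ne.symm hyx)
  have m_xp := h2A x hxX p hpX hx1 hp1 n_xp
  have m_xz := h2A x hxX z hzX hx1 hz1 (Ne.symm hzx)
  have m_xq := h2A x hxX q hqX hx1 hq1 n_xq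
  have m_xr := h2A x hxX r hrX hx1 hr1 n_xr
  have m_xs := h2A x hxX s hsX hx1 hs1 n_xs
  have m_yz := h2A y hyX z hzX hy1 hz1 (Ne.symm hzy)
  have m_yq := h2A y hyX q hqX hy1 hq1 n_yq
  have m_pz := h2A p hpX z hzX hp1 hz1 n_pz
  have m_pq := h2A p hpX q hqX hp1 hq1 n_pq
  have m_rs := h2A r hrX s hsX hr1 hs1 n_rs
  rw [← hp] at m_xy
  rw [e_xp] at m_xp
  rw [← hq] at m_xz
  rw [e_xq] at m_xq
  rw [e_xr] at m_xr
  rw [e_xs] at m_xs
  rw [← hr] at m_yz
  rw [e_yq] at m_yq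
  rw [e_pz] at m_pz
  rw [e_pq] at m_pq
  rw [e_rs] at m_rs
  have hA : MAxis mul (ax x) := (hax x hxX hx1).2.2.1
  have hR : MAxis mul (ax r) := (hax r hrX hr1).2.2.1
  -- eigenvectors
  have E1 : mul (ax x) (ax y - ax p) = (1 / 4 : ℝ) • (ax y - ax p) := by
    rw [map_sub, m_xy, m_xp]; module
  have E2 : mul (ax x) (ax z - ax q) = (1 / 4 : ℝ) • (ax z - ax q) := by
    rw [map_sub, m_xz, m_xq]; module
  have E3 : mul (ax x) (ax r - ax s) = (1 / 4 : ℝ) • (ax r - ax s) := by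
    rw [map_sub, m_xr, m_xs]; module
  obtain ⟨c, w, hw, hcw⟩ := hA.f44 E1 E2
  have hprod : mul (ax y - ax p) (ax z - ax q) = (-(1 / 4) : ℝ) • (ax r - ax s) := by
    simp only [map_sub, LinearMap.sub_apply]
    rw [m_yz, m_yq, m_pz, m_pq]; module
  have hzero : c • ax x + w + (1 / 4 : ℝ) • (ax r - ax s) + 0 = 0 := by
    rw [hprod] at hcw
    linear_combination (norm := module) - hcw
  have hE3' : mul (ax x) ((1 / 4 : ℝ) • (ax r - ax s)) = (1 / 4 : ℝ) • ((1 / 4 : ℝ) • (ax r - ax s)) := by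
    rw [map_smul, E3]
  obtain ⟨-, -, h4, -⟩ := hA.indep hw hE3' (by simp) hzero
  have hrs : ax r = ax s := by
    have : (1 : ℝ) • (ax r - ax s) = 0 := by
      linear_combination (norm := module) (4 : ℝ) • h4
    rw [one_smul] at this
    exact sub_eq_zero.mp this
  rw [← hrs, hR.idem] at m_rs
  -- ax x = -6 ax r
  have hx6 : ax x = (-6 : ℝ) • ax r := by
    linear_combination (norm := module) (8 : ℝ) • m_rs
  have hidem := hA.idem
  rw [hx6] at hidem
  simp only [map_smul, LinearMap.smul_apply, hR.idem] at hidem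
  have : (1 : ℝ) • ax r = 0 := by
    linear_combination (norm := module) (1 / 42 : ℝ) • hidem
  rw [one_smul] at this
  exact hR.ne this

end Cfsg.Agent.S5543
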