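import Cfsg.Statements.S5545
import Cfsg.Agent.Lib.Helper92.Majorana2

set_option autoImplicit false
open Cfsg

namespace Cfsg.Agent.S5545

open Cfsg.Agent.Lib.Helper92 Cfsg.Axial

theorem result {V : Type*} [AddCommGroup V] [Module ℝ V] [FiniteDimensional ℝ V] (mul : V →ₗ[ℝ] V →ₗ[ℝ] V) (B : LinearMap.BilinForm ℝ V) (hV : Cfsg.Axial.IsMajoranaAmbient mul B) (μ₀ μ₁ : V ≃ₗ[ℝ] V) (a₀ a₁ : V) (h₀ : Cfsg.Axial.IsMajoranaPair mul B μ₀ a₀) (h₁ : Cfsg.Axial.IsMajoranaPair mul B μ₁ a₁) (hu₀ : ∀ a : V, Cfsg.Axial.IsMajoranaPair mul B μ₀ a → a = a₀) (hu₁ : ∀ a : V, Cfsg.Axial.IsMajoranaPair mul B μ₁ a → a = a₁) (hn₀ : B a₀ a₀ = 1) (hn₁ : B a₁ a₁ = 1) (hc : μ₀ * μ₁ = μ₁ * μ₀) (hne : a₀ ≠ a₁) : (B a₀ a₁ = 0 ∧ mul a₀ a₁ = 0) ∨ (B a₀ a₁ = 1 / 8 ∧ mul (a₀ + a₁ - (8 : ℝ) • mul a₀ a₁) (a₀ + a₁ - (8 : ℝ) • mul a₀ a₁) = a₀ + a₁ - (8 : ℝ) • mul a₀ a₁ ∧ mul a₀ (a₀ + a₁ - (8 : ℝ) • mul a₀ a₁) = (1 / 8 : ℝ) • (a₀ + (a₀ + a₁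 - (8 : ℝ) • mul a₀ a₁) - a₁) ∧ mul a₁ (a₀ + a₁ - (8 : ℝ) • mul a₀ a₁) = (1 / 8 : ℝ) • (a₁ + (a₀ + a₁ - (8 : ℝ) • mul a₀ a₁) - a₀)) := by
  have hcomm : ∀ u v, mul u v = mul v u := hV.1
  have hA : MAxis mul a₀ := h₀.2.2.1
  have hB : MAxis mul a₁ := h₁.2.2.1
  -- each axis is fixed by the other involution
  have fix0 : μ₁ a₀ = a₀ := hu₀ _ (isMajoranaPair_map h₀ h₁.1 hc)
  have fix1 : μ₀ a₁ = a₁ := hu₁ _ (isMajoranaPair_map h₁ h₀.1 hc.symm)
  obtain ⟨l, b0, b4, hb0, hb4, hb⟩ := decomp_of_fixed h₀ fix1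
  obtain ⟨l', c0, c4, hc0, hc4, ha⟩ := decomp_of_fixed h₁ fix0
  -- l = B a₀ a₁
  have hl : B a₀ a₁ = l := by
    rw [hb]
    simp only [map_add, map_smul, hn₀, B_axis_zero hV hA hb0,
      B_axis_of_eig hV hA (by norm_num) hb4, smul_eq_mul]
    ring
  have hl' : B a₀ a₁ = l' := by
    rw [hV.2.1 a₀ a₁, ha]
    simp only [map_add, map_smul, hn₁, B_axis_zero hV hB hc0,
      B_axis_of_eig hV hB (by norm_num) hc4, smul_eq_mul]
    ring
  have hll : l' = l := hl'.symm.trans hl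
  subst hll
  -- the product a₀ a₁ in two ways
  have hab : mul a₀ a₁ = l' • a₀ + (1 / 4 : ℝ) • b4 := by
    rw [hb]
    simp only [map_add, map_smul, hA.idem, hb0, hb4]
    module
  have hab' : mul a₀ a₁ = l' • a₁ + (1 / 4 : ℝ) • c4 := by
    rw [hcomm a₀ a₁]
    conv_lhs => rw [ha]
    simp only [map_add, map_smul, hB.idem, hc0, hc4]
    module
  -- fusion rules
  have f00 : mul a₀ (mul b0 b0) = 0 := hA.f00 hb0 hb0
  have f04 : mul a₀ (mul b0 b4) = (1 / 4 : ℝ) • mul b0 b4 := hA.f04 hb0 hb4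
  obtain ⟨k, g0, hg0, hb44⟩ := hA.f44 hb4 hb4
  -- b * b = b
  have hbb : mul a₁ a₁ = (l' * l' + k) • a₀ + (mul b0 b0 + g0) + ((l' / 2) • b4 + (2 : ℝ) • mul b0 b4) := by
    rw [hb]
    simp only [map_add, map_smul, LinearMap.add_apply, LinearMap.smul_apply, hA.idem, hb0, hb4,
      hcomm b0 a₀, hcomm b4 a₀, hcomm b4 b0, hb44]
    module
  have hbb2 : (l' * l' + k) • a₀ + (mul b0 b0 + g0) + ((l' / 2) • b4 + (2 : ℝ) • mul b0 b4)
      = l' • a₀ + b0 + b4 := by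
    rw [← hbb, hB.idem, ← hb]
  obtain ⟨e1, e2, e3⟩ := hA.indep3 (by rw [map_add, f00, hg0, add_zero])
    (by rw [map_add, map_smul, map_smul, hb4, f04]; module) hb0 hb4 hbb2
  -- c4 in terms of b4
  have hc4' : c4 = b4 + (4 * l') • (a₀ - a₁) := by
    have := hab.symm.trans hab'
    linear_combination (norm := module) (-4 : ℝ) • this
  have hab4 : mul a₁ b4 = k • a₀ + g0 + ((l' / 4) • b4 + mul b0 b4) := by
    conv_lhs => rw [hb]
    simp only [map_add, map_smul, LinearMap.add_apply, LinearMap.smul_apply, hb4, hb44]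
    module
  have hkey : k • a₀ + (g0 - (4 * l') • b0) + ((l' / 4) • b4 + mul b0 b4 - (3 * l') • b4)
      = (l' * (1 - l')) • a₀ + (-l') • b0 + ((1 / 4 - l') • b4) := by
    have h1 := hc4
    rw [hc4'] at h1
    simp only [map_add, map_sub, map_smul, hab4, hcomm a₁ a₀, hab, hB.idem] at h1
    rw [hb] at h1
    linear_combination (norm := module) h1
  obtain ⟨k1, k2, k3⟩ := hA.indep3 (by rw [map_sub, map_smul, hg0, hb0]; simp)
    (by rw [map_sub, map_add, map_smul, map_smul, hb4, f04]; module)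
    (by rw [map_smul, hb0, smul_zero]) (by rw [map_smul, hb4]; module) hkey
  have hfin : (1 / 4 - 2 * l') • b4 = 0 := by
    linear_combination (norm := module) k3 - (1 / 2 : ℝ) • e3
  rcases smul_eq_zero.mp hfin with hl8 | hb40
  · -- 2A case
    right
    have hl8' : l' = 1 / 8 := by linarith
    subst hl8'
    have hcdef : a₀ + a₁ - (8 : ℝ) • mul a₀ a₁ = (1 / 8 : ℝ) • a₀ + b0 - b4 := by
      rw [hab]
      conv_lhs => rw [hb]
      module
    refine ⟨hl, ?_, ?_, ?_⟩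
    · rw [hcdef]
      simp only [map_add, map_sub, map_smul, LinearMap.add_apply, LinearMap.sub_apply,
        LinearMap.smul_apply, hA.idem, hb0, hb4, hcomm b0 a₀, hcomm b4 a₀, hcomm b4 b0, hb44]
      have e1' : k = 1 / 8 - 1 / 8 * (1 / 8) := by linarith
      subst e1'
      linear_combination (norm := module) e2 - e3
    · rw [hcdef]
      simp only [map_add, map_sub, map_smul, hA.idem, hb0, hb4]
      rw [hb]
      module
    · have hcdef' : a₀ + a₁ - (8 : ℝ) • mul a₀ a₁ = (1 / 8 : ℝ) • a₁ + c0 - c4 := by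
        rw [hab']
        conv_lhs => rw [ha]
        module
      rw [hcdef']
      simp only [map_add, map_sub, map_smul, hB.idem, hc0, hc4]
      rw [ha]
      module
  · -- b4 = 0
    subst hb40
    have hz : k • a₀ + g0 + 0 = (0 : ℝ) • a₀ + 0 + 0 := by
      rw [← hb44]; simp
    obtain ⟨z1, z2, -⟩ := hA.indep3 hg0 (by simp) (by simp) (by simp) hz
    subst z1 z2
    have hll : l' * (1 - l') = 0 := k1.symm
    rcases mul_eq_zero.mp hll with h0 | h1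
    · left
      subst h0
      refine ⟨hl, ?_⟩
      rw [hab]; simp
    · exfalso
      have h1' : l' = 1 := by linarith
      subst h1'
      have : (1 : ℝ) • b0 = 0 := by
        linear_combination (norm := module) (-(1 / 3) : ℝ) • k2
      rw [one_smul] at this
      subst this
      apply hne
      rw [hb]; simp

end Cfsg.Agent.S5545
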