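import Cfsg.Statements.S5546

set_option autoImplicit false
open Cfsg

namespace Cfsg.Agent.S5546

open Cfsg.Spor

/-- all coordinates of a lattice vector have the same parity -/
theorem same_parity (x : GolayPt → ℤ) (hx : x ∈ leechLattice) : ∃ m : ℤ, ∀ p, x p ≡ m [ZMOD 2] := by
  unfold leechLattice at hx
  induction hx using AddSubgroup.closure_induction with
  | mem x hx =>
    obtain ⟨m, hm, -⟩ := hx
    exact ⟨m, hm⟩
  | zero => exact ⟨0, fun p => by simp [Int.ModEq]⟩
  | add x y _ _ ihx ihy =>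
    obtain ⟨m, hm⟩ := ihx
    obtain ⟨n, hn⟩ := ihy
    exact ⟨m + n, fun p => (hm p).add (hn p)⟩
  | neg x _ ih =>
    obtain ⟨m, hm⟩ := ih
    exact ⟨-m, fun p => (hm p).neg⟩

theorem mem_of_eight_dvd (x : GolayPt → ℤ) (h : ∀ p, (8 : ℤ) ∣ x p) : x ∈ leechLattice := by
  apply AddSubgroup.subset_closure
  apply mem_leechSet_of_const_mod_four x 0 0 (by decide)
  · intro p
    have : (4 : ℤ) ∣ x p := Dvd.dvd.trans (by norm_num) (h p)
    exact (Int.modEq_zero_iff_dvd.mpr this)
  · have : (8 : ℤ) ∣ ∑ p, x p := Finset.dvd_sum (fun p _ => h p)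
    simpa using (Int.modEq_zero_iff_dvd.mpr this)

/-- the vectors `8 e_i` (`i ≠ 0`) and `8 e_0 - 8 e_∞` -/
def bvec (i : ZMod 23) : GolayPt → ℤ := fun p =>
  if p = some i then 8 else if i = 0 ∧ p = none then -8 else 0

def cvec : GolayPt → ℤ := fun p => if p = none then 16 else 0

theorem bvec_mem (i : ZMod 23) : bvec i ∈ leechLattice := by
  apply mem_of_eight_dvd
  intro p
  unfold bvec
  split_ifs <;> norm_num

theorem cvec_mem : cvec ∈ leechLattice := by
  apply mem_of_eight_dvd
  intro p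
  unfold cvec
  split_ifs <;> norm_num

def Bv (i : ZMod 23) : leechLattice := ⟨bvec i, bvec_mem i⟩
def Cv : leechLattice := ⟨cvec, cvec_mem⟩

theorem Cv_eq : Cv = (2 : ℤ) • leechU - Bv 0 := by
  apply Subtype.ext
  funext p
  show cvec p = 2 * vecU p - bvec 0 p
  unfold cvec vecU bvec
  rcases p with _ | p
  · simp
  · by_cases hp : p = 0
    · subst hp; simp
    · simp [hp]

theorem span_formula (x : leechLattice) :
    (16 : ℤ) • x = ∑ i : ZMod 23, (2 * x.1 (some i)) • Bv i + (x.1 none + x.1 (some 0)) • Cv := by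
  apply Subtype.ext
  funext p
  have e1 : ((∑ i : ZMod 23, (2 * x.1 (some i)) • Bv i + (x.1 none + x.1 (some 0)) • Cv : leechLattice) : GolayPt → ℤ) p
      = ∑ i : ZMod 23, (2 * x.1 (some i)) * bvec i p + (x.1 none + x.1 (some 0)) * cvec p := by
    simp [Bv, Cv, Finset.sum_apply]
  rw [e1]
  show 16 * x.1 p = _
  rcases p with _ | p
  · have : ∀ i : ZMod 23, (2 * x.1 (some i)) * bvec i none = if i = 0 then -16 * x.1 (some 0) else 0 := by
      intro i
      unfold bvec
      by_cases hi : i = 0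
      · subst hi; simp; ring
      · simp [hi]
    simp only [this, Finset.sum_ite_eq', Finset.mem_univ, if_true]
    unfold cvec
    simp
    ring
  · have : ∀ i : ZMod 23, (2 * x.1 (some i)) * bvec i (some p) = if i = p then 16 * x.1 (some p) else 0 := by
      intro i
      unfold bvec
      by_cases hi : i = p
      · subst hi; simp; ring
      · have : ¬ (p = i) := fun h => hi h.symm
        simp [hi, this]
    simp only [this, Finset.sum_ite_eq', Finset.mem_univ, if_true]
    unfold cvec
    simp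

/-- the additive hom underlying an element of `Co0` -/
def toHom (f : Equiv.Perm leechLattice) (hf : f ∈ Co0) : leechLattice →+ leechLattice :=
  AddMonoidHom.mk' f hf.1

theorem toHom_apply (f : Equiv.Perm leechLattice) (hf : f ∈ Co0) (x : leechLattice) :
    toHom f hf x = f x := rfl

theorem sqNorm_add (v w : GolayPt → ℤ) :
    sqNorm (v + w) = sqNorm v + 2 * dotInt v w + sqNorm w := by
  unfold sqNorm dotInt
  rw [Finset.mul_sum, ← Finset.sum_add_distrib, ← Finset.sum_add_distrib]
  apply Finset.sum_congr rfl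
  intro i _
  simp only [Pi.add_apply]
  ring

theorem dot_pres (f : Equiv.Perm leechLattice) (hf : f ∈ Co0) (v w : leechLattice) :
    dotInt (f v).1 (f w).1 = dotInt v.1 w.1 := by
  have h1 := hf.2 (v + w)
  rw [hf.1] at h1
  have h2 : sqNorm ((f v).1 + (f w).1) = sqNorm (v.1 + w.1) := h1
  rw [sqNorm_add, sqNorm_add, hf.2 v, hf.2 w] at h2
  linarith

theorem dot_vecU (y : GolayPt → ℤ) : dotInt y vecU = 4 * (y none + y (some 0)) := by
  unfold dotInt vecU
  rw [Fintype.sum_option]
  have : ∀ a : ZMod 23, y (some a) * (if (some a : GolayPt) = none ∨ (some a : GolayPt) = some 0 then 4 else 0)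
      = if a = 0 then 4 * y (some 0) else 0 := by
    intro a
    by_cases ha : a = 0
    · subst ha; simp; ring
    · simp [ha]
  simp only [this, Finset.sum_ite_eq', Finset.mem_univ, if_true]
  simp
  ring

/-- orthogonality to `u` -/
def Perp (x : leechLattice) : Prop := x.1 none + x.1 (some 0) = 0

theorem perp_map (f : Equiv.Perm leechLattice) (hf : f ∈ Co2) {x : leechLattice} (hx : Perp x) :
    Perp (f x) := by
  have hfu : f leechU = leechU := hf.2
  have h1 := dot_pres f hf.1 x leechU
  rw [hfu] at h1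
  have h2 : dotInt (f x).1 vecU = dotInt x.1 vecU := h1
  rw [dot_vecU, dot_vecU, hx] at h2
  unfold Perp
  linarith

theorem perp_Bv (i : ZMod 23) : Perp (Bv i) := by
  show bvec i none + bvec i (some 0) = 0
  unfold bvec
  by_cases hi : i = 0
  · subst hi; simp
  · have : ¬ (0 = i) := fun h => hi h.symm
    simp [hi, this]

/-- image of a general vector -/
theorem map_formula (f : Equiv.Perm leechLattice) (hf : f ∈ Co0) (x : leechLattice) :
    (16 : ℤ) • f x = ∑ i : ZMod 23, (2 * x.1 (some i)) • f (Bv i)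
      + (x.1 none + x.1 (some 0)) • f Cv := by
  have := congrArg (toHom f hf) (span_formula x)
  simpa only [map_add, map_sum, map_zsmul, toHom_apply] using this

instance fact13 : Fact (Nat.Prime 13) := ⟨by norm_num⟩

/-- the matrix of `g` -/
def Nmat (f : Equiv.Perm leechLattice) : Matrix (ZMod 23) (ZMod 23) (ZMod 13) :=
  fun j i => (8 : ZMod 13)⁻¹ * (((f (Bv i)).1 (some j) : ℤ) : ZMod 13)

theorem coord_formula (f : Equiv.Perm leechLattice) (hf : f ∈ Co0) {x : leechLattice}
    (hx : Perp x) (j : ZMod 23) :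
    (((f x).1 (some j) : ℤ) : ZMod 13) = ∑ i, Nmat f j i * ((x.1 (some i) : ℤ) : ZMod 13) := by
  have h1 := map_formula f hf x
  rw [hx, zero_smul, add_zero] at h1
  have h2 : (16 : ℤ) * (f x).1 (some j) = ∑ i : ZMod 23, (2 * x.1 (some i)) * (f (Bv i)).1 (some j) := by
    have := congrArg (fun y : leechLattice => y.1 (some j)) h1
    simpa [Finset.sum_apply] using this
  have h3 := congrArg (fun n : ℤ => (n : ZMod 13)) h2
  simp only [Int.cast_mul, Int.cast_sum, Int.cast_ofNat] at h3
  have h16 : (16 : ZMod 13) ≠ 0 := by decide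
  apply mul_left_cancel₀ h16
  rw [h3, Finset.mul_sum]
  apply Finset.sum_congr rfl
  intro i _
  unfold Nmat
  have h8ne : (8 : ZMod 13) ≠ 0 := by decide
  have h8 : (16 : ZMod 13) * (8 : ZMod 13)⁻¹ = 2 := by
    have : (16 : ZMod 13) = 2 * 8 := by decide
    rw [this, mul_assoc, mul_inv_cancel₀ h8ne, mul_one]
  calc 2 * ((x.1 (some i) : ℤ) : ZMod 13) * (((f (Bv i)).1 (some j) : ℤ) : ZMod 13)
      = ((16 : ZMod 13) * (8 : ZMod 13)⁻¹) * (((f (Bv i)).1 (some j) : ℤ) : ZMod 13) * ((x.1 (some i) : ℤ) : ZMod 13) := by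
        rw [h8]; ring
    _ = _ := by ring

theorem Nmat_mul (f g : Equiv.Perm leechLattice) (hf : f ∈ Co2) (hg : g ∈ Co2) :
    Nmat (f * g) = Nmat f * Nmat g := by
  ext j i
  rw [Matrix.mul_apply]
  show (8 : ZMod 13)⁻¹ * (((f (g (Bv i))).1 (some j) : ℤ) : ZMod 13) = _
  rw [coord_formula f hf.1 (perp_map g hg (perp_Bv i)) j, Finset.mul_sum]
  apply Finset.sum_congr rfl
  intro k _
  unfold Nmat
  ring

theorem Nmat_one : Nmat 1 = 1 := by
  ext j i
  show (8 : ZMod 13)⁻¹ * ((bvec i (some j) : ℤ) : ZMod 13) = _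
  unfold bvec
  by_cases h : j = i
  · subst h
    simp
    exact inv_mul_cancel₀ (by decide)
  · simp [h]

def Nhom : ↥Co2 →* Matrix (ZMod 23) (ZMod 23) (ZMod 13) where
  toFun g := Nmat g.1
  map_one' := Nmat_one
  map_mul' g h := Nmat_mul g.1 h.1 g.2 h.2

theorem sqNorm_nonneg (y : GolayPt → ℤ) : 0 ≤ sqNorm y := by
  unfold sqNorm
  exact Finset.sum_nonneg (fun p _ => sq_nonneg _)

theorem sq_le_sqNorm (y : GolayPt → ℤ) (p : GolayPt) : y p ^ 2 ≤ sqNorm y := by
  unfold sqNorm
  exact Finset.single_le_sum (f := fun p => y p ^ 2) (fun p _ => sq_nonneg _) (Finset.mem_univ p)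

theorem short_zero (y : GolayPt → ℤ) (hy : y ∈ leechLattice) (h13 : ∀ p, (13 : ℤ) ∣ y p)
    (hn : sqNorm y ≤ 512) : y = 0 := by
  obtain ⟨m, hm⟩ := same_parity y hy
  by_contra hne
  obtain ⟨p0, hp0⟩ : ∃ p, y p ≠ 0 := by
    by_contra hcon
    push Not at hcon
    exact hne (funext hcon)
  rcases Int.emod_two_eq_zero_or_one m with hm0 | hm1
  · -- all even
    have h2 : (2 : ℤ) ∣ y p0 := by
      have := hm p0
      unfold Int.ModEq at this
      omega
    obtain ⟨k, hk⟩ := h13 p0
    have hk2 : (2 : ℤ) ∣ k := by omega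
    obtain ⟨l, hl⟩ := hk2
    have hl0 : l ≠ 0 := by
      rintro rfl
      apply hp0
      rw [hk, hl]; norm_num
    have hl1 : 1 ≤ l ^ 2 := by
      have : 0 < l ^ 2 := by positivity
      omega
    have := sq_le_sqNorm y p0
    rw [hk, hl] at this
    nlinarith
  · -- all odd
    have hall : ∀ p, (169 : ℤ) ≤ y p ^ 2 := by
      intro p
      have hodd : y p % 2 = 1 := by
        have := hm p
        unfold Int.ModEq at this
        omega
      obtain ⟨k, hk⟩ := h13 p
      have hk0 : k ≠ 0 := by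
        rintro rfl
        rw [hk] at hodd
        norm_num at hodd
      have hk1 : 1 ≤ k ^ 2 := by
        have : 0 < k ^ 2 := by positivity
        omega
      rw [hk]
      nlinarith
    have hsum : ∑ _p : GolayPt, (169 : ℤ) ≤ sqNorm y := by
      unfold sqNorm
      exact Finset.sum_le_sum (fun p _ => hall p)
    rw [Finset.sum_const, Finset.card_univ] at hsum
    have hc : Fintype.card GolayPt = 24 := by decide
    rw [hc] at hsum
    norm_num at hsum
    omega

theorem parallelogram (v w : GolayPt → ℤ) :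
    sqNorm (v - w) + sqNorm (v + w) = 2 * sqNorm v + 2 * sqNorm w := by
  unfold sqNorm
  rw [Finset.mul_sum, Finset.mul_sum, ← Finset.sum_add_distrib, ← Finset.sum_add_distrib]
  apply Finset.sum_congr rfl
  intro i _
  simp only [Pi.add_apply, Pi.sub_apply]
  ring

theorem sqNorm_bvec (i : ZMod 23) : sqNorm (bvec i) ≤ 128 := by
  revert i
  decide +kernel

theorem fix_Bv (g : Equiv.Perm leechLattice) (hg : g ∈ Co2) (h : Nmat g = 1) (i : ZMod 23) :
    g (Bv i) = Bv i := by
  have hsome : ∀ j : ZMod 23, (13 : ℤ) ∣ (g (Bv i)).1 (some j) - bvec i (some j) := by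
    intro j
    have h1 : Nmat g j i = (1 : Matrix (ZMod 23) (ZMod 23) (ZMod 13)) j i := by rw [h]
    have h8ne : (8 : ZMod 13) ≠ 0 := by decide
    have h2 : (((g (Bv i)).1 (some j) : ℤ) : ZMod 13) = 8 * (1 : Matrix (ZMod 23) (ZMod 23) (ZMod 13)) j i := by
      rw [← h1]
      unfold Nmat
      rw [← mul_assoc, mul_inv_cancel₀ h8ne, one_mul]
    have h3 : ((bvec i (some j) : ℤ) : ZMod 13) = 8 * (1 : Matrix (ZMod 23) (ZMod 23) (ZMod 13)) j i := by
      unfold bvec
      by_cases hji : j = i
      · subst hji; simp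
      · simp [hji]
    have h4 : (((g (Bv i)).1 (some j) - bvec i (some j) : ℤ) : ZMod 13) = 0 := by
      rw [Int.cast_sub, h2, h3, sub_self]
    exact_mod_cast (ZMod.intCast_zmod_eq_zero_iff_dvd _ 13).mp h4
  have hP1 : Perp (g (Bv i)) := perp_map g hg (perp_Bv i)
  have hP2 : Perp (Bv i) := perp_Bv i
  have hy : (g (Bv i)).1 - bvec i = 0 := by
    apply short_zero
    · exact leechLattice.sub_mem (g (Bv i)).2 (bvec_mem i)
    · intro p
      rcases p with _ | j
      · have h0 := hsome 0
        unfold Perp at hP1 hP2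
        have e2 : bvec i none + bvec i (some 0) = 0 := hP2
        show (13 : ℤ) ∣ (g (Bv i)).1 none - bvec i none
        have : (g (Bv i)).1 none - bvec i none = -((g (Bv i)).1 (some 0) - bvec i (some 0)) := by
          linarith
        rw [this]
        exact (Int.dvd_neg).mpr h0
      · exact hsome j
    · have hp := parallelogram (g (Bv i)).1 (bvec i)
      have hn : sqNorm (g (Bv i)).1 = sqNorm (bvec i) := hg.1.2 (Bv i)
      have := sqNorm_bvec i
      have := sqNorm_nonneg ((g (Bv i)).1 + bvec i)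
      linarith
  apply Subtype.ext
  exact sub_eq_zero.mp hy

theorem eq_one_of_Nmat (g : Equiv.Perm leechLattice) (hg : g ∈ Co2) (h : Nmat g = 1) : g = 1 := by
  have hB := fix_Bv g hg h
  have hU : g leechU = leechU := hg.2
  have hC : g Cv = Cv := by
    have : toHom g hg.1 Cv = Cv := by
      conv_lhs => rw [Cv_eq]
      rw [map_sub, map_zsmul, toHom_apply, toHom_apply, hU, hB, ← Cv_eq]
    exact this
  ext1 x
  have h1 := map_formula g hg.1 x
  simp only [hB, hC] at h1
  rw [← span_formula] at h1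
  apply Subtype.ext
  funext p
  have h2 : (16 : ℤ) * (g x).1 p = 16 * x.1 p := congrArg (fun y : leechLattice => y.1 p) h1
  show (g x).1 p = x.1 p
  omega

theorem result : ∃ f : ↥Cfsg.Spor.Co2 →* GL (Fin 23) (ZMod 13), Function.Injective f := by
  let e : ZMod 23 ≃ Fin 23 := Equiv.refl _
  let E : (Matrix (ZMod 23) (ZMod 23) (ZMod 13)) ≃* (Matrix (Fin 23) (Fin 23) (ZMod 13)) :=
    (Matrix.reindexAlgEquiv (ZMod 13) (ZMod 13) e).toMulEquiv
  refine ⟨(Units.map E.toMonoidHom).comp Nhom.toHomUnits, ?_⟩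
  rw [injective_iff_map_eq_one]
  intro g hg
  have h1 : Nhom.toHomUnits g = 1 := by
    apply Units.map_injective (f := E.toMonoidHom) E.injective
    rw [map_one]
    exact hg
  have h2 : Nmat g.1 = 1 := by
    have := congrArg Units.val h1
    exact this
  apply Subtype.ext
  exact eq_one_of_Nmat g.1 g.2 h2

end Cfsg.Agent.S5546
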