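import Cfsg.Statements.S5548
import Cfsg.Agent.Lib.Helper92.GolayModule

set_option autoImplicit false
open Cfsg

namespace Cfsg.Agent.S5548

open Cfsg.Agent.Lib.Helper92

/-- For the automorphism group of the length-24 binary Golay code of the definitions (the Mathieu group of degree 24) acting on binary words of length 24 by permuting coordinates, the only invariant subspaces of the space of all words are: zero, the span of the all-ones word, the code itself, the even-weight words, and the whole space. (So the permutation module has a unique composition series.) -/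
theorem result (W : Submodule (ZMod 2) (Cfsg.GolayPt → ZMod 2)) (hW : ∀ σ ∈ Cfsg.M24, ∀ w ∈ W, (fun p => w (σ.symm p)) ∈ W) : W = ⊥ ∨ W = Submodule.span (ZMod 2) {fun _ => (1 : ZMod 2)} ∨ W = Cfsg.golayCode ∨ (W : Set (Cfsg.GolayPt → ZMod 2)) = {w | ∑ p, w p = 0} ∨ W = ⊤ := by
  have hI : InvSub W := hW
  by_cases hle : W ≤ golayCode
  · rcases sub_code_cases hI hle with h | h | h
    · left; exact h
    · right; left; exact h
    · right; right; left; exact h
  · obtain ⟨w, hw, hwC⟩ := SetLike.not_le_iff_exists.1 hle
    have hE := even_le hI hw hwC
    by_cases hall : ∀ v ∈ W, ∑ p, v p = 0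
    · right; right; right; left
      ext v
      exact ⟨hall v, hE v⟩
    · right; right; right; right
      push Not at hall
      obtain ⟨x, hx, hx1⟩ := hall
      rw [eq_top_iff]
      intro v _
      by_cases hv : ∑ p, v p = 0
      · exact hE v hv
      · have h2 : ∀ a b : ZMod 2, a ≠ 0 → b ≠ 0 → a + b = 0 := by decide
        have h3 : ∑ p, (v + x) p = 0 := by
          simp only [Pi.add_apply, Finset.sum_add_distrib]
          exact h2 _ _ hv hx1
        have h4 := W.sub_mem (hE _ h3) hx
        rwa [add_sub_cancel_right] at h4

end Cfsg.Agent.S5548
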