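import Cfsg.Statements.S5549
import Cfsg.Agent.Lib.Helper30.CocodeFun
import Cfsg.Agent.Lib.Helper27.Perm

set_option autoImplicit false
open Cfsg

namespace Cfsg.Agent.S5549

open Cfsg.Agent.Lib.Helper27 Cfsg.Agent.Lib.Helper30.Cocode
open scoped Pointwise

theorem z3 (a b c : ZMod 2) : a + b + (a + c) = b + c := by revert a b c; decide

theorem fpair_comm (p q : GolayPt) : fpair p q = fpair q p := add_comm _ _

theorem fpair_add (p q r : GolayPt) : fpair p q + fpair p r = fpair q r := by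
  ext c
  exact z3 _ _ _

/-- `u` belongs to the pair of the functional `g`. -/
def Mem (u : GolayPt) (g : Fn) : Prop := ∃ w, w ≠ u ∧ g = fpair u w

theorem mem_cases {u a b : GolayPt} (hab : a ≠ b) (h : Mem u (fpair a b)) : u = a ∨ u = b := by
  obtain ⟨w, hw, h1⟩ := h
  rcases fpair_inj hab hw.symm h1 with ⟨h2, -⟩ | ⟨-, h2⟩
  · exact Or.inl h2.symm
  · exact Or.inr h2.symm

theorem exists_common {a b c d e f : GolayPt} (hab : a ≠ b) (hcd : c ≠ d) (hef : e ≠ f)
    (h : fpair a b + fpair c d = fpair e f) : ∃ u, Mem u (fpair a b) ∧ Mem u (fpair c d) := by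
  rcases fpair_meet hab hcd hef h with rfl | rfl | rfl | rfl
  · exact ⟨a, ⟨b, hab.symm, rfl⟩, ⟨d, hcd.symm, rfl⟩⟩
  · exact ⟨a, ⟨b, hab.symm, rfl⟩, ⟨c, hcd, fpair_comm _ _⟩⟩
  · exact ⟨b, ⟨a, hab, fpair_comm _ _⟩, ⟨d, hcd.symm, rfl⟩⟩
  · exact ⟨b, ⟨a, hab, fpair_comm _ _⟩, ⟨c, hcd, fpair_comm _ _⟩⟩

theorem eq_fpair_of_mem {u v : GolayPt} {g : Fn} (huv : u ≠ v) (hu : Mem u g) (hv : Mem v g) :
    g = fpair u v := by
  obtain ⟨w, hw, h1⟩ := hu
  obtain ⟨w', hw', h2⟩ := hv
  rcases fpair_inj hw.symm hw'.symm (h1.symm.trans h2) with ⟨h3, -⟩ | ⟨-, h3⟩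
  · exact absurd h3 huv
  · rw [h1, h3]

theorem exists_two (p : GolayPt) : ∃ q r : GolayPt, q ≠ p ∧ r ≠ p ∧ q ≠ r := by
  revert p; decide +kernel

theorem exists_third (p q : GolayPt) : ∃ r : GolayPt, r ≠ p ∧ r ≠ q := by
  revert p q; decide +kernel

section main

variable (A : GolayPt → GolayPt → Fn)

theorem exists_perm
    (hA : ∀ p q, p ≠ q → ∃ a b, a ≠ b ∧ A p q = fpair a b)
    (hadd : ∀ p q r, A p q + A p r = A q r)
    (hcomm : ∀ p q, A p q = A q p)
    (hinj : ∀ p q r s, A p q = A r s → fpair p q = fpair r s) :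
    ∃ π : GolayPt → GolayPt, Function.Injective π ∧ ∀ p q, p ≠ q → A p q = fpair (π p) (π q) := by
  have hne : ∀ p q r, q ≠ p → r ≠ p → q ≠ r → A p q ≠ A p r := by
    intro p q r hq hr hqr h
    rcases fpair_inj hq.symm hr.symm (hinj _ _ _ _ h) with ⟨-, h1⟩ | ⟨h1, -⟩
    · exact hqr h1
    · exact hr h1.symm
  have hcommon : ∀ p q r, q ≠ p → r ≠ p → q ≠ r → ∃ u, Mem u (A p q) ∧ Mem u (A p r) := by
    intro p q r hq hr hqr
    obtain ⟨a, b, hab, h1⟩ := hA p q hq.symm
    obtain ⟨c, d, hcd, h2⟩ := hA p r hr.symm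
    obtain ⟨e, f, hef, h3⟩ := hA q r hqr
    rw [h1, h2]
    apply exists_common hab hcd hef
    rw [← h1, ← h2, ← h3, hadd]
  have claim1 : ∀ p, ∃ u, ∀ s, s ≠ p → Mem u (A p s) := by
    intro p
    obtain ⟨q0, r0, hq0, hr0, hqr⟩ := exists_two p
    obtain ⟨u, hu1, hu2⟩ := hcommon p q0 r0 hq0 hr0 hqr
    refine ⟨u, ?_⟩
    intro s hs
    by_cases hsq : s = q0
    · rw [hsq]; exact hu1
    by_cases hsr : s = r0
    · rw [hsr]; exact hu2
    obtain ⟨u', hu', e1⟩ := hu1
    obtain ⟨v, hv, e2⟩ := hu2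
    have hu'v : u' ≠ v := by
      intro h
      apply hne p q0 r0 hq0 hr0 hqr
      rw [e1, e2, h]
    obtain ⟨y, hy1, hy2⟩ := hcommon p q0 s hq0 hs (fun h => hsq h.symm)
    obtain ⟨y', hy1', hy2'⟩ := hcommon p r0 s hr0 hs (fun h => hsr h.symm)
    rw [e1] at hy1
    rw [e2] at hy1'
    rcases mem_cases hu'.symm hy1 with rfl | rfl
    · exact hy2
    rcases mem_cases hv.symm hy1' with rfl | rfl
    · exact hy2'
    exfalso
    have h1 : A p s = fpair y y' := eq_fpair_of_mem hu'v hy2 hy2'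
    have h2 : A p s = A q0 r0 := by
      rw [h1, ← hadd p q0 r0, e1, e2, fpair_add]
    rcases fpair_inj hs.symm hqr (hinj _ _ _ _ h2) with ⟨h3, -⟩ | ⟨h3, -⟩
    · exact hq0 h3.symm
    · exact hr0 h3.symm
  choose π hπ using claim1
  have key : ∀ p q, p ≠ q → A p q = fpair (π p) (π q) ∧ π p ≠ π q := by
    intro p q hpq
    obtain ⟨w, hw, e1⟩ := hπ p q hpq.symm
    obtain ⟨w', hw', e2⟩ := hπ q p hpq
    rw [hcomm q p] at e2
    rcases fpair_inj hw.symm hw'.symm (e1.symm.trans e2) with ⟨h1, h2⟩ | ⟨h1, h2⟩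
    · exfalso
      obtain ⟨r, hrp, hrq⟩ := exists_third p q
      obtain ⟨w1, hw1, e3⟩ := hπ p r hrp
      obtain ⟨w2, hw2, e4⟩ := hπ q r hrq
      have h3 : fpair w w1 = fpair (π q) w2 := by
        rw [← e4, ← hadd p q r, e1, e3, fpair_add]
      have hww1 : w ≠ w1 := by
        intro h
        apply hne p q r hpq.symm hrp (fun h => hrq h.symm)
        rw [e1, e3, h]
      rcases fpair_inj hww1 hw2.symm h3 with ⟨h4, -⟩ | ⟨-, h4⟩
      · exact hw (by rw [h4, h1])
      · exact hw1 (by rw [h4, h1])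
    · exact ⟨by rw [e1, h2], by rw [← h2]; exact hw.symm⟩
  refine ⟨π, ?_, fun p q hpq => (key p q hpq).1⟩
  intro p q h
  by_contra hpq
  exact (key p q hpq).2 h

end main

theorem support₂_comp (w : GolayPt → ZMod 2) (σ : Equiv.Perm GolayPt) :
    support₂ (fun p => w (σ.symm p)) = σ • support₂ w := by
  ext p
  rw [Finset.mem_smul_finset]
  simp only [support₂, Finset.mem_filter, Finset.mem_univ, true_and]
  constructor
  · intro h
    exact ⟨σ.symm p, h, σ.apply_symm_apply p⟩
  · rintro ⟨q, hq, rfl⟩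
    change w (σ.symm (σ q)) ≠ 0
    rwa [σ.symm_apply_apply]

theorem support₂_add_one (w : GolayPt → ZMod 2) :
    support₂ (w + fun _ => (1 : ZMod 2)) = (support₂ w)ᶜ := by
  ext p
  simp only [support₂, Finset.mem_filter, Finset.mem_univ, true_and, Finset.mem_compl,
    Pi.add_apply, not_not]
  generalize w p = a
  revert a
  decide

theorem pc_enc_info (c : ↥golayCode) : pc (enc (info c)) = (support₂ c.1).card := by
  have h := congrArg (fun d : ↥golayCode => support₂ d.1) (cw_info c)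
  change support₂ (wordOf (enc (info c))) = support₂ c.1 at h
  rw [support₂_wordOf] at h
  rw [← h, card_unmask]

theorem pc_enc (k : ℕ) : pc (enc k) = (support₂ (cw k).1).card := by
  change _ = (support₂ (wordOf (enc k))).card
  rw [support₂_wordOf, card_unmask]

/-- Let X be a group of linear automorphisms of the length-24 binary Golay code of the definitions that fix the all-ones word, containing the coordinate-permutation action of every element of the code's automorphism group (the Mathieu group of degree 24), and such that every element of X sends each codeword into its orbit under that Mathieu group up to adding the all-ones word (X has the same orbits as the Mathieu group on the code modulo the all-ones word). Then every element of X agrees, modulo the all-ones word, with the action of a single element of the Mathieu group: X induces exactly the Mathieu group on the code modulo the all-ones word. -/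
theorem result (X : Subgroup (↥Cfsg.golayCode ≃ₗ[ZMod 2] ↥Cfsg.golayCode)) (h1 : ∀ x ∈ X, ∀ e : ↥Cfsg.golayCode, (e : (Cfsg.GolayPt → ZMod 2)) = (fun _ => (1 : ZMod 2)) → x e = e) (hM : ∀ σ ∈ Cfsg.M24, ∃ x ∈ X, ∀ c : ↥Cfsg.golayCode, ((x c : ↥Cfsg.golayCode) : (Cfsg.GolayPt → ZMod 2)) = fun p => (c : (Cfsg.GolayPt → ZMod 2)) (σ.symm p)) (horb : ∀ x ∈ X, ∀ c : ↥Cfsg.golayCode, ∃ σ ∈ Cfsg.M24, ((x c : ↥Cfsg.golayCode) : (Cfsg.GolayPt → ZMod 2)) = (fun p => (c : (Cfsg.GolayPt → ZMod 2)) (σ.symm p)) ∨ ((x c : ↥Cfsg.golayCode) : (Cfsg.GolayPt → ZMod 2)) = (fun p => (c : (Cfsg.GolayPt → ZMod 2)) (σ.symm p)) + fun _ => (1 : ZMod 2)) (x : ↥Cfsg.golayCode ≃ₗ[ZMod 2] ↥Cfsg.golayCode) (hx : x ∈ X) : ∃ σ ∈ Cfsg.M24, ∀ c : ↥Cfsg.golayCode, ((x c : ↥Cfsg.golayCode) : (Cfsg.GolayPt → ZMod 2)) = (fun p => (c : (Cfsg.GolayPt → ZMod 2)) (σ.symm p)) ∨ ((x c : ↥Cfsg.golayCode) : (Cfsg.GolayPt → ZMod 2)) = (fun p => (c : (Cfsg.GolayPt → ZMod 2)) (σ.symm p)) + fun _ => (1 : ZMod 2) := by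
  have hW : ∀ k ∈ Wl, info (x (cw k)) ∈ Wl := by
    intro k hk
    rw [mem_Wl] at hk ⊢
    refine ⟨info_lt _, ?_⟩
    rw [pc_enc_info]
    have hk2 := hk.2
    rw [pc_enc] at hk2
    obtain ⟨σ, -, h | h⟩ := horb x hx (cw k)
    · rw [h, support₂_comp, Finset.card_smul_finset]
      exact hk2
    · rw [h, support₂_add_one, Finset.card_compl, support₂_comp, Finset.card_smul_finset]
      have h24 : Fintype.card GolayPt = 24 := by decide
      rw [h24]
      omega
  obtain ⟨π, hπinj, hπ⟩ := exists_perm (fun p q => (fpair p q).comp x.toLinearMap)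
    (fun p q hpq => exists_pair x hW hpq)
    (fun p q r => by rw [← LinearMap.add_comp, fpair_add])
    (fun p q => by rw [fpair_comm])
    (fun p q r s h => by
      ext c
      have := congrArg (fun g : Fn => g (x.symm c)) h
      simpa using this)
  let e : Equiv.Perm GolayPt := Equiv.ofBijective π (Finite.injective_iff_bijective.mp hπinj)
  have hrel : ∀ (c : ↥golayCode) (p q : GolayPt),
      (x c).1 p + (x c).1 q = c.1 (π p) + c.1 (π q) := by
    intro c p q
    by_cases hpq : p = q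
    · subst hpq
      rw [CharTwo.add_self_eq_zero, CharTwo.add_self_eq_zero]
    · exact congrArg (fun g : Fn => g c) (hπ p q hpq)
  have hform : ∀ c : ↥golayCode, (x c).1 = (fun p => c.1 (π p)) ∨
      (x c).1 = (fun p => c.1 (π p)) + fun _ => (1 : ZMod 2) := by
    intro c
    rcases zmod2_cases ((x c).1 none + c.1 (π none)) with h | h
    · left
      funext p
      have h2 := hrel c p none
      generalize (x c).1 p = a at *
      generalize (x c).1 none = b at *
      generalize c.1 (π p) = a' at *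
      generalize c.1 (π none) = b' at *
      revert a b a' b'
      decide
    · right
      funext p
      have h2 := hrel c p none
      change _ = c.1 (π p) + 1
      generalize (x c).1 p = a at *
      generalize (x c).1 none = b at *
      generalize c.1 (π p) = a' at *
      generalize c.1 (π none) = b' at *
      revert a b a' b'
      decide
  refine ⟨e.symm, ?_, ?_⟩
  · rw [MulAction.mem_stabilizer_set_iff_smul_set_subset supports_finite]
    rintro _ ⟨s, ⟨w, hw, rfl⟩, rfl⟩
    change e.symm • support₂ w ∈ _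
    rw [← support₂_comp]
    refine ⟨_, ?_, rfl⟩
    have hone : (fun _ => (1 : ZMod 2)) ∈ golayCode :=
      Submodule.subset_span (Or.inr rfl)
    rcases hform ⟨w, hw⟩ with h | h
    · have : (fun p => w (e.symm.symm p)) = (x ⟨w, hw⟩).1 := h.symm
      rw [SetLike.mem_coe, this]
      exact (x ⟨w, hw⟩).2
    · have : (fun p => w (e.symm.symm p)) = (x ⟨w, hw⟩).1 + fun _ => (1 : ZMod 2) := by
        rw [h]
        funext p
        change w (π p) = w (π p) + 1 + 1
        generalize w (π p) = a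
        revert a
        decide
      rw [SetLike.mem_coe, this]
      exact golayCode.add_mem (x ⟨w, hw⟩).2 hone
  · intro c
    exact hform c

end Cfsg.Agent.S5549
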