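import Cfsg.Statements.S5550
import Cfsg.Agent.Lib.Helper92.M24Tools
import Cfsg.Agent.Lib.Helper27.Dodecad

set_option autoImplicit false
open Cfsg

namespace Cfsg.Agent.S5550

open Cfsg.Agent.Lib.Helper27 Cfsg.Agent.Lib.Helper92
open scoped Pointwise

/-- the Boolean test: no non-zero coset of the code is fixed by all the coded permutations. -/
def cosetTest (gens : List ℕ) : Bool :=
  allBelow (fun s => Cfsg.Agent.Lib.Helper92.bor (isCode (leader s))
    (anyList (fun c => bnot (isCode (Nat.xor (permMask c (leader s)) (leader s)))) gens)) 4096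

theorem coset_check (R : ℕ) (gens : List ℕ) (hg : allList (checkFix [R]) gens = true)
    (h : cosetTest gens = true) :
    ∀ m, m < 2 ^ 24 → isCode m = false →
      ∃ c ∈ gens, checkFix [R] c = true ∧ isCode (permMask c m ^^^ m) = false := by
  intro m hm hmc
  unfold cosetTest at h
  rw [allBelow_iff] at h
  rw [allList_iff] at hg
  have h1 := h (syn m) (syn_lt hm)
  set e := leader (syn m) with he
  have hk : isCode (m ^^^ e) = true := isCode_xor_leader hm
  have he24 : e < 2 ^ 24 := leader_lt _
  have hme : (m ^^^ e) ^^^ e = m := by rw [Nat.xor_assoc, Nat.xor_self, Nat.xor_zero]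
  rw [Cfsg.Agent.Lib.Helper92.bor_eq, Bool.or_eq_true, anyList_iff] at h1
  rcases h1 with h1 | ⟨c, hc, h1⟩
  · have := isCode_xor hk h1
    rw [hme, hmc] at this
    exact absurd this (by simp)
  · refine ⟨c, hc, hg c hc, ?_⟩
    rw [bnot_eq_true] at h1
    by_contra hcon
    rw [Bool.not_eq_false] at hcon
    have hchk : checkM24 c = true := by
      have := hg c hc
      unfold checkFix at this
      rw [band_eq, Bool.and_eq_true] at this
      exact this.1
    have hv := valid_of_check hchk
    have h2 : isCode (permMask c (m ^^^ e) ^^^ (m ^^^ e)) = true :=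
      isCode_xor (isCode_permMask_of_check hchk hk) hk
    have h3 := isCode_xor hcon h2
    have e1 : (permMask c m ^^^ m) ^^^ (permMask c (m ^^^ e) ^^^ (m ^^^ e)) = permMask c e ^^^ e := by
      rw [permMask_xor hv hm he24]
      apply Nat.eq_of_testBit_eq
      intro j
      simp only [Nat.testBit_xor]
      cases (permMask c m).testBit j <;> cases m.testBit j <;> cases (permMask c e).testBit j <;>
        cases e.testBit j <;> rfl
    rw [e1] at h3
    have h1' : isCode (permMask c e ^^^ e) = false := h1
    rw [h3] at h1'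
    exact absurd h1' (by simp)

theorem smul_compl (g : Equiv.Perm GolayPt) (s : Finset GolayPt) : g • sᶜ = (g • s)ᶜ := by
  rw [Finset.compl_eq_univ_sdiff, Finset.smul_finset_sdiff, Finset.smul_finset_univ,
    Finset.compl_eq_univ_sdiff]

theorem sub_eq_add' (a b : GolayPt → ZMod 2) : a - b = a + b := by
  funext p
  have : ∀ x y : ZMod 2, x - y = x + y := by decide
  exact this _ _

/-- transport to a standard position. -/
theorem transport (R : ℕ)
    (hR : ∀ m, m < 2 ^ 24 → isCode m = false →
      ∃ c, checkFix [R] c = true ∧ isCode (permMask c m ^^^ m) = false)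
    (u w : GolayPt → ZMod 2) (hw : w ∉ golayCode) (g : Equiv.Perm GolayPt) (hg : g ∈ M24)
    (hfix : ∀ σ ∈ fixer [R], σ • (g • support₂ u) = g • support₂ u) :
    ∃ σ ∈ M24, act σ u = u ∧ act σ w - w ∉ golayCode := by
  obtain ⟨m, hm, hwm⟩ := exists_wordOf (act g w)
  have hmc : isCode m = false := by
    by_contra hcon
    rw [Bool.not_eq_false] at hcon
    apply hw
    rw [← act_mem_golayCode_iff hg, hwm, wordOf_mem_iff hm]
    exact hcon
  obtain ⟨c, hc, hc2⟩ := hR m hm hmc
  have hmem := permOf_mem_fixer hc
  have hv := valid_of_checkFix hc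
  refine ⟨g⁻¹ * permOf c * g, M24.mul_mem (M24.mul_mem (M24.inv_mem hg) hmem.1) hg, ?_, ?_⟩
  · apply act_eq_self_of_smul
    rw [mul_smul, mul_smul, hfix _ hmem, inv_smul_smul]
  · rw [← act_mem_golayCode_iff hg, act_sub, ← act_mul, mul_assoc, mul_inv_cancel_left,
      act_mul, hwm, act_wordOf hv hm, sub_eq_add', ← wordOf_xor,
      wordOf_mem_iff (Nat.xor_lt_two_pow (permMask_lt hv hm) hm), hc2]
    simp

def gensO : List ℕ :=
  [735344088289108986671786827213538487, 730385401160447279325329191654725345]

def gensD : List ℕ :=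
  [934257979451625018657808559106198546, 733020512365875787502021934242071843]

theorem hO : ∀ m, m < 2 ^ 24 → isCode m = false →
    ∃ c, checkFix [stdOctad] c = true ∧ isCode (permMask c m ^^^ m) = false := by
  intro m hm hmc
  obtain ⟨c, _, h⟩ := coset_check stdOctad gensO (by decide +kernel) (by decide +kernel) m hm hmc
  exact ⟨c, h⟩

theorem hD : ∀ m, m < 2 ^ 24 → isCode m = false →
    ∃ c, checkFix [stdDodecad] c = true ∧ isCode (permMask c m ^^^ m) = false := by
  intro m hm hmc
  obtain ⟨c, _, h⟩ := coset_check stdDodecad gensD (by decide +kernel) (by decide +kernel) m hm hmc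
  exact ⟨c, h⟩

/-- Let u be a word of the length-24 binary Golay code of the definitions (possibly zero or all-ones) and w any binary word of length 24 outside the code. Then some automorphism of the code (a coordinate permutation preserving it) fixes u but moves w to a word not congruent to w modulo the code: the stabilizer of a codeword fixes no non-zero element of the quotient of the space of all words by the code. -/
theorem result (u : (Cfsg.GolayPt → ZMod 2)) (hu : u ∈ Cfsg.golayCode) (w : (Cfsg.GolayPt → ZMod 2)) (hw : w ∉ Cfsg.golayCode) : ∃ σ ∈ Cfsg.M24, (fun p => u (σ.symm p)) = u ∧ (fun p => w (σ.symm p)) - w ∉ Cfsg.golayCode := by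
  show ∃ σ ∈ M24, act σ u = u ∧ act σ w - w ∉ golayCode
  have hc : isCode (mask (support₂ u)) = true := (mem_golayCode_iff u).1 hu
  have hcard := card_eq_pc (support₂ u)
  rcases pc_of_isCode hc with h | h | h | h | h
  · -- the zero word
    have h0 : support₂ u = ∅ := by rw [← Finset.card_eq_zero, hcard, h]
    apply transport stdOctad hO u w hw 1 M24.one_mem
    intro σ _
    rw [h0]; simp
  · -- an octad
    have ho : support₂ u ∈ octads := (mem_octads_iff _).2 ⟨hc, h⟩
    obtain ⟨g, hg, hgo⟩ := octad_to_std ho
    apply transport stdOctad hO u w hw g hg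
    intro σ hσ
    rw [hgo]; exact hσ.2 _ (by simp)
  · -- a dodecad
    have ho : support₂ u ∈ dodecads := (mem_dodecads_iff _).2 ⟨hc, h⟩
    obtain ⟨g, hg, hgo⟩ := dodecad_to_std ho
    apply transport stdDodecad hD u w hw g hg
    intro σ hσ
    rw [hgo]; exact hσ.2 _ (by simp)
  · -- the complement of an octad
    have ho : (support₂ u)ᶜ ∈ octads := by
      rw [mem_octads_iff, mask_compl]
      have h1 : isCode (2 ^ 24 - 1) = true := by decide +kernel
      refine ⟨isCode_xor hc h1, ?_⟩
      have h2 := pc_xor_add (mask_lt (support₂ u)) (show 2 ^ 24 - 1 < 2 ^ 24 by norm_num)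
      have h3 : mask (support₂ u) &&& (2 ^ 24 - 1) = mask (support₂ u) := by
        rw [Nat.and_two_pow_sub_one_eq_mod, Nat.mod_eq_of_lt (mask_lt _)]
      have h4 : pc (2 ^ 24 - 1) = 24 := by decide +kernel
      rw [h3, h4, h] at h2
      omega
    obtain ⟨g, hg, hgo⟩ := octad_to_std ho
    apply transport stdOctad hO u w hw g hg
    intro σ hσ
    have h1 : g • support₂ u = (unmask stdOctad)ᶜ := by
      rw [← hgo, smul_compl, compl_compl]
    rw [h1, smul_compl, hσ.2 _ (by simp)]
  · -- the all-ones word
    have h0 : support₂ u = Finset.univ := by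
      rw [← Finset.card_eq_iff_eq_univ, hcard, h]; decide +kernel
    apply transport stdOctad hO u w hw 1 M24.one_mem
    intro σ _
    rw [h0]; simp

end Cfsg.Agent.S5550
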