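import Cfsg.Statements.S5553
import Cfsg.Agent.S0390
import Cfsg.Agent.S0359
import Cfsg.Agent.S0358
import Cfsg.Prelude.Def_Spor_Conway

set_option autoImplicit false
open Cfsg

namespace Cfsg.Agent.S5553

theorem leech_eq : (leechLattice : Set (GolayPt → ℤ)) = leechSet := by
  obtain ⟨L, hL⟩ := Cfsg.Agent.S0390.result
  unfold leechLattice
  rw [← hL, AddSubgroup.closure_eq]

theorem mem_leech_iff (x : GolayPt → ℤ) : x ∈ leechLattice ↔ x ∈ leechSet := by
  rw [← leech_eq]; rfl

/-- even vectors -/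
def Ev : AddSubgroup (GolayPt → ℤ) where
  carrier := {x | x ∈ leechLattice ∧ ∀ p, (2 : ℤ) ∣ x p}
  zero_mem' := ⟨leechLattice.zero_mem, fun p => by simp⟩
  add_mem' := fun {a b} ha hb => ⟨leechLattice.add_mem ha.1 hb.1, fun p => dvd_add (ha.2 p) (hb.2 p)⟩
  neg_mem' := fun {a} ha => ⟨leechLattice.neg_mem ha.1, fun p => (dvd_neg).mpr (ha.2 p)⟩

/-- vectors divisible by 4 -/
def A0 : AddSubgroup (GolayPt → ℤ) where
  carrier := {x | x ∈ leechLattice ∧ ∀ p, (4 : ℤ) ∣ x p}
  zero_mem' := ⟨leechLattice.zero_mem, fun p => by simp⟩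
  add_mem' := fun {a b} ha hb => ⟨leechLattice.add_mem ha.1 hb.1, fun p => dvd_add (ha.2 p) (hb.2 p)⟩
  neg_mem' := fun {a} ha => ⟨leechLattice.neg_mem ha.1, fun p => (dvd_neg).mpr (ha.2 p)⟩

/-- vectors constant mod 4, the constant being even -/
def AA : AddSubgroup (GolayPt → ℤ) where
  carrier := {x | x ∈ leechLattice ∧ ∃ t : ℤ, (2 : ℤ) ∣ t ∧ ∀ p, (4 : ℤ) ∣ x p - t}
  zero_mem' := ⟨leechLattice.zero_mem, 0, by simp, fun p => by simp⟩
  add_mem' := by
    rintro a b ⟨ha, t, ht, hat⟩ ⟨hb, s, hs, hbs⟩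
    refine ⟨leechLattice.add_mem ha hb, t + s, dvd_add ht hs, fun p => ?_⟩
    have : (a + b) p - (t + s) = (a p - t) + (b p - s) := by simp only [Pi.add_apply]; ring
    rw [this]
    exact dvd_add (hat p) (hbs p)
  neg_mem' := by
    rintro a ⟨ha, t, ht, hat⟩
    refine ⟨leechLattice.neg_mem ha, -t, (dvd_neg).mpr ht, fun p => ?_⟩
    have : (-a) p - (-t) = -(a p - t) := by simp only [Pi.neg_apply]; ring
    rw [this]
    exact (dvd_neg).mpr (hat p)

theorem A0_le_AA : A0 ≤ AA := by
  rintro x ⟨hx, h4⟩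
  exact ⟨hx, 0, by simp, fun p => by simpa using h4 p⟩

theorem AA_le_Ev : AA ≤ Ev := by
  rintro x ⟨hx, t, ht, h4⟩
  refine ⟨hx, fun p => ?_⟩
  have := h4 p
  omega

theorem Ev_le : Ev ≤ leechLattice := fun x hx => hx.1

theorem AA_le : AA ≤ leechLattice := fun x hx => hx.1

open Cfsg.Spor in
theorem vecV_mem : Cfsg.Spor.vecV ∈ leechLattice := AddSubgroup.subset_closure vecV_mem_leechSet

theorem vecV_odd (p : GolayPt) : Cfsg.Spor.vecV p % 2 = 1 := by
  unfold Cfsg.Spor.vecV
  split_ifs <;> norm_num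

theorem vecV_mod4 (p : GolayPt) : Cfsg.Spor.vecV p % 4 = 3 := by
  unfold Cfsg.Spor.vecV
  split_ifs <;> norm_num

theorem relIndex_Ev : Ev.relIndex leechLattice = 2 := by
  rw [AddSubgroup.relIndex_eq_two_iff]
  refine ⟨Cfsg.Spor.vecV, vecV_mem, fun b hb => ?_⟩
  obtain ⟨m, hm, -⟩ := (mem_leech_iff b).mp hb
  rcases Int.emod_two_eq_zero_or_one m with h0 | h1
  · right
    refine ⟨⟨hb, fun p => ?_⟩, ?_⟩
    · have := hm p
      unfold Int.ModEq at this
      omega
    · rintro ⟨-, h⟩
      have h2 := h none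
      have h3 := hm none
      have h4 := vecV_odd none
      unfold Int.ModEq at h3
      simp only [Pi.add_apply] at h2
      omega
  · left
    refine ⟨⟨leechLattice.add_mem hb vecV_mem, fun p => ?_⟩, ?_⟩
    · have h3 := hm p
      have h4 := vecV_odd p
      unfold Int.ModEq at h3
      simp only [Pi.add_apply]
      omega
    · rintro ⟨-, h⟩
      have h2 := h none
      have h3 := hm none
      unfold Int.ModEq at h3
      omega

theorem relIndex_A0_AA : A0.relIndex AA = 2 := by
  rw [AddSubgroup.relIndex_eq_two_iff]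
  have hmem : Cfsg.Spor.vecV + Cfsg.Spor.vecV ∈ leechLattice := leechLattice.add_mem vecV_mem vecV_mem
  refine ⟨Cfsg.Spor.vecV + Cfsg.Spor.vecV, ⟨hmem, 2, by norm_num, fun p => ?_⟩, ?_⟩
  · have := vecV_mod4 p
    simp only [Pi.add_apply]
    omega
  · rintro b ⟨hb, t, ht, hbt⟩
    have ht4 : t % 4 = 0 ∨ t % 4 = 2 := by omega
    rcases ht4 with h0 | h2
    · right
      refine ⟨⟨hb, fun p => ?_⟩, ?_⟩
      · have := hbt p
        omega
      · rintro ⟨-, h⟩
        have h2 := h none
        have h3 := hbt none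
        have h4 := vecV_mod4 none
        simp only [Pi.add_apply] at h2
        omega
    · left
      refine ⟨⟨leechLattice.add_mem hb hmem, fun p => ?_⟩, ?_⟩
      · have h3 := hbt p
        have h4 := vecV_mod4 p
        simp only [Pi.add_apply]
        omega
      · rintro ⟨-, h⟩
        have h2 := h none
        have h3 := hbt none
        omega

def half (x : GolayPt → ℤ) : GolayPt → ZMod 2 := fun p => ((x p / 2 : ℤ) : ZMod 2)

theorem zmod2_ne_zero (a : ZMod 2) : a ≠ 0 ↔ a = 1 := by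
  revert a; decide

theorem cast_of_mod (a : ℤ) (r : ℤ) (h : a % 2 = r) : (a : ZMod 2) = (r : ZMod 2) := by
  rw [← h]
  exact (ZMod.intCast_mod a 2).symm

theorem half_mem {x : GolayPt → ℤ} (hx : x ∈ Ev) : half x ∈ golayCode := by
  obtain ⟨hxL, h2⟩ := hx
  obtain ⟨m, -, -, hk⟩ := (mem_leech_iff x).mp hxL
  obtain ⟨w, hw, hsupp⟩ := hk 2
  have : half x = w := by
    funext p
    have h1 : p ∈ support₂ w ↔ x p ≡ 2 [ZMOD 4] := by rw [hsupp]; simp
    have h3 : p ∈ support₂ w ↔ w p ≠ 0 := by unfold support₂; simp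
    have h2p := h2 p
    unfold half
    by_cases h : x p ≡ 2 [ZMOD 4]
    · have hw1 : w p = 1 := (zmod2_ne_zero _).mp (h3.mp (h1.mpr h))
      rw [hw1]
      unfold Int.ModEq at h
      rw [cast_of_mod (x p / 2) 1 (by omega)]
      simp
    · have hw0 : w p = 0 := by
        by_contra hne
        exact h (h1.mp (h3.mpr hne))
      rw [hw0]
      unfold Int.ModEq at h
      rw [cast_of_mod (x p / 2) 0 (by omega)]
      simp
  rw [this]
  exact hw

theorem half_add {x y : GolayPt → ℤ} (hx : x ∈ Ev) (hy : y ∈ Ev) :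
    half (x + y) = half x + half y := by
  funext p
  unfold half
  simp only [Pi.add_apply]
  rw [Int.add_ediv_of_dvd_left (hx.2 p), Int.cast_add]

def phi : ↥Ev →+ ↥golayCode :=
  AddMonoidHom.mk' (fun x => ⟨half x.1, half_mem x.2⟩)
    (fun x y => Subtype.ext (half_add x.2 y.2))

theorem phi_ker : phi.ker = A0.addSubgroupOf Ev := by
  ext x
  rw [AddMonoidHom.mem_ker, AddSubgroup.mem_addSubgroupOf]
  constructor
  · intro h
    refine ⟨x.2.1, fun p => ?_⟩
    have h1 : half x.1 p = 0 := by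
      have := congrArg (fun c : ↥golayCode => c.1 p) h
      exact this
    unfold half at h1
    rw [ZMod.intCast_zmod_eq_zero_iff_dvd] at h1
    have h2 := x.2.2 p
    have h3 : (2 : ℤ) ∣ x.1 p / 2 := by exact_mod_cast h1
    omega
  · rintro ⟨-, h4⟩
    apply Subtype.ext
    funext p
    show half x.1 p = 0
    unfold half
    rw [ZMod.intCast_zmod_eq_zero_iff_dvd]
    have := h4 p
    have h3 : (2 : ℤ) ∣ x.1 p / 2 := by omega
    exact_mod_cast h3

theorem one_mem_code : (1 : GolayPt → ZMod 2) ∈ golayCode :=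
  Submodule.subset_span (Set.mem_union_right _ rfl)

def lift2 (c : GolayPt → ZMod 2) : GolayPt → ℤ := fun p => if c p = 0 then 0 else 2

theorem lift2_mem {c : GolayPt → ZMod 2} (hc : c ∈ golayCode) : lift2 c ∈ Ev := by
  refine ⟨(mem_leech_iff _).mpr ⟨0, ?_, ?_, ?_⟩, ?_⟩
  · intro p
    unfold lift2
    split_ifs <;> decide
  · have hsum : ∑ p, lift2 c p = 2 * (hammingNorm c : ℤ) := by
      unfold lift2 hammingNorm
      rw [Finset.sum_ite, Finset.sum_const_zero, Finset.sum_const, zero_add]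
      simp
      ring
    rw [hsum]
    rcases Cfsg.Agent.S0359.result c hc with h | h | h | h | h <;> rw [h] <;> decide
  · intro k
    have hk4 : k % 4 = 0 ∨ k % 4 = 2 ∨ k % 4 = 1 ∨ k % 4 = 3 := by omega
    rcases hk4 with h | h | h | h
    · refine ⟨c + 1, golayCode.add_mem hc one_mem_code, ?_⟩
      ext p
      unfold support₂ lift2
      simp only [Finset.mem_filter, Finset.mem_univ, true_and, Pi.add_apply, Pi.one_apply]
      by_cases hp : c p = 0
      · simp only [hp, if_true]
        unfold Int.ModEq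
        constructor
        · intro _; omega
        · intro _; decide
      · have hp1 := (zmod2_ne_zero _).mp hp
        simp only [hp, if_false]
        unfold Int.ModEq
        rw [hp1]
        constructor
        · intro hh; exact absurd (by decide) hh
        · intro hh; omega
    · refine ⟨c, hc, ?_⟩
      ext p
      unfold support₂ lift2
      simp only [Finset.mem_filter, Finset.mem_univ, true_and]
      by_cases hp : c p = 0
      · simp only [hp, if_true]
        unfold Int.ModEq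
        constructor
        · intro hh; exact absurd rfl hh
        · intro hh; omega
      · simp only [hp, if_false]
        unfold Int.ModEq
        constructor
        · intro _; omega
        · intro _; exact hp
    · refine ⟨0, golayCode.zero_mem, ?_⟩
      ext p
      unfold support₂ lift2
      simp only [Finset.mem_filter, Finset.mem_univ, true_and, Pi.zero_apply]
      unfold Int.ModEq
      constructor
      · intro hh; exact absurd rfl hh
      · intro hh; split_ifs at hh <;> omega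
    · refine ⟨0, golayCode.zero_mem, ?_⟩
      ext p
      unfold support₂ lift2
      simp only [Finset.mem_filter, Finset.mem_univ, true_and, Pi.zero_apply]
      unfold Int.ModEq
      constructor
      · intro hh; exact absurd rfl hh
      · intro hh; split_ifs at hh <;> omega
  · intro p
    unfold lift2
    split_ifs <;> norm_num

theorem half_lift2 (c : GolayPt → ZMod 2) : half (lift2 c) = c := by
  funext p
  unfold half lift2
  by_cases hp : c p = 0
  · simp [hp]
  · have hp1 := (zmod2_ne_zero _).mp hp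
    simp [hp1]

theorem phi_surj : Function.Surjective phi := by
  rintro ⟨c, hc⟩
  exact ⟨⟨lift2 c, lift2_mem hc⟩, Subtype.ext (half_lift2 c)⟩

theorem card_code : Nat.card ↥golayCode = 2 ^ 12 := by
  rw [Module.natCard_eq_pow_finrank (K := ZMod 2), Cfsg.Agent.S0358.result]
  simp

theorem relIndex_A0_Ev : A0.relIndex Ev = 2 ^ 12 := by
  unfold AddSubgroup.relIndex
  rw [← phi_ker, AddSubgroup.index_ker, AddMonoidHom.range_eq_top.mpr phi_surj, ← card_code]
  exact Nat.card_congr AddSubgroup.topEquiv.toEquiv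

theorem relIndex_AA : AA.relIndex leechLattice = 2 ^ 12 := by
  have h1 := AddSubgroup.relIndex_mul_relIndex A0 AA Ev A0_le_AA AA_le_Ev
  have h2 := AddSubgroup.relIndex_mul_relIndex AA Ev leechLattice AA_le_Ev Ev_le
  rw [relIndex_A0_AA, relIndex_A0_Ev] at h1
  rw [relIndex_Ev] at h2
  omega

theorem two_smul_mem {v : GolayPt → ℤ} (hv : v ∈ leechLattice) : (2 : ℤ) • v ∈ AA := by
  obtain ⟨m, hm, -⟩ := (mem_leech_iff v).mp hv
  refine ⟨leechLattice.zsmul_mem hv 2, 2 * m, by simp, fun p => ?_⟩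
  have := hm p
  unfold Int.ModEq at this
  simp only [Pi.smul_apply, smul_eq_mul]
  omega

theorem card_pt : Fintype.card GolayPt = 24 := by decide

theorem norm_dvd {v : GolayPt → ℤ} (hv : v ∈ AA) : (32 : ℤ) ∣ sqNorm v := by
  obtain ⟨hvL, t, ⟨s, hs⟩, h4⟩ := hv
  obtain ⟨m, hm, hsum, -⟩ := (mem_leech_iff v).mp hvL
  choose y hy using h4
  have hv' : ∀ p, v p = t + 4 * y p := fun p => by have := hy p; omega
  have hm2 : m % 2 = 0 := by
    have h1 := hm none
    have h2 := hv' none
    unfold Int.ModEq at h1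
    omega
  have hsumv : ∑ p, v p = 24 * t + 4 * ∑ p, y p := by
    simp_rw [hv']
    rw [Finset.sum_add_distrib, Finset.sum_const, ← Finset.mul_sum, Finset.card_univ, card_pt]
    simp
  have hy2 : (2 : ℤ) ∣ ∑ p, y p := by
    unfold Int.ModEq at hsum
    rw [hsumv] at hsum
    omega
  obtain ⟨r, hr⟩ := hy2
  have hsq : (2 : ℤ) ∣ ∑ p, (y p ^ 2 - y p) := by
    apply Finset.dvd_sum
    intro p _
    have : y p ^ 2 - y p = y p * (y p - 1) := by ring
    rw [this]
    exact (Int.even_mul_pred_self (y p)).two_dvd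
  obtain ⟨q, hq⟩ := hsq
  rw [Finset.sum_sub_distrib, hr] at hq
  have hnorm : sqNorm v = 24 * t ^ 2 + 8 * t * ∑ p, y p + 16 * ∑ p, y p ^ 2 := by
    unfold sqNorm
    simp_rw [hv']
    have : ∀ p, (t + 4 * y p) ^ 2 = t ^ 2 + 8 * t * y p + 16 * y p ^ 2 := fun p => by ring
    simp_rw [this]
    rw [Finset.sum_add_distrib, Finset.sum_add_distrib, Finset.sum_const, ← Finset.mul_sum,
      ← Finset.mul_sum, Finset.card_univ, card_pt]
    simp
  rw [hnorm, hr, hs]
  have hq' : ∑ p, y p ^ 2 = 2 * q + 2 * r := by linarith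
  rw [hq']
  exact ⟨3 * s ^ 2 + s * r + q + r, by ring⟩

theorem result : ∃ A : AddSubgroup (Cfsg.GolayPt → ℤ), A ≤ Cfsg.leechLattice ∧ (∀ v ∈ Cfsg.leechLattice, (2 : ℤ) • v ∈ A) ∧ (A.addSubgroupOf Cfsg.leechLattice).index = 2 ^ 12 ∧ ∀ v ∈ A, (32 : ℤ) ∣ Cfsg.sqNorm v :=
  ⟨AA, AA_le, fun _ hv => two_smul_mem hv, relIndex_AA, fun _ hv => norm_dvd hv⟩

end Cfsg.Agent.S5553
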