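import Cfsg.Statements.S5588
import Cfsg.Agent.Lib.Helper93.Y5.Key

set_option autoImplicit false
set_option maxRecDepth 100000
set_option linter.constructorNameAsVariable false
open Cfsg

namespace Cfsg.Agent.S5588

open Cfsg.Spor Cfsg.Agent.Lib.Helper28 Cfsg.Agent.Lib.Helper93.Y5

/-- the relators: Coxeter relators of `Y₅₅₅` and the spider relator -/
abbrev R : Set (FreeGroup Bimonster.Gen) :=
  coxRelators Bimonster.edges ∪ {r' | r' ∈ [(Bimonster.a * Bimonster.b1 * Bimonster.c1 * Bimonster.a * Bimonster.b2 *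
    Bimonster.c2 * Bimonster.a * Bimonster.b3 * Bimonster.c3) ^ 10]}

/-- the images of the nodes -/
noncomputable def m (x : Bimonster.Gen) : PresentedGroup R := PresentedGroup.mk R (FreeGroup.of x)

theorem node_mem (x : Bimonster.Gen) : x ∈ coxNodes Bimonster.edges := by
  cases x <;> decide

theorem cox (x y : Bimonster.Gen) : (m x * m y) ^ coxLabel Bimonster.edges x y = 1 := by
  have h : PresentedGroup.mk R ((FreeGroup.of x * FreeGroup.of y) ^ coxLabel Bimonster.edges x y) = 1 :=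
    PresentedGroup.one_of_mem (Or.inl ⟨x, node_mem x, y, node_mem y, rfl⟩)
  rwa [map_pow, map_mul] at h

theorem sq (x : Bimonster.Gen) : m x * m x = 1 := by
  have h := cox x x
  have e : coxLabel Bimonster.edges x x = 1 := by simp [coxLabel]
  rwa [e, pow_one] at h

theorem inv_eq (x : Bimonster.Gen) : (m x)⁻¹ = m x := inv_eq_of_mul_eq_one_left (sq x)

theorem comm {x y : Bimonster.Gen} (h : coxLabel Bimonster.edges x y = 2) : Commute (m x) (m y) := by
  have h1 := cox x y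
  rw [h, pow_two] at h1
  -- x y x y = 1
  have h2 : m x * m y = (m y)⁻¹ * (m x)⁻¹ := by
    rw [← mul_inv_rev]
    exact eq_inv_of_mul_eq_one_left h1
  rw [inv_eq, inv_eq] at h2
  exact h2

theorem spider0 : (m .a * m .b1 * m .c1 * m .a * m .b2 * m .c2 * m .a * m .b3 * m .c3) ^ 10 = 1 := by
  have h : PresentedGroup.mk R ((Bimonster.a * Bimonster.b1 * Bimonster.c1 * Bimonster.a * Bimonster.b2 *
    Bimonster.c2 * Bimonster.a * Bimonster.b3 * Bimonster.c3) ^ 10) = 1 :=
    PresentedGroup.one_of_mem (Or.inr (by simp))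
  simp only [map_pow, map_mul] at h
  exact h

section Grp

variable {Γ : Type*} [Group Γ]

theorem rot {x y z : Γ} {n : ℕ} (h : (x * y * z) ^ n = 1) : (y * z * x) ^ n = 1 := by
  have h1 : (x * (y * z)) ^ n = 1 := by rwa [← mul_assoc]
  exact pow_swap_eq_one h1

theorem conj_fix {g y : Γ} (h : Commute g y) : g * y * g⁻¹ = y := by
  rw [h.eq, mul_inv_cancel_right]

theorem conj3 (g x y z : Γ) : g * (x * y * z) * g⁻¹ = (g * x * g⁻¹) * (g * y * g⁻¹) * (g * z * g⁻¹) := by
  group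

theorem conj_pow_one {g x : Γ} {n : ℕ} (h : x ^ n = 1) : (g * x * g⁻¹) ^ n = 1 := by
  rw [conj_pow, h, mul_one, mul_inv_cancel]

end Grp

/-- `a bᵢ cᵢ` -/
noncomputable def X (b c : Bimonster.Gen) : PresentedGroup R := m .a * m b * m c
/-- `a cᵢ bᵢ` -/
noncomputable def Y (b c : Bimonster.Gen) : PresentedGroup R := m .a * m c * m b

theorem conj_own {b c : Bimonster.Gen} (h : coxLabel Bimonster.edges c .a = 2) :
    m c * Y b c * (m c)⁻¹ = X b c := by
  unfold X Y
  rw [inv_eq]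
  have h1 := (comm h).eq
  calc m c * (m .a * m c * m b) * m c = (m c * m .a) * m c * m b * m c := by group
    _ = (m .a * m c) * m c * m b * m c := by rw [h1]
    _ = m .a * (m c * m c) * m b * m c := by group
    _ = m .a * m b * m c := by rw [sq, mul_one]

theorem comm_Y {g b c : Bimonster.Gen} (h1 : coxLabel Bimonster.edges g .a = 2)
    (h2 : coxLabel Bimonster.edges g b = 2) (h3 : coxLabel Bimonster.edges g c = 2) : Commute (m g) (Y b c) :=
  ((comm h1).mul_right (comm h3)).mul_right (comm h2)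

theorem comm_X {g b c : Bimonster.Gen} (h1 : coxLabel Bimonster.edges g .a = 2)
    (h2 : coxLabel Bimonster.edges g b = 2) (h3 : coxLabel Bimonster.edges g c = 2) : Commute (m g) (X b c) :=
  ((comm h1).mul_right (comm h2)).mul_right (comm h3)

theorem X123 : (X .b1 .c1 * X .b2 .c2 * X .b3 .c3) ^ 10 = 1 := by
  have h := spider0
  have e : m .a * m .b1 * m .c1 * m .a * m .b2 * m .c2 * m .a * m .b3 * m .c3 =
      X .b1 .c1 * X .b2 .c2 * X .b3 .c3 := by
    unfold X; group
  rwa [e] at h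

theorem Y321 : (Y .b3 .c3 * Y .b2 .c2 * Y .b1 .c1) ^ 10 = 1 := by
  have h := X123
  have h1 : ((X .b1 .c1 * X .b2 .c2 * X .b3 .c3)⁻¹) ^ 10 = 1 := by rw [inv_pow, h, inv_one]
  have e : m .a * (X .b1 .c1 * X .b2 .c2 * X .b3 .c3)⁻¹ * (m .a)⁻¹ = Y .b3 .c3 * Y .b2 .c2 * Y .b1 .c1 := by
    unfold X Y
    simp only [mul_inv_rev, inv_eq, mul_assoc, sq, mul_one]
  rw [← e]
  exact conj_pow_one h1

theorem X321 : (X .b3 .c3 * X .b2 .c2 * X .b1 .c1) ^ 10 = 1 := by
  have h0 := Y321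
  have h1 := conj_pow_one (g := m .c1) h0
  rw [conj3, conj_fix (comm_Y (g := .c1) (b := .b3) (c := .c3) (by decide) (by decide) (by decide)),
    conj_fix (comm_Y (g := .c1) (b := .b2) (c := .c2) (by decide) (by decide) (by decide)),
    conj_own (by decide)] at h1
  have h2 := conj_pow_one (g := m .c2) h1
  rw [conj3, conj_fix (comm_Y (g := .c2) (b := .b3) (c := .c3) (by decide) (by decide) (by decide)),
    conj_own (by decide),
    conj_fix (comm_X (g := .c2) (b := .b1) (c := .c1) (by decide) (by decide) (by decide))] at h2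
  have h3 := conj_pow_one (g := m .c3) h2
  rw [conj3, conj_own (by decide),
    conj_fix (comm_X (g := .c3) (b := .b2) (c := .c2) (by decide) (by decide) (by decide)),
    conj_fix (comm_X (g := .c3) (b := .b1) (c := .c1) (by decide) (by decide) (by decide))] at h3
  exact h3

/-- transfer of the relation of `Y₅₃₂` along a map of diagrams -/
theorem transfer (s : Y5PD.Gen → Bimonster.Gen)
    (h1 : ∀ x y, coxLabel Y5PD.pd.edges x y = coxLabel Bimonster.edges (s x) (s y)) (ha : s .d = .a)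
    (h2 : (X (s .c) (s .b) * X (s .e) (s .f) * X (s .h) (s .i)) ^ 10 = 1) :
    m (s .k) = (m (s .d) * m (s .e) * m (s .c) * m (s .h) * m (s .f) * m (s .b) * m (s .g)) ^ 9 := by
  let ψ : FreeGroup Y5PD.Gen →* PresentedGroup R := FreeGroup.lift (fun g => m (s g))
  have hψ : ∀ g, ψ (FreeGroup.of g) = m (s g) := fun g => FreeGroup.lift_apply_of
  have hs : ∀ r ∈ Y5PD.pd.rels, ψ r = 1 := by
    rintro r (⟨x, _, y, _, rfl⟩ | hr)
    · rw [map_pow, map_mul, hψ, hψ, h1]
      exact cox _ _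
    · have hr' : r = (FreeGroup.of .d * FreeGroup.of .c * FreeGroup.of .b * FreeGroup.of .d * FreeGroup.of .e *
          FreeGroup.of .f * FreeGroup.of .d * FreeGroup.of .h * FreeGroup.of .i) ^ 10 := by
        have : r ∈ [(FreeGroup.of Y5PD.Gen.d * FreeGroup.of .c * FreeGroup.of .b * FreeGroup.of .d * FreeGroup.of .e *
          FreeGroup.of .f * FreeGroup.of .d * FreeGroup.of .h * FreeGroup.of .i) ^ 10] := hr
        simpa using this
      rw [hr']
      simp only [map_pow, map_mul, hψ]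
      have e : m (s .d) * m (s .c) * m (s .b) * m (s .d) * m (s .e) * m (s .f) * m (s .d) * m (s .h) * m (s .i) =
          X (s .c) (s .b) * X (s .e) (s .f) * X (s .h) (s .i) := by
        unfold X; rw [ha]; group
      rw [e]
      exact h2
  have hw := (Y5PD.pd_ok.words_of_sat ψ hs).2
  have hk := key (fun x => ψ (Y5PD.pd.lfree x)) hw
  have e10 : ψ (Y5PD.pd.lfree 10) = m (s .k) := hψ _
  rw [e10] at hk
  rw [hk, u1w, evalW_flatten_replicate]
  have e3 : ψ (Y5PD.pd.lfree 3) = m (s .d) := hψ _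
  have e4 : ψ (Y5PD.pd.lfree 4) = m (s .e) := hψ _
  have e2 : ψ (Y5PD.pd.lfree 2) = m (s .c) := hψ _
  have e8 : ψ (Y5PD.pd.lfree 8) = m (s .h) := hψ _
  have e5 : ψ (Y5PD.pd.lfree 5) = m (s .f) := hψ _
  have e1 : ψ (Y5PD.pd.lfree 1) = m (s .b) := hψ _
  have e6 : ψ (Y5PD.pd.lfree 6) = m (s .g) := hψ _
  simp only [evalW_cons, evalW_nil, mul_one, e3, e4, e2, e8, e5, e1, e6, mul_assoc]

/-- the map of diagrams: long arm, arm of length three, arm of length two -/
def smap (b1 c1 d1 e1 f1 b2 c2 d2 b3 c3 : Bimonster.Gen) : Y5PD.Gen → Bimonster.Gen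
  | .d => .a
  | .e => b1
  | .f => c1
  | .g => d1
  | .j => e1
  | .k => f1
  | .c => b2
  | .b => c2
  | .a => d2
  | .h => b3
  | .i => c3

theorem lab123 : ∀ x y, coxLabel Y5PD.pd.edges x y =
    coxLabel Bimonster.edges (smap .b1 .c1 .d1 .e1 .f1 .b2 .c2 .d2 .b3 .c3 x) (smap .b1 .c1 .d1 .e1 .f1 .b2 .c2 .d2 .b3 .c3 y) := by
  intro x y; cases x <;> cases y <;> rfl
theorem lab132 : ∀ x y, coxLabel Y5PD.pd.edges x y =
    coxLabel Bimonster.edges (smap .b1 .c1 .d1 .e1 .f1 .b3 .c3 .d3 .b2 .c2 x) (smap .b1 .c1 .d1 .e1 .f1 .b3 .c3 .d3 .b2 .c2 y) := by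
  intro x y; cases x <;> cases y <;> rfl
theorem lab213 : ∀ x y, coxLabel Y5PD.pd.edges x y =
    coxLabel Bimonster.edges (smap .b2 .c2 .d2 .e2 .f2 .b1 .c1 .d1 .b3 .c3 x) (smap .b2 .c2 .d2 .e2 .f2 .b1 .c1 .d1 .b3 .c3 y) := by
  intro x y; cases x <;> cases y <;> rfl
theorem lab231 : ∀ x y, coxLabel Y5PD.pd.edges x y =
    coxLabel Bimonster.edges (smap .b2 .c2 .d2 .e2 .f2 .b3 .c3 .d3 .b1 .c1 x) (smap .b2 .c2 .d2 .e2 .f2 .b3 .c3 .d3 .b1 .c1 y) := by
  intro x y; cases x <;> cases y <;> rfl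
theorem lab312 : ∀ x y, coxLabel Y5PD.pd.edges x y =
    coxLabel Bimonster.edges (smap .b3 .c3 .d3 .e3 .f3 .b1 .c1 .d1 .b2 .c2 x) (smap .b3 .c3 .d3 .e3 .f3 .b1 .c1 .d1 .b2 .c2 y) := by
  intro x y; cases x <;> cases y <;> rfl
theorem lab321 : ∀ x y, coxLabel Y5PD.pd.edges x y =
    coxLabel Bimonster.edges (smap .b3 .c3 .d3 .e3 .f3 .b2 .c2 .d2 .b1 .c1 x) (smap .b3 .c3 .d3 .e3 .f3 .b2 .c2 .d2 .b1 .c1 y) := by
  intro x y; cases x <;> cases y <;> rfl

theorem fin {f : Bimonster.Gen} {w : FreeGroup Bimonster.Gen} {W : PresentedGroup R}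
    (hw : PresentedGroup.mk R w = W) (h : m f = W ^ 9) :
    PresentedGroup.mk R (FreeGroup.of f * ((w ^ 9)⁻¹)) = 1 := by
  rw [map_mul, map_inv, map_pow, hw]
  show m f * (W ^ 9)⁻¹ = 1
  rw [h, mul_inv_cancel]

/-- In the group presented by the sixteen involutions of the Y₅₅₅ Coxeter diagram subject only to the Coxeter relations and the single spider relation (a b₁ c₁ a b₂ c₂ a b₃ c₃)^10 = 1, each of the further relators used in the definitions' presentation of the Bimonster (each end node equals the ninth power of the Coxeter element of a sub-diagram of type E₇) already holds. Equivalently, the Y₅₅₅ diagram with the spider relation alone presents the Bimonster. -/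
theorem result :
    ∀ r ∈ Cfsg.Spor.Bimonster.extra,
      (PresentedGroup.mk (Cfsg.Spor.coxRelators Cfsg.Spor.Bimonster.edges ∪ {r' | r' ∈ [(Cfsg.Spor.Bimonster.a * Cfsg.Spor.Bimonster.b1 * Cfsg.Spor.Bimonster.c1 * Cfsg.Spor.Bimonster.a * Cfsg.Spor.Bimonster.b2 * Cfsg.Spor.Bimonster.c2 * Cfsg.Spor.Bimonster.a * Cfsg.Spor.Bimonster.b3 * Cfsg.Spor.Bimonster.c3) ^ 10]}) r) = 1 := by
  intro r hr
  simp only [Cfsg.Spor.Bimonster.extra, List.mem_cons, List.mem_nil_iff, or_false] at hr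
  rcases hr with rfl | rfl | rfl | rfl | rfl | rfl | rfl
  · exact PresentedGroup.one_of_mem (Or.inr (by simp))
  · -- f1, arms 1 2 3 : spider order 2 1 3
    exact fin (by simp only [map_mul]; rfl)
      (transfer (smap .b1 .c1 .d1 .e1 .f1 .b2 .c2 .d2 .b3 .c3) lab123 rfl (rot X321))
  · -- f1, arms 1 3 2 : spider order 3 1 2
    exact fin (by simp only [map_mul]; rfl)
      (transfer (smap .b1 .c1 .d1 .e1 .f1 .b3 .c3 .d3 .b2 .c2) lab132 rfl (rot (rot X123)))
  · -- f2, arms 2 1 3 : spider order 1 2 3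
    exact fin (by simp only [map_mul]; rfl)
      (transfer (smap .b2 .c2 .d2 .e2 .f2 .b1 .c1 .d1 .b3 .c3) lab213 rfl X123)
  · -- f2, arms 2 3 1 : spider order 3 2 1
    exact fin (by simp only [map_mul]; rfl)
      (transfer (smap .b2 .c2 .d2 .e2 .f2 .b3 .c3 .d3 .b1 .c1) lab231 rfl X321)
  · -- f3, arms 3 1 2 : spider order 1 3 2
    exact fin (by simp only [map_mul]; rfl)
      (transfer (smap .b3 .c3 .d3 .e3 .f3 .b1 .c1 .d1 .b2 .c2) lab312 rfl (rot (rot X321)))
  · -- f3, arms 3 2 1 : spider order 2 3 1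
    exact fin (by simp only [map_mul]; rfl)
      (transfer (smap .b3 .c3 .d3 .e3 .f3 .b2 .c2 .d2 .b1 .c1) lab321 rfl (rot X123))

end Cfsg.Agent.S5588
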