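import Cfsg.Statements.S5599
import Cfsg.Agent.Lib.Helper27.Trans

set_option autoImplicit false
open Cfsg

namespace Cfsg.Agent.S5599

open Cfsg.Agent.Lib.Helper27
open scoped Pointwise

theorem mem_M22_iff {x : Equiv.Perm GolayPt} :
    x ∈ Spor.M22 ↔ x ∈ M24 ∧ x none = none ∧ x (some 0) = some 0 := by
  rw [Spor.M22, Spor.M23, Subgroup.mem_inf, Subgroup.mem_inf, MulAction.mem_stabilizer_iff,
    MulAction.mem_stabilizer_iff, and_assoc]
  rfl

theorem pair_cases {b : Equiv.Perm GolayPt}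
    (hb : b • ({none, some 0} : Finset GolayPt) = {none, some 0}) :
    (b none = none ∧ b (some 0) = some 0) ∨ (b none = some 0 ∧ b (some 0) = none) := by
  have h1 : b none ∈ ({none, some 0} : Finset GolayPt) := by
    rw [← hb]; exact Finset.smul_mem_smul_finset (by simp)
  have h2 : b (some 0) ∈ ({none, some 0} : Finset GolayPt) := by
    rw [← hb]; exact Finset.smul_mem_smul_finset (by simp)
  have hne : b none ≠ b (some 0) := fun h => by
    have := b.injective h
    exact absurd this (by simp)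
  simp only [Finset.mem_insert, Finset.mem_singleton] at h1 h2
  rcases h1 with h1 | h1 <;> rcases h2 with h2 | h2
  · exact absurd (h1.trans h2.symm) hne
  · exact Or.inl ⟨h1, h2⟩
  · exact Or.inr ⟨h1, h2⟩
  · exact absurd (h1.trans h2.symm) hne

theorem smul_pair {b : Equiv.Perm GolayPt} (h : (b none = none ∧ b (some 0) = some 0) ∨
    (b none = some 0 ∧ b (some 0) = none)) :
    b • ({none, some 0} : Finset GolayPt) = {none, some 0} := by
  rw [Finset.smul_finset_insert, Finset.smul_finset_singleton]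
  show ({b none, b (some 0)} : Finset GolayPt) = _
  rcases h with ⟨h1, h2⟩ | ⟨h1, h2⟩
  · rw [h1, h2]
  · rw [h1, h2, Finset.pair_comm]

/-- an element of `M22` fixing `p` and moving `q`. -/
theorem exists_move {p q : GolayPt} (hp1 : none ≠ p) (hp2 : some 0 ≠ p) (hq1 : none ≠ q)
    (hq2 : some 0 ≠ q) (hpq : p ≠ q) : ∃ x ∈ Spor.M22, x p = p ∧ x q ≠ q := by
  obtain ⟨k, hk, k1, k2, k3, k4⟩ := std4 (x1 := none) (x2 := some 0) (x3 := p) (x4 := q)
    (by simp) hp1 hq1 hp2 hq2 hpq
  obtain ⟨y, hy, hy3⟩ := trans3 (pt 3) (by decide +kernel)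
  have y1 : y (pt 23) = pt 23 := fixer_fix hy (by norm_num) (by simp [L3])
  have y2 : y (pt 0) = pt 0 := fixer_fix hy (by norm_num) (by simp [L3])
  have y3 : y (pt 1) = pt 1 := fixer_fix hy (by norm_num) (by simp [L3])
  refine ⟨k⁻¹ * y * k, mem_M22_iff.2 ⟨M24.mul_mem (M24.mul_mem (M24.inv_mem hk) hy.1) hk, ?_, ?_⟩,
    ?_, ?_⟩
  · rw [Equiv.Perm.mul_apply, Equiv.Perm.mul_apply, k1, y1, ← k1]; simp
  · rw [Equiv.Perm.mul_apply, Equiv.Perm.mul_apply, k2, y2, ← k2]; simp
  · rw [Equiv.Perm.mul_apply, Equiv.Perm.mul_apply, k3, y3, ← k3]; simp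
  · rw [Equiv.Perm.mul_apply, Equiv.Perm.mul_apply, k4, hy3]
    intro h
    rw [Equiv.Perm.inv_eq_iff_eq, k4] at h
    revert h
    decide +kernel

/-- In the automorphism group of the length-24 code, the two-point Mathieu group (permutations of the code's group fixing the extra point and the residue 0) has index 2 in the setwise stabiliser of that pair of points, and an element of the code's group interchanging the two points normalises the two-point group and induces on it, by conjugation, an automorphism that is not inner. -/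
theorem result (g : Equiv.Perm Cfsg.GolayPt) (hg : g ∈ Cfsg.M24) (h₁ : g none = some 0) (h₂ : g (some 0) = none) : Cfsg.Spor.M22.relIndex (Cfsg.M24 ⊓ MulAction.stabilizer (Equiv.Perm Cfsg.GolayPt) ({none, some 0} : Finset Cfsg.GolayPt)) = 2 ∧ (∀ x ∈ Cfsg.Spor.M22, g * x * g⁻¹ ∈ Cfsg.Spor.M22) ∧ ¬ ∃ h ∈ Cfsg.Spor.M22, ∀ x ∈ Cfsg.Spor.M22, g * x * g⁻¹ = h * x * h⁻¹ := by
  have gi1 : g⁻¹ none = some 0 := by rw [Equiv.Perm.inv_eq_iff_eq, h₂]
  have gi2 : g⁻¹ (some 0) = none := by rw [Equiv.Perm.inv_eq_iff_eq, h₁]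
  refine ⟨?_, ?_, ?_⟩
  · rw [Subgroup.relIndex_eq_two_iff]
    refine ⟨g, ⟨hg, smul_pair (Or.inr ⟨h₁, h₂⟩)⟩, ?_⟩
    rintro b ⟨hb, hb2⟩
    rcases pair_cases hb2 with ⟨b1, b2⟩ | ⟨b1, b2⟩
    · refine Or.inr ⟨mem_M22_iff.2 ⟨hb, b1, b2⟩, fun h => ?_⟩
      have := (mem_M22_iff.1 h).2.1
      rw [Equiv.Perm.mul_apply, h₁, b2] at this
      exact absurd this (by simp)
    · refine Or.inl ⟨mem_M22_iff.2 ⟨M24.mul_mem hb hg, ?_, ?_⟩, fun h => ?_⟩
      · rw [Equiv.Perm.mul_apply, h₁, b2]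
      · rw [Equiv.Perm.mul_apply, h₂, b1]
      · have := (mem_M22_iff.1 h).2.1
        rw [b1] at this
        exact absurd this (by simp)
  · intro x hx
    obtain ⟨hx0, hx1, hx2⟩ := mem_M22_iff.1 hx
    refine mem_M22_iff.2 ⟨M24.mul_mem (M24.mul_mem hg hx0) (M24.inv_mem hg), ?_, ?_⟩
    · rw [Equiv.Perm.mul_apply, Equiv.Perm.mul_apply, gi1, hx2, h₂]
    · rw [Equiv.Perm.mul_apply, Equiv.Perm.mul_apply, gi2, hx1, h₁]
  · rintro ⟨h, hh, hcon⟩
    obtain ⟨hh0, hh1, hh2⟩ := mem_M22_iff.1 hh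
    have hi1 : h⁻¹ none = none := by rw [Equiv.Perm.inv_eq_iff_eq, hh1]
    have hi2 : h⁻¹ (some 0) = some 0 := by rw [Equiv.Perm.inv_eq_iff_eq, hh2]
    set c := h⁻¹ * g with hc
    have hcM : c ∈ M24 := M24.mul_mem (M24.inv_mem hh0) hg
    have c1 : c none = some 0 := by rw [hc, Equiv.Perm.mul_apply, h₁, hi2]
    have c2 : c (some 0) = none := by rw [hc, Equiv.Perm.mul_apply, h₂, hi1]
    have hcomm : ∀ x ∈ Spor.M22, c * x = x * c := by
      intro x hx
      have := hcon x hx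
      rw [hc]
      calc h⁻¹ * g * x = h⁻¹ * (g * x * g⁻¹) * g := by group
        _ = h⁻¹ * (h * x * h⁻¹) * g := by rw [this]
        _ = x * (h⁻¹ * g) := by group
    have hfix : ∀ p : GolayPt, none ≠ p → some 0 ≠ p → c p = p := by
      intro p hp1 hp2
      by_contra hne
      have hq1 : none ≠ c p := fun e => hp2 (c.injective (c2.trans e))
      have hq2 : some 0 ≠ c p := fun e => hp1 (c.injective (c1.trans e))
      obtain ⟨x, hx, hxp, hxq⟩ := exists_move hp1 hp2 hq1 hq2 (fun e => hne e.symm)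
      apply hxq
      have := congrArg (fun f : Equiv.Perm GolayPt => f p) (hcomm x hx)
      simp only [Equiv.Perm.mul_apply, hxp] at this
      exact this.symm
    have hone : c = 1 := by
      apply checkRigid_sound [(5279, 5279), (8391797, 8391797)] 8388606 (by decide +kernel) c hcM
      intro p hp
      have hp' : ∀ p : GolayPt, p ∈ unmask 8388606 → none ≠ p ∧ some 0 ≠ p := by decide +kernel
      exact hfix p (hp' p hp).1 (hp' p hp).2
    rw [hone] at c1
    exact absurd c1 (by simp)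

end Cfsg.Agent.S5599
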