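import Cfsg.Statements.S5600
import Cfsg.Agent.Lib.Helper30.SixSets

set_option autoImplicit false
open scoped Pointwise
open Cfsg

namespace Cfsg.Agent.S5600

open Cfsg.Agent.Lib.Helper27 Cfsg.Agent.Lib.Helper30

theorem card_eq_octFix (E : Finset GolayPt) :
    Nat.card {g : Equiv.Perm Cfsg.GolayPt // g ∈ Cfsg.M24 ∧ ∀ p ∈ E, g p = p} =
      Nat.card (octFix E) :=
  Nat.card_congr (Equiv.subtypeEquivRight (fun _ => mem_octFix_iff.symm))

/-- Although the group of the length-24 code is only 5-transitive on the 24 points, it induces the full symmetric group on every 6-element subset: every permutation of a 6-set E is the restriction of an element of the group mapping E to itself. The pointwise stabiliser of E has order 16 when E lies in an octad and order 3 otherwise; in the latter case the setwise stabiliser of E has order 2160. -/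
theorem result (E : Finset Cfsg.GolayPt) (hE : E.card = 6) : (∀ σ : Equiv.Perm ↥E, ∃ g ∈ Cfsg.M24, ∀ p : ↥E, g p = σ p) ∧ ((∃ o ∈ Cfsg.octads, E ⊆ o) → Nat.card {g : Equiv.Perm Cfsg.GolayPt // g ∈ Cfsg.M24 ∧ ∀ p ∈ E, g p = p} = 16) ∧ ((¬ ∃ o ∈ Cfsg.octads, E ⊆ o) → Nat.card {g : Equiv.Perm Cfsg.GolayPt // g ∈ Cfsg.M24 ∧ ∀ p ∈ E, g p = p} = 3 ∧ Nat.card ↥(MulAction.stabilizer Cfsg.M24 E) = 2160) := by
  obtain ⟨c, hc⟩ : E.Nonempty := by rw [← Finset.card_pos, hE]; norm_num
  have hA : (E.erase c).card = 5 := by rw [Finset.card_erase_of_mem hc, hE]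
  have hEins : insert c (E.erase c) = E := Finset.insert_erase hc
  refine ⟨six_perm_induced hE, ?_, ?_⟩
  · rintro ⟨o, ho, hEo⟩
    rw [card_eq_octFix, ← hEins]
    exact card_octFix_six_in hA ho ((Finset.erase_subset _ _).trans hEo) (Finset.notMem_erase c E)
      (hEo hc)
  · intro hno
    obtain ⟨o, ho, hAo⟩ := exists_octad (E.erase c) hA
    have hco : c ∉ o := by
      intro h
      apply hno
      refine ⟨o, ho, ?_⟩
      rw [← hEins]
      exact Finset.insert_subset h hAo
    have h3 : Nat.card {g : Equiv.Perm Cfsg.GolayPt // g ∈ Cfsg.M24 ∧ ∀ p ∈ E, g p = p} = 3 := by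
      rw [card_eq_octFix, ← hEins]
      exact card_octFix_six_out hA ho hAo hco
    refine ⟨h3, ?_⟩
    have h := card_eq_factorial_mul (G := ↥(MulAction.stabilizer Cfsg.M24 E)) (α := GolayPt) E
      (fun g => g.2) (by
        intro σ
        obtain ⟨g, hg, h⟩ := six_perm_induced hE σ
        refine ⟨⟨⟨g, hg⟩, ?_⟩, h⟩
        apply smul_finset_eq_of_forall_mem
        intro x hx
        change g x ∈ E
        rw [h ⟨x, hx⟩]
        exact (σ _).2)
    have h4 : Nat.card {g : ↥(MulAction.stabilizer Cfsg.M24 E) // ∀ p ∈ E, g • p = p} = 3 := by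
      rw [← h3]
      apply Nat.card_congr
      exact ⟨fun g => ⟨g.1.1.1, g.1.1.2, g.2⟩,
        fun k => ⟨⟨⟨k.1, k.2.1⟩, smul_eq_of_fixes k.2.2⟩, k.2.2⟩,
        fun g => rfl, fun g => rfl⟩
    rw [h, h4, hE]
    rfl

end Cfsg.Agent.S5600
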