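import Cfsg.Statements.S5601
import Cfsg.Agent.Lib.Helper92.M24Order3
import Cfsg.Agent.Lib.Helper92.M24Invol

set_option autoImplicit false
open scoped Pointwise
open Cfsg

namespace Cfsg.Agent.S5601

open Cfsg.Agent.Lib.Helper27 Cfsg.Agent.Lib.Helper92

/-- number of common fixed points. -/
noncomputable def FP (X : Subgroup ↥Cfsg.M24) : ℕ :=
  {p : Cfsg.GolayPt | ∀ x ∈ X, ((x : ↥Cfsg.M24) : Equiv.Perm Cfsg.GolayPt) p = p}.ncard

theorem exists_gen {X : Subgroup ↥Cfsg.M24} (hX : Nat.card X = 3) :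
    ∃ x : ↥Cfsg.M24, orderOf x = 3 ∧ X = Subgroup.zpowers x := by
  have hne : X ≠ ⊥ := by
    rintro rfl
    rw [Subgroup.card_bot] at hX
    omega
  obtain ⟨x, hx, hx1⟩ : ∃ x ∈ X, x ≠ 1 := by
    by_contra hcon
    push Not at hcon
    exact hne ((Subgroup.eq_bot_iff_forall X).2 hcon)
  haveI : Finite X := Nat.finite_of_card_ne_zero (by omega)
  have hdvd : orderOf x ∣ 3 := by
    rw [← hX]
    have := orderOf_dvd_natCard (⟨x, hx⟩ : X)
    rwa [Subgroup.orderOf_mk] at this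
  have h3 : orderOf x = 3 := by
    rcases (Nat.dvd_prime Nat.prime_three).1 hdvd with h | h
    · exact absurd (orderOf_eq_one_iff.1 h) hx1
    · exact h
  refine ⟨x, h3, ?_⟩
  symm
  apply Subgroup.eq_of_le_of_card_ge ((Subgroup.zpowers_le).2 hx)
  rw [hX, Nat.card_zpowers, h3]

theorem FP_zpowers (x : ↥Cfsg.M24) :
    FP (Subgroup.zpowers x) = (Finset.univ.filter fun p => (x : Equiv.Perm Cfsg.GolayPt) p = p).card := by
  unfold FP
  rw [← Set.ncard_coe_finset]
  congr 1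
  ext p
  simp only [Set.mem_ofPred_eq, Finset.coe_filter, Finset.mem_univ, true_and]
  constructor
  · intro h; exact h x (Subgroup.mem_zpowers x)
  · intro h y hy
    have hle : Subgroup.zpowers x ≤ MulAction.stabilizer ↥Cfsg.M24 p :=
      (Subgroup.zpowers_le).2 h
    exact hle hy

theorem conj_zpowers (k x : ↥Cfsg.M24) :
    MulAut.conj k • Subgroup.zpowers x = Subgroup.zpowers (k * x * k⁻¹) := by
  have h : MulAut.conj k • Subgroup.zpowers x =
      (Subgroup.zpowers x).map (MulAut.conj k).toMonoidHom := rfl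
  rw [h, MonoidHom.map_zpowers]
  rfl

/-- the two representatives. -/
noncomputable def xA : ↥Cfsg.M24 := ⟨permOf xAc, permOf_mem_M24 xAc_check⟩
noncomputable def xB : ↥Cfsg.M24 := ⟨permOf xBc, permOf_mem_M24 xBc_check⟩

theorem FP_A : FP (Subgroup.zpowers xA) = 6 := by rw [FP_zpowers]; exact card_fix_xA

theorem FP_B : FP (Subgroup.zpowers xB) = 0 := by
  rw [FP_zpowers, Finset.card_eq_zero]
  apply Finset.filter_eq_empty_iff.2
  intro p _; exact fix_xB p

theorem FP_conj (k x : ↥Cfsg.M24) : FP (Subgroup.zpowers (k * x * k⁻¹)) = FP (Subgroup.zpowers x) := by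
  rw [FP_zpowers, FP_zpowers]
  have := fix_conj (k : Equiv.Perm Cfsg.GolayPt) (x : Equiv.Perm Cfsg.GolayPt)
  have e : (Finset.univ.filter fun p => ((k * x * k⁻¹ : ↥Cfsg.M24) : Equiv.Perm Cfsg.GolayPt) p = p) =
      (k : Equiv.Perm Cfsg.GolayPt) • (Finset.univ.filter fun p => (x : Equiv.Perm Cfsg.GolayPt) p = p) := this
  rw [e, Finset.card_smul_finset]

theorem classify {X : Subgroup ↥Cfsg.M24} (hX : Nat.card X = 3) :
    (∃ k : ↥Cfsg.M24, MulAut.conj k • X = Subgroup.zpowers xA) ∨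
      (∃ k : ↥Cfsg.M24, MulAut.conj k • X = Subgroup.zpowers xB) := by
  obtain ⟨x, h3, rfl⟩ := exists_gen hX
  have h3' : orderOf (x : Equiv.Perm Cfsg.GolayPt) = 3 := by rw [Subgroup.orderOf_coe]; exact h3
  rcases order3_class x.2 h3' with ⟨k, hk, he⟩ | ⟨k, hk, he⟩
  · left
    refine ⟨⟨k, hk⟩, ?_⟩
    rw [conj_zpowers]
    congr 1
    exact Subtype.ext he
  · right
    refine ⟨⟨k, hk⟩, ?_⟩
    rw [conj_zpowers]
    congr 1
    exact Subtype.ext he

theorem FP_smul (k : ↥Cfsg.M24) {X : Subgroup ↥Cfsg.M24} (hX : Nat.card X = 3) :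
    FP (MulAut.conj k • X) = FP X := by
  obtain ⟨x, _, rfl⟩ := exists_gen hX
  rw [conj_zpowers, FP_conj]

theorem conj_of_conj {X Y Z : Subgroup ↥Cfsg.M24} {a b : ↥Cfsg.M24} (ha : MulAut.conj a • X = Z)
    (hb : MulAut.conj b • Y = Z) : ∃ k : ↥Cfsg.M24, MulAut.conj k • X = Y := by
  refine ⟨b⁻¹ * a, ?_⟩
  rw [map_mul, mul_smul, ha, ← hb, map_inv, inv_smul_smul]

theorem card_zpowers_A : Nat.card (Subgroup.zpowers xA) = 3 := by
  rw [Nat.card_zpowers, ← Subgroup.orderOf_coe]; exact orderOf_xA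

theorem card_zpowers_B : Nat.card (Subgroup.zpowers xB) = 3 := by
  rw [Nat.card_zpowers, ← Subgroup.orderOf_coe]; exact orderOf_xB


/-- The group of the length-24 code has exactly two conjugacy classes of subgroups of order 3: a subgroup of order 3 fixes either exactly 6 of the 24 points or none of them, both cases occur, and two subgroups of order 3 with the same number of fixed points are conjugate. -/
theorem result : (∀ X : Subgroup ↥Cfsg.M24, Nat.card X = 3 → {p : Cfsg.GolayPt | ∀ x ∈ X, ((x : ↥Cfsg.M24) : Equiv.Perm Cfsg.GolayPt) p = p}.ncard = 6 ∨ {p : Cfsg.GolayPt | ∀ x ∈ X, ((x : ↥Cfsg.M24) : Equiv.Perm Cfsg.GolayPt) p = p}.ncard = 0) ∧ (∃ X : Subgroup ↥Cfsg.M24, Nat.card X = 3 ∧ {p : Cfsg.GolayPt | ∀ x ∈ X, ((x : ↥Cfsg.M24) : Equiv.Perm Cfsg.GolayPt) p = p}.ncard = 6) ∧ (∃ X : Subgroup ↥Cfsg.M24, Nat.card X = 3 ∧ {p : Cfsg.GolayPt | ∀ x ∈ X, ((x : ↥Cfsg.M24) : Equiv.Perm Cfsg.GolayPt) p = p}.ncard = 0) ∧ ∀ X Y :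 Subgroup ↥Cfsg.M24, Nat.card X = 3 → Nat.card Y = 3 → {p : Cfsg.GolayPt | ∀ x ∈ X, ((x : ↥Cfsg.M24) : Equiv.Perm Cfsg.GolayPt) p = p}.ncard = {p : Cfsg.GolayPt | ∀ x ∈ Y, ((x : ↥Cfsg.M24) : Equiv.Perm Cfsg.GolayPt) p = p}.ncard → ∃ k : ↥Cfsg.M24, MulAut.conj k • X = Y := by
  refine ⟨?_, ⟨_, card_zpowers_A, FP_A⟩, ⟨_, card_zpowers_B, FP_B⟩, ?_⟩
  · intro X hX
    rcases classify hX with ⟨k, hk⟩ | ⟨k, hk⟩
    · left
      have := FP_smul k hX
      rw [hk, FP_A] at this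
      exact this.symm
    · right
      have := FP_smul k hX
      rw [hk, FP_B] at this
      exact this.symm
  · intro X Y hX hY h
    have h' : FP X = FP Y := h
    rcases classify hX with ⟨a, ha⟩ | ⟨a, ha⟩ <;> rcases classify hY with ⟨b, hb⟩ | ⟨b, hb⟩
    · exact conj_of_conj ha hb
    · exfalso
      have h1 := FP_smul a hX
      have h2 := FP_smul b hY
      rw [ha, FP_A] at h1
      rw [hb, FP_B] at h2
      omega
    · exfalso
      have h1 := FP_smul a hX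
      have h2 := FP_smul b hY
      rw [ha, FP_B] at h1
      rw [hb, FP_A] at h2
      omega
    · exact conj_of_conj ha hb


end Cfsg.Agent.S5601
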