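import Cfsg.Statements.S5604
import Cfsg.Agent.Lib.Helper92.M24Fam
import Cfsg.Agent.Lib.Helper27.M24Order

set_option autoImplicit false
open scoped Pointwise
open Cfsg

namespace Cfsg.Agent.S5604

open Cfsg.Agent.Lib.Helper27 Cfsg.Agent.Lib.Helper92

/-! ### general group theory -/

/-- subgroups of prime order `p` are conjugate when `p` divides the group order exactly once. -/
theorem exists_conj_of_card_prime {G : Type*} [Group G] [Finite G] {p : ℕ} [Fact p.Prime]
    (hp : (Nat.card G).factorization p = 1) (S S0 : Subgroup G) (hS : Nat.card S = p)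
    (hS0 : Nat.card S0 = p) : ∃ k : G, S = S0.map (MulAut.conj k).toMonoidHom := by
  let P : Sylow p G := Sylow.ofCard S (by rw [hp, pow_one, hS])
  let P0 : Sylow p G := Sylow.ofCard S0 (by rw [hp, pow_one, hS0])
  obtain ⟨k, hk⟩ := MulAction.exists_smul_eq G P0 P
  refine ⟨k, ?_⟩
  have h1 := congrArg (fun Q : Sylow p G => (Q : Subgroup G)) hk
  simp only [Sylow.coe_subgroup_smul] at h1
  exact h1.symm

theorem map_equiv_centralizer {G : Type*} [Group G] (H : Subgroup G) (f : G ≃* G) :
    Subgroup.centralizer ((H.map f.toMonoidHom : Subgroup G) : Set G) =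
      (Subgroup.centralizer (H : Set G)).map f.toMonoidHom := by
  ext x
  rw [Subgroup.mem_centralizer_iff, Subgroup.mem_map]
  constructor
  · intro h
    refine ⟨f.symm x, ?_, by simp⟩
    rw [Subgroup.mem_centralizer_iff]
    intro y hy
    have := h (f y) (Subgroup.mem_map_of_mem _ hy)
    apply f.injective
    simpa using this
  · rintro ⟨y, hy, rfl⟩ z hz
    obtain ⟨w, hw, rfl⟩ := Subgroup.mem_map.1 hz
    rw [Subgroup.mem_centralizer_iff] at hy
    have := hy w hw
    show f w * f y = f y * f w
    rw [← map_mul, ← map_mul, this]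

/-! ### the standard element of order 7 -/

def s1 : ℕ := 9759154893309751776970966210612289
def s2 : ℕ := 52357267097802610523725948361577570
def s3 : ℕ := 91402174472315653970670668659538083
def s4 : ℕ := 144583917626036491013892233534397893
def s5 : ℕ := 234107949454435777995665851704967918
def s6 : ℕ := 605287460260797292456432259911713815

theorem s1_check : checkM24 s1 = true := by decide +kernel
theorem s2_check : checkM24 s2 = true := by decide +kernel
theorem s3_check : checkM24 s3 = true := by decide +kernel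
theorem s4_check : checkM24 s4 = true := by decide +kernel
theorem s5_check : checkM24 s5 = true := by decide +kernel
theorem s6_check : checkM24 s6 = true := by decide +kernel

theorem s1_valid : validCode s1 = true := valid_of_check s1_check

theorem pow2 : permOf s1 ^ 2 = permOf s2 := by
  rw [pow_two, ← permOf_mulU s1_valid s1_valid]
  exact congrArg permOf (by decide +kernel)
theorem pow3 : permOf s1 ^ 3 = permOf s3 := by
  rw [pow_succ, pow2, ← permOf_mulU (valid_of_check s2_check) s1_valid]
  exact congrArg permOf (by decide +kernel)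
theorem pow4 : permOf s1 ^ 4 = permOf s4 := by
  rw [pow_succ, pow3, ← permOf_mulU (valid_of_check s3_check) s1_valid]
  exact congrArg permOf (by decide +kernel)
theorem pow5 : permOf s1 ^ 5 = permOf s5 := by
  rw [pow_succ, pow4, ← permOf_mulU (valid_of_check s4_check) s1_valid]
  exact congrArg permOf (by decide +kernel)
theorem pow6 : permOf s1 ^ 6 = permOf s6 := by
  rw [pow_succ, pow5, ← permOf_mulU (valid_of_check s5_check) s1_valid]
  exact congrArg permOf (by decide +kernel)
theorem pow7 : permOf s1 ^ 7 = 1 := by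
  rw [pow_succ, pow6]
  exact (mulU_eq_idCode_iff (valid_of_check s6_check) s1_valid).1 (by decide +kernel)

theorem s1_ne_one : permOf s1 ≠ 1 := by
  intro h
  have h1 := congrArg (fun f : Equiv.Perm GolayPt => f (pt 23)) h
  simp only [Equiv.Perm.one_apply] at h1
  rw [permOf_pt s1_valid (by norm_num)] at h1
  have h2 := pt_injOn (ent_lt_of_valid s1_valid 23 (by norm_num)) (by norm_num) h1
  revert h2
  decide +kernel

instance fact7 : Fact (Nat.Prime 7) := ⟨by norm_num⟩

theorem orderOf_s1 : orderOf (permOf s1) = 7 :=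
  orderOf_eq_prime pow7 s1_ne_one

/-- intertwiners of `s1` with `s'`. -/
def QJ (s' : ℕ) (g : Equiv.Perm GolayPt) : Prop := g * permOf s1 = permOf s' * g

def lvJ (s' : ℕ) : List (ℕ × List ℕ × (ℕ → ℕ → Bool)) :=
  stdLv keepT (keepI s' 0 23) (keepI s' 1 0) (keepI s' 2 1) (keepI s' 3 2) keepT (keepI s' 5 3)

theorem chainJ {s' : ℕ} (hv : validCode s' = true) : SChain (QJ s') [] (lvJ s') :=
  stdChain (keepT_ok _ _ _ _)
    (keepI_ok stp1 s1_valid hv (by norm_num) (by simp [L1]) (by decide +kernel))
    (keepI_ok stp2 s1_valid hv (by norm_num) (by simp [L2]) (by decide +kernel))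
    (keepI_ok stp3 s1_valid hv (by norm_num) (by simp [L3]) (by decide +kernel))
    (keepI_ok stp4 s1_valid hv (by norm_num) (by simp [L4]) (by decide +kernel))
    (keepT_ok _ _ _ _)
    (keepI_ok stp6 s1_valid hv (by norm_num) (by simp [L6]) (by decide +kernel))

theorem interB_iff_QJ {s' : ℕ} (hs : checkM24 s' = true) (c : ℕ) (hc : validCode c = true)
    (hcM : permOf c ∈ M24) : interB s1 s' c = true ↔ QJ s' (permOf c) :=
  interB_iff s1_check hs hc hcM

theorem count1 : countP (interB s1 s1) (lvJ s1) idCode = 42 := by decide +kernel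
theorem count2 : countP (interB s1 s2) (lvJ s2) idCode = 42 := by decide +kernel
theorem count4 : countP (interB s1 s4) (lvJ s4) idCode = 42 := by decide +kernel
theorem none3 : allP (fun c => bnot (interB s1 s3 c)) (lvJ s3) idCode = true := by decide +kernel
theorem none5 : allP (fun c => bnot (interB s1 s5 c)) (lvJ s5) idCode = true := by decide +kernel
theorem none6 : allP (fun c => bnot (interB s1 s6 c)) (lvJ s6) idCode = true := by decide +kernel

theorem none_of {s' : ℕ} (hs : checkM24 s' = true)
    (h : allP (fun c => bnot (interB s1 s' c)) (lvJ s') idCode = true)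
    (g : Equiv.Perm GolayPt) (hg : g ∈ M24) : ¬ QJ s' g := by
  intro hQ
  obtain ⟨c, hv, rfl, hf⟩ := M24_forall (chainJ (valid_of_check hs)) h g hg hQ
  rw [bnot_eq_true, (interB_iff_QJ hs c hv hg).2 hQ] at hf
  exact absurd hf (by simp)

/-- the set of intertwiners in `M24`. -/
def AJ (s' : ℕ) : Set (Equiv.Perm GolayPt) := {g | g ∈ M24 ∧ QJ s' g}

theorem ncard_AJ {s' : ℕ} (hs : checkM24 s' = true) :
    (AJ s').ncard = countP (interB s1 s') (lvJ s') idCode := by
  rw [← M24_count (chainJ (valid_of_check hs)) (interB_iff_QJ hs)]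
  exact (Nat.card_coe_set_eq _).symm

theorem disj {a b : ℕ} (ha : validCode a = true) (hb : validCode b = true)
    (hab : ent a 23 ≠ ent b 23) : Disjoint (AJ a) (AJ b) := by
  rw [Set.disjoint_left]
  rintro g ⟨_, h1⟩ ⟨_, h2⟩
  have h3 : permOf a = permOf b := by
    have : permOf a * g = permOf b * g := by rw [← h1, ← h2]
    exact mul_right_cancel this
  have h4 : permOf a (pt 23) = permOf b (pt 23) := by rw [h3]
  rw [permOf_pt ha (by norm_num), permOf_pt hb (by norm_num)] at h4
  exact hab (pt_injOn (ent_lt_of_valid ha 23 (by norm_num)) (ent_lt_of_valid hb 23 (by norm_num)) h4)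

theorem ncard_N : (AJ s1 ∪ AJ s2 ∪ AJ s4).ncard = 126 := by
  have hv2 := valid_of_check s2_check
  have hv4 := valid_of_check s4_check
  rw [Set.ncard_union_eq _ (Set.toFinite _) (Set.toFinite _),
    Set.ncard_union_eq (disj s1_valid hv2 (by decide +kernel)) (Set.toFinite _) (Set.toFinite _),
    ncard_AJ s1_check, ncard_AJ s2_check, ncard_AJ s4_check, count1, count2, count4]
  rw [Set.disjoint_union_left]
  exact ⟨disj s1_valid hv4 (by decide +kernel), disj hv2 hv4 (by decide +kernel)⟩

/-- the invariant trio. -/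
def trioT : List ℕ := [2702848, 5538256, 8536111]

theorem trioT_lt : ∀ m ∈ trioT, m < 2 ^ 24 := by decide +kernel

theorem trioT_mem : fam trioT ∈ trios :=
  fam_mem_trios (by decide +kernel) (by decide +kernel) (by decide +kernel) (by decide +kernel)

theorem trio1 : allP (fun c => bor (bnot (interB s1 s1 c)) (famFix trioT c)) (lvJ s1) idCode = true := by
  decide +kernel
theorem trio2 : allP (fun c => bor (bnot (interB s1 s2 c)) (famFix trioT c)) (lvJ s2) idCode = true := by
  decide +kernel
theorem trio4 : allP (fun c => bor (bnot (interB s1 s4 c)) (famFix trioT c)) (lvJ s4) idCode = true := by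
  decide +kernel

theorem trio_of {s' : ℕ} (hs : checkM24 s' = true)
    (h : allP (fun c => bor (bnot (interB s1 s' c)) (famFix trioT c)) (lvJ s') idCode = true)
    {g : Equiv.Perm GolayPt} (hg : g ∈ AJ s') : g • fam trioT = fam trioT := by
  obtain ⟨hgM, hQ⟩ := hg
  obtain ⟨c, hv, rfl, hf⟩ := M24_forall (chainJ (valid_of_check hs)) h g hgM hQ
  rw [bor_eq, Bool.or_eq_true, bnot_eq_true] at hf
  rcases hf with hf | hf
  · rw [(interB_iff_QJ hs c hv hgM).2 hQ] at hf
    exact absurd hf (by simp)
  · exact smul_fam_eq hv trioT_lt hf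

def x0 : ℕ := 21064735144828692888190766824983617
def y0 : ℕ := 264459224320005105030871099878623887

theorem x0_check : checkM24 x0 = true := by decide +kernel
theorem y0_check : checkM24 y0 = true := by decide +kernel

theorem x0_mem : permOf x0 ∈ AJ s1 :=
  ⟨permOf_mem_M24 x0_check, (interB_iff_QJ s1_check x0 (valid_of_check x0_check)
    (permOf_mem_M24 x0_check)).1 (by decide +kernel)⟩
theorem y0_mem : permOf y0 ∈ AJ s1 :=
  ⟨permOf_mem_M24 y0_check, (interB_iff_QJ s1_check y0 (valid_of_check y0_check)
    (permOf_mem_M24 y0_check)).1 (by decide +kernel)⟩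

theorem x0y0 : permOf x0 * permOf y0 ≠ permOf y0 * permOf x0 := by
  intro h
  have := (mulU_eq_iff (valid_of_check x0_check) (valid_of_check y0_check)
    (valid_of_check y0_check) (valid_of_check x0_check)).2 h
  revert this
  decide +kernel

/-! ### the standard subgroup of order 7 -/

/-- the standard element of order 7 in the subtype. -/
noncomputable def sg : ↥M24 := ⟨permOf s1, permOf_mem_M24 s1_check⟩

theorem orderOf_sg : orderOf sg = 7 := by
  rw [← orderOf_s1]
  exact (Subgroup.orderOf_coe sg).symm

theorem card_S0 : Nat.card (Subgroup.zpowers sg) = 7 := by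
  rw [Nat.card_zpowers, orderOf_sg]

theorem mem_cent_iff (n : ↥M24) :
    n ∈ Subgroup.centralizer ((Subgroup.zpowers sg : Subgroup ↥M24) : Set ↥M24) ↔
      (n : Equiv.Perm GolayPt) ∈ AJ s1 := by
  rw [Subgroup.mem_centralizer_iff]
  constructor
  · intro h
    refine ⟨n.2, ?_⟩
    have := h sg (Subgroup.mem_zpowers sg)
    exact (congrArg Subtype.val this).symm
  · rintro ⟨_, h⟩ x hx
    obtain ⟨i, rfl⟩ := Subgroup.mem_zpowers_iff.1 hx
    have hc : Commute sg n := by
      apply Subtype.ext
      exact h.symm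
    exact (hc.zpow_left i)

theorem mem_norm_iff (n : ↥M24) :
    n ∈ Subgroup.normalizer ((Subgroup.zpowers sg : Subgroup ↥M24) : Set ↥M24) ↔
      (n : Equiv.Perm GolayPt) ∈ AJ s1 ∪ AJ s2 ∪ AJ s4 := by
  constructor
  · intro h
    have h1 := (Subgroup.mem_normalizer_iff.1 h sg).1 (Subgroup.mem_zpowers sg)
    rw [← mem_powers_iff_mem_zpowers, mem_powers_iff_mem_range_orderOf, orderOf_sg] at h1
    obtain ⟨i, hi, he⟩ := Finset.mem_image.1 h1
    have hi7 : i < 7 := Finset.mem_range.1 hi
    have he' : (n : Equiv.Perm GolayPt) * permOf s1 = permOf s1 ^ i * n := by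
      have h2 : n * sg = sg ^ i * n := by rw [he]; group
      exact congrArg Subtype.val h2
    interval_cases i
    · exfalso
      rw [pow_zero, one_mul] at he'
      exact s1_ne_one (mul_left_cancel (he'.trans (mul_one _).symm))
    · rw [pow_one] at he'
      exact Or.inl (Or.inl ⟨n.2, he'⟩)
    · rw [pow2] at he'
      exact Or.inl (Or.inr ⟨n.2, he'⟩)
    · rw [pow3] at he'
      exact absurd he' (none_of s3_check none3 _ n.2)
    · rw [pow4] at he'
      exact Or.inr ⟨n.2, he'⟩
    · rw [pow5] at he'
      exact absurd he' (none_of s5_check none5 _ n.2)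
    · rw [pow6] at he'
      exact absurd he' (none_of s6_check none6 _ n.2)
  · intro h
    obtain ⟨i, hi⟩ : ∃ i : ℕ, n * sg = sg ^ i * n := by
      rcases h with (h | h) | h
      · exact ⟨1, Subtype.ext (by rw [pow_one]; exact h.2)⟩
      · refine ⟨2, Subtype.ext ?_⟩
        show (n : Equiv.Perm GolayPt) * permOf s1 = permOf s1 ^ 2 * n
        rw [pow2]; exact h.2
      · refine ⟨4, Subtype.ext ?_⟩
        show (n : Equiv.Perm GolayPt) * permOf s1 = permOf s1 ^ 4 * n
        rw [pow4]; exact h.2
    apply Subgroup.mem_normalizer_fintype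
    intro x hx
    obtain ⟨j, rfl⟩ := Subgroup.mem_zpowers_iff.1 hx
    have h1 : n * sg * n⁻¹ = sg ^ i := by rw [hi]; group
    rw [← conj_zpow, h1]
    exact Subgroup.zpow_mem _ (Subgroup.pow_mem _ (Subgroup.mem_zpowers sg) i) j

theorem card_of_iff (H : Subgroup ↥M24) (A : Set (Equiv.Perm GolayPt))
    (h : ∀ n : ↥M24, n ∈ H ↔ (n : Equiv.Perm GolayPt) ∈ A) (hA : ∀ g ∈ A, g ∈ M24) :
    Nat.card H = A.ncard := by
  rw [← Nat.card_coe_set_eq]
  apply Nat.card_congr
  exact ⟨fun x => ⟨x.1.1, (h x.1).1 x.2⟩, fun y => ⟨⟨y.1, hA y.1 y.2⟩, (h _).2 y.2⟩,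
    fun _ => rfl, fun _ => rfl⟩

theorem factorization_seven : (Nat.card ↥M24).factorization 7 = 1 := by
  rw [card_M24, show (244823040 : ℕ) = 7 * 34974720 from rfl,
    Nat.factorization_mul (by norm_num) (by norm_num), Finsupp.add_apply,
    Nat.Prime.factorization_self (by norm_num),
    Nat.factorization_eq_zero_of_not_dvd (by norm_num)]

/-- For a subgroup S of order 7 of the group of the length-24 code (a Sylow 7-subgroup): the normaliser of S has order 126, the centraliser of S has order 42 and is non-abelian, and the whole normaliser leaves some trio invariant. (These are the orders of a Frobenius group of order 21 times a symmetric group of degree 3; the isomorphism type itself is not asserted here.) -/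
theorem result (S : Subgroup ↥Cfsg.M24) (hS : Nat.card S = 7) : Nat.card ↥(Subgroup.normalizer (S : Set ↥Cfsg.M24)) = 126 ∧ Nat.card ↥(Subgroup.centralizer (S : Set ↥Cfsg.M24)) = 42 ∧ (∃ x ∈ Subgroup.centralizer (S : Set ↥Cfsg.M24), ∃ y ∈ Subgroup.centralizer (S : Set ↥Cfsg.M24), x * y ≠ y * x) ∧ ∃ T ∈ Cfsg.trios, ∀ n ∈ Subgroup.normalizer (S : Set ↥Cfsg.M24), ((n : ↥Cfsg.M24) : Equiv.Perm Cfsg.GolayPt) • T = T := by
  have : Finite ↥M24 := inferInstance
  obtain ⟨k, rfl⟩ := exists_conj_of_card_prime factorization_seven S (Subgroup.zpowers sg) hS card_S0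
  rw [← Subgroup.map_equiv_normalizer_eq, map_equiv_centralizer]
  have hinj : Function.Injective (MulAut.conj k).toMonoidHom := (MulAut.conj k).injective
  refine ⟨?_, ?_, ?_, ?_⟩
  · rw [Subgroup.card_map_of_injective hinj, card_of_iff _ _ mem_norm_iff, ncard_N]
    rintro g ((h | h) | h) <;> exact h.1
  · rw [Subgroup.card_map_of_injective hinj, card_of_iff _ _ mem_cent_iff, ncard_AJ s1_check, count1]
    intro g h; exact h.1
  · refine ⟨_, Subgroup.mem_map_of_mem _ ((mem_cent_iff ⟨permOf x0, x0_mem.1⟩).2 x0_mem),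
      _, Subgroup.mem_map_of_mem _ ((mem_cent_iff ⟨permOf y0, y0_mem.1⟩).2 y0_mem), ?_⟩
    intro h
    rw [← map_mul, ← map_mul] at h
    exact x0y0 (congrArg Subtype.val (hinj h))
  · refine ⟨(k : Equiv.Perm GolayPt) • fam trioT, smul_mem_trios k.2 trioT_mem, ?_⟩
    rintro _ ⟨n, hn, rfl⟩
    have h1 : (n : Equiv.Perm GolayPt) • fam trioT = fam trioT := by
      rcases (mem_norm_iff n).1 hn with (h | h) | h
      · exact trio_of s1_check trio1 h
      · exact trio_of s2_check trio2 h
      · exact trio_of s4_check trio4 h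
    show ((k * n * k⁻¹ : ↥M24) : Equiv.Perm GolayPt) • _ = _
    rw [Subgroup.coe_mul, Subgroup.coe_mul, Subgroup.coe_inv, mul_smul, mul_smul, inv_smul_smul, h1]

end Cfsg.Agent.S5604
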