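import Cfsg.Statements.S5606
import Cfsg.Agent.Lib.Helper93.M24Fixed
import Cfsg.Agent.Lib.Helper93.M24Sextets
import Cfsg.Agent.Lib.Helper93.M24Trios
import Cfsg.Agent.Lib.Helper92.M24Order3
import Cfsg.Agent.Lib.Helper92.M24Invol

set_option autoImplicit false
open scoped Pointwise
open Cfsg

namespace Cfsg.Agent.S5606

open Cfsg.Agent.Lib.Helper27 Cfsg.Agent.Lib.Helper92 Cfsg.Agent.Lib.Helper93.Eng

theorem cnt_oct : {x | x ∈ octads ∧ permOf t0c • x = x}.ncard = 15 :=
  (ncard_fixed_code (r := 1) (N := 4096) (tab := enc) (valid := (fun k => Nat.beq (pc (enc k)) 8)) emb_sg octEnum t0c_valid).trans (by decide +kernel)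

theorem cnt_trio : {x | x ∈ trios ∧ permOf t0c • x = x}.ncard = 75 :=
  (ncard_fixed_code (r := 3) (N := 3795) (tab := trioTab) (valid := (fun _ => true)) emb_id (by rw [Set.image_id]; exact trioEnum) t0c_valid).trans (by decide +kernel)

theorem cnt_sext : {x | x ∈ sextets ∧ permOf t0c • x = x}.ncard = 51 :=
  (ncard_fixed_code (r := 6) (N := 4096) (tab := sextTab) (valid := sextOK) emb_id (by rw [Set.image_id]; exact sextEnum) t0c_valid).trans (by decide +kernel)


/-- A fixed-point-free involution of the group of the length-24 code maps to themselves exactly 15 octads, exactly 75 trios and exactly 51 sextets. -/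
theorem result (g : Equiv.Perm Cfsg.GolayPt) (hg : g ∈ Cfsg.M24) (h₂ : orderOf g = 2) (h₀ : ∀ p, g p ≠ p) : {o : Finset Cfsg.GolayPt | o ∈ Cfsg.octads ∧ g • o = o}.ncard = 15 ∧ {T : Finset (Finset Cfsg.GolayPt) | T ∈ Cfsg.trios ∧ g • T = T}.ncard = 75 ∧ {S : Finset (Finset Cfsg.GolayPt) | S ∈ Cfsg.sextets ∧ g • S = S}.ncard = 51 := by
  obtain ⟨k, hk, he⟩ : ∃ k ∈ M24, k * g * k⁻¹ = permOf t0c := by
    rcases invol_class hg h₂ with ⟨k, hk, he⟩ | h
    · exfalso
      have h1 := fix_conj k g
      rw [he] at h1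
      have h2 : (Finset.univ.filter (fun p => g p = p)) = ∅ := by
        apply Finset.filter_eq_empty_iff.2
        intro p _; exact h₀ p
      rw [h2] at h1
      have h3 := congrArg Finset.card h1
      rw [fix_z0_mem.2] at h3
      simp at h3
    · exact h
  exact ⟨(ncard_fixed_conj octads octads_invariant hk he).trans cnt_oct, (ncard_fixed_conj trios trios_invariant hk he).trans cnt_trio, (ncard_fixed_conj sextets sextets_invariant hk he).trans cnt_sext⟩


end Cfsg.Agent.S5606
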