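import Cfsg.Statements.S5607
import Cfsg.Agent.Lib.Helper92.M24InvolCent

set_option autoImplicit false
open Cfsg

namespace Cfsg.Agent.S5607

open Cfsg.Agent.Lib.Helper27 Cfsg.Agent.Lib.Helper92
open scoped Pointwise

/-- transport of the centraliser by conjugation. -/
theorem card_cent_conj {t t' k : Equiv.Perm GolayPt} (hk : k ∈ M24) (h : k * t * k⁻¹ = t') :
    Nat.card {g : Equiv.Perm GolayPt // g ∈ M24 ∧ g * t = t * g} =
      Nat.card {g : Equiv.Perm GolayPt // g ∈ M24 ∧ g * t' = t' * g} := by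
  apply Nat.card_congr
  refine ⟨fun g => ⟨k * g.1 * k⁻¹, M24.mul_mem (M24.mul_mem hk g.2.1) (M24.inv_mem hk), ?_⟩,
    fun g => ⟨k⁻¹ * g.1 * k, M24.mul_mem (M24.mul_mem (M24.inv_mem hk) g.2.1) hk, ?_⟩, ?_, ?_⟩
  · rw [← h]
    calc k * g.1 * k⁻¹ * (k * t * k⁻¹) = k * (g.1 * t) * k⁻¹ := by group
      _ = k * (t * g.1) * k⁻¹ := by rw [g.2.2]
      _ = _ := by group
  · have ht : t = k⁻¹ * t' * k := by rw [← h]; group
    rw [ht]
    calc k⁻¹ * g.1 * k * (k⁻¹ * t' * k) = k⁻¹ * (g.1 * t') * k := by group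
      _ = k⁻¹ * (t' * g.1) * k := by rw [g.2.2]
      _ = _ := by group
  · intro g; apply Subtype.ext; show k⁻¹ * (k * g.1 * k⁻¹) * k = g.1; group
  · intro g; apply Subtype.ext; show k * (k⁻¹ * g.1 * k) * k⁻¹ = g.1; group

/-- For a fixed-point-free involution t of the group of the length-24 code: its centraliser in that group has order 7680, is transitive on the 24 points, and is contained, together with t, in the stabiliser of some sextet. -/
theorem result (t : Equiv.Perm Cfsg.GolayPt) (ht : t ∈ Cfsg.M24) (h₂ : orderOf t = 2) (h₀ : ∀ p, t p ≠ p) : Nat.card {c : Equiv.Perm Cfsg.GolayPt // c ∈ Cfsg.M24 ∧ c * t = t * c} = 7680 ∧ (∀ p q : Cfsg.GolayPt, ∃ c ∈ Cfsg.M24, c * t = t * c ∧ c p = q) ∧ ∃ S ∈ Cfsg.sextets, t • S = S ∧ ∀ c ∈ Cfsg.M24, c * t = t * c → c • S = S := by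
  -- `t` is conjugate to `t0`
  obtain ⟨k, hk, he⟩ : ∃ k ∈ M24, k * t * k⁻¹ = permOf t0c := by
    rcases invol_class ht h₂ with ⟨k, hk, he⟩ | h
    · exfalso
      have h1 := fix_conj k t
      rw [he, fix_z0] at h1
      have h2 : (Finset.univ.filter fun p => t p = p) = ∅ := by
        ext p; simp [h₀ p]
      rw [h2, Finset.smul_finset_empty] at h1
      have h3 := congrArg Finset.card h1
      rw [card_unmask] at h3
      revert h3
      decide +kernel
    · exact h
  have ht' : t = k⁻¹ * permOf t0c * k := by rw [← he]; group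
  -- conjugation of centralising elements
  have hto : ∀ c ∈ M24, c * t = t * c → k * c * k⁻¹ ∈ centM t0c := by
    intro c hc hct
    refine mem_centM.2 ⟨M24.mul_mem (M24.mul_mem hk hc) (M24.inv_mem hk), ?_⟩
    show k * c * k⁻¹ * permOf t0c = permOf t0c * (k * c * k⁻¹)
    rw [← he]
    calc k * c * k⁻¹ * (k * t * k⁻¹) = k * (c * t) * k⁻¹ := by group
      _ = k * (t * c) * k⁻¹ := by rw [hct]
      _ = _ := by group
  have hfrom : ∀ c ∈ centM t0c, k⁻¹ * c * k ∈ M24 ∧ k⁻¹ * c * k * t = t * (k⁻¹ * c * k) := by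
    intro c hc
    obtain ⟨hc1, hc2⟩ := mem_centM.1 hc
    refine ⟨M24.mul_mem (M24.mul_mem (M24.inv_mem hk) hc1) hk, ?_⟩
    have hc2' : c * permOf t0c = permOf t0c * c := hc2
    rw [ht']
    calc k⁻¹ * c * k * (k⁻¹ * permOf t0c * k) = k⁻¹ * (c * permOf t0c) * k := by group
      _ = k⁻¹ * (permOf t0c * c) * k := by rw [hc2']
      _ = _ := by group
  refine ⟨by rw [card_cent_conj hk he, card_cent_t0], ?_, ?_⟩
  · intro p q
    obtain ⟨u, hu, hup⟩ := exists_UT (k p)
    obtain ⟨v, hv, hvq⟩ := exists_UT (k q)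
    have hm : permOf v * (permOf u)⁻¹ ∈ centM t0c :=
      (centM t0c).mul_mem (UT_mem hv) ((centM t0c).inv_mem (UT_mem hu))
    obtain ⟨h1, h2⟩ := hfrom _ hm
    refine ⟨_, h1, h2, ?_⟩
    rw [Equiv.Perm.mul_apply, Equiv.Perm.mul_apply, Equiv.Perm.mul_apply, ← hup]
    simp [hvq]
  · refine ⟨k⁻¹ • fam sextT, smul_mem_sextets (M24.inv_mem hk) sextT_mem, ?_, ?_⟩
    · rw [ht', mul_smul, mul_smul, smul_inv_smul, cent_t0_sextet t0_mem_centM]
    · intro c hc hct
      have h1 := cent_t0_sextet (hto c hc hct)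
      rw [mul_smul, mul_smul] at h1
      rw [eq_inv_smul_iff]
      exact h1

end Cfsg.Agent.S5607
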