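import Cfsg.Statements.S5608
import Cfsg.Agent.Lib.Helper92.M24Order3
import Cfsg.Agent.Lib.Helper92.M24InvolCent

set_option autoImplicit false
open Cfsg

namespace Cfsg.Agent.S5608

open Cfsg.Agent.Lib.Helper27 hiding bor bor_eq
open Cfsg.Agent.Lib.Helper92
open scoped Pointwise

def lvA : List (ℕ × List ℕ × (ℕ → ℕ → Bool)) :=
  stdLv (keepS 2507792 2507792 23) (keepI xAc 0 23) (keepI xAc 1 0) (keepS 2507792 2507792 2)
    (keepI xAc 3 2) (keepS 2507792 2507792 4) (keepI xAc 5 3)

def lvB : List (ℕ × List ℕ × (ℕ → ℕ → Bool)) :=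
  stdLv keepT (keepI xBc 0 23) (keepI xBc 1 0) keepT (keepI xBc 3 2) (keepI xBc 4 3) keepT

theorem QC_xA_fix (g : Equiv.Perm GolayPt) (h : QC xAc g) :
    g • unmask 2507792 = unmask 2507792 := by
  rw [← fix_xA]; exact smul_fix_of_comm h

theorem chainA : SChain (QC xAc) [] lvA :=
  stdChain ((keepS_ok stp0 _ _).mono QC_xA_fix)
    (keepI_ok stp1 xAc_valid xAc_valid (by norm_num) (by simp [L1]) (by decide +kernel))
    (keepI_ok stp2 xAc_valid xAc_valid (by norm_num) (by simp [L2]) (by decide +kernel))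
    ((keepS_ok stp3 _ _).mono QC_xA_fix)
    (keepI_ok stp4 xAc_valid xAc_valid (by norm_num) (by simp [L4]) (by decide +kernel))
    ((keepS_ok stp5 _ _).mono QC_xA_fix)
    (keepI_ok stp6 xAc_valid xAc_valid (by norm_num) (by simp [L6]) (by decide +kernel))

theorem chainB : SChain (QC xBc) [] lvB :=
  stdChain (keepT_ok _ _ _ _)
    (keepI_ok stp1 xBc_valid xBc_valid (by norm_num) (by simp [L1]) (by decide +kernel))
    (keepI_ok stp2 xBc_valid xBc_valid (by norm_num) (by simp [L2]) (by decide +kernel))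
    (keepT_ok _ _ _ _)
    (keepI_ok stp4 xBc_valid xBc_valid (by norm_num) (by simp [L4]) (by decide +kernel))
    (keepI_ok stp5 xBc_valid xBc_valid (by norm_num) (by simp [L5]) (by decide +kernel))
    (keepT_ok _ _ _ _)

/-- the test: a commuting involution has `n` fixed points. -/
def test (x n c : ℕ) : Bool :=
  bor (bnot (interB x x c)) (bor (bnot (Nat.beq (mulU c c) idCode))
    (bor (isId c) (Nat.beq (pc (fixMask c)) n)))

theorem testA : allP (test xAc 8) lvA idCode = true := by decide +kernel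

theorem testB : allP (test xBc 0) lvB idCode = true := by decide +kernel

theorem key {x n : ℕ} {lv : List (ℕ × List ℕ × (ℕ → ℕ → Bool))} (hx : checkM24 x = true)
    (hc : SChain (QC x) [] lv) (ht : allP (test x n) lv idCode = true)
    {s : Equiv.Perm GolayPt} (hs : s ∈ M24) (h2 : s * s = 1) (h1 : s ≠ 1) (hcomm : QC x s) :
    (Finset.univ.filter fun p => s p = p).card = n := by
  obtain ⟨c, hv, rfl, hf⟩ := M24_forall hc ht s hs hcomm
  unfold test at hf
  rw [bor_eq, bor_eq, bor_eq, Bool.or_eq_true, Bool.or_eq_true, Bool.or_eq_true, bnot_eq_true,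
    bnot_eq_true, Nat.beq_eq] at hf
  rcases hf with hf | hf | hf | hf
  · rw [(interB_iff_QC hx c hv hs).2 hcomm] at hf
    exact absurd hf (by simp)
  · have := (mulU_eq_idCode_iff hv hv).2 h2
    rw [this] at hf
    have h0 : Nat.beq idCode idCode = true := by decide +kernel
    rw [h0] at hf
    exact absurd hf (by simp)
  · exact absurd (permOf_eq_one hf) h1
  · rw [← unmask_fixMask hv, card_unmask, hf]

theorem card_fix_conj (k g : Equiv.Perm GolayPt) :
    (Finset.univ.filter fun p => (k * g * k⁻¹) p = p).card =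
      (Finset.univ.filter fun p => g p = p).card := by
  rw [fix_conj, Finset.card_smul_finset]

/-- If an element of order 3 and an involution of the group of the length-24 code commute, then either the element of order 3 has exactly 6 fixed points and the involution exactly 8, or both are fixed-point-free. -/
theorem result (x s : Equiv.Perm Cfsg.GolayPt) (hx : x ∈ Cfsg.M24) (hs : s ∈ Cfsg.M24) (h₃ : orderOf x = 3) (h₂ : orderOf s = 2) (hc : Commute x s) : ((Finset.univ.filter fun p => x p = p).card = 6 ∧ (Finset.univ.filter fun p => s p = p).card = 8) ∨ ((Finset.univ.filter fun p => x p = p).card = 0 ∧ (Finset.univ.filter fun p => s p = p).card = 0) := by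
  have hsq : s * s = 1 := by rw [← pow_two, ← h₂]; exact pow_orderOf_eq_one s
  have hne : s ≠ 1 := by
    rintro rfl
    rw [orderOf_one] at h₂
    exact absurd h₂ (by norm_num)
  have hconj : ∀ k : Equiv.Perm GolayPt, k ∈ M24 →
      (k * s * k⁻¹ ∈ M24 ∧ k * s * k⁻¹ * (k * s * k⁻¹) = 1 ∧ k * s * k⁻¹ ≠ 1 ∧
        k * s * k⁻¹ * (k * x * k⁻¹) = k * x * k⁻¹ * (k * s * k⁻¹)) := by
    intro k hk
    refine ⟨M24.mul_mem (M24.mul_mem hk hs) (M24.inv_mem hk), ?_, ?_, ?_⟩
    · calc k * s * k⁻¹ * (k * s * k⁻¹) = k * (s * s) * k⁻¹ := by group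
        _ = 1 := by rw [hsq]; group
    · intro e
      apply hne
      have := congrArg (fun z => k⁻¹ * z * k) e
      simpa [mul_assoc] using this
    · calc k * s * k⁻¹ * (k * x * k⁻¹) = k * (s * x) * k⁻¹ := by group
        _ = k * (x * s) * k⁻¹ := by rw [hc.eq]
        _ = _ := by group
  rcases order3_class hx h₃ with ⟨k, hk, he⟩ | ⟨k, hk, he⟩
  · left
    obtain ⟨a1, a2, a3, a4⟩ := hconj k hk
    rw [he] at a4
    refine ⟨?_, ?_⟩
    · rw [← card_fix_conj k x, he, card_fix_xA]
    · rw [← card_fix_conj k s]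
      exact key xAc_check chainA testA a1 a2 a3 a4
  · right
    obtain ⟨a1, a2, a3, a4⟩ := hconj k hk
    rw [he] at a4
    refine ⟨?_, ?_⟩
    · rw [← card_fix_conj k x, he, Finset.card_eq_zero]
      ext p; simp [fix_xB p]
    · rw [← card_fix_conj k s]
      exact key xBc_check chainB testB a1 a2 a3 a4

end Cfsg.Agent.S5608
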