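import Cfsg.Statements.S5609
import Cfsg.Agent.Lib.Helper26.CodeOrbits
import Cfsg.Agent.Lib.Helper27.OctadFlags

set_option autoImplicit false
open scoped Pointwise
open Cfsg

namespace Cfsg.Agent.S5609

open Cfsg.Agent.Lib.Helper27 Cfsg.Agent.Lib.Helper26

theorem adj_iff {o o' : Finset GolayPt} (ho : o ∈ octads) (ho' : o' ∈ octads) :
    (blockGraph octads).Adj ⟨o, ho⟩ ⟨o', ho'⟩ ↔ Disjoint o o' := by
  unfold blockGraph
  rw [SimpleGraph.fromRel_adj]
  constructor
  · rintro ⟨_, h | h⟩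
    · exact h
    · exact h.symm
  · intro h
    refine ⟨?_, Or.inl h⟩
    intro he
    have he' : o = o' := congrArg Subtype.val he
    subst he'
    rw [disjoint_self] at h
    have := ho.2
    rw [h] at this
    simp at this

theorem disjoint_iff_card {o o' : Finset GolayPt} : Disjoint o o' ↔ (o ∩ o').card = 0 := by
  rw [Finset.card_eq_zero, Finset.disjoint_iff_inter_eq_empty]

theorem disjoint_unmask {a b : ℕ} (ha : a < 2 ^ 24) (hb : b < 2 ^ 24) (h : a &&& b = 0) :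
    Disjoint (unmask a) (unmask b) := by
  rw [disjoint_iff_mask, mask_unmask ha, mask_unmask hb, h]

theorem disjoint_of_smul {g : Equiv.Perm GolayPt} {a b : Finset GolayPt}
    (h : Disjoint (g • a) (g • b)) : Disjoint a b := by
  rw [Finset.disjoint_left] at h ⊢
  intro x hx hx'
  exact h (Finset.smul_mem_smul_finset hx) (Finset.smul_mem_smul_finset hx')

theorem mid_of_four {o o' : Finset GolayPt} (ho : o ∈ octads) (ho' : o' ∈ octads)
    (h : (o ∩ o').card = 4) : ∃ o₁ ∈ octads, Disjoint o o₁ ∧ Disjoint o₁ o' := by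
  obtain ⟨g, hg, h1, h2⟩ := octad_pair_to_root ho ho'
  rw [h] at h2
  have hm : unmask 4038912 ∈ octads := unmask_mem_octads (by decide +kernel) (by decide +kernel)
  refine ⟨g⁻¹ • unmask 4038912, smul_mem_octads (M24.inv_mem hg) hm, ?_, ?_⟩
  · apply disjoint_of_smul (g := g)
    rw [smul_inv_smul, h1]
    exact disjoint_unmask (by decide +kernel) (by norm_num) (by decide +kernel)
  · apply disjoint_of_smul (g := g)
    rw [smul_inv_smul, h2]
    exact disjoint_unmask (by norm_num) (by decide +kernel) (by decide +kernel)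

theorem mid_of_two {o o' : Finset GolayPt} (ho : o ∈ octads) (ho' : o' ∈ octads)
    (h : (o ∩ o').card = 2) : ∃ o₁ ∈ octads, ∃ o₂ ∈ octads,
      Disjoint o o₁ ∧ Disjoint o₁ o₂ ∧ Disjoint o₂ o' := by
  obtain ⟨g, hg, h1, h2⟩ := octad_pair_to_root ho ho'
  rw [h] at h2
  have hm : unmask 337856 ∈ octads := unmask_mem_octads (by decide +kernel) (by decide +kernel)
  have hm' : unmask 12222476 ∈ octads := unmask_mem_octads (by decide +kernel) (by decide +kernel)
  refine ⟨g⁻¹ • unmask 337856, smul_mem_octads (M24.inv_mem hg) hm,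
    g⁻¹ • unmask 12222476, smul_mem_octads (M24.inv_mem hg) hm', ?_, ?_, ?_⟩
  · apply disjoint_of_smul (g := g)
    rw [smul_inv_smul, h1]
    exact disjoint_unmask (by decide +kernel) (by norm_num) (by decide +kernel)
  · apply disjoint_of_smul (g := g)
    rw [smul_inv_smul, smul_inv_smul]
    exact disjoint_unmask (by norm_num) (by norm_num) (by decide +kernel)
  · apply disjoint_of_smul (g := g)
    rw [smul_inv_smul, h2]
    exact disjoint_unmask (by norm_num) (by decide +kernel) (by decide +kernel)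

theorem no_mid_of_two {o o' o₁ : Finset GolayPt} (ho : o ∈ octads) (ho' : o' ∈ octads)
    (ho₁ : o₁ ∈ octads) (h : (o ∩ o').card = 2) (h1 : Disjoint o o₁) (h2 : Disjoint o₁ o') :
    False := by
  rw [mem_octads_iff] at ho ho' ho₁
  rw [card_eq_pc, mask_inter] at h
  rw [disjoint_iff_mask] at h1 h2
  have hx := isCode_xor ho.1 ho'.1
  have e1 := pc_xor_add (mask_lt o) (mask_lt o')
  have e2 := pc_xor_add (isCode_lt hx) (mask_lt o₁)
  have e3 : (mask o ^^^ mask o') &&& mask o₁ = 0 := by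
    rw [Nat.and_xor_distrib_right, h1, Nat.and_comm (mask o') (mask o₁), h2]; rfl
  rw [e3] at e2
  have e4 : pc 0 = 0 := by decide +kernel
  have := pc_of_isCode (isCode_xor hx ho₁.1)
  omega

theorem walk_two {V : Type*} {G : SimpleGraph V} {u v : V} (p : G.Walk u v) (hp : p.length = 2) :
    ∃ w, G.Adj u w ∧ G.Adj w v := by
  cases p with
  | nil => simp at hp
  | cons h q =>
    cases q with
    | nil => simp at hp
    | cons h' r =>
      cases r with
      | nil => exact ⟨_, h, h'⟩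
      | cons _ _ => simp at hp

theorem dist_cases {o o' : Finset GolayPt} (ho : o ∈ octads) (ho' : o' ∈ octads) (hne : o ≠ o') :
    (blockGraph octads).Reachable ⟨o, ho⟩ ⟨o', ho'⟩ ∧
    (((o ∩ o').card = 0 ∧ (blockGraph octads).dist ⟨o, ho⟩ ⟨o', ho'⟩ = 1) ∨
     ((o ∩ o').card = 4 ∧ (blockGraph octads).dist ⟨o, ho⟩ ⟨o', ho'⟩ = 2) ∨
     ((o ∩ o').card = 2 ∧ (blockGraph octads).dist ⟨o, ho⟩ ⟨o', ho'⟩ = 3)) := by
  have hne' : (⟨o, ho⟩ : octads) ≠ ⟨o', ho'⟩ := fun h => hne (congrArg Subtype.val h)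
  rcases octad_inter_card ho ho' with h | h | h | h
  · have hadj := (adj_iff ho ho').mpr (disjoint_iff_card.mpr h)
    exact ⟨hadj.reachable, Or.inl ⟨h, SimpleGraph.dist_eq_one_iff_adj.mpr hadj⟩⟩
  · obtain ⟨o₁, ho₁, o₂, ho₂, d1, d2, d3⟩ := mid_of_two ho ho' h
    let p : (blockGraph octads).Walk ⟨o, ho⟩ ⟨o', ho'⟩ :=
      .cons ((adj_iff ho ho₁).mpr d1) (.cons ((adj_iff ho₁ ho₂).mpr d2)
        (.cons ((adj_iff ho₂ ho').mpr d3) .nil))
    have hr : (blockGraph octads).Reachable ⟨o, ho⟩ ⟨o', ho'⟩ := ⟨p⟩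
    refine ⟨hr, Or.inr (Or.inr ⟨h, ?_⟩)⟩
    have hle : (blockGraph octads).dist ⟨o, ho⟩ ⟨o', ho'⟩ ≤ 3 := SimpleGraph.dist_le p
    have h0 := hr.pos_dist_of_ne hne'
    have h1 : (blockGraph octads).dist ⟨o, ho⟩ ⟨o', ho'⟩ ≠ 1 := by
      intro hc
      have := (adj_iff ho ho').mp (SimpleGraph.dist_eq_one_iff_adj.mp hc)
      rw [disjoint_iff_card, h] at this
      omega
    have h2 : (blockGraph octads).dist ⟨o, ho⟩ ⟨o', ho'⟩ ≠ 2 := by
      intro hc
      obtain ⟨q, hq⟩ := hr.exists_walk_length_eq_dist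
      obtain ⟨w, hw1, hw2⟩ := walk_two q (hq.trans hc)
      exact no_mid_of_two ho ho' w.2 h ((adj_iff ho w.2).mp hw1) ((adj_iff w.2 ho').mp hw2)
    omega
  · obtain ⟨o₁, ho₁, d1, d2⟩ := mid_of_four ho ho' h
    let p : (blockGraph octads).Walk ⟨o, ho⟩ ⟨o', ho'⟩ :=
      .cons ((adj_iff ho ho₁).mpr d1) (.cons ((adj_iff ho₁ ho').mpr d2) .nil)
    have hr : (blockGraph octads).Reachable ⟨o, ho⟩ ⟨o', ho'⟩ := ⟨p⟩
    refine ⟨hr, Or.inr (Or.inl ⟨h, ?_⟩)⟩
    have hle : (blockGraph octads).dist ⟨o, ho⟩ ⟨o', ho'⟩ ≤ 2 := SimpleGraph.dist_le p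
    have h0 := hr.pos_dist_of_ne hne'
    have h1 : (blockGraph octads).dist ⟨o, ho⟩ ⟨o', ho'⟩ ≠ 1 := by
      intro hc
      have := (adj_iff ho ho').mp (SimpleGraph.dist_eq_one_iff_adj.mp hc)
      rw [disjoint_iff_card, h] at this
      omega
    omega
  · exfalso
    exact hne (octads_eq_of_inter ho ho' (by omega))

/-- In the graph on the 759 octads of the length-24 code in which two octads are adjacent when they are disjoint, the graph is connected (of diameter 3) and two distinct octads are at distance 1, 2 or 3 exactly when they meet in 0, 4 or 2 points respectively. -/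
theorem result (o o' : Finset Cfsg.GolayPt) (ho : o ∈ Cfsg.octads) (ho' : o' ∈ Cfsg.octads) (hne : o ≠ o') : (Cfsg.blockGraph Cfsg.octads).Connected ∧ ((Cfsg.blockGraph Cfsg.octads).dist ⟨o, ho⟩ ⟨o', ho'⟩ = 1 ↔ (o ∩ o').card = 0) ∧ ((Cfsg.blockGraph Cfsg.octads).dist ⟨o, ho⟩ ⟨o', ho'⟩ = 2 ↔ (o ∩ o').card = 4) ∧ ((Cfsg.blockGraph Cfsg.octads).dist ⟨o, ho⟩ ⟨o', ho'⟩ = 3 ↔ (o ∩ o').card = 2) := by
  refine ⟨?_, ?_⟩
  · have : Nonempty octads := ⟨⟨o, ho⟩⟩
    refine ⟨?_⟩
    intro a b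
    by_cases hab : a.1 = b.1
    · have : a = b := Subtype.ext hab
      rw [this]
    · exact (dist_cases a.2 b.2 hab).1
  · rcases (dist_cases ho ho' hne).2 with ⟨h1, h2⟩ | ⟨h1, h2⟩ | ⟨h1, h2⟩ <;> rw [h1, h2] <;> simp

end Cfsg.Agent.S5609
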