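import Cfsg.Statements.S5613
import Cfsg.Agent.Lib.Helper93.M24OctOct

set_option autoImplicit false
open scoped Pointwise
open Cfsg

namespace Cfsg.Agent.S5613

open Cfsg.Agent.Lib.Helper27 Cfsg.Agent.Lib.Helper92 Cfsg.Agent.Lib.Helper93.Eng


/-- In the group of the length-24 code, the joint stabiliser of two octads has order 10752, 1152 or 720 according as the octads meet in 0, 4 or 2 points. -/
theorem result (o o' : Finset Cfsg.GolayPt) (ho : o ∈ Cfsg.octads) (ho' : o' ∈ Cfsg.octads) : ((o ∩ o').card = 0 → Nat.card ↥(MulAction.stabilizer Cfsg.M24 o ⊓ MulAction.stabilizer Cfsg.M24 o') = 10752) ∧ ((o ∩ o').card = 4 → Nat.card ↥(MulAction.stabilizer Cfsg.M24 o ⊓ MulAction.stabilizer Cfsg.M24 o') = 1152) ∧ ((o ∩ o').card = 2 → Nat.card ↥(MulAction.stabilizer Cfsg.M24 o ⊓ MulAction.stabilizer Cfsg.M24 o') = 720) := by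
  have O := octOct_orbData ho
  have C := octOct_count ho
  have hc := card_stab_octad ho
  have key : ∀ l n : ℕ, {y | y ∈ Cfsg.octads ∧ (o ∩ y).card = l}.ncard = n → (o ∩ o').card = l →
      Nat.card ↥(MulAction.stabilizer Cfsg.M24 o ⊓ MulAction.stabilizer Cfsg.M24 o') * n = 322560 := by
    intro l n hn hl
    have h := card_inf_stab_mul_orbit (G := ↥Cfsg.M24) o o'
    rw [O.orbit_eq ho', hc] at h
    simp only [hl] at h
    rw [hn] at h
    exact h
  refine ⟨fun h => ?_, fun h => ?_, fun h => ?_⟩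
  · have := key 0 30 C.1 h; omega
  · have := key 4 280 C.2.2.1 h; omega
  · have := key 2 448 C.2.1 h; omega


end Cfsg.Agent.S5613
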