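import Cfsg.Statements.S5618
import Cfsg.Agent.Lib.Helper30.DodecadExt

set_option autoImplicit false
open scoped Pointwise
open Cfsg

namespace Cfsg.Agent.S5618

open Cfsg.Agent.Lib.Helper27 Cfsg.Agent.Lib.Helper30

/-- For a dodecad d of the length-24 code and a hexad C on it (a 6-point intersection of d with an octad): the joint stabiliser of d and C in the code's group is isomorphic to the symmetric group of degree 6, and it acts faithfully both on the six points of C and on the six points of d outside C. -/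
theorem result (d : Finset Cfsg.GolayPt) (hd : d ∈ Cfsg.dodecads) (C : Finset Cfsg.GolayPt) (hC : C ∈ Cfsg.hexadsOn d) : Nonempty (↥(MulAction.stabilizer Cfsg.M24 d ⊓ MulAction.stabilizer Cfsg.M24 C) ≃* Equiv.Perm (Fin 6)) ∧ (∀ g ∈ MulAction.stabilizer Cfsg.M24 d ⊓ MulAction.stabilizer Cfsg.M24 C, (∀ p ∈ C, ((g : ↥Cfsg.M24) : Equiv.Perm Cfsg.GolayPt) p = p) → g = 1) ∧ ∀ g ∈ MulAction.stabilizer Cfsg.M24 d ⊓ MulAction.stabilizer Cfsg.M24 C, (∀ p ∈ d \ C, ((g : ↥Cfsg.M24) : Equiv.Perm Cfsg.GolayPt) p = p) → g = 1 := by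
  have hCd : C ⊆ d := by
    obtain ⟨_, o, _, rfl⟩ := hC
    exact Finset.inter_subset_right
  have h1 : ∀ g ∈ MulAction.stabilizer Cfsg.M24 d ⊓ MulAction.stabilizer Cfsg.M24 C,
      (∀ p ∈ C, ((g : ↥Cfsg.M24) : Equiv.Perm Cfsg.GolayPt) p = p) → g = 1 := by
    intro g hg h
    apply Subtype.ext
    exact dodecad_eq_one hd C (by rw [hC.1]; norm_num) hCd g.2 hg.1 h
  refine ⟨?_, h1, ?_⟩
  · apply nonempty_mulEquiv_perm_fin (α := GolayPt) C 6 hC.1
    · intro g
      exact g.2.2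
    · intro g h
      apply Subtype.ext
      exact h1 g.1 g.2 h
    · intro σ
      obtain ⟨g, hg, hgd, hgC, h⟩ := hexad_perm_induced hd hC σ
      exact ⟨⟨⟨g, hg⟩, hgd, hgC⟩, h⟩
  · intro g hg h
    apply Subtype.ext
    refine dodecad_eq_one hd (d \ C) ?_ Finset.sdiff_subset g.2 hg.1 h
    rw [Finset.card_sdiff_of_subset hCd, hC.1, hd.2]; norm_num

end Cfsg.Agent.S5618
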