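import Cfsg.Statements.S5614
import Cfsg.Agent.S5618

set_option autoImplicit false
open scoped Pointwise
open Cfsg

namespace Cfsg.Agent.S5614

open Cfsg.Agent.Lib.Helper27 Cfsg.Agent.Lib.Helper30

theorem symmDiff_mem_dodecads {o o' : Finset GolayPt} (ho : o ∈ octads) (ho' : o' ∈ octads)
    (h₂ : (o ∩ o').card = 2) : symmDiff o o' ∈ dodecads := by
  rw [mem_octads_iff] at ho ho'
  rw [mem_dodecads_iff, mask_symmDiff]
  refine ⟨isCode_xor ho.1 ho'.1, ?_⟩
  have := pc_xor_add (mask_lt o) (mask_lt o')
  rw [card_eq_pc, mask_inter] at h₂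
  omega

/-- In the group of the length-24 code, the joint stabiliser of two octads meeting in exactly two points is isomorphic to the symmetric group of degree 6. -/
theorem result (o o' : Finset Cfsg.GolayPt) (ho : o ∈ Cfsg.octads) (ho' : o' ∈ Cfsg.octads) (h₂ : (o ∩ o').card = 2) : Nonempty (↥(MulAction.stabilizer Cfsg.M24 o ⊓ MulAction.stabilizer Cfsg.M24 o') ≃* Equiv.Perm (Fin 6)) := by
  have hd := symmDiff_mem_dodecads ho ho' h₂
  have hCe : o ∩ symmDiff o o' = o \ o' := by
    ext x
    simp only [Finset.mem_inter, Finset.mem_symmDiff, Finset.mem_sdiff]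
    tauto
  have hcard : (o \ o').card = 6 := by
    have := Finset.card_sdiff_add_card_inter o o'
    rw [h₂, ho.2] at this
    omega
  have hC : o \ o' ∈ hexadsOn (symmDiff o o') := ⟨hcard, o, ho, hCe⟩
  have heq : MulAction.stabilizer Cfsg.M24 o ⊓ MulAction.stabilizer Cfsg.M24 o' =
      MulAction.stabilizer Cfsg.M24 (symmDiff o o') ⊓ MulAction.stabilizer Cfsg.M24 (o \ o') := by
    ext g
    simp only [Subgroup.mem_inf, MulAction.mem_stabilizer_iff]
    constructor
    · rintro ⟨h1, h2⟩
      have h1' : (g : Equiv.Perm GolayPt) • o = o := h1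
      have h2' : (g : Equiv.Perm GolayPt) • o' = o' := h2
      constructor
      · change (g : Equiv.Perm GolayPt) • symmDiff o o' = symmDiff o o'
        rw [smul_symmDiff, h1', h2']
      · change (g : Equiv.Perm GolayPt) • (o \ o') = o \ o'
        rw [Finset.smul_finset_sdiff, h1', h2']
    · rintro ⟨h1, h2⟩
      have h1' : (g : Equiv.Perm GolayPt) • symmDiff o o' = symmDiff o o' := h1
      have h2' : (g : Equiv.Perm GolayPt) • (o \ o') = o \ o' := h2
      have h3 : (g : Equiv.Perm GolayPt) • o = o := by
        apply octads_eq_of_inter (smul_mem_octads g.2 ho) ho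
        calc 5 ≤ (o \ o').card := by rw [hcard]; norm_num
          _ ≤ ((g : Equiv.Perm GolayPt) • o ∩ o).card := by
            apply Finset.card_le_card
            intro x hx
            rw [Finset.mem_inter]
            refine ⟨?_, (Finset.mem_sdiff.mp hx).1⟩
            rw [← h2'] at hx
            exact Finset.smul_finset_subset_smul_finset Finset.sdiff_subset hx
      refine ⟨h3, ?_⟩
      change (g : Equiv.Perm GolayPt) • o' = o'
      have h4 : o' = symmDiff o (symmDiff o o') := by
        rw [← symmDiff_assoc, symmDiff_self, bot_symmDiff]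
      conv_lhs => rw [h4]
      rw [smul_symmDiff, h3, h1', ← h4]
  rw [heq]
  exact (Cfsg.Agent.S5618.result _ hd _ hC).1

end Cfsg.Agent.S5614
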