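import Cfsg.Statements.S5615
import Cfsg.Agent.Lib.Helper27.Trio15

set_option autoImplicit false
open scoped Pointwise
open Cfsg

namespace Cfsg.Agent.S5615

/-- An octad of the length-24 code lies in exactly 15 trios; the stabiliser of the octad in the code's group acts doubly transitively on these 15 trios, and the kernel of this action is the pointwise stabiliser of the octad. -/
theorem result (o : Finset Cfsg.GolayPt) (ho : o ∈ Cfsg.octads) : {T : Finset (Finset Cfsg.GolayPt) | T ∈ Cfsg.trios ∧ o ∈ T}.ncard = 15 ∧ (∀ T₁ T₂ T₁' T₂' : Finset (Finset Cfsg.GolayPt), T₁ ∈ Cfsg.trios → T₂ ∈ Cfsg.trios → T₁' ∈ Cfsg.trios → T₂' ∈ Cfsg.trios → o ∈ T₁ → o ∈ T₂ → o ∈ T₁' → o ∈ T₂' → T₁ ≠ T₂ → T₁' ≠ T₂' → ∃ g ∈ Cfsg.M24, g • o = o ∧ g • T₁ = T₁' ∧ g • T₂ = T₂') ∧ ∀ g ∈ Cfsg.M24, g • o = o → ((∀ T ∈ Cfsg.trios, o ∈ T → g • T = T) ↔ ∀ p ∈ o, g p = p) := by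
  refine ⟨Cfsg.Agent.Lib.Helper27.ncard_trios_through ho, ?_, ?_⟩
  · intro T₁ T₂ T₁' T₂' h1 h2 h1' h2' o1 o2 o1' o2' hne hne'
    exact Cfsg.Agent.Lib.Helper27.trios_two_transitive ho h1 h2 h1' h2' o1 o2 o1' o2' hne hne'
  · intro g hg hgo
    constructor
    · intro hall
      exact Cfsg.Agent.Lib.Helper27.fixes_trios_pointwise ho hg hgo hall
    · intro hfix T hT hoT
      exact Cfsg.Agent.Lib.Helper27.pointwise_fixes_trios ho hg hfix hT hoT

end Cfsg.Agent.S5615
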