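import Cfsg.Statements.S5620
import Cfsg.Agent.Lib.Helper92.M12Chain

set_option autoImplicit false
open Cfsg

namespace Cfsg.Agent.S5620

open Cfsg.Agent.Lib.Helper27 Cfsg.Agent.Lib.Helper92
open scoped Pointwise

/-- the second point stabiliser. -/
abbrev B : Subgroup (Equiv.Perm GolayPt) :=
  Spor.M12 ⊓ MulAction.stabilizer (Equiv.Perm GolayPt) (none : GolayPt)

theorem mem_B_iff {y : Equiv.Perm GolayPt} :
    y ∈ B ↔ y ∈ M24 ∧ y • unmask maskD = unmask maskD ∧ y none = none := by
  rw [Subgroup.mem_inf, Spor.M12, Subgroup.mem_inf, MulAction.mem_stabilizer_iff,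
    MulAction.mem_stabilizer_iff, squareDodecad_eq, and_assoc]
  rfl

theorem mem_M11_iff {y : Equiv.Perm GolayPt} :
    y ∈ Spor.M11 ↔ y ∈ M24 ∧ y • unmask maskD = unmask maskD ∧ y (some 0) = some 0 := by
  rw [Spor.M11, Subgroup.mem_inf, Spor.M12, Subgroup.mem_inf, MulAction.mem_stabilizer_iff,
    MulAction.mem_stabilizer_iff, squareDodecad_eq, and_assoc]
  rfl

theorem smul_compl (g : Equiv.Perm GolayPt) (s : Finset GolayPt) : g • sᶜ = (g • s)ᶜ := by
  rw [Finset.compl_eq_univ_sdiff, Finset.smul_finset_sdiff, Finset.smul_finset_univ,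
    Finset.compl_eq_univ_sdiff]

/-- the code of an element exchanging the dodecad with its complement, mapping `0` to `∞`. -/
def gc : ℕ := 752903830015895221532868844639735447

theorem gc_check : checkM24 gc = true := by decide +kernel

theorem gc_D : permOf gc • unmask maskD = (unmask maskD)ᶜ := by
  rw [smul_unmask_permOf (valid_of_check gc_check) (by decide +kernel)]
  apply mask_injective
  rw [mask_compl, mask_unmask (by decide +kernel), mask_unmask (by decide +kernel)]
  decide +kernel

theorem gc_zero : permOf gc (some 0) = none := by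
  have h0 : (some 0 : GolayPt) = pt 0 := by decide
  rw [h0, permOf_pt (valid_of_check gc_check) (by norm_num)]
  decide +kernel

theorem conj_eq : MulAut.conj (permOf gc) • Spor.M11 = B := by
  have hg := permOf_mem_M24 gc_check
  set g := permOf gc with hgdef
  have hD : g • unmask maskD = (unmask maskD)ᶜ := gc_D
  have hDc : g • (unmask maskD)ᶜ = unmask maskD := by rw [smul_compl, hD, compl_compl]
  have hiD : g⁻¹ • unmask maskD = (unmask maskD)ᶜ := by rw [inv_smul_eq_iff, hDc]
  have hiDc : g⁻¹ • (unmask maskD)ᶜ = unmask maskD := by rw [inv_smul_eq_iff, hD]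
  have h0 : g (some 0) = none := gc_zero
  have hi0 : g⁻¹ none = some 0 := by rw [Equiv.Perm.inv_eq_iff_eq, h0]
  ext y
  rw [Subgroup.mem_pointwise_smul_iff_inv_smul_mem, mem_B_iff, mem_M11_iff]
  have e : (MulAut.conj g)⁻¹ • y = g⁻¹ * y * g := by
    rw [← map_inv, MulAut.smul_def, MulAut.conj_apply, inv_inv]
  rw [e]
  constructor
  · rintro ⟨h1, h2, h3⟩
    have hy : y = g * (g⁻¹ * y * g) * g⁻¹ := by group
    refine ⟨?_, ?_, ?_⟩
    · rw [hy]; exact M24.mul_mem (M24.mul_mem hg h1) (M24.inv_mem hg)
    · have h4 : (g⁻¹ * y * g) • (unmask maskD)ᶜ = (unmask maskD)ᶜ := by rw [smul_compl, h2]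
      rw [hy, mul_smul, mul_smul, hiD, h4, hDc]
    · rw [hy, Equiv.Perm.mul_apply, Equiv.Perm.mul_apply, hi0, h3, h0]
  · rintro ⟨h1, h2, h3⟩
    refine ⟨M24.mul_mem (M24.mul_mem (M24.inv_mem hg) h1) hg, ?_, ?_⟩
    · have h4 : y • (unmask maskD)ᶜ = (unmask maskD)ᶜ := by rw [smul_compl, h2]
      rw [mul_smul, mul_smul, hD, h4, hiDc]
    · rw [Equiv.Perm.mul_apply, Equiv.Perm.mul_apply, h0, h3, hi0]

/-- Inside the stabiliser of the dodecad of squares (a Mathieu group of degree 12), the stabiliser of the residue 0 (a point of the dodecad) and the stabiliser of the extra point (a point outside the dodecad) are isomorphic but not conjugate; conjugation by a suitable element of the code's group that maps the dodecad of squares onto its complement carries the first onto the second. -/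
theorem result : Nonempty (↥(Cfsg.Spor.M12 ⊓ MulAction.stabilizer (Equiv.Perm Cfsg.GolayPt) (none : Cfsg.GolayPt)) ≃* ↥Cfsg.Spor.M11) ∧ (¬ ∃ k ∈ Cfsg.Spor.M12, MulAut.conj k • Cfsg.Spor.M11 = Cfsg.Spor.M12 ⊓ MulAction.stabilizer (Equiv.Perm Cfsg.GolayPt) (none : Cfsg.GolayPt)) ∧ ∃ g ∈ Cfsg.M24, g • Cfsg.Spor.squareDodecad = Finset.univ \ Cfsg.Spor.squareDodecad ∧ MulAut.conj g • Cfsg.Spor.M11 = Cfsg.Spor.M12 ⊓ MulAction.stabilizer (Equiv.Perm Cfsg.GolayPt) (none : Cfsg.GolayPt) := by
  refine ⟨?_, ?_, ?_⟩
  · exact ⟨((Subgroup.equivSMul (MulAut.conj (permOf gc)) Spor.M11).trans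
      (MulEquiv.subgroupCongr conj_eq)).symm⟩
  · rintro ⟨k, hk, hconj⟩
    -- the point `k 0` of the dodecad is fixed by all the elements of `B`
    have hkD : k • unmask maskD = unmask maskD := by
      rw [Spor.M12, Subgroup.mem_inf, MulAction.mem_stabilizer_iff, squareDodecad_eq] at hk
      exact hk.2
    have hp : k (some 0) ∈ unmask maskD := by
      rw [← hkD]
      exact Finset.smul_mem_smul_finset (by decide +kernel)
    have hfix : ∀ y ∈ B, y (k (some 0)) = k (some 0) := by
      intro y hy
      have hy' : y ∈ MulAut.conj k • Spor.M11 := by rw [hconj]; exact hy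
      rw [Subgroup.mem_pointwise_smul_iff_inv_smul_mem] at hy'
      have e : (MulAut.conj k)⁻¹ • y = k⁻¹ * y * k := by
        rw [← map_inv, MulAut.smul_def, MulAut.conj_apply, inv_inv]
      rw [e] at hy'
      have := (mem_M11_iff.1 hy').2.2
      rw [Equiv.Perm.mul_apply, Equiv.Perm.mul_apply, Equiv.Perm.inv_eq_iff_eq] at this
      exact this
    have hmem : ∀ c, checkFix [2 ^ 23, maskD] c = true → permOf c ∈ B := by
      intro c hc
      have h := permOf_mem_fixer hc
      refine mem_B_iff.2 ⟨h.1, h.2 _ (by simp), ?_⟩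
      have h23 : (none : GolayPt) = pt 23 := by decide
      rw [h23]
      exact fixer_fix h (by norm_num) (by simp)
    have c1 : checkFix [2 ^ 23, maskD] 980358728856623256038648728267131181 = true := by
      decide +kernel
    have c2 : checkFix [2 ^ 23, maskD] 980351935891711827286579721084998150 = true := by
      decide +kernel
    have h1 := hfix _ (hmem _ c1)
    have h2 := hfix _ (hmem _ c2)
    rw [permOf_apply (valid_of_checkFix c1)] at h1
    rw [permOf_apply (valid_of_checkFix c2)] at h2
    have hno : ∀ p : GolayPt, p ∈ unmask maskD →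
        pt (ent 980358728856623256038648728267131181 (idx p)) = p →
        pt (ent 980351935891711827286579721084998150 (idx p)) = p → False := by decide +kernel
    exact hno _ hp h1 h2
  · refine ⟨permOf gc, permOf_mem_M24 gc_check, ?_, conj_eq⟩
    rw [squareDodecad_eq, gc_D, Finset.compl_eq_univ_sdiff]

end Cfsg.Agent.S5620
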