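import Cfsg.Statements.S5631
import Cfsg.Agent.Lib.Helper94.SLMax

set_option autoImplicit false
open Cfsg

namespace Cfsg.Agent.S5631

open Cfsg.Agent.Lib.Helper94

/-- For a finite field F and n ≥ 13, the stabiliser in SL_n(F) of any proper non-zero subspace W of F^n is a maximal subgroup of SL_n(F). Here SL_n(F) is the kernel of the determinant inside GL_n(F) and the stabiliser is the set of elements of determinant one mapping W onto itself. -/
theorem result {F : Type*} [Field F] [Fintype F] (n : ℕ) (hn : 13 ≤ n) (W : Submodule F (Fin n → F)) (hW0 : W ≠ ⊥) (hW1 : W ≠ ⊤) : Cfsg.Geo.IsMaximalIn (Cfsg.Geo.specialLinear (Fin n) F) (Cfsg.Geo.subspaceStabilizer W ⊓ Cfsg.Geo.specialLinear (Fin n) F) := by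
  have : Nontrivial (Fin n) := Fin.nontrivial_iff_two_le.2 (by omega)
  refine sl_maximal_of_core _ (fun φ => ∀ w ∈ W, φ w ∈ W) (fun g => mem_subspaceStabilizer_iff g W) ?_
    (fun G hP φ0 h0 _ h0W => core_SL_subspace W G hP φ0 h0 h0W)
  obtain ⟨φ, a, h, -, u, hu, hu'⟩ := exists_tr_not_stab ⊥ W (bot_lt_iff_ne_bot.2 hW0) hW1
  exact ⟨tr φ a h, tr_det _ _ _, fun hcon => hu' (hcon u hu)⟩

end Cfsg.Agent.S5631
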