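import Cfsg.Statements.S5632
import Cfsg.Agent.Lib.Helper94.SLMax

set_option autoImplicit false
open Cfsg

namespace Cfsg.Agent.S5632

open Cfsg.Agent.Lib.Helper94

/-- For a finite field F and subspaces 0 < W < U of F^n with dim W + dim U = n, the elements of SL_n(F) stabilising both W and U form a subgroup that is not maximal in SL_n(F): some subgroup lies strictly between it and SL_n(F). -/
theorem result {F : Type*} [Field F] [Fintype F] (n : ℕ) (W U : Submodule F (Fin n → F)) (hW0 : W ≠ ⊥) (hWU : W < U) (hdim : Module.finrank F W + Module.finrank F U = n) : ∃ K : Subgroup (Matrix.GeneralLinearGroup (Fin n) F), Cfsg.Geo.subspaceStabilizer W ⊓ Cfsg.Geo.subspaceStabilizer U ⊓ Cfsg.Geo.specialLinear (Fin n) F < K ∧ K < Cfsg.Geo.specialLinear (Fin n) F := by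
  have hU1 : U ≠ ⊤ := by
    rintro rfl
    rw [finrank_top, Module.finrank_fintype_fun_eq_card, Fintype.card_fin] at hdim
    have : Module.finrank F W = 0 := by omega
    exact hW0 (Submodule.finrank_eq_zero.1 this)
  have hW1 : W ≠ ⊤ := by
    rintro rfl
    exact hU1 (top_le_iff.1 hWU.le)
  refine ⟨Cfsg.Geo.subspaceStabilizer W ⊓ Cfsg.Geo.specialLinear (Fin n) F, ?_, ?_⟩
  · refine lt_of_le_of_ne (fun g hg => ⟨hg.1.1, hg.2⟩) ?_
    obtain ⟨φ, a, h, hW, u, hu, hu'⟩ := exists_tr_not_stab W U hWU hU1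
    intro heq
    have hmem : (glEquiv _ F).symm (tr φ a h) ∈
        Cfsg.Geo.subspaceStabilizer W ⊓ Cfsg.Geo.specialLinear (Fin n) F := by
      refine Subgroup.mem_inf.2 ⟨?_, ?_⟩
      · rw [symm_mem_subspaceStabilizer_iff]
        intro w hw
        rw [tr_apply, LinearMap.mem_ker.1 (hW hw), zero_smul, add_zero]; exact hw
      · rw [symm_mem_specialLinear_iff]; exact tr_det _ _ _
    rw [← heq] at hmem
    exact hu' ((symm_mem_subspaceStabilizer_iff _ U).1 hmem.1.2 u hu)
  · refine lt_of_le_of_ne inf_le_right ?_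
    obtain ⟨φ, a, h, -, u, hu, hu'⟩ := exists_tr_not_stab ⊥ W (bot_lt_iff_ne_bot.2 hW0) hW1
    intro heq
    have hmem : (glEquiv _ F).symm (tr φ a h) ∈ Cfsg.Geo.specialLinear (Fin n) F := by
      rw [symm_mem_specialLinear_iff]; exact tr_det _ _ _
    rw [← heq] at hmem
    exact hu' ((symm_mem_subspaceStabilizer_iff _ W).1 hmem.1 u hu)

end Cfsg.Agent.S5632
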