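import Cfsg.Statements.S5633
import Cfsg.Agent.Lib.Helper94.SLMax

set_option autoImplicit false
open Cfsg

namespace Cfsg.Agent.S5633

open Cfsg.Agent.Lib.Helper94

/-- For a finite field F and complementary non-zero subspaces W ⊕ U = F^n with dim W < dim U, the elements of SL_n(F) stabilising both W and U form a subgroup that is not maximal in SL_n(F): some subgroup lies strictly between it and SL_n(F). -/
theorem result {F : Type*} [Field F] [Fintype F] (n : ℕ) (W U : Submodule F (Fin n → F)) (hW0 : W ≠ ⊥) (hWU : W ⊓ U = ⊥) (hWU' : W ⊔ U = ⊤) (hdim : Module.finrank F W < Module.finrank F U) : ∃ K : Subgroup (Matrix.GeneralLinearGroup (Fin n) F), Cfsg.Geo.subspaceStabilizer W ⊓ Cfsg.Geo.subspaceStabilizer U ⊓ Cfsg.Geo.specialLinear (Fin n) F < K ∧ K < Cfsg.Geo.specialLinear (Fin n) F := by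
  have hU0 : U ≠ ⊥ := by
    rintro rfl
    rw [finrank_bot] at hdim
    omega
  have hW1 : W ≠ ⊤ := by
    rintro rfl
    rw [top_inf_eq] at hWU
    exact hU0 hWU
  refine ⟨Cfsg.Geo.subspaceStabilizer W ⊓ Cfsg.Geo.specialLinear (Fin n) F, ?_, ?_⟩
  · refine lt_of_le_of_ne (fun g hg => ⟨hg.1.1, hg.2⟩) ?_
    obtain ⟨a, ha, ha0⟩ := Submodule.exists_mem_ne_zero_of_ne_bot hW0
    obtain ⟨u, hu, hu0⟩ := Submodule.exists_mem_ne_zero_of_ne_bot hU0
    have haU : a ∉ U := fun h => ha0 (by
      have : a ∈ W ⊓ U := ⟨ha, h⟩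
      rwa [hWU, Submodule.mem_bot] at this)
    have hua : u ∉ Submodule.span F {a} := by
      intro hmem
      have h1 : u ∈ W := (Submodule.span_singleton_le_iff_mem a W).2 ha hmem
      have : u ∈ W ⊓ U := ⟨h1, hu⟩
      rw [hWU, Submodule.mem_bot] at this
      exact hu0 this
    obtain ⟨φ, hφ1, hφ2⟩ := Submodule.exists_le_ker_of_notMem hua
    have hφa : φ a = 0 := hφ2 (Submodule.mem_span_singleton_self a)
    intro heq
    have hmem : (glEquiv _ F).symm (tr φ a hφa) ∈
        Cfsg.Geo.subspaceStabilizer W ⊓ Cfsg.Geo.specialLinear (Fin n) F := by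
      refine Subgroup.mem_inf.2 ⟨?_, ?_⟩
      · rw [symm_mem_subspaceStabilizer_iff]
        intro w hw
        rw [tr_apply]; exact W.add_mem hw (W.smul_mem _ ha)
      · rw [symm_mem_specialLinear_iff]; exact tr_det _ _ _
    rw [← heq] at hmem
    have h2 := (symm_mem_subspaceStabilizer_iff _ U).1 hmem.1.2 u hu
    rw [tr_apply] at h2
    have h3 := U.sub_mem h2 hu
    rw [add_sub_cancel_left] at h3
    exact haU ((U.smul_mem_iff hφ1).1 h3)
  · refine lt_of_le_of_ne inf_le_right ?_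
    obtain ⟨φ, a, h, -, u, hu, hu'⟩ := exists_tr_not_stab ⊥ W (bot_lt_iff_ne_bot.2 hW0) hW1
    intro heq
    have hmem : (glEquiv _ F).symm (tr φ a h) ∈ Cfsg.Geo.specialLinear (Fin n) F := by
      rw [symm_mem_specialLinear_iff]; exact tr_det _ _ _
    rw [← heq] at hmem
    exact hu' ((symm_mem_subspaceStabilizer_iff _ W).1 hmem.1 u hu)

end Cfsg.Agent.S5633
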