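import Cfsg.Statements.S5634
import Cfsg.Agent.Lib.Helper29.Mono.Main
import Cfsg.Agent.Lib.Helper63.Mono.M2

set_option autoImplicit false
open Cfsg

namespace Cfsg.Agent.S5634

open Cfsg.Agent.Lib.Helper94 Cfsg.Agent.Lib.Helper29.Mono Cfsg.Agent.Lib.Helper63.Mono

/-- For a finite field F with q elements and n ≥ 13, let D be a decomposition of F^n into t ≥ 2 independent subspaces of equal dimension m ≥ 1 spanning F^n. Unless m = 1 and q ≤ 4, or m = 2 and q = 2, the elements of SL_n(F) permuting the members of D form a maximal subgroup of SL_n(F). -/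
theorem result {F : Type*} [Field F] [Fintype F] (n : ℕ) (hn : 13 ≤ n) {t : ℕ} (m : ℕ) (D : Fin t → Submodule F (Fin n → F)) (hD : Cfsg.Geo.IsMDecomposition m D) (h1 : ¬ (m = 1 ∧ Fintype.card F ≤ 4)) (h2 : ¬ (m = 2 ∧ Fintype.card F = 2)) : Cfsg.Geo.IsMaximalIn (Cfsg.Geo.specialLinear (Fin n) F) (Cfsg.Geo.decompositionStabilizer D ⊓ Cfsg.Geo.specialLinear (Fin n) F) := by
  classical
  obtain ⟨bs, hmem, hspan⟩ := exists_adapted_basis D hD.finrank_eq hD.indep hD.iSup_eq_top
  have htm : n = t * m := by
    have := card_mul_eq bs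
    rwa [Module.finrank_fin_fun] at this
  have ht2 := hD.two_le
  have hm0 := hD.pos
  have : Nontrivial (Fin n) := Fin.nontrivial_iff_two_le.2 (by omega)
  refine sl_maximal_of_core _ (DecStab D) (fun g => mem_decompositionStabilizer_iff D g) ?_ ?_
  · obtain ⟨φ, hφ, hφ'⟩ := exists_not_cnt D bs hmem hspan ⟨0, by omega⟩ ⟨1, by omega⟩
      (by intro h; simp at h) ⟨0, hm0⟩
    exact ⟨φ, hφ, fun hs => hφ' (decStab_mem_funStab_cnt D hs)⟩
  · intro G hP φ0 hφ0 hdet hns
    by_cases hm1 : m = 1
    · subst hm1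
      exact core_one D hD.finrank_eq hD.indep hD.iSup_eq_top (by omega) (by
        by_contra hcon
        exact h1 ⟨rfl, by omega⟩) G hP φ0 hφ0 hdet hns
    · refine core_ge_two D hD.finrank_eq hD.indep hD.iSup_eq_top (by omega) ht2 ?_ G hP φ0 hφ0 hns
      intro hm2
      subst hm2
      refine ⟨by omega, ?_⟩
      have hq1 : 1 < Fintype.card F := Fintype.one_lt_card
      have hq3 : 2 < Fintype.card F := by
        rcases Nat.lt_or_ge 2 (Fintype.card F) with h | h
        · exact h
        · exact absurd ⟨rfl, by omega⟩ h2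
      obtain ⟨c, hc⟩ : ∃ c : F, c ∉ ({0, 1} : Finset F) := by
        by_contra hcon
        push Not at hcon
        have : Fintype.card F ≤ ({0, 1} : Finset F).card := by
          rw [← Finset.card_univ]
          exact Finset.card_le_card fun x _ => hcon x
        have h3 : ({0, 1} : Finset F).card ≤ 2 := Finset.card_le_two
        omega
      simp only [Finset.mem_insert, Finset.mem_singleton, not_or] at hc
      exact ⟨c, hc.1, hc.2⟩

end Cfsg.Agent.S5634
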