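import Cfsg.Statements.S5635
import Cfsg.Agent.Lib.Helper94.SLDec


set_option autoImplicit false
open Cfsg

namespace Cfsg.Agent.S5635

open Cfsg.Agent.Lib.Helper94

/-- For a finite field F with q elements and n ≥ 13, let D be a decomposition of F^n into t ≥ 2 independent subspaces of equal dimension m spanning F^n, where m = 1 and q ≤ 4, or m = 2 and q = 2. Then the elements of SL_n(F) permuting the members of D form a subgroup that is not maximal: some subgroup lies strictly between it and SL_n(F). -/
theorem result {F : Type*} [Field F] [Fintype F] (n : ℕ) (hn : 13 ≤ n) {t : ℕ} (m : ℕ) (D : Fin t → Submodule F (Fin n → F)) (hD : Cfsg.Geo.IsMDecomposition m D) (h : (m = 1 ∧ Fintype.card F ≤ 4) ∨ (m = 2 ∧ Fintype.card F = 2)) : ∃ K : Subgroup (Matrix.GeneralLinearGroup (Fin n) F), Cfsg.Geo.decompositionStabilizer D ⊓ Cfsg.Geo.specialLinear (Fin n) F < K ∧ K < Cfsg.Geo.specialLinear (Fin n) F := by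
  classical
  obtain ⟨bs, hmem, hspan⟩ := exists_adapted_basis D hD.finrank_eq hD.indep hD.iSup_eq_top
  have htm : n = t * m := by
    have := card_mul_eq bs
    rwa [Module.finrank_fin_fun] at this
  have hq1 : 1 < Fintype.card F := Fintype.one_lt_card
  have hcast : ((Fintype.card F : ℕ) : F) = 0 := Nat.cast_card_eq_zero F
  rcases h with ⟨rfl, hq⟩ | ⟨rfl, hq⟩
  · have ht : 8 ≤ t := by omega
    have hq' : (Fintype.card F - 1 = 1 ∧ (2 : F) = 0) ∨ (Fintype.card F - 1 = 2 ∧ (3 : F) = 0) ∨
        (Fintype.card F - 1 = 3 ∧ (2 : F) = 0) := by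
      have hcases : Fintype.card F = 2 ∨ Fintype.card F = 3 ∨ Fintype.card F = 4 := by omega
      rcases hcases with h | h | h
      · left
        rw [h] at hcast
        exact ⟨by omega, by exact_mod_cast hcast⟩
      · right; left
        rw [h] at hcast
        exact ⟨by omega, by exact_mod_cast hcast⟩
      · right; right
        rw [h] at hcast
        refine ⟨by omega, ?_⟩
        have h4 : (2 : F) * 2 = 0 := by
          have : (4 : F) = 0 := by exact_mod_cast hcast
          linear_combination this
        exact mul_self_eq_zero.1 h4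
    exact sl_between n _ (DecStab D) (fun g => mem_decompositionStabilizer_iff D g)
      (funStab (cntQ D))
      (fun φ hs => decStab_mem_funStab_cnt D hs)
      (exists_cnt_not_decStab_one D bs hmem hspan hq' (Fin.castLE ht) (Fin.castLE_injective ht))
      (exists_not_cnt D bs hmem hspan ⟨0, by omega⟩ ⟨1, by omega⟩ (by intro h; simp at h) 0)
  · have ht : 3 ≤ t := by omega
    have h2 : ∀ x : F, x = 0 ∨ x = 1 := by
      intro x
      by_contra hcon
      push Not at hcon
      have h3 : ({0, 1, x} : Finset F).card = 3 :=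
        Finset.card_eq_three.2 ⟨0, 1, x, zero_ne_one, hcon.1.symm, hcon.2.symm, rfl⟩
      have := Finset.card_le_univ ({0, 1, x} : Finset F)
      rw [h3, hq] at this
      omega
    exact sl_between n _ (DecStab D) (fun g => mem_decompositionStabilizer_iff D g)
      (funStab (cntQ D))
      (fun φ hs => decStab_mem_funStab_cnt D hs)
      (exists_cnt_not_decStab_two D bs hmem hspan h2 ⟨0, by omega⟩ ⟨1, by omega⟩ ⟨2, by omega⟩
        (by intro h; simp at h) (by intro h; simp at h) (by intro h; simp at h))
      (exists_not_cnt D bs hmem hspan ⟨0, by omega⟩ ⟨1, by omega⟩ (by intro h; simp at h) 0)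

end Cfsg.Agent.S5635
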