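import Cfsg.Statements.S5637
import Cfsg.Agent.Lib.Helper99.TensW

set_option autoImplicit false
open Cfsg

namespace Cfsg.Agent.S5637

open Matrix Cfsg.Agent.Lib.Helper99.Tens
open scoped Kronecker

lemma not_isKr_transvection {F : Type*} [Field F] {A B : Type} [Fintype A] [DecidableEq A] [Fintype B]
    [DecidableEq B] {i0 i1 : A} {t0 t1 : B} (hi : i0 ≠ i1) (ht : t0 ≠ t1) :
    ¬ IsKr (1 + Matrix.single (i0, t0) (i1, t1) (1 : F)) := by
  rintro ⟨α, β, h⟩
  have e1 := congrFun (congrFun h (i0, t0)) (i1, t1)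
  have e2 := congrFun (congrFun h (i0, t0)) (i0, t1)
  have e3 := congrFun (congrFun h (i0, t0)) (i0, t0)
  simp only [Matrix.add_apply, Matrix.one_apply, Matrix.single_apply, Matrix.kroneckerMap_apply,
    Prod.mk.injEq] at e1 e2 e3
  simp [hi, ht, hi.symm, ht.symm] at e1 e2 e3
  have hβ : β t0 t1 ≠ 0 := by
    intro h0
    rw [h0, mul_zero] at e1
    exact one_ne_zero e1
  rcases e2 with h0 | h0
  · rw [h0, zero_mul] at e3
    exact one_ne_zero e3
  · exact hβ h0

/-- For a finite field F with q elements and n = n₁ n₂ ≥ 13 with 2 ≤ n₁ < n₂, excluding n₁ = q = 2, the stabiliser in SL_n(F) of a tensor decomposition F^n ≅ F^(n₁) ⊗ F^(n₂) (the conjugate by any P of the Kronecker-product subgroup transported along any bijection Fin n ≃ Fin n₁ × Fin n₂, intersected with SL_n(F)) is a maximal subgroup of SL_n(F). -/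
theorem result {F : Type*} [Field F] [Fintype F] (n : ℕ) (hn : 13 ≤ n) (n₁ n₂ : ℕ) (h1 : 2 ≤ n₁) (h12 : n₁ < n₂) (hex : ¬ (n₁ = 2 ∧ Fintype.card F = 2)) (e : Fin n ≃ Fin n₁ × Fin n₂) (P : Matrix.GeneralLinearGroup (Fin n) F) : Cfsg.Geo.IsMaximalIn (Cfsg.Geo.specialLinear (Fin n) F) (Cfsg.Geo.tensorProductSubgroup n₁ n₂ e P ⊓ Cfsg.Geo.specialLinear (Fin n) F) := by
  classical
  have h3 : 3 ≤ n₂ := by omega
  haveI : NeZero n₁ := ⟨by omega⟩
  haveI : NeZero n₂ := ⟨by omega⟩
  have hex' : 3 ≤ Fintype.card (Fin n₁) ∨ ∃ c : F, c ≠ 0 ∧ c ≠ 1 := by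
    by_cases h : 3 ≤ n₁
    · left
      simpa using h
    · right
      have hn1 : n₁ = 2 := by omega
      by_contra hcon
      push Not at hcon
      apply hex
      refine ⟨hn1, ?_⟩
      have hle : Fintype.card F ≤ 2 := by
        have : (Finset.univ : Finset F) ⊆ {0, 1} := by
          intro c _
          by_cases hc : c = 0
          · simp [hc]
          · simp [hcon c hc]
        exact (Finset.card_le_card this).trans Finset.card_le_two
      have := Fintype.one_lt_card (α := F)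
      omega
  rw [tensorProductSubgroup_eq e P, specialLinear_eq e P, ← Subgroup.comap_inf]
  apply Cfsg.Agent.Lib.Helper94.isMaximalIn_comap (tensE e P).symm
  refine Cfsg.Agent.Lib.Helper94.isMaximalIn_of_core _ _ inf_le_right ?_ ?_
  · have hi : (⟨0, by omega⟩ : Fin n₁) ≠ ⟨1, by omega⟩ := by simp
    have ht : (⟨0, by omega⟩ : Fin n₂) ≠ ⟨1, by omega⟩ := by simp
    have hpq : ((⟨0, by omega⟩ : Fin n₁), (⟨0, by omega⟩ : Fin n₂)) ≠ (⟨1, by omega⟩, ⟨1, by omega⟩) := by
      simp
    refine ⟨Matrix.SpecialLinearGroup.toGL (Matrix.SpecialLinearGroup.transvection hpq (1 : F)), ?_, ?_⟩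
    · rw [mem_sl_iff]
      exact (Matrix.SpecialLinearGroup.transvection hpq (1 : F)).2
    · intro hmem
      have hk := (mem_kron_iff _).1 (Subgroup.mem_inf.1 hmem).1
      apply not_isKr_transvection (F := F) hi ht
      have : ((Matrix.SpecialLinearGroup.toGL (Matrix.SpecialLinearGroup.transvection hpq (1 : F)) :
          GL (Fin n₁ × Fin n₂) F) : Matrix (Fin n₁ × Fin n₂) (Fin n₁ × Fin n₂) F)
          = 1 + Matrix.single (⟨0, by omega⟩, ⟨0, by omega⟩) (⟨1, by omega⟩, ⟨1, by omega⟩) (1 : F) := by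
        simp [Matrix.SpecialLinearGroup.transvection_coe, Matrix.transvection]
      rwa [this] at hk
  · intro M hHM hMK g0 hg0 hg0H
    haveI : Nontrivial (Fin n₁ × Fin n₂) := by
      haveI : Nontrivial (Fin n₂) := Fin.nontrivial_iff_two_le.2 (by omega)
      infer_instance
    apply sl_le_of_elem
    intro p q hpq c
    refine core (hasH_of_le hHM) (by simpa using h3) (by simpa using h12) hex' hg0 ?_ p q hpq c
    intro hk
    exact hg0H (Subgroup.mem_inf.2 ⟨(mem_kron_iff _).2 hk, hMK hg0⟩)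

end Cfsg.Agent.S5637
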