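import Cfsg.Statements.S5638
import Cfsg.Agent.Lib.Helper94.TensF2
import Cfsg.Agent.Lib.Helper94.SLDec


set_option autoImplicit false
open Cfsg

namespace Cfsg.Agent.S5638

open Cfsg.Agent.Lib.Helper94 Cfsg.Agent.Lib.Helper94.Tens Cfsg.Agent.Lib.Helper94.U

/-- Over the field with 2 elements, for n = 2 n₂ ≥ 13, the stabiliser in SL_n of a tensor decomposition with factors of dimensions 2 and n₂ (the conjugate by any P of the Kronecker-product subgroup transported along any bijection Fin n ≃ Fin 2 × Fin n₂, intersected with SL_n) is not a maximal subgroup: some subgroup lies strictly between it and SL_n. -/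
theorem result {F : Type*} [Field F] [Fintype F] (n : ℕ) (hn : 13 ≤ n) (hq : Fintype.card F = 2) (n₂ : ℕ) (e : Fin n ≃ Fin 2 × Fin n₂) (P : Matrix.GeneralLinearGroup (Fin n) F) : ∃ K : Subgroup (Matrix.GeneralLinearGroup (Fin n) F), Cfsg.Geo.tensorProductSubgroup 2 n₂ e P ⊓ Cfsg.Geo.specialLinear (Fin n) F < K ∧ K < Cfsg.Geo.specialLinear (Fin n) F := by
  classical
  have h2 := card2_cases hq
  have h20 := card2_two hq
  have hcard : n = 2 * n₂ := by
    have := Fintype.card_congr e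
    simpa using this
  set j₀ : Fin n₂ := ⟨0, by omega⟩ with hj₀
  set j₁ : Fin n₂ := ⟨1, by omega⟩ with hj₁
  have hj : j₀ ≠ j₁ := by
    intro h; simp [hj₀, hj₁] at h
  set T := pt e P with hTdef
  set a := Pi.basisFun F (Fin 2) with ha
  have hU : Function.Injective (Th T a) := Th_basisFun_injective e P
  set ω := Lift e P ww with hωdef
  have hωT : ∀ x y, ω (T x y) = T (ww x) y := Lift_pt e P ww
  have hω : ∀ v, ω (ω v) = ω v + v := Lift_ww_sq e P
  have ha0 : ww (a 0) = a 1 := by simp only [ha, Pi.basisFun_apply]; exact ww_single0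
  have ha1 : ww (a 1) = a 0 + a 1 := by simp only [ha, Pi.basisFun_apply]; exact ww_single1
  set s₀ : Fin n₂ → F := Pi.single j₀ 1 with hs₀
  set s₁ : Fin n₂ → F := Pi.single j₁ 1 with hs₁
  have hs₁0 : s₁ ≠ 0 := by
    intro h; have := congrFun h j₁; simp [hs₁] at this
  -- coordinate functionals
  have hcoord : ∀ (p : Fin 2 × Fin n₂) x y,
      ((LinearMap.proj p : (Fin 2 × Fin n₂ → F) →ₗ[F] F) ∘ₗ ((TT e P).symm : (Fin n → F) →ₗ[F] _)) (T x y) =
        x p.1 * y p.2 := by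
    intro p x y
    rw [LinearMap.comp_apply, hTdef, pt_eq_TT, LinearEquiv.coe_coe, LinearEquiv.symm_apply_apply]
    rfl
  set l : Module.Dual F (Fin n → F) :=
    (LinearMap.proj (1, j₁) : (Fin 2 × Fin n₂ → F) →ₗ[F] F) ∘ₗ ((TT e P).symm : (Fin n → F) →ₗ[F] _) with hl
  have hlT : ∀ x y, l (T x y) = x 1 * y j₁ := hcoord (1, j₁)
  set μ : Module.Dual F (Fin n → F) :=
    (LinearMap.proj (0, j₀) : (Fin 2 × Fin n₂ → F) →ₗ[F] F) ∘ₗ ((TT e P).symm : (Fin n → F) →ₗ[F] _) with hμ
  have hμT : ∀ x y, μ (T x y) = x 0 * y j₀ := hcoord (0, j₀)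
  have a00 : a 0 0 = 1 := by simp [ha]
  have a01 : a 0 1 = 0 := by simp [ha]
  have a10 : a 1 0 = 0 := by simp [ha]
  have a11 : a 1 1 = 1 := by simp [ha]
  have s00 : s₀ j₀ = 1 := by simp [hs₀]
  have s01 : s₀ j₁ = 0 := by simp [hs₀, hj.symm]
  have s10 : s₁ j₀ = 0 := by simp [hs₁, hj]
  have s11 : s₁ j₁ = 1 := by simp [hs₁]
  set u := T (a 0) s₀ with hu
  have hωu : ω u = T (a 1) s₀ := by rw [hu, hωT, ha0]
  have hlu : l u = 0 := by rw [hu, hlT, a01, zero_mul]
  have hlωu : l (ω u) = 0 := by rw [hωu, hlT, s01, mul_zero]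
  set l' : Module.Dual F (Fin n → F) := l ∘ₗ (ω : (Fin n → F) →ₗ[F] (Fin n → F)) with hl'
  have hl'x : ∀ x, l' x = l (ω x) := fun x => rfl
  have hl'ωu : l' (ω u) = 0 := by rw [hl'x, hω, map_add, hlωu, hlu, add_zero]
  have ht : ∀ x, (tr l u hlu * tr l' (ω u) hl'ωu) x = x + l (ω x) • ω u + l x • u := by
    intro x
    rw [LinearEquiv.mul_apply, tr_apply, tr_apply, map_add, map_smul, hlωu, hl'x]
    simp
  refine sl_between n _ (fun φ => (glEquiv _ F).symm φ ∈ Cfsg.Geo.tensorProductSubgroup 2 n₂ e P)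
    (fun g => by simp) (invNorm ω) ?_ ?_ ?_
  · intro φ hst
    exact tensor_mem_invNorm h2 h20 e P φ hst
  · refine ⟨tr l u hlu * tr l' (ω u) hl'ωu, by rw [det_mul, tr_det, tr_det, one_mul], ?_, ?_⟩
    · apply mem_invNorm_of_comm
      intro x
      rw [ht, ht]
      simp only [map_add, map_smul, hω]
      module
    · intro hst
      obtain ⟨A, B, hAB⟩ := exists_of_symm_mem e P _ hst
      have h1 := hAB (a 0) s₁
      have h3 : (tr l u hlu * tr l' (ω u) hl'ωu) (T (a 0) s₁) = T (a 0) s₁ + T (a 1) s₀ := by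
        rw [ht, hωT, ha0, hlT, hlT, a11, a01, s11, hωu]
        simp
      obtain ⟨ξ, ξ', e1, e2⟩ := pure_parallel hU (i := 0) (j := 1) (by decide) (h1.symm.trans h3)
      have hm := minor_eq e1 e2 (LinearMap.proj j₁) (LinearMap.proj j₀)
      simp only [LinearMap.proj_apply, s00, s01, s10, s11] at hm
      simp at hm
  · have hμv : μ (T (a 0) s₁) = 0 := by rw [hμT, s10, mul_zero]
    refine ⟨tr μ (T (a 0) s₁) hμv, tr_det _ _ _, ?_⟩
    have hv0 : T (a 0) s₁ ≠ 0 := T_ne_zero hU 0 hs₁0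
    refine not_mem_invNorm hω (x := T (a 0) s₁) hv0 ?_ ?_ (y := T (a 0) s₀) ?_
    · rw [tr_apply, hμv, zero_smul, add_zero]
    · rw [tr_apply, hωT, ha0, hμT, a10, zero_mul, zero_smul, add_zero]
    · rw [tr_apply, tr_apply, hωT, ha0, hμT, hμT, a10, a00, s00, map_add, hωT, ha0]
      simp only [zero_mul, zero_smul, add_zero, one_mul, one_smul]
      intro h
      have h5 : ω (T (a 0) s₁) = 0 := by
        have := congrArg (fun z => z - T (a 1) s₀) h
        simpa using this.symm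
      exact hv0 (by simpa using h5)

end Cfsg.Agent.S5638
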