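import Cfsg.Statements.S5639
import Cfsg.Agent.Lib.Helper57.SubfF
import Cfsg.Agent.Lib.Helper94.Transfer

set_option autoImplicit false
open Cfsg

namespace Cfsg.Agent.S5639

open Cfsg.Agent.Lib.Helper57 Matrix

section aux

variable {ι : Type} [Fintype ι] [DecidableEq ι] {F : Type*} [Field F]

lemma mem_sl_iff (g : GL ι F) : g ∈ Cfsg.Geo.specialLinear ι F ↔ (g : Matrix ι ι F).det = 1 := by
  unfold Cfsg.Geo.specialLinear
  rw [MonoidHom.mem_ker, Units.ext_iff]
  rfl

lemma mem_range_iff (F₀ : Subfield F) (g : GL ι F) :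
    g ∈ (Matrix.GeneralLinearGroup.map (n := ι) (F₀.subtype : F₀ →+* F)).range ↔
      ∀ i j, (g : Matrix ι ι F) i j ∈ F₀ := by
  constructor
  · rintro ⟨h, rfl⟩ i j
    simp
  · intro h
    let A : Matrix ι ι F₀ := fun i j => ⟨(g : Matrix ι ι F) i j, h i j⟩
    have hA : A.map F₀.subtype = (g : Matrix ι ι F) := by
      ext i j; rfl
    have hdet : A.det ≠ 0 := by
      intro h0
      have h1 : (A.map F₀.subtype).det = F₀.subtype A.det := by
        rw [← RingHom.mapMatrix_apply, ← RingHom.map_det]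
      rw [hA, h0, map_zero] at h1
      have := (Matrix.isUnit_iff_isUnit_det _).1 g.isUnit
      rw [h1] at this
      exact not_isUnit_zero this
    refine ⟨Matrix.GeneralLinearGroup.mkOfDetNeZero A hdet, ?_⟩
    apply Units.ext
    exact hA

lemma mem_subf_iff (F₀ : Subfield F) (g : GL ι F) :
    g ∈ (Matrix.GeneralLinearGroup.map (n := ι) (F₀.subtype : F₀ →+* F)).range ⊔
      Cfsg.Geo.scalars ι F ↔ SubfSmall.RatScal F₀ g := by
  constructor
  · intro hg
    rw [Subgroup.mem_sup_of_normal_right] at hg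
    obtain ⟨y, hy, z, hz, rfl⟩ := hg
    rw [mem_range_iff] at hy
    rw [Cfsg.Geo.mem_scalars_iff] at hz
    obtain ⟨c, hc⟩ := hz
    refine ⟨(c : F)⁻¹, inv_ne_zero c.ne_zero, fun i j => ?_⟩
    rw [Units.val_mul, hc, Matrix.mul_smul, Matrix.mul_one, Matrix.smul_apply, smul_eq_mul,
      inv_mul_cancel_left₀ c.ne_zero]
    exact hy i j
  · rintro ⟨c, hc, h⟩
    let z : GL ι F := Units.map (Matrix.scalar ι : F →+* Matrix ι ι F).toMonoidHom (Units.mk0 c hc)
    have hz : z ∈ Cfsg.Geo.scalars ι F := ⟨_, rfl⟩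
    have hzv : (z : Matrix ι ι F) = c • (1 : Matrix ι ι F) := by
      simp [z, Matrix.smul_one_eq_diagonal]
    have hy : g * z ∈ (Matrix.GeneralLinearGroup.map (n := ι) (F₀.subtype : F₀ →+* F)).range := by
      rw [mem_range_iff]
      intro i j
      rw [Units.val_mul, hzv, Matrix.mul_smul, Matrix.mul_one, Matrix.smul_apply, smul_eq_mul]
      exact h i j
    have : g = (g * z) * z⁻¹ := by group
    rw [this]
    exact Subgroup.mul_mem_sup hy (Subgroup.inv_mem _ hz)

end aux

theorem base {F : Type*} [Field F] [Fintype F] (n : ℕ) (hn : 13 ≤ n) (F₀ : Subfield F) (r : ℕ)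
    (hr : r.Prime) (hcard : Fintype.card F = Nat.card F₀ ^ r) :
    Cfsg.Geo.IsMaximalIn (Cfsg.Geo.specialLinear (Fin n) F)
      (((Matrix.GeneralLinearGroup.map (n := Fin n) (F₀.subtype : F₀ →+* F)).range ⊔
        Cfsg.Geo.scalars (Fin n) F) ⊓ Cfsg.Geo.specialLinear (Fin n) F) := by
  have hc : Nat.card F = Nat.card F₀ ^ r := by rw [Nat.card_eq_fintype_card]; exact hcard
  have h4 : 4 ≤ Fintype.card (Fin n) := by rw [Fintype.card_fin]; omega
  -- an element outside the subfield
  obtain ⟨t, ht⟩ : ∃ t : F, t ∉ F₀ := by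
    by_contra hcon
    push Not at hcon
    have htop : F₀ = ⊤ := by
      ext x; simp [hcon x]
    have h1 : Nat.card F₀ = Nat.card F := by
      rw [htop]
      exact Nat.card_congr (Subfield.topEquiv (K := F)).toEquiv
    rw [h1] at hc
    have h2 : 2 ≤ Nat.card F := by
      have := Finite.one_lt_card (α := F)
      omega
    have h3 : Nat.card F ^ 1 = Nat.card F ^ r := by rw [pow_one]; exact hc
    have := Nat.pow_right_injective h2 h3
    exact hr.one_lt.ne this
  have i0 : Fin n := ⟨0, by omega⟩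
  refine ⟨?_, ?_⟩
  · refine lt_of_le_of_ne inf_le_right ?_
    intro heq
    let i : Fin n := ⟨0, by omega⟩
    let j : Fin n := ⟨1, by omega⟩
    have hij : i ≠ j := by
      intro h
      have := congrArg Fin.val h
      simp [i, j] at this
    have hmem : tv (t • (bv i : Fin n → F)) (bv j) ∈ Cfsg.Geo.specialLinear (Fin n) F := by
      rw [mem_sl_iff]; exact tv_det (el_dot hij t)
    rw [← heq] at hmem
    have h1 := (mem_subf_iff F₀ _).1 hmem.1
    obtain ⟨c, hc0, h⟩ := h1
    have hii := h i i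
    have hijm := h i j
    rw [tv_val (el_dot hij t)] at hii hijm
    simp only [Matrix.add_apply, vecMulVec_apply, Pi.smul_apply, smul_eq_mul, bv_apply,
      Matrix.one_apply] at hii hijm
    simp [hij] at hii hijm
    apply ht
    have := F₀.mul_mem (F₀.inv_mem hii) hijm
    rwa [inv_mul_cancel_left₀ hc0] at this
  · intro M hHM hMK
    have hX : SubfOver F₀ M := by
      refine ⟨fun x hx => (mem_sl_iff x).1 (hMK hx), fun g hg hrat => hHM ⟨?_, (mem_sl_iff g).2 hg⟩⟩
      exact Subgroup.mem_sup_left ((mem_range_iff F₀ g).2 hrat)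
    rcases hX.dichotomy h4 hr hc with h | h
    · right
      exact le_antisymm hMK (fun g hg => h g ((mem_sl_iff g).1 hg))
    · left
      exact le_antisymm (fun g hg => ⟨(mem_subf_iff F₀ g).2 (h g hg), hMK hg⟩) hHM

/-- For a finite field F, a subfield F₀ with |F| = |F₀| ^ r for a prime r, and n ≥ 13, the subfield group (the conjugate by any P of the product of GL_n(F₀) with the non-zero scalars of F, intersected with SL_n(F)) is a maximal subgroup of SL_n(F). -/
theorem result {F : Type*} [Field F] [Fintype F] (n : ℕ) (hn : 13 ≤ n) (F₀ : Subfield F) (r : ℕ) (hr : r.Prime) (hcard : Fintype.card F = Nat.card F₀ ^ r) (P : Matrix.GeneralLinearGroup (Fin n) F) : Cfsg.Geo.IsMaximalIn (Cfsg.Geo.specialLinear (Fin n) F) (Cfsg.Geo.subfieldSubgroup F₀ P ⊓ Cfsg.Geo.specialLinear (Fin n) F) := by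
  have hb := Cfsg.Agent.Lib.Helper94.isMaximalIn_comap (MulAut.conj P).symm (base n hn F₀ r hr hcard)
  have hsl : (Cfsg.Geo.specialLinear (Fin n) F).comap (MulAut.conj P).symm.toMonoidHom =
      Cfsg.Geo.specialLinear (Fin n) F := by
    ext g
    rw [Subgroup.mem_comap, mem_sl_iff, mem_sl_iff]
    have hP : (P : Matrix (Fin n) (Fin n) F).det ≠ 0 := by
      have := (Matrix.isUnit_iff_isUnit_det _).1 P.isUnit
      exact this.ne_zero
    simp [MulAut.conj_symm_apply, Matrix.det_mul, mul_comm, mul_assoc, inv_mul_cancel_left₀ hP]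
  rw [Subgroup.comap_inf, hsl] at hb
  unfold Cfsg.Geo.subfieldSubgroup
  rw [Subgroup.map_equiv_eq_comap_symm']
  exact hb

end Cfsg.Agent.S5639
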