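import Cfsg.Statements.S5642
import Cfsg.Agent.Lib.Helper94.SympWrap
import Cfsg.Agent.Lib.Helper94.FormB
import Cfsg.Agent.Lib.Helper94.SLGen

set_option autoImplicit false
open Cfsg

namespace Cfsg.Agent.S5642

open Cfsg.Agent.Lib.Helper94

/-- For a finite field F and n ≥ 13, let f be a non-degenerate symplectic form on F^n (so n is even). Then the elements of SL_n(F) that are similarities of f (f(gu, gv) = c f(u, v) for a non-zero scalar c depending on g) form a maximal subgroup of SL_n(F). -/
theorem result {F : Type*} [Field F] [Fintype F] (n : ℕ) (hn : 13 ≤ n) (f : (Fin n → F) → (Fin n → F) → F) (hf : Cfsg.Geo.IsSymplecticForm f) : Cfsg.Geo.IsMaximalIn (Cfsg.Geo.specialLinear (Fin n) F) (Cfsg.Geo.similarityGroup f ⊓ Cfsg.Geo.specialLinear (Fin n) F) := by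
  have hA : (formB f hf.bilinear).IsAlt := fun v => hf.alternating v
  have hN : (formB f hf.bilinear).Nondegenerate := formB_nondegenerate f hf.bilinear hf.nondegenerate
  have hdim : 3 ≤ Module.finrank F (Fin n → F) := by
    rw [Module.finrank_fintype_fun_eq_card, Fintype.card_fin]; omega
  haveI : Nontrivial (Fin n) := Fin.nontrivial_iff_two_le.2 (by omega)
  refine isMaximalIn_of_core _ _ inf_le_right ?_ ?_
  · obtain ⟨a, b, hab, hb0, ha⟩ := exists_ortho_indep hA hN hdim
    refine ⟨(glEquiv _ F).symm (tv _ a b hab), ?_, ?_⟩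
    · rw [symm_mem_specialLinear_iff]; exact tv_det _ _ _ _
    · intro h
      have h1 := (mem_similarityGroup_iff f hf.bilinear _).1 h.1
      rw [MulEquiv.apply_symm_apply] at h1
      exact tv_not_isSimil hA hN a b hab hb0 ha h1
  · intro M hHM hMK g0 hg0 hg0H k hk
    have hG : ∀ v c, st (formB f hf.bilinear) hA v c ∈ M.map (glEquiv _ F).toMonoidHom := by
      intro v c
      refine ⟨(glEquiv _ F).symm (st _ hA v c), hHM (Subgroup.mem_inf.2 ⟨?_, ?_⟩),
        MulEquiv.apply_symm_apply _ _⟩
      · rw [mem_similarityGroup_iff f hf.bilinear, MulEquiv.apply_symm_apply]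
        exact ⟨1, one_ne_zero, fun u w => by rw [st_isIsom, one_mul]⟩
      · rw [symm_mem_specialLinear_iff]; exact tv_det _ _ _ _
    have hg0S : ¬ IsSimil (formB f hf.bilinear) (glEquiv _ F g0) := fun h =>
      hg0H (Subgroup.mem_inf.2 ⟨(mem_similarityGroup_iff f hf.bilinear _).2 h, hMK hg0⟩)
    obtain ⟨k', hk', hkk⟩ := mem_of_det_eq_one (M.map (glEquiv _ F).toMonoidHom)
      (core_SL_transvection hA hN _ hG (glEquiv _ F g0) ⟨g0, hg0, rfl⟩ hg0S) k
      ((mem_specialLinear_iff k).1 hk)
    have : k' = k := (glEquiv _ F).injective hkk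
    exact this ▸ hk'

end Cfsg.Agent.S5642
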