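import Cfsg.Statements.S5643
import Cfsg.Agent.Lib.Helper94.SympWrap
import Cfsg.Agent.Lib.Helper94.FormB
import Cfsg.Agent.Lib.Helper94.SLGen
import Cfsg.Agent.Lib.Helper94.HermWrap


set_option autoImplicit false
open Cfsg

namespace Cfsg.Agent.S5643

open Cfsg.Agent.Lib.Helper94

/-- For a finite field F and n ≥ 13, let σ be a field automorphism of F of order two and f a non-degenerate unitary form on F^n with respect to σ. Then the elements of SL_n(F) that are similarities of f form a maximal subgroup of SL_n(F). -/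
theorem result {F : Type*} [Field F] [Fintype F] (n : ℕ) (hn : 13 ≤ n) (σ : F ≃+* F) (f : (Fin n → F) → (Fin n → F) → F) (hf : Cfsg.Geo.IsUnitaryForm σ f) : Cfsg.Geo.IsMaximalIn (Cfsg.Geo.specialLinear (Fin n) F) (Cfsg.Geo.similarityGroup f ⊓ Cfsg.Geo.specialLinear (Fin n) F) := by
  have H := U.hermB_hform σ f hf
  have hdim : Module.finrank F (Fin n → F) = n := by
    rw [Module.finrank_fintype_fun_eq_card, Fintype.card_fin]
  haveI : Nontrivial (Fin n) := Fin.nontrivial_iff_two_le.2 (by omega)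
  refine isMaximalIn_of_core _ _ inf_le_right ?_ ?_
  · obtain ⟨a, b, hab, hb0, ha⟩ := U.exists_ortho_indep H (by omega)
    refine ⟨(glEquiv _ F).symm (tr (U.hermB σ f hf b) a hab), ?_, ?_⟩
    · rw [symm_mem_specialLinear_iff]; exact tr_det _ _ _
    · intro h
      have h1 := (U.mem_similarityGroup_iff σ f hf _).1 h.1
      rw [MulEquiv.apply_symm_apply] at h1
      exact U.tr_not_simil H a b hab hb0 ha h1
  · intro M hHM hMK g0 hg0 hg0H k hk
    have hG : ∀ g : (Fin n → F) ≃ₗ[F] (Fin n → F), U.UIsom (U.hermB σ f hf) g →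
        LinearMap.det (g : (Fin n → F) →ₗ[F] (Fin n → F)) = 1 → g ∈ M.map (glEquiv _ F).toMonoidHom := by
      intro g hg hdet
      refine ⟨(glEquiv _ F).symm g, hHM (Subgroup.mem_inf.2 ⟨?_, ?_⟩),
        MulEquiv.apply_symm_apply _ _⟩
      · rw [U.mem_similarityGroup_iff σ f hf, MulEquiv.apply_symm_apply]
        exact ⟨1, one_ne_zero, fun u w => by rw [hg, one_mul]⟩
      · rw [symm_mem_specialLinear_iff]; exact hdet
    have hg0S : ¬ U.USimil (U.hermB σ f hf) (glEquiv _ F g0) := fun h =>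
      hg0H (Subgroup.mem_inf.2 ⟨(U.mem_similarityGroup_iff σ f hf _).2 h, hMK hg0⟩)
    obtain ⟨k', hk', hkk⟩ := mem_of_det_eq_one (M.map (glEquiv _ F).toMonoidHom)
      (U.core_SL_transvection H (by omega) _ hG (glEquiv _ F g0) ⟨g0, hg0, rfl⟩ hg0S) k
      ((mem_specialLinear_iff k).1 hk)
    have : k' = k := (glEquiv _ F).injective hkk
    exact this ▸ hk'

end Cfsg.Agent.S5643
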