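import Cfsg.Statements.S5646
import Cfsg.Agent.Lib.Helper94.SympWrap
import Cfsg.Agent.Lib.Helper94.SympMax

set_option autoImplicit false
open Cfsg

namespace Cfsg.Agent.S5646

/-- For a finite field F and m ≥ 7, in the symplectic group Sp_2m(F) of the standard alternating form on F^(2m), the stabiliser of any non-zero subspace W on which the form is non-degenerate and with dim W < m is a maximal subgroup. -/
theorem result {F : Type*} [Field F] [Fintype F] (m : ℕ) (hm : 7 ≤ m) (W : Submodule F (Fin m ⊕ Fin m → F)) (hW0 : W ≠ ⊥) (hW : Cfsg.Geo.IsNondegenerateOn (Cfsg.sympForm m F) W) (hdim : Module.finrank F W < m) : Cfsg.Geo.IsMaximalIn (Cfsg.spGL m F) (Cfsg.Geo.subspaceStabilizer W ⊓ Cfsg.spGL m F) := by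
  open Cfsg.Agent.Lib.Helper94 in
  have hA := sympB_isAlt (F := F) m
  open Cfsg.Agent.Lib.Helper94 in
  have hN := sympB_nondegenerate (F := F) m
  open Cfsg.Agent.Lib.Helper94 in
  have hW' : ∀ w ∈ W, w ≠ 0 → ∃ x ∈ W, sympB m F x w ≠ 0 := fun w hw hw0 => by
    obtain ⟨⟨x, hx, hxw⟩, _⟩ := hW w hw hw0
    exact ⟨x, hx, by rw [sympB_apply]; exact hxw⟩
  have hdim' : 2 * Module.finrank F W < Module.finrank F (Fin m ⊕ Fin m → F) := by
    rw [Module.finrank_fintype_fun_eq_card, Fintype.card_sum, Fintype.card_fin]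
    omega
  open Cfsg.Agent.Lib.Helper94 in
  exact sp_maximal_of_core m _ (fun φ => ∀ w ∈ W, φ w ∈ W) (fun g => mem_subspaceStabilizer_iff g W)
    (exists_isIsom_not_stab_of_nondeg hA hN W hW0 hW' hdim')
    (fun G hP φ0 h0 h0I h0W => core_nondeg hA hN W hW' hdim' G hP φ0 h0 h0I h0W)

end Cfsg.Agent.S5646
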