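import Cfsg.Statements.S5647
import Cfsg.Agent.Lib.Helper94.SympDecompWrap

set_option autoImplicit false
open Cfsg

namespace Cfsg.Agent.S5647

open Cfsg.Agent.Lib.Helper94

/-- For a finite field F with q elements and m ≥ 7, let D be a decomposition of F^(2m) into t ≥ 2 pairwise orthogonal subspaces of equal dimension k on each of which the standard alternating form is non-degenerate, spanning F^(2m). Unless k = 2 and q = 2, the elements of Sp_2m(F) permuting the members of D form a maximal subgroup of Sp_2m(F). -/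
theorem result {F : Type*} [Field F] [Fintype F] (m : ℕ) (hm : 7 ≤ m) {t : ℕ} (k : ℕ) (D : Fin t → Submodule F (Fin m ⊕ Fin m → F)) (hD : Cfsg.Geo.IsNondegenerateMDecomposition (Cfsg.sympForm m F) k D) (hex : ¬ (k = 2 ∧ Fintype.card F = 2)) : Cfsg.Geo.IsMaximalIn (Cfsg.spGL m F) (Cfsg.Geo.decompositionStabilizer D ⊓ Cfsg.spGL m F) := by
  have hA := sympB_isAlt (F := F) m
  have hN := sympB_nondegenerate (F := F) m
  have hO := orthDec_of hD
  have hk : k ≠ 2 ∨ ∃ r : F, r ≠ 0 ∧ r ≠ -1 := by
    by_cases hk2 : k = 2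
    · right
      exact exists_ne_zero_ne_neg_one (fun hc => hex ⟨hk2, hc⟩)
    · exact Or.inl hk2
  exact sp_maximal_of_core m _ (DecStab D) (mem_decompositionStabilizer_iff D)
    (hO.exists_isIsom_not_stab hA)
    (fun G hP φ0 h0 h0I h0S => hO.core hA hN (hO.hex_of hA hk) G hP φ0 h0 h0I h0S)

end Cfsg.Agent.S5647
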