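import Cfsg.Statements.S5648
import Cfsg.Agent.Lib.Helper94.SympF2


set_option autoImplicit false
open Cfsg

namespace Cfsg.Agent.S5648

open Cfsg.Agent.Lib.Helper94

/-- Over the field with 2 elements and for m ≥ 7, let D be a decomposition of F^(2m) into t pairwise orthogonal non-degenerate 2-dimensional subspaces for the standard alternating form (t = m ≥ 2). Then the elements of Sp_2m(2) permuting the members of D form a subgroup that is not maximal: some subgroup lies strictly between it and Sp_2m(2). -/
theorem result {F : Type*} [Field F] [Fintype F] (m : ℕ) (hm : 7 ≤ m) (hq : Fintype.card F = 2) {t : ℕ} (D : Fin t → Submodule F (Fin m ⊕ Fin m → F)) (hD : Cfsg.Geo.IsNondegenerateMDecomposition (Cfsg.sympForm m F) 2 D) : ∃ K : Subgroup (Matrix.GeneralLinearGroup (Fin m ⊕ Fin m) F), Cfsg.Geo.decompositionStabilizer D ⊓ Cfsg.spGL m F < K ∧ K < Cfsg.spGL m F := by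
  classical
  have hA := sympB_isAlt (F := F) m
  have h2 : ∀ x : F, x = 0 ∨ x = 1 := by
    intro x
    by_contra hcon
    push Not at hcon
    have h3 : ({0, 1, x} : Finset F).card = 3 :=
      Finset.card_eq_three.2 ⟨0, 1, x, zero_ne_one, hcon.1.symm, hcon.2.symm, rfl⟩
    have := Finset.card_le_univ ({0, 1, x} : Finset F)
    rw [h3, hq] at this
    omega
  have horth : ∀ i j, i ≠ j → ∀ u ∈ D i, ∀ v ∈ D j, sympB m F u v = 0 := by
    intro i j hij u hu v hv
    rw [sympB_apply]
    exact hD.orthogonal i j hij u hu v hv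
  have hnd : ∀ i, ∀ w ∈ D i, (∀ z ∈ D i, sympB m F z w = 0) → w = 0 := by
    intro i w hw hz
    by_contra h0
    obtain ⟨x, hx, hne⟩ := (hD.nondegenerate i w hw h0).1
    exact hne (by rw [← sympB_apply]; exact hz x hx)
  have hbasis := fun i => symp_plane_basis (sympB m F) hA (D i) (hnd i) (hD.decomp.finrank_eq i)
  choose a ha b hb hab hsp using hbasis
  have ht : 3 ≤ t := by
    by_contra hlt
    have h2t := hD.decomp.two_le
    obtain rfl : t = 2 := by omega
    have htop : (⊤ : Submodule F (Fin m ⊕ Fin m → F)) ≤ D 0 ⊔ D 1 := by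
      rw [← hD.decomp.iSup_eq_top]
      refine iSup_le fun i => ?_
      fin_cases i
      · exact le_sup_left
      · exact le_sup_right
    have h1 := Submodule.finrank_mono htop
    have h3 := Submodule.finrank_add_le_finrank_add_finrank (D 0) (D 1)
    rw [hD.decomp.finrank_eq, hD.decomp.finrank_eq] at h3
    rw [finrank_top, Module.finrank_fintype_fun_eq_card] at h1
    simp at h1
    omega
  have h01 : (⟨0, by omega⟩ : Fin t) ≠ ⟨1, by omega⟩ := by
    intro h; simp at h
  have h02 : (⟨0, by omega⟩ : Fin t) ≠ ⟨2, by omega⟩ := by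
    intro h; simp at h
  have h12 : (⟨1, by omega⟩ : Fin t) ≠ ⟨2, by omega⟩ := by
    intro h; simp at h
  exact sp_between m _ (DecStab D) (fun g => mem_decompositionStabilizer_iff D g)
    (funStab (oddQ (sympB m F) D))
    (fun φ hI hs => decStab_mem_funStab _ D hI hs)
    (exists_oddQ_not_decStab _ hA D h2 a b ha hb hab hsp horth _ _ _ h01 h02 h12)
    (exists_not_oddQ _ hA D h2 a b ha hb hab hsp horth _ _ h01)

end Cfsg.Agent.S5648
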