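import Cfsg.Statements.S5649
import Cfsg.Agent.Lib.Helper13.LagPair
import Cfsg.Agent.Lib.Helper94.SympDecompWrap

set_option autoImplicit false
open Cfsg Cfsg.Agent.Lib.Helper13 Cfsg.Agent.Lib.Helper94

namespace Cfsg.Agent.S5649

/-- For a finite field F of odd order and m ≥ 7, let D be a decomposition of F^(2m) into two complementary subspaces of dimension m on each of which the standard alternating form vanishes identically. Then the elements of Sp_2m(F) preserving or interchanging the two subspaces form a maximal subgroup of Sp_2m(F). -/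
theorem result {F : Type*} [Field F] [Fintype F] (m : ℕ) (hm : 7 ≤ m) (hodd : Odd (Fintype.card F)) (D : Fin 2 → Submodule F (Fin m ⊕ Fin m → F)) (hD : Cfsg.Geo.IsMDecomposition m D) (hts : ∀ i, Cfsg.Geo.IsTotallySingularFor (Cfsg.sympForm m F) (D i)) : Cfsg.Geo.IsMaximalIn (Cfsg.spGL m F) (Cfsg.Geo.decompositionStabilizer D ⊓ Cfsg.spGL m F) := by
  have hA := sympB_isAlt (F := F) m
  have hN := sympB_nondegenerate (F := F) m
  have h01 : (0 : Fin 2) ≠ 1 := by decide
  have hL : LagPair (sympB m F) (D 0) (D 1) := by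
    refine ⟨fun u hu v hv => ?_, fun u hu v hv => ?_, ⟨hD.indep.pairwiseDisjoint h01, ?_⟩⟩
    · rw [sympB_apply]; exact hts 0 u hu v hv
    · rw [sympB_apply]; exact hts 1 u hu v hv
    · rw [codisjoint_iff, eq_top_iff, ← hD.iSup_eq_top]
      refine iSup_le fun i => ?_
      fin_cases i
      · exact le_sup_left
      · exact le_sup_right
  have h2 : (2 : F) ≠ 0 := by
    apply Ring.two_ne_zero
    intro hc
    rw [FiniteField.even_card_iff_char_two] at hc
    rw [Nat.odd_iff] at hodd
    omega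
  have hf0 := hD.finrank_eq 0
  have hf1 := hD.finrank_eq 1
  have hS : ∀ g, g ∈ Cfsg.Geo.decompositionStabilizer D ↔ PairStab (D 0) (D 1) (glEquiv _ F g) := by
    intro g
    rw [mem_decompositionStabilizer_iff]
    constructor
    · rintro ⟨σ, hσ⟩
      have hmem : ∀ i, ∀ w ∈ D i, glEquiv _ F g w ∈ D (σ i) := by
        intro i w hw
        rw [← hσ i]
        exact Submodule.mem_map_of_mem hw
      have hcases : (σ 0 = 0 ∧ σ 1 = 1) ∨ (σ 0 = 1 ∧ σ 1 = 0) := by
        have hinj : σ 0 ≠ σ 1 := fun h => h01 (σ.injective h)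
        generalize σ 0 = x at hinj
        generalize σ 1 = y at hinj
        fin_cases x <;> fin_cases y <;> simp_all
      rcases hcases with ⟨h0, h1⟩ | ⟨h0, h1⟩
      · left
        exact ⟨fun w hw => h0 ▸ hmem 0 w hw, fun w hw => h1 ▸ hmem 1 w hw⟩
      · right
        exact ⟨fun w hw => h0 ▸ hmem 0 w hw, fun w hw => h1 ▸ hmem 1 w hw⟩
    · rintro (⟨h0, h1⟩ | ⟨h0, h1⟩)
      · refine ⟨1, fun i => ?_⟩
        fin_cases i
        · exact map_eq_of_forall_mem' _ _ _ rfl h0
        · exact map_eq_of_forall_mem' _ _ _ rfl h1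
      · refine ⟨Equiv.swap 0 1, fun i => ?_⟩
        fin_cases i
        · exact map_eq_of_forall_mem' _ _ _ (hf0.trans hf1.symm) h0
        · exact map_eq_of_forall_mem' _ _ _ (hf1.trans hf0.symm) h1
  exact sp_maximal_of_core m _ (PairStab (D 0) (D 1)) hS
    (hL.exists_isIsom_not_stab hA hN (by omega))
    (fun G hP φ0 h0 h0I h0S => hL.core hA hN h2 (by omega) (hf0.trans hf1.symm) G hP φ0 h0 h0I h0S)

end Cfsg.Agent.S5649
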