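import Cfsg.Statements.S5652
import Cfsg.Agent.Lib.Helper94.SympWrap
import Cfsg.Agent.Lib.Helper94.QuadWrap

set_option autoImplicit false
open Cfsg

namespace Cfsg.Agent.S5652

open Cfsg.Agent.Lib.Helper94

/-- For a finite field F of characteristic two and m ≥ 7, let Q be a non-degenerate quadratic form on F^(2m) whose polar form is the standard alternating form. Then the elements of Sp_2m(F) that are similarities of Q (they are exactly the isometries of Q) form a maximal subgroup of Sp_2m(F). -/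
theorem result {F : Type*} [Field F] [Fintype F] (m : ℕ) (hm : 7 ≤ m) (heven : ¬ Odd (Fintype.card F)) (Q : (Fin m ⊕ Fin m → F) → F) (hQ : Cfsg.Geo.IsNondegenerateQuadraticForm Q) (hpol : ∀ u v, QuadraticMap.polar Q u v = Cfsg.sympForm m F u v) : Cfsg.Geo.IsMaximalIn (Cfsg.spGL m F) (Cfsg.Geo.quadSimilarityGroup Q ⊓ Cfsg.spGL m F) := by
  have hch := charTwo_of_not_odd heven
  haveI : CharP F 2 := ringChar.of_eq hch
  have hsq := exists_sq_of_charTwo hch
  have hBeq : pB (quadOf Q hQ) = sympB m F := by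
    ext x y
    change pB (quadOf Q hQ) _ _ = sympB m F _ _
    rw [pB_quadOf, hpol, sympB_apply]
  have hN := pB_quadOf_nondegenerate Q hQ
  have hA : (pB (quadOf Q hQ)).IsAlt := polarB_isAlt _
  have hdim : 3 ≤ Module.finrank F (Fin m ⊕ Fin m → F) := by
    rw [Module.finrank_fintype_fun_eq_card, Fintype.card_sum, Fintype.card_fin]
    omega
  refine sp_maximal_of_core m _ (fun φ => ∃ c : Fˣ, ∀ v, Q (φ v) = (c : F) * Q v)
    (mem_quadSimilarityGroup_iff Q) ?_ ?_
  · obtain ⟨g, hgI, x, hx, hgx⟩ := exists_isIsom_not_Q (quadOf Q hQ) hA hN hsq hdim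
    refine ⟨g, hBeq ▸ hgI, ?_⟩
    rintro ⟨c, hc⟩
    apply hgx
    rw [quadOf_apply] at hx ⊢
    rw [hc, hx, mul_zero]
  · intro G hP φ0 h0 h0I h0S
    rw [← hBeq] at hP h0I ⊢
    exact core_quad_sp (quadOf Q hQ) hN hsq hdim G
      (fun g hg => hP g (isIsom_of_Q _ g hg) ⟨1, fun v => by
        have := hg v
        rw [quadOf_apply, quadOf_apply] at this
        rw [this, Units.val_one, one_mul]⟩) φ0 h0 h0I
      (fun h => h0S ⟨1, fun v => by
        have := h v
        rw [quadOf_apply, quadOf_apply] at this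
        rw [this, Units.val_one, one_mul]⟩)

end Cfsg.Agent.S5652
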