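import Cfsg.Statements.S5653
import Cfsg.Agent.Lib.Helper94.HermStd
import Cfsg.Agent.Lib.Helper94.HermPar


set_option autoImplicit false
open Cfsg

namespace Cfsg.Agent.S5653

open Cfsg.Agent.Lib.Helper94

/-- Let F be the field with q² elements and n ≥ 13, and let SU_n(q) be the group of matrices of determinant one preserving the standard unitary form Σ u_i v_i^q on F^n (the intersection of the unitary group GU_n with the kernel of the determinant). The elements of SU_n(q) stabilising a non-zero subspace on which the form vanishes identically form a maximal subgroup of SU_n(q). -/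
theorem result {F : Type*} [Field F] [Fintype F] (n q : ℕ) (hF : Fintype.card F = q ^ 2) (hn : 13 ≤ n) (W : Submodule F (Fin n → F)) (hW0 : W ≠ ⊥) (hW : Cfsg.Geo.IsTotallySingularFor (Cfsg.hermForm n F q) W) : Cfsg.Geo.IsMaximalIn (Cfsg.GU n F q ⊓ Cfsg.Geo.specialLinear (Fin n) F) (Cfsg.Geo.subspaceStabilizer W ⊓ (Cfsg.GU n F q ⊓ Cfsg.Geo.specialLinear (Fin n) F)) := by
  have H := U.stdB_hform (n := n) hF
  have hW' : ∀ u ∈ W, ∀ v ∈ W, U.stdB n hF u v = 0 := fun u hu v hv => by
    rw [U.stdB_apply]; exact hW v hv u hu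
  exact U.su_maximal_of_core hF _ (fun φ => ∀ w ∈ W, φ w ∈ W)
    (fun g => mem_subspaceStabilizer_iff g W)
    (U.par_exists_not_stab H W hW' hW0)
    (fun G hP φ0 h0 h0I _ h0S => U.par_core H W hW' G hP (by rw [U.finrank_std]; omega) φ0 h0 h0I h0S)

end Cfsg.Agent.S5653
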