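import Cfsg.Statements.S5654
import Cfsg.Agent.Lib.Helper94.HermStd
import Cfsg.Agent.Lib.Helper94.HermND2


set_option autoImplicit false
open Cfsg

namespace Cfsg.Agent.S5654

open Cfsg.Agent.Lib.Helper94

/-- Let F be the field with q² elements and n ≥ 13. In SU_n(q) (determinant-one isometries of the standard unitary form on F^n) the stabiliser of a non-zero subspace W on which the form is non-degenerate and with 2 dim W < n is a maximal subgroup. -/
theorem result {F : Type*} [Field F] [Fintype F] (n q : ℕ) (hF : Fintype.card F = q ^ 2) (hn : 13 ≤ n) (W : Submodule F (Fin n → F)) (hW0 : W ≠ ⊥) (hW : Cfsg.Geo.IsNondegenerateOn (Cfsg.hermForm n F q) W) (hdim : 2 * Module.finrank F W < n) : Cfsg.Geo.IsMaximalIn (Cfsg.GU n F q ⊓ Cfsg.Geo.specialLinear (Fin n) F) (Cfsg.Geo.subspaceStabilizer W ⊓ (Cfsg.GU n F q ⊓ Cfsg.Geo.specialLinear (Fin n) F)) := by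
  have H := U.stdB_hform (n := n) hF
  have hW' : U.ND (U.stdB n hF) W := by
    intro w hw hz
    by_contra h0
    obtain ⟨x, hx, hne⟩ := (hW w hw h0).2
    exact hne (by rw [← U.stdB_apply hF]; exact hz x hx)
  have hfr : Module.finrank F (Fin n → F) = n := U.finrank_std
  exact U.su_maximal_of_core hF _ (fun φ => ∀ w ∈ W, φ w ∈ W)
    (fun g => mem_subspaceStabilizer_iff g W)
    (U.nd_exists_not_stab H W hW' (by omega) hW0)
    (fun G hP φ0 h0 h0I _ h0S => U.nd_core H W hW' (by omega) G hP (by omega) φ0 h0 h0I h0S)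

end Cfsg.Agent.S5654
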