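import Cfsg.Statements.S5656
import Cfsg.Agent.Lib.Helper94.HermF4
import Cfsg.Agent.Lib.Helper94.SympDecompWrap


set_option autoImplicit false
open Cfsg

namespace Cfsg.Agent.S5656

open Cfsg.Agent.Lib.Helper94

/-- Let F be the field with 4 elements (q = 2) and n ≥ 13. Let D be a decomposition of F^n into t pairwise orthogonal 2-dimensional subspaces, each non-degenerate for the standard unitary form Σ u_i v_i². Then the elements of SU_n(2) permuting the members of D form a subgroup that is not maximal: some subgroup lies strictly between it and SU_n(2). -/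
theorem result {F : Type*} [Field F] [Fintype F] (n : ℕ) (hF : Fintype.card F = 4) (hn : 13 ≤ n) {t : ℕ} (D : Fin t → Submodule F (Fin n → F)) (hD : Cfsg.Geo.IsNondegenerateMDecomposition (Cfsg.hermForm n F 2) 2 D) : ∃ K : Subgroup (Matrix.GeneralLinearGroup (Fin n) F), Cfsg.Geo.decompositionStabilizer D ⊓ (Cfsg.GU n F 2 ⊓ Cfsg.Geo.specialLinear (Fin n) F) < K ∧ K < (Cfsg.GU n F 2 ⊓ Cfsg.Geo.specialLinear (Fin n) F) := by
  have hF' : Fintype.card F = 2 ^ 2 := by rw [hF]; norm_num
  have H := U.stdB_hform (n := n) hF'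
  have h4 := U.f4Like hF'
  have horth : ∀ i j, i ≠ j → ∀ u ∈ D i, ∀ v ∈ D j, U.stdB n hF' u v = 0 := by
    intro i j hij u hu v hv
    rw [U.stdB_apply]
    exact hD.orthogonal j i hij.symm v hv u hu
  have hnd : ∀ i, U.ND (U.stdB n hF') (D i) := by
    intro i w hw hz
    by_contra h0
    obtain ⟨x, hx, hne⟩ := (hD.nondegenerate i w hw h0).2
    exact hne (by rw [← U.stdB_apply hF']; exact hz x hx)
  have ht := hD.decomp.two_le
  have h01 : (⟨0, by omega⟩ : Fin t) ≠ ⟨1, by omega⟩ := by
    intro h
    simp at h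
  exact U.su_between hF' _ (DecStab D) (fun g => mem_decompositionStabilizer_iff D g)
    (U.setStab (U.frameSet (U.stdB n hF') D))
    (fun φ hI _ hs => U.decStab_mem_setStab D hI hs)
    (U.exists_swap_frame D H h4 horth hnd hD.decomp.finrank_eq _ _ h01)
    (U.exists_not_frame D H h4 horth hnd hD.decomp.finrank_eq _ _ h01)

end Cfsg.Agent.S5656
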