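import Cfsg.Statements.S5657
import Cfsg.Agent.Lib.Helper94.HermStd
import Cfsg.Agent.Lib.Helper94.HermLag2
import Cfsg.Agent.Lib.Helper94.SympDecompWrap


set_option autoImplicit false
open Cfsg

namespace Cfsg.Agent.S5657

open Cfsg.Agent.Lib.Helper94

/-- Let F be the field with q² elements and n = 2k ≥ 13. Let D be a decomposition of F^n into two complementary subspaces of dimension k on each of which the standard unitary form vanishes identically. Then the elements of SU_n(q) preserving or interchanging the two subspaces form a maximal subgroup of SU_n(q). -/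
theorem result {F : Type*} [Field F] [Fintype F] (n q : ℕ) (hF : Fintype.card F = q ^ 2) (hn : 13 ≤ n) (k : ℕ) (hk : 2 * k = n) (D : Fin 2 → Submodule F (Fin n → F)) (hD : Cfsg.Geo.IsMDecomposition k D) (hts : ∀ i, Cfsg.Geo.IsTotallySingularFor (Cfsg.hermForm n F q) (D i)) : Cfsg.Geo.IsMaximalIn (Cfsg.GU n F q ⊓ Cfsg.Geo.specialLinear (Fin n) F) (Cfsg.Geo.decompositionStabilizer D ⊓ (Cfsg.GU n F q ⊓ Cfsg.Geo.specialLinear (Fin n) F)) := by
  have H := U.stdB_hform (n := n) hF
  have h01 : (0 : Fin 2) ≠ 1 := by decide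
  have hL : U.LagPair (U.stdB n hF) (D 0) (D 1) := by
    refine ⟨fun u hu v hv => ?_, fun u hu v hv => ?_, ⟨hD.indep.pairwiseDisjoint h01, ?_⟩⟩
    · rw [U.stdB_apply]; exact hts 0 v hv u hu
    · rw [U.stdB_apply]; exact hts 1 v hv u hu
    · rw [codisjoint_iff, eq_top_iff, ← hD.iSup_eq_top]
      refine iSup_le fun i => ?_
      fin_cases i
      · exact le_sup_left
      · exact le_sup_right
  have hf0 := hD.finrank_eq 0
  have hf1 := hD.finrank_eq 1
  have hS : ∀ g, g ∈ Cfsg.Geo.decompositionStabilizer D ↔ U.PairStab (D 0) (D 1) (glEquiv _ F g) := by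
    intro g
    rw [mem_decompositionStabilizer_iff]
    constructor
    · rintro ⟨σ, hσ⟩
      have hmem : ∀ i, ∀ w ∈ D i, glEquiv _ F g w ∈ D (σ i) := by
        intro i w hw
        rw [← hσ i]
        exact Submodule.mem_map_of_mem hw
      have hcases : (σ 0 = 0 ∧ σ 1 = 1) ∨ (σ 0 = 1 ∧ σ 1 = 0) := by
        have hinj : σ 0 ≠ σ 1 := fun h => h01 (σ.injective h)
        generalize σ 0 = x at hinj
        generalize σ 1 = y at hinj
        fin_cases x <;> fin_cases y <;> simp_all
      rcases hcases with ⟨h0, h1⟩ | ⟨h0, h1⟩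
      · left
        exact ⟨fun w hw => h0 ▸ hmem 0 w hw, fun w hw => h1 ▸ hmem 1 w hw⟩
      · right
        exact ⟨fun w hw => h0 ▸ hmem 0 w hw, fun w hw => h1 ▸ hmem 1 w hw⟩
    · rintro (⟨h0, h1⟩ | ⟨h0, h1⟩)
      · refine ⟨1, fun i => ?_⟩
        fin_cases i
        · exact U.map_eq_of_forall_mem'' _ _ _ rfl h0
        · exact U.map_eq_of_forall_mem'' _ _ _ rfl h1
      · refine ⟨Equiv.swap 0 1, fun i => ?_⟩
        fin_cases i
        · exact U.map_eq_of_forall_mem'' _ _ _ (hf0.trans hf1.symm) h0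
        · exact U.map_eq_of_forall_mem'' _ _ _ (hf1.trans hf0.symm) h1
  exact U.su_maximal_of_core hF _ (U.PairStab (D 0) (D 1)) hS
    (hL.exists_sisom_not_stab H (by omega))
    (fun G hP φ0 h0 h0I _ h0S => hL.core H (by rw [U.finrank_std]; omega) (by omega)
      (hf0.trans hf1.symm) G hP φ0 h0 h0I h0S)

end Cfsg.Agent.S5657
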