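import Mathlib
import Cfsg.Statements.S5659
import Cfsg.Agent.Lib.Helper99.RatUWrap

set_option autoImplicit false
open Cfsg

namespace Cfsg.Agent.S5659

open Cfsg.Agent.Lib.Helper94 Cfsg.Agent.Lib.Helper94.U Cfsg.Agent.Lib.Helper99
open Cfsg.Agent.Lib.Helper13 (frobQ)

/-- Let F be the field with q² elements, q odd, n ≥ 13, and F₀ the subfield with q elements. Let P be an invertible matrix such that the standard unitary form takes values in F₀ on the F₀-span of the columns of P (so it restricts to a non-degenerate symmetric bilinear form there). Then the elements of SU_n(q) lying in the subfield group of P form a maximal subgroup of SU_n(q). -/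
theorem result {F : Type*} [Field F] [Fintype F] (n q : ℕ) (hF : Fintype.card F = q ^ 2) (hn : 13 ≤ n) (hodd : Odd q) (F₀ : Subfield F) (hcard : Fintype.card F = Nat.card F₀ ^ 2) (P : Matrix.GeneralLinearGroup (Fin n) F) (hP : Cfsg.Geo.IsFormRationalStructure (Cfsg.hermForm n F q) F₀ 1 P) : Cfsg.Geo.IsMaximalIn (Cfsg.GU n F q ⊓ Cfsg.Geo.specialLinear (Fin n) F) (Cfsg.Geo.subfieldSubgroup F₀ P ⊓ (Cfsg.GU n F q ⊓ Cfsg.Geo.specialLinear (Fin n) F)) := by
  have h : RSetup (frobQ hF) (stdB n hF) (tauP hF P) := rsetup_of_rational hF hn hodd F₀ hcard P hP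
  refine su_maximal_of_core hF _ (Stab (tauP hF P))
    (mem_subfieldSubgroup_iff_stab hF (by omega) F₀ hcard P) ?_ ?_
  · obtain ⟨v, hv0, htv, hv⟩ := h.exists_rat_isotropic
    obtain ⟨ε, hε0, hε⟩ := h.H.exists_skew
    have hk : ε + frobQ hF ε + ε * frobQ hF ε * stdB n hF v v = 0 := by
      rw [hv, hε]; ring
    refine ⟨ur h.H v ε hk, ur_isom _ _ _ _, ?_, h.ur_not_stab hv0 htv hv hε0 hk⟩
    rw [ur_det, hv]; ring
  · intro G hG φ0 hφ0 hI _ hS φ hφ hdet
    exact h.core G hG φ0 hφ0 hI hS φ hφ hdet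

end Cfsg.Agent.S5659
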