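import Mathlib
import Cfsg.Statements.S5665
import Cfsg.Agent.Lib.Helper99.SpJ
import Cfsg.Agent.Lib.Helper94.SympWrap

set_option autoImplicit false
set_option linter.unusedSimpArgs false
set_option linter.unusedVariables false
open Cfsg

namespace Cfsg.Agent.S5665

open Matrix Module
open Cfsg.Agent.Lib.Helper94 Cfsg.Agent.Lib.Helper99

variable {F : Type*} [Field F]

/-- data extracted from the field subalgebra -/
lemma exists_J {m : ℕ} (h2 : (2 : F) ≠ 0)
    (K : Subalgebra F (Matrix (Fin m ⊕ Fin m) (Fin m ⊕ Fin m) F)) (hK : Cfsg.Geo.IsFieldSubalgebra 2 K)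
    (hac : Cfsg.Geo.IsAdjointClosedFor (Cfsg.sympForm m F) K)
    (hnsa : ¬ Cfsg.Geo.IsSelfAdjointFor (Cfsg.sympForm m F) K) :
    ∃ (J₀ : Matrix (Fin m ⊕ Fin m) (Fin m ⊕ Fin m) F) (d : F), J₀ ∈ K ∧
      (∀ u v, sympB m F (J₀ *ᵥ u) v = - sympB m F u (J₀ *ᵥ v)) ∧ J₀ * J₀ = d • 1 ∧
      (∀ k, k ∈ K ↔ ∃ a b : F, a • (1 : Matrix (Fin m ⊕ Fin m) (Fin m ⊕ Fin m) F) + b • J₀ = k) ∧
      (∀ a b : F, a • (1 : Matrix (Fin m ⊕ Fin m) (Fin m ⊕ Fin m) F) + b • J₀ = 0 → a = 0 ∧ b = 0) ∧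
      (∀ a b : F, a ^ 2 = d * b ^ 2 → b = 0) := by
  classical
  have hA := sympB_isAlt (F := F) m
  have hN := sympB_nondegenerate (F := F) m
  unfold Cfsg.Geo.IsSelfAdjointFor at hnsa
  push Not at hnsa
  obtain ⟨k₀, hk₀, u₀, v₀, hne⟩ := hnsa
  obtain ⟨k₁, hk₁, hadj⟩ := hac k₀ hk₀
  simp only [← sympB_apply] at hne hadj
  have hadj' : ∀ u v, sympB m F (k₁ *ᵥ u) v = sympB m F u (k₀ *ᵥ v) := by
    intro u v
    rw [alt_swap hA, ← hadj, alt_swap hA, neg_neg]
  set J₀ := k₀ - k₁ with hJ₀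
  have hJK : J₀ ∈ K := K.sub_mem hk₀ hk₁
  have hJadj : ∀ u v, sympB m F (J₀ *ᵥ u) v = - sympB m F u (J₀ *ᵥ v) := by
    intro u v
    rw [hJ₀, Matrix.sub_mulVec, Matrix.sub_mulVec, map_sub, map_sub, LinearMap.sub_apply, hadj, hadj']
    ring
  have hJne : ∃ u v, sympB m F (J₀ *ᵥ u) v ≠ 0 := by
    refine ⟨u₀, v₀, ?_⟩
    rw [hJ₀, Matrix.sub_mulVec, map_sub, LinearMap.sub_apply, hadj']
    exact sub_ne_zero.2 hne
  obtain ⟨u₁, v₁, hJuv⟩ := hJne
  have hind : ∀ a b : F, a • (1 : Matrix (Fin m ⊕ Fin m) (Fin m ⊕ Fin m) F) + b • J₀ = 0 → a = 0 ∧ b = 0 := by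
    intro a b hab
    -- apply adjointness
    have e1 : ∀ u v, a * sympB m F u v + b * sympB m F (J₀ *ᵥ u) v = 0 := by
      intro u v
      have := congrArg (fun M => sympB m F (M *ᵥ u) v) hab
      simp only [Matrix.add_mulVec, Matrix.smul_mulVec, Matrix.one_mulVec, Matrix.zero_mulVec, map_add,
        map_smul, LinearMap.add_apply, LinearMap.smul_apply, smul_eq_mul, map_zero,
        LinearMap.zero_apply] at this
      exact this
    have e2 : ∀ u v, a * sympB m F u v - b * sympB m F (J₀ *ᵥ u) v = 0 := by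
      intro u v
      have := e1 v u
      have t1 := hJadj v u
      have t2 := alt_swap hA v (J₀ *ᵥ u)
      have t3 := alt_swap hA v u
      linear_combination -this + a * t3 + b * t1 - b * t2
    have hb : b = 0 := by
      have : 2 * b * sympB m F (J₀ *ᵥ u₁) v₁ = 0 := by linear_combination e1 u₁ v₁ - e2 u₁ v₁
      rcases mul_eq_zero.1 this with h3 | h3
      · rcases mul_eq_zero.1 h3 with h4 | h4
        · exact absurd h4 h2
        · exact h4
      · exact absurd h3 hJuv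
    refine ⟨?_, hb⟩
    have hu₁ : J₀ *ᵥ u₁ ≠ 0 := by
      intro h0; rw [h0] at hJuv; simp at hJuv
    have := e1 (J₀ *ᵥ u₁) v₁
    rw [hb, zero_mul, add_zero] at this
    rcases mul_eq_zero.1 this with h3 | h3
    · exact h3
    · exact absurd h3 hJuv
  have hspan : Submodule.span F {(1 : Matrix (Fin m ⊕ Fin m) (Fin m ⊕ Fin m) F), J₀} =
      Subalgebra.toSubmodule K := by
    apply Submodule.eq_of_le_of_finrank_eq
    · rw [Submodule.span_le]
      intro x hx
      rcases hx with rfl | rfl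
      · exact K.one_mem
      · exact hJK
    · rw [Subalgebra.finrank_toSubmodule, hK.finrank_eq]
      have hli : LinearIndependent F ![(1 : Matrix (Fin m ⊕ Fin m) (Fin m ⊕ Fin m) F), J₀] :=
        LinearIndependent.pair_iff.2 hind
      have := finrank_span_eq_card hli
      have hr : Set.range ![(1 : Matrix (Fin m ⊕ Fin m) (Fin m ⊕ Fin m) F), J₀] = {1, J₀} := by
        ext x
        simp [Fin.exists_fin_two, eq_comm, or_comm]
      rw [hr, Fintype.card_fin] at this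
      exact this
  have hmem : ∀ k, k ∈ K ↔ ∃ a b : F, a • (1 : Matrix (Fin m ⊕ Fin m) (Fin m ⊕ Fin m) F) + b • J₀ = k := by
    intro k
    rw [← Subalgebra.mem_toSubmodule, ← hspan, Submodule.mem_span_pair]
  obtain ⟨a, b, hab⟩ := (hmem (J₀ * J₀)).1 (K.mul_mem hJK hJK)
  have hb0 : b = 0 := by
    have e1 : ∀ u v, sympB m F ((J₀ * J₀) *ᵥ u) v = sympB m F u ((J₀ * J₀) *ᵥ v) := by
      intro u v
      rw [← Matrix.mulVec_mulVec, ← Matrix.mulVec_mulVec, hJadj, hJadj, neg_neg]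
    have e2 := e1 u₁ v₁
    rw [← hab] at e2
    simp only [Matrix.add_mulVec, Matrix.smul_mulVec, Matrix.one_mulVec, map_add, map_smul,
      LinearMap.add_apply, LinearMap.smul_apply, smul_eq_mul] at e2
    have e3 := hJadj u₁ v₁
    have : 2 * b * sympB m F (J₀ *ᵥ u₁) v₁ = 0 := by
      linear_combination e2 + b * e3
    rcases mul_eq_zero.1 this with h3 | h3
    · rcases mul_eq_zero.1 h3 with h4 | h4
      · exact absurd h4 h2
      · exact h4
    · exact absurd h3 hJuv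
  have hsq : J₀ * J₀ = a • 1 := by rw [← hab, hb0, zero_smul, add_zero]
  refine ⟨J₀, a, hJK, hJadj, hsq, hmem, hind, ?_⟩
  intro x y hxy
  by_contra hy
  set c := x / y with hc
  have hc2 : c ^ 2 = a := by rw [hc, div_pow, hxy]; field_simp
  have hM : J₀ - c • 1 ∈ K := K.sub_mem hJK (K.smul_mem K.one_mem c)
  have hM0 : J₀ - c • (1 : Matrix (Fin m ⊕ Fin m) (Fin m ⊕ Fin m) F) ≠ 0 := by
    intro h0
    have := hind (-c) 1 (by rw [one_smul, neg_smul, ← h0]; abel)
    exact one_ne_zero this.2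
  obtain ⟨y', hy'K, hy'⟩ := hK.inv _ hM hM0
  have hprod : (J₀ - c • (1 : Matrix (Fin m ⊕ Fin m) (Fin m ⊕ Fin m) F)) * (J₀ + c • 1) = 0 := by
    rw [sub_mul, mul_add, mul_add, hsq, ← hc2]
    simp only [Matrix.smul_mul, Matrix.mul_smul, mul_one, one_mul, smul_smul]
    rw [pow_two]
    abel
  have hz : J₀ + c • (1 : Matrix (Fin m ⊕ Fin m) (Fin m ⊕ Fin m) F) = 0 := by
    have e1 : y' * (J₀ - c • 1) = 1 := by rw [hK.comm _ hy'K _ hM]; exact hy'
    calc J₀ + c • (1 : Matrix (Fin m ⊕ Fin m) (Fin m ⊕ Fin m) F)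
        = (y' * (J₀ - c • 1)) * (J₀ + c • 1) := by rw [e1, one_mul]
      _ = 0 := by rw [mul_assoc, hprod, mul_zero]
  have := hind c 1 (by rw [one_smul, ← hz]; abel)
  exact one_ne_zero this.2


lemma mem_normalizer_iff {m : ℕ} (K : Subalgebra F (Matrix (Fin m ⊕ Fin m) (Fin m ⊕ Fin m) F))
    (J₀ : Matrix (Fin m ⊕ Fin m) (Fin m ⊕ Fin m) F) (d : F) (h2 : (2 : F) ≠ 0) (hsq : J₀ * J₀ = d • 1)
    (hmem : ∀ k, k ∈ K ↔ ∃ a b : F, a • (1 : Matrix (Fin m ⊕ Fin m) (Fin m ⊕ Fin m) F) + b • J₀ = k)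
    (hind : ∀ a b : F, a • (1 : Matrix (Fin m ⊕ Fin m) (Fin m ⊕ Fin m) F) + b • J₀ = 0 → a = 0 ∧ b = 0)
    (hnsq : ∀ a b : F, a ^ 2 = d * b ^ 2 → b = 0)
    (g : Matrix.GeneralLinearGroup (Fin m ⊕ Fin m) F) :
    g ∈ Cfsg.Geo.subalgebraNormalizer K ↔ StabJ (Matrix.mulVecLin J₀) (glEquiv _ F g) := by
  have hgi : (g : Matrix (Fin m ⊕ Fin m) (Fin m ⊕ Fin m) F) *
      ((g⁻¹ : Matrix.GeneralLinearGroup (Fin m ⊕ Fin m) F) : Matrix (Fin m ⊕ Fin m) (Fin m ⊕ Fin m) F) = 1 := by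
    rw [← Units.val_mul, mul_inv_cancel, Units.val_one]
  have hig : ((g⁻¹ : Matrix.GeneralLinearGroup (Fin m ⊕ Fin m) F) : Matrix (Fin m ⊕ Fin m) (Fin m ⊕ Fin m) F) *
      (g : Matrix (Fin m ⊕ Fin m) (Fin m ⊕ Fin m) F) = 1 := by
    rw [← Units.val_mul, inv_mul_cancel, Units.val_one]
  have hstab : StabJ (Matrix.mulVecLin J₀) (glEquiv _ F g) ↔
      ((g : Matrix (Fin m ⊕ Fin m) (Fin m ⊕ Fin m) F) * J₀ = J₀ * g ∨
        (g : Matrix (Fin m ⊕ Fin m) (Fin m ⊕ Fin m) F) * J₀ = -(J₀ * g)) := by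
    unfold StabJ
    simp only [glEquiv_apply, Matrix.mulVecLin_apply, Matrix.mulVec_mulVec, ← Matrix.neg_mulVec]
    rw [← Matrix.ext_iff_mulVec, ← Matrix.ext_iff_mulVec]
  rw [hstab]
  have hJK : J₀ ∈ K := (hmem J₀).2 ⟨0, 1, by simp⟩
  constructor
  · intro hg
    obtain ⟨a, b, hab⟩ := (hmem _).1 ((hg J₀).1 hJK)
    -- square both sides
    have e1 : (a • (1 : Matrix (Fin m ⊕ Fin m) (Fin m ⊕ Fin m) F) + b • J₀) * (a • 1 + b • J₀) = d • 1 := by
      rw [hab]
      calc (g : Matrix (Fin m ⊕ Fin m) (Fin m ⊕ Fin m) F) * J₀ * (g⁻¹ : Matrix.GeneralLinearGroup _ F) *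
            ((g : Matrix (Fin m ⊕ Fin m) (Fin m ⊕ Fin m) F) * J₀ * (g⁻¹ : Matrix.GeneralLinearGroup _ F))
          = (g : Matrix (Fin m ⊕ Fin m) (Fin m ⊕ Fin m) F) * J₀ *
            (((g⁻¹ : Matrix.GeneralLinearGroup _ F) : Matrix (Fin m ⊕ Fin m) (Fin m ⊕ Fin m) F) * g) * J₀ *
              (g⁻¹ : Matrix.GeneralLinearGroup _ F) := by simp only [mul_assoc]
        _ = d • 1 := by
          rw [hig, mul_one, mul_assoc (g : Matrix (Fin m ⊕ Fin m) (Fin m ⊕ Fin m) F), hsq, Matrix.mul_smul,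
            mul_one, Matrix.smul_mul, hgi]
    have e2 : (a ^ 2 + d * b ^ 2 - d) • (1 : Matrix (Fin m ⊕ Fin m) (Fin m ⊕ Fin m) F) + (2 * a * b) • J₀ = 0 := by
      have : (a • (1 : Matrix (Fin m ⊕ Fin m) (Fin m ⊕ Fin m) F) + b • J₀) * (a • 1 + b • J₀) =
          (a ^ 2 + d * b ^ 2) • 1 + (2 * a * b) • J₀ := by
        simp only [add_mul, mul_add, Matrix.smul_mul, Matrix.mul_smul, mul_one, one_mul, hsq, smul_smul]
        module
      rw [this] at e1
      rw [sub_smul, ← e1]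
      abel
    obtain ⟨e3, e4⟩ := hind _ _ e2
    have hconj : (g : Matrix (Fin m ⊕ Fin m) (Fin m ⊕ Fin m) F) * J₀ = (a • 1 + b • J₀) * g := by
      rw [hab, mul_assoc, hig, mul_one]
    have ha : a = 0 := by
      by_contra ha
      have hb : b = 0 := by
        rcases mul_eq_zero.1 e4 with h3 | h3
        · rcases mul_eq_zero.1 h3 with h4 | h4
          · exact absurd h4 h2
          · exact absurd h4 ha
        · exact h3
      rw [hb] at e3
      have := hnsq a 1 (by linear_combination e3)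
      exact one_ne_zero this
    rw [ha] at e3
    have hd : d ≠ 0 := by
      rintro rfl
      exact one_ne_zero (hnsq 0 1 (by ring))
    have hb2 : (b - 1) * (b + 1) = 0 := by
      have : d * ((b - 1) * (b + 1)) = 0 := by linear_combination e3
      rcases mul_eq_zero.1 this with h3 | h3
      · exact absurd h3 hd
      · exact h3
    rcases mul_eq_zero.1 hb2 with h3 | h3
    · left
      have : b = 1 := by linear_combination h3
      rw [hconj, ha, this]; simp
    · right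
      have : b = -1 := by linear_combination h3
      rw [hconj, ha, this]; simp
  · intro hg
    obtain ⟨e, he, hge⟩ : ∃ e : F, e ≠ 0 ∧ (g : Matrix (Fin m ⊕ Fin m) (Fin m ⊕ Fin m) F) * J₀ = e • (J₀ * g) := by
      rcases hg with h1 | h1
      · exact ⟨1, one_ne_zero, by rw [h1, one_smul]⟩
      · exact ⟨-1, neg_ne_zero.2 one_ne_zero, by rw [h1, neg_smul, one_smul]⟩
    have hc1 : (g : Matrix (Fin m ⊕ Fin m) (Fin m ⊕ Fin m) F) * J₀ * (g⁻¹ : Matrix.GeneralLinearGroup _ F)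
        = e • J₀ := by
      rw [hge, Matrix.smul_mul, mul_assoc, hgi, mul_one]
    have hc2 : ((g⁻¹ : Matrix.GeneralLinearGroup _ F) : Matrix (Fin m ⊕ Fin m) (Fin m ⊕ Fin m) F) * J₀ * g
        = e⁻¹ • J₀ := by
      have : J₀ * (g : Matrix (Fin m ⊕ Fin m) (Fin m ⊕ Fin m) F) = e⁻¹ • ((g : Matrix _ _ F) * J₀) := by
        rw [hge, smul_smul, inv_mul_cancel₀ he, one_smul]
      rw [mul_assoc, this, Matrix.mul_smul, ← mul_assoc, hig, one_mul]
    intro k
    constructor
    · intro hk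
      obtain ⟨a, b, rfl⟩ := (hmem k).1 hk
      refine (hmem _).2 ⟨a, b * e, ?_⟩
      rw [mul_add, add_mul, Matrix.mul_smul, Matrix.mul_smul, Matrix.smul_mul, Matrix.smul_mul, mul_one, hgi,
        hc1, smul_smul]
    · intro hk
      obtain ⟨a, b, hab⟩ := (hmem _).1 hk
      refine (hmem _).2 ⟨a, b * e⁻¹, ?_⟩
      have : k = ((g⁻¹ : Matrix.GeneralLinearGroup _ F) : Matrix (Fin m ⊕ Fin m) (Fin m ⊕ Fin m) F) *
          ((g : Matrix (Fin m ⊕ Fin m) (Fin m ⊕ Fin m) F) * k * (g⁻¹ : Matrix.GeneralLinearGroup _ F)) * g := by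
        rw [mul_assoc (g : Matrix (Fin m ⊕ Fin m) (Fin m ⊕ Fin m) F), ← mul_assoc, hig, one_mul, mul_assoc, hig,
          mul_one]
      rw [this, ← hab, mul_add, add_mul, Matrix.mul_smul, Matrix.mul_smul, Matrix.smul_mul, Matrix.smul_mul,
        mul_one, hig, hc2, smul_smul]

/-- For a finite field F of odd order and m ≥ 7, let K be a subfield of the algebra of 2m × 2m matrices over F containing the scalars, of degree 2 over F, that is closed under adjoints for the standard alternating form on F^(2m) but whose elements are not all self-adjoint (so the adjoint map induces the automorphism of order two of K). Then the elements of Sp_2m(F) normalising K form a maximal subgroup of Sp_2m(F). -/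
theorem result {F : Type*} [Field F] [Fintype F] (m : ℕ) (hm : 7 ≤ m) (hodd : Odd (Fintype.card F)) (K : Subalgebra F (Matrix (Fin m ⊕ Fin m) (Fin m ⊕ Fin m) F)) (hK : Cfsg.Geo.IsFieldSubalgebra 2 K) (hac : Cfsg.Geo.IsAdjointClosedFor (Cfsg.sympForm m F) K) (hnsa : ¬ Cfsg.Geo.IsSelfAdjointFor (Cfsg.sympForm m F) K) : Cfsg.Geo.IsMaximalIn (Cfsg.spGL m F) (Cfsg.Geo.subalgebraNormalizer K ⊓ Cfsg.spGL m F) := by
  classical
  have h2 : (2 : F) ≠ 0 := by
    intro h0
    have hchar : ringChar F = 2 := by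
      have : ringChar F ∣ 2 := by
        rw [← ringChar.spec]
        exact_mod_cast h0
      rcases (Nat.dvd_prime Nat.prime_two).1 this with h1 | h1
      · exact absurd h1 (CharP.ringChar_ne_one)
      · exact h1
    have := FiniteField.even_card_of_char_two hchar
    rw [Nat.odd_iff] at hodd
    omega
  obtain ⟨J₀, d, hJK, hadj, hsq, hmem, hind, hnsq⟩ := exists_J h2 K hK hac hnsa
  have h : JSetup (sympB m F) (Matrix.mulVecLin J₀) d :=
    { alt := sympB_isAlt m
      nondeg := sympB_nondegenerate m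
      two := h2
      sq := by
        intro x
        rw [Matrix.mulVecLin_apply, Matrix.mulVecLin_apply, Matrix.mulVec_mulVec, hsq, Matrix.smul_mulVec,
          Matrix.one_mulVec]
      adj := by
        intro x y
        rw [Matrix.mulVecLin_apply, Matrix.mulVecLin_apply]
        exact hadj x y
      nsq := hnsq
      rep := by
        intro a b c ha hb
        open Polynomial in
        have hf : degree (C a * X ^ 2 : F[X]) = 2 := degree_C_mul_X_pow 2 ha
        open Polynomial in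
        have hg : degree (C b * X ^ 2 - C c : F[X]) = 2 := by
          rw [degree_sub_C, degree_C_mul_X_pow 2 hb]
          · rfl
          · rw [degree_C_mul_X_pow 2 hb]; norm_num
        obtain ⟨x, y, hxy⟩ := FiniteField.exists_root_sum_quadratic hf hg (Nat.odd_iff.1 hodd)
        refine ⟨x, y, ?_⟩
        simp at hxy
        linear_combination hxy
      dim := by
        rw [Module.finrank_fintype_fun_eq_card, Fintype.card_sum, Fintype.card_fin]; omega }
  refine sp_maximal_of_core m _ (StabJ (Matrix.mulVecLin J₀))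
    (mem_normalizer_iff K J₀ d h2 hsq hmem hind hnsq) ?_ ?_
  · obtain ⟨w, -, hw⟩ := h.os.exists_perp ∅ (by simp) 1
    have hw0 : w ≠ 0 := by
      rintro rfl
      rw [h.os.zero] at hw
      exact zero_ne_one hw
    exact ⟨st (sympB m F) h.alt w 1, st_isIsom _ _ _ _, h.st_not_stab hw0⟩
  · intro G hG φ0 hφ0 hI hS φ hφ
    exact h.core G hG φ0 hφ0 hI hS φ hφ

end Cfsg.Agent.S5665
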