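import Cfsg.Statements.S5667
import Cfsg.Agent.Lib.Helper94.TensF3
import Cfsg.Agent.Lib.Helper94.SympF2


set_option autoImplicit false
open Cfsg

namespace Cfsg.Agent.S5667

open Cfsg.Agent.Lib.Helper94 Cfsg.Agent.Lib.Helper94.Tens Cfsg.Agent.Lib.Helper94.U

/-- Over the field with 3 elements and for m ≥ 7, suppose the standard alternating form on F^(2m) is similar, through P and e, to the tensor product of a non-degenerate symplectic form f₁ on F^(n₁) and a non-degenerate symmetric bilinear form f₂ on F^3. Then the elements of Sp_2m(3) in the stabiliser of this tensor decomposition form a subgroup that is not maximal: some subgroup lies strictly between it and Sp_2m(3). -/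
theorem result {F : Type*} [Field F] [Fintype F] (m : ℕ) (hm : 7 ≤ m) (hq : Fintype.card F = 3) (n₁ : ℕ) (e : (Fin m ⊕ Fin m) ≃ Fin n₁ × Fin 3) (P : Matrix.GeneralLinearGroup (Fin m ⊕ Fin m) F) (f₁ : (Fin n₁ → F) → (Fin n₁ → F) → F) (f₂ : (Fin 3 → F) → (Fin 3 → F) → F) (hf₁ : Cfsg.Geo.IsSymplecticForm f₁) (hf₂ : Cfsg.Geo.IsSymmetricForm f₂) (hT : Cfsg.Geo.IsTensorFormStructure id (Cfsg.sympForm m F) f₁ f₂ e P) : ∃ K : Subgroup (Matrix.GeneralLinearGroup (Fin m ⊕ Fin m) F), Cfsg.Geo.tensorProductSubgroup n₁ 3 e P ⊓ Cfsg.spGL m F < K ∧ K < Cfsg.spGL m F := by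
  classical
  have h30 := card3_three hq
  have h3 := card3_cases hq
  have hA := sympB_isAlt (F := F) m
  set s : LinearMap.BilinForm F (Fin 3 → F) := formB f₂ hf₂.bilinear with hs
  obtain ⟨w, ε, hε, hn, ho⟩ := exists_equal_norm h3 h30 s (fun x y => hf₂.symm x y)
    (formB_nondegenerate _ _ hf₂.nondegenerate) (by simp)
  have hli : LinearIndependent F w :=
    LinearMap.BilinForm.linearIndependent_of_iIsOrtho (B := s) ho (fun i => by rw [hn]; exact hε)
  let a : Module.Basis (Fin 3) F (Fin 3 → F) := basisOfLinearIndependentOfCardEqFinrank hli (by simp)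
  have ha : ∀ i, a i = w i := fun i => by simp [a]
  have hn' : ∀ i, s (a i) (a i) = ε := fun i => by rw [ha]; exact hn i
  have ho' : ∀ i j, i ≠ j → s (a i) (a j) = 0 := fun i j hij => by rw [ha, ha]; exact ho i j hij
  set T := (pt e P).flip with hTdef
  have hU : Function.Injective (Th T a) := by
    rw [injective_iff_map_eq_zero]
    intro y hy
    rw [Th_apply] at hy
    funext i
    exact sum_pt_flip_eq_zero e P a a.linearIndependent y hy i
  obtain ⟨c, hc, hform⟩ := form_pt (Cfsg.sympForm m F) f₁ f₂ hf₁.bilinear hf₂.bilinear e P hT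
  have hB : ∀ x y x' y', sympB m F (T x y) (T x' y') = c * (f₁ y y' * f₂ x x') := by
    intro x y x' y'
    rw [sympB_apply]
    exact hform y x y' x'
  have hcard : 2 * m = n₁ * 3 := by
    have := Fintype.card_congr e
    simp at this
    omega
  have hn₁ : 0 < n₁ := by omega
  obtain ⟨u, hu⟩ : ∃ u : Fin n₁ → F, u ≠ 0 := by
    refine ⟨Pi.single ⟨0, hn₁⟩ 1, ?_⟩
    intro h
    have := congrFun h ⟨0, hn₁⟩
    simp at this
  obtain ⟨y₀, hy₀⟩ := (hf₁.nondegenerate u hu).1
  have hb₁ := hf₁.bilinear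
  have h00 : f₂ (a 0) (a 0) = ε := hn' 0
  have h10 : f₂ (a 1) (a 0) = 0 := ho' 1 0 (by decide)
  have h01 : f₂ (a 0) (a 1) = 0 := ho' 0 1 (by decide)
  have core : ∀ φ, IsIsom (sympB m F) φ →
      (glEquiv _ F).symm φ ∈ Cfsg.Geo.tensorProductSubgroup n₁ 3 e P →
      ∀ v ∈ blocks T a, φ v ∈ blocks T a := by
    intro φ hI hst
    obtain ⟨A, B, hAB⟩ := exists_of_symm_mem e P φ hst
    have hT' : ∀ x y, φ (T x y) = T (B x) (A y) := fun x y => hAB y x
    obtain ⟨μ, hμ, hsim⟩ := simil_of_isom f₁ f₂ A B (by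
        intro y y' x x'
        have := hI (T x y) (T x' y')
        rw [hT', hT', hB, hB] at this
        exact mul_left_cancel₀ hc this) ⟨y₀, u, hy₀⟩ ⟨a 0, a 0, by rw [h00]; exact hε⟩
    exact maps_blocks hT' (simil_frame h3 h30 s a ε hε hn' ho' B μ hμ hsim)
  have hblk : ∀ c' : F, ∀ v ∈ blocks T a, st (sympB m F) hA (T (a 0) u) c' v ∈ blocks T a := by
    rintro c' v ⟨i, y, rfl⟩
    rw [st_apply, hB]
    by_cases hi : i = 0
    · subst hi
      exact ⟨0, y + (c' * (c * (f₁ y u * f₂ (a 0) (a 0)))) • u, by rw [map_add, map_smul]⟩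
    · have : f₂ (a i) (a 0) = 0 := ho' i 0 hi
      rw [this]
      exact ⟨i, y, by simp⟩
  refine sp_between m _ (fun φ => (glEquiv _ F).symm φ ∈ Cfsg.Geo.tensorProductSubgroup n₁ 3 e P)
    (fun g => by simp) (setStab (F := F) (blocks T a)) ?_ ?_ ?_
  · intro φ hI hst
    refine mem_setStab_of_maps (core φ hI hst) (core φ⁻¹ hI.inv ?_)
    rw [map_inv]
    exact inv_mem hst
  · refine ⟨st (sympB m F) hA (T (a 0) u) 1, st_isIsom _ _ _ _, ?_, ?_⟩
    · refine mem_setStab_of_maps (hblk 1) ?_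
      rw [st_inv]
      exact hblk (-1)
    · intro hst
      obtain ⟨A, B, hAB⟩ := exists_of_symm_mem e P _ hst
      have h1 : st (sympB m F) hA (T (a 0) u) 1 (T (a 0 + a 1) y₀) = T (B (a 0 + a 1)) (A y₀) :=
        hAB y₀ (a 0 + a 1)
      have h2 : st (sympB m F) hA (T (a 0) u) 1 (T (a 0 + a 1) y₀) =
          T (a 0) (y₀ + (c * (f₁ y₀ u * ε)) • u) + T (a 1) y₀ := by
        rw [st_apply, hB, hf₂.bilinear.add_left, h00, h10]
        simp only [map_add, LinearMap.add_apply, map_smul, one_mul, add_zero]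
        abel
      obtain ⟨ξ, ξ', e1, e2⟩ := pure_parallel hU (i := 0) (j := 1) (by decide) (h1.symm.trans h2)
      have hm := minor_eq e1 e2 (LinearMap.flip (formB f₁ hb₁) u) (LinearMap.flip (formB f₁ hb₁) y₀)
      simp only [LinearMap.flip_apply, formB_apply, hb₁.add_left, hb₁.smul_left, hf₁.alternating] at hm
      rw [hf₁.skew u y₀] at hm
      have : c * ε * (f₁ y₀ u * f₁ y₀ u * f₁ y₀ u) = 0 := by linear_combination hm
      exact mul_ne_zero (mul_ne_zero hc hε) (mul_ne_zero (mul_ne_zero hy₀ hy₀) hy₀) this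
  · refine ⟨st (sympB m F) hA (T (a 0) u + T (a 1) u) 1, st_isIsom _ _ _ _, ?_⟩
    intro hmem
    have h1 := (hmem (T (a 0) y₀)).1 ⟨0, y₀, rfl⟩
    have h2 : st (sympB m F) hA (T (a 0) u + T (a 1) u) 1 (T (a 0) y₀) =
        T (a 0) (y₀ + (c * (f₁ y₀ u * ε)) • u) + T (a 1) ((c * (f₁ y₀ u * ε)) • u) := by
      rw [st_apply, map_add, hB, hB, h00, h01]
      simp only [map_add, map_smul, one_mul, mul_zero, add_zero, smul_add]
      abel
    rw [h2] at h1
    have hκ : c * (f₁ y₀ u * ε) ≠ 0 := mul_ne_zero hc (mul_ne_zero hy₀ hε)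
    refine two_comp_not_mem hU (by decide) ?_ (smul_ne_zero hκ hu) h1
    intro h0
    have := congrArg (fun z => f₁ z u) h0
    simp only [hb₁.add_left, hb₁.smul_left, hf₁.alternating, mul_zero, add_zero] at this
    have h00' : f₁ 0 u = 0 := by
      have := hb₁.smul_left 0 0 u
      simpa using this
    rw [h00'] at this
    exact hy₀ this

end Cfsg.Agent.S5667
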