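import Cfsg.Statements.S5673
import Cfsg.Agent.Lib.Helper21.OAsch.Main
import Cfsg.Agent.Lib.Helper8.OAsch.B0a
import Cfsg.Agent.Lib.Helper8.OAsch.B0b
import Cfsg.Agent.Lib.Helper8.OAsch.B0c
import Cfsg.Agent.Lib.Helper8.OAsch.B0d

set_option autoImplicit false
open Cfsg

namespace Cfsg.Agent.S5673

/-- Subgroup structure of the odd-dimensional orthogonal groups. Let F be a finite field of odd order and m ≥ 3, let Q be the standard quadratic form x₀² + Σ x_i y_i on F^(2m+1), and let Ω be the commutator subgroup of its isometry group, viewed inside GL_(2m+1)(F). Let H be a subgroup of Ω whose product with the scalar matrices in Ω is not all of Ω. Then either H is contained in a member of one of the geometric classes of subgroups of the isometry group (with the conditions built into InOrthogonalOddClass), or H is in the residual class: modulo scalars it is almost simple, and the perfect preimage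 of its socle acts absolutely irreducibly, is realisable over no proper subfield, and fixes no non-degenerate unitary form. -/
theorem result {F : Type*} [Field F] [Fintype F] (hodd : Odd (Fintype.card F)) (m : ℕ) (hm : 3 ≤ m) (H : Subgroup (Matrix.GeneralLinearGroup (Unit ⊕ (Fin m ⊕ Fin m)) F)) (hH : H ≤ Cfsg.Geo.omegaGL (Cfsg.quadFormOdd m F)) (hproper : H ⊔ (Cfsg.Geo.scalars (Unit ⊕ (Fin m ⊕ Fin m)) F ⊓ Cfsg.Geo.omegaGL (Cfsg.quadFormOdd m F)) ≠ Cfsg.Geo.omegaGL (Cfsg.quadFormOdd m F)) : (∃ M : Subgroup (Matrix.GeneralLinearGroup (Unit ⊕ (Fin m ⊕ Fin m)) F), Cfsg.Geo.InOrthogonalOddClass m F M ∧ H ≤ M) ∨ Cfsg.Geo.InOrthogonalResidualClass H := by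
  have hO := Cfsg.Agent.Lib.Helper8.OAsch.odata_odd (F := F) hodd m
  have hcard : Fintype.card (Unit ⊕ (Fin m ⊕ Fin m)) = 2 * m + 1 := by simp; ring
  have hI : H ≤ Cfsg.isometryGroup F (Cfsg.quadFormOdd m F) :=
    hH.trans (Cfsg.Agent.Lib.Helper8.OAsch.omegaGL_le_isometry _)
  have hiso := Cfsg.Agent.Lib.Helper8.OAsch.iso_of_le hO hI
  have hsc := Cfsg.Agent.Lib.Helper8.OAsch.inf_scalars_eq_bot hO hH
  rcases Cfsg.Agent.Lib.Helper21.OAsch.main hO (by rw [hcard]; omega) H hiso hsc with h | h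
  swap
  · exact Or.inr h
  left
  rcases h with (⟨W, h0, h1, h2⟩ | ⟨W, h0, h1, h2, h3⟩ | ⟨k, hk, t, D, hD, hHD⟩ | ⟨hq, t, D, hD, hHD⟩ |
      ⟨r, K, hr, hne, hK, hsa, hHK⟩ | ⟨F₀, r, P, hr, hc, hP, hHP⟩) |
      ⟨n₁, n₂, e, P, f₁, f₂, h1, h2, h3, h4, h5, h6⟩ | ⟨k, t, e, P, f₁, h1, h2, h3, h4, h5, h6⟩
  · exact ⟨_, Or.inl ⟨W, h0, h1, rfl⟩, le_inf h2 hI⟩
  · exact ⟨_, Or.inr (Or.inl ⟨W, h0, h1, h2, rfl⟩), le_inf h3 hI⟩
  · exact ⟨_, Or.inr (Or.inr (Or.inl ⟨t, k, D, hk, hD, rfl⟩)), le_inf hHD hI⟩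
  · exact ⟨_, Or.inr (Or.inr (Or.inr (Or.inl ⟨t, D, hq, hD, rfl⟩))), le_inf hHD hI⟩
  · exact ⟨_, Or.inr (Or.inr (Or.inr (Or.inr (Or.inl ⟨r, K, hr, by rw [← hcard]; exact hne, hK, hsa, rfl⟩)))),
      le_inf hHK hI⟩
  · exact ⟨_, Or.inr (Or.inr (Or.inr (Or.inr (Or.inr (Or.inr (Or.inl ⟨F₀, r, P, hr, hc, hP, rfl⟩)))))),
      le_inf hHP hI⟩
  · exact ⟨_, Or.inr (Or.inr (Or.inr (Or.inr (Or.inr (Or.inl ⟨n₁, n₂, e, P, f₁, f₂, h1, h2, h3, h4, h5, rfl⟩))))),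
      le_inf h6 hI⟩
  · exact ⟨_, Or.inr (Or.inr (Or.inr (Or.inr (Or.inr (Or.inr (Or.inr ⟨k, t, e, P, f₁, h1, h2, h3, h4, h5, rfl⟩)))))),
      le_inf h6 hI⟩

end Cfsg.Agent.S5673
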