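import Cfsg.Statements.S5674
import Cfsg.Agent.Lib.Helper13.OrthWrap
import Cfsg.Agent.Lib.Helper13.OrthPar

set_option autoImplicit false
open Cfsg Cfsg.Agent.Lib.Helper13.O Cfsg.Agent.Lib.Helper94 Cfsg.Agent.Lib.Helper44

namespace Cfsg.Agent.S5674

/-- Let F be a finite field of odd order, m ≥ 6, Q the standard quadratic form x₀² + Σ x_i y_i on F^(2m+1) and Ω the commutator subgroup of its isometry group inside GL_(2m+1)(F). The elements of Ω stabilising a non-zero subspace on which Q vanishes form a maximal subgroup of Ω. -/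
theorem result {F : Type*} [Field F] [Fintype F] (hodd : Odd (Fintype.card F)) (m : ℕ) (hm : 6 ≤ m) (W : Submodule F (Unit ⊕ (Fin m ⊕ Fin m) → F)) (hW0 : W ≠ ⊥) (hW : Cfsg.Geo.IsTotallySingularQuad (Cfsg.quadFormOdd m F) W) : Cfsg.Geo.IsMaximalIn (Cfsg.Geo.omegaGL (Cfsg.quadFormOdd m F)) (Cfsg.Geo.subspaceStabilizer W ⊓ Cfsg.Geo.omegaGL (Cfsg.quadFormOdd m F)) := by
  have h2 : (2 : F) ≠ 0 := by
    intro h
    have hch : ringChar F = 2 := CharP.ringChar_of_prime_eq_zero Nat.prime_two (by exact_mod_cast h)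
    have := (FiniteField.even_card_iff_char_two).1 hch
    exact (Nat.not_even_iff_odd.2 hodd) (Nat.even_iff.2 this)
  have hQn : (QuadraticMap.polarBilin (oddQF m F)).Nondegenerate := oddQF_nondeg m F h2
  have hfr : Module.finrank F (Unit ⊕ (Fin m ⊕ Fin m) → F) = 2 * m + 1 := by
    simp; ring
  rw [← oddQF_coe] at hW ⊢
  exact omega_maximal_of_core (oddQF m F) (Cfsg.Geo.subspaceStabilizer W) (fun φ => ∀ w ∈ W, φ w ∈ W)
    (fun g => mem_subspaceStabilizer_iff g W) (par_ne hQn (by omega) hW hW0)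
    (fun G hG hGO φ0 h0 hns => par_core hQn (by omega) hW (by
      intro W' _ _ h2
      omega) G hG hGO φ0 h0 hns)

end Cfsg.Agent.S5674
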