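import Cfsg.Statements.S5675
import Cfsg.Agent.Lib.Helper13.OrthNDWrap

set_option autoImplicit false
open Cfsg Cfsg.Agent.Lib.Helper13 Cfsg.Agent.Lib.Helper13.O Cfsg.Agent.Lib.Helper94 Cfsg.Agent.Lib.Helper44

namespace Cfsg.Agent.S5675

/-- Let F be a finite field of odd order q, m ≥ 6, Q the standard quadratic form on F^(2m+1) and Ω the commutator subgroup of its isometry group. Let W be a non-zero subspace of even dimension on which the polar form of Q is non-degenerate; exclude the case q = 3, dim W = 2 with Q vanishing on some line of W (a plus-type plane). Then the elements of Ω stabilising W (equivalently, stabilising its orthogonal complement, of odd dimension) form a maximal subgroup of Ω. -/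
theorem result {F : Type*} [Field F] [Fintype F] (hodd : Odd (Fintype.card F)) (m : ℕ) (hm : 6 ≤ m) (W : Submodule F (Unit ⊕ (Fin m ⊕ Fin m) → F)) (hW0 : W ≠ ⊥) (hev : Even (Module.finrank F W)) (hW : Cfsg.Geo.IsNondegenerateOn (QuadraticMap.polar (Cfsg.quadFormOdd m F)) W) (hex : ¬ (Fintype.card F = 3 ∧ Module.finrank F W = 2 ∧ Cfsg.Geo.IsPlusTypeOn (Cfsg.quadFormOdd m F) W)) : Cfsg.Geo.IsMaximalIn (Cfsg.Geo.omegaGL (Cfsg.quadFormOdd m F)) (Cfsg.Geo.subspaceStabilizer W ⊓ Cfsg.Geo.omegaGL (Cfsg.quadFormOdd m F)) := by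
  have h2 : (2 : F) ≠ 0 := by
    intro h
    have hch : ringChar F = 2 := CharP.ringChar_of_prime_eq_zero Nat.prime_two (by exact_mod_cast h)
    have := (FiniteField.even_card_iff_char_two).1 hch
    exact (Nat.not_even_iff_odd.2 hodd) (Nat.even_iff.2 this)
  have hQn : (QuadraticMap.polarBilin (oddQF m F)).Nondegenerate := oddQF_nondeg m F h2
  have hfr : Module.finrank F (Unit ⊕ (Fin m ⊕ Fin m) → F) = 2 * m + 1 := by
    simp; ring
  rw [← oddQF_coe] at hW hex ⊢
  have hOD : OD (oddQF m F) W (LinearMap.BilinForm.orthogonal (QuadraticMap.polarBilin (oddQF m F)) W) :=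
    OD_of_nondeg hQn (fun w hw hw0 => (hW w hw hw0).1)
  have hadd := hOD.finrank_add
  obtain ⟨r, hr⟩ := hev
  have hW' : LinearMap.BilinForm.orthogonal (QuadraticMap.polarBilin (oddQF m F)) W ≠ ⊥ := by
    intro hb
    rw [hb, finrank_bot, add_zero] at hadd
    omega
  have hq1 : 1 < Fintype.card F := Fintype.one_lt_card
  obtain ⟨s, hs⟩ := hodd
  have hok : SmallOK (oddQF m F) W := smallOK_of hOD hQn (fun hq hnd hpl =>
    hex ⟨by omega, hpl.1, hpl.2⟩)
  have hok' : SmallOK (oddQF m F)
      (LinearMap.BilinForm.orthogonal (QuadraticMap.polarBilin (oddQF m F)) W) := fun h2 => by omega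
  exact omega_maximal_of_core (oddQF m F) (Cfsg.Geo.subspaceStabilizer W) (fun φ => ∀ w ∈ W, φ w ∈ W)
    (fun g => mem_subspaceStabilizer_iff g W) (nd_ne hOD hQn (by omega) hW0 hW')
    (fun G hG hGO φ0 h0 hns => nd_core hOD hQn (by omega) hok hok' G hG hGO φ0 h0 hns
      (fun he => by omega))

end Cfsg.Agent.S5675
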