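import Cfsg.Statements.S5676
import Cfsg.Agent.Lib.Helper13.OrthWrap
import Cfsg.Agent.Lib.Helper13.OrthPar2
import Cfsg.Agent.Lib.Helper13.PairWrap

set_option autoImplicit false
open Cfsg Cfsg.Agent.Lib.Helper13 Cfsg.Agent.Lib.Helper13.O Cfsg.Agent.Lib.Helper94 Cfsg.Agent.Lib.Helper44

namespace Cfsg.Agent.S5676

/-- Let F be the field with 3 elements, m ≥ 6, Q the standard quadratic form on F^(2m+1) and Ω the commutator subgroup of its isometry group. Let W be a 2-dimensional subspace on which the polar form is non-degenerate and which contains a line on which Q vanishes. Then the elements of Ω stabilising W form a subgroup that is not maximal: some subgroup lies strictly between it and Ω. -/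
theorem result {F : Type*} [Field F] [Fintype F] (hq : Fintype.card F = 3) (m : ℕ) (hm : 6 ≤ m) (W : Submodule F (Unit ⊕ (Fin m ⊕ Fin m) → F)) (hdim : Module.finrank F W = 2) (hW : Cfsg.Geo.IsNondegenerateOn (QuadraticMap.polar (Cfsg.quadFormOdd m F)) W) (hplus : Cfsg.Geo.IsPlusTypeOn (Cfsg.quadFormOdd m F) W) : ∃ K : Subgroup (Matrix.GeneralLinearGroup (Unit ⊕ (Fin m ⊕ Fin m)) F), Cfsg.Geo.subspaceStabilizer W ⊓ Cfsg.Geo.omegaGL (Cfsg.quadFormOdd m F) < K ∧ K < Cfsg.Geo.omegaGL (Cfsg.quadFormOdd m F) := by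
  have h2 : (2 : F) ≠ 0 := by
    intro h
    have hch : ringChar F = 2 := CharP.ringChar_of_prime_eq_zero Nat.prime_two (by exact_mod_cast h)
    have := (FiniteField.even_card_iff_char_two).1 hch
    omega
  have hQn : (QuadraticMap.polarBilin (oddQF m F)).Nondegenerate := oddQF_nondeg m F h2
  have hfr : Module.finrank F (Unit ⊕ (Fin m ⊕ Fin m) → F) = 2 * m + 1 := by
    simp; ring
  rw [← oddQF_coe] at hW hplus ⊢
  obtain ⟨x0, h1, h2, h3⟩ := plane_core hQn (by omega) (by omega) (W := W) hdim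
    (fun w hw hw0 => (hW w hw hw0).1) hplus
  exact omega_not_maximal (oddQF m F) (Cfsg.Geo.subspaceStabilizer W) (fun φ => ∀ w ∈ W, φ w ∈ W)
    (fun φ => ∀ w ∈ Submodule.span F {x0}, φ w ∈ Submodule.span F {x0})
    (fun g => mem_subspaceStabilizer_iff g W) (Cfsg.Geo.subspaceStabilizer (Submodule.span F {x0}))
    (fun g => mem_subspaceStabilizer_iff g _) (fun φ hφ => h1 φ (Om_le_OQ _ hφ)) h2 h3

end Cfsg.Agent.S5676
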