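import Cfsg.Statements.S5677
import Cfsg.Agent.Lib.Helper13.OrthDecWrap

set_option autoImplicit false
open Cfsg Cfsg.Agent.Lib.Helper13 Cfsg.Agent.Lib.Helper13.O Cfsg.Agent.Lib.Helper94 Cfsg.Agent.Lib.Helper44

namespace Cfsg.Agent.S5677

/-- Let F be a finite field of odd order q, m ≥ 6, Q the standard quadratic form on F^(2m+1) and Ω the commutator subgroup of its isometry group. Let D be a decomposition of F^(2m+1) into t ≥ 2 pairwise orthogonal, pairwise Q-isometric subspaces of equal dimension k > 1 on which the polar form is non-degenerate. Unless q = 3 and k = 3, the elements of Ω permuting the members of D form a maximal subgroup of Ω. -/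
theorem result {F : Type*} [Field F] [Fintype F] (hodd : Odd (Fintype.card F)) (m : ℕ) (hm : 6 ≤ m) {t : ℕ} (k : ℕ) (hk : 1 < k) (D : Fin t → Submodule F (Unit ⊕ (Fin m ⊕ Fin m) → F)) (hD : Cfsg.Geo.IsOrthogonalMDecomposition (Cfsg.quadFormOdd m F) k D) (hex : ¬ (Fintype.card F = 3 ∧ k = 3)) : Cfsg.Geo.IsMaximalIn (Cfsg.Geo.omegaGL (Cfsg.quadFormOdd m F)) (Cfsg.Geo.decompositionStabilizer D ⊓ Cfsg.Geo.omegaGL (Cfsg.quadFormOdd m F)) := by
  have h2 : (2 : F) ≠ 0 := by
    intro h
    have hch : ringChar F = 2 := CharP.ringChar_of_prime_eq_zero Nat.prime_two (by exact_mod_cast h)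
    have := (FiniteField.even_card_iff_char_two).1 hch
    exact (Nat.not_even_iff_odd.2 hodd) (Nat.even_iff.2 this)
  have hQn : (QuadraticMap.polarBilin (oddQF m F)).Nondegenerate := oddQF_nondeg m F h2
  have hcard : Fintype.card (Unit ⊕ (Fin m ⊕ Fin m)) = 2 * m + 1 := by
    simp; ring
  have htk := card_eq_mul_of_quad hD
  rw [hcard] at htk
  have ht2 := hD.decomp.decomp.two_le
  have hodd' : Odd (t * k) := by rw [← htk]; exact ⟨m, rfl⟩
  obtain ⟨hto, hko⟩ := Nat.odd_mul.1 hodd'
  obtain ⟨a, ha⟩ := hto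
  obtain ⟨b, hb⟩ := hko
  obtain ⟨s, hs⟩ := hodd
  have hq1 : 1 < Fintype.card F := Fintype.one_lt_card
  rw [← oddQF_coe] at hD ⊢
  refine decomp_maximal (oddQF m F) hQn h2 (by rw [hcard]; omega) D hD (by omega) (by omega) ?_
  by_cases hk5 : 5 ≤ k
  · exact Or.inl hk5
  · right
    by_contra hq
    exact hex ⟨by omega, by omega⟩

end Cfsg.Agent.S5677
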