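import Cfsg.Statements.S5683
import Cfsg.Agent.Lib.Helper45.OSubWrap

set_option autoImplicit false
open Cfsg

namespace Cfsg.Agent.S5683

/-- Let F be a finite field of odd order, m ≥ 6, Q the standard quadratic form on F^(2m+1) and Ω the commutator subgroup of its isometry group. Let F₀ be a subfield with |F| = |F₀| ^ r for a prime r and P an invertible matrix such that Q takes values in F₀ on the F₀-span of the columns of P. Then the elements of Ω lying in the subfield group of P (the conjugate by P of the product of GL_(2m+1)(F₀) with the scalars) form a maximal subgroup of Ω. -/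
theorem result {F : Type*} [Field F] [Fintype F] (hodd : Odd (Fintype.card F)) (m : ℕ) (hm : 6 ≤ m) (F₀ : Subfield F) (r : ℕ) (hr : r.Prime) (hcard : Fintype.card F = Nat.card F₀ ^ r) (P : Matrix.GeneralLinearGroup (Unit ⊕ (Fin m ⊕ Fin m)) F) (hP : Cfsg.Geo.IsQuadFormRationalStructure (Cfsg.quadFormOdd m F) F₀ P) : Cfsg.Geo.IsMaximalIn (Cfsg.Geo.omegaGL (Cfsg.quadFormOdd m F)) (Cfsg.Geo.subfieldSubgroup F₀ P ⊓ Cfsg.Geo.omegaGL (Cfsg.quadFormOdd m F)) := by
  have h2 : (2 : F) ≠ 0 := by
    intro h
    have hch : ringChar F = 2 := CharP.ringChar_of_prime_eq_zero Nat.prime_two (by exact_mod_cast h)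
    have := (FiniteField.even_card_iff_char_two).1 hch
    rcases hodd with ⟨k, hk⟩
    omega
  have hQn : (QuadraticMap.polarBilin (Cfsg.Agent.Lib.Helper44.oddQF m F)).Nondegenerate :=
    Cfsg.Agent.Lib.Helper44.oddQF_nondeg m F h2
  rw [← Cfsg.Agent.Lib.Helper44.oddQF_coe] at hP ⊢
  exact Cfsg.Agent.Lib.Helper45.OSub.orth_subfield_maximal (Cfsg.Agent.Lib.Helper44.oddQF m F) hQn
    (by simp; omega) r hr hcard 1 one_ne_zero (by simpa using hP)

end Cfsg.Agent.S5683
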