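import Cfsg.Statements.S5685
import Cfsg.Agent.Lib.Helper13.OrthWrap
import Cfsg.Agent.Lib.Helper13.OrthPar

set_option autoImplicit false
open Cfsg Cfsg.Agent.Lib.Helper13.O Cfsg.Agent.Lib.Helper94 Cfsg.Agent.Lib.Helper44

namespace Cfsg.Agent.S5685

/-- Let F be a finite field with q elements, n ≥ 13 even, Q a non-degenerate quadratic form on F^n of plus type (some subspace of dimension n/2 is totally singular), and Ω the commutator subgroup of the isometry group of Q, viewed inside GL_n(F). The elements of Ω stabilising a non-zero subspace W on which Q vanishes, with dim W ≠ n/2 − 1, form a maximal subgroup of Ω. -/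
theorem result {F : Type*} [Field F] [Fintype F] {n : ℕ} (hn : 13 ≤ n) (heven : Even n) (Q : (Fin n → F) → F) (hQ : Cfsg.Geo.IsNondegenerateQuadraticForm Q) (hplus : Cfsg.Geo.IsPlusTypeOn Q ⊤) (W : Submodule F (Fin n → F)) (hW0 : W ≠ ⊥) (hW : Cfsg.Geo.IsTotallySingularQuad Q W) (hdim : 2 * (Module.finrank F W + 1) ≠ n) : Cfsg.Geo.IsMaximalIn (Cfsg.Geo.omegaGL Q) (Cfsg.Geo.subspaceStabilizer W ⊓ Cfsg.Geo.omegaGL Q) := by
  have hQn : (QuadraticMap.polarBilin (quadOf Q hQ)).Nondegenerate := pB_quadOf_nondegenerate Q hQ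
  have hfr : Module.finrank F (Fin n → F) = n := by simp
  exact omega_maximal_of_core (quadOf Q hQ) (Cfsg.Geo.subspaceStabilizer W) (fun φ => ∀ w ∈ W, φ w ∈ W)
    (fun g => mem_subspaceStabilizer_iff g W) (par_ne hQn (by omega) hW hW0)
    (fun G hG hGO φ0 h0 hns => par_core hQn (by omega) hW (by
      intro W' _ h1 h2
      omega) G hG hGO φ0 h0 hns)

end Cfsg.Agent.S5685
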