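import Cfsg.Statements.S5686
import Cfsg.Agent.Lib.Helper13.OrthWrap
import Cfsg.Agent.Lib.Helper13.OrthPar2
import Cfsg.Agent.Lib.Helper13.PairWrap

set_option autoImplicit false
open Cfsg Cfsg.Agent.Lib.Helper13 Cfsg.Agent.Lib.Helper13.O Cfsg.Agent.Lib.Helper94 Cfsg.Agent.Lib.Helper44

namespace Cfsg.Agent.S5686

/-- Let F be a finite field with q elements, n ≥ 13 even, Q a non-degenerate quadratic form on F^n of plus type (some subspace of dimension n/2 is totally singular), and Ω the commutator subgroup of the isometry group of Q, viewed inside GL_n(F). The elements of Ω stabilising a subspace of dimension n/2 − 1 on which Q vanishes form a subgroup that is not maximal: some subgroup lies strictly between it and Ω. -/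
theorem result {F : Type*} [Field F] [Fintype F] {n : ℕ} (hn : 13 ≤ n) (heven : Even n) (Q : (Fin n → F) → F) (hQ : Cfsg.Geo.IsNondegenerateQuadraticForm Q) (hplus : Cfsg.Geo.IsPlusTypeOn Q ⊤) (W : Submodule F (Fin n → F)) (hW : Cfsg.Geo.IsTotallySingularQuad Q W) (hdim : 2 * (Module.finrank F W + 1) = n) : ∃ K : Subgroup (Matrix.GeneralLinearGroup (Fin n) F), Cfsg.Geo.subspaceStabilizer W ⊓ Cfsg.Geo.omegaGL Q < K ∧ K < Cfsg.Geo.omegaGL Q := by
  have hQn : (QuadraticMap.polarBilin (quadOf Q hQ)).Nondegenerate := pB_quadOf_nondegenerate Q hQ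
  have hfr : Module.finrank F (Fin n → F) = n := by simp
  obtain ⟨U0, -, hU0, hU0d⟩ := hplus
  rw [finrank_top] at hU0d
  obtain ⟨U1, hU1, hU10, h1, h2⟩ := almost_max_core hQn (by omega) (W := W) hW (by omega) ⟨U0, hU0, hU0d⟩
  exact omega_not_maximal (quadOf Q hQ) (Cfsg.Geo.subspaceStabilizer W) (fun φ => ∀ w ∈ W, φ w ∈ W)
    (fun φ => ∀ w ∈ U1, φ w ∈ U1)
    (fun g => mem_subspaceStabilizer_iff g W) (Cfsg.Geo.subspaceStabilizer U1)
    (fun g => mem_subspaceStabilizer_iff g U1) h1 h2 (par_ne hQn (by omega) hU1 hU10)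

end Cfsg.Agent.S5686
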