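import Cfsg.Statements.S5689
import Cfsg.Agent.Lib.Helper13.OrthNDWrap
import Cfsg.Agent.Lib.Helper13.OrthHalves

set_option autoImplicit false
open Cfsg Cfsg.Agent.Lib.Helper13 Cfsg.Agent.Lib.Helper13.O Cfsg.Agent.Lib.Helper94 Cfsg.Agent.Lib.Helper44

namespace Cfsg.Agent.S5689

/-- Let F be a finite field with q elements, n ≥ 13 even, Q a non-degenerate quadratic form on F^n of minus type (no subspace of dimension n/2 is totally singular), and Ω the commutator subgroup of the isometry group of Q, viewed inside GL_n(F). Let W be a non-zero proper subspace on which the polar form of Q is non-degenerate, not of odd dimension n/2. Exclude the case q ≤ 3 in which W, or its orthogonal complement, is a plane containing a line on which Q vanishes. Then the elements of Ω stabilising W form a maximal subgroup of Ω. -/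
theorem result {F : Type*} [Field F] [Fintype F] {n : ℕ} (hn : 13 ≤ n) (heven : Even n) (Q : (Fin n → F) → F) (hQ : Cfsg.Geo.IsNondegenerateQuadraticForm Q) (hminus : ¬ Cfsg.Geo.IsPlusTypeOn Q ⊤) (W : Submodule F (Fin n → F)) (hW0 : W ≠ ⊥) (hW1 : W ≠ ⊤) (hdim : ¬ (2 * Module.finrank F W = n ∧ Odd (Module.finrank F W))) (hW : Cfsg.Geo.IsNondegenerateOn (QuadraticMap.polar Q) W) (hex : ¬ (Fintype.card F ≤ 3 ∧ (∃ U : Submodule F (Fin n → F), Module.finrank F U = 2 ∧ Cfsg.Geo.IsNondegenerateOn (QuadraticMap.polar Q) U ∧ Cfsg.Geo.IsPlusTypeOn Q U ∧ (U = W ∨ (Cfsg.Geo.AreOrthogonalFor (QuadraticMap.polar Q) U W ∧ Module.finrank F U + Module.finrank F W = n))))) : Cfsg.Geo.IsMaximalIn (Cfsg.Geo.omegaGL Q) (Cfsg.Geo.subspaceStabilizer W ⊓ Cfsg.Geo.omegaGL Q) := by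
  have hQn : (QuadraticMap.polarBilin (quadOf Q hQ)).Nondegenerate := pB_quadOf_nondegenerate Q hQ
  have hfr : Module.finrank F (Fin n → F) = n := by simp
  have hOD : OD (quadOf Q hQ) W (LinearMap.BilinForm.orthogonal (QuadraticMap.polarBilin (quadOf Q hQ)) W) :=
    OD_of_nondeg hQn (fun w hw hw0 => (hW w hw hw0).1)
  have hadd := hOD.finrank_add
  have hW' : LinearMap.BilinForm.orthogonal (QuadraticMap.polarBilin (quadOf Q hQ)) W ≠ ⊥ := by
    intro hb
    rw [hb, finrank_bot, add_zero] at hadd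
    exact hW1 (Submodule.eq_top_of_finrank_eq hadd)
  have hok : SmallOK (quadOf Q hQ) W := smallOK_of hOD hQn (fun hq hnd hpl =>
    hex ⟨hq, W, hpl.1, hnd, hpl.2, Or.inl rfl⟩)
  have hok' : SmallOK (quadOf Q hQ)
      (LinearMap.BilinForm.orthogonal (QuadraticMap.polarBilin (quadOf Q hQ)) W) :=
    smallOK_of hOD.symm hQn (fun hq hnd hpl =>
      hex ⟨hq, _, hpl.1, hnd, hpl.2, Or.inr ⟨fun u hu v hv => hOD.symm.orth u hu v hv, by omega⟩⟩)
  exact omega_maximal_of_core (quadOf Q hQ) (Cfsg.Geo.subspaceStabilizer W) (fun φ => ∀ w ∈ W, φ w ∈ W)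
    (fun g => mem_subspaceStabilizer_iff g W) (nd_ne hOD hQn (by omega) hW0 hW')
    (fun G hG hGO φ0 h0 hns => nd_core hOD hQn (by omega) hok hok' G hG hGO φ0 h0 hns
      (fun he hs => by
        have hev : Even (Module.finrank F W) := by
          rw [← Nat.not_odd_iff_even]
          intro hodd
          exact hdim ⟨by omega, hodd⟩
        obtain ⟨T, hT, hTd⟩ := exists_sing_of_halves hOD hQn hev (Om_le_OQ _ (hGO h0)) hs
        exact hminus ⟨T, le_top, hT, by rw [finrank_top]; omega⟩))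

end Cfsg.Agent.S5689
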