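import Cfsg.Statements.S5691
import Cfsg.Agent.Lib.Helper13.OrthWrap
import Cfsg.Agent.Lib.Helper13.OrthNSV

set_option autoImplicit false
open Cfsg Cfsg.Agent.Lib.Helper13 Cfsg.Agent.Lib.Helper13.O Cfsg.Agent.Lib.Helper94 Cfsg.Agent.Lib.Helper44

namespace Cfsg.Agent.S5691

/-- Let F be a finite field with q elements, n ≥ 13 even, Q a non-degenerate quadratic form on F^n (of either type), and Ω the commutator subgroup of the isometry group of Q, viewed inside GL_n(F). Suppose q is even and v is a vector with Q(v) ≠ 0. Then the elements of Ω stabilising the line spanned by v form a maximal subgroup of Ω. -/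
theorem result {F : Type*} [Field F] [Fintype F] {n : ℕ} (hn : 13 ≤ n) (heven : Even n) (Q : (Fin n → F) → F) (hQ : Cfsg.Geo.IsNondegenerateQuadraticForm Q) (hchar : ¬ Odd (Fintype.card F)) (v : (Fin n → F)) (hv : Q v ≠ 0) : Cfsg.Geo.IsMaximalIn (Cfsg.Geo.omegaGL Q) (Cfsg.Geo.subspaceStabilizer (Submodule.span F {v}) ⊓ Cfsg.Geo.omegaGL Q) := by
  have hQn : (QuadraticMap.polarBilin (quadOf Q hQ)).Nondegenerate := pB_quadOf_nondegenerate Q hQ
  have hfr : Module.finrank F (Fin n → F) = n := by simp
  have h2 : (2 : F) = 0 := by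
    have hch := charTwo_of_not_odd hchar
    have : CharP F 2 := by rw [← hch]; exact ringChar.charP F
    exact_mod_cast CharP.cast_eq_zero F 2
  exact omega_maximal_of_core (quadOf Q hQ) (Cfsg.Geo.subspaceStabilizer (Submodule.span F {v}))
    (fun φ => ∀ w ∈ Submodule.span F {v}, φ w ∈ Submodule.span F {v})
    (fun g => mem_subspaceStabilizer_iff g _) (nsv_ne hQn (by omega) (Q := quadOf Q hQ) hv)
    (fun G hG hGO φ0 h0 hns => nsv_core h2 hQn (by omega) (Q := quadOf Q hQ) hv G
      (fun φ hφ hfix => hG φ hφ (fun w hw => by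
        obtain ⟨l, rfl⟩ := Submodule.mem_span_singleton.1 hw
        rw [map_smul, hfix]
        exact Submodule.smul_mem _ _ (Submodule.mem_span_singleton_self v))) hGO φ0 h0
      (fun hfix => hns (fun w hw => by
        obtain ⟨l, rfl⟩ := Submodule.mem_span_singleton.1 hw
        rw [map_smul, hfix]
        exact Submodule.smul_mem _ _ (Submodule.mem_span_singleton_self v))))

end Cfsg.Agent.S5691
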