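import Cfsg.Statements.S5697
import Cfsg.Agent.Lib.Helper13.OrthWrap
import Cfsg.Agent.Lib.Helper13.OrthTSP
import Cfsg.Agent.Lib.Helper13.PairWrap

set_option autoImplicit false
open Cfsg Cfsg.Agent.Lib.Helper13 Cfsg.Agent.Lib.Helper13.O Cfsg.Agent.Lib.Helper94 Cfsg.Agent.Lib.Helper44

namespace Cfsg.Agent.S5697

/-- Let F be a finite field with q elements, n ≥ 13 even, Q a non-degenerate quadratic form on F^n of plus type (some subspace of dimension n/2 is totally singular), and Ω the commutator subgroup of the isometry group of Q, viewed inside GL_n(F). Suppose n/2 is even and let D be a decomposition of F^n into two complementary subspaces of dimension n/2 on each of which Q vanishes. Then the elements of Ω preserving or interchanging the two subspaces form a maximal subgroup of Ω. -/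
theorem result {F : Type*} [Field F] [Fintype F] {n : ℕ} (hn : 13 ≤ n) (heven : Even n) (Q : (Fin n → F) → F) (hQ : Cfsg.Geo.IsNondegenerateQuadraticForm Q) (hplus : Cfsg.Geo.IsPlusTypeOn Q ⊤) (k : ℕ) (hk : 2 * k = n) (hke : Even k) (D : Fin 2 → Submodule F (Fin n → F)) (hD : Cfsg.Geo.IsMDecomposition k D) (hts : ∀ i, Cfsg.Geo.IsTotallySingularQuad Q (D i)) : Cfsg.Geo.IsMaximalIn (Cfsg.Geo.omegaGL Q) (Cfsg.Geo.decompositionStabilizer D ⊓ Cfsg.Geo.omegaGL Q) := by
  have hQn : (QuadraticMap.polarBilin (quadOf Q hQ)).Nondegenerate := pB_quadOf_nondegenerate Q hQ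
  have hfr : Module.finrank F (Fin n → F) = n := by simp
  have hf0 := hD.finrank_eq 0
  have hf1 := hD.finrank_eq 1
  have hT : TSP (quadOf Q hQ) (D 0) (D 1) := ⟨hts 0, hts 1, isCompl_of_isMDecomposition hD⟩
  exact omega_maximal_of_core (quadOf Q hQ) (Cfsg.Geo.decompositionStabilizer D) (PairStab (D 0) (D 1))
    (mem_decStab_two_iff D (hf0.trans hf1.symm)) (hT.ne hQn (by omega) (by omega))
    (fun G hG hGO φ0 h0 hns => hT.core hQn (by omega) (by omega) (by rw [hf0]; exact hke) hG hGO h0 hns)

end Cfsg.Agent.S5697
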