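import Cfsg.Statements.S5698
import Cfsg.Agent.Lib.Helper13.OrthWrap
import Cfsg.Agent.Lib.Helper13.OrthPar2
import Cfsg.Agent.Lib.Helper13.PairWrap

set_option autoImplicit false
open Cfsg Cfsg.Agent.Lib.Helper13 Cfsg.Agent.Lib.Helper13.O Cfsg.Agent.Lib.Helper94 Cfsg.Agent.Lib.Helper44

namespace Cfsg.Agent.S5698

/-- Let F be a finite field with q elements, n ≥ 13 even, Q a non-degenerate quadratic form on F^n of plus type (some subspace of dimension n/2 is totally singular), and Ω the commutator subgroup of the isometry group of Q, viewed inside GL_n(F). Suppose n/2 is odd and let D be a decomposition of F^n into two complementary subspaces of dimension n/2 on each of which Q vanishes. Then the elements of Ω preserving or interchanging the two subspaces form a subgroup that is not maximal: some subgroup lies strictly between it and Ω. -/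
theorem result {F : Type*} [Field F] [Fintype F] {n : ℕ} (hn : 13 ≤ n) (heven : Even n) (Q : (Fin n → F) → F) (hQ : Cfsg.Geo.IsNondegenerateQuadraticForm Q) (hplus : Cfsg.Geo.IsPlusTypeOn Q ⊤) (k : ℕ) (hk : 2 * k = n) (hko : Odd k) (D : Fin 2 → Submodule F (Fin n → F)) (hD : Cfsg.Geo.IsMDecomposition k D) (hts : ∀ i, Cfsg.Geo.IsTotallySingularQuad Q (D i)) : ∃ K : Subgroup (Matrix.GeneralLinearGroup (Fin n) F), Cfsg.Geo.decompositionStabilizer D ⊓ Cfsg.Geo.omegaGL Q < K ∧ K < Cfsg.Geo.omegaGL Q := by
  have hQn : (QuadraticMap.polarBilin (quadOf Q hQ)).Nondegenerate := pB_quadOf_nondegenerate Q hQ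
  have hfr : Module.finrank F (Fin n → F) = n := by simp
  have hf0 := hD.finrank_eq 0
  have hf1 := hD.finrank_eq 1
  obtain ⟨h1, h2⟩ := odd_pair_core hQn (by omega) (W₁ := D 0) (W₂ := D 1) (hts 0)
    (isCompl_of_isMDecomposition hD) (by omega) (by rw [hf0]; exact hko)
  have hD0 : D 0 ≠ ⊥ := by
    intro h
    rw [h, finrank_bot] at hf0
    omega
  exact omega_not_maximal (quadOf Q hQ) (Cfsg.Geo.decompositionStabilizer D) (PairStab (D 0) (D 1))
    (fun φ => ∀ w ∈ D 0, φ w ∈ D 0)
    (mem_decStab_two_iff D (hf0.trans hf1.symm)) (Cfsg.Geo.subspaceStabilizer (D 0))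
    (fun g => mem_subspaceStabilizer_iff g (D 0)) h1 h2 (par_ne hQn (by omega) (hts 0) hD0)

end Cfsg.Agent.S5698
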