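import Cfsg.Statements.S5699
import Cfsg.Agent.Lib.Helper13.OrthNDWrap

set_option autoImplicit false
open Cfsg Cfsg.Agent.Lib.Helper13 Cfsg.Agent.Lib.Helper13.O Cfsg.Agent.Lib.Helper94 Cfsg.Agent.Lib.Helper44

namespace Cfsg.Agent.S5699

/-- Let F be a finite field with q elements, n ≥ 13 even, Q a non-degenerate quadratic form on F^n (of either type), and Ω the commutator subgroup of the isometry group of Q, viewed inside GL_n(F). Let D be a decomposition of F^n into two orthogonal subspaces of odd dimension n/2 on which the polar form is non-degenerate and which are not Q-isometric to each other. Then the elements of Ω permuting (necessarily fixing) the two subspaces form a maximal subgroup of Ω. -/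
theorem result {F : Type*} [Field F] [Fintype F] {n : ℕ} (hn : 13 ≤ n) (heven : Even n) (Q : (Fin n → F) → F) (hQ : Cfsg.Geo.IsNondegenerateQuadraticForm Q) (k : ℕ) (hk : 2 * k = n) (hko : Odd k) (D : Fin 2 → Submodule F (Fin n → F)) (hD : Cfsg.Geo.IsNondegenerateMDecomposition (QuadraticMap.polar Q) k D) (hni : ¬ Cfsg.Geo.AreIsometricFor Q (D 0) (D 1)) : Cfsg.Geo.IsMaximalIn (Cfsg.Geo.omegaGL Q) (Cfsg.Geo.decompositionStabilizer D ⊓ Cfsg.Geo.omegaGL Q) := by
  have hQn : (QuadraticMap.polarBilin (quadOf Q hQ)).Nondegenerate := pB_quadOf_nondegenerate Q hQ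
  have hfr : Module.finrank F (Fin n → F) = n := by simp
  have hf0 := hD.decomp.finrank_eq 0
  have hf1 := hD.decomp.finrank_eq 1
  have hOD : OD (quadOf Q hQ) (D 0) (D 1) :=
    ⟨isCompl_of_isMDecomposition hD.decomp, hD.orthogonal 0 1 (by decide)⟩
  have hD0 : D 0 ≠ ⊥ := by
    intro h
    rw [h, finrank_bot] at hf0
    omega
  have hD1 : D 1 ≠ ⊥ := by
    intro h
    rw [h, finrank_bot] at hf1
    omega
  have hnsw : ∀ φ ∈ Om (quadOf Q hQ), ¬ ∀ w ∈ D 0, φ w ∈ D 1 := fun φ hφ hs =>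
    hni (areIsometricFor_of_map (Q := quadOf Q hQ) (hf0.trans hf1.symm) (Om_le_OQ _ hφ) hs)
  have hiff : ∀ φ ∈ Om (quadOf Q hQ), PairStab (D 0) (D 1) φ ↔ ∀ w ∈ D 0, φ w ∈ D 0 := by
    intro φ hφ
    constructor
    · rintro (⟨h, -⟩ | ⟨h, -⟩)
      · exact h
      · exact absurd h (hnsw φ hφ)
    · intro h
      exact Or.inl ⟨h, hOD.stab_symm hQn (Om_le_OQ _ hφ) h⟩
  obtain ⟨φ1, hφ1, hφ1s⟩ := nd_ne hOD hQn (by omega) hD0 hD1
  exact omega_maximal_of_core (quadOf Q hQ) (Cfsg.Geo.decompositionStabilizer D) (PairStab (D 0) (D 1))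
    (mem_decStab_two_iff D (hf0.trans hf1.symm)) ⟨φ1, hφ1, fun h => hφ1s ((hiff φ1 hφ1).1 h)⟩
    (fun G hG hGO φ0 h0 hns => nd_core hOD hQn (by omega) (fun h2 => by omega) (fun h2 => by omega) G
      (fun φ hφ hs => hG φ hφ ((hiff φ hφ).2 hs)) hGO φ0 h0
      (fun hs => hns ((hiff φ0 (hGO h0)).2 hs)) (fun _ => hnsw φ0 (hGO h0)))

end Cfsg.Agent.S5699
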