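import Mathlib
import Cfsg.Statements.S5700
import Cfsg.Agent.Lib.Helper99.OrthK
import Cfsg.Agent.Lib.Helper13.OrthWrap

set_option autoImplicit false
set_option linter.unusedSimpArgs false
set_option linter.unusedVariables false
open Cfsg

namespace Cfsg.Agent.S5700

open Matrix Module QuadraticMap
open Cfsg.Agent.Lib.Helper94 Cfsg.Agent.Lib.Helper99 Cfsg.Agent.Lib.Helper13.O Cfsg.Agent.Lib.Helper44

variable {F : Type*} [Field F]

/-- data extracted from the field subalgebra -/
lemma exists_theta {n : ℕ} (hn : 14 ≤ n) (Q : QuadraticForm F (Fin n → F))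
    (hN : (polarBilin Q).Nondegenerate)
    (K : Subalgebra F (Matrix (Fin n) (Fin n) F)) (hK : Cfsg.Geo.IsFieldSubalgebra 2 K)
    (hac : Cfsg.Geo.IsAdjointClosedFor (QuadraticMap.polar Q) K)
    (hnsa : ¬ Cfsg.Geo.IsSelfAdjointFor (QuadraticMap.polar Q) K)
    (hsc : ∀ k ∈ K, ∃ c : F, ∀ v : (Fin n → F), Q (Matrix.mulVec k v) = c * Q v) :
    ∃ (k₀ : Matrix (Fin n) (Fin n) F) (t c : F), TSetup Q (Matrix.mulVecLin k₀) t c ∧
      (∀ k, k ∈ K ↔ ∃ a b : F, a • (1 : Matrix (Fin n) (Fin n) F) + b • k₀ = k) ∧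
      (∀ a b : F, a • (1 : Matrix (Fin n) (Fin n) F) + b • k₀ = 0 → a = 0 ∧ b = 0) := by
  classical
  unfold Cfsg.Geo.IsSelfAdjointFor at hnsa
  push Not at hnsa
  obtain ⟨k₀, hk₀, u₀, v₀, hne⟩ := hnsa
  obtain ⟨k₁, hk₁, hadj⟩ := hac k₀ hk₀
  obtain ⟨c, hc⟩ := hsc k₀ hk₀
  obtain ⟨c₁, hc₁⟩ := hsc (1 + k₀) (K.add_mem K.one_mem hk₀)
  have hsep : ∀ y : Fin n → F, (∀ x, polar Q x y = 0) → y = 0 := fun y hy => hN.2 y hy
  have hp : ∀ x y, polar Q (k₀ *ᵥ x) (k₀ *ᵥ y) = c * polar Q x y := by
    intro x y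
    simp only [polar, ← Matrix.mulVec_add, hc]
    ring
  have hp₁ : ∀ x y, polar Q (x + k₀ *ᵥ x) (y + k₀ *ᵥ y) = c₁ * polar Q x y := by
    intro x y
    have e : ∀ z, z + k₀ *ᵥ z = (1 + k₀) *ᵥ z := by
      intro z; rw [Matrix.add_mulVec, Matrix.one_mulVec]
    simp only [e, polar, ← Matrix.mulVec_add, hc₁]
    ring
  set t := c₁ - 1 - c with ht
  have hk₁e : ∀ y, k₁ *ᵥ y = t • y - k₀ *ᵥ y := by
    intro y
    have : k₁ *ᵥ y - (t • y - k₀ *ᵥ y) = 0 := by
      apply hsep
      intro x
      have e1 := hp₁ x y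
      rw [polar_add_left, polar_add_right, polar_add_right, hp, hadj] at e1
      rw [polar_sub_right, polar_sub_right, polar_smul_right, smul_eq_mul, ht]
      linear_combination e1
    exact sub_eq_zero.1 this
  have hadj' : ∀ x y, polar Q (k₀ *ᵥ x) y = t * polar Q x y - polar Q x (k₀ *ᵥ y) := by
    intro x y
    rw [hadj, hk₁e, polar_sub_right, polar_smul_right, smul_eq_mul]
  have hsqv : ∀ y, k₀ *ᵥ (k₀ *ᵥ y) = t • (k₀ *ᵥ y) - c • y := by
    intro y
    have : k₀ *ᵥ (k₀ *ᵥ y) - (t • (k₀ *ᵥ y) - c • y) = 0 := by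
      apply hsep
      intro x
      have e1 := hp x y
      rw [hadj'] at e1
      rw [polar_sub_right, polar_sub_right, polar_smul_right, polar_smul_right, smul_eq_mul, smul_eq_mul]
      linear_combination -e1
    exact sub_eq_zero.1 this
  have hsq : k₀ * k₀ = t • k₀ - c • 1 := by
    rw [Matrix.ext_iff_mulVec]
    intro y
    rw [← Matrix.mulVec_mulVec, hsqv, Matrix.sub_mulVec, Matrix.smul_mulVec, Matrix.smul_mulVec,
      Matrix.one_mulVec]
  have hind : ∀ a b : F, a • (1 : Matrix (Fin n) (Fin n) F) + b • k₀ = 0 → a = 0 ∧ b = 0 := by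
    intro a b hab
    have e1 : ∀ u : Fin n → F, a • u + b • (k₀ *ᵥ u) = 0 := by
      intro u
      have := congrArg (fun M => M *ᵥ u) hab
      simpa only [Matrix.add_mulVec, Matrix.smul_mulVec, Matrix.one_mulVec, Matrix.zero_mulVec] using this
    have hb : b = 0 := by
      by_contra hb
      apply hne
      have e2 : ∀ u : Fin n → F, k₀ *ᵥ u = (-(a / b)) • u := by
        intro u
        have : b • (k₀ *ᵥ u) = (-a) • u := by
          rw [neg_smul]; exact eq_neg_of_add_eq_zero_right (e1 u)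
        calc k₀ *ᵥ u = b⁻¹ • (b • (k₀ *ᵥ u)) := by rw [smul_smul, inv_mul_cancel₀ hb, one_smul]
          _ = (-(a / b)) • u := by rw [this, smul_smul]; congr 1; field_simp
      rw [e2, e2, polar_smul_left, polar_smul_right]
    refine ⟨?_, hb⟩
    have hu₀ : u₀ ≠ 0 := by
      rintro rfl
      apply hne
      simp
    have := e1 u₀
    rw [hb, zero_smul, add_zero] at this
    exact (smul_eq_zero.1 this).resolve_right hu₀
  have hspan : Submodule.span F {(1 : Matrix (Fin n) (Fin n) F), k₀} = Subalgebra.toSubmodule K := by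
    apply Submodule.eq_of_le_of_finrank_eq
    · rw [Submodule.span_le]
      intro x hx
      rcases hx with rfl | rfl
      · exact K.one_mem
      · exact hk₀
    · rw [Subalgebra.finrank_toSubmodule, hK.finrank_eq]
      have hli : LinearIndependent F ![(1 : Matrix (Fin n) (Fin n) F), k₀] :=
        LinearIndependent.pair_iff.2 hind
      have := finrank_span_eq_card hli
      have hr : Set.range ![(1 : Matrix (Fin n) (Fin n) F), k₀] = {1, k₀} := by
        ext x
        simp [Fin.exists_fin_two, eq_comm, or_comm]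
      rw [hr, Fintype.card_fin] at this
      exact this
  have hmem : ∀ k, k ∈ K ↔ ∃ a b : F, a • (1 : Matrix (Fin n) (Fin n) F) + b • k₀ = k := by
    intro k
    rw [← Subalgebra.mem_toSubmodule, ← hspan, Submodule.mem_span_pair]
  refine ⟨k₀, t, c, ?_, hmem, hind⟩
  refine
    { nondeg := hN
      sq := fun x => by simp only [Matrix.mulVecLin_apply]; exact hsqv x
      adj := fun x y => by simp only [Matrix.mulVecLin_apply]; exact hadj' x y
      Qθ := fun x => by simp only [Matrix.mulVecLin_apply]; exact hc x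
      self := fun x => ?_
      aniso := ?_
      dim := by rw [Module.finrank_fintype_fun_eq_card, Fintype.card_fin]; exact hn }
  · simp only [Matrix.mulVecLin_apply]
    have e1 := hc₁ x
    rw [Matrix.add_mulVec, Matrix.one_mulVec, QuadraticMap.map_add (⇑Q), hc] at e1
    rw [ht]
    linear_combination e1
  · intro X Y hXY
    set M : Matrix (Fin n) (Fin n) F := X • 1 + (-Y) • k₀ with hM
    set M' : Matrix (Fin n) (Fin n) F := (X - t * Y) • 1 + Y • k₀ with hM'
    have hMK : M ∈ K := (hmem M).2 ⟨_, _, rfl⟩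
    have hprod : M * M' = 0 := by
      have : M * M' = (X ^ 2 - t * X * Y + c * Y ^ 2) • 1 := by
        rw [hM, hM']
        simp only [add_mul, mul_add, Matrix.smul_mul, Matrix.mul_smul, mul_one, one_mul, hsq, smul_smul]
        module
      rw [this, hXY, zero_smul]
    by_cases hM0 : M = 0
    · have := hind _ _ hM0
      exact ⟨this.1, neg_eq_zero.1 this.2⟩
    · obtain ⟨y', hy'K, hy'⟩ := hK.inv _ hMK hM0
      have e1 : y' * M = 1 := by rw [hK.comm _ hy'K _ hMK]; exact hy'
      have hz : M' = 0 := by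
        calc M' = (y' * M) * M' := by rw [e1, one_mul]
          _ = 0 := by rw [mul_assoc, hprod, mul_zero]
      have := hind _ _ hz
      refine ⟨?_, this.2⟩
      have h1 := this.1
      rw [this.2] at h1
      linear_combination h1

lemma mem_normalizer_iff {n : ℕ} (K : Subalgebra F (Matrix (Fin n) (Fin n) F))
    (k₀ : Matrix (Fin n) (Fin n) F)
    (hmem : ∀ k, k ∈ K ↔ ∃ a b : F, a • (1 : Matrix (Fin n) (Fin n) F) + b • k₀ = k)
    (hind : ∀ a b : F, a • (1 : Matrix (Fin n) (Fin n) F) + b • k₀ = 0 → a = 0 ∧ b = 0)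
    (g : Matrix.GeneralLinearGroup (Fin n) F) :
    g ∈ Cfsg.Geo.subalgebraNormalizer K ↔ StabK (Matrix.mulVecLin k₀) (Cfsg.Agent.Lib.Helper94.glEquiv _ F g) := by
  have hgi : (g : Matrix (Fin n) (Fin n) F) *
      ((g⁻¹ : Matrix.GeneralLinearGroup (Fin n) F) : Matrix (Fin n) (Fin n) F) = 1 := by
    rw [← Units.val_mul, mul_inv_cancel, Units.val_one]
  have hig : ((g⁻¹ : Matrix.GeneralLinearGroup (Fin n) F) : Matrix (Fin n) (Fin n) F) *
      (g : Matrix (Fin n) (Fin n) F) = 1 := by
    rw [← Units.val_mul, inv_mul_cancel, Units.val_one]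
  have hstab : StabK (Matrix.mulVecLin k₀) (Cfsg.Agent.Lib.Helper94.glEquiv _ F g) ↔
      ∃ a b : F, (g : Matrix (Fin n) (Fin n) F) * k₀ = (a • 1 + b • k₀) * g := by
    unfold StabK
    refine exists_congr (fun a => exists_congr (fun b => ?_))
    rw [Matrix.ext_iff_mulVec]
    refine forall_congr' (fun x => ?_)
    simp only [Cfsg.Agent.Lib.Helper94.glEquiv_apply, Matrix.mulVecLin_apply, Matrix.mulVec_mulVec, Matrix.add_mul,
      Matrix.smul_mul, one_mul, Matrix.add_mulVec, Matrix.smul_mulVec]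
  rw [hstab]
  have hJK : k₀ ∈ K := (hmem k₀).2 ⟨0, 1, by simp⟩
  constructor
  · intro hg
    obtain ⟨a, b, hab⟩ := (hmem _).1 ((hg k₀).1 hJK)
    exact ⟨a, b, by rw [hab, mul_assoc, hig, mul_one]⟩
  · rintro ⟨a, b, hge⟩
    have hb : b ≠ 0 := by
      rintro rfl
      rw [zero_smul, add_zero, Matrix.smul_mul, one_mul] at hge
      have : k₀ = a • 1 := by
        calc k₀ = (((g⁻¹ : Matrix.GeneralLinearGroup _ F) : Matrix (Fin n) (Fin n) F) * g) * k₀ := by
              rw [hig, one_mul]
          _ = a • 1 := by rw [mul_assoc, hge, Matrix.mul_smul, hig]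
      have := hind a (-1) (by rw [this]; simp)
      exact one_ne_zero (neg_eq_zero.1 this.2)
    have hc1 : (g : Matrix (Fin n) (Fin n) F) * k₀ * (g⁻¹ : Matrix.GeneralLinearGroup _ F)
        = a • 1 + b • k₀ := by
      rw [hge, mul_assoc, hgi, mul_one]
    have hc2 : ((g⁻¹ : Matrix.GeneralLinearGroup _ F) : Matrix (Fin n) (Fin n) F) * k₀ * g
        = (-(a / b)) • 1 + b⁻¹ • k₀ := by
      have e1 : k₀ * (g : Matrix (Fin n) (Fin n) F) = b⁻¹ • ((g : Matrix _ _ F) * k₀ - a • (g : Matrix (Fin n) (Fin n) F)) := by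
        rw [hge, add_mul, Matrix.smul_mul, Matrix.smul_mul, one_mul, add_sub_cancel_left, smul_smul,
          inv_mul_cancel₀ hb, one_smul]
      rw [mul_assoc, e1, Matrix.mul_smul, mul_sub, Matrix.mul_smul, ← mul_assoc, hig, one_mul, smul_sub,
        smul_smul]
      have : b⁻¹ * a = a / b := by field_simp
      rw [this, neg_smul]
      abel
    intro k
    constructor
    · intro hk
      obtain ⟨x, y, rfl⟩ := (hmem k).1 hk
      refine (hmem _).2 ⟨x + y * a, y * b, ?_⟩
      rw [mul_add, add_mul, Matrix.mul_smul, Matrix.mul_smul, Matrix.smul_mul, Matrix.smul_mul, mul_one, hgi,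
        hc1]
      module
    · intro hk
      obtain ⟨x, y, hab⟩ := (hmem _).1 hk
      refine (hmem _).2 ⟨x + y * (-(a / b)), y * b⁻¹, ?_⟩
      have : k = ((g⁻¹ : Matrix.GeneralLinearGroup _ F) : Matrix (Fin n) (Fin n) F) *
          ((g : Matrix (Fin n) (Fin n) F) * k * (g⁻¹ : Matrix.GeneralLinearGroup _ F)) * g := by
        rw [mul_assoc (g : Matrix (Fin n) (Fin n) F), ← mul_assoc, hig, one_mul, mul_assoc, hig,
          mul_one]
      rw [this, ← hab, mul_add, add_mul, Matrix.mul_smul, Matrix.mul_smul, Matrix.smul_mul, Matrix.smul_mul,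
        mul_one, hig, hc2]
      module

/-- Let F be a finite field with q elements, n ≥ 13 even, Q a non-degenerate quadratic form on F^n (of either type), and Ω the commutator subgroup of the isometry group of Q, viewed inside GL_n(F). Let K be a subfield of the algebra of n × n matrices over F containing the scalars, of degree 2 over F, closed under adjoints for the polar form of Q but not consisting of self-adjoint elements, and such that every k in K rescales Q (Q(k v) = c Q(v) for a constant c depending on k). Then the elements of Ω normalising K form a maximal subgroup of Ω. -/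
theorem result {F : Type*} [Field F] [Fintype F] {n : ℕ} (hn : 13 ≤ n) (heven : Even n) (Q : (Fin n → F) → F) (hQ : Cfsg.Geo.IsNondegenerateQuadraticForm Q) (K : Subalgebra F (Matrix (Fin n) (Fin n) F)) (hK : Cfsg.Geo.IsFieldSubalgebra 2 K) (hac : Cfsg.Geo.IsAdjointClosedFor (QuadraticMap.polar Q) K) (hnsa : ¬ Cfsg.Geo.IsSelfAdjointFor (QuadraticMap.polar Q) K) (hsc : ∀ k ∈ K, ∃ c : F, ∀ v : (Fin n → F), Q (Matrix.mulVec k v) = c * Q v) : Cfsg.Geo.IsMaximalIn (Cfsg.Geo.omegaGL Q) (Cfsg.Geo.subalgebraNormalizer K ⊓ Cfsg.Geo.omegaGL Q) := by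
  classical
  have hQn : (QuadraticMap.polarBilin (quadOf Q hQ)).Nondegenerate := pB_quadOf_nondegenerate Q hQ
  have hn14 : 14 ≤ n := by
    obtain ⟨k, hk⟩ := heven
    omega
  obtain ⟨k₀, t, c, h, hmem, hind⟩ := exists_theta hn14 (quadOf Q hQ) hQn K hK hac hnsa hsc
  exact omega_maximal_of_core (quadOf Q hQ) (Cfsg.Geo.subalgebraNormalizer K) (StabK (Matrix.mulVecLin k₀))
    (mem_normalizer_iff K k₀ hmem hind) h.exists_not_stab
    (fun G hG hGO φ0 h0 hns => h.core G hG hGO φ0 h0 hns)

end Cfsg.Agent.S5700
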