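import Cfsg.Statements.S5704
import Cfsg.Agent.Lib.Helper99.SpW

set_option autoImplicit false
open Cfsg

namespace Cfsg.Agent.S5704

open Cfsg.Agent.Lib.Helper99.Tens Cfsg.Agent.Lib.Helper99.TSp

/-- Let F be a finite field with q elements, n ≥ 13 even, Q a non-degenerate quadratic form on F^n of plus type (some subspace of dimension n/2 is totally singular), and Ω the commutator subgroup of the isometry group of Q, viewed inside GL_n(F). Suppose that, through a change of basis P and a bijection of index sets e, the polar form of Q is similar to the tensor product of non-degenerate symplectic forms f₁ on F^(n₁) and f₂ on F^(n₂) with n₁ < n₂, and Q vanishes on the images of all pure tensors. Unless q = 2 and n₁ = 2, the elements of Ω in the stabiliser of this tensor decomposition form a maximal subgroup of Ω. -/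
theorem result {F : Type*} [Field F] [Fintype F] {n : ℕ} (hn : 13 ≤ n) (heven : Even n) (Q : (Fin n → F) → F) (hQ : Cfsg.Geo.IsNondegenerateQuadraticForm Q) (hplus : Cfsg.Geo.IsPlusTypeOn Q ⊤) (n₁ n₂ : ℕ) (h12 : n₁ < n₂) (hex : ¬ (Fintype.card F = 2 ∧ n₁ = 2)) (e : (Fin n) ≃ Fin n₁ × Fin n₂) (P : Matrix.GeneralLinearGroup (Fin n) F) (f₁ : (Fin n₁ → F) → (Fin n₁ → F) → F) (f₂ : (Fin n₂ → F) → (Fin n₂ → F) → F) (hf₁ : Cfsg.Geo.IsSymplecticForm f₁) (hf₂ : Cfsg.Geo.IsSymplecticForm f₂) (hT : Cfsg.Geo.IsTensorFormStructure id (QuadraticMap.polar Q) f₁ f₂ e P) (hpure : (∀ (x₁ : Fin n₁ → F) (x₂ : Fin n₂ → F), Q (Matrix.mulVec (P : Matrix (Fin n) (Fin n) F) ((fun a : Fin n₁ × Fin n₂ => x₁ a.1 * x₂ a.2) ∘ e)) = 0)) : Cfsg.Geo.IsMaximalIn (Cfsg.Geo.omegaGL Q) (Cfsg.Geo.tensorProductSubgroup n₁ n₂ e P ⊓ Cfsg.Geo.omegaGL Q) := by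
  classical
  have hS1 := sym_gram hf₁
  have hS2 := sym_gram hf₂
  have he1 : Even n₁ := by simpa using hS1.even_card
  have he2 : Even n₂ := by simpa using hS2.even_card
  have hcard : n = n₁ * n₂ := by
    have := Fintype.card_congr e
    simpa using this
  obtain ⟨k₁, hk₁⟩ := he1
  obtain ⟨k₂, hk₂⟩ := he2
  have hk1 : 1 ≤ k₁ := by
    by_contra h
    have : k₁ = 0 := by omega
    subst this
    simp at hk₁
    subst hk₁
    simp at hcard
    omega
  have hk2 : 3 ≤ k₂ := by
    by_contra h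
    have h2 : k₂ ≤ 2 := by omega
    have h1 : k₁ ≤ 1 := by omega
    have : n₁ * n₂ ≤ 2 * 4 := Nat.mul_le_mul (by omega) (by omega)
    omega
  haveI : NeZero n₁ := ⟨by omega⟩
  haveI : NeZero n₂ := ⟨by omega⟩
  have hex' : 3 ≤ Fintype.card (Fin n₁) ∨ ∃ c : F, c ≠ 0 ∧ c ≠ 1 := by
    by_cases h : 3 ≤ n₁
    · left
      simpa using h
    · right
      have hn1 : n₁ = 2 := by omega
      by_contra hcon
      push Not at hcon
      apply hex
      refine ⟨?_, hn1⟩
      have hle : Fintype.card F ≤ 2 := by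
        have : (Finset.univ : Finset F) ⊆ {0, 1} := by
          intro c _
          by_cases hc : c = 0
          · simp [hc]
          · simp [hcon c hc]
        exact (Finset.card_le_card this).trans Finset.card_le_two
      have := Fintype.one_lt_card (α := F)
      omega
  obtain ⟨c, hc0, hc⟩ := hT
  have hQ0 := Q0_nondeg e P hQ
  set Q' := Cfsg.Agent.Lib.Helper94.quadOf (Q0 e P Q) hQ0 with hQ'
  have hTQ : TQ (Cfsg.Geo.gramMatrix f₁) (Cfsg.Geo.gramMatrix f₂) Q' c :=
    { s1 := hS1
      s2 := hS2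
      c0 := hc0
      pol := by
        intro x y
        have h1 : QuadraticMap.polar (⇑Q') x y = QuadraticMap.polar (Q0 e P Q) x y := rfl
        rw [h1, polar_Q0, Cfsg.Agent.Lib.Helper94.Tens.TT_apply, Cfsg.Agent.Lib.Helper94.Tens.TT_apply, hc,
          pr_eq_formOfGram]
      pure := fun z y => hpure z y
      nd := Cfsg.Agent.Lib.Helper94.pB_quadOf_nondegenerate _ hQ0 }
  rw [tensorProductSubgroup_eq e P, omegaGL_eq e P Q, ← Subgroup.comap_inf]
  apply Cfsg.Agent.Lib.Helper94.isMaximalIn_comap (tensE e P).symm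
  have hmax := maximal_AB hTQ (by simp; omega) (by simp; omega) (by simp; omega) (by simp; omega) hex'
    (Kr := Cfsg.Geo.kroneckerSubgroup n₁ n₂ F) (fun g => mem_kron_iff g)
  rw [OmG_eq] at hmax
  exact hmax

end Cfsg.Agent.S5704
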