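import Cfsg.Statements.S5705
import Cfsg.Agent.Lib.Helper94.TensF2
import Cfsg.Agent.Lib.Helper94.OrthFrame


set_option autoImplicit false
open Cfsg

namespace Cfsg.Agent.S5705

open Cfsg.Agent.Lib.Helper94 Cfsg.Agent.Lib.Helper94.Tens Cfsg.Agent.Lib.Helper94.U
open Cfsg.Agent.Lib.Helper44 Cfsg.Agent.Lib.Helper13.O

/-- Let F be the field with 2 elements, n = 2 n₂ ≥ 13 even, Q a non-degenerate quadratic form on F^n of plus type and Ω the commutator subgroup of its isometry group. Suppose that, through P and e, the polar form of Q is similar to the tensor product of non-degenerate symplectic forms f₁ on F^2 and f₂ on F^(n₂), and Q vanishes on the images of all pure tensors. Then the elements of Ω in the stabiliser of this tensor decomposition form a subgroup that is not maximal: some subgroup lies strictly between it and Ω. -/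
theorem result {F : Type*} [Field F] [Fintype F] {n : ℕ} (hn : 13 ≤ n) (heven : Even n) (Q : (Fin n → F) → F) (hQ : Cfsg.Geo.IsNondegenerateQuadraticForm Q) (hplus : Cfsg.Geo.IsPlusTypeOn Q ⊤) (hq : Fintype.card F = 2) (n₂ : ℕ) (h2 : 2 < n₂) (e : (Fin n) ≃ Fin 2 × Fin n₂) (P : Matrix.GeneralLinearGroup (Fin n) F) (f₁ : (Fin 2 → F) → (Fin 2 → F) → F) (f₂ : (Fin n₂ → F) → (Fin n₂ → F) → F) (hf₁ : Cfsg.Geo.IsSymplecticForm f₁) (hf₂ : Cfsg.Geo.IsSymplecticForm f₂) (hT : Cfsg.Geo.IsTensorFormStructure id (QuadraticMap.polar Q) f₁ f₂ e P) (hpure : (∀ (x₁ : Fin 2 → F) (x₂ : Fin n₂ → F), Q (Matrix.mulVec (P : Matrix (Fin n) (Fin n) F) ((fun a : Fin 2 × Fin n₂ => x₁ a.1 * x₂ a.2) ∘ e)) = 0)) : ∃ K : Subgroup (Matrix.GeneralLinearGroup (Fin n) F), Cfsg.Geo.tensorProductSubgroup 2 n₂ e P ⊓ Cfsg.Geo.omegaGL Q < K ∧ K < Cfsg.Geo.omegaGL Q := by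
  classical
  have h2' := card2_cases hq
  have h20 := card2_two hq
  set Q' := quadOf Q hQ with hQ'
  have hND : (QuadraticMap.polarBilin Q').Nondegenerate := pB_quadOf_nondegenerate Q hQ
  set T := pt e P with hTdef
  set a := Pi.basisFun F (Fin 2) with ha
  have hU : Function.Injective (Th T a) := Th_basisFun_injective e P
  set ω := Lift e P ww with hωdef
  have hωT : ∀ x y, ω (T x y) = T (ww x) y := Lift_pt e P ww
  have hω : ∀ v, ω (ω v) = ω v + v := Lift_ww_sq e P
  have ha0 : ww (a 0) = a 1 := by simp only [ha, Pi.basisFun_apply]; exact ww_single0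
  have ha1 : ww (a 1) = a 0 + a 1 := by simp only [ha, Pi.basisFun_apply]; exact ww_single1
  obtain ⟨c, hc, hform⟩ := form_pt (QuadraticMap.polar Q) f₁ f₂ hf₁.bilinear hf₂.bilinear e P hT
  have hc1 : c = 1 := (h2' c).resolve_left hc
  subst hc1
  set β := QuadraticMap.polarBilin Q' with hβ
  have hβp : ∀ u v, QuadraticMap.polar Q' u v = β u v := fun u v => rfl
  have hB : ∀ x y x' y', β (T x y) (T x' y') = f₁ x x' * f₂ y y' := by
    intro x y x' y'
    have := hform x y x' y'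
    rw [one_mul] at this
    exact this
  have hpure' : ∀ x y, Q' (T x y) = 0 := by
    intro x y
    rw [hTdef, pt_apply]
    exact hpure x y
  have hneg : ∀ k : F, -k = k := by
    intro k
    linear_combination (-k) * h20
  have hb₁ := hf₁.bilinear
  have hb₂ := hf₂.bilinear
  have hxa : ∀ x : Fin 2 → F, x = x 0 • a 0 + x 1 • a 1 := by
    intro x
    funext i
    fin_cases i <;> simp [ha]
  have g00 : f₁ (a 0) (a 0) = 0 := hf₁.alternating _
  have g11 : f₁ (a 1) (a 1) = 0 := hf₁.alternating _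
  have g01 : f₁ (a 0) (a 1) = 1 := by
    have h0 : a 0 ≠ 0 := a.ne_zero 0
    obtain ⟨x, hx⟩ := (hf₁.nondegenerate (a 0) h0).2
    refine (h2' _).resolve_left ?_
    intro h
    apply hx
    rw [hxa x, hb₁.add_right, hb₁.smul_right, hb₁.smul_right, g00, h]
    simp
  have g10 : f₁ (a 1) (a 0) = 1 := by rw [hf₁.skew, g01, hneg]
  have hf₁c : ∀ x x', f₁ x x' = x 0 * x' 1 + x 1 * x' 0 := by
    intro x x'
    conv_lhs => rw [hxa x, hxa x']
    simp only [hb₁.add_left, hb₁.add_right, hb₁.smul_left, hb₁.smul_right, g00, g01, g10, g11]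
    ring
  have hf₁w : ∀ x x', f₁ (ww x) (ww x') = f₁ x x' := by
    intro x x'
    rw [hf₁c, hf₁c]
    simp only [ww_apply, Matrix.cons_val_zero, Matrix.cons_val_one]
    linear_combination (x 1 * x' 1) * h20
  have hinv : ∀ u v, β (ω u) (ω v) = β u v := by
    have : β.compl₁₂ (ω : (Fin n → F) →ₗ[F] (Fin n → F)) (ω : (Fin n → F) →ₗ[F] (Fin n → F)) = β := by
      apply pt_ext e P
      intro x y
      apply pt_ext e P
      intro x' y'
      rw [LinearMap.compl₁₂_apply]
      simp only [LinearEquiv.coe_coe]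
      rw [hωT, hωT, hB, hB, hf₁w]
    intro u v
    conv_rhs => rw [← this]
    rfl
  have hswap : ∀ u x, β u (ω x) = β u x + β (ω u) x := by
    intro u x
    rw [← hinv u (ω x), hω, map_add, hinv, add_comm]
  have hQ2 : ∀ y₀ y₁, Q' (T (a 0) y₀ + T (a 1) y₁) = f₂ y₀ y₁ := by
    intro y₀ y₁
    rw [QuadraticMap.map_add (⇑Q'), hpure', hpure', hβp, hB, g01]
    ring
  -- vectors of the large factor
  have hcard : n = 2 * n₂ := by
    have := Fintype.card_congr e
    simpa using this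
  obtain ⟨b₁, hb₁0⟩ : ∃ u : Fin n₂ → F, u ≠ 0 := by
    refine ⟨Pi.single ⟨0, by omega⟩ 1, ?_⟩
    intro h
    have := congrFun h ⟨0, by omega⟩
    simp at this
  obtain ⟨y, hy⟩ := (hf₂.nondegenerate b₁ hb₁0).2
  have hy1 : f₂ b₁ y = 1 := (h2' _).resolve_left hy
  obtain ⟨b₂, hb₂0, hb₁b₂, hyb₂⟩ : ∃ b₂ : Fin n₂ → F, b₂ ≠ 0 ∧ f₂ b₁ b₂ = 0 ∧ f₂ y b₂ = 0 := by
    have hker : LinearMap.ker ((formB f₂ hb₂ b₁).prod (formB f₂ hb₂ y)) ≠ ⊥ := by
      apply LinearMap.ker_ne_bot_of_finrank_lt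
      simp
      omega
    obtain ⟨b₂, hb₂, hne⟩ := Submodule.exists_mem_ne_zero_of_ne_bot hker
    rw [LinearMap.mem_ker, LinearMap.prod_apply, Prod.mk_eq_zero] at hb₂
    exact ⟨b₂, hne, hb₂.1, hb₂.2⟩
  obtain ⟨z, hz⟩ := (hf₂.nondegenerate b₂ hb₂0).1
  have hb₂b₁ : f₂ b₂ b₁ = 0 := by rw [hf₂.skew, hb₁b₂, neg_zero]
  have hb₂y : f₂ b₂ y = 0 := by rw [hf₂.skew, hyb₂, neg_zero]
  have hdim : 4 < Module.finrank F (Fin n → F) := by simp; omega
  refine omega_not_maximal Q' _ (fun φ => (Cfsg.Agent.Lib.Helper94.glEquiv _ F).symm φ ∈ Cfsg.Geo.tensorProductSubgroup 2 n₂ e P)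
    (fun φ => φ ∈ invNorm ω) (fun g => by simp)
    ((invNorm ω).comap (Cfsg.Agent.Lib.Helper94.glEquiv (Fin n) F).toMonoidHom) (fun g => Iff.rfl) ?_ ?_ ?_
  · intro φ _ hst
    exact tensor_mem_invNorm h2' h20 e P φ hst
  · set u := T (a 0) b₁ + T (a 1) b₂ with hu
    have hωu : ω u = T (a 0) b₂ + T (a 1) (b₁ + b₂) := by
      rw [hu, map_add, hωT, hωT, ha0, ha1]
      simp only [map_add, LinearMap.add_apply]
      abel
    have hQu : Q' u = 0 := by rw [hu, hQ2, hb₁b₂]
    have hQωu : Q' (ω u) = 0 := by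
      rw [hωu, hQ2, hb₂.add_right, hb₂b₁, hf₂.alternating, add_zero]
    have hβu : QuadraticMap.polar Q' u (ω u) = 0 := by
      rw [hβp, hωu, hu]
      simp only [map_add, LinearMap.add_apply, hB, g00, g01, g10, g11, hb₂.add_right, hf₂.alternating,
        hb₁b₂, hb₂b₁]
      simp
    have hE : ∀ x, eichler Q' u (ω u) hQu hβu x = x + β (ω u) x • u - β u x • ω u := by
      intro x
      rw [eichler_apply, hQωu, hβp, hβp]
      simp
    refine ⟨eichler Q' u (ω u) hQu hβu, eichler_mem_Om hND hdim _ _ _ _, ?_, ?_⟩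
    · apply mem_invNorm_of_comm
      intro x
      rw [hE, hE, hinv, hswap]
      simp only [map_add, map_sub, map_smul, hω]
      linear_combination (norm := module) h20 • (β u x • u - β (ω u) x • ω u)
    · intro hst
      obtain ⟨A, B, hAB⟩ := exists_of_symm_mem e P _ hst
      have h1 := hAB (a 0) y
      have h3 : eichler Q' u (ω u) hQu hβu (T (a 0) y) = T (a 0) (y + b₁) + T (a 1) b₂ := by
        rw [hE, hωu, hu]
        simp only [map_add, LinearMap.add_apply, hB, g00, g01, g10, g11, hb₂.add_left, hy1, hb₂y]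
        simp only [zero_mul, one_mul, zero_add, add_zero, one_smul, zero_smul, sub_zero]
        abel
      obtain ⟨ξ, ξ', e1, e2⟩ := pure_parallel hU (i := 0) (j := 1) (by decide) (h1.symm.trans h3)
      have hm := minor_eq e1 e2 (formB f₂ hb₂ b₁) (formB f₂ hb₂ z)
      simp only [formB_apply, hb₂.add_right, hy1, hf₂.alternating, hb₁b₂] at hm
      simp at hm
      exact hz hm
  · have hβ0 : QuadraticMap.polar Q' (T (a 0) b₁) (T (a 0) b₂) = 0 := by rw [hβp, hB, g00, zero_mul]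
    have hE : ∀ x, eichler Q' (T (a 0) b₁) (T (a 0) b₂) (hpure' _ _) hβ0 x =
        x + β (T (a 0) b₂) x • T (a 0) b₁ - β (T (a 0) b₁) x • T (a 0) b₂ := by
      intro x
      rw [eichler_apply, hpure', hβp, hβp]
      simp
    refine ⟨eichler Q' (T (a 0) b₁) (T (a 0) b₂) (hpure' _ _) hβ0, eichler_mem_Om hND hdim _ _ _ _, ?_⟩
    refine not_mem_invNorm hω (x := T (a 0) b₁) (T_ne_zero hU 0 hb₁0) ?_ ?_ (y := T (a 1) y) ?_
    · rw [hE, hB, hB, g00]; simp
    · rw [hE, hωT, ha0, hB, hB, hb₂b₁, hf₂.alternating]; simp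
    · rw [hE, hE, hωT, ha1]
      simp only [map_add, map_sub, map_smul, LinearMap.add_apply, hB, g00, g01, hy1, hb₂y, hωT, ha0, ha1]
      simp only [zero_mul, one_mul, zero_add, add_zero, one_smul, zero_smul, mul_zero, mul_one]
      intro h
      have h5 : T (a 0) b₂ + T (a 1) 0 = T (a 0) 0 + T (a 1) b₂ := by
        simp only [map_zero, add_zero, zero_add]
        have := congrArg (fun w => (T (a 0) y + T (a 1) y) - w) h
        simpa using this
      exact hb₂0 (comp_eq hU (by decide) h5).1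

end Cfsg.Agent.S5705
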