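import Cfsg.Statements.S5775
import Cfsg.Agent.Lib.Helper65.Asch.RowTools
import Cfsg.Agent.Lib.Helper65.Asch.D9
import Cfsg.Agent.Lib.Helper65.Asch.D11
import Cfsg.Agent.Lib.Helper13.Asch.Main
import Cfsg.Agent.Lib.Helper58.Asch.D1
import Cfsg.Agent.Lib.Helper58.Asch.D1c
import Cfsg.Agent.Lib.Helper58.Asch.D6
import Cfsg.Agent.Lib.Helper73.Asch.D1f
import Cfsg.Agent.Lib.Helper55.Asch.D3a
import Cfsg.Agent.Lib.Helper55.Asch.D3b
import Cfsg.Agent.Lib.Helper55.Asch.D3c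
import Cfsg.Agent.Lib.Helper55.Asch.DecCore

set_option autoImplicit false
open Cfsg

namespace Cfsg.Agent.S5775

open Cfsg.Geo Cfsg.Agent.Lib.Helper13.Asch Cfsg.Agent.Lib.Helper65.Asch
open Cfsg.Agent.Lib.Helper58.Asch Cfsg.Agent.Lib.Helper73.Asch Cfsg.Agent.Lib.Helper55.Asch

theorem result {F : Type*} [Field F] [Fintype F] (H : Subgroup (Matrix.GeneralLinearGroup (Fin 3) F)) (hH : Cfsg.Geo.IsMaximalIn (Cfsg.Geo.specialLinear (Fin 3) F) H) :
    (∃ W : Submodule F (Fin 3 → F), W ≠ ⊥ ∧ W ≠ ⊤ ∧ H = Cfsg.Geo.subspaceStabilizer W ⊓ Cfsg.Geo.specialLinear (Fin 3) F) ∨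
    (5 ≤ Fintype.card F ∧ ∃ D : Fin 3 → Submodule F (Fin 3 → F), Cfsg.Geo.IsMDecomposition 1 D ∧ H = Cfsg.Geo.decompositionStabilizer D ⊓ Cfsg.Geo.specialLinear (Fin 3) F) ∨
    (Fintype.card F ≠ 4 ∧ ∃ K : Subalgebra F (Matrix (Fin 3) (Fin 3) F), Cfsg.Geo.IsFieldSubalgebra 3 K ∧ H = Cfsg.Geo.subalgebraNormalizer K ⊓ Cfsg.Geo.specialLinear (Fin 3) F) ∨
    (∃ (F₀ : Subfield F) (r : ℕ) (P : Matrix.GeneralLinearGroup (Fin 3) F), r.Prime ∧ Fintype.card F = Nat.card F₀ ^ r ∧ H = Cfsg.Geo.subfieldSubgroup F₀ P ⊓ Cfsg.Geo.specialLinear (Fin 3) F) ∨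
    (∃ (p : ℕ) (R : Subgroup (Matrix.GeneralLinearGroup (Fin 3) F)), p.Prime ∧ Fintype.card F = p ∧ p % 3 = 1 ∧ Cfsg.Geo.IsLinearSymplecticTypeData 3 R ∧ H = Cfsg.Geo.subgroupNormalizer R ⊓ Cfsg.Geo.specialLinear (Fin 3) F) ∨
    (Odd (Fintype.card F) ∧ ∃ Q : (Fin 3 → F) → F, Cfsg.Geo.IsNondegenerateQuadraticForm Q ∧ H = Cfsg.Geo.quadSimilarityGroup Q ⊓ Cfsg.Geo.specialLinear (Fin 3) F) ∨
    (∃ (σ : F ≃+* F) (f : (Fin 3 → F) → (Fin 3 → F) → F), Cfsg.Geo.IsUnitaryForm σ f ∧ H = Cfsg.Geo.similarityGroup f ⊓ Cfsg.Geo.specialLinear (Fin 3) F) ∨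
    Cfsg.Geo.InLinearResidualClass H := by
  have h3 : 3 ≤ Fintype.card (Fin 3) := by simp
  have h2 : 2 ≤ Fintype.card (Fin 3) := by simp
  -- the closing steps
  have cStab : ∀ W : Submodule F (Fin 3 → F), W ≠ ⊥ → W ≠ ⊤ → H ≤ subspaceStabilizer W →
      H = subspaceStabilizer W ⊓ specialLinear (Fin 3) F := fun W h0 h1 h =>
    eq_inf_of_maximal hH h (sl_not_le_stab W h0 h1)
  have cQuad : ∀ Q : (Fin 3 → F) → F, IsNondegenerateQuadraticForm Q → H ≤ quadSimilarityGroup Q →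
      H = quadSimilarityGroup Q ⊓ specialLinear (Fin 3) F := fun Q hQ h =>
    eq_inf_of_maximal hH h (sl_not_le_quadSim h3 Q hQ)
  have cUnit : ∀ (σ : F ≃+* F) (f : (Fin 3 → F) → (Fin 3 → F) → F), IsUnitaryForm σ f →
      H ≤ similarityGroup f → H = similarityGroup f ⊓ specialLinear (Fin 3) F := fun σ f hf h =>
    eq_inf_of_maximal hH h (sl_not_le_sim h3 f hf.add_left hf.nondegenerate)
  have cSub : ∀ (F₀ : Subfield F) (r : ℕ) (P : Matrix.GeneralLinearGroup (Fin 3) F), r.Prime →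
      Fintype.card F = Nat.card F₀ ^ r → H ≤ subfieldSubgroup F₀ P →
      H = subfieldSubgroup F₀ P ⊓ specialLinear (Fin 3) F := fun F₀ r P hr hc h =>
    eq_inf_of_maximal hH h (sl_not_le_subfield h2 F₀ (subfield_ne_top hr hc) P)
  rcases main 3 le_rfl H with hcls | hres
  swap
  · exact Or.inr (Or.inr (Or.inr (Or.inr (Or.inr (Or.inr (Or.inr hres))))))
  rcases hcls with ⟨W, h0, h1, h⟩ | ⟨t, m, D, hD, h⟩ | ⟨r, K, hr, hK, h⟩ | ⟨a, b, e, P, ha, hb, h⟩ |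
    ⟨F₀, r, P, hr, hc, h⟩ | ⟨r, m, R, hR, hm, hn, h⟩ | ⟨m, t, e, P, hm, ht, h⟩ | ⟨f, hf, he, h4, h⟩ |
    ⟨σ, f, hf, h⟩ | ⟨Q, hQ, ho, h⟩
  · exact Or.inl ⟨W, h0, h1, cStab W h0 h1 h⟩
  · -- decompositions
    have htm : t * m = 3 := by simpa using card_of_decomp D hD
    have ht2 := hD.two_le
    have hm0 := hD.pos
    have ht : t = 3 := by
      have : t ∣ 3 := ⟨m, htm.symm⟩
      rcases (Nat.dvd_prime Nat.prime_three).mp this with h | h <;> omega
    subst ht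
    have hm1 : m = 1 := by omega
    subst hm1
    by_cases hq : 5 ≤ Fintype.card F
    · exact Or.inr (Or.inl ⟨hq, D, hD, eq_inf_of_maximal hH h (sl_not_le_decomp D hD)⟩)
    · have hq1 : 1 < Fintype.card F := Fintype.one_lt_card
      have hq' : Fintype.card F = 2 ∨ Fintype.card F = 3 ∨ Fintype.card F = 4 := by omega
      rcases hq' with hq' | hq' | hq'
      · obtain ⟨W, h0, h1, hW⟩ := monomial_two hq' D hD
        exact Or.inl ⟨W, h0, h1, cStab W h0 h1 (h.trans hW)⟩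
      · obtain ⟨Q, hQ, hW⟩ := monomial_three hq' D hD
        exact Or.inr (Or.inr (Or.inr (Or.inr (Or.inr (Or.inl
          ⟨by rw [hq']; decide, Q, hQ, cQuad Q hQ (h.trans hW)⟩)))))
      · obtain ⟨σ, f, hf, hW⟩ := monomial_four hq' D hD
        exact Or.inr (Or.inr (Or.inr (Or.inr (Or.inr (Or.inr (Or.inl
          ⟨σ, f, hf, cUnit σ f hf (h.trans hW)⟩))))))
  · -- extension fields
    have hr3 : r = 3 := by
      have : r ∣ 3 := by simpa using dvd_card_of_field K hK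
      exact (Nat.prime_dvd_prime_iff_eq hr Nat.prime_three).mp this
    subst hr3
    by_cases hq : Fintype.card F = 4
    · obtain ⟨F₀, P, hc, hle⟩ := cubic_four hq K hK
      exact Or.inr (Or.inr (Or.inr (Or.inl ⟨F₀, 2, P, Nat.prime_two, hc,
        cSub F₀ 2 P Nat.prime_two hc ((le_inf h (le_sl_of_maximal hH)).trans hle)⟩)))
    · exact Or.inr (Or.inr (Or.inl ⟨hq, K, hK,
        eq_inf_of_maximal hH h (sl_not_le_field h3 hr K hK)⟩))
  · -- tensor products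
    exfalso
    have hc : 3 = a * b := by simpa using Fintype.card_congr e
    nlinarith
  · exact Or.inr (Or.inr (Or.inr (Or.inl ⟨F₀, r, P, hr, hc, cSub F₀ r P hr hc h⟩)))
  · -- symplectic type
    have hrp := hR.symplecticType.prime
    have hr3 : r = 3 := by
      have : r ∣ 3 := by rw [hn]; exact dvd_pow_self r (by omega)
      exact (Nat.prime_dvd_prime_iff_eq hrp Nat.prime_three).mp this
    subst hr3
    obtain ⟨p, e, hp, -, hc, hne, hcase⟩ := sympData_arith R h3 hR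
    rcases hcase with ⟨-, hoe, hdvd, hmin⟩ | ⟨h2', -, -⟩
    swap
    · omega
    have hp3 : ¬ 3 ∣ p := fun hd => hne ((Nat.prime_dvd_prime_iff_eq Nat.prime_three hp).mp hd)
    have he1 : e = 1 := by
      by_contra hne1
      have he3 : 2 < e := by
        rcases hoe with ⟨k, hk⟩
        omega
      apply hmin 2 (by norm_num) he3
      have hmod : p % 3 = 1 ∨ p % 3 = 2 := by omega
      have hsq : p ^ 2 % 3 = 1 := by
        rcases hmod with h | h <;> simp [Nat.pow_mod, h]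
      omega
    subst he1
    rw [pow_one] at hc hdvd
    have hp1 := hp.one_lt
    exact Or.inr (Or.inr (Or.inr (Or.inr (Or.inl ⟨p, R, hp, hc, by omega, hR,
      eq_inf_of_maximal hH h (sl_not_le_sympNormalizer h3 R hR)⟩))))
  · -- tensor wreath
    exfalso
    have hc : 3 = m ^ t := by simpa using Fintype.card_congr e
    have : 3 ^ 2 ≤ m ^ t := (Nat.pow_le_pow_left hm 2).trans (Nat.pow_le_pow_right (by omega) ht)
    omega
  · exact absurd he (by decide)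
  · exact Or.inr (Or.inr (Or.inr (Or.inr (Or.inr (Or.inr (Or.inl ⟨σ, f, hf, cUnit σ f hf h⟩))))))
  · exact Or.inr (Or.inr (Or.inr (Or.inr (Or.inr (Or.inl ⟨ho, Q, hQ, cQuad Q hQ h⟩)))))

end Cfsg.Agent.S5775
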