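import Cfsg.Statements.S5781
import Cfsg.Agent.Lib.Helper65.Asch.RowTools
import Cfsg.Agent.Lib.Helper65.Asch.D9
import Cfsg.Agent.Lib.Helper65.Asch.D12
import Cfsg.Agent.Lib.Helper13.Asch.Main
import Cfsg.Agent.Lib.Helper58.Asch.D1
import Cfsg.Agent.Lib.Helper58.Asch.D1c
import Cfsg.Agent.Lib.Helper58.Asch.D6
import Cfsg.Agent.Lib.Helper73.Asch.D1f
import Cfsg.Agent.Lib.Helper55.Asch.D10
import Cfsg.Agent.Lib.Helper55.Asch.D3a
import Cfsg.Agent.Lib.Helper55.Asch.D3b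
import Cfsg.Agent.Lib.Helper55.Asch.D3c
import Cfsg.Agent.Lib.Helper55.Asch.D4
import Cfsg.Agent.Lib.Helper55.Asch.DecCore

set_option autoImplicit false
open Cfsg

namespace Cfsg.Agent.S5781

open Cfsg.Geo Cfsg.Agent.Lib.Helper13.Asch Cfsg.Agent.Lib.Helper65.Asch
open Cfsg.Agent.Lib.Helper58.Asch Cfsg.Agent.Lib.Helper73.Asch Cfsg.Agent.Lib.Helper55.Asch

theorem result {F : Type*} [Field F] [Fintype F] (H : Subgroup (Matrix.GeneralLinearGroup (Fin 4) F)) (hH : Cfsg.Geo.IsMaximalIn (Cfsg.Geo.specialLinear (Fin 4) F) H) :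
    (∃ W : Submodule F (Fin 4 → F), W ≠ ⊥ ∧ W ≠ ⊤ ∧ H = Cfsg.Geo.subspaceStabilizer W ⊓ Cfsg.Geo.specialLinear (Fin 4) F) ∨
    (7 ≤ Fintype.card F ∧ ∃ D : Fin 4 → Submodule F (Fin 4 → F), Cfsg.Geo.IsMDecomposition 1 D ∧ H = Cfsg.Geo.decompositionStabilizer D ⊓ Cfsg.Geo.specialLinear (Fin 4) F) ∨
    (4 ≤ Fintype.card F ∧ ∃ D : Fin 2 → Submodule F (Fin 4 → F), Cfsg.Geo.IsMDecomposition 2 D ∧ H = Cfsg.Geo.decompositionStabilizer D ⊓ Cfsg.Geo.specialLinear (Fin 4) F) ∨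
    (∃ K : Subalgebra F (Matrix (Fin 4) (Fin 4) F), Cfsg.Geo.IsFieldSubalgebra 2 K ∧ H = Cfsg.Geo.subalgebraNormalizer K ⊓ Cfsg.Geo.specialLinear (Fin 4) F) ∨
    (∃ (F₀ : Subfield F) (r : ℕ) (P : Matrix.GeneralLinearGroup (Fin 4) F), r.Prime ∧ Fintype.card F = Nat.card F₀ ^ r ∧ H = Cfsg.Geo.subfieldSubgroup F₀ P ⊓ Cfsg.Geo.specialLinear (Fin 4) F) ∨
    (∃ (p : ℕ) (R : Subgroup (Matrix.GeneralLinearGroup (Fin 4) F)), p.Prime ∧ Fintype.card F = p ∧ p % 4 = 1 ∧ Cfsg.Geo.IsLinearSymplecticTypeData 2 R ∧ H = Cfsg.Geo.subgroupNormalizer R ⊓ Cfsg.Geo.specialLinear (Fin 4) F) ∨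
    (Odd (Fintype.card F) ∧ ∃ Q : (Fin 4 → F) → F, Cfsg.Geo.IsNondegenerateQuadraticForm Q ∧ H = Cfsg.Geo.quadSimilarityGroup Q ⊓ Cfsg.Geo.specialLinear (Fin 4) F) ∨
    (∃ f : (Fin 4 → F) → (Fin 4 → F) → F, Cfsg.Geo.IsSymplecticForm f ∧ H = Cfsg.Geo.similarityGroup f ⊓ Cfsg.Geo.specialLinear (Fin 4) F) ∨
    (∃ (σ : F ≃+* F) (f : (Fin 4 → F) → (Fin 4 → F) → F), Cfsg.Geo.IsUnitaryForm σ f ∧ H = Cfsg.Geo.similarityGroup f ⊓ Cfsg.Geo.specialLinear (Fin 4) F) ∨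
    Cfsg.Geo.InLinearResidualClass H := by
  have h3 : 3 ≤ Fintype.card (Fin 4) := by simp
  have h2 : 2 ≤ Fintype.card (Fin 4) := by simp
  -- the closing steps
  have cStab : ∀ W : Submodule F (Fin 4 → F), W ≠ ⊥ → W ≠ ⊤ → H ≤ subspaceStabilizer W →
      H = subspaceStabilizer W ⊓ specialLinear (Fin 4) F := fun W h0 h1 h =>
    eq_inf_of_maximal hH h (sl_not_le_stab W h0 h1)
  have cQuad : ∀ Q : (Fin 4 → F) → F, IsNondegenerateQuadraticForm Q → H ≤ quadSimilarityGroup Q →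
      H = quadSimilarityGroup Q ⊓ specialLinear (Fin 4) F := fun Q hQ h =>
    eq_inf_of_maximal hH h (sl_not_le_quadSim h3 Q hQ)
  have cUnit : ∀ (σ : F ≃+* F) (f : (Fin 4 → F) → (Fin 4 → F) → F), IsUnitaryForm σ f →
      H ≤ similarityGroup f → H = similarityGroup f ⊓ specialLinear (Fin 4) F := fun σ f hf h =>
    eq_inf_of_maximal hH h (sl_not_le_sim h3 f hf.add_left hf.nondegenerate)
  have cSymp : ∀ (f : (Fin 4 → F) → (Fin 4 → F) → F), IsSymplecticForm f →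
      H ≤ similarityGroup f → H = similarityGroup f ⊓ specialLinear (Fin 4) F := fun f hf h =>
    eq_inf_of_maximal hH h (sl_not_le_sim h3 f hf.bilinear.add_left hf.nondegenerate)
  have cSub : ∀ (F₀ : Subfield F) (r : ℕ) (P : Matrix.GeneralLinearGroup (Fin 4) F), r.Prime →
      Fintype.card F = Nat.card F₀ ^ r → H ≤ subfieldSubgroup F₀ P →
      H = subfieldSubgroup F₀ P ⊓ specialLinear (Fin 4) F := fun F₀ r P hr hc h =>
    eq_inf_of_maximal hH h (sl_not_le_subfield h2 F₀ (subfield_ne_top hr hc) P)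
  rcases main 4 (by norm_num) H with hcls | hres
  swap
  · exact Or.inr (Or.inr (Or.inr (Or.inr (Or.inr (Or.inr (Or.inr (Or.inr (Or.inr hres))))))))
  rcases hcls with ⟨W, h0, h1, h⟩ | ⟨t, m, D, hD, h⟩ | ⟨r, K, hr, hK, h⟩ | ⟨a, b, e, P, ha, hb, h⟩ |
    ⟨F₀, r, P, hr, hc, h⟩ | ⟨r, m, R, hR, hm, hn, h⟩ | ⟨m, t, e, P, hm, ht, h⟩ | ⟨f, hf, he, h4, h⟩ |
    ⟨σ, f, hf, h⟩ | ⟨Q, hQ, ho, h⟩
  · exact Or.inl ⟨W, h0, h1, cStab W h0 h1 h⟩
  · -- decompositions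
    have htm : t * m = 4 := by simpa using card_of_decomp D hD
    have ht2 := hD.two_le
    have hm0 := hD.pos
    have hq1 : 1 < Fintype.card F := Fintype.one_lt_card
    have ht : (t = 4 ∧ m = 1) ∨ (t = 2 ∧ m = 2) := by
      have ht4 : t ≤ 4 := by nlinarith
      interval_cases t <;> omega
    rcases ht with ⟨rfl, rfl⟩ | ⟨rfl, rfl⟩
    · by_cases hq : 7 ≤ Fintype.card F
      · exact Or.inr (Or.inl ⟨hq, D, hD, eq_inf_of_maximal hH h (sl_not_le_decomp D hD)⟩)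
      · have hq6 : Fintype.card F ≠ 6 := card_ne_six
        have hq' : Fintype.card F = 2 ∨ Fintype.card F = 3 ∨ Fintype.card F = 4 ∨
          Fintype.card F = 5 := by omega
        rcases hq' with hq' | hq' | hq' | hq'
        · obtain ⟨W, h0, h1, hW⟩ := monomial_two hq' D hD
          exact Or.inl ⟨W, h0, h1, cStab W h0 h1 (h.trans hW)⟩
        · obtain ⟨Q, hQ, hW⟩ := monomial_three hq' D hD
          exact Or.inr (Or.inr (Or.inr (Or.inr (Or.inr (Or.inr (Or.inl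
            ⟨by rw [hq']; decide, Q, hQ, cQuad Q hQ (h.trans hW)⟩))))))
        · obtain ⟨σ, f, hf, hW⟩ := monomial_four hq' D hD
          exact Or.inr (Or.inr (Or.inr (Or.inr (Or.inr (Or.inr (Or.inr (Or.inr (Or.inl
            ⟨σ, f, hf, cUnit σ f hf (h.trans hW)⟩))))))))
        · exfalso
          have hHe := eq_inf_of_maximal hH h (sl_not_le_decomp D hD)
          rw [hHe] at hH
          exact monomial_five_not_max hq' D hD hH
    · by_cases hq : 4 ≤ Fintype.card F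
      · exact Or.inr (Or.inr (Or.inl ⟨hq, D, hD, eq_inf_of_maximal hH h (sl_not_le_decomp D hD)⟩))
      · have hq' : Fintype.card F = 2 ∨ Fintype.card F = 3 := by omega
        rcases hq' with hq' | hq'
        · obtain ⟨f, hf, hW⟩ := blocks_two hq' D hD
          exact Or.inr (Or.inr (Or.inr (Or.inr (Or.inr (Or.inr (Or.inr (Or.inl
            ⟨f, hf, cSymp f hf (h.trans hW)⟩)))))))
        · obtain ⟨f, hf, hW⟩ := planes_three hq' D hD
          exact Or.inr (Or.inr (Or.inr (Or.inr (Or.inr (Or.inr (Or.inr (Or.inl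
            ⟨f, hf, cSymp f hf ((le_inf h (le_sl_of_maximal hH)).trans hW)⟩)))))))
  · -- extension fields
    have hr2 : r = 2 := by
      have : r ∣ 2 ^ 2 := by simpa using dvd_card_of_field K hK
      exact (Nat.prime_dvd_prime_iff_eq hr Nat.prime_two).mp (hr.dvd_of_dvd_pow this)
    subst hr2
    exact Or.inr (Or.inr (Or.inr (Or.inl ⟨K, hK,
      eq_inf_of_maximal hH h (sl_not_le_field h3 hr K hK)⟩)))
  · -- tensor products
    exfalso
    have hc : 4 = a * b := by simpa using Fintype.card_congr e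
    nlinarith
  · exact Or.inr (Or.inr (Or.inr (Or.inr (Or.inl ⟨F₀, r, P, hr, hc, cSub F₀ r P hr hc h⟩))))
  · -- symplectic type
    have hrp := hR.symplecticType.prime
    have hr2 : r = 2 := by
      have : r ∣ 2 ^ 2 := by
        have h4 : (2 : ℕ) ^ 2 = r ^ m := by rw [← hn]; norm_num
        rw [h4]; exact dvd_pow_self r (by omega)
      exact (Nat.prime_dvd_prime_iff_eq hrp Nat.prime_two).mp (hrp.dvd_of_dvd_pow this)
    subst hr2
    obtain ⟨p, e, hp, -, hc, hne, hcase⟩ := sympData_arith R h3 hR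
    rcases hcase with ⟨ho2, -, -, -⟩ | ⟨-, he1, hp4⟩
    · exact absurd ho2 (by decide)
    subst he1
    rw [pow_one] at hc
    exact Or.inr (Or.inr (Or.inr (Or.inr (Or.inr (Or.inl ⟨p, R, hp, hc, hp4, hR,
      eq_inf_of_maximal hH h (sl_not_le_sympNormalizer h3 R hR)⟩)))))
  · -- tensor wreath
    exfalso
    have hc : 4 = m ^ t := by simpa using Fintype.card_congr e
    have : 3 ^ 2 ≤ m ^ t := (Nat.pow_le_pow_left hm 2).trans (Nat.pow_le_pow_right (by omega) ht)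
    omega
  · exact Or.inr (Or.inr (Or.inr (Or.inr (Or.inr (Or.inr (Or.inr (Or.inl
      ⟨f, hf, cSymp f hf h⟩)))))))
  · exact Or.inr (Or.inr (Or.inr (Or.inr (Or.inr (Or.inr (Or.inr (Or.inr (Or.inl
      ⟨σ, f, hf, cUnit σ f hf h⟩))))))))
  · exact Or.inr (Or.inr (Or.inr (Or.inr (Or.inr (Or.inr (Or.inl ⟨ho, Q, hQ, cQuad Q hQ h⟩))))))

end Cfsg.Agent.S5781
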