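import Cfsg.Statements.S5787
import Cfsg.Agent.Lib.Helper94.SpRow.Refined
import Cfsg.Agent.Lib.Helper65.SpRow.E2
import Cfsg.Agent.Lib.Helper64.SpRow.U2

set_option autoImplicit false
open Cfsg

namespace Cfsg.Agent.S5787

/-- Every maximal subgroup of Sp_4(q), q odd, is of one of the listed geometric types or lies in the residual class. Let F be a finite field of odd order q, f the standard alternating form on F^4 (coordinates Fin 2 ⊕ Fin 2), and H a maximal subgroup of the isometry group Sp_4(F) (inside GL_4(F)). Then H is the intersection with Sp_4(F) of one of: the stabiliser of a non-zero totally isotropic subspace; the stabiliser of a decomposition into two orthogonal non-degenerate 2-spaces; for q ≥ 5, of a decomposition into two totally isotropic 2-spaces; the normaliser of a degree-2 subfield K of the matrix algebra, self-adjoint with f(k v, v) = 0; for q ≥ 5, the normaliser of a degree-2 subfield closed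 under adjoints but not self-adjoint; a subfield group whose F₀-structure carries a non-zero multiple of f, |F| = |F₀|^r with r prime; for q = p prime, the normaliser of an absolutely irreducible symplectic-type 2-group of exponent 4, order 32, centre of order 2 and minus type inside the similarity group of f — or else H lies in the residual class of the symplectic case. -/
theorem result {F : Type*} [Field F] [Fintype F] (hodd : Odd (Fintype.card F)) (H : Subgroup (Matrix.GeneralLinearGroup (Fin 2 ⊕ Fin 2) F)) (hH : Cfsg.Geo.IsMaximalIn (Cfsg.spGL 2 F) H) :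
    (∃ W : Submodule F (Fin 2 ⊕ Fin 2 → F), W ≠ ⊥ ∧ Cfsg.Geo.IsTotallySingularFor (Cfsg.sympForm 2 F) W ∧ H = Cfsg.Geo.subspaceStabilizer W ⊓ Cfsg.spGL 2 F) ∨
    (∃ D : Fin 2 → Submodule F (Fin 2 ⊕ Fin 2 → F), Cfsg.Geo.IsNondegenerateMDecomposition (Cfsg.sympForm 2 F) 2 D ∧ H = Cfsg.Geo.decompositionStabilizer D ⊓ Cfsg.spGL 2 F) ∨
    (5 ≤ Fintype.card F ∧ ∃ D : Fin 2 → Submodule F (Fin 2 ⊕ Fin 2 → F), Cfsg.Geo.IsMDecomposition 2 D ∧ (∀ i, Cfsg.Geo.IsTotallySingularFor (Cfsg.sympForm 2 F) (D i)) ∧ H = Cfsg.Geo.decompositionStabilizer D ⊓ Cfsg.spGL 2 F) ∨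
    (∃ K : Subalgebra F (Matrix (Fin 2 ⊕ Fin 2) (Fin 2 ⊕ Fin 2) F), Cfsg.Geo.IsFieldSubalgebra 2 K ∧ Cfsg.Geo.IsSelfAdjointFor (Cfsg.sympForm 2 F) K ∧ (∀ k ∈ K, ∀ v : (Fin 2 ⊕ Fin 2 → F), (Cfsg.sympForm 2 F) (Matrix.mulVec k v) v = 0) ∧ H = Cfsg.Geo.subalgebraNormalizer K ⊓ Cfsg.spGL 2 F) ∨
    (5 ≤ Fintype.card F ∧ ∃ K : Subalgebra F (Matrix (Fin 2 ⊕ Fin 2) (Fin 2 ⊕ Fin 2) F), Cfsg.Geo.IsFieldSubalgebra 2 K ∧ Cfsg.Geo.IsAdjointClosedFor (Cfsg.sympForm 2 F) K ∧ ¬ Cfsg.Geo.IsSelfAdjointFor (Cfsg.sympForm 2 F) K ∧ H = Cfsg.Geo.subalgebraNormalizer K ⊓ Cfsg.spGL 2 F) ∨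
    (∃ (F₀ : Subfield F) (r : ℕ) (P : Matrix.GeneralLinearGroup (Fin 2 ⊕ Fin 2) F) (ζ : F), r.Prime ∧ Fintype.card F = Nat.card F₀ ^ r ∧ ζ ≠ 0 ∧ Cfsg.Geo.IsFormRationalStructure (Cfsg.sympForm 2 F) F₀ ζ P ∧ H = Cfsg.Geo.subfieldSubgroup F₀ P ⊓ Cfsg.spGL 2 F) ∨
    (∃ (p : ℕ) (R : Subgroup (Matrix.GeneralLinearGroup (Fin 2 ⊕ Fin 2) F)), p.Prime ∧ Fintype.card F = p ∧ Cfsg.Geo.IsSymplecticTypeGroup 2 R ∧ Cfsg.Geo.ActsAbsolutelyIrreducibly (Cfsg.Geo.matrixSet R) ∧ R ≤ Cfsg.Geo.similarityGroup (Cfsg.sympForm 2 F) ∧ Nat.card R = 32 ∧ Nat.card (Subgroup.center R) = 2 ∧ Cfsg.Geo.IsOfMinusType 2 R ∧ H = Cfsg.Geo.subgroupNormalizer R ⊓ Cfsg.spGL 2 F) ∨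
    Cfsg.Geo.InSymplecticResidualClass H := by
  classical
  have hq2 : 2 ≤ Fintype.card F := Fintype.one_lt_card
  have hHI : H ≤ Cfsg.spGL 2 F := hH.1.le
  have fin : ∀ M : Subgroup (Matrix.GeneralLinearGroup (Fin 2 ⊕ Fin 2) F), H ≤ M →
      ¬ Cfsg.spGL 2 F ≤ M → H = M ⊓ Cfsg.spGL 2 F :=
    fun M h1 h2 => Cfsg.Agent.Lib.Helper94.SpRow.eq_inf_of_maximal hH h1 h2
  have hq35 : Fintype.card F = 3 ∨ 5 ≤ Fintype.card F := by
    rcases hodd with ⟨s, hs⟩
    omega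
  rcases Cfsg.Agent.Lib.Helper94.SpRow.refined (le_refl 2) H hH with
    ⟨W, h0, h1, h⟩ | ⟨W, h0, h1, h2, h3, h⟩ | ⟨t, k, D, hD, e1, e2, e3, h⟩ | ⟨D, ho, hD, hts, h⟩ |
    ⟨F₀, r, P, ζ, hr, hc, hζ, hs, h⟩ | ⟨R, p, k, h1, h2, h3, h4, h5, h6, h7, h8, h9, h10, h⟩ |
    ⟨Q, ho, hQ, hp, h⟩ | ⟨r, K, hr, hrm, hK, hs, ha, h⟩ | ⟨K, ho, hK, hc, hn, h⟩ |
    ⟨n₁, n₂, e, P, f₁, f₂, ho, h3, hev, hn, h35, h1, h2, hs, h⟩ |
    ⟨k, t, e, P, f₁, ho, ht, h3, hkt, hx, h1, hs, h⟩ | hR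
  · left
    exact ⟨W, h0, h1, h⟩
  · exfalso
    have h00 : Module.finrank F W = 0 := by
      rcases h3 with ⟨s, hs⟩
      omega
    exact h0 (Submodule.finrank_eq_zero.1 h00)
  · have ht2 := hD.decomp.two_le
    have hk0 := hD.decomp.pos
    have hk2 : 2 ≤ k := by
      rcases e2 with ⟨s, hs⟩
      omega
    have htk : t = 2 ∧ k = 2 := by
      have h4 : t * k = 4 := by omega
      have : t ≤ 4 := by nlinarith
      interval_cases t <;> omega
    obtain ⟨rfl, rfl⟩ := htk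
    right; left
    exact ⟨D, hD, h⟩
  · rcases hq35 with hq | hq
    · obtain ⟨D', hD', hle⟩ := Cfsg.Agent.Lib.Helper65.SpRow.ts_pair_three hq D hD hts
      right; left
      refine ⟨D', hD', fin _ ?_ (Cfsg.Agent.Lib.Helper67.SpRow.sp_not_le_decomp D' hD'.decomp)⟩
      rw [h]
      exact hle
    · iterate 2 right
      left
      exact ⟨hq, D, hD, hts, h⟩
  · iterate 5 right
    left
    exact ⟨F₀, r, P, ζ, hr, hc, hζ, hs, h⟩
  · have hk : k = 2 := by
      have : (2 : ℕ) ^ k = 2 ^ 2 := by rw [← h10]; norm_num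
      exact Nat.pow_right_injective (le_refl 2) this
    subst hk
    iterate 6 right
    left
    exact ⟨p, R, h4, h6, h1, h2, h3, by rw [h7]; norm_num, h8, h9, h⟩
  · exact absurd hodd ho
  · have hr2 : r = 2 := (Nat.prime_dvd_prime_iff_eq hr Nat.prime_two).1 hrm
    subst hr2
    iterate 3 right
    left
    exact ⟨K, hK, hs, ha, h⟩
  · rcases hq35 with hq | hq
    · obtain ⟨R, r1, r2, r3, r4, r5, r6, hle⟩ :=
        Cfsg.Agent.Lib.Helper64.SpRow.unitary_field_three hq K hK hc hn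
      iterate 6 right
      left
      refine ⟨3, R, Nat.prime_three, hq, r1, r2, r3, r4, r5, r6, fin _ ?_
        (Cfsg.Agent.Lib.Helper11.Sp.sp_not_le_c6 (le_refl 2) hodd R r1.pGroup r2 r3)⟩
      rw [h]
      exact hle
    · iterate 4 right
      left
      exact ⟨hq, K, hK, hc, hn, h⟩
  · exfalso
    have hn4 : n₁ * n₂ = 4 := by omega
    rcases hev with ⟨s, hs'⟩
    have : s ≤ 1 := by nlinarith
    interval_cases s
    · simp at hs'; subst hs'; simp at hn4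
    · have : n₁ = 2 := by omega
      subst this
      omega
  · exfalso
    have hk4 : k ^ t = 4 := by omega
    rcases Nat.lt_or_ge k 2 with hk | hk
    · interval_cases k
      · rw [zero_pow (by omega)] at hk4; omega
      · rw [one_pow] at hk4; omega
    · have : 2 ^ 3 ≤ k ^ t :=
        le_trans (Nat.pow_le_pow_right (by norm_num) h3) (Nat.pow_le_pow_left hk t)
      omega
  · iterate 7 right
    exact hR

end Cfsg.Agent.S5787
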