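import Cfsg.Statements.S5789
import Cfsg.Agent.Lib.Helper94.SympWrap
import Cfsg.Agent.Lib.Helper94.SympMax
import Cfsg.Agent.Lib.Helper94.SympDecompWrap
import Cfsg.Agent.Lib.Helper94.QuadWrap
import Cfsg.Agent.Lib.Helper94.SpRow.Max4

set_option autoImplicit false
open Cfsg

namespace Cfsg.Agent.S5789

/-- Maximal subgroups of Sp_4(q) of geometric type, q ≥ 4 even. Let F be a finite field of even order q ≥ 4, f the standard alternating form on F^4 (coordinates Fin 2 ⊕ Fin 2) and Sp_4(F) its isometry group inside GL_4(F). Each of the following, intersected with Sp_4(F), is a maximal subgroup of Sp_4(F): (1) the stabiliser of any non-zero totally isotropic subspace (totally isotropic 1-spaces and 2-spaces); (2) the stabiliser of any decomposition of F^4 into two mutually orthogonal non-degenerate 2-spaces; (3) the normaliser of any degree-2 subfield K of the matrix algebra whose elements are self-adjoint for f with f(k v, v) = 0 for all k in K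 and all v; (4) every subfield group for a subfield F₀ with |F| = |F₀|^r, r prime, whose F₀-structure carries a non-zero scalar multiple of f; (5) the similarity group of any non-degenerate quadratic form whose polar form is f (either Witt type); its intersection with Sp_4(F) is the orthogonal group of that form. -/
theorem result {F : Type*} [Field F] [Fintype F] (heven : ¬ Odd (Fintype.card F)) (h4 : 4 ≤ Fintype.card F) :
    (∀ W : Submodule F (Fin 2 ⊕ Fin 2 → F), W ≠ ⊥ → Cfsg.Geo.IsTotallySingularFor (Cfsg.sympForm 2 F) W → Cfsg.Geo.IsMaximalIn (Cfsg.spGL 2 F) (Cfsg.Geo.subspaceStabilizer W ⊓ Cfsg.spGL 2 F)) ∧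
    (∀ D : Fin 2 → Submodule F (Fin 2 ⊕ Fin 2 → F), Cfsg.Geo.IsNondegenerateMDecomposition (Cfsg.sympForm 2 F) 2 D → Cfsg.Geo.IsMaximalIn (Cfsg.spGL 2 F) (Cfsg.Geo.decompositionStabilizer D ⊓ Cfsg.spGL 2 F)) ∧
    (∀ K : Subalgebra F (Matrix (Fin 2 ⊕ Fin 2) (Fin 2 ⊕ Fin 2) F), Cfsg.Geo.IsFieldSubalgebra 2 K → Cfsg.Geo.IsSelfAdjointFor (Cfsg.sympForm 2 F) K → (∀ k ∈ K, ∀ v : (Fin 2 ⊕ Fin 2 → F), (Cfsg.sympForm 2 F) (Matrix.mulVec k v) v = 0) → Cfsg.Geo.IsMaximalIn (Cfsg.spGL 2 F) (Cfsg.Geo.subalgebraNormalizer K ⊓ Cfsg.spGL 2 F)) ∧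
    (∀ (F₀ : Subfield F) (r : ℕ) (P : Matrix.GeneralLinearGroup (Fin 2 ⊕ Fin 2) F) (ζ : F), r.Prime → Fintype.card F = Nat.card F₀ ^ r → ζ ≠ 0 → Cfsg.Geo.IsFormRationalStructure (Cfsg.sympForm 2 F) F₀ ζ P → Cfsg.Geo.IsMaximalIn (Cfsg.spGL 2 F) (Cfsg.Geo.subfieldSubgroup F₀ P ⊓ Cfsg.spGL 2 F)) ∧
    (∀ Q : (Fin 2 ⊕ Fin 2 → F) → F, Cfsg.Geo.IsNondegenerateQuadraticForm Q → (∀ u v : (Fin 2 ⊕ Fin 2 → F), QuadraticMap.polar Q u v = (Cfsg.sympForm 2 F) u v) → Cfsg.Geo.IsMaximalIn (Cfsg.spGL 2 F) (Cfsg.Geo.quadSimilarityGroup Q ⊓ Cfsg.spGL 2 F)) := by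
  open Cfsg.Agent.Lib.Helper94 in
  refine ⟨?_, ?_, ?_, ?_, ?_⟩
  · intro W hW0 hW
    have hA := sympB_isAlt (F := F) 2
    have hN := sympB_nondegenerate (F := F) 2
    have hW' : ∀ u ∈ W, ∀ v ∈ W, sympB 2 F u v = 0 := fun u hu v hv => by
      rw [sympB_apply]; exact hW u hu v hv
    exact sp_maximal_of_core 2 _ (fun φ => ∀ w ∈ W, φ w ∈ W) (fun g => mem_subspaceStabilizer_iff g W)
      (exists_isIsom_not_stab_of_singular hA hN W hW0 hW')
      (fun G hP φ0 h0 h0I h0W => core_parabolic hA hN W hW' G hP φ0 h0 h0I h0W)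
  · intro D hD
    have hA := sympB_isAlt (F := F) 2
    have hN := sympB_nondegenerate (F := F) 2
    have hO := orthDec_of hD
    have hk : 2 ≠ 2 ∨ ∃ r : F, r ≠ 0 ∧ r ≠ -1 :=
      Or.inr (exists_ne_zero_ne_neg_one (fun hc => by omega))
    exact sp_maximal_of_core 2 _ (DecStab D) (mem_decompositionStabilizer_iff D)
      (hO.exists_isIsom_not_stab hA)
      (fun G hP φ0 h0 h0I h0S => hO.core hA hN (hO.hex_of hA hk) G hP φ0 h0 h0I h0S)
  · intro K hK hsa halt
    exact Cfsg.Agent.Lib.Helper94.SpRow.field_max heven h4 K hK hsa halt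
  · intro F₀ r P ζ hr hc hζ hP
    exact Cfsg.Agent.Lib.Helper94.SpRow.sub_max heven h4 F₀ r P ζ hr hc hζ hP
  · intro Q hQ hpol
    have hch := charTwo_of_not_odd heven
    haveI : CharP F 2 := ringChar.of_eq hch
    have hsq := exists_sq_of_charTwo hch
    have hBeq : pB (quadOf Q hQ) = sympB 2 F := by
      ext x y
      change pB (quadOf Q hQ) _ _ = sympB 2 F _ _
      rw [pB_quadOf, hpol, sympB_apply]
    have hN := pB_quadOf_nondegenerate Q hQ
    have hA : (pB (quadOf Q hQ)).IsAlt := polarB_isAlt _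
    have hdim : 3 ≤ Module.finrank F (Fin 2 ⊕ Fin 2 → F) := by
      rw [Module.finrank_fintype_fun_eq_card, Fintype.card_sum, Fintype.card_fin]
      omega
    refine sp_maximal_of_core 2 _ (fun φ => ∃ c : Fˣ, ∀ v, Q (φ v) = (c : F) * Q v)
      (mem_quadSimilarityGroup_iff Q) ?_ ?_
    · obtain ⟨g, hgI, x, hx, hgx⟩ := exists_isIsom_not_Q (quadOf Q hQ) hA hN hsq hdim
      refine ⟨g, hBeq ▸ hgI, ?_⟩
      rintro ⟨c, hc⟩
      apply hgx
      rw [quadOf_apply] at hx ⊢
      rw [hc, hx, mul_zero]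
    · intro G hP φ0 h0 h0I h0S
      rw [← hBeq] at hP h0I ⊢
      exact core_quad_sp (quadOf Q hQ) hN hsq hdim G
        (fun g hg => hP g (isIsom_of_Q _ g hg) ⟨1, fun v => by
          have := hg v
          rw [quadOf_apply, quadOf_apply] at this
          rw [this, Units.val_one, one_mul]⟩) φ0 h0 h0I
        (fun h => h0S ⟨1, fun v => by
          have := h v
          rw [quadOf_apply, quadOf_apply] at this
          rw [this, Units.val_one, one_mul]⟩)

end Cfsg.Agent.S5789
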