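import Cfsg.Statements.S5799
import Cfsg.Agent.Lib.Helper95.AschRefined

set_option autoImplicit false
open Cfsg

namespace Cfsg.Agent.S5799

/-- Every maximal subgroup of SL_6(q) is of one of the listed geometric types or lies in the residual class. Let F be a finite field with q elements (p its characteristic) and H a maximal subgroup of SL_6(F) (inside GL_6(F)). Then H is the intersection with SL_6(F) of one of: the stabiliser of a proper non-zero subspace; for q ≥ 5, the stabiliser of a decomposition into 6 independent 1-spaces; for q ≥ 3, the stabiliser of a decomposition into 3 independent 2-spaces; the stabiliser of a decomposition into 2 independent 3-spaces; the normaliser of a degree-2 subfield of the matrix algebra; the normaliser of a degree-3 subfield of the matrix algebra; for q ≥ 3, the stabiliser of a tensor decomposition F^2 ⊗ F^3; a subfield group for a subfield F₀ with |F| = |F₀|^r, r prime; for q odd,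 the similarity group of a non-degenerate quadratic form; the similarity group of a non-degenerate symplectic form; the similarity group of a non-degenerate unitary form — or else H lies in the residual class of the linear case (modulo scalars H is almost simple, with absolutely irreducible perfect socle preimage realisable over no proper subfield and fixing no non-degenerate quadratic, symplectic or unitary form). -/
theorem result {F : Type*} [Field F] [Fintype F] (H : Subgroup (Matrix.GeneralLinearGroup (Fin 6) F)) (hH : Cfsg.Geo.IsMaximalIn (Cfsg.Geo.specialLinear (Fin 6) F) H) :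
    (∃ W : Submodule F (Fin 6 → F), W ≠ ⊥ ∧ W ≠ ⊤ ∧ H = Cfsg.Geo.subspaceStabilizer W ⊓ Cfsg.Geo.specialLinear (Fin 6) F) ∨
    (5 ≤ Fintype.card F ∧ ∃ D : Fin 6 → Submodule F (Fin 6 → F), Cfsg.Geo.IsMDecomposition 1 D ∧ H = Cfsg.Geo.decompositionStabilizer D ⊓ Cfsg.Geo.specialLinear (Fin 6) F) ∨
    (3 ≤ Fintype.card F ∧ ∃ D : Fin 3 → Submodule F (Fin 6 → F), Cfsg.Geo.IsMDecomposition 2 D ∧ H = Cfsg.Geo.decompositionStabilizer D ⊓ Cfsg.Geo.specialLinear (Fin 6) F) ∨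
    (∃ D : Fin 2 → Submodule F (Fin 6 → F), Cfsg.Geo.IsMDecomposition 3 D ∧ H = Cfsg.Geo.decompositionStabilizer D ⊓ Cfsg.Geo.specialLinear (Fin 6) F) ∨
    (∃ K : Subalgebra F (Matrix (Fin 6) (Fin 6) F), Cfsg.Geo.IsFieldSubalgebra 2 K ∧ H = Cfsg.Geo.subalgebraNormalizer K ⊓ Cfsg.Geo.specialLinear (Fin 6) F) ∨
    (∃ K : Subalgebra F (Matrix (Fin 6) (Fin 6) F), Cfsg.Geo.IsFieldSubalgebra 3 K ∧ H = Cfsg.Geo.subalgebraNormalizer K ⊓ Cfsg.Geo.specialLinear (Fin 6) F) ∨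
    (3 ≤ Fintype.card F ∧ ∃ (e : Fin 6 ≃ Fin 2 × Fin 3) (P : Matrix.GeneralLinearGroup (Fin 6) F), H = Cfsg.Geo.tensorProductSubgroup 2 3 e P ⊓ Cfsg.Geo.specialLinear (Fin 6) F) ∨
    (∃ (F₀ : Subfield F) (r : ℕ) (P : Matrix.GeneralLinearGroup (Fin 6) F), r.Prime ∧ Fintype.card F = Nat.card F₀ ^ r ∧ H = Cfsg.Geo.subfieldSubgroup F₀ P ⊓ Cfsg.Geo.specialLinear (Fin 6) F) ∨
    (Odd (Fintype.card F) ∧ ∃ Q : (Fin 6 → F) → F, Cfsg.Geo.IsNondegenerateQuadraticForm Q ∧ H = Cfsg.Geo.quadSimilarityGroup Q ⊓ Cfsg.Geo.specialLinear (Fin 6) F) ∨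
    (∃ f : (Fin 6 → F) → (Fin 6 → F) → F, Cfsg.Geo.IsSymplecticForm f ∧ H = Cfsg.Geo.similarityGroup f ⊓ Cfsg.Geo.specialLinear (Fin 6) F) ∨
    (∃ (σ : F ≃+* F) (f : (Fin 6 → F) → (Fin 6 → F) → F), Cfsg.Geo.IsUnitaryForm σ f ∧ H = Cfsg.Geo.similarityGroup f ⊓ Cfsg.Geo.specialLinear (Fin 6) F) ∨
    Cfsg.Geo.InLinearResidualClass H := by
  rcases Cfsg.Agent.Lib.Helper95.AschR.refined 6 (by norm_num) H hH with
    ⟨W, h0, h1, h⟩ | ⟨t, m, D, hD, htm, hq1, hq2, h⟩ | ⟨r, K, hr, hrn, hK, h⟩ |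
    ⟨a, b, e, P, ha, hb, hab, hq, h⟩ | ⟨F₀, r, P, hr, hc, h⟩ | ⟨r, m, R, hR, hm, hnr, h⟩ |
    ⟨m, t, e, P, hm, ht, hmt, h⟩ | ⟨f, hf, he, h⟩ | ⟨σ, f, hf, h⟩ | ⟨Q, hQ, ho, h⟩ | hres
  · exact Or.inl ⟨W, h0, h1, h⟩
  · have ht2 := hD.two_le
    have hcases : (t = 6 ∧ m = 1) ∨ (t = 3 ∧ m = 2) ∨ (t = 2 ∧ m = 3) := by
      have hdvd : t ∣ 6 := ⟨m, htm.symm⟩
      have ht6 : t ≤ 6 := Nat.le_of_dvd (by norm_num) hdvd
      interval_cases t <;> omega
    rcases hcases with ⟨rfl, rfl⟩ | ⟨rfl, rfl⟩ | ⟨rfl, rfl⟩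
    · exact Or.inr (Or.inl ⟨hq1 rfl, D, hD, h⟩)
    · exact Or.inr (Or.inr (Or.inl ⟨hq2 rfl, D, hD, h⟩))
    · exact Or.inr (Or.inr (Or.inr (Or.inl ⟨D, hD, h⟩)))
  · have hcases : r = 2 ∨ r = 3 := by
      have hr6 : r ≤ 6 := Nat.le_of_dvd (by norm_num) hrn
      have hr2 := hr.two_le
      interval_cases r
      · exact Or.inl rfl
      · exact Or.inr rfl
      · exact absurd hrn (by norm_num)
      · exact absurd hrn (by norm_num)
      · exact absurd hr (by norm_num)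
    rcases hcases with rfl | rfl
    · exact Or.inr (Or.inr (Or.inr (Or.inr (Or.inl ⟨K, hK, h⟩))))
    · exact Or.inr (Or.inr (Or.inr (Or.inr (Or.inr (Or.inl ⟨K, hK, h⟩)))))
  · have hcases : a = 2 ∧ b = 3 := by
      have hdvd : a ∣ 6 := ⟨b, hab.symm⟩
      have ha6 : a ≤ 6 := Nat.le_of_dvd (by norm_num) hdvd
      interval_cases a <;> omega
    obtain ⟨rfl, rfl⟩ := hcases
    exact Or.inr (Or.inr (Or.inr (Or.inr (Or.inr (Or.inr (Or.inl ⟨hq rfl, e, P, h⟩))))))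
  · exact Or.inr (Or.inr (Or.inr (Or.inr (Or.inr (Or.inr (Or.inr (Or.inl ⟨F₀, r, P, hr, hc, h⟩)))))))
  · exfalso
    have hp := hR.symplecticType.prime
    have h2 : 2 ∣ r := Nat.Prime.dvd_of_dvd_pow Nat.prime_two (hnr ▸ (by norm_num : 2 ∣ 6))
    have h3 : 3 ∣ r := Nat.Prime.dvd_of_dvd_pow Nat.prime_three (hnr ▸ (by norm_num : 3 ∣ 6))
    have e2 := (Nat.prime_dvd_prime_iff_eq Nat.prime_two hp).1 h2
    have e3 := (Nat.prime_dvd_prime_iff_eq Nat.prime_three hp).1 h3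
    omega
  · exfalso
    have h9 : 3 ^ 2 ≤ m ^ t :=
      (Nat.pow_le_pow_left hm 2).trans (Nat.pow_le_pow_right (by omega) ht)
    omega
  · iterate 9 right
    exact Or.inl ⟨f, hf, h⟩
  · iterate 10 right
    exact Or.inl ⟨σ, f, hf, h⟩
  · iterate 8 right
    exact Or.inl ⟨ho, Q, hQ, h⟩
  · iterate 11 right
    exact hres

end Cfsg.Agent.S5799
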