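import Cfsg.Statements.S5805
import Cfsg.Agent.Lib.Helper94.SpRow.Refined

set_option autoImplicit false
open Cfsg

namespace Cfsg.Agent.S5805

/-- Every maximal subgroup of Sp_6(q) is of one of the listed geometric types or lies in the residual class. Let F be a finite field with q elements, f the standard alternating form on F^6 (coordinates Fin 3 ⊕ Fin 3), and H a maximal subgroup of Sp_6(F) (inside GL_6(F)). Then H is the intersection with Sp_6(F) of one of: the stabiliser of a non-zero totally isotropic subspace; the stabiliser of a non-degenerate 2-space; for q ≥ 3, the stabiliser of a decomposition into three mutually orthogonal non-degenerate 2-spaces; for q odd, of a decomposition into two totally isotropic 3-spaces; the normaliser of a degree-3 subfield K of the matrix algebra, self-adjoint with f(k v, v) = 0; for q odd, the normaliser of a degree-2 subfield closed under adjoints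 but not self-adjoint; for q odd, q ≥ 5, the stabiliser of a tensor decomposition of f into an alternating form on F^2 and a symmetric form on F^3; a subfield group (|F| = |F₀|^r, r prime) whose F₀-structure carries a non-zero multiple of f; for q even, the similarity group of a non-degenerate quadratic form polarising to f — or else H lies in the residual class of the symplectic case. -/
theorem result {F : Type*} [Field F] [Fintype F] (H : Subgroup (Matrix.GeneralLinearGroup (Fin 3 ⊕ Fin 3) F)) (hH : Cfsg.Geo.IsMaximalIn (Cfsg.spGL 3 F) H) :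
    (∃ W : Submodule F (Fin 3 ⊕ Fin 3 → F), W ≠ ⊥ ∧ Cfsg.Geo.IsTotallySingularFor (Cfsg.sympForm 3 F) W ∧ H = Cfsg.Geo.subspaceStabilizer W ⊓ Cfsg.spGL 3 F) ∨
    (∃ W : Submodule F (Fin 3 ⊕ Fin 3 → F), W ≠ ⊥ ∧ Cfsg.Geo.IsNondegenerateOn (Cfsg.sympForm 3 F) W ∧ Module.finrank F W < 3 ∧ H = Cfsg.Geo.subspaceStabilizer W ⊓ Cfsg.spGL 3 F) ∨
    (3 ≤ Fintype.card F ∧ ∃ D : Fin 3 → Submodule F (Fin 3 ⊕ Fin 3 → F), Cfsg.Geo.IsNondegenerateMDecomposition (Cfsg.sympForm 3 F) 2 D ∧ H = Cfsg.Geo.decompositionStabilizer D ⊓ Cfsg.spGL 3 F) ∨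
    (Odd (Fintype.card F) ∧ ∃ D : Fin 2 → Submodule F (Fin 3 ⊕ Fin 3 → F), Cfsg.Geo.IsMDecomposition 3 D ∧ (∀ i, Cfsg.Geo.IsTotallySingularFor (Cfsg.sympForm 3 F) (D i)) ∧ H = Cfsg.Geo.decompositionStabilizer D ⊓ Cfsg.spGL 3 F) ∨
    (∃ K : Subalgebra F (Matrix (Fin 3 ⊕ Fin 3) (Fin 3 ⊕ Fin 3) F), Cfsg.Geo.IsFieldSubalgebra 3 K ∧ Cfsg.Geo.IsSelfAdjointFor (Cfsg.sympForm 3 F) K ∧ (∀ k ∈ K, ∀ v : (Fin 3 ⊕ Fin 3 → F), (Cfsg.sympForm 3 F) (Matrix.mulVec k v) v = 0) ∧ H = Cfsg.Geo.subalgebraNormalizer K ⊓ Cfsg.spGL 3 F) ∨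
    (Odd (Fintype.card F) ∧ ∃ K : Subalgebra F (Matrix (Fin 3 ⊕ Fin 3) (Fin 3 ⊕ Fin 3) F), Cfsg.Geo.IsFieldSubalgebra 2 K ∧ Cfsg.Geo.IsAdjointClosedFor (Cfsg.sympForm 3 F) K ∧ ¬ Cfsg.Geo.IsSelfAdjointFor (Cfsg.sympForm 3 F) K ∧ H = Cfsg.Geo.subalgebraNormalizer K ⊓ Cfsg.spGL 3 F) ∨
    (Odd (Fintype.card F) ∧ 5 ≤ Fintype.card F ∧ ∃ (e : (Fin 3 ⊕ Fin 3) ≃ Fin 2 × Fin 3) (P : Matrix.GeneralLinearGroup (Fin 3 ⊕ Fin 3) F) (f₁ : (Fin 2 → F) → (Fin 2 → F) → F) (f₂ : (Fin 3 → F) → (Fin 3 → F) → F), Cfsg.Geo.IsSymplecticForm f₁ ∧ Cfsg.Geo.IsSymmetricForm f₂ ∧ Cfsg.Geo.IsTensorFormStructure id (Cfsg.sympForm 3 F) f₁ f₂ e P ∧ H = Cfsg.Geo.tensorProductSubgroup 2 3 e P ⊓ Cfsg.spGL 3 F) ∨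
    (∃ (F₀ : Subfield F) (r : ℕ) (P : Matrix.GeneralLinearGroup (Fin 3 ⊕ Fin 3) F) (ζ : F), r.Prime ∧ Fintype.card F = Nat.card F₀ ^ r ∧ ζ ≠ 0 ∧ Cfsg.Geo.IsFormRationalStructure (Cfsg.sympForm 3 F) F₀ ζ P ∧ H = Cfsg.Geo.subfieldSubgroup F₀ P ⊓ Cfsg.spGL 3 F) ∨
    (¬ Odd (Fintype.card F) ∧ ∃ Q : (Fin 3 ⊕ Fin 3 → F) → F, Cfsg.Geo.IsNondegenerateQuadraticForm Q ∧ (∀ u v : (Fin 3 ⊕ Fin 3 → F), QuadraticMap.polar Q u v = (Cfsg.sympForm 3 F) u v) ∧ H = Cfsg.Geo.quadSimilarityGroup Q ⊓ Cfsg.spGL 3 F) ∨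
    Cfsg.Geo.InSymplecticResidualClass H := by
  rcases Cfsg.Agent.Lib.Helper94.SpRow.refined (m := 3) (by norm_num) H hH with
    ⟨W, h0, hW, h⟩ | ⟨W, h0, hW, hlt, hev, h⟩ | ⟨t, k, D, hD, htk, hk, hq, h⟩ |
    ⟨D, ho, hD, hts, h⟩ | ⟨F₀, r, P, ζ, hr, hc, hζ, hS, h⟩ |
    ⟨R, p, k, h1, h2, h3, hp, hpo, hqp, h5, h6, h7, h8, h⟩ | ⟨Q, hne, hQ, hpol, h⟩ |
    ⟨r, K, hr, hrm, hK, hsa, hz, h⟩ | ⟨K, ho, hK, hac, hns, h⟩ |
    ⟨n₁, n₂, e, P, f₁, f₂, ho, hn2, hn1, hn, hq, hf1, hf2, hT, h⟩ |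
    ⟨k, t, e, P, f₁, ho, hto, ht, hkt, hq, hf1, hT, h⟩ | hR
  · left
    exact ⟨W, h0, hW, h⟩
  · right; left
    exact ⟨W, h0, hW, hlt, h⟩
  · have ht2 := hD.decomp.two_le
    have hk0 := hD.decomp.pos
    have ht4 : t ≤ 6 := by nlinarith
    have hcases : t = 3 ∧ k = 2 := by
      obtain ⟨c, hc⟩ := hk
      interval_cases t <;> omega
    obtain ⟨rfl, rfl⟩ := hcases
    iterate 2 right
    left
    exact ⟨hq rfl, D, hD, h⟩
  · iterate 3 right
    left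
    exact ⟨ho, D, hD, hts, h⟩
  · iterate 7 right
    left
    exact ⟨F₀, r, P, ζ, hr, hc, hζ, hS, h⟩
  · exfalso
    have hk4 : k < 4 := by
      by_contra hk4
      have : 2 ^ 4 ≤ 2 ^ k := Nat.pow_le_pow_right (by norm_num) (by omega)
      omega
    interval_cases k <;> omega
  · iterate 8 right
    left
    exact ⟨hne, Q, hQ, hpol, h⟩
  · have hr2 : r = 3 := (Nat.prime_dvd_prime_iff_eq hr (by norm_num)).mp hrm
    subst hr2
    iterate 4 right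
    left
    exact ⟨K, hK, hsa, hz, h⟩
  · iterate 5 right
    left
    exact ⟨ho, K, hK, hac, hns, h⟩
  · have hn1' : n₁ ≤ 6 := by nlinarith
    have hcases : n₁ = 2 ∧ n₂ = 3 := by
      obtain ⟨c, hc⟩ := hn1
      interval_cases n₁ <;> omega
    obtain ⟨rfl, rfl⟩ := hcases
    iterate 6 right
    left
    exact ⟨ho, hq rfl, e, P, f₁, f₂, hf1, hf2, hT, h⟩
  · exfalso
    have hk3 : k < 3 := by
      by_contra hk3
      have h1 : 3 ^ 3 ≤ k ^ 3 := Nat.pow_le_pow_left (by omega) 3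
      have h2 : k ^ 3 ≤ k ^ t := Nat.pow_le_pow_right (by omega) ht
      omega
    have ht4 : k = 2 → t < 4 := by
      intro hk2
      by_contra ht4
      have : 2 ^ 4 ≤ 2 ^ t := Nat.pow_le_pow_right (by norm_num) (by omega)
      rw [hk2] at hkt
      omega
    interval_cases k
    · rw [zero_pow (by omega)] at hkt; omega
    · rw [one_pow] at hkt; omega
    · have := ht4 rfl
      interval_cases t
      omega
  · iterate 9 right
    exact hR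

end Cfsg.Agent.S5805
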