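import Cfsg.Statements.S5808
import Cfsg.Agent.Lib.Helper68.AschRows

set_option autoImplicit false
open Cfsg

namespace Cfsg.Agent.S5808

open Cfsg.Geo Cfsg.Agent.Lib.Helper13.Asch Cfsg.Agent.Lib.Helper68.AschD
  Cfsg.Agent.Lib.Helper68.AschRows in
/-- arithmetic of class 6 for `r = 7`. -/
theorem arith7 {p e : ℕ} (hp : p.Prime) (h7 : 7 ≠ p) (he : Odd e) (hd : 7 ∣ p ^ e - 1)
    (hmin : ∀ d, 0 < d → d < e → ¬ 7 ∣ p ^ d - 1) :
    (e = 1 ∧ p % 7 = 1) ∨ (e = 3 ∧ (p % 7 = 2 ∨ p % 7 = 4)) := by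
  have hp0 : p % 7 ≠ 0 := by
    intro h
    have := (Nat.prime_dvd_prime_iff_eq (by norm_num) hp).1 (Nat.dvd_of_mod_eq_zero h)
    exact h7 this
  have key : ∀ d, 7 ∣ p ^ d - 1 ↔ (p % 7) ^ d % 7 = 1 := by
    intro d
    have h1 : 1 ≤ p ^ d := Nat.one_le_pow _ _ hp.pos
    rw [← Nat.pow_mod]
    omega
  have hlt : p % 7 < 7 := Nat.mod_lt _ (by norm_num)
  have hmin' : ∀ d, 0 < d → d < e → ¬ (p % 7) ^ d % 7 = 1 := fun d h0 h1 => by
    rw [← key]; exact hmin d h0 h1
  rw [key] at hd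
  generalize p % 7 = a at hp0 hlt hmin' hd ⊢
  clear key hmin
  have he6 : e ≤ 6 := by
    by_contra hcon
    apply hmin' 6 (by norm_num) (by omega)
    interval_cases a <;> first | exact absurd rfl hp0 | norm_num
  obtain ⟨k, hk⟩ := he
  have : e = 1 ∨ e = 3 ∨ e = 5 := by omega
  rcases this with rfl | rfl | rfl
  · left
    refine ⟨rfl, ?_⟩
    clear hmin'
    interval_cases a <;> first | exact absurd rfl hp0 | rfl | (norm_num at hd)
  · right
    refine ⟨rfl, ?_⟩
    have h1 := hmin' 1 (by norm_num) (by norm_num)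
    clear hmin'
    interval_cases a <;> first | exact absurd rfl hp0 | (left; rfl) | (right; rfl) | (exfalso; norm_num at h1; done) | (exfalso; norm_num at hd; done)
  · exfalso
    have h1 := hmin' 1 (by norm_num) (by norm_num)
    clear hmin'
    interval_cases a <;> first | exact absurd rfl hp0 | (exfalso; norm_num at h1; done) | (exfalso; norm_num at hd; done)

/-- Every maximal subgroup of SL_7(q) is of one of the listed geometric types or lies in the residual class. Let F be a finite field with q elements (p its characteristic) and H a maximal subgroup of SL_7(F) (inside GL_7(F)). Then H is the intersection with SL_7(F) of one of: the stabiliser of a proper non-zero subspace; for q ≥ 5, the stabiliser of a decomposition into 7 independent 1-spaces; the normaliser of a degree-7 subfield of the matrix algebra; a subfield group for a subfield F₀ with |F| = |F₀|^r, r prime; for q = p prime with p ≡ 1 mod 7, or q = p³ with p ≡ 2 or 4 mod 7,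 the normaliser of an absolutely irreducible 7-subgroup R of exponent 7 and order 7^(1+2m) with centre of order 7, all of whose characteristic abelian subgroups are cyclic, F being the smallest field of characteristic p containing the seventh roots of unity (here R is extraspecial of order 343); for q odd, the similarity group of a non-degenerate quadratic form; the similarity group of a non-degenerate unitary form — or else H lies in the residual class of the linear case (modulo scalars H is almost simple, with absolutely irreducible perfect socle preimage realisable over no proper subfield and fixing no non-degenerate quadratic, symplectic or unitary form). -/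
theorem result {F : Type*} [Field F] [Fintype F] (H : Subgroup (Matrix.GeneralLinearGroup (Fin 7) F)) (hH : Cfsg.Geo.IsMaximalIn (Cfsg.Geo.specialLinear (Fin 7) F) H) :
    (∃ W : Submodule F (Fin 7 → F), W ≠ ⊥ ∧ W ≠ ⊤ ∧ H = Cfsg.Geo.subspaceStabilizer W ⊓ Cfsg.Geo.specialLinear (Fin 7) F) ∨
    (5 ≤ Fintype.card F ∧ ∃ D : Fin 7 → Submodule F (Fin 7 → F), Cfsg.Geo.IsMDecomposition 1 D ∧ H = Cfsg.Geo.decompositionStabilizer D ⊓ Cfsg.Geo.specialLinear (Fin 7) F) ∨
    (∃ K : Subalgebra F (Matrix (Fin 7) (Fin 7) F), Cfsg.Geo.IsFieldSubalgebra 7 K ∧ H = Cfsg.Geo.subalgebraNormalizer K ⊓ Cfsg.Geo.specialLinear (Fin 7) F) ∨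
    (∃ (F₀ : Subfield F) (r : ℕ) (P : Matrix.GeneralLinearGroup (Fin 7) F), r.Prime ∧ Fintype.card F = Nat.card F₀ ^ r ∧ H = Cfsg.Geo.subfieldSubgroup F₀ P ⊓ Cfsg.Geo.specialLinear (Fin 7) F) ∨
    ((∃ p : ℕ, p.Prime ∧ CharP F p ∧ ((Fintype.card F = p ∧ p % 7 = 1) ∨ (Fintype.card F = p ^ 3 ∧ (p % 7 = 2 ∨ p % 7 = 4)))) ∧ ∃ R : Subgroup (Matrix.GeneralLinearGroup (Fin 7) F), Cfsg.Geo.IsLinearSymplecticTypeData 7 R ∧ H = Cfsg.Geo.subgroupNormalizer R ⊓ Cfsg.Geo.specialLinear (Fin 7) F) ∨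
    (Odd (Fintype.card F) ∧ ∃ Q : (Fin 7 → F) → F, Cfsg.Geo.IsNondegenerateQuadraticForm Q ∧ H = Cfsg.Geo.quadSimilarityGroup Q ⊓ Cfsg.Geo.specialLinear (Fin 7) F) ∨
    (∃ (σ : F ≃+* F) (f : (Fin 7 → F) → (Fin 7 → F) → F), Cfsg.Geo.IsUnitaryForm σ f ∧ H = Cfsg.Geo.similarityGroup f ⊓ Cfsg.Geo.specialLinear (Fin 7) F) ∨
    Cfsg.Geo.InLinearResidualClass H := by
  have hι : 3 ≤ Fintype.card (Fin 7) := by simp
  rcases Cfsg.Agent.Lib.Helper68.AschD.main 7 (by norm_num) H with hc | hres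
  swap
  · exact Or.inr (Or.inr (Or.inr (Or.inr (Or.inr (Or.inr (Or.inr hres))))))
  rcases hc with ⟨W, h0, h1, h⟩ | ⟨t, m, D, hD, h⟩ | ⟨r, K, hr, hK, h⟩ | ⟨a, b, e, P, ha, hb, h⟩ |
    ⟨F₀, r, P, hr, hc, h⟩ | ⟨r, m, R, hR, hm, hn, h⟩ | ⟨m, t, e, P, hm, ht, h⟩ | ⟨f, hf, he, h4, h⟩ |
    ⟨σ, f, hf, h⟩ | ⟨Q, hQ, ho, h⟩
  · exact Or.inl ⟨W, h0, h1, Cfsg.Agent.Lib.Helper68.AschRows.eq_stab hH h0 h1 h⟩
  · have h8 := Cfsg.Agent.Lib.Helper68.AschD.card_of_decomp D hD
    rw [Fintype.card_fin] at h8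
    have ht2 := hD.two_le
    have htd : t ∣ 7 := Dvd.intro _ h8
    have ht7 : t = 7 := by
      rcases (Nat.dvd_prime (by norm_num : Nat.Prime 7)).1 htd with h | h
      · omega
      · exact h
    subst ht7
    have hm1 : m = 1 := by omega
    subst hm1
    rcases Cfsg.Agent.Lib.Helper68.AschRows.monomial_cases hι hH hD h with
      ⟨W, h0, h1, hW⟩ | ⟨h5, hW⟩ | ⟨ho, Q, hQ, hW⟩ | ⟨σ, f, hf, hW⟩
    · exact Or.inl ⟨W, h0, h1, hW⟩
    · exact Or.inr (Or.inl ⟨h5, D, hD, hW⟩)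
    · exact Or.inr (Or.inr (Or.inr (Or.inr (Or.inr (Or.inl ⟨ho, Q, hQ, hW⟩)))))
    · exact Or.inr (Or.inr (Or.inr (Or.inr (Or.inr (Or.inr (Or.inl ⟨σ, f, hf, hW⟩))))))
  · have h6 := Cfsg.Agent.Lib.Helper68.AschD.dvd_card_of_field K hK
    rw [Fintype.card_fin] at h6
    have hr7 : r = 7 := (Nat.prime_dvd_prime_iff_eq hr (by norm_num)).1 h6
    subst hr7
    exact Or.inr (Or.inr (Or.inl ⟨K, hK, Cfsg.Agent.Lib.Helper68.AschRows.eq_field hι hH hr hK h⟩))
  · exfalso
    have hcard := Fintype.card_congr e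
    rw [Fintype.card_fin, Fintype.card_prod, Fintype.card_fin, Fintype.card_fin] at hcard
    have had : a ∣ 7 := Dvd.intro _ hcard.symm
    rcases (Nat.dvd_prime (by norm_num : Nat.Prime 7)).1 had with h | h
    · omega
    · subst h
      have : b = 1 := by omega
      omega
  · exact Or.inr (Or.inr (Or.inr (Or.inl ⟨F₀, r, P, hr, hc,
      Cfsg.Agent.Lib.Helper68.AschRows.eq_subfield hι hH hr hc h⟩)))
  · have hrp : r.Prime := hR.symplecticType.prime
    have hr7 : r = 7 := by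
      have : r ∣ 7 := by rw [hn]; exact dvd_pow_self r (by omega)
      exact (Nat.prime_dvd_prime_iff_eq hrp (by norm_num)).1 this
    subst hr7
    obtain ⟨p, e, hp, hch, hq, hne, hcase⟩ := Cfsg.Agent.Lib.Helper68.AschD.sympData_arith R hι hR
    rcases hcase with ⟨-, hoe, hd, hmin⟩ | ⟨h2, -, -⟩
    swap
    · omega
    refine Or.inr (Or.inr (Or.inr (Or.inr (Or.inl ⟨⟨p, hp, hch, ?_⟩, R, hR,
      Cfsg.Agent.Lib.Helper68.AschRows.eq_symp hι hH hR h⟩))))
    rcases arith7 hp hne hoe hd hmin with ⟨rfl, h1⟩ | ⟨rfl, h1⟩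
    · left; exact ⟨by rw [hq, pow_one], h1⟩
    · right; exact ⟨hq, h1⟩
  · exfalso
    have hcard := Fintype.card_congr e
    rw [Fintype.card_fin, Fintype.card_fun, Fintype.card_fin, Fintype.card_fin] at hcard
    have hmd : m ∣ 7 := by rw [hcard]; exact dvd_pow_self m (by omega)
    rcases (Nat.dvd_prime (by norm_num : Nat.Prime 7)).1 hmd with h | h
    · omega
    · subst h
      have : 7 ^ 2 ≤ 7 ^ t := Nat.pow_le_pow_right (by norm_num) ht
      omega
  · exfalso
    revert he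
    decide
  · exact Or.inr (Or.inr (Or.inr (Or.inr (Or.inr (Or.inr (Or.inl ⟨σ, f, hf,
      Cfsg.Agent.Lib.Helper68.AschRows.eq_unitary hι hH hf h⟩))))))
  · exact Or.inr (Or.inr (Or.inr (Or.inr (Or.inr (Or.inl ⟨ho, Q, hQ,
      Cfsg.Agent.Lib.Helper68.AschRows.eq_quad hι hH hQ h⟩)))))

end Cfsg.Agent.S5808
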