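import Cfsg.Statements.S5817
import Cfsg.Agent.Lib.Helper13.Asch.Main
import Cfsg.Agent.Lib.Helper58.Asch.D1
import Cfsg.Agent.Lib.Helper58.Asch.D1c
import Cfsg.Agent.Lib.Helper73.Asch.D1d
import Cfsg.Agent.Lib.Helper73.Asch.D1f
import Cfsg.Agent.Lib.Helper55.Asch.D3a
import Cfsg.Agent.Lib.Helper55.Asch.D3b
import Cfsg.Agent.Lib.Helper55.Asch.D3c
import Cfsg.Agent.Lib.Helper55.Asch.D4
import Cfsg.Agent.Lib.Helper79.Asch.D5
import Cfsg.Agent.Lib.Helper58.Asch.D6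
import Cfsg.Agent.Lib.Helper55.Asch.DecCore
import Cfsg.Agent.Lib.Helper65.Asch.D9

set_option autoImplicit false
open Cfsg

namespace Cfsg.Agent.S5817

open Cfsg.Geo Matrix Cfsg.Agent.Lib.Helper13.Asch Cfsg.Agent.Lib.Helper58.Asch Cfsg.Agent.Lib.Helper73.Asch
  Cfsg.Agent.Lib.Helper55.Asch Cfsg.Agent.Lib.Helper79.Asch Cfsg.Agent.Lib.Helper65.Asch
open scoped MatrixGroups

theorem result {F : Type*} [Field F] [Fintype F] (H : Subgroup (Matrix.GeneralLinearGroup (Fin 8) F)) (hH : Cfsg.Geo.IsMaximalIn (Cfsg.Geo.specialLinear (Fin 8) F) H) :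
    (∃ W : Submodule F (Fin 8 → F), W ≠ ⊥ ∧ W ≠ ⊤ ∧ H = Cfsg.Geo.subspaceStabilizer W ⊓ Cfsg.Geo.specialLinear (Fin 8) F) ∨
    (5 ≤ Fintype.card F ∧ ∃ D : Fin 8 → Submodule F (Fin 8 → F), Cfsg.Geo.IsMDecomposition 1 D ∧ H = Cfsg.Geo.decompositionStabilizer D ⊓ Cfsg.Geo.specialLinear (Fin 8) F) ∨
    (3 ≤ Fintype.card F ∧ ∃ D : Fin 4 → Submodule F (Fin 8 → F), Cfsg.Geo.IsMDecomposition 2 D ∧ H = Cfsg.Geo.decompositionStabilizer D ⊓ Cfsg.Geo.specialLinear (Fin 8) F) ∨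
    (∃ D : Fin 2 → Submodule F (Fin 8 → F), Cfsg.Geo.IsMDecomposition 4 D ∧ H = Cfsg.Geo.decompositionStabilizer D ⊓ Cfsg.Geo.specialLinear (Fin 8) F) ∨
    (∃ K : Subalgebra F (Matrix (Fin 8) (Fin 8) F), Cfsg.Geo.IsFieldSubalgebra 2 K ∧ H = Cfsg.Geo.subalgebraNormalizer K ⊓ Cfsg.Geo.specialLinear (Fin 8) F) ∨
    (3 ≤ Fintype.card F ∧ ∃ (e : Fin 8 ≃ Fin 2 × Fin 4) (P : Matrix.GeneralLinearGroup (Fin 8) F), H = Cfsg.Geo.tensorProductSubgroup 2 4 e P ⊓ Cfsg.Geo.specialLinear (Fin 8) F) ∨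
    (∃ (F₀ : Subfield F) (r : ℕ) (P : Matrix.GeneralLinearGroup (Fin 8) F), r.Prime ∧ Fintype.card F = Nat.card F₀ ^ r ∧ H = Cfsg.Geo.subfieldSubgroup F₀ P ⊓ Cfsg.Geo.specialLinear (Fin 8) F) ∨
    ((∃ p : ℕ, p.Prime ∧ Fintype.card F = p ∧ (p % 4 = 1)) ∧ ∃ R : Subgroup (Matrix.GeneralLinearGroup (Fin 8) F), Cfsg.Geo.IsLinearSymplecticTypeData 2 R ∧ H = Cfsg.Geo.subgroupNormalizer R ⊓ Cfsg.Geo.specialLinear (Fin 8) F) ∨
    (Odd (Fintype.card F) ∧ ∃ Q : (Fin 8 → F) → F, Cfsg.Geo.IsNondegenerateQuadraticForm Q ∧ H = Cfsg.Geo.quadSimilarityGroup Q ⊓ Cfsg.Geo.specialLinear (Fin 8) F) ∨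
    (∃ f : (Fin 8 → F) → (Fin 8 → F) → F, Cfsg.Geo.IsSymplecticForm f ∧ H = Cfsg.Geo.similarityGroup f ⊓ Cfsg.Geo.specialLinear (Fin 8) F) ∨
    (∃ (σ : F ≃+* F) (f : (Fin 8 → F) → (Fin 8 → F) → F), Cfsg.Geo.IsUnitaryForm σ f ∧ H = Cfsg.Geo.similarityGroup f ⊓ Cfsg.Geo.specialLinear (Fin 8) F) ∨
    Cfsg.Geo.InLinearResidualClass H := by
  have h3 : 3 ≤ Fintype.card (Fin 8) := by simp
  have hq2 : 2 ≤ Fintype.card F := Fintype.one_lt_card
  -- the basic conclusions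
  have cW : ∀ W : Submodule F (Fin 8 → F), W ≠ ⊥ → W ≠ ⊤ → H ≤ subspaceStabilizer W →
      H = subspaceStabilizer W ⊓ specialLinear (Fin 8) F := fun W h0 h1 h =>
    eq_inf_of_maximal hH h (sl_not_le_stab W h0 h1)
  have cD : ∀ {t m : ℕ} (D : Fin t → Submodule F (Fin 8 → F)), IsMDecomposition m D →
      H ≤ decompositionStabilizer D → H = decompositionStabilizer D ⊓ specialLinear (Fin 8) F :=
    fun D hD h => eq_inf_of_maximal hH h (sl_not_le_decomp D hD)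
  have cK : ∀ {r : ℕ} (K : Subalgebra F (Matrix (Fin 8) (Fin 8) F)), r.Prime →
      IsFieldSubalgebra r K → H ≤ subalgebraNormalizer K →
      H = subalgebraNormalizer K ⊓ specialLinear (Fin 8) F :=
    fun K hr hK h => eq_inf_of_maximal hH h (sl_not_le_field h3 hr K hK)
  have cS : ∀ f : (Fin 8 → F) → (Fin 8 → F) → F, IsSymplecticForm f → H ≤ similarityGroup f →
      H = similarityGroup f ⊓ specialLinear (Fin 8) F := fun f hf h =>
    eq_inf_of_maximal hH h (sl_not_le_sim h3 f hf.bilinear.add_left hf.nondegenerate)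
  have cU : ∀ (σ : F ≃+* F) (f : (Fin 8 → F) → (Fin 8 → F) → F), IsUnitaryForm σ f →
      H ≤ similarityGroup f → H = similarityGroup f ⊓ specialLinear (Fin 8) F := fun σ f hf h =>
    eq_inf_of_maximal hH h (sl_not_le_sim h3 f hf.add_left hf.nondegenerate)
  have cQ : ∀ Q : (Fin 8 → F) → F, IsNondegenerateQuadraticForm Q → H ≤ quadSimilarityGroup Q →
      H = quadSimilarityGroup Q ⊓ specialLinear (Fin 8) F := fun Q hQ h =>
    eq_inf_of_maximal hH h (sl_not_le_quadSim h3 Q hQ)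
  rcases main 8 (by norm_num) H with hc | hres
  swap
  · iterate 11 right
    exact hres
  rcases hc with ⟨W, h0, h1, h⟩ | ⟨t, m, D, hD, h⟩ | ⟨r, K, hr, hK, h⟩ | ⟨a, b, e, P, ha, hb, h⟩ |
    ⟨F₀, r, P, hr, hc, h⟩ | ⟨r, m, R, hR, hm, hrm, h⟩ | ⟨m, t, e, P, hm, ht, h⟩ | ⟨f, hf, he, h4, h⟩ |
    ⟨σ, f, hf, h⟩ | ⟨Q, hQ, ho, h⟩
  · exact Or.inl ⟨W, h0, h1, cW W h0 h1 h⟩
  · -- decompositions
    have htm : t * m = 8 := by simpa using card_of_decomp D hD
    have ht2 := hD.two_le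
    have htd : t ∣ 8 := ⟨m, htm.symm⟩
    have ht8 : t ≤ 8 := Nat.le_of_dvd (by norm_num) htd
    have hcases : (t = 8 ∧ m = 1) ∨ (t = 4 ∧ m = 2) ∨ (t = 2 ∧ m = 4) := by
      interval_cases t <;> omega
    rcases hcases with ⟨rfl, rfl⟩ | ⟨rfl, rfl⟩ | ⟨rfl, rfl⟩
    · by_cases hq5 : 5 ≤ Fintype.card F
      · exact Or.inr (Or.inl ⟨hq5, D, hD, cD D hD h⟩)
      · have : Fintype.card F = 2 ∨ Fintype.card F = 3 ∨ Fintype.card F = 4 := by omega
        rcases this with hq | hq | hq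
        · obtain ⟨W, h0, h1, hW⟩ := monomial_two hq D hD
          exact Or.inl ⟨W, h0, h1, cW W h0 h1 (h.trans hW)⟩
        · obtain ⟨Q, hQ, hle⟩ := monomial_three hq D hD
          iterate 8 right
          exact Or.inl ⟨by rw [hq]; decide, Q, hQ, cQ Q hQ (h.trans hle)⟩
        · obtain ⟨σ, f, hf, hle⟩ := monomial_four hq D hD
          iterate 10 right
          exact Or.inl ⟨σ, f, hf, cU σ f hf (h.trans hle)⟩
    · by_cases hq3 : 3 ≤ Fintype.card F
      · exact Or.inr (Or.inr (Or.inl ⟨hq3, D, hD, cD D hD h⟩))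
      · have hq : Fintype.card F = 2 := by omega
        obtain ⟨f, hf, hle⟩ := blocks_two hq D hD
        iterate 9 right
        exact Or.inl ⟨f, hf, cS f hf (h.trans hle)⟩
    · exact Or.inr (Or.inr (Or.inr (Or.inl ⟨D, hD, cD D hD h⟩)))
  · -- field extension
    have hr8 : r ∣ 8 := by simpa using dvd_card_of_field K hK
    have hr2 : r = 2 := by
      have : r ∣ 2 ^ 3 := by simpa using hr8
      exact (Nat.prime_dvd_prime_iff_eq hr Nat.prime_two).1 (hr.dvd_of_dvd_pow this)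
    subst hr2
    iterate 4 right
    exact Or.inl ⟨K, hK, cK K hr hK h⟩
  · -- tensor
    have hab : a * b = 8 := by
      have := Fintype.card_congr e
      simpa using this.symm
    have had : a ∣ 8 := ⟨b, hab.symm⟩
    have ha8 : a ≤ 8 := Nat.le_of_dvd (by norm_num) had
    have hcases : a = 2 ∧ b = 4 := by
      interval_cases a <;> omega
    obtain ⟨rfl, rfl⟩ := hcases
    by_cases hq3 : 3 ≤ Fintype.card F
    · iterate 5 right
      exact Or.inl ⟨hq3, e, P, eq_inf_of_maximal hH h (sl_not_le_tensor le_rfl (by norm_num) e P)⟩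
    · have hq : Fintype.card F = 2 := by omega
      obtain ⟨K, hK, hle⟩ := tensor_two_field hq (by norm_num) e P
      iterate 4 right
      exact Or.inl ⟨K, hK, cK K Nat.prime_two hK (h.trans hle)⟩
  · -- subfield
    have hF₀ : F₀ ≠ ⊤ := by
      rintro rfl
      have h1 : Nat.card (⊤ : Subfield F) = Fintype.card F := by
        rw [← Nat.card_eq_fintype_card]
        exact Nat.card_congr (Subfield.topEquiv (K := F)).toEquiv
      rw [h1] at hc
      have h2 : (Fintype.card F) ^ 1 < (Fintype.card F) ^ r :=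
        Nat.pow_lt_pow_right hq2 hr.one_lt
      rw [pow_one, ← hc] at h2
      exact lt_irrefl _ h2
    iterate 6 right
    exact Or.inl ⟨F₀, r, P, hr, hc,
      eq_inf_of_maximal hH h (sl_not_le_subfield (by simp) F₀ hF₀ P)⟩
  · -- symplectic type
    have hrp := hR.symplecticType.prime
    have hr2 : r = 2 := by
      have : r ∣ 2 ^ 3 := by
        have h8 : (2:ℕ) ^ 3 = r ^ m := by rw [← hrm]; norm_num
        rw [h8]; exact dvd_pow_self r (by omega)
      exact (Nat.prime_dvd_prime_iff_eq hrp Nat.prime_two).1 (hrp.dvd_of_dvd_pow this)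
    subst hr2
    obtain ⟨p, e, hp, -, hcard, -, hh⟩ := sympData_arith R h3 hR
    rcases hh with ⟨hodd, -⟩ | ⟨-, rfl, hp4⟩
    · exact absurd hodd (by decide)
    · iterate 7 right
      exact Or.inl ⟨⟨p, hp, by simpa using hcard, hp4⟩, R, hR,
        eq_inf_of_maximal hH h (sl_not_le_sympNormalizer h3 R hR)⟩
  · -- tensor wreath: impossible
    exfalso
    have hc : m ^ t = 8 := by
      have := Fintype.card_congr e
      simpa using this.symm
    have h9 : 3 ^ 2 ≤ m ^ t :=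
      (Nat.pow_le_pow_left hm 2).trans (Nat.pow_le_pow_right (by omega) ht)
    omega
  · iterate 9 right
    exact Or.inl ⟨f, hf, cS f hf h⟩
  · iterate 10 right
    exact Or.inl ⟨σ, f, hf, cU σ f hf h⟩
  · iterate 8 right
    exact Or.inl ⟨ho, Q, hQ, cQ Q hQ h⟩

end Cfsg.Agent.S5817
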