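import Cfsg.Statements.S5829
import Cfsg.Agent.Lib.Helper68.AschRows

set_option autoImplicit false
open Cfsg

namespace Cfsg.Agent.S5829

/-- arithmetic of class 6 for `r = 3`. -/
theorem arith3 {p e : ℕ} (hp : p.Prime) (h3 : 3 ≠ p) (he : Odd e) (hd : 3 ∣ p ^ e - 1)
    (hmin : ∀ d, 0 < d → d < e → ¬ 3 ∣ p ^ d - 1) : e = 1 ∧ p % 3 = 1 := by
  have hp0 : p % 3 ≠ 0 := by
    intro h
    have := (Nat.prime_dvd_prime_iff_eq (by norm_num) hp).1 (Nat.dvd_of_mod_eq_zero h)
    exact h3 this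
  have key : ∀ d, 3 ∣ p ^ d - 1 ↔ (p % 3) ^ d % 3 = 1 := by
    intro d
    have h1 : 1 ≤ p ^ d := Nat.one_le_pow _ _ hp.pos
    rw [← Nat.pow_mod]
    omega
  have hlt : p % 3 < 3 := Nat.mod_lt _ (by norm_num)
  have hmin' : ∀ d, 0 < d → d < e → ¬ (p % 3) ^ d % 3 = 1 := fun d h0 h1 => by
    rw [← key]; exact hmin d h0 h1
  rw [key] at hd
  generalize p % 3 = a at hp0 hlt hmin' hd ⊢
  clear key hmin
  have he2 : e ≤ 2 := by
    by_contra hcon
    apply hmin' 2 (by norm_num) (by omega)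
    interval_cases a <;> first | exact absurd rfl hp0 | norm_num
  obtain ⟨k, hk⟩ := he
  have : e = 1 := by omega
  subst this
  refine ⟨rfl, ?_⟩
  clear hmin'
  interval_cases a <;> first | exact absurd rfl hp0 | rfl | (exfalso; norm_num at hd; done)

/-- Every maximal subgroup of SL_9(q) is of one of the listed geometric types or lies in the residual class. Let F be a finite field with q elements (p its characteristic) and H a maximal subgroup of SL_9(F) (inside GL_9(F)). Then H is the intersection with SL_9(F) of one of: the stabiliser of a proper non-zero subspace; for q ≥ 5, the stabiliser of a decomposition into 9 independent 1-spaces; the stabiliser of a decomposition into 3 independent 3-spaces; the normaliser of a degree-3 subfield of the matrix algebra; a subfield group for a subfield F₀ with |F| = |F₀|^r, r prime; for q = p prime with p ≡ 1 mod 3, the normaliser of an absolutely irreducible 3-subgroup R of exponent 3 and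 order 3^(1+2m) with centre of order 3, all of whose characteristic abelian subgroups are cyclic, F being the smallest field of characteristic p containing the cube roots of unity (here R is extraspecial of order 3^5); the stabiliser of a tensor decomposition into 2 factors of dimension 3; for q odd, the similarity group of a non-degenerate quadratic form; the similarity group of a non-degenerate unitary form — or else H lies in the residual class of the linear case (modulo scalars H is almost simple, with absolutely irreducible perfect socle preimage realisable over no proper subfield and fixing no non-degenerate quadratic, symplectic or unitary form). -/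
theorem result {F : Type*} [Field F] [Fintype F] (H : Subgroup (Matrix.GeneralLinearGroup (Fin 9) F)) (hH : Cfsg.Geo.IsMaximalIn (Cfsg.Geo.specialLinear (Fin 9) F) H) :
    (∃ W : Submodule F (Fin 9 → F), W ≠ ⊥ ∧ W ≠ ⊤ ∧ H = Cfsg.Geo.subspaceStabilizer W ⊓ Cfsg.Geo.specialLinear (Fin 9) F) ∨
    (5 ≤ Fintype.card F ∧ ∃ D : Fin 9 → Submodule F (Fin 9 → F), Cfsg.Geo.IsMDecomposition 1 D ∧ H = Cfsg.Geo.decompositionStabilizer D ⊓ Cfsg.Geo.specialLinear (Fin 9) F) ∨
    (∃ D : Fin 3 → Submodule F (Fin 9 → F), Cfsg.Geo.IsMDecomposition 3 D ∧ H = Cfsg.Geo.decompositionStabilizer D ⊓ Cfsg.Geo.specialLinear (Fin 9) F) ∨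
    (∃ K : Subalgebra F (Matrix (Fin 9) (Fin 9) F), Cfsg.Geo.IsFieldSubalgebra 3 K ∧ H = Cfsg.Geo.subalgebraNormalizer K ⊓ Cfsg.Geo.specialLinear (Fin 9) F) ∨
    (∃ (F₀ : Subfield F) (r : ℕ) (P : Matrix.GeneralLinearGroup (Fin 9) F), r.Prime ∧ Fintype.card F = Nat.card F₀ ^ r ∧ H = Cfsg.Geo.subfieldSubgroup F₀ P ⊓ Cfsg.Geo.specialLinear (Fin 9) F) ∨
    ((∃ p : ℕ, p.Prime ∧ Fintype.card F = p ∧ (p % 3 = 1)) ∧ ∃ R : Subgroup (Matrix.GeneralLinearGroup (Fin 9) F), Cfsg.Geo.IsLinearSymplecticTypeData 3 R ∧ H = Cfsg.Geo.subgroupNormalizer R ⊓ Cfsg.Geo.specialLinear (Fin 9) F) ∨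
    (∃ (e : Fin 9 ≃ (Fin 2 → Fin 3)) (P : Matrix.GeneralLinearGroup (Fin 9) F), H = Cfsg.Geo.tensorWreathSubgroup 3 2 e P ⊓ Cfsg.Geo.specialLinear (Fin 9) F) ∨
    (Odd (Fintype.card F) ∧ ∃ Q : (Fin 9 → F) → F, Cfsg.Geo.IsNondegenerateQuadraticForm Q ∧ H = Cfsg.Geo.quadSimilarityGroup Q ⊓ Cfsg.Geo.specialLinear (Fin 9) F) ∨
    (∃ (σ : F ≃+* F) (f : (Fin 9 → F) → (Fin 9 → F) → F), Cfsg.Geo.IsUnitaryForm σ f ∧ H = Cfsg.Geo.similarityGroup f ⊓ Cfsg.Geo.specialLinear (Fin 9) F) ∨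
    Cfsg.Geo.InLinearResidualClass H := by
  have hι : 3 ≤ Fintype.card (Fin 9) := by simp
  rcases Cfsg.Agent.Lib.Helper68.AschD.main 9 (by norm_num) H with hc | hres
  swap
  · exact Or.inr (Or.inr (Or.inr (Or.inr (Or.inr (Or.inr (Or.inr (Or.inr (Or.inr hres))))))))
  rcases hc with ⟨W, h0, h1, h⟩ | ⟨t, m, D, hD, h⟩ | ⟨r, K, hr, hK, h⟩ | ⟨a, b, e, P, ha, hb, h⟩ |
    ⟨F₀, r, P, hr, hc, h⟩ | ⟨r, m, R, hR, hm, hn, h⟩ | ⟨m, t, e, P, hm, ht, h⟩ | ⟨f, hf, he, h4, h⟩ |
    ⟨σ, f, hf, h⟩ | ⟨Q, hQ, ho, h⟩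
  · exact Or.inl ⟨W, h0, h1, Cfsg.Agent.Lib.Helper68.AschRows.eq_stab hH h0 h1 h⟩
  · have h8 := Cfsg.Agent.Lib.Helper68.AschD.card_of_decomp D hD
    rw [Fintype.card_fin] at h8
    have ht2 := hD.two_le
    have hm0 := hD.pos
    have ht9 : t ≤ 9 := by nlinarith
    have hcases : (t = 9 ∧ m = 1) ∨ (t = 3 ∧ m = 3) := by
      interval_cases t <;> omega
    rcases hcases with ⟨rfl, rfl⟩ | ⟨rfl, rfl⟩
    · rcases Cfsg.Agent.Lib.Helper68.AschRows.monomial_cases hι hH hD h with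
        ⟨W, h0, h1, hW⟩ | ⟨h5, hW⟩ | ⟨ho, Q, hQ, hW⟩ | ⟨σ, f, hf, hW⟩
      · exact Or.inl ⟨W, h0, h1, hW⟩
      · exact Or.inr (Or.inl ⟨h5, D, hD, hW⟩)
      · exact Or.inr (Or.inr (Or.inr (Or.inr (Or.inr (Or.inr (Or.inr (Or.inl ⟨ho, Q, hQ, hW⟩)))))))
      · exact Or.inr (Or.inr (Or.inr (Or.inr (Or.inr (Or.inr (Or.inr (Or.inr
          (Or.inl ⟨σ, f, hf, hW⟩))))))))
    · exact Or.inr (Or.inr (Or.inl ⟨D, hD, Cfsg.Agent.Lib.Helper68.AschRows.eq_decomp hH hD h⟩))
  · have h6 := Cfsg.Agent.Lib.Helper68.AschD.dvd_card_of_field K hK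
    rw [Fintype.card_fin] at h6
    have hr3 : r = 3 := by
      have : r ∣ 3 := hr.dvd_of_dvd_pow (n := 2) (by norm_num; exact h6)
      exact (Nat.prime_dvd_prime_iff_eq hr (by norm_num)).1 this
    subst hr3
    exact Or.inr (Or.inr (Or.inr (Or.inl
      ⟨K, hK, Cfsg.Agent.Lib.Helper68.AschRows.eq_field hι hH hr hK h⟩)))
  · exfalso
    have hcard := Fintype.card_congr e
    rw [Fintype.card_fin, Fintype.card_prod, Fintype.card_fin, Fintype.card_fin] at hcard
    have ha9 : a ≤ 9 := by nlinarith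
    have hb9 : b ≤ 9 := by nlinarith
    interval_cases a <;> omega
  · exact Or.inr (Or.inr (Or.inr (Or.inr (Or.inl ⟨F₀, r, P, hr, hc,
      Cfsg.Agent.Lib.Helper68.AschRows.eq_subfield hι hH hr hc h⟩))))
  · have hrp : r.Prime := hR.symplecticType.prime
    have hr3 : r = 3 := by
      have h9 : r ∣ 9 := by rw [hn]; exact dvd_pow_self r (by omega)
      have : r ∣ 3 := hrp.dvd_of_dvd_pow (n := 2) (by norm_num; exact h9)
      exact (Nat.prime_dvd_prime_iff_eq hrp (by norm_num)).1 this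
    subst hr3
    obtain ⟨p, e, hp, hch, hq, hne, hcase⟩ := Cfsg.Agent.Lib.Helper68.AschD.sympData_arith R hι hR
    rcases hcase with ⟨-, hoe, hd, hmin⟩ | ⟨h2, -, -⟩
    swap
    · omega
    obtain ⟨rfl, h1⟩ := arith3 hp hne hoe hd hmin
    exact Or.inr (Or.inr (Or.inr (Or.inr (Or.inr (Or.inl ⟨⟨p, hp, by rw [hq, pow_one], h1⟩, R, hR,
      Cfsg.Agent.Lib.Helper68.AschRows.eq_symp hι hH hR h⟩)))))
  · have hcard := Fintype.card_congr e
    rw [Fintype.card_fin, Fintype.card_fun, Fintype.card_fin, Fintype.card_fin] at hcard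
    have hm3 : m = 3 ∧ t = 2 := by
      have h1 : m ^ 2 ≤ m ^ t := Nat.pow_le_pow_right (by omega) ht
      have hm4 : m ≤ 3 := by
        by_contra hcon
        have : 4 ^ 2 ≤ m ^ 2 := Nat.pow_le_pow_left (by omega) 2
        omega
      have hm3 : m = 3 := by omega
      subst hm3
      refine ⟨rfl, ?_⟩
      by_contra hcon
      have : 3 ^ 3 ≤ 3 ^ t := Nat.pow_le_pow_right (by norm_num) (by omega)
      omega
    obtain ⟨rfl, rfl⟩ := hm3
    exact Or.inr (Or.inr (Or.inr (Or.inr (Or.inr (Or.inr (Or.inl ⟨e, P,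
      Cfsg.Agent.Lib.Helper68.AschD.eq_inf_of_maximal hH h
        (Cfsg.Agent.Lib.Helper68.AschD.sl_not_le_wreath_two (by norm_num) e P)⟩))))))
  · exfalso
    revert he
    decide
  · exact Or.inr (Or.inr (Or.inr (Or.inr (Or.inr (Or.inr (Or.inr (Or.inr (Or.inl ⟨σ, f, hf,
      Cfsg.Agent.Lib.Helper68.AschRows.eq_unitary hι hH hf h⟩))))))))
  · exact Or.inr (Or.inr (Or.inr (Or.inr (Or.inr (Or.inr (Or.inr (Or.inl ⟨ho, Q, hQ,
      Cfsg.Agent.Lib.Helper68.AschRows.eq_quad hι hH hQ h⟩)))))))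

end Cfsg.Agent.S5829
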