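import Cfsg.Statements.S5844
import Cfsg.Agent.Lib.Helper94.SpRow.Refined

set_option autoImplicit false
open Cfsg

namespace Cfsg.Agent.S5844

/-- Every maximal subgroup of Sp_10(q) is of one of the listed geometric types or lies in the residual class. Let F be a finite field with q elements (characteristic p), f the standard alternating form on F^10 (coordinates Fin 5 ⊕ Fin 5), and H a maximal subgroup of Sp_10(F) (inside GL_10(F)). Then H is the intersection with Sp_10(F) of one of: the stabiliser of a non-zero totally isotropic subspace; the stabiliser of a non-zero non-degenerate subspace of dimension less than 5; for q ≥ 3, the stabiliser of a decomposition into 5 mutually orthogonal non-degenerate 2-spaces; for q odd, of a decomposition into two totally isotropic 5-spaces; the normaliser of a degree-5 subfield K of the matrix algebra, self-adjoint with f(k v, v) = 0; for q odd, the normaliser of a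 degree-2 subfield closed under adjoints but not self-adjoint; for q odd, the stabiliser of a tensor decomposition of f into an alternating form on F^2 and a symmetric form on F^5; a subfield group (|F| = |F₀|^r, r prime) whose F₀-structure carries a non-zero multiple of f; for q even, the similarity group of a non-degenerate quadratic form polarising to f — or else H lies in the residual class of the symplectic case (modulo scalars H is almost simple, with absolutely irreducible perfect socle preimage realisable over no proper subfield and fixing no non-degenerate quadratic or unitary form). -/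
theorem result {F : Type*} [Field F] [Fintype F] (H : Subgroup (Matrix.GeneralLinearGroup (Fin 5 ⊕ Fin 5) F)) (hH : Cfsg.Geo.IsMaximalIn (Cfsg.spGL 5 F) H) :
    (∃ W : Submodule F (Fin 5 ⊕ Fin 5 → F), W ≠ ⊥ ∧ Cfsg.Geo.IsTotallySingularFor (Cfsg.sympForm 5 F) W ∧ H = Cfsg.Geo.subspaceStabilizer W ⊓ Cfsg.spGL 5 F) ∨
    (∃ W : Submodule F (Fin 5 ⊕ Fin 5 → F), W ≠ ⊥ ∧ Cfsg.Geo.IsNondegenerateOn (Cfsg.sympForm 5 F) W ∧ Module.finrank F W < 5 ∧ H = Cfsg.Geo.subspaceStabilizer W ⊓ Cfsg.spGL 5 F) ∨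
    (3 ≤ Fintype.card F ∧ ∃ D : Fin 5 → Submodule F (Fin 5 ⊕ Fin 5 → F), Cfsg.Geo.IsNondegenerateMDecomposition (Cfsg.sympForm 5 F) 2 D ∧ H = Cfsg.Geo.decompositionStabilizer D ⊓ Cfsg.spGL 5 F) ∨
    (Odd (Fintype.card F) ∧ ∃ D : Fin 2 → Submodule F (Fin 5 ⊕ Fin 5 → F), Cfsg.Geo.IsMDecomposition 5 D ∧ (∀ i, Cfsg.Geo.IsTotallySingularFor (Cfsg.sympForm 5 F) (D i)) ∧ H = Cfsg.Geo.decompositionStabilizer D ⊓ Cfsg.spGL 5 F) ∨
    (∃ K : Subalgebra F (Matrix (Fin 5 ⊕ Fin 5) (Fin 5 ⊕ Fin 5) F), Cfsg.Geo.IsFieldSubalgebra 5 K ∧ Cfsg.Geo.IsSelfAdjointFor (Cfsg.sympForm 5 F) K ∧ (∀ k ∈ K, ∀ v : (Fin 5 ⊕ Fin 5 → F), (Cfsg.sympForm 5 F) (Matrix.mulVec k v) v = 0) ∧ H = Cfsg.Geo.subalgebraNormalizer K ⊓ Cfsg.spGL 5 F) ∨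
    (Odd (Fintype.card F) ∧ ∃ K : Subalgebra F (Matrix (Fin 5 ⊕ Fin 5) (Fin 5 ⊕ Fin 5) F), Cfsg.Geo.IsFieldSubalgebra 2 K ∧ Cfsg.Geo.IsAdjointClosedFor (Cfsg.sympForm 5 F) K ∧ ¬ Cfsg.Geo.IsSelfAdjointFor (Cfsg.sympForm 5 F) K ∧ H = Cfsg.Geo.subalgebraNormalizer K ⊓ Cfsg.spGL 5 F) ∨
    (Odd (Fintype.card F) ∧ ∃ (e : (Fin 5 ⊕ Fin 5) ≃ Fin 2 × Fin 5) (P : Matrix.GeneralLinearGroup (Fin 5 ⊕ Fin 5) F) (f₁ : (Fin 2 → F) → (Fin 2 → F) → F) (f₂ : (Fin 5 → F) → (Fin 5 → F) → F), Cfsg.Geo.IsSymplecticForm f₁ ∧ Cfsg.Geo.IsSymmetricForm f₂ ∧ Cfsg.Geo.IsTensorFormStructure id (Cfsg.sympForm 5 F) f₁ f₂ e P ∧ H = Cfsg.Geo.tensorProductSubgroup 2 5 e P ⊓ Cfsg.spGL 5 F) ∨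
    (∃ (F₀ : Subfield F) (r : ℕ) (P : Matrix.GeneralLinearGroup (Fin 5 ⊕ Fin 5) F) (ζ : F), r.Prime ∧ Fintype.card F = Nat.card F₀ ^ r ∧ ζ ≠ 0 ∧ Cfsg.Geo.IsFormRationalStructure (Cfsg.sympForm 5 F) F₀ ζ P ∧ H = Cfsg.Geo.subfieldSubgroup F₀ P ⊓ Cfsg.spGL 5 F) ∨
    (¬ Odd (Fintype.card F) ∧ ∃ Q : (Fin 5 ⊕ Fin 5 → F) → F, Cfsg.Geo.IsNondegenerateQuadraticForm Q ∧ (∀ u v : (Fin 5 ⊕ Fin 5 → F), QuadraticMap.polar Q u v = (Cfsg.sympForm 5 F) u v) ∧ H = Cfsg.Geo.quadSimilarityGroup Q ⊓ Cfsg.spGL 5 F) ∨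
    Cfsg.Geo.InSymplecticResidualClass H := by
  rcases Cfsg.Agent.Lib.Helper94.SpRow.refined (m := 5) (by norm_num) H hH with
    ⟨W, h0, hW, h⟩ | ⟨W, h0, hW, hlt, hev, h⟩ | ⟨t, k, D, hD, htk, hk, hq, h⟩ |
    ⟨D, ho, hD, hts, h⟩ | ⟨F₀, r, P, ζ, hr, hc, hζ, hS, h⟩ |
    ⟨R, p, k, h1, h2, h3, hp, hpo, hqp, h5, h6, h7, h8, h⟩ | ⟨Q, hne, hQ, hpol, h⟩ |
    ⟨r, K, hr, hrm, hK, hsa, hz, h⟩ | ⟨K, ho, hK, hac, hns, h⟩ |
    ⟨n₁, n₂, e, P, f₁, f₂, ho, hn2, hn1, hn, hq, hf1, hf2, hT, h⟩ |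
    ⟨k, t, e, P, f₁, ho, hto, ht, hkt, hq, hf1, hT, h⟩ | hR
  · left
    exact ⟨W, h0, hW, h⟩
  · right; left
    exact ⟨W, h0, hW, hlt, h⟩
  · have ht2 := hD.decomp.two_le
    have hk0 := hD.decomp.pos
    have ht4 : t ≤ 10 := by nlinarith
    have hcases : t = 5 ∧ k = 2 := by
      obtain ⟨c, hc⟩ := hk
      interval_cases t <;> omega
    obtain ⟨rfl, rfl⟩ := hcases
    iterate 2 right
    left
    exact ⟨hq rfl, D, hD, h⟩
  · iterate 3 right
    left
    exact ⟨ho, D, hD, hts, h⟩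
  · iterate 7 right
    left
    exact ⟨F₀, r, P, ζ, hr, hc, hζ, hS, h⟩
  · exfalso
    have hk4 : k < 4 := by
      by_contra hk4
      have : 2 ^ 4 ≤ 2 ^ k := Nat.pow_le_pow_right (by norm_num) (by omega)
      omega
    interval_cases k <;> omega
  · iterate 8 right
    left
    exact ⟨hne, Q, hQ, hpol, h⟩
  · have hr2 : r = 5 := (Nat.prime_dvd_prime_iff_eq hr (by norm_num)).mp hrm
    subst hr2
    iterate 4 right
    left
    exact ⟨K, hK, hsa, hz, h⟩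
  · iterate 5 right
    left
    exact ⟨ho, K, hK, hac, hns, h⟩
  · have hn1' : n₁ ≤ 10 := by nlinarith
    have hcases : n₁ = 2 ∧ n₂ = 5 := by
      obtain ⟨c, hc⟩ := hn1
      interval_cases n₁ <;> omega
    obtain ⟨rfl, rfl⟩ := hcases
    iterate 6 right
    left
    exact ⟨ho, e, P, f₁, f₂, hf1, hf2, hT, h⟩
  · exfalso
    have hk3 : k < 3 := by
      by_contra hk3
      have h1 : 3 ^ 3 ≤ k ^ 3 := Nat.pow_le_pow_left (by omega) 3
      have h2 : k ^ 3 ≤ k ^ t := Nat.pow_le_pow_right (by omega) ht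
      omega
    have ht4 : k = 2 → t < 4 := by
      intro hk2
      by_contra ht4
      have : 2 ^ 4 ≤ 2 ^ t := Nat.pow_le_pow_right (by norm_num) (by omega)
      rw [hk2] at hkt
      omega
    interval_cases k
    · rw [zero_pow (by omega)] at hkt; omega
    · rw [one_pow] at hkt; omega
    · have := ht4 rfl
      interval_cases t
      omega
  · iterate 9 right
    exact hR

end Cfsg.Agent.S5844
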