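import Cfsg.Statements.S5862
import Cfsg.Agent.Lib.Helper13.Asch.Main
import Cfsg.Agent.Lib.Helper58.Asch.D1
import Cfsg.Agent.Lib.Helper58.Asch.D1c
import Cfsg.Agent.Lib.Helper73.Asch.D1d
import Cfsg.Agent.Lib.Helper55.Asch.D3a
import Cfsg.Agent.Lib.Helper55.Asch.D3b
import Cfsg.Agent.Lib.Helper55.Asch.D3c
import Cfsg.Agent.Lib.Helper55.Asch.D4
import Cfsg.Agent.Lib.Helper79.Asch.D5
import Cfsg.Agent.Lib.Helper58.Asch.D6
import Cfsg.Agent.Lib.Helper55.Asch.DecCore
-- import your own Cfsg.Agent.* helpers here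

set_option autoImplicit false
open Cfsg

namespace Cfsg.Agent.S5862

/-- Every maximal subgroup of SL_12(q) is of one of the listed geometric types or lies in the residual class. Let F be a finite field with q elements (p its characteristic) and H a maximal subgroup of SL_12(F) (inside GL_12(F)). Then H is the intersection with SL_12(F) of one of: the stabiliser of a proper non-zero subspace; for q ≥ 5, the stabiliser of a decomposition into 12 independent 1-spaces; for q ≥ 3, the stabiliser of a decomposition into 6 independent 2-spaces; the stabiliser of a decomposition into 4 independent 3-spaces; the stabiliser of a decomposition into 3 independent 4-spaces; the stabiliser of a decomposition into 2 independent 6-spaces; the normaliser of a degree-2 subfield of the matrix algebra; the normaliser of a degree-3 subfield of the matrix algebra; for q ≥ 3, the stabiliser of a tensor decomposition F^2 ⊗ F^6; the stabiliser of a tensor decomposition F^3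 ⊗ F^4; a subfield group for a subfield F₀ with |F| = |F₀|^r, r prime; for q odd, the similarity group of a non-degenerate quadratic form; the similarity group of a non-degenerate symplectic form; the similarity group of a non-degenerate unitary form — or else H lies in the residual class of the linear case (modulo scalars H is almost simple, with absolutely irreducible perfect socle preimage realisable over no proper subfield and fixing no non-degenerate quadratic, symplectic or unitary form). -/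
theorem result {F : Type*} [Field F] [Fintype F] (H : Subgroup (Matrix.GeneralLinearGroup (Fin 12) F)) (hH : Cfsg.Geo.IsMaximalIn (Cfsg.Geo.specialLinear (Fin 12) F) H) :
    (∃ W : Submodule F (Fin 12 → F), W ≠ ⊥ ∧ W ≠ ⊤ ∧ H = Cfsg.Geo.subspaceStabilizer W ⊓ Cfsg.Geo.specialLinear (Fin 12) F) ∨
    (5 ≤ Fintype.card F ∧ ∃ D : Fin 12 → Submodule F (Fin 12 → F), Cfsg.Geo.IsMDecomposition 1 D ∧ H = Cfsg.Geo.decompositionStabilizer D ⊓ Cfsg.Geo.specialLinear (Fin 12) F) ∨
    (3 ≤ Fintype.card F ∧ ∃ D : Fin 6 → Submodule F (Fin 12 → F), Cfsg.Geo.IsMDecomposition 2 D ∧ H = Cfsg.Geo.decompositionStabilizer D ⊓ Cfsg.Geo.specialLinear (Fin 12) F) ∨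
    (∃ D : Fin 4 → Submodule F (Fin 12 → F), Cfsg.Geo.IsMDecomposition 3 D ∧ H = Cfsg.Geo.decompositionStabilizer D ⊓ Cfsg.Geo.specialLinear (Fin 12) F) ∨
    (∃ D : Fin 3 → Submodule F (Fin 12 → F), Cfsg.Geo.IsMDecomposition 4 D ∧ H = Cfsg.Geo.decompositionStabilizer D ⊓ Cfsg.Geo.specialLinear (Fin 12) F) ∨
    (∃ D : Fin 2 → Submodule F (Fin 12 → F), Cfsg.Geo.IsMDecomposition 6 D ∧ H = Cfsg.Geo.decompositionStabilizer D ⊓ Cfsg.Geo.specialLinear (Fin 12) F) ∨
    (∃ K : Subalgebra F (Matrix (Fin 12) (Fin 12) F), Cfsg.Geo.IsFieldSubalgebra 2 K ∧ H = Cfsg.Geo.subalgebraNormalizer K ⊓ Cfsg.Geo.specialLinear (Fin 12) F) ∨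
    (∃ K : Subalgebra F (Matrix (Fin 12) (Fin 12) F), Cfsg.Geo.IsFieldSubalgebra 3 K ∧ H = Cfsg.Geo.subalgebraNormalizer K ⊓ Cfsg.Geo.specialLinear (Fin 12) F) ∨
    (3 ≤ Fintype.card F ∧ ∃ (e : Fin 12 ≃ Fin 2 × Fin 6) (P : Matrix.GeneralLinearGroup (Fin 12) F), H = Cfsg.Geo.tensorProductSubgroup 2 6 e P ⊓ Cfsg.Geo.specialLinear (Fin 12) F) ∨
    (∃ (e : Fin 12 ≃ Fin 3 × Fin 4) (P : Matrix.GeneralLinearGroup (Fin 12) F), H = Cfsg.Geo.tensorProductSubgroup 3 4 e P ⊓ Cfsg.Geo.specialLinear (Fin 12) F) ∨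
    (∃ (F₀ : Subfield F) (r : ℕ) (P : Matrix.GeneralLinearGroup (Fin 12) F), r.Prime ∧ Fintype.card F = Nat.card F₀ ^ r ∧ H = Cfsg.Geo.subfieldSubgroup F₀ P ⊓ Cfsg.Geo.specialLinear (Fin 12) F) ∨
    (Odd (Fintype.card F) ∧ ∃ Q : (Fin 12 → F) → F, Cfsg.Geo.IsNondegenerateQuadraticForm Q ∧ H = Cfsg.Geo.quadSimilarityGroup Q ⊓ Cfsg.Geo.specialLinear (Fin 12) F) ∨
    (∃ f : (Fin 12 → F) → (Fin 12 → F) → F, Cfsg.Geo.IsSymplecticForm f ∧ H = Cfsg.Geo.similarityGroup f ⊓ Cfsg.Geo.specialLinear (Fin 12) F) ∨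
    (∃ (σ : F ≃+* F) (f : (Fin 12 → F) → (Fin 12 → F) → F), Cfsg.Geo.IsUnitaryForm σ f ∧ H = Cfsg.Geo.similarityGroup f ⊓ Cfsg.Geo.specialLinear (Fin 12) F) ∨
    Cfsg.Geo.InLinearResidualClass H := by
  have hc12 : Fintype.card (Fin 12) = 12 := Fintype.card_fin 12
  have h3 : 3 ≤ Fintype.card (Fin 12) := by rw [hc12]; norm_num
  have hq2 : 2 ≤ Fintype.card F := Fintype.one_lt_card
  have fin : ∀ M : Subgroup (Matrix.GeneralLinearGroup (Fin 12) F), H ≤ M →
      ¬ Cfsg.Geo.specialLinear (Fin 12) F ≤ M → H = M ⊓ Cfsg.Geo.specialLinear (Fin 12) F :=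
    fun M h1 h2 => Cfsg.Agent.Lib.Helper58.Asch.eq_inf_of_maximal hH h1 h2
  -- the recurring conclusions
  have cW : ∀ W : Submodule F (Fin 12 → F), W ≠ ⊥ → W ≠ ⊤ → H ≤ Cfsg.Geo.subspaceStabilizer W →
      H = Cfsg.Geo.subspaceStabilizer W ⊓ Cfsg.Geo.specialLinear (Fin 12) F :=
    fun W h0 h1 h => fin _ h (Cfsg.Agent.Lib.Helper58.Asch.sl_not_le_stab W h0 h1)
  have cD : ∀ {t m : ℕ} (D : Fin t → Submodule F (Fin 12 → F)), Cfsg.Geo.IsMDecomposition m D →
      H ≤ Cfsg.Geo.decompositionStabilizer D →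
      H = Cfsg.Geo.decompositionStabilizer D ⊓ Cfsg.Geo.specialLinear (Fin 12) F :=
    fun D hD h => fin _ h (Cfsg.Agent.Lib.Helper58.Asch.sl_not_le_decomp D hD)
  have cK : ∀ {r : ℕ} (K : Subalgebra F (Matrix (Fin 12) (Fin 12) F)), r.Prime →
      Cfsg.Geo.IsFieldSubalgebra r K → H ≤ Cfsg.Geo.subalgebraNormalizer K →
      H = Cfsg.Geo.subalgebraNormalizer K ⊓ Cfsg.Geo.specialLinear (Fin 12) F :=
    fun K hr hK h => fin _ h (Cfsg.Agent.Lib.Helper58.Asch.sl_not_le_field h3 hr K hK)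
  have cS : ∀ f : (Fin 12 → F) → (Fin 12 → F) → F, Cfsg.Geo.IsSymplecticForm f →
      H ≤ Cfsg.Geo.similarityGroup f →
      H = Cfsg.Geo.similarityGroup f ⊓ Cfsg.Geo.specialLinear (Fin 12) F :=
    fun f hf h => fin _ h (Cfsg.Agent.Lib.Helper58.Asch.sl_not_le_sim h3 f hf.bilinear.add_left
      hf.nondegenerate)
  have cU : ∀ (σ : F ≃+* F) (f : (Fin 12 → F) → (Fin 12 → F) → F), Cfsg.Geo.IsUnitaryForm σ f →
      H ≤ Cfsg.Geo.similarityGroup f →
      H = Cfsg.Geo.similarityGroup f ⊓ Cfsg.Geo.specialLinear (Fin 12) F :=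
    fun σ f hf h => fin _ h (Cfsg.Agent.Lib.Helper58.Asch.sl_not_le_sim h3 f hf.add_left
      hf.nondegenerate)
  have cQ : ∀ Q : (Fin 12 → F) → F, Cfsg.Geo.IsNondegenerateQuadraticForm Q →
      H ≤ Cfsg.Geo.quadSimilarityGroup Q →
      H = Cfsg.Geo.quadSimilarityGroup Q ⊓ Cfsg.Geo.specialLinear (Fin 12) F :=
    fun Q hQ h => fin _ h (Cfsg.Agent.Lib.Helper58.Asch.sl_not_le_quadSim h3 Q hQ)
  rcases Cfsg.Agent.Lib.Helper13.Asch.main 12 (by norm_num) H with hC | hR
  swap
  · iterate 14 right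
    exact hR
  rcases hC with ⟨W, h0, h1, h⟩ | ⟨t, m, D, hD, h⟩ | ⟨r, K, hr, hK, h⟩ | ⟨a, b, e, P, ha, hb, h⟩ |
    ⟨F₀, r, P, hr, hc, h⟩ | ⟨r, m, R, hR, hm, hrm, h⟩ | ⟨m, t, e, P, hm, ht, h⟩ | ⟨f, hf, he, h4, h⟩ |
    ⟨σ, f, hf, h⟩ | ⟨Q, hQ, ho, h⟩
  · -- class 1
    left
    exact ⟨W, h0, h1, cW W h0 h1 h⟩
  · -- class 2
    have htm : t * m = 12 := by
      rw [Cfsg.Agent.Lib.Helper55.Asch.card_of_decomp D hD, hc12]
    have ht2 := hD.two_le
    have hm0 := hD.pos
    have ht12 : t ≤ 12 := by nlinarith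
    have hcases : (t = 12 ∧ m = 1) ∨ (t = 6 ∧ m = 2) ∨ (t = 4 ∧ m = 3) ∨ (t = 3 ∧ m = 4) ∨
        (t = 2 ∧ m = 6) := by
      interval_cases t <;> omega
    rcases hcases with ⟨rfl, rfl⟩ | ⟨rfl, rfl⟩ | ⟨rfl, rfl⟩ | ⟨rfl, rfl⟩ | ⟨rfl, rfl⟩
    · by_cases hq5 : 5 ≤ Fintype.card F
      · right; left
        exact ⟨hq5, D, hD, cD D hD h⟩
      · have hq : Fintype.card F = 2 ∨ Fintype.card F = 3 ∨ Fintype.card F = 4 := by omega
        rcases hq with hq | hq | hq
        · obtain ⟨W, h0, h1, hW⟩ := Cfsg.Agent.Lib.Helper55.Asch.monomial_two hq D hD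
          left
          exact ⟨W, h0, h1, cW W h0 h1 (h.trans hW)⟩
        · obtain ⟨Q, hQ, hQ'⟩ := Cfsg.Agent.Lib.Helper55.Asch.monomial_three hq D hD
          iterate 11 right
          left
          exact ⟨by rw [hq]; decide, Q, hQ, cQ Q hQ (h.trans hQ')⟩
        · obtain ⟨σ, f, hf, hf'⟩ := Cfsg.Agent.Lib.Helper55.Asch.monomial_four hq D hD
          iterate 13 right
          left
          exact ⟨σ, f, hf, cU σ f hf (h.trans hf')⟩
    · by_cases hq3 : 3 ≤ Fintype.card F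
      · iterate 2 right
        left
        exact ⟨hq3, D, hD, cD D hD h⟩
      · have hq : Fintype.card F = 2 := by omega
        obtain ⟨f, hf, hf'⟩ := Cfsg.Agent.Lib.Helper55.Asch.blocks_two hq D hD
        iterate 12 right
        left
        exact ⟨f, hf, cS f hf (h.trans hf')⟩
    · iterate 3 right
      left
      exact ⟨D, hD, cD D hD h⟩
    · iterate 4 right
      left
      exact ⟨D, hD, cD D hD h⟩
    · iterate 5 right
      left
      exact ⟨D, hD, cD D hD h⟩
  · -- class 3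
    have hdvd : r ∣ 12 := by
      have := Cfsg.Agent.Lib.Helper58.Asch.dvd_card_of_field K hK
      rwa [hc12] at this
    have hr12 : r ≤ 12 := Nat.le_of_dvd (by norm_num) hdvd
    have hcases : r = 2 ∨ r = 3 := by
      interval_cases r <;> first | omega | (exfalso; revert hr; decide) | (exfalso; revert hdvd; decide)
    rcases hcases with rfl | rfl
    · iterate 6 right
      left
      exact ⟨K, hK, cK K hr hK h⟩
    · iterate 7 right
      left
      exact ⟨K, hK, cK K hr hK h⟩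
  · -- class 4
    have hab : a * b = 12 := by
      have := Fintype.card_congr e
      rw [hc12, Fintype.card_prod, Fintype.card_fin, Fintype.card_fin] at this
      exact this.symm
    have ha12 : a ≤ 12 := by nlinarith
    have hcases : (a = 2 ∧ b = 6) ∨ (a = 3 ∧ b = 4) := by
      interval_cases a <;> omega
    have hnot : ¬ Cfsg.Geo.specialLinear (Fin 12) F ≤ Cfsg.Geo.tensorProductSubgroup a b e P :=
      Cfsg.Agent.Lib.Helper73.Asch.sl_not_le_tensor ha (by omega) e P
    rcases hcases with ⟨rfl, rfl⟩ | ⟨rfl, rfl⟩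
    · by_cases hq3 : 3 ≤ Fintype.card F
      · iterate 8 right
        left
        exact ⟨hq3, e, P, fin _ h hnot⟩
      · have hq : Fintype.card F = 2 := by omega
        obtain ⟨K, hK, hK'⟩ := Cfsg.Agent.Lib.Helper13.Asch.tensor_two_field hq (by norm_num) e P
        iterate 6 right
        left
        exact ⟨K, hK, cK K Nat.prime_two hK (h.trans hK')⟩
    · iterate 9 right
      left
      exact ⟨e, P, fin _ h hnot⟩
  · -- class 5
    iterate 10 right
    left
    refine ⟨F₀, r, P, hr, hc, fin _ h (Cfsg.Agent.Lib.Helper58.Asch.sl_not_le_subfield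
      (by rw [hc12]; norm_num) F₀ ?_ P)⟩
    rintro rfl
    have h1 : Nat.card (⊤ : Subfield F) = Fintype.card F := by
      rw [← Nat.card_eq_fintype_card]
      exact Nat.card_congr Subfield.topEquiv.toEquiv
    rw [h1] at hc
    have h2 : Fintype.card F ^ 1 < Fintype.card F ^ r := Nat.pow_lt_pow_right hq2 hr.one_lt
    rw [pow_one, ← hc] at h2
    exact lt_irrefl _ h2
  · -- class 6
    exfalso
    have hrp : r.Prime := hR.symplecticType.prime
    have h2 : (2 : ℕ) ∣ r ^ m := by rw [← hrm]; norm_num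
    have h3' : (3 : ℕ) ∣ r ^ m := by rw [← hrm]; norm_num
    have e2 : 2 = r := (Nat.prime_dvd_prime_iff_eq Nat.prime_two hrp).1 (Nat.prime_two.dvd_of_dvd_pow h2)
    have e3 : 3 = r := (Nat.prime_dvd_prime_iff_eq Nat.prime_three hrp).1 (Nat.prime_three.dvd_of_dvd_pow h3')
    omega
  · -- class 7
    exfalso
    have hmt : m ^ t = 12 := by
      have := Fintype.card_congr e
      rw [hc12, Fintype.card_fun, Fintype.card_fin, Fintype.card_fin] at this
      exact this.symm
    have h9 : m ^ 2 ≤ m ^ t := Nat.pow_le_pow_right (by omega) ht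
    have hm3 : m ≤ 3 := by nlinarith
    have hm' : m = 3 := by omega
    subst hm'
    have ht3 : t < 3 := by
      by_contra hcon
      have : 3 ^ 3 ≤ 3 ^ t := Nat.pow_le_pow_right (by norm_num) (by omega)
      omega
    have : t = 2 := by omega
    subst this
    norm_num at hmt
  · iterate 12 right
    left
    exact ⟨f, hf, cS f hf h⟩
  · iterate 13 right
    left
    exact ⟨σ, f, hf, cU σ f hf h⟩
  · iterate 11 right
    left
    exact ⟨ho, Q, hQ, cQ Q hQ h⟩

end Cfsg.Agent.S5862
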