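import Cfsg.Statements.S5938
import Cfsg.Agent.Lib.Helper41.Dickson.WitDickson
import Cfsg.Agent.S0803

set_option autoImplicit false
set_option linter.style.haveILetI false
open Cfsg

namespace Cfsg.Agent.S5938

open Cfsg.Agent.Lib.Helper41.Dickson

/-- Let p be a prime with p ≡ ±1 (mod 8) and F a field with p elements. Then PSL_2(F) has a maximal subgroup isomorphic to the symmetric group S_4. -/
theorem result {F : Type*} [Field F] [Fintype F] (p : ℕ) [Fact p.Prime] (hF : Fintype.card F = p) (hp : p % 8 = 1 ∨ p % 8 = 7) : ∃ H : Subgroup (Matrix.ProjectiveSpecialLinearGroup (Fin 2) F), IsCoatom H ∧ Nonempty (H ≃* Equiv.Perm (Fin 4)) := by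
  have hpp : p.Prime := Fact.out
  haveI := charP_of_card_prime p hpp hF
  have hp2 : p ≠ 2 := by rintro rfl; omega
  have hodd : Odd (Fintype.card F) := by rw [hF]; exact hpp.odd_of_ne_two hp2
  have hg := two_mul_card_psl hodd
  rw [hF] at hg
  have h16 : p ^ 2 % 16 = 1 := by
    rw [Nat.pow_mod]
    have : p % 16 = 1 ∨ p % 16 = 7 ∨ p % 16 = 9 ∨ p % 16 = 15 := by omega
    rcases this with h | h | h | h <;> rw [h]
  obtain ⟨H, ⟨e⟩⟩ := (Cfsg.Agent.S0803.result hF).2 h16
  have hcH : Nat.card H = 24 := by rw [Nat.card_congr e.toEquiv, natCard_perm_four]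
  have hW : Wit H := wit_perm_four.of_injective e.symm.toMonoidHom e.symm.injective
  have hp7 : 7 ≤ p := by
    by_contra hcon
    have : p = 1 := by omega
    exact hpp.one_lt.ne' this
  refine ⟨H, ?_, ⟨e⟩⟩
  apply isCoatom_of_card
  · intro hcon
    have h1 : Nat.card H = Nat.card (Matrix.ProjectiveSpecialLinearGroup (Fin 2) F) := by
      rw [hcon]; exact Subgroup.card_top
    rw [← h1, hcH] at hg
    have h2 : 7 * (7 ^ 2 - 1) ≤ p * (p ^ 2 - 1) :=
      Nat.mul_le_mul hp7 (Nat.sub_le_sub_right (Nat.pow_le_pow_left hp7 2) 1)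
    omega
  · intro M hHM hM
    have hle : Nat.card H ≤ Nat.card M := Subgroup.card_le_of_le hHM
    have hdvd : Nat.card H ∣ Nat.card M := Subgroup.card_dvd_of_le hHM
    rw [hcH] at hle hdvd ⊢
    rcases dickson_wit p hp2 M hM (hW.le hHM) with ⟨-, h⟩ | ⟨-, h⟩ | ⟨-, h⟩ |
      ⟨K, m, hm, hqm, -, -⟩
    · omega
    · omega
    · exfalso; rw [h] at hdvd; revert hdvd; decide
    · exfalso
      rw [hF] at hqm
      have := (hpp.pow_eq_iff).1 hqm.symm
      omega

end Cfsg.Agent.S5938
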