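import Cfsg.Statements.S5941
import Cfsg.Agent.Lib.Helper41.Dickson.WitPSL
import Cfsg.Agent.S0805

set_option autoImplicit false
set_option linter.style.haveILetI false
open Cfsg

namespace Cfsg.Agent.S5941

open Cfsg.Agent.Lib.Helper41.Dickson

theorem mono (a b : ℕ) (h : a ≤ b) : a * (a ^ 2 - 1) ≤ b * (b ^ 2 - 1) :=
  Nat.mul_le_mul h (Nat.sub_le_sub_right (Nat.pow_le_pow_left h 2) 1)

/-- Let K and F be finite fields of odd characteristic with #F = (#K)². Then PSL_2(F) has a maximal subgroup isomorphic to PGL_2(K). -/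
theorem result {F K : Type*} [Field F] [Fintype F] [Field K] [Fintype K] (q : ℕ) (hK : Fintype.card K = q) (hF : Fintype.card F = q ^ 2) (hq : Odd q) : ∃ H : Subgroup (Matrix.ProjectiveSpecialLinearGroup (Fin 2) F), IsCoatom H ∧ Nonempty (H ≃* Matrix.ProjGenLinGroup (Fin 2) K) := by
  obtain ⟨p, hp, hch⟩ := exists_char_prime F
  haveI := fact_iff.2 hp
  have hoddF : Odd (Fintype.card F) := by rw [hF]; exact hq.pow
  have hp2 : p ≠ 2 := char_ne_two_of_odd p hoddF
  have hg := two_mul_card_psl hoddF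
  rw [hF] at hg
  obtain ⟨H, ⟨e⟩⟩ := ((Cfsg.Agent.S0805.result (K := K) hF hq.pow 2 (by norm_num)
    (by rw [hK])).2).2 even_two
  have hcH : Nat.card H = q * (q ^ 2 - 1) := by
    rw [Nat.card_congr e.toEquiv, natCard_PGL2, Nat.card_eq_fintype_card, hK]
  have hW : Wit H := (wit_pgl K (by rw [hK]; exact hq)).of_injective e.symm.toMonoidHom
    e.symm.injective
  have hq3 : 3 ≤ q := by
    have h2 : 2 ≤ q := by rw [← hK]; exact Fintype.one_lt_card
    obtain ⟨a, ha⟩ := hq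
    omega
  have h24 : 24 ≤ q * (q ^ 2 - 1) := mono 3 q hq3
  refine ⟨H, ?_, ⟨e⟩⟩
  apply isCoatom_of_card
  · intro hcon
    have h1 : Nat.card H = Nat.card (Matrix.ProjectiveSpecialLinearGroup (Fin 2) F) := by
      rw [hcon]; exact Subgroup.card_top
    rw [← h1, hcH] at hg
    have h2 : (q ^ 2) ^ 2 - 1 = (q ^ 2 - 1) * (q ^ 2 + 1) := by
      have h3 : 1 ≤ q ^ 2 := Nat.one_le_pow _ _ (by omega)
      obtain ⟨s, hs⟩ : ∃ s, q ^ 2 = s + 1 := ⟨q ^ 2 - 1, by omega⟩
      rw [hs]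
      have : (s + 1) ^ 2 = (s + 1 - 1) * (s + 1 + 1) + 1 := by
        simp only [Nat.add_sub_cancel]; ring
      omega
    rw [h2] at hg
    have h4 : (q * (q ^ 2 - 1)) * 2 = (q * (q ^ 2 - 1)) * (q * (q ^ 2 + 1)) := by
      calc (q * (q ^ 2 - 1)) * 2 = 2 * (q * (q ^ 2 - 1)) := by ring
        _ = q ^ 2 * ((q ^ 2 - 1) * (q ^ 2 + 1)) := hg
        _ = _ := by ring
    have h5 : 2 = q * (q ^ 2 + 1) := Nat.eq_of_mul_eq_mul_left (by omega) h4
    have h6 : 3 * 1 ≤ q * (q ^ 2 + 1) := Nat.mul_le_mul hq3 (by omega)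
    omega
  · intro M hHM hM
    have hle : Nat.card H ≤ Nat.card M := Subgroup.card_le_of_le hHM
    have hdvd : Nat.card H ∣ Nat.card M := Subgroup.card_dvd_of_le hHM
    rw [hcH] at hle hdvd ⊢
    rcases dickson_wit p hp2 M hM (hW.le hHM) with ⟨-, h⟩ | ⟨-, h⟩ | ⟨-, h⟩ |
      ⟨K', m, hm, hqm, hK2, hK'⟩
    · omega
    · omega
    · exfalso
      rw [h] at hdvd hle
      rcases (by obtain ⟨a, ha⟩ := hq; omega : q = 3 ∨ 5 ≤ q) with rfl | h5
      · revert hdvd; decide
      · have := mono 5 q h5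
        omega
    · rw [hF] at hqm
      generalize Nat.card K' = q₁ at *
      have h1 : q₁ ^ 2 ≤ q ^ 2 := by
        rw [hqm]; exact Nat.pow_le_pow_right (by omega) hm
      have h2 : q₁ ≤ q := by
        by_contra hcon
        push Not at hcon
        have := Nat.pow_lt_pow_left hcon (by norm_num : 2 ≠ 0)
        omega
      have h3 := mono q₁ q h2
      rcases hK' with ⟨-, h⟩ | ⟨-, h⟩
      · omega
      · omega

end Cfsg.Agent.S5941
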