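import Cfsg.Statements.S5942
import Cfsg.Agent.Lib.Helper41.Dickson.WitPSL
import Cfsg.Agent.S0805

set_option autoImplicit false
set_option linter.style.haveILetI false
open Cfsg

namespace Cfsg.Agent.S5942

open Cfsg.Agent.Lib.Helper41.Dickson

theorem mono (a b : ℕ) (h : a ≤ b) : a * (a ^ 2 - 1) ≤ b * (b ^ 2 - 1) :=
  Nat.mul_le_mul h (Nat.sub_le_sub_right (Nat.pow_le_pow_left h 2) 1)

theorem mod16 (p : ℕ) (h8 : p % 8 = 3 ∨ p % 8 = 5) : (p * (p ^ 2 - 1)) % 16 = 8 := by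
  have h1 : p ^ 2 % 16 = 9 := by
    rw [Nat.pow_mod]
    have : p % 16 = 3 ∨ p % 16 = 5 ∨ p % 16 = 11 ∨ p % 16 = 13 := by omega
    rcases this with h | h | h | h <;> rw [h]
  have h2 : (p ^ 2 - 1) % 16 = 8 := by omega
  rw [Nat.mul_mod, h2]
  have : p % 16 = 3 ∨ p % 16 = 5 ∨ p % 16 = 11 ∨ p % 16 = 13 := by omega
  rcases this with h | h | h | h <;> rw [h]

theorem mod5 (p : ℕ) (h : p % 5 = 2 ∨ p % 5 = 3) : (p * (p ^ 2 - 1)) % 5 ≠ 0 := by
  have h1 : p ^ 2 % 5 = 4 := by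
    rw [Nat.pow_mod]
    rcases h with h | h <;> rw [h]
  have h2 : (p ^ 2 - 1) % 5 = 3 := by omega
  rw [Nat.mul_mod, h2]
  rcases h with h | h <;> rw [h] <;> decide

theorem three_pow_odd (s : ℕ) : 3 ^ (2 * s + 1) % 8 = 3 ∧
    (3 ^ (2 * s + 1) % 5 = 2 ∨ 3 ^ (2 * s + 1) % 5 = 3) := by
  induction s with
  | zero => simp
  | succ s ih =>
    have : 3 ^ (2 * (s + 1) + 1) = 9 * 3 ^ (2 * s + 1) := by ring
    rw [this]
    omega

/-- if `p ^ x - 1` divides `2 (p ^ y - 1)` then `x ∣ y` -/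
theorem dvd_of_pow_sub_one_dvd (p x y : ℕ) (hp : 2 ≤ p) (hx : 0 < x)
    (h : p ^ x - 1 ∣ 2 * (p ^ y - 1)) : x ∣ y := by
  have h1 : p ^ x - 1 ∣ 2 * (p ^ (Nat.gcd x y) - 1) := by
    rw [← Nat.pow_sub_one_gcd_pow_sub_one, ← Nat.gcd_mul_left]
    exact Nat.dvd_gcd (Dvd.intro_left 2 rfl) h
  have hg0 : 0 < Nat.gcd x y := Nat.gcd_pos_of_pos_left _ hx
  by_contra hcon
  obtain ⟨c, hc⟩ := Nat.gcd_dvd_left x y
  have hc2 : 2 ≤ c := by
    rcases c with _ | _ | c
    · simp at hc; omega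
    · exfalso
      apply hcon
      rw [zero_add, mul_one] at hc
      rw [hc]
      exact Nat.gcd_dvd_right x y
    · omega
  set g := Nat.gcd x y
  have h2 : 2 ≤ p ^ g := by
    calc 2 ≤ p := hp
      _ = p ^ 1 := (pow_one p).symm
      _ ≤ p ^ g := Nat.pow_le_pow_right (by omega) hg0
  have h3 : (p ^ g) ^ 2 ≤ p ^ x := by
    rw [← pow_mul]
    conv_rhs => rw [hc]
    exact Nat.pow_le_pow_right (by omega) (Nat.mul_le_mul_left _ hc2)
  have h4 := Nat.le_of_dvd (by omega) h1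
  generalize p ^ g = u at *
  generalize p ^ x = v at *
  have h5 : u * 2 ≤ u ^ 2 := by rw [sq]; exact Nat.mul_le_mul_left _ h2
  omega

/-- Let K and F be finite fields of odd characteristic with #F = (#K)^r for an odd prime r. Then PSL_2(F) has a maximal subgroup isomorphic to PSL_2(K). -/
theorem result {F K : Type*} [Field F] [Fintype F] [Field K] [Fintype K] (q r : ℕ) (hK : Fintype.card K = q) (hF : Fintype.card F = q ^ r) (hq : Odd q) (hr : r.Prime) (hr2 : r ≠ 2) : ∃ H : Subgroup (Matrix.ProjectiveSpecialLinearGroup (Fin 2) F), IsCoatom H ∧ Nonempty (H ≃* Matrix.ProjectiveSpecialLinearGroup (Fin 2) K) := by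
  obtain ⟨p, hp, hch⟩ := exists_char_prime F
  haveI := fact_iff.2 hp
  have hoddF : Odd (Fintype.card F) := by rw [hF]; exact hq.pow
  have hp2 : p ≠ 2 := char_ne_two_of_odd p hoddF
  have hg := two_mul_card_psl hoddF
  rw [hF] at hg
  obtain ⟨H, ⟨e⟩⟩ := (Cfsg.Agent.S0805.result (K := K) hF hq.pow r hr.one_lt.le
    (by rw [hK])).1
  have hcH : 2 * Nat.card H = q * (q ^ 2 - 1) := by
    rw [Nat.card_congr e.toEquiv, ← hK]
    exact two_mul_card_psl (by rw [hK]; exact hq)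
  have hW : Wit H := (wit_psl K (by rw [hK]; exact hq)).of_injective e.symm.toMonoidHom
    e.symm.injective
  have hq3 : 3 ≤ q := by
    have h2 : 2 ≤ q := by rw [← hK]; exact Fintype.one_lt_card
    obtain ⟨a, ha⟩ := hq
    omega
  have h24 : 24 ≤ q * (q ^ 2 - 1) := mono 3 q hq3
  have hrodd : Odd r := hr.odd_of_ne_two hr2
  -- `q` is a power of `p`
  obtain ⟨a, ha0, ha⟩ : ∃ a : ℕ, 0 < a ∧ q = p ^ a := by
    obtain ⟨n, -, hn⟩ := FiniteField.card F p
    rw [hF] at hn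
    obtain ⟨a, -, ha⟩ := (Nat.dvd_prime_pow hp).1 (show q ∣ p ^ (n : ℕ) by
      rw [← hn]; exact dvd_pow_self q hr.ne_zero)
    refine ⟨a, ?_, ha⟩
    rcases Nat.eq_zero_or_pos a with h0 | h0
    · rw [h0, pow_zero] at ha; omega
    · exact h0
  refine ⟨H, ?_, ⟨e⟩⟩
  apply isCoatom_of_card
  · intro hcon
    have h1 : Nat.card H = Nat.card (Matrix.ProjectiveSpecialLinearGroup (Fin 2) F) := by
      rw [hcon]; exact Subgroup.card_top
    rw [← h1, hcH] at hg
    have h2 : q ^ 2 ≤ q ^ r := Nat.pow_le_pow_right (by omega) hr.two_le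
    have h3 : q * 3 ≤ q ^ 2 := by rw [sq]; exact Nat.mul_le_mul_left _ hq3
    have h4 : q + 1 ≤ q ^ r := by omega
    have h5 := mono (q + 1) (q ^ r) h4
    have h6 : q * (q ^ 2 - 1) < (q + 1) * ((q + 1) ^ 2 - 1) := by
      have h7 : q ^ 2 - 1 ≤ (q + 1) ^ 2 - 1 :=
        Nat.sub_le_sub_right (Nat.pow_le_pow_left (by omega) 2) 1
      have h8 : 0 < (q + 1) ^ 2 - 1 := by
        have : 2 ^ 2 ≤ (q + 1) ^ 2 := Nat.pow_le_pow_left (by omega) 2
        omega
      calc q * (q ^ 2 - 1) ≤ q * ((q + 1) ^ 2 - 1) := Nat.mul_le_mul_left _ h7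
        _ < (q + 1) * ((q + 1) ^ 2 - 1) := Nat.mul_lt_mul_of_pos_right (by omega) h8
    omega
  · intro M hHM hM
    have hle : Nat.card H ≤ Nat.card M := Subgroup.card_le_of_le hHM
    have hdvd : Nat.card H ∣ Nat.card M := Subgroup.card_dvd_of_le hHM
    have hdvdM : Nat.card M ∣ Nat.card (Matrix.ProjectiveSpecialLinearGroup (Fin 2) F) :=
      Subgroup.card_subgroup_dvd_card M
    rcases dickson_wit p hp2 M hM (hW.le hHM) with ⟨-, h⟩ | ⟨-, h⟩ | ⟨-, h⟩ |
      ⟨K', m, hm, hqm, hK2, hK'⟩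
    · omega
    · exfalso
      rcases (by obtain ⟨a, ha⟩ := hq; omega : q = 3 ∨ 5 ≤ q) with rfl | h5
      · obtain ⟨s, rfl⟩ := hrodd
        have := mod16 _ (Or.inl (three_pow_odd s).1)
        rw [h] at hdvdM
        omega
      · have := mono 5 q h5
        omega
    · rcases (by obtain ⟨a, ha⟩ := hq; omega : q = 3 ∨ q = 5 ∨ 7 ≤ q) with rfl | rfl | h5
      · exfalso
        obtain ⟨s, rfl⟩ := hrodd
        have := mod5 _ (three_pow_odd s).2
        rw [h] at hdvdM
        omega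
      · omega
      · have := mono 7 q h5
        omega
    · haveI : CharP K' p := RingHom.charP K'.subtype K'.subtype.injective p
      haveI := Fintype.ofFinite K'
      obtain ⟨b, -, hb⟩ := FiniteField.card K' p
      rw [← Nat.card_eq_fintype_card] at hb
      rw [hF] at hqm
      -- the common part
      have key : q ^ 2 - 1 ∣ 2 * (Nat.card K' ^ 2 - 1) → m = r ∧ Nat.card K' = q := by
        intro hd
        rw [hb, ha, ← pow_mul, ← pow_mul] at hd
        have h1 : a * 2 ∣ (b : ℕ) * 2 :=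
          dvd_of_pow_sub_one_dvd p _ _ hp.two_le (by omega) hd
        have h2 : a ∣ (b : ℕ) := Nat.dvd_of_mul_dvd_mul_right (by norm_num) h1
        obtain ⟨c, hc⟩ := h2
        rw [hb, ha, ← pow_mul, ← pow_mul] at hqm
        have h3 : a * r = (b : ℕ) * m := Nat.pow_right_injective hp.two_le hqm
        rw [hc, mul_assoc] at h3
        have h4 : r = c * m := Nat.eq_of_mul_eq_mul_left ha0 h3
        have h5 : m = r := by
          rcases (Nat.dvd_prime hr).1 (Dvd.intro_left c h4.symm) with h6 | h6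
          · omega
          · exact h6
        refine ⟨h5, ?_⟩
        rw [h5] at h4
        have h6 : c = 1 := by
          have : 1 * r = c * r := by rw [one_mul]; exact h4
          exact (Nat.eq_of_mul_eq_mul_right hr.pos this).symm
        rw [hb, ha, hc, h6, mul_one]
      have hcop : Nat.Coprime (q ^ 2 - 1) (Nat.card K') := by
        rw [hb]
        apply Nat.Coprime.pow_right
        rw [Nat.coprime_comm, hp.coprime_iff_not_dvd]
        intro hd
        have h1 : p ∣ q ^ 2 := by rw [ha]; exact dvd_pow (dvd_pow_self p ha0.ne') (by norm_num)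
        have h2 : 1 ≤ q ^ 2 := Nat.one_le_pow _ _ (by omega)
        have h3 : p ∣ 1 := by
          have : q ^ 2 = (q ^ 2 - 1) + 1 := by omega
          rw [this] at h1
          exact (Nat.dvd_add_right hd).1 h1
        exact hp.one_lt.ne' (Nat.dvd_one.1 h3)
      rcases hK' with ⟨-, h⟩ | ⟨⟨e'⟩, h⟩
      · have h1 : q * (q ^ 2 - 1) ∣ Nat.card K' * (Nat.card K' ^ 2 - 1) := by
          rw [← hcH, ← h]; exact Nat.mul_dvd_mul_left 2 hdvd
        have h2 : q ^ 2 - 1 ∣ Nat.card K' ^ 2 - 1 :=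
          hcop.dvd_of_dvd_mul_left ((Dvd.intro_left q rfl).trans h1)
        obtain ⟨-, h3⟩ := key (h2.trans (Dvd.intro_left 2 rfl))
        rw [h3] at h
        omega
      · exfalso
        have h1 : q * (q ^ 2 - 1) ∣ Nat.card K' * (2 * (Nat.card K' ^ 2 - 1)) := by
          have : Nat.card K' * (2 * (Nat.card K' ^ 2 - 1)) = 2 * Nat.card M := by rw [h]; ring
          rw [← hcH, this]; exact Nat.mul_dvd_mul_left 2 hdvd
        have h2 : q ^ 2 - 1 ∣ 2 * (Nat.card K' ^ 2 - 1) :=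
          hcop.dvd_of_dvd_mul_left ((Dvd.intro_left q rfl).trans h1)
        obtain ⟨h3, -⟩ := key h2
        have h4 := ((Cfsg.Agent.S0805.result (K := K') hF hq.pow m (by omega)
          (by rw [← Nat.card_eq_fintype_card]; exact hqm.symm)).2).1 ⟨M, ⟨e'⟩⟩
        rw [h3] at h4
        exact (Nat.not_even_iff_odd.2 hrodd) h4

end Cfsg.Agent.S5942
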