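-- Statement S5943 (row 5943).
import Cfsg.Statements.S5943
import Cfsg.Agent.S5942
import Cfsg.Agent.Lib.Helper41.Dickson.Cards
import Cfsg.Agent.Lib.Helper41.Dickson.MaxTools
import Cfsg.Agent.Lib.Helper14.PSL2Embed

set_option autoImplicit false
set_option linter.style.haveILetI false
open Cfsg

namespace Cfsg.Agent.S5943

open Cfsg.Agent.Lib.Helper41.Dickson

/-- Let K and F be finite fields of characteristic 2 with #K = q > 2 and #F = q^r for a prime r. Then PSL_2(F) has a maximal subgroup isomorphic to PSL_2(K) (which equals PGL_2(K) in characteristic 2). -/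
theorem result {F K : Type*} [Field F] [Fintype F] [Field K] [Fintype K] (q r : ℕ) (hK : Fintype.card K = q) (hF : Fintype.card F = q ^ r) (hq : Even q) (hq2 : q ≠ 2) (hr : r.Prime) : ∃ H : Subgroup (Matrix.ProjectiveSpecialLinearGroup (Fin 2) F), IsCoatom H ∧ Nonempty (H ≃* Matrix.ProjectiveSpecialLinearGroup (Fin 2) K) := by
  obtain ⟨p, hp, hch⟩ := exists_char_prime F
  haveI := fact_iff.2 hp
  have hq4 : 4 ≤ q := by
    have h2 : 2 ≤ q := by rw [← hK]; exact Fintype.one_lt_card
    obtain ⟨a, ha⟩ := hq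
    omega
  have hFeven : Even (Fintype.card F) := by rw [hF]; exact hq.pow_of_ne_zero hr.ne_zero
  have hgF : Nat.gcd 2 (Fintype.card F - 1) = 1 := by
    have h1 : 1 ≤ Fintype.card F := Fintype.card_pos
    have h3 : Odd (Fintype.card F - 1) := by
      obtain ⟨a, ha⟩ := hFeven
      exact ⟨a - 1, by omega⟩
    exact Nat.Coprime.gcd_eq_one (Nat.coprime_two_left.2 h3)
  have hgK : Nat.gcd 2 (Nat.card K - 1) = 1 := by
    rw [Nat.card_eq_fintype_card, hK]
    have h3 : Odd (q - 1) := by
      obtain ⟨a, ha⟩ := hq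
      exact ⟨a - 1, by omega⟩
    exact Nat.Coprime.gcd_eq_one (Nat.coprime_two_left.2 h3)
  -- `q` is a power of `p`
  obtain ⟨a, ha0, ha⟩ : ∃ a : ℕ, 0 < a ∧ q = p ^ a := by
    obtain ⟨n, -, hn⟩ := FiniteField.card F p
    rw [hF] at hn
    obtain ⟨a, -, ha⟩ := (Nat.dvd_prime_pow hp).1 (show q ∣ p ^ (n : ℕ) by
      rw [← hn]; exact dvd_pow_self q hr.ne_zero)
    refine ⟨a, ?_, ha⟩
    rcases Nat.eq_zero_or_pos a with h0 | h0
    · rw [h0, pow_zero] at ha; omega
    · exact h0
  have hcG : Nat.card (Matrix.ProjectiveSpecialLinearGroup (Fin 2) F) = q ^ r * ((q ^ r) ^ 2 - 1) := by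
    have := natCard_PSL2 F
    rw [Nat.card_eq_fintype_card, hgF, one_mul, hF] at this
    exact this
  obtain ⟨f⟩ := Cfsg.Agent.Lib.Helper14.exists_ringHom_of_card_pow (K := K) (F := F) r
    (by rw [hK, hF])
  obtain ⟨φ, hφ⟩ := Cfsg.Agent.Lib.Helper14.exists_psl2_embedding f
  set H := φ.range with hH
  let e : H ≃* Matrix.ProjectiveSpecialLinearGroup (Fin 2) K := (MonoidHom.ofInjective hφ).symm
  have hcH : Nat.card H = q * (q ^ 2 - 1) := by
    rw [Nat.card_congr e.toEquiv]
    have := natCard_PSL2 K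
    rw [hgK, one_mul, Nat.card_eq_fintype_card (α := K), hK] at this
    exact this
  haveI hsK : IsSimpleGroup (Matrix.ProjectiveSpecialLinearGroup (Fin 2) K) :=
    Matrix.ProjectiveSpecialLinearGroup.rank_two_simple (by rw [Nat.card_eq_fintype_card, hK]; exact hq4)
  haveI hsH : IsSimpleGroup H := e.isSimpleGroup_congr.mpr hsK
  have h60 : 60 ≤ q * (q ^ 2 - 1) := Cfsg.Agent.S5942.mono 4 q hq4
  have hp2 : p = 2 := by
    have h1 : 2 ∣ p ^ a := by rw [← ha]; exact hq.two_dvd
    have h2 : 2 ∣ p := Nat.Prime.dvd_of_dvd_pow Nat.prime_two h1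
    exact ((Nat.prime_dvd_prime_iff_eq Nat.prime_two hp).1 h2).symm
  have h4q : 4 ∣ q := by
    rw [ha, hp2]
    have ha2 : 2 ≤ a := by
      by_contra hcon
      have : a = 1 := by omega
      rw [this, hp2, pow_one] at ha
      omega
    calc (4 : ℕ) = 2 ^ 2 := by norm_num
      _ ∣ 2 ^ a := pow_dvd_pow 2 ha2
  have h4H : 4 ∣ Nat.card H := by rw [hcH]; exact Dvd.dvd.mul_right h4q _
  have hoddm : Odd (Fintype.card F - 1) := by
    have h1 : 1 ≤ Fintype.card F := Fintype.card_pos
    obtain ⟨a, ha⟩ := hFeven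
    exact ⟨a - 1, by omega⟩
  have hoddp : Odd (Fintype.card F + 1) := by
    obtain ⟨a, ha⟩ := hFeven
    exact ⟨a, by omega⟩
  refine ⟨H, ?_, ⟨e⟩⟩
  apply isCoatom_of_card
  · intro hcon
    have h1 : Nat.card H = Nat.card (Matrix.ProjectiveSpecialLinearGroup (Fin 2) F) := by
      rw [hcon]; exact Subgroup.card_top
    rw [hcH, hcG] at h1
    have h2 : q ^ 2 ≤ q ^ r := Nat.pow_le_pow_right (by omega) hr.two_le
    have h3 : q * 3 ≤ q ^ 2 := by rw [sq]; exact Nat.mul_le_mul_left _ (by omega)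
    have h4 : q + 1 ≤ q ^ r := by omega
    have h5 := Cfsg.Agent.S5942.mono (q + 1) (q ^ r) h4
    have h6 : q * (q ^ 2 - 1) < (q + 1) * ((q + 1) ^ 2 - 1) := by
      have h7 : q ^ 2 - 1 ≤ (q + 1) ^ 2 - 1 :=
        Nat.sub_le_sub_right (Nat.pow_le_pow_left (by omega) 2) 1
      have h8 : 0 < (q + 1) ^ 2 - 1 := by
        have : 2 ^ 2 ≤ (q + 1) ^ 2 := Nat.pow_le_pow_left (by omega) 2
        omega
      calc q * (q ^ 2 - 1) ≤ q * ((q + 1) ^ 2 - 1) := Nat.mul_le_mul_left _ h7
        _ < (q + 1) * ((q + 1) ^ 2 - 1) := Nat.mul_lt_mul_of_pos_right (by omega) h8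
    omega
  · intro M hHM hM
    have hle : Nat.card H ≤ Nat.card M := Subgroup.card_le_of_le hHM
    have hdvd : Nat.card H ∣ Nat.card M := Subgroup.card_dvd_of_le hHM
    have h4M : 4 ∣ Nat.card M := h4H.trans hdvd
    rcases dickson_card p M with ⟨-, h⟩ | ⟨k, hk, -, h⟩ | ⟨P, hP⟩ | ⟨-, h⟩ | ⟨-, h⟩ | ⟨-, h⟩ |
      ⟨K', m, hm, hqm, hK2, hK'⟩
    · exfalso
      rw [hgF, one_mul] at h
      have h2M : 2 ∣ Nat.card M := (by norm_num : 2 ∣ 4).trans h4M
      rcases h with h | h
      · exact (Nat.not_even_iff_odd.2 hoddm) (even_iff_two_dvd.2 (h2M.trans h))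
      · exact (Nat.not_even_iff_odd.2 hoddp) (even_iff_two_dvd.2 (h2M.trans h))
    · exfalso
      rw [hgF, one_mul] at hk
      have h2k : 2 ∣ k := by
        rw [h] at h4M
        omega
      rcases hk with h | h
      · exact (Nat.not_even_iff_odd.2 hoddm) (even_iff_two_dvd.2 (h2k.trans h))
      · exact (Nat.not_even_iff_odd.2 hoddp) (even_iff_two_dvd.2 (h2k.trans h))
    · exfalso
      have hHN : H ≤ Subgroup.normalizer ((P : Subgroup (Matrix.ProjectiveSpecialLinearGroup (Fin 2) F)) : Set _) :=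
        hHM.trans hP
      haveI hTn : ((P : Subgroup (Matrix.ProjectiveSpecialLinearGroup (Fin 2) F)).subgroupOf H).Normal :=
        Subgroup.normal_subgroupOf_of_le_normalizer hHN
      rcases hsH.eq_bot_or_eq_top_of_normal _ hTn with hT | hT
      · have hpH : p ∣ Nat.card H := by
          rw [hp2]; exact (by norm_num : 2 ∣ 4).trans h4H
        obtain ⟨x, hx⟩ := exists_prime_orderOf_dvd_card' p hpH
        have hxP : (x : Matrix.ProjectiveSpecialLinearGroup (Fin 2) F) ∈
            (P : Subgroup (Matrix.ProjectiveSpecialLinearGroup (Fin 2) F)) := by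
          have hz : IsPGroup p (Subgroup.zpowers (x : Matrix.ProjectiveSpecialLinearGroup (Fin 2) F)) := by
            rw [IsPGroup.iff_card]
            refine ⟨1, ?_⟩
            rw [Nat.card_zpowers, Subgroup.orderOf_coe, hx, pow_one]
          have h1 := hz.inf_normalizer_sylow P
          have h2 : (x : Matrix.ProjectiveSpecialLinearGroup (Fin 2) F) ∈
              Subgroup.zpowers (x : Matrix.ProjectiveSpecialLinearGroup (Fin 2) F) ⊓
                Subgroup.normalizer ((P : Subgroup (Matrix.ProjectiveSpecialLinearGroup (Fin 2) F)) : Set _) :=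
            ⟨Subgroup.mem_zpowers _, hHN x.2⟩
          have h3 : (x : Matrix.ProjectiveSpecialLinearGroup (Fin 2) F) ∈
              Subgroup.zpowers (x : Matrix.ProjectiveSpecialLinearGroup (Fin 2) F) ⊓
                Subgroup.normalizer (P : Set (Matrix.ProjectiveSpecialLinearGroup (Fin 2) F)) := h2
          rw [h1] at h3
          exact h3.2
        have hxT : x ∈ (P : Subgroup (Matrix.ProjectiveSpecialLinearGroup (Fin 2) F)).subgroupOf H :=
          Subgroup.mem_subgroupOf.2 hxP
        rw [hT, Subgroup.mem_bot] at hxT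
        rw [hxT, orderOf_one] at hx
        exact hp.one_lt.ne hx
      · have hHP : H ≤ (P : Subgroup (Matrix.ProjectiveSpecialLinearGroup (Fin 2) F)) :=
          Subgroup.subgroupOf_eq_top.1 hT
        have hpg : IsPGroup p H := P.2.to_le hHP
        obtain ⟨n, hn⟩ := IsPGroup.iff_card.1 hpg
        rw [hcH, hp2] at hn
        have h1 : q ^ 2 - 1 ∣ 2 ^ n := by rw [← hn]; exact Dvd.intro_left q rfl
        obtain ⟨j, -, hj⟩ := (Nat.dvd_prime_pow Nat.prime_two).1 h1
        have h16 : 16 ≤ q ^ 2 := by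
          calc 16 = 4 ^ 2 := by norm_num
            _ ≤ q ^ 2 := Nat.pow_le_pow_left hq4 2
        have hqe : Even (q ^ 2) := hq.pow_of_ne_zero (by norm_num)
        rcases Nat.eq_zero_or_pos j with h0 | h0
        · rw [h0, pow_zero] at hj; omega
        · have : Even (2 ^ j) := (even_two).pow_of_ne_zero h0.ne'
          rw [← hj] at this
          obtain ⟨u, hu⟩ := this
          obtain ⟨v, hv⟩ := hqe
          omega
    · omega
    · omega
    · omega
    · haveI : CharP K' p := RingHom.charP K'.subtype K'.subtype.injective p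
      haveI := Fintype.ofFinite K'
      obtain ⟨b, -, hb⟩ := FiniteField.card K' p
      rw [← Nat.card_eq_fintype_card] at hb
      rw [hF] at hqm
      have hMc : Nat.card M = Nat.card K' * (Nat.card K' ^ 2 - 1) := by
        rcases hK' with ⟨-, h⟩ | ⟨-, h⟩
        · rw [hgF, one_mul] at h; exact h
        · exact h
      have hm1 : m ≠ 1 := by
        rintro rfl
        rw [pow_one] at hqm
        apply hM
        apply Subgroup.eq_top_of_card_eq
        rw [hMc, hcG, hqm]
      have hcop : Nat.Coprime (q ^ 2 - 1) (Nat.card K') := by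
        rw [hb]
        apply Nat.Coprime.pow_right
        rw [Nat.coprime_comm, hp.coprime_iff_not_dvd]
        intro hd
        have h1 : p ∣ q ^ 2 := by rw [ha]; exact dvd_pow (dvd_pow_self p ha0.ne') (by norm_num)
        have h2 : 1 ≤ q ^ 2 := Nat.one_le_pow _ _ (by omega)
        have h3 : p ∣ 1 := by
          have : q ^ 2 = (q ^ 2 - 1) + 1 := by omega
          rw [this] at h1
          exact (Nat.dvd_add_right hd).1 h1
        exact hp.one_lt.ne' (Nat.dvd_one.1 h3)
      have h1 : q * (q ^ 2 - 1) ∣ Nat.card K' * (Nat.card K' ^ 2 - 1) := by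
        rw [← hcH, ← hMc]; exact hdvd
      have h2 : q ^ 2 - 1 ∣ Nat.card K' ^ 2 - 1 :=
        hcop.dvd_of_dvd_mul_left ((Dvd.intro_left q rfl).trans h1)
      have hd : q ^ 2 - 1 ∣ 2 * (Nat.card K' ^ 2 - 1) := h2.trans (Dvd.intro_left 2 rfl)
      rw [hb, ha, ← pow_mul, ← pow_mul] at hd
      have h3 : a * 2 ∣ (b : ℕ) * 2 :=
        Cfsg.Agent.S5942.dvd_of_pow_sub_one_dvd p _ _ hp.two_le (by omega) hd
      have h4 : a ∣ (b : ℕ) := Nat.dvd_of_mul_dvd_mul_right (by norm_num) h3
      obtain ⟨c, hc⟩ := h4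
      rw [hb, ha, ← pow_mul, ← pow_mul] at hqm
      have h5 : a * r = (b : ℕ) * m := Nat.pow_right_injective hp.two_le hqm
      rw [hc, mul_assoc] at h5
      have h6 : r = c * m := Nat.eq_of_mul_eq_mul_left ha0 h5
      have h7 : m = r := by
        rcases (Nat.dvd_prime hr).1 (Dvd.intro_left c h6.symm) with h8 | h8
        · exact absurd h8 hm1
        · exact h8
      rw [h7] at h6
      have h8 : c = 1 := by
        have : 1 * r = c * r := by rw [one_mul]; exact h6
        exact (Nat.eq_of_mul_eq_mul_right hr.pos this).symm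
      have h9 : Nat.card K' = q := by rw [hb, ha, hc, h8, mul_one]
      rw [hMc, hcH, h9]

end Cfsg.Agent.S5943
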