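import Cfsg.Statements.S5952

set_option autoImplicit false
open Cfsg

namespace Cfsg.Agent.S5952

section aux
variable {F V : Type*} [Field F] [AddCommGroup V] [Module F V]

lemma exists_le_finrank_eq [FiniteDimensional F V] (E : Submodule F V) (k : ℕ)
    (hk : k ≤ Module.finrank F E) :
    ∃ W : Submodule F V, W ≤ E ∧ Module.finrank F W = k := by
  classical
  let b := Module.finBasis F E
  let v : Fin k → V := fun i => (b (Fin.castLE hk i) : V)
  have hli : LinearIndependent F v := by
    have h1 : LinearIndependent F (fun i : Fin k => b (Fin.castLE hk i)) :=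
      b.linearIndependent.comp _ (Fin.castLE_injective hk)
    exact h1.map' E.subtype (Submodule.ker_subtype E)
  refine ⟨Submodule.span F (Set.range v), ?_, ?_⟩
  · rw [Submodule.span_le]; rintro _ ⟨i, rfl⟩; exact (b _).2
  · rw [finrank_span_eq_card hli]; simp

lemma finrank_split [FiniteDimensional F V] (W A U : Submodule F V) (hd : Disjoint A U)
    (hW : W ≤ A ⊔ U) :
    Module.finrank F W = Module.finrank F (W ⊓ A : Submodule F V)
      + Module.finrank F ((W ⊔ A) ⊓ U : Submodule F V) := by
  have h1 : W ⊔ A = A ⊔ ((W ⊔ A) ⊓ U) := by
    apply le_antisymm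
    · have : W ⊔ A ≤ (A ⊔ U) ⊓ (W ⊔ A) := le_inf (sup_le hW le_sup_left) le_rfl
      calc W ⊔ A ≤ (A ⊔ U) ⊓ (W ⊔ A) := this
        _ = A ⊔ U ⊓ (W ⊔ A) := sup_inf_assoc_of_le U le_sup_right
        _ = _ := by rw [inf_comm]
    · exact sup_le le_sup_right inf_le_left
  have h2 := Submodule.finrank_sup_add_finrank_inf_eq W A
  have h3 := Submodule.finrank_sup_add_finrank_inf_eq A ((W ⊔ A) ⊓ U)
  have h4 : A ⊓ ((W ⊔ A) ⊓ U) = ⊥ := by
    apply le_bot_iff.mp
    calc _ ≤ A ⊓ U := inf_le_inf_left _ inf_le_right
      _ = ⊥ := hd.eq_bot
  rw [h4, finrank_bot, ← h1] at h3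
  omega

lemma map_sup_le (f : V →ₗ[F] V) (A B : Submodule F V) (hA : A.map f ≤ A) (hB : B.map f ≤ B) :
    (A ⊔ B).map f ≤ A ⊔ B := by
  rw [Submodule.map_sup]
  exact sup_le_sup hA hB

lemma map_inf_le' (f : V →ₗ[F] V) (A B : Submodule F V) (hA : A.map f ≤ A) (hB : B.map f ≤ B) :
    (A ⊓ B).map f ≤ A ⊓ B :=
  le_inf ((Submodule.map_mono inf_le_left).trans hA) ((Submodule.map_mono inf_le_right).trans hB)

lemma finrank_sup_indep [FiniteDimensional F V] {ι : Type*} [DecidableEq ι]
    (g : ι → Submodule F V) (hg : iSupIndep g) (T : Finset ι) :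
    Module.finrank F (T.sup g : Submodule F V) = ∑ o ∈ T, Module.finrank F (g o) := by
  induction T using Finset.induction_on with
  | empty => simp
  | insert o t ho ih =>
    rw [Finset.sup_insert, Finset.sum_insert ho, ← ih]
    have hd : Disjoint (g o) (t.sup g) :=
      (hg.supIndep' (insert o t)) (Finset.subset_insert o t) (Finset.mem_insert_self o t) ho
    have h := Submodule.finrank_sup_add_finrank_inf_eq (g o) (t.sup g)
    rw [hd.eq_bot, finrank_bot] at h
    omega

end aux

/-- Which dimensions of invariant subspaces a semisimple linear map has. Let `V` be a finite-dimensional vector space over a field `F` and `f` an invertible semisimple linear map of `V`. Suppose `V` is the internal direct sum of the fixed space `C_V(f)` (the eigenspace for 1) and subspaces `U_1, …, U_s`, each `f`-invariant of dimension `a ≥ 1` on which `f` acts irreducibly (no `f`-invariant subspaces other than 0 and `U_j`). Let `0 < m < dim V` and `ℓ = m mod a`. Then `f` leaves some `m`-dimensional subspace invariant if and only if `dim C_V(f) ≥ m`, or `a ≤ m` and `dim C_V(f) ≥ ℓ`. -/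
theorem result {F V : Type*} [Field F] [AddCommGroup V] [Module F V]
    [FiniteDimensional F V] (f : V →ₗ[F] V) (hf : Function.Bijective f) (hss : Module.End.IsSemisimple f)
    {s a : ℕ} (ha : 1 ≤ a) (U : Fin s → Submodule F V)
    (hUinv : ∀ j, (U j).map f ≤ U j) (hUdim : ∀ j, Module.finrank F ↥(U j) = a)
    (hUirr : ∀ j, ∀ W : Submodule F V, W ≤ U j → W.map f ≤ W → W = ⊥ ∨ W = U j)
    (hdec : DirectSum.IsInternal (fun o : Option (Fin s) => o.elim (Module.End.eigenspace f 1) U))
    (m : ℕ) (hm : 0 < m) (hmV : m < Module.finrank F V) :
    (∃ W : Submodule F V, Module.finrank F ↥W = m ∧ W.map f ≤ W) ↔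
    (m ≤ Module.finrank F ↥(Module.End.eigenspace f 1) ∨
      (a ≤ m ∧ m % a ≤ Module.finrank F ↥(Module.End.eigenspace f 1))) := by
  classical
  set E := Module.End.eigenspace f 1 with hE
  set g : Option (Fin s) → Submodule F V := fun o => o.elim E U with hg
  have hind : iSupIndep g := hdec.submodule_iSupIndep
  have htop : iSup g = ⊤ := hdec.submodule_iSup_eq_top
  have hsubE : ∀ E' : Submodule F V, E' ≤ E → E'.map f ≤ E' := by
    intro E' hE'
    rintro _ ⟨x, hx, rfl⟩
    have : f x = x := by
      have := hE' hx
      rw [hE, Module.End.mem_eigenspace_iff] at this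
      simpa using this
    rw [this]; exact hx
  have hginv : ∀ o, (g o).map f ≤ g o := by
    intro o
    cases o with
    | none => exact hsubE E le_rfl
    | some j => exact hUinv j
  have hsupinv : ∀ t : Finset (Option (Fin s)), (t.sup g).map f ≤ t.sup g := by
    intro t
    induction t using Finset.induction_on with
    | empty => simp
    | insert o t _ ih =>
      rw [Finset.sup_insert]
      exact map_sup_le f _ _ (hginv o) ih
  constructor
  · rintro ⟨W, hWm, hWinv⟩
    have claim : ∀ t : Finset (Option (Fin s)), ∀ W : Submodule F V, W.map f ≤ W → W ≤ t.sup g →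
        ∃ x y : ℕ, x ≤ Module.finrank F E ∧ (none ∉ t → x = 0) ∧ Module.finrank F W = x + a * y := by
      intro t
      induction t using Finset.induction_on with
      | empty =>
        intro W _ hW
        refine ⟨0, 0, Nat.zero_le _, fun _ => rfl, ?_⟩
        have : W = ⊥ := by simpa using hW
        rw [this]; simp
      | insert o t ho ih =>
        intro W hWinv hW
        rw [Finset.sup_insert, sup_comm] at hW
        have hd : Disjoint (t.sup g) (g o) :=
          ((hind.supIndep' (insert o t)) (Finset.subset_insert o t)
            (Finset.mem_insert_self o t) ho).symm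
        have hsplit := finrank_split W (t.sup g) (g o) hd hW
        obtain ⟨x, y, hx, hx0, hxy⟩ := ih (W ⊓ t.sup g) (map_inf_le' f _ _ hWinv (hsupinv t)) inf_le_right
        cases o with
        | none =>
          have hx00 := hx0 ho
          refine ⟨Module.finrank F ((W ⊔ t.sup g) ⊓ g none : Submodule F V), y, ?_, ?_, ?_⟩
          · exact Submodule.finrank_mono inf_le_right
          · intro h; exact absurd (Finset.mem_insert_self _ _) h
          · rw [hsplit, hxy, hx00]; ring
        | some j =>
          have hP := hUirr j ((W ⊔ t.sup g) ⊓ g (some j)) inf_le_right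
            (map_inf_le' f _ _ (map_sup_le f _ _ hWinv (hsupinv t)) (hginv (some j)))
          rcases hP with hP | hP
          · refine ⟨x, y, hx, ?_, ?_⟩
            · intro h; apply hx0; intro h'; exact h (Finset.mem_insert_of_mem h')
            · rw [hsplit, hxy, hP]; simp
          · refine ⟨x, y + 1, hx, ?_, ?_⟩
            · intro h; apply hx0; intro h'; exact h (Finset.mem_insert_of_mem h')
            · rw [hsplit, hxy, hP, hUdim j]; ring
    obtain ⟨x, y, hx, -, hxy⟩ := claim Finset.univ W hWinv (by
      rw [Finset.sup_univ_eq_iSup, htop]; exact le_top)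
    rw [hWm] at hxy
    rcases Nat.eq_zero_or_pos y with hy | hy
    · left; subst hy; omega
    · right
      constructor
      · have : a * 1 ≤ a * y := Nat.mul_le_mul_left a hy
        omega
      · rw [hxy, Nat.add_mul_mod_self_left]
        exact (Nat.mod_le _ _).trans hx
  · intro h
    have hdimV : Module.finrank F V = Module.finrank F E + s * a := by
      have h1 := finrank_sup_indep g hind Finset.univ
      rw [Finset.sup_univ_eq_iSup, htop, finrank_top, Fintype.sum_option] at h1
      rw [h1]
      have : ∀ j : Fin s, Module.finrank F (g (some j)) = a := fun j => hUdim j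
      rw [Finset.sum_congr rfl (fun j _ => this j)]
      simp
      rfl
    have build : ∀ l k : ℕ, l ≤ Module.finrank F E → k ≤ s →
        ∃ W : Submodule F V, Module.finrank F W = l + k * a ∧ W.map f ≤ W := by
      intro l k hl hk
      obtain ⟨E', hE'le, hE'dim⟩ := exists_le_finrank_eq E l hl
      obtain ⟨t0, -, ht0⟩ := Finset.exists_subset_card_eq (s := (Finset.univ : Finset (Fin s))) (n := k)
        (by simpa using hk)
      set g' : Option (Fin s) → Submodule F V := fun o => o.elim E' U with hg'
      have hle : g' ≤ g := by
        intro o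
        cases o with
        | none => exact hE'le
        | some j => exact le_rfl
      have hind' : iSupIndep g' := hind.mono hle
      have hg'inv : ∀ o, (g' o).map f ≤ g' o := by
        intro o
        cases o with
        | none => exact hsubE E' hE'le
        | some j => exact hUinv j
      refine ⟨(insert none (t0.map Function.Embedding.some)).sup g', ?_, ?_⟩
      · rw [finrank_sup_indep g' hind', Finset.sum_insert (by simp), Finset.sum_map]
        have h1 : ∀ j : Fin s, Module.finrank F (g' (Function.Embedding.some j)) = a := fun j => hUdim j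
        rw [Finset.sum_congr rfl (fun j _ => h1 j)]
        have h2 : Module.finrank F (g' none) = l := hE'dim
        rw [h2]
        simp [ht0]
      · generalize (insert none (t0.map Function.Embedding.some)) = T
        induction T using Finset.induction_on with
        | empty => simp
        | insert o t _ ih =>
          rw [Finset.sup_insert]
          exact map_sup_le f _ _ (hg'inv o) ih
    rcases h with h | ⟨h1, h2⟩
    · obtain ⟨W, hW, hWinv⟩ := build m 0 h (Nat.zero_le _)
      exact ⟨W, by simpa using hW, hWinv⟩
    · by_cases hks : m / a ≤ s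
      · obtain ⟨W, hW, hWinv⟩ := build (m % a) (m / a) h2 hks
        refine ⟨W, ?_, hWinv⟩
        rw [hW]
        exact Nat.mod_add_div' m a
      · push Not at hks
        have h3 : s * a ≤ m := by
          have : s * a ≤ (m / a) * a := Nat.mul_le_mul_right a hks.le
          exact this.trans (Nat.div_mul_le_self m a)
        obtain ⟨W, hW, hWinv⟩ := build (m - s * a) s (by omega) le_rfl
        exact ⟨W, by omega, hWinv⟩

end Cfsg.Agent.S5952
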