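import Cfsg.Statements.S5958
import Cfsg.Agent.Lib.Helper67.Elus.DMain
import Cfsg.Agent.Lib.Helper67.Elus.Bridge

set_option autoImplicit false
open scoped MatrixGroups
open Cfsg

namespace Cfsg.Agent.S5958

/-- Elements of odd prime order of PSL_n(q) and imprimitive subgroups. Here `T = PSL_n(F)` for a field `F` with `q = p^f` elements (`n ≥ 2`, `(n, q) ≠ (2, 2), (2, 3)`), `n = a·t` with `t ≥ 2`, and Ω is the set of direct-sum decompositions of `F^n` into `t` subspaces of dimension `a` (unordered; their number is the number of ordered ones divided by `t!`), whose stabilizers are the imprimitive subgroups of type GL_a(q) ≀ S_t (maximal except in some small cases; maximality is not assumed); an element of `T` of prime order `r` (a matrix `x` of determinant 1 with `x^r` scalar, `x` not scalar) fixes a point of Ω when it permutes the summands of some such decomposition. Let `r ≠ p` be an odd prime dividing the number of such decompositions, let `c` be the multiplicative order of `q`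 modulo `r`, and write `k = n mod c`, `ℓ = a mod c`. Then every element of `T` of order `r` stabilizes such a decomposition if and only if either `a = 1`, `c = r − 1 > 1` and `n ≤ k·r`, or `c ≤ a` and `k = t·ℓ`. -/
theorem result {F : Type*} [Field F] [Fintype F] {p : ℕ} [Fact p.Prime] [CharP F p] {q : ℕ} (hq : Fintype.card F = q)
    (n a t : ℕ) (hn : 2 ≤ n) (hT : (n, q) ≠ (2, 2) ∧ (n, q) ≠ (2, 3)) (hat : n = a * t) (ha : 1 ≤ a) (ht : 2 ≤ t)
    (r : ℕ) [Fact r.Prime] (hr2 : r ≠ 2) (hrp : r ≠ p) (hΩ : r ∣ Nat.card {D : Fin t → Submodule F (Fin n → F) // Cfsg.Geo.IsMDecomposition a D} / Nat.factorial t)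
    (c : ℕ) (hc : c = orderOf (q : ZMod r)) :
    (∀ x : Matrix.SpecialLinearGroup (Fin n) F,
      (∃ z : F, ((x ^ r : Matrix.SpecialLinearGroup (Fin n) F) : Matrix (Fin n) (Fin n) F) = z • (1 : Matrix (Fin n) (Fin n) F)) →
      (∀ z : F, (x : Matrix (Fin n) (Fin n) F) ≠ z • (1 : Matrix (Fin n) (Fin n) F)) →
      ∃ D : Fin t → Submodule F (Fin n → F), Cfsg.Geo.IsMDecomposition a D ∧
        ∃ σ : Equiv.Perm (Fin t), ∀ j, (D j).map (Matrix.toLin' (x : Matrix (Fin n) (Fin n) F)) = D (σ j)) ↔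
    ((a = 1 ∧ 1 < c ∧ c = r - 1 ∧ n ≤ (n % c) * r) ∨ (c ≤ a ∧ n % c = t * (a % c))) := by
  subst hq
  subst hc
  have hr : (r : F) ≠ 0 := Cfsg.Agent.Lib.Helper67.Elus.cast_ne_zero_of_ne (p := p) hrp
  have hn0 : 0 < n := by omega
  rw [Cfsg.Agent.Lib.Helper67.Elus.sl_forall_iff (F := F) (n := n) (r := r)
    (fun T => ∃ D : Fin t → Submodule F (Fin n → F), Cfsg.Geo.IsMDecomposition a D ∧
        ∃ σ : Equiv.Perm (Fin t), ∀ j, (D j).map T = D (σ j))]
  constructor
  · intro h
    exact Cfsg.Agent.Lib.Helper67.Elus.core_dec_nec hr hat ha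
      (Cfsg.Agent.Lib.Helper67.Elus.oq_le_of_dvd_decomp hr n a t hat ha ht hΩ)
      (fun T h1 h2 h3 => (Cfsg.Agent.Lib.Helper67.Elus.stab_iff ha ht T).1 (h T h1 h2 h3))
  · intro hcond T hdet hz _
    obtain ⟨z, hz⟩ := hz
    exact (Cfsg.Agent.Lib.Helper67.Elus.stab_iff ha ht T).2
      (Cfsg.Agent.Lib.Helper67.Elus.core_dec_suff hr hat hn0 hcond T hdet z hz)

end Cfsg.Agent.S5958
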