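import Cfsg.Statements.S5960
import Cfsg.Agent.Lib.Helper44.PlaneSys
import Cfsg.Agent.Lib.Helper94.SympWrap
import Cfsg.Agent.Lib.Helper13.Symp

set_option autoImplicit false
open scoped MatrixGroups
open Cfsg

namespace Cfsg.Agent.S5960

open Cfsg.Agent.Lib.Helper44

/-- Involutions of PSp_n(q) and imprimitive subgroups. Here `T = PSp_n(q)`, `n = 2d ≥ 4`, `(n, q) ≠ (4, 2)`, realised through the symplectic matrices over the field `F` with `q` elements and the standard alternating form; `n = a·t` with `a` even and `t ≥ 2`, and Ω is the (nonempty) set of orthogonal decompositions of `F^n` into `t` nondegenerate subspaces of dimension `a` (unordered; counted as ordered ones divided by `t!`), whose stabilizers are the imprimitive subgroups of type Sp_a(q) ≀ S_t (maximality is not assumed); an element of `T` of prime order `r` (a symplectic matrix `x` with `x^r` scalar, `x` not scalar) fixes a point of Ω when it permutes the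 summands of some such decomposition. If the number of such decompositions is even, then every involution of `T` stabilizes one of them (the action is 2-elusive). -/
theorem result {F : Type*} [Field F] [Fintype F] {p : ℕ} [Fact p.Prime] [CharP F p] {q : ℕ} (hq : Fintype.card F = q)
    (d : ℕ) (hd : 2 ≤ d) (hT : (d, q) ≠ (2, 2))
    (a t : ℕ) (hat : 2 * d = a * t) (ha : 2 ≤ a) (hae : Even a) (ht : 2 ≤ t) (hΩ : 2 ∣ Nat.card {D : Fin t → Submodule F (Fin d ⊕ Fin d → F) // (Cfsg.Geo.IsMDecomposition a D ∧ (∀ j, ∀ u ∈ D j, u ≠ 0 → ∃ v ∈ D j, Cfsg.sympForm d F u v ≠ 0) ∧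
          (∀ j j', j ≠ j' → ∀ u ∈ D j, ∀ v ∈ D j', Cfsg.sympForm d F u v = 0))} / Nat.factorial t)
    (x : ↥(Matrix.symplecticGroup (Fin d) F))
    (hx1 : ∃ z : F, ((x ^ 2 : ↥(Matrix.symplecticGroup (Fin d) F)) : Matrix (Fin d ⊕ Fin d) (Fin d ⊕ Fin d) F) = z • (1 : Matrix (Fin d ⊕ Fin d) (Fin d ⊕ Fin d) F))
    (hx2 : ∀ z : F, (x : Matrix (Fin d ⊕ Fin d) (Fin d ⊕ Fin d) F) ≠ z • (1 : Matrix (Fin d ⊕ Fin d) (Fin d ⊕ Fin d) F)) :
    ∃ D : Fin t → Submodule F (Fin d ⊕ Fin d → F), (Cfsg.Geo.IsMDecomposition a D ∧ (∀ j, ∀ u ∈ D j, u ≠ 0 → ∃ v ∈ D j, Cfsg.sympForm d F u v ≠ 0) ∧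
          (∀ j j', j ≠ j' → ∀ u ∈ D j, ∀ v ∈ D j', Cfsg.sympForm d F u v = 0)) ∧
        ∃ σ : Equiv.Perm (Fin t), ∀ j, (D j).map (Matrix.toLin' (x : Matrix (Fin d ⊕ Fin d) (Fin d ⊕ Fin d) F)) = D (σ j) := by
  classical
  obtain ⟨z, hz⟩ := hx1
  have hne : Nonempty (Fin d ⊕ Fin d) := ⟨Sum.inl ⟨0, by omega⟩⟩
  have hβ := Cfsg.Agent.Lib.Helper94.sympB_nondegenerate (F := F) d
  have halt := Cfsg.Agent.Lib.Helper94.sympB_isAlt (F := F) d
  have hX : ∀ u v, Cfsg.Agent.Lib.Helper94.sympB d F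
      (Matrix.toLin' (x : Matrix (Fin d ⊕ Fin d) (Fin d ⊕ Fin d) F) u)
      (Matrix.toLin' (x : Matrix (Fin d ⊕ Fin d) (Fin d ⊕ Fin d) F) v)
      = Cfsg.Agent.Lib.Helper94.sympB d F u v := by
    intro u v
    rw [Matrix.toLin'_apply, Matrix.toLin'_apply, Cfsg.Agent.Lib.Helper94.sympB_apply,
      Cfsg.Agent.Lib.Helper94.sympB_apply]
    exact (Cfsg.Agent.Lib.Helper13.mem_symplecticGroup_iff_preserves _).1 x.2 u v
  have hXX : ∀ v, Matrix.toLin' (x : Matrix (Fin d ⊕ Fin d) (Fin d ⊕ Fin d) F)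
      (Matrix.toLin' (x : Matrix (Fin d ⊕ Fin d) (Fin d ⊕ Fin d) F) v) = z • v := by
    intro v
    rw [Matrix.toLin'_apply, Matrix.toLin'_apply, Matrix.mulVec_mulVec]
    have : (x : Matrix (Fin d ⊕ Fin d) (Fin d ⊕ Fin d) F) * (x : Matrix (Fin d ⊕ Fin d) (Fin d ⊕ Fin d) F)
        = z • (1 : Matrix (Fin d ⊕ Fin d) (Fin d ⊕ Fin d) F) := by
      rw [← hz, pow_two]; rfl
    rw [this, Matrix.smul_mulVec, Matrix.one_mulVec]
  have hz0 : z ≠ 0 := by
    rintro rfl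
    obtain ⟨u, hu⟩ := exists_ne (0 : Fin d ⊕ Fin d → F)
    apply hu
    apply hβ.1
    intro v
    rw [← hX, ← hX, hXX, zero_smul, map_zero, LinearMap.zero_apply]
  have hinj : Function.Injective (Matrix.toLin' (x : Matrix (Fin d ⊕ Fin d) (Fin d ⊕ Fin d) F)) := by
    intro u v huv
    have h1 := hXX u
    rw [huv, hXX] at h1
    exact (smul_right_injective _ hz0 h1).symm
  have hND : NDOn (Cfsg.Agent.Lib.Helper94.sympB d F) ⊤ :=
    fun y _ hy => hβ.1 y (fun y' => hy y' trivial)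
  have hsys := hasPlaneSys halt hX hz0 hXX _ ⊤ rfl hND (fun _ _ => trivial)
  obtain ⟨a', rfl⟩ := hae
  have hdim : Module.finrank F (Fin d ⊕ Fin d → F) = 2 * a' * t := by
    rw [Module.finrank_fintype_fun_eq_card, Fintype.card_sum, Fintype.card_fin, ← two_mul, hat,
      two_mul]
  obtain ⟨D, h1, h2, h3, h4, h5, h6⟩ := plane_grouping hβ halt hinj hsys (a := a') (by omega) hdim
  refine ⟨D, ⟨⟨ht, by omega, fun j => by rw [h1, two_mul], h2, h3⟩, ?_, ?_⟩, h6⟩
  · intro j u hu hu0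
    obtain ⟨v, hv, hv'⟩ := h4 j u hu hu0
    exact ⟨v, hv, by rw [← Cfsg.Agent.Lib.Helper94.sympB_apply]; exact hv'⟩
  · intro j j' hjj' u hu v hv
    rw [← Cfsg.Agent.Lib.Helper94.sympB_apply]
    exact h5 j j' hjj' u hu v hv

end Cfsg.Agent.S5960
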