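import Cfsg.Statements.S5963
import Cfsg.Agent.Lib.Helper38.LagPairB
import Cfsg.Agent.Lib.Helper38.LagPairC

set_option autoImplicit false
open scoped MatrixGroups
open Cfsg

namespace Cfsg.Agent.S5963

/-- Derangements of odd prime order of PSp_n(q), q odd, on pairs of complementary totally isotropic subspaces. Here `T = PSp_n(q)`, `n = 2d ≥ 4`, `q` odd, realised through the symplectic matrices over the field `F` with `q` elements; Ω is the set of unordered pairs `{U, W}` of complementary totally isotropic `d`-spaces (`F^n = U ⊕ W`), whose stabilizers are the subgroups of type GL_d(q).2 (maximal except in some small cases; maximality is not assumed); an element of `T` of prime order `r` (a symplectic matrix `x` with `x^r` scalar, `x` not scalar) fixes such a pair when it fixes or interchanges `U` and `W`. For every odd prime `r ≠ p` dividing the number of such pairs, some element of `T` of order `r` fixes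 no such pair (the action is never `r`-elusive for odd `r ≠ p`). -/
theorem result {F : Type*} [Field F] [Fintype F] {p : ℕ} [Fact p.Prime] [CharP F p] {q : ℕ} (hq : Fintype.card F = q)
    (d : ℕ) (hd : 2 ≤ d) (hT : (d, q) ≠ (2, 2)) (hodd : Odd q)
    (r : ℕ) [Fact r.Prime] (hr2 : r ≠ 2) (hrp : r ≠ p) (hΩ : r ∣ Nat.card {P : Submodule F (Fin d ⊕ Fin d → F) × Submodule F (Fin d ⊕ Fin d → F) // IsCompl P.1 P.2 ∧ (∀ u ∈ P.1, ∀ v ∈ P.1, Cfsg.sympForm d F u v = 0) ∧ (∀ u ∈ P.2, ∀ v ∈ P.2, Cfsg.sympForm d F u v = 0)} / 2) :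
    ∃ x : ↥(Matrix.symplecticGroup (Fin d) F),
      (∃ z : F, ((x ^ r : ↥(Matrix.symplecticGroup (Fin d) F)) : Matrix (Fin d ⊕ Fin d) (Fin d ⊕ Fin d) F) = z • (1 : Matrix (Fin d ⊕ Fin d) (Fin d ⊕ Fin d) F)) ∧
      (∀ z : F, (x : Matrix (Fin d ⊕ Fin d) (Fin d ⊕ Fin d) F) ≠ z • (1 : Matrix (Fin d ⊕ Fin d) (Fin d ⊕ Fin d) F)) ∧
      ¬ (∃ U W : Submodule F (Fin d ⊕ Fin d → F), IsCompl U W ∧ (∀ u ∈ U, ∀ v ∈ U, Cfsg.sympForm d F u v = 0) ∧ (∀ u ∈ W, ∀ v ∈ W, Cfsg.sympForm d F u v = 0) ∧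
        ((U.map (Matrix.toLin' (x : Matrix (Fin d ⊕ Fin d) (Fin d ⊕ Fin d) F)) = U ∧ W.map (Matrix.toLin' (x : Matrix (Fin d ⊕ Fin d) (Fin d ⊕ Fin d) F)) = W) ∨
         (U.map (Matrix.toLin' (x : Matrix (Fin d ⊕ Fin d) (Fin d ⊕ Fin d) F)) = W ∧ W.map (Matrix.toLin' (x : Matrix (Fin d ⊕ Fin d) (Fin d ⊕ Fin d) F)) = U))) := by
  classical
  subst hq
  have hr : r.Prime := Fact.out
  have hpp : p.Prime := Fact.out
  have hrq : ¬ r ∣ Fintype.card F := by
    intro h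
    obtain ⟨⟨f, hf0⟩, -, hf⟩ := FiniteField.card F p
    rw [hf] at h
    exact hrp ((Nat.prime_dvd_prime_iff_eq hr hpp).1 (hr.dvd_of_dvd_pow h))
  have hrF : (r : F) ≠ 0 := by
    intro h
    rw [CharP.cast_eq_zero_iff F p r] at h
    exact hrp ((Nat.prime_dvd_prime_iff_eq hpp hr).1 h).symm
  obtain ⟨heven, hle⟩ := Cfsg.Agent.Lib.Helper38.LagPair.order_even_le d r hr2 (Fintype.card F)
    (Cfsg.Agent.Lib.Helper38.LagPair.exists_dvd_of_dvd d (by omega) hodd r hr hrq hΩ)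
  obtain ⟨i, hi⟩ : ∃ i, i = orderOf ((Fintype.card F : ℕ) : ZMod r) := ⟨_, rfl⟩
  rw [← hi] at heven hle
  have hq0 : ((Fintype.card F : ℕ) : ZMod r) ≠ 0 := by
    rwa [Ne, ZMod.natCast_eq_zero_iff]
  have hi0 : 0 < i := by
    rw [hi, orderOf_pos_iff, isOfFinOrder_iff_pow_eq_one]
    exact ⟨r - 1, Nat.sub_pos_of_lt hr.one_lt, ZMod.pow_card_sub_one_eq_one hq0⟩
  have hir : i ≤ r - 1 := by
    rw [hi]
    exact Nat.le_of_dvd (Nat.sub_pos_of_lt hr.one_lt)
      (orderOf_dvd_of_pow_eq_one (ZMod.pow_card_sub_one_eq_one hq0))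
  have hcard : 0 < (Cfsg.Agent.Lib.Helper38.CycF.facs F r).card := by
    rw [Cfsg.Agent.Lib.Helper38.CycF.card_facs p hr hrp, ← hi]
    exact Nat.div_pos hir hi0
  obtain ⟨P, hP⟩ := Finset.card_pos.1 hcard
  obtain ⟨μ, hμ⟩ : ∃ μ : Multiset ↥(Cfsg.Agent.Lib.Helper38.CycF.facs F r), μ = {⟨P, hP⟩} :=
    ⟨_, rfl⟩
  have hμ0 : μ ≠ 0 := by rw [hμ]; exact Multiset.singleton_ne_zero _
  have hcardμ : Multiset.card μ = 1 := by rw [hμ]; exact Multiset.card_singleton _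
  have hstar : μ.map (Cfsg.Agent.Lib.Helper38.CycF.starI p hr hrp) = μ := by
    rw [hμ, Multiset.map_singleton]
    congr 1
    exact Subtype.ext (Cfsg.Agent.Lib.Helper38.CycF.starP_eq_of_even p hr hrp hP
      (by rw [← hi]; exact heven))
  obtain ⟨g, hg, hT⟩ := Cfsg.Agent.Lib.Helper38.CycF.sp_exists_of_tau p hr hrp d i hi μ hμ0
    (by rw [hcardμ, mul_one]; exact hle) (by rw [hcardμ, mul_one]; exact heven) hstar
  have hGr : (g : Matrix (Fin d ⊕ Fin d) (Fin d ⊕ Fin d) F) ^ r = 1 := by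
    have := Cfsg.Agent.Lib.Helper38.CycF.sp_coe_pow_orderOf g
    rwa [hg] at this
  have hHT := Cfsg.Agent.Lib.Helper45.hasType_typ (g : Matrix (Fin d ⊕ Fin d) (Fin d ⊕ Fin d) F)
  rw [hT] at hHT
  have hG1 : (g : Matrix (Fin d ⊕ Fin d) (Fin d ⊕ Fin d) F) ≠ 1 :=
    Cfsg.Agent.Lib.Helper38.CycF.ne_one_of_hasType_tau p hr hrp _ _ _ hμ0 hHT
  have hBe : (Matrix.toLin' (g : Matrix (Fin d ⊕ Fin d) (Fin d ⊕ Fin d) F) :
      Module.End F (Fin d ⊕ Fin d → F))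
      = Matrix.toLinAlgEquiv' (g : Matrix (Fin d ⊕ Fin d) (Fin d ⊕ Fin d) F) := rfl
  have hB : (Matrix.toLin' (g : Matrix (Fin d ⊕ Fin d) (Fin d ⊕ Fin d) F) :
      Module.End F (Fin d ⊕ Fin d → F)) ^ r = 1 := by
    rw [hBe, ← map_pow, hGr, map_one]
  have hB1 : (Matrix.toLin' (g : Matrix (Fin d ⊕ Fin d) (Fin d ⊕ Fin d) F) :
      Module.End F (Fin d ⊕ Fin d → F)) ≠ 1 := by
    rw [hBe]
    intro h
    apply hG1
    apply (Matrix.toLinAlgEquiv' (R := F) (n := Fin d ⊕ Fin d)).injective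
    rw [h, map_one]
  have hc2 : Fintype.card (Fin d ⊕ Fin d) = 2 * d := by
    simp only [Fintype.card_sum, Fintype.card_fin]; omega
  have hdim := Cfsg.Agent.Lib.Helper38.LagPair.finrank_ker_sub_one p hr hrp (2 * d) i hc2 μ _ hHT
  rw [hcardμ, mul_one] at hdim
  refine ⟨g, ⟨1, ?_⟩, ?_, ?_⟩
  · rw [one_smul]
    exact hGr
  · intro z hz
    have x0 : Fin d := ⟨0, by omega⟩
    have h1 := SymplecticGroup.mem_iff'.1 g.2
    rw [hz] at h1
    have h2 := congrFun (congrFun h1 (Sum.inl x0)) (Sum.inr x0)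
    simp [Matrix.J] at h2
    have h3 : z ^ r = 1 := by
      rw [hz, smul_pow, one_pow] at hGr
      have h4 := congrFun (congrFun hGr (Sum.inl x0)) (Sum.inl x0)
      simpa using h4
    obtain ⟨s, hs⟩ := hr.odd_of_ne_two hr2
    have h5 : z = 1 := by
      rw [hs, pow_succ, pow_mul, pow_two, h2, one_pow, one_mul] at h3
      exact h3
    apply hG1
    rw [hz, h5, one_smul]
  · rintro ⟨U, W, hc, hU, hW, ⟨h1, h2⟩ | ⟨h1, h2⟩⟩
    · exact Cfsg.Agent.Lib.Helper38.LagPair.no_fixed_pair r hrF g hB hB1 i hi0 hi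
        (by rw [hdim]; omega) U W hc hU hW h1 h2
    · exact Cfsg.Agent.Lib.Helper38.LagPair.no_swapped_pair (by omega) r (hr.odd_of_ne_two hr2) _
        hB U W hc h1 h2

end Cfsg.Agent.S5963
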