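import Cfsg.Statements.S5964
import Cfsg.Agent.Lib.Helper14.Inv2.C3
import Cfsg.Agent.Lib.Helper14.Inv2.WIT
import Cfsg.Agent.Lib.Helper74.Inv2.DET
import Cfsg.Agent.Lib.Helper74.Inv2.RD1
import Cfsg.Agent.Lib.Helper74.Inv2.RD2
import Cfsg.Agent.Lib.Helper74.Inv2.SQ
import Cfsg.Agent.Lib.Helper11.Inv2.AR
import Cfsg.Agent.Lib.Helper11.Inv2.IDX

set_option autoImplicit false
open scoped MatrixGroups
open Cfsg

namespace Cfsg.Agent.S5964

open Cfsg.Agent.Lib.Helper14.Inv2 Cfsg.Agent.Lib.Helper74.Inv2 Cfsg.Agent.Lib.Helper11.Inv2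

theorem result {F : Type*} [Field F] [Fintype F] {p : ℕ} [Fact p.Prime] [CharP F p] {q : ℕ} (hq : Fintype.card F = q)
    (n : ℕ) (hn : 2 ≤ n) (hT : (n, q) ≠ (2, 2) ∧ (n, q) ≠ (2, 3))
    (F₀ : Subfield F) (k q₀ : ℕ) (hk : k.Prime) (hF₀ : Nat.card ↥F₀ = q₀) (hqk : q = q₀ ^ k) (hC5 : ¬ (n = 2 ∧ q₀ = 2)) (hΩ : 2 ∣ ((Cfsg.Geo.subfieldSubgroup F₀ 1).comap (Matrix.SpecialLinearGroup.toGL : Matrix.SpecialLinearGroup (Fin n) F →* GL (Fin n) F)).index) :
    (∀ x : Matrix.SpecialLinearGroup (Fin n) F,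
      (∃ z : F, ((x ^ 2 : Matrix.SpecialLinearGroup (Fin n) F) : Matrix (Fin n) (Fin n) F) = z • (1 : Matrix (Fin n) (Fin n) F)) →
      (∀ z : F, (x : Matrix (Fin n) (Fin n) F) ≠ z • (1 : Matrix (Fin n) (Fin n) F)) →
      ∃ P : Matrix.SpecialLinearGroup (Fin n) F, P⁻¹ * x * P ∈ ((Cfsg.Geo.subfieldSubgroup F₀ 1).comap (Matrix.SpecialLinearGroup.toGL : Matrix.SpecialLinearGroup (Fin n) F →* GL (Fin n) F))) ↔
    (Odd q → (k = 2 ∧ padicValNat 2 n ≤ padicValNat 2 (q - 1))) := by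
  have hk2 : Odd q → k = 2 := by
    intro hodd
    by_contra hne
    have hkodd : Odd k := hk.odd_of_ne_two hne
    exact odd_index (n := n) F₀ k hkodd (by rw [hq, hF₀, hqk]) (by rw [hq]; exact hodd) hΩ
  constructor
  · intro hall hodd
    have hk2' := hk2 hodd
    refine ⟨hk2', ?_⟩
    by_contra hlt
    push Not at hlt
    subst hk2'
    have hcq : Fintype.card F = q₀ ^ 2 := by rw [hq, hqk]
    obtain ⟨k', z, rfl, hz, hzk⟩ := arith_two (F := F) q₀ hcq (by rw [hq]; exact hodd) n (by rw [hq]; exact hlt)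
    obtain ⟨x, hx, hns⟩ := exists_witness k' (by omega) z hzk
    obtain ⟨P, hP⟩ := hall x ⟨z, by rw [pow_two]; exact hx⟩ hns
    rw [Subgroup.mem_comap] at hP
    apply hz
    refine isSquare_of_mem_subfieldSubgroup_aux (by omega) F₀
      (isSquare_of_mem_subfield F₀ (by rw [hcq, hF₀])) _ hP z ?_
    have e : (Matrix.SpecialLinearGroup.toGL (P⁻¹ * x * P) : GL (Fin (2 * k')) F) *
        Matrix.SpecialLinearGroup.toGL (P⁻¹ * x * P) = Matrix.SpecialLinearGroup.toGL (P⁻¹ * (x * x) * P) := by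
      rw [← map_mul]
      congr 1
      group
    rw [← Units.val_mul, e]
    have e2 : ((x * x : Matrix.SpecialLinearGroup (Fin (2 * k')) F) : Matrix (Fin (2 * k')) (Fin (2 * k')) F) = z • 1 := hx
    have e3 : ((Matrix.SpecialLinearGroup.toGL (P⁻¹ * (x * x) * P) : GL (Fin (2 * k')) F) : Matrix (Fin (2 * k')) (Fin (2 * k')) F)
        = ((P⁻¹ : Matrix.SpecialLinearGroup (Fin (2 * k')) F) : Matrix (Fin (2 * k')) (Fin (2 * k')) F) *
          ((x * x : Matrix.SpecialLinearGroup (Fin (2 * k')) F) : Matrix (Fin (2 * k')) (Fin (2 * k')) F) *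
          (P : Matrix (Fin (2 * k')) (Fin (2 * k')) F) := rfl
    rw [e3, e2, Matrix.mul_smul, Matrix.mul_one, Matrix.smul_mul]
    congr 1
    have : ((P⁻¹ * P : Matrix.SpecialLinearGroup (Fin (2 * k')) F) : Matrix (Fin (2 * k')) (Fin (2 * k')) F) = 1 := by
      rw [inv_mul_cancel]; rfl
    exact this
  · intro hR x ⟨z, hz⟩ hns
    have hxx : (x : Matrix (Fin n) (Fin n) F) * (x : Matrix (Fin n) (Fin n) F) = z • 1 := by
      rw [pow_two] at hz; exact hz
    have hlin : (Matrix.toLin' (x : Matrix (Fin n) (Fin n) F) : Module.End F (Fin n → F)) *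
        Matrix.toLin' (x : Matrix (Fin n) (Fin n) F) = z • 1 := by
      rw [Module.End.mul_eq_comp, ← Matrix.toLin'_mul, hxx, map_smul, Matrix.toLin'_one]
      rfl
    obtain ⟨k', l, μ, b, hb⟩ := exists_nf _ z hlin
    have hdim : n = 2 * k' + l := by
      have := Module.finrank_eq_card_basis b
      simp at this
      omega
    have hz0 : z ≠ 0 := by
      rintro rfl
      have h1 : ((x : Matrix (Fin n) (Fin n) F) * (x : Matrix (Fin n) (Fin n) F)).det = 1 := by
        rw [Matrix.det_mul, x.2, one_mul]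
      have : Nonempty (Fin n) := ⟨⟨0, by omega⟩⟩
      rw [hxx, zero_smul, Matrix.det_zero] at h1
      exact zero_ne_one h1
    have hμ : 0 < l → μ ^ 2 = z := by
      intro hl
      have h3 := hb.2.2 ⟨0, hl⟩
      have h4 := congrArg (fun T : Module.End F (Fin n → F) => T (b (Sum.inr ⟨0, hl⟩))) hlin
      simp only [Module.End.mul_apply, LinearMap.smul_apply, Module.End.one_apply] at h4
      rw [h3, map_smul, h3, smul_smul] at h4
      have h5 : (μ * μ - z) • b (Sum.inr ⟨0, hl⟩) = 0 := by rw [sub_smul, h4, sub_self]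
      rcases smul_eq_zero.1 h5 with h | h
      · rw [pow_two]; exact sub_eq_zero.1 h
      · exact absurd h (b.ne_zero _)
    by_cases hsq : IsSquare z
    · -- rational form
      obtain ⟨μ₀, h0, hzz, hμμ⟩ : ∃ μ₀ : F, μ₀ ≠ 0 ∧ z / μ₀ ^ 2 ∈ F₀ ∧ (l = 0 ∨ μ / μ₀ ∈ F₀) := by
        rcases Nat.eq_zero_or_pos l with hl | hl
        · obtain ⟨r, hr⟩ := hsq
          have hr0 : r ≠ 0 := by rintro rfl; exact hz0 (by rw [hr, mul_zero])
          refine ⟨r, hr0, ?_, Or.inl hl⟩
          rw [hr, pow_two, div_self (mul_ne_zero hr0 hr0)]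
          exact F₀.one_mem
        · have h2 := hμ hl
          have hm0 : μ ≠ 0 := by rintro rfl; exact hz0 (by rw [← h2]; simp)
          refine ⟨μ, hm0, ?_, Or.inr ?_⟩
          · rw [h2, div_self hz0]; exact F₀.one_mem
          · rw [div_self hm0]; exact F₀.one_mem
      obtain ⟨b', hb'⟩ := exists_rational_basis hb F₀ μ₀ h0 hzz hμμ
      obtain ⟨Q, hQ⟩ := exists_conj_of_basis (Matrix.SpecialLinearGroup.toGL x) F₀ b' μ₀⁻¹ (inv_ne_zero h0) hb'
      exact sl_conj_of_gl_conj _ x z hz hns Q hQ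
    · exfalso
      have hodd : Odd q := by
        by_contra heven
        apply hsq
        have h2 : ringChar F = 2 := by
          have : Fintype.card F % 2 = 0 := by
            rw [hq]; exact Nat.even_iff.1 (Nat.not_odd_iff_even.1 heven)
          exact FiniteField.even_card_iff_char_two.2 this
        exact FiniteField.isSquare_of_char_two h2 z
      obtain ⟨hk2', hle⟩ := hR hodd
      subst hk2'
      have hl : l = 0 := by
        by_contra hl
        exact hsq ⟨μ, by rw [← hμ (Nat.pos_of_ne_zero hl), pow_two]⟩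
      have hdet := det_of_nf hb
      rw [LinearMap.det_toLin', x.2, hl, pow_zero, mul_one] at hdet
      have := arith_one (F := F) q₀ (by rw [hq, hqk]) (by rw [hq]; exact hodd) z hsq k' (by omega) hdet.symm
      rw [hq] at this
      rw [hdim, hl, add_zero] at hle
      omega

end Cfsg.Agent.S5964
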