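import Cfsg.Statements.S5970
import Cfsg.Agent.Lib.Helper51.Sing.Asm

set_option autoImplicit false
open scoped MatrixGroups
open Cfsg

namespace Cfsg.Agent.S5970

/-- Elements of order `n` of PSL_n(q), `n` prime, and the normalizer of a Singer cycle. Here `T = PSL_n(F)` for a field `F` with `q = p^f` elements (`n ≥ 2`, `(n, q) ≠ (2, 2), (2, 3)`), `k` is a prime dividing `n`, `K` is a subalgebra of the `n × n` matrices that is a field of degree `k` over `F` (an extension-field structure F_{q^k} on `F^n`), and `H` is the subgroup of matrices of determinant 1 normalizing `K` — a subgroup of type GL_{n/k}(q^k) (maximal except in some small cases; maximality is not assumed); Ω is the set of cosets of `H` in `T`, so an element of `T` of prime order `r` (a matrix `x` of determinant 1 with `x^r` scalar, `x` not scalar) fixes a point of Ω when some conjugate of `x` by a matrix of determinant 1 normalizes `K`. Take `k = n > 3` prime with `n ≠ p` (so `H` is the normalizer of a Singer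 cycle), and suppose `n` divides the index of `H`. Then every element of `T` of order `n` is conjugate in `T` into `H` if and only if the multiplicative order of `q` modulo `n` is `n − 1`. -/
theorem result {F : Type*} [Field F] [Fintype F] {p : ℕ} [Fact p.Prime] [CharP F p] {q : ℕ} (hq : Fintype.card F = q)
    (n : ℕ) (hn : 2 ≤ n) (hT : (n, q) ≠ (2, 2) ∧ (n, q) ≠ (2, 3))
    (k : ℕ) (hk : k.Prime) (hkn : k ∣ n) (K : Subalgebra F (Matrix (Fin n) (Fin n) F)) (hK : Cfsg.Geo.IsFieldSubalgebra k K) (hkn' : k = n) (hn3 : 3 < n) (hnp : n ≠ p) (hΩ : n ∣ ((Cfsg.Geo.subalgebraNormalizer K).comap (Matrix.SpecialLinearGroup.toGL : Matrix.SpecialLinearGroup (Fin n) F →* GL (Fin n) F)).index) :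
    (∀ x : Matrix.SpecialLinearGroup (Fin n) F,
      (∃ z : F, ((x ^ n : Matrix.SpecialLinearGroup (Fin n) F) : Matrix (Fin n) (Fin n) F) = z • (1 : Matrix (Fin n) (Fin n) F)) →
      (∀ z : F, (x : Matrix (Fin n) (Fin n) F) ≠ z • (1 : Matrix (Fin n) (Fin n) F)) →
      ∃ P : Matrix.SpecialLinearGroup (Fin n) F, P⁻¹ * x * P ∈ ((Cfsg.Geo.subalgebraNormalizer K).comap (Matrix.SpecialLinearGroup.toGL : Matrix.SpecialLinearGroup (Fin n) F →* GL (Fin n) F))) ↔
    orderOf (q : ZMod n) = n - 1 := by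
  classical
  subst hkn'
  have : Fact k.Prime := ⟨hk⟩
  have : NeZero k := ⟨hk.ne_zero⟩
  have hnF : (k : F) ≠ 0 := by
    intro h
    have h1 := (CharP.cast_eq_zero_iff F p k).1 h
    exact hnp ((Nat.prime_dvd_prime_iff_eq Fact.out hk).1 h1).symm
  have hoq : Cfsg.Agent.Lib.Helper67.Elus.oq F k = orderOf (q : ZMod k) := by
    rw [Cfsg.Agent.Lib.Helper67.Elus.oq, hq]
  rw [← hoq]
  constructor
  · intro H
    by_contra hi
    obtain ⟨x, hxn, hns, v, w, hv, hw, hxv, hxw⟩ :=
      Cfsg.Agent.Lib.Helper51.Sing.exists_bad (F := F) (n := k) hn3 hnF hi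
    obtain ⟨P, hP⟩ := H x ⟨1, by rw [hxn, one_smul]⟩ hns
    rw [Subgroup.mem_comap] at hP
    have h1 : ((P⁻¹ : Matrix.SpecialLinearGroup (Fin k) F) : Matrix (Fin k) (Fin k) F) *
        (P : Matrix (Fin k) (Fin k) F) = 1 := by
      rw [← Matrix.SpecialLinearGroup.coe_mul, inv_mul_cancel, Matrix.SpecialLinearGroup.coe_one]
    have h2 : (P : Matrix (Fin k) (Fin k) F) *
        ((P⁻¹ : Matrix.SpecialLinearGroup (Fin k) F) : Matrix (Fin k) (Fin k) F) = 1 := by
      rw [← Matrix.SpecialLinearGroup.coe_mul, mul_inv_cancel, Matrix.SpecialLinearGroup.coe_one]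
    have hgM : ((Matrix.SpecialLinearGroup.toGL (P⁻¹ * x * P) : GL (Fin k) F) :
        Matrix (Fin k) (Fin k) F) =
        ((P⁻¹ : Matrix.SpecialLinearGroup (Fin k) F) : Matrix (Fin k) (Fin k) F) *
          (x : Matrix (Fin k) (Fin k) F) * (P : Matrix (Fin k) (Fin k) F) := by
      rw [Matrix.SpecialLinearGroup.coe_GL_coe_matrix, Matrix.SpecialLinearGroup.coe_mul,
        Matrix.SpecialLinearGroup.coe_mul]
    generalize ((P⁻¹ : Matrix.SpecialLinearGroup (Fin k) F) : Matrix (Fin k) (Fin k) F) = Pi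
      at h1 h2 hgM
    generalize (Matrix.SpecialLinearGroup.toGL (P⁻¹ * x * P) : GL (Fin k) F) = g at hP hgM
    have hfix : ∀ y : Fin k → F, (x : Matrix (Fin k) (Fin k) F).mulVec y = y →
        (g : Matrix (Fin k) (Fin k) F).mulVec (Pi.mulVec y) = (1 : F) • Pi.mulVec y := by
      intro y hy
      rw [hgM, Matrix.mulVec_mulVec, Matrix.mul_assoc, h2, Matrix.mul_one, ← Matrix.mulVec_mulVec,
        hy, one_smul]
    have hback : ∀ y : Fin k → F, (P : Matrix (Fin k) (Fin k) F).mulVec (Pi.mulVec y) = y := by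
      intro y
      rw [Matrix.mulVec_mulVec, h2, Matrix.one_mulVec]
    obtain ⟨a, ha⟩ := Cfsg.Agent.Lib.Helper51.Sing.eig_bound hk hK g hP (by
      intro z hz
      apply hns z
      rw [hgM] at hz
      have h3 : (P : Matrix (Fin k) (Fin k) F) * (Pi * (x : Matrix (Fin k) (Fin k) F) *
          (P : Matrix (Fin k) (Fin k) F)) * Pi = (x : Matrix (Fin k) (Fin k) F) := by
        rw [Matrix.mul_assoc Pi, ← Matrix.mul_assoc (P : Matrix (Fin k) (Fin k) F) Pi, h2,
          Matrix.one_mul, Matrix.mul_assoc, h2, Matrix.mul_one]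
      rw [← h3, hz, Matrix.mul_smul, Matrix.mul_one, Matrix.smul_mul, h2]) 1 (Pi.mulVec v)
      (Pi.mulVec w) (by
        intro h0
        apply hv
        rw [← hback v, h0, Matrix.mulVec_zero]) (hfix v hxv) (hfix w hxw)
    apply hw a
    rw [← hback w, ha, Matrix.mulVec_smul, hback]
  · intro hi x hx hns
    obtain ⟨z, hz⟩ := hx
    have hi2 : 2 ≤ Cfsg.Agent.Lib.Helper67.Elus.oq F k := by omega
    have hcop := Cfsg.Agent.Lib.Helper67.Elus.coprime_S6 (F := F) (r := k) hi2
    obtain ⟨c, hc⟩ := Cfsg.Agent.Lib.Helper67.Elus.exists_pow_eq hk.pos hcop z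
    rw [Matrix.SpecialLinearGroup.coe_pow] at hz
    have hz0 : z ≠ 0 := by
      intro h0
      have h1 := congrArg Matrix.det hz
      rw [Matrix.det_pow, x.det_coe, one_pow, h0, zero_smul, Matrix.det_zero] at h1
      exact one_ne_zero h1
    have hc0 : c ≠ 0 := by
      intro h0
      rw [h0, zero_pow hk.ne_zero] at hc
      exact hz0 hc.symm
    have hT : (c⁻¹ • Matrix.toLin' (x : Matrix (Fin k) (Fin k) F) :
        Module.End F (Fin k → F)) ^ k = 1 := by
      rw [smul_pow, ← Cfsg.Agent.Lib.Helper67.Elus.toLin'_pow_B, hz,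
        Cfsg.Agent.Lib.Helper67.Elus.toLin'_smul_one_B, smul_smul, inv_pow, hc,
        inv_mul_cancel₀ hz0, one_smul]
    have hT1 : (c⁻¹ • Matrix.toLin' (x : Matrix (Fin k) (Fin k) F) :
        Module.End F (Fin k → F)) ≠ 1 := by
      intro h1
      apply hns c
      apply Matrix.toLin'.injective
      rw [Cfsg.Agent.Lib.Helper67.Elus.toLin'_smul_one_B, ← h1, smul_smul, mul_inv_cancel₀ hc0,
        one_smul]
    obtain ⟨g, hgN, hgn, hg1⟩ := Cfsg.Agent.Lib.Helper51.Sing.exists_frob hn hK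
    have hS : (Matrix.toLin' (g : Matrix (Fin k) (Fin k) F) : Module.End F (Fin k → F)) ^ k = 1 := by
      rw [← Cfsg.Agent.Lib.Helper67.Elus.toLin'_pow_B, ← Units.val_pow_eq_pow_val, hgn,
        Units.val_one, Matrix.toLin'_one]
      rfl
    have hS1 : (Matrix.toLin' (g : Matrix (Fin k) (Fin k) F) : Module.End F (Fin k → F)) ≠ 1 := by
      intro h1
      apply hg1
      apply Units.ext
      apply Matrix.toLin'.injective
      rw [h1, Units.val_one, Matrix.toLin'_one]
      rfl
    obtain ⟨v, hv⟩ := Cfsg.Agent.Lib.Helper51.Sing.exists_cyclic hn3 hnF hi _ hT hT1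
    obtain ⟨w, hw⟩ := Cfsg.Agent.Lib.Helper51.Sing.exists_cyclic hn3 hnF hi _ hS hS1
    obtain ⟨P0, hP0⟩ := Cfsg.Agent.Lib.Helper51.Sing.conj_of_cyclic _ _ hT hS v w hv hw
    obtain ⟨P, hP⟩ := Cfsg.Agent.Lib.Helper51.Sing.conj_SL hk.pos hcop x c g P0 (by
      intro u
      have h1 := hP0 u
      rw [LinearMap.smul_apply, Matrix.toLin'_apply, Matrix.toLin'_apply, map_smul] at h1
      rw [← h1, smul_smul, mul_inv_cancel₀ hc0, one_smul])
    refine ⟨P, ?_⟩
    rw [Subgroup.mem_comap]
    exact Cfsg.Agent.Lib.Helper51.Sing.smul_mem_normalizer g hgN c hc0 _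
      (by rw [Matrix.SpecialLinearGroup.coe_GL_coe_matrix]; exact hP)

end Cfsg.Agent.S5970
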