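import Cfsg.Statements.S5980
import Cfsg.Agent.Lib.Helper52.TSp.MIN
import Cfsg.Agent.Lib.Helper52.TSp.RK0
import Cfsg.Agent.Lib.Helper52.TSp.TR1
import Cfsg.Agent.Lib.Helper52.TSp.TR2
import Cfsg.Agent.Lib.Helper52.TSp.TR3
import Cfsg.Agent.Lib.Helper52.TSp.GR
import Cfsg.Agent.Lib.Helper52.TSp.RKT
import Cfsg.Agent.Lib.Helper52.TSp.DG
import Cfsg.Agent.Lib.Helper52.TSp.XP
import Cfsg.Agent.Lib.Helper52.TSp.Z
import Cfsg.Agent.Lib.Helper52.TSp.GLC1
import Cfsg.Agent.Lib.Helper52.TSp.GLC2
import Cfsg.Agent.Lib.Helper52.TSp.EV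
import Cfsg.Agent.Lib.Helper52.TSp.SKR
import Cfsg.Agent.Lib.Helper52.TSp.Y1
import Cfsg.Agent.Lib.Helper52.TSp.Y0
import Cfsg.Agent.Lib.Helper52.TSp.KISO
import Cfsg.Agent.Lib.Helper52.TSp.SPC
import Cfsg.Agent.Lib.Helper52.TSp.AR

set_option autoImplicit false
open scoped MatrixGroups
open Cfsg

namespace Cfsg.Agent.S5980

/-- Elements of prime order of PSp_n(q), q odd, and the stabilizers of tensor decompositions Sp_a(q) ⊗ O_b(q). Here `T = PSp_{2d}(F)` for a field `F` with `q` elements, `q` odd, `d ≥ 2`, realised through the matrices preserving the standard alternating form `f`; `2d = a·b` with `a` even, `b ≥ 3`, and the bijection `e` and change of basis `P` exhibit `f` as a non-zero scalar multiple of the tensor product of a non-degenerate alternating form `f₁` on `F^a` and a non-degenerate symmetric bilinear form `f₂` on `F^b`; `H` is the subgroup of `T` stabilizing this tensor decomposition (the elements of `T` in the conjugate by `P` of the group of Kronecker products)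 — a subgroup of type Sp_a(q) ⊗ O^ε_b(q) (maximality is not assumed). Ω is the set of cosets of `H` in `T`, so an element of `T` of prime order `r` (`x ∈ T` with `x^r` scalar, `x` not scalar) fixes a point of Ω exactly when some `T`-conjugate of `x` lies in `H`. Let `r` be a prime dividing the index of `H`. Then every element of `T` of order `r` fixes a point of Ω if and only if `r = 2` and `a = 2`. -/
theorem result {F : Type*} [Field F] [Fintype F] {p : ℕ} [Fact p.Prime] [CharP F p] {q : ℕ} (hq : Fintype.card F = q)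
    (hodd : Odd q) (d : ℕ) (hd : 2 ≤ d) (a b : ℕ) (hab : 2 * d = a * b) (ha : Even a) (ha2 : 2 ≤ a) (hb : 3 ≤ b)
    (e : (Fin d ⊕ Fin d) ≃ Fin a × Fin b) (P : GL (Fin d ⊕ Fin d) F)
    (f₁ : (Fin a → F) → (Fin a → F) → F) (f₂ : (Fin b → F) → (Fin b → F) → F)
    (hf₁ : Cfsg.Geo.IsSymplecticForm f₁) (hf₂ : Cfsg.Geo.IsSymmetricForm f₂)
    (hS : Cfsg.Geo.IsTensorFormStructure id (Cfsg.sympForm d F) f₁ f₂ e P)
    (r : ℕ) [Fact r.Prime]
    (hΩ : r ∣ (Cfsg.Geo.tensorProductSubgroup a b e P).relIndex (Cfsg.spGL d F)) :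
    (∀ x ∈ Cfsg.spGL d F, (∃ z : F, ((x ^ r : GL (Fin d ⊕ Fin d) F) : Matrix (Fin d ⊕ Fin d) (Fin d ⊕ Fin d) F) = z • (1 : Matrix (Fin d ⊕ Fin d) (Fin d ⊕ Fin d) F)) →
      (∀ z : F, (x : Matrix (Fin d ⊕ Fin d) (Fin d ⊕ Fin d) F) ≠ z • (1 : Matrix (Fin d ⊕ Fin d) (Fin d ⊕ Fin d) F)) →
      ∃ g ∈ Cfsg.spGL d F, g⁻¹ * x * g ∈ Cfsg.Geo.tensorProductSubgroup a b e P) ↔ (r = 2 ∧ a = 2) := by
  subst hq
  open Cfsg.Agent.Lib.Helper52.TSp Cfsg.Geo Matrix in
  open scoped Kronecker in
  have h2F : (2 : F) ≠ 0 := by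
    intro h
    have h2 : ringChar F = 2 := by
      have : ringChar F ∣ 2 := by
        rw [← ringChar.spec]; exact_mod_cast h
      rcases (Nat.dvd_prime Nat.prime_two).1 this with h1 | h1
      · exact absurd h1 (CharP.ringChar_ne_one)
      · exact h1
    have := FiniteField.even_card_iff_char_two.1 h2
    rw [Nat.odd_iff] at hodd
    omega
  have hp2 : p ≠ 2 := by
    rintro rfl
    apply h2F
    exact_mod_cast CharP.cast_eq_zero F 2
  obtain ⟨hG1u, hG1s, hG1a⟩ := gram_symplectic f₁ hf₁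
  obtain ⟨hG2u, hG2s⟩ := gram_symmetric f₂ hf₂
  have hT := tensor_eq_map (F := F) e P
  have hSp := spGL_eq_map e P f₁ f₂ hS
  have hrp : (Fact.out : r.Prime) = (Fact.out : r.Prime) := rfl
  have hr : r.Prime := Fact.out
  have hpp : p.Prime := Fact.out
  constructor
  · intro hall
    -- a general consequence of `hall`
    have key : ∀ x ∈ Cfsg.spGL d F, x ^ r = 1 →
        (∀ z : F, (x : Matrix (Fin d ⊕ Fin d) (Fin d ⊕ Fin d) F) ≠ z • 1) →
        (∀ c : F, a ∣ ((x : Matrix (Fin d ⊕ Fin d) (Fin d ⊕ Fin d) F) - c • 1).rank) ∨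
        (∀ c : F, b ≤ ((x : Matrix (Fin d ⊕ Fin d) (Fin d ⊕ Fin d) F) - c • 1).rank) := by
      intro x hx hxr hns
      obtain ⟨g, hg, hmem⟩ := hall x hx ⟨1, by rw [hxr, Units.val_one, one_smul]⟩ hns
      rcases rank_dichotomy e P _ hmem with h | h
      · left; intro c; rw [← rank_conj g x c]; exact h c
      · right; intro c; rw [← rank_conj g x c]; exact h c
    have hrnep : r ≠ p := by
      rintro rfl
      obtain ⟨x, hx, hxr, hns, hrk⟩ := exists_transv (F := F) (d := d) r (by omega)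
      rcases key x hx hxr hns with h | h
      · have := h 1
        rw [hrk, Nat.dvd_one] at this
        omega
      · have := h 1
        rw [hrk] at this
        omega
    by_cases hr2 : r = 2
    · refine ⟨hr2, ?_⟩
      subst hr2
      obtain ⟨x, hx, hxm, hns, hrk, -⟩ := exists_diag_elt (F := F) hd (-1) (by simp)
        (by intro h; apply h2F; linear_combination -h)
      rcases key x hx (hxm 2 (by ring)) hns with h | h
      · have := h 1
        rw [hrk] at this
        have := Nat.le_of_dvd (by norm_num) this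
        omega
      · have := h 1
        rw [hrk] at this
        omega
    exfalso
    by_cases hrq : r ∣ Fintype.card F - 1
    · obtain ⟨ζ, hζ0, hζ1, hζr, hζ2⟩ := exists_root_of_dvd (F := F) r hr hrq
      obtain ⟨x, hx, hxm, hns, hrk, hrk2⟩ := exists_diag_elt (F := F) hd ζ hζ0 hζ1
      rcases key x hx (hxm r hζr) hns with h | h
      · have h1 := h ζ
        rw [hrk2 (hζ2 hr2), hab] at h1
        have h2 : a ∣ a * b := Dvd.intro b rfl
        have h3 : a ∣ 1 := by
          have : a * b - (a * b - 1) = 1 := by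
            have : 1 ≤ a * b := by nlinarith
            omega
          rw [← this]
          exact Nat.dvd_sub h2 h1
        rw [Nat.dvd_one] at h3
        omega
      · have := h 1
        rw [hrk] at this
        omega
    · have hrF : (r : F) ≠ 0 := by
        intro h
        rw [CharP.cast_eq_zero_iff F p r] at h
        exact hrnep ((Nat.prime_dvd_prime_iff_eq hpp hr).1 h).symm
      have hinj : Function.Injective (Th e P : GL (Fin a × Fin b) F ≃* GL (Fin d ⊕ Fin d) F).toMonoidHom :=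
        (Th e P).injective
      apply no_elusive_model h2F ha2 hb (gramMatrix f₁) hG1u hG1s hG1a (gramMatrix f₂) hG2u hG2s r hr
        hr2 hrF hrq
      · have h1 : r ∣ Nat.card (Cfsg.spGL d F) := hΩ.trans (Subgroup.relIndex_dvd_card _ _)
        rw [hSp, Subgroup.card_map_of_injective hinj] at h1
        exact h1
      · intro k hk hkr hk1
        have hx : Th e P k ∈ Cfsg.spGL d F := by
          rw [hSp]; exact Subgroup.mem_map_of_mem _ hk
        have hxr : (Th e P k) ^ r = 1 := by rw [← map_pow, hkr, map_one]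
        have hns : ∀ z : F, ((Th e P k : GL (Fin d ⊕ Fin d) F) :
            Matrix (Fin d ⊕ Fin d) (Fin d ⊕ Fin d) F) ≠ z • 1 := by
          intro z hz
          rw [Th_scalar] at hz
          have h1 : ((k ^ r : GL (Fin a × Fin b) F) : Matrix (Fin a × Fin b) (Fin a × Fin b) F)
              = (z ^ r) • 1 := by
            rw [Units.val_pow_eq_pow_val, hz, smul_pow, one_pow]
          rw [hkr, Units.val_one] at h1
          have hab0 : 0 < a ∧ 0 < b := ⟨by omega, by omega⟩
          have h2 := congrFun (congrFun h1 (⟨0, hab0.1⟩, ⟨0, hab0.2⟩)) (⟨0, hab0.1⟩, ⟨0, hab0.2⟩)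
          simp at h2
          have hz1 := (pow_bij_of_not_dvd (F := F) r hr hrq).2 z h2.symm
          apply hk1
          apply Units.ext
          rw [hz, hz1, one_smul, Units.val_one]
        obtain ⟨g, hg, hmem⟩ := hall _ hx ⟨1, by rw [hxr, Units.val_one, one_smul]⟩ hns
        rw [hSp] at hg
        obtain ⟨g', hg', rfl⟩ := hg
        refine ⟨g', hg', ?_⟩
        rw [hT] at hmem
        obtain ⟨k', hk', hkk⟩ := hmem
        have : k' = g'⁻¹ * k * g' := by
          apply hinj
          rw [hkk]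
          simp only [MulEquiv.coe_toMonoidHom, map_mul, map_inv]
        rw [← this]
        exact hk'
  · rintro ⟨rfl, rfl⟩
    intro x hx hxz hns
    obtain ⟨z, hz⟩ := hxz
    have hbd : b = d := by omega
    have hcop2 : Nat.Coprime 2 p := by
      rw [Nat.coprime_primes Nat.prime_two hpp]; exact hp2.symm
    have hfin : ∀ y ∈ Cfsg.spGL d F, y ∈ tensorProductSubgroup 2 b e P → ∀ m : ℕ, x ^ m = 1 →
        m.Coprime p → (∃ c : GL (Fin d ⊕ Fin d) F,
          (c : Matrix (Fin d ⊕ Fin d) (Fin d ⊕ Fin d) F) * (x : Matrix (Fin d ⊕ Fin d) (Fin d ⊕ Fin d) F)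
            = (y : Matrix (Fin d ⊕ Fin d) (Fin d ⊕ Fin d) F) * (c : Matrix (Fin d ⊕ Fin d) (Fin d ⊕ Fin d) F)) →
        ∃ g ∈ Cfsg.spGL d F, g⁻¹ * x * g ∈ tensorProductSubgroup 2 b e P := by
      intro y hy hyT m hm hmp hc
      obtain ⟨c, hc⟩ := hc
      obtain ⟨g, hg, hgx⟩ := sp_conj_of_gl_conj p x y hx hy m hm hmp c (Units.ext (by
        rw [Units.val_mul, Units.val_mul]; exact hc))
      exact ⟨g, hg, by rw [hgx]; exact hyT⟩
    have hxx : (x : Matrix (Fin d ⊕ Fin d) (Fin d ⊕ Fin d) F) *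
        (x : Matrix (Fin d ⊕ Fin d) (Fin d ⊕ Fin d) F) = z • 1 := by
      rw [← hz, pow_two, Units.val_mul]
    rcases sq_scalar (by omega) x hx z hz with rfl | rfl
    · rw [one_smul] at hxx
      obtain ⟨j, hj⟩ := even_rank h2F x hx hxx
      have hjb : j ≤ b := by
        have h1 := Matrix.rank_le_card_width
          ((x : Matrix (Fin d ⊕ Fin d) (Fin d ⊕ Fin d) F) - (1 : F) • 1)
        rw [hj] at h1
        simp at h1
        omega
      obtain ⟨D, hD1, hD2, hD3⟩ := exists_orth_invol h2F (gramMatrix f₂) hG2u hG2s j hjb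
      obtain ⟨k, hk1, hk2, hk3⟩ := kron_mem_IsoM (gramMatrix f₁) (gramMatrix f₂) 1 D (by simp) hD1
      have hkk : k * k = 1 := by
        apply Units.ext
        rw [Units.val_mul, hk3, ← Matrix.mul_kronecker_mul, ← Units.val_mul, ← Units.val_mul, hD2]
        simp
      refine hfin (Th e P k) (by rw [hSp]; exact Subgroup.mem_map_of_mem _ hk1)
        (by rw [hT]; exact Subgroup.mem_map_of_mem _ hk2) 2
        (by apply Units.ext; rw [hz, one_smul, Units.val_one]) hcop2 ?_
      apply conj_of_sq_one h2F _ _ hxx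
      · rw [← Units.val_mul, ← map_mul, hkk, map_one, Units.val_one]
      · rw [rank_Th, hk3, hj]
        have := rank_kron_scalar_left (a := 2) (1 : F) 1 (D : Matrix (Fin b) (Fin b) F)
        rw [one_smul F (D : Matrix (Fin b) (Fin b) F), hD3,
          one_smul F (1 : Matrix (Fin 2) (Fin 2) F)] at this
        rw [Units.val_one, this]
        ring
    · have hxx' : (x : Matrix (Fin d ⊕ Fin d) (Fin d ⊕ Fin d) F) *
          (x : Matrix (Fin d ⊕ Fin d) (Fin d ⊕ Fin d) F) = -1 := by rw [hxx]; simp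
      obtain ⟨J, hJ1, hJ2⟩ := exists_J (gramMatrix f₁) hG1s hG1a
      obtain ⟨k, hk1, hk2, hk3⟩ := kron_mem_IsoM (gramMatrix f₁) (gramMatrix f₂) J 1 hJ1 (by simp)
      have hkk : ((k * k : GL (Fin 2 × Fin b) F) : Matrix (Fin 2 × Fin b) (Fin 2 × Fin b) F)
          = (-1 : F) • 1 := by
        rw [Units.val_mul, hk3, ← Matrix.mul_kronecker_mul, hJ2, Units.val_one, one_mul]
        have h1 : (-1 : Matrix (Fin 2) (Fin 2) F) = (-1 : F) • 1 := by simp
        rw [h1, Matrix.smul_kronecker, Matrix.one_kronecker_one]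
      have hy : Th e P k ∈ Cfsg.spGL d F := by rw [hSp]; exact Subgroup.mem_map_of_mem _ hk1
      have hyy : ((Th e P k : GL (Fin d ⊕ Fin d) F) : Matrix (Fin d ⊕ Fin d) (Fin d ⊕ Fin d) F) *
          ((Th e P k : GL (Fin d ⊕ Fin d) F) : Matrix (Fin d ⊕ Fin d) (Fin d ⊕ Fin d) F) = -1 := by
        rw [← Units.val_mul, ← map_mul, (Th_scalar e P (k * k) (-1)).2 hkk]
        simp
      refine hfin (Th e P k) hy (by rw [hT]; exact Subgroup.mem_map_of_mem _ hk2) 4 ?_ ?_ ?_
      · apply Units.ext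
        have : x ^ 4 = x ^ 2 * x ^ 2 := by group
        rw [this, Units.val_mul, hz]
        simp
      · have : (4 : ℕ) = 2 ^ 2 := by norm_num
        rw [this]
        exact Nat.Coprime.pow_left 2 hcop2
      · exact conj_of_sq_neg_one h2F _ _ hxx' hyy (rank_sub_eq_rank_add x hx hxx')
          (rank_sub_eq_rank_add _ hy hyy)

end Cfsg.Agent.S5980
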