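-- Statement S5997: see Cfsg/Statements/S5997.lean (frozen statement).
import Cfsg.Statements.S5997
import Cfsg.Agent.Lib.Helper67.QuatMat
import Cfsg.Agent.Lib.Helper67.SylowTools
import Cfsg.Agent.Lib.Helper41.QuadForm

set_option autoImplicit false
open Cfsg

namespace Cfsg.Agent.S5997

open Cfsg.Agent.Lib.Helper67 Cfsg.Agent.Lib.Helper67.QuatMat Matrix

theorem quat_words (q : QuaternionGroup 2) :
    ∃ k : ℕ, q = (QuaternionGroup.a 1) ^ k ∨ q = QuaternionGroup.xa 0 * (QuaternionGroup.a 1) ^ k := by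
  rcases q with i | i
  · refine ⟨i.val, Or.inl ?_⟩
    rw [QuaternionGroup.a_one_pow, ZMod.natCast_zmod_val]
  · refine ⟨i.val, Or.inr ?_⟩
    rw [QuaternionGroup.a_one_pow, ZMod.natCast_zmod_val, QuaternionGroup.xa_mul_a, zero_add]

variable {F : Type*} [Field F]

theorem poly_commute (Z : Matrix (Fin 2) (Fin 2) F) (α β γ δ : F) :
    (α • Z + β • 1) * (γ • Z + δ • 1) = (γ • Z + δ • 1) * (α • Z + β • 1) := by
  ext a b
  fin_cases a <;> fin_cases b <;> simp [Matrix.mul_apply, Fin.sum_univ_two] <;> ring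

/-- if `A² = Z` and `tr A ≠ 0` then `A` is a polynomial in `Z` -/
theorem poly_of_trace_ne (A Z : Matrix (Fin 2) (Fin 2) F) (hA : A * A = Z) (ht : A.trace ≠ 0) :
    A = A.trace⁻¹ • Z + (A.trace⁻¹ * A.det) • 1 := by
  have hc := cayley A
  rw [hA] at hc
  rw [hc, smul_sub, smul_smul, smul_smul, inv_mul_cancel₀ ht, one_smul]
  abel

/-- if `A² = Z`, `tr A = 0`, `Z² = 1`, `Z ≠ 1` then `Z = -1` -/
theorem neg_one_of_trace_eq (A Z : Matrix (Fin 2) (Fin 2) F) (hA : A * A = Z) (ht : A.trace = 0)
    (hZ : Z * Z = 1) (hZ1 : Z ≠ 1) : Z = -1 := by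
  have hc := cayley A
  rw [hA, ht, zero_smul, zero_sub] at hc
  have h0 : Z * Z = (A.det * A.det) • (1 : Matrix (Fin 2) (Fin 2) F) := by
    rw [hc, neg_mul_neg, smul_mul_assoc, one_mul, smul_smul]
  have h1 : (A.det * A.det) • (1 : Matrix (Fin 2) (Fin 2) F) = (1 : F) • 1 := by
    rw [one_smul, ← h0, hZ]
  have h2 := smul_one_inj h1
  have h3 : (A.det - 1) * (A.det + 1) = 0 := by linear_combination h2
  rcases mul_eq_zero.1 h3 with h4 | h4
  · have : A.det = 1 := by linear_combination h4
    rw [hc, this, one_smul]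
  · exfalso
    apply hZ1
    have : A.det = -1 := by linear_combination h4
    rw [hc, this, neg_smul, one_smul, neg_neg]

theorem exists_pair (R : Subgroup (GL (Fin 2) F)) (hR : Nonempty (↥R ≃* QuaternionGroup 2)) :
    ∃ i j : GL (Fin 2) F, i ∈ R ∧ j ∈ R ∧
      QPair (i : Matrix (Fin 2) (Fin 2) F) (j : Matrix (Fin 2) (Fin 2) F) ∧
      ∀ h ∈ R, ∃ k : ℕ, h = i ^ k ∨ h = j * i ^ k := by
  obtain ⟨e⟩ := hR
  set i' : ↥R := e.symm (QuaternionGroup.a 1) with hi'
  set j' : ↥R := e.symm (QuaternionGroup.xa 0) with hj'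
  have r1 : i' * i' = j' * j' := by
    rw [hi', hj', ← map_mul, ← map_mul]; congr 1
  have r2 : (i' * i') * (i' * i') = 1 := by
    rw [hi', ← map_mul, ← map_mul]
    have : ((QuaternionGroup.a 1 : QuaternionGroup 2) * QuaternionGroup.a 1) *
        (QuaternionGroup.a 1 * QuaternionGroup.a 1) = 1 := by decide
    rw [this, map_one]
  have r3 : i' * i' ≠ 1 := by
    rw [hi', ← map_mul]
    intro h
    have h' := (MulEquiv.map_eq_one_iff e.symm).1 h
    revert h'
    decide
  have r4 : i' * j' = j' * i' * (i' * i') := by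
    rw [hi', hj', ← map_mul, ← map_mul, ← map_mul, ← map_mul]; congr 1
  set I : Matrix (Fin 2) (Fin 2) F := ((i' : GL (Fin 2) F) : Matrix (Fin 2) (Fin 2) F) with hI
  set J : Matrix (Fin 2) (Fin 2) F := ((j' : GL (Fin 2) F) : Matrix (Fin 2) (Fin 2) F) with hJ
  have m1 : I * I = J * J := by
    have := congrArg (fun x : ↥R => ((x : GL (Fin 2) F) : Matrix (Fin 2) (Fin 2) F)) r1
    simpa using this
  have m2 : (I * I) * (I * I) = 1 := by
    have := congrArg (fun x : ↥R => ((x : GL (Fin 2) F) : Matrix (Fin 2) (Fin 2) F)) r2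
    simpa using this
  have m3 : I * I ≠ 1 := by
    intro h
    apply r3
    apply Subtype.ext
    apply Units.ext
    simpa using h
  have m4 : I * J = J * I * (I * I) := by
    have := congrArg (fun x : ↥R => ((x : GL (Fin 2) F) : Matrix (Fin 2) (Fin 2) F)) r4
    simpa using this
  have hnc : I * J ≠ J * I := by
    intro h
    apply r3
    have h5 : i' * j' = j' * i' := by
      apply Subtype.ext
      apply Units.ext
      simpa using h
    rw [h5] at r4
    exact (mul_eq_left.1 r4.symm)
  have hZ : I * I = -1 := by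
    by_cases ht : I.trace = 0
    · exact neg_one_of_trace_eq I _ rfl ht m2 m3
    · by_cases ht' : J.trace = 0
      · exact neg_one_of_trace_eq J _ m1.symm ht' m2 m3
      · exfalso
        apply hnc
        rw [poly_of_trace_ne I _ rfl ht, poly_of_trace_ne J _ m1.symm ht']
        exact poly_commute _ _ _ _ _
  refine ⟨i', j', i'.2, j'.2, ⟨hZ, by rw [← m1, hZ], by rw [m4, hZ, mul_neg, mul_one]⟩, ?_⟩
  intro h hh
  obtain ⟨k, hk⟩ := quat_words (e ⟨h, hh⟩)
  refine ⟨k, ?_⟩
  rcases hk with hk | hk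
  · left
    have := congrArg e.symm hk
    rw [MulEquiv.symm_apply_apply, map_pow] at this
    have h6 := congrArg (Subtype.val) this
    simpa using h6
  · right
    have := congrArg e.symm hk
    rw [MulEquiv.symm_apply_apply, map_mul, map_pow] at this
    have h6 := congrArg (Subtype.val) this
    simpa using h6

theorem commute_of_normalizer {G : Type*} [Group G] (R : Subgroup G) [Finite R]
    (hcard : Nat.card R = 8) (z : G) (hzR : z ∈ R) (hz1 : z ≠ 1) (y : G) (hzy : y * z * y⁻¹ = z)
    (hy : y ∈ Subgroup.normalizer (R : Set G)) (r : ℕ) [Fact r.Prime] (hyr : y ^ r = 1)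
    (hr2 : r ≠ 2) (hr3 : r ≠ 3) : ∀ h ∈ R, y * h * y⁻¹ = h := by
  classical
  haveI : Fintype R := Fintype.ofFinite R
  let f : Function.End ↥R :=
    fun h => ⟨y * h.1 * y⁻¹, (Subgroup.mem_normalizer_iff.1 hy h.1).1 h.2⟩
  have hf1 : ∀ h : ↥R, (f h).1 = y * h.1 * y⁻¹ := fun h => rfl
  have hfk : ∀ (k : ℕ) (h : ↥R), ((f ^ k) h).1 = y ^ k * h.1 * (y ^ k)⁻¹ := by
    intro k
    induction k with
    | zero => intro h; simp only [pow_zero, one_mul, inv_one, mul_one]; rfl
    | succ k ih =>
      intro h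
      have : (f ^ (k + 1)) h = f ((f ^ k) h) := by rw [pow_succ']; rfl
      rw [this, hf1, ih, pow_succ']
      group
  have hf : f ^ r ^ 1 = 1 := by
    funext h
    apply Subtype.ext
    rw [pow_one, hfk, hyr]
    simp only [one_mul, inv_one, mul_one]
    rfl
  have hmod := Equiv.Perm.card_fixedPoints_modEq hf
  let C : Subgroup ↥R :=
    { carrier := Function.fixedPoints f
      mul_mem' := by
        intro a b ha hb
        have ha' : y * a.1 * y⁻¹ = a.1 := congrArg Subtype.val ha
        have hb' : y * b.1 * y⁻¹ = b.1 := congrArg Subtype.val hb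
        apply Subtype.ext
        change y * (a.1 * b.1) * y⁻¹ = a.1 * b.1
        calc y * (a.1 * b.1) * y⁻¹ = (y * a.1 * y⁻¹) * (y * b.1 * y⁻¹) := by group
          _ = _ := by rw [ha', hb']
      one_mem' := by
        apply Subtype.ext
        change y * 1 * y⁻¹ = 1
        group
      inv_mem' := by
        intro a ha
        have ha' : y * a.1 * y⁻¹ = a.1 := congrArg Subtype.val ha
        apply Subtype.ext
        change y * (a.1)⁻¹ * y⁻¹ = (a.1)⁻¹
        calc y * (a.1)⁻¹ * y⁻¹ = (y * a.1 * y⁻¹)⁻¹ := by group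
          _ = _ := by rw [ha'] }
  have hCd : Nat.card C ∣ 8 := hcard ▸ Subgroup.card_subgroup_dvd_card C
  have hCeq : Fintype.card (Function.fixedPoints f) = Nat.card C := by
    rw [← Nat.card_eq_fintype_card]; rfl
  have hR8 : Fintype.card ↥R = 8 := by rw [← Nat.card_eq_fintype_card]; exact hcard
  rw [hCeq, hR8] at hmod
  have h2le : 1 < Nat.card C := by
    rw [Subgroup.one_lt_card_iff_ne_bot]
    intro hbot
    have hzC : (⟨z, hzR⟩ : ↥R) ∈ C := Subtype.ext hzy
    rw [hbot, Subgroup.mem_bot] at hzC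
    exact hz1 (congrArg Subtype.val hzC)
  have hrp : r.Prime := Fact.out
  have hC8 : Nat.card C = 8 := by
    have hle : Nat.card C ≤ 8 := Nat.le_of_dvd (by norm_num) hCd
    have hd : r ∣ 8 - Nat.card C := (Nat.modEq_iff_dvd' hle).1 hmod.symm
    generalize Nat.card C = d at *
    have h5 : 5 ≤ r := by
      have := hrp.two_le
      by_contra hlt
      have : r = 4 := by omega
      rw [this] at hrp
      exact absurd hrp (by norm_num)
    interval_cases d
    · exfalso; have := Nat.le_of_dvd (by norm_num) hd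
      have h6 : r = 5 ∨ r = 6 := by omega
      rcases h6 with h6 | h6
      · rw [h6] at hd; revert hd; decide
      · rw [h6] at hrp; exact absurd hrp (by norm_num)
    · exfalso; revert hCd; decide
    · exfalso; have := Nat.le_of_dvd (by norm_num) hd; omega
    · exfalso; revert hCd; decide
    · exfalso; revert hCd; decide
    · exfalso; revert hCd; decide
    · rfl
  have hCtop : C = ⊤ := Subgroup.eq_top_of_card_eq C (by rw [hC8, hcard])
  intro h hh
  have : (⟨h, hh⟩ : ↥R) ∈ C := by rw [hCtop]; trivial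
  exact congrArg Subtype.val this

theorem mem_sl_iff (x : GL (Fin 2) F) :
    x ∈ Cfsg.Geo.specialLinear (Fin 2) F ↔ (x : Matrix (Fin 2) (Fin 2) F).det = 1 := by
  unfold Cfsg.Geo.specialLinear
  rw [MonoidHom.mem_ker, Units.ext_iff]
  rfl

theorem conj_of_trace [Fintype F] (hodd : Fintype.card F % 2 = 1) (x w : GL (Fin 2) F)
    (hx : x ∈ Cfsg.Geo.specialLinear (Fin 2) F) (hw : w ∈ Cfsg.Geo.specialLinear (Fin 2) F)
    (ht : (x : Matrix (Fin 2) (Fin 2) F).trace ^ 2 ≠ 4)
    (htw : (w : Matrix (Fin 2) (Fin 2) F).trace = (x : Matrix (Fin 2) (Fin 2) F).trace) :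
    ∃ g ∈ Cfsg.Geo.specialLinear (Fin 2) F, g⁻¹ * x * g = w := by
  rw [mem_sl_iff] at hx hw
  let X : Matrix.SpecialLinearGroup (Fin 2) F := ⟨(x : Matrix (Fin 2) (Fin 2) F), hx⟩
  let W : Matrix.SpecialLinearGroup (Fin 2) F := ⟨(w : Matrix (Fin 2) (Fin 2) F), hw⟩
  obtain ⟨P, hP⟩ := Cfsg.Agent.Lib.Helper41.sl2_conj_of_trace_eq hodd X W ht htw
  refine ⟨(Matrix.SpecialLinearGroup.toGL P)⁻¹, ?_, ?_⟩
  · apply Subgroup.inv_mem
    rw [mem_sl_iff]
    exact P.2
  · rw [inv_inv]
    have h1 : w * Matrix.SpecialLinearGroup.toGL P = Matrix.SpecialLinearGroup.toGL P * x := by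
      apply Units.ext
      have h2 : W * P = P * X := by rw [hP]; group
      exact congrArg Subtype.val h2
    rw [← h1]
    group

/-- Elements of prime order of PSL_2(p) and the normalizer of a quaternion subgroup. Here `T = PSL_2(F)` for the field `F` with `p` elements, `p ≥ 5` prime; `R` is a subgroup of GL_2(F) isomorphic to the quaternion group of order 8 (an absolutely irreducible 2-group of symplectic type), and `H` is the subgroup of matrices of determinant 1 normalizing `R` — a subgroup of type 2^{1+2}.O₂⁻(2), isomorphic modulo scalars to A₄ or S₄ (maximality is not assumed). Ω is the set of cosets of `H` in `T`, so an element of `T` of prime order `r` (a matrix `x` of determinant 1 with `x^r` scalar, `x` not scalar) fixes a point of Ω exactly when some conjugate of `x` by a matrix of determinant 1 normalizes `R`. Let `r` be a prime dividing the index of `H`. Then every element of `T` of order `r` fixes a point of Ω if and only if `r = 2` or `r = 3`. -/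
theorem result {F : Type*} [Field F] [Fintype F] {p : ℕ} [Fact p.Prime] [CharP F p] (hF : Fintype.card F = p) (hp : 5 ≤ p)
    (R : Subgroup (GL (Fin 2) F)) (hR : Nonempty (↥R ≃* QuaternionGroup 2))
    (r : ℕ) [Fact r.Prime]
    (hΩ : r ∣ (Cfsg.Geo.subgroupNormalizer R).relIndex (Cfsg.Geo.specialLinear (Fin 2) F)) :
    (∀ x ∈ Cfsg.Geo.specialLinear (Fin 2) F, (∃ z : F, ((x ^ r : GL (Fin 2) F) : Matrix (Fin 2) (Fin 2) F) = z • (1 : Matrix (Fin 2) (Fin 2) F)) →
      (∀ z : F, (x : Matrix (Fin 2) (Fin 2) F) ≠ z • (1 : Matrix (Fin 2) (Fin 2) F)) →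
      ∃ g ∈ Cfsg.Geo.specialLinear (Fin 2) F, g⁻¹ * x * g ∈ Cfsg.Geo.subgroupNormalizer R) ↔ (r = 2 ∨ r = 3) := by
  classical
  have hpp : p.Prime := Fact.out
  have hrp : r.Prime := Fact.out
  have hn0 : ∀ n : ℕ, 0 < n → n < 5 → ((n : ℕ) : F) ≠ 0 := by
    intro n h0 h5 h
    rw [CharP.cast_eq_zero_iff F p] at h
    have := Nat.le_of_dvd h0 h
    omega
  have h2 : (2 : F) ≠ 0 := by exact_mod_cast hn0 2 (by norm_num) (by norm_num)
  have h3 : (3 : F) ≠ 0 := by exact_mod_cast hn0 3 (by norm_num) (by norm_num)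
  have h4 : (4 : F) ≠ 0 := by exact_mod_cast hn0 4 (by norm_num) (by norm_num)
  have hodd : Fintype.card F % 2 = 1 := by
    rw [hF]
    rcases hpp.eq_two_or_odd with h | h
    · omega
    · exact h
  obtain ⟨i, j, hiR, hjR, hq, hgen⟩ := exists_pair R hR
  have hleN : R ≤ Cfsg.Geo.subgroupNormalizer R := Subgroup.le_normalizer
  constructor
  · -- only `2` and `3`
    intro H
    by_contra hcon
    push Not at hcon
    obtain ⟨hr2, hr3⟩ := hcon
    have hd : r ∣ Nat.card ↥(Cfsg.Geo.specialLinear (Fin 2) F) :=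
      hΩ.trans (Subgroup.relIndex_dvd_card _ _)
    obtain ⟨x', hx'⟩ := exists_prime_orderOf_dvd_card' r hd
    have hxr : (x' : GL (Fin 2) F) ^ r = 1 := by
      have := pow_orderOf_eq_one x'
      rw [hx'] at this
      exact_mod_cast congrArg Subtype.val this
    have hdet : ((x' : GL (Fin 2) F) : Matrix (Fin 2) (Fin 2) F).det = 1 := (mem_sl_iff _).1 x'.2
    have hns : ∀ c : F, ((x' : GL (Fin 2) F) : Matrix (Fin 2) (Fin 2) F) ≠
        c • (1 : Matrix (Fin 2) (Fin 2) F) := by
      intro c hc
      rw [hc] at hdet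
      have hc2 : c * c = 1 := by
        rw [Matrix.det_fin_two] at hdet
        simpa using hdet
      have hsq : x' ^ 2 = 1 := by
        apply Subtype.ext
        apply Units.ext
        simp only [Subgroup.coe_pow, Units.val_pow_eq_pow_val, Subgroup.coe_one, Units.val_one]
        rw [hc, pow_two, smul_mul_assoc, one_mul, smul_smul, hc2, one_smul]
      have := orderOf_dvd_of_pow_eq_one hsq
      rw [hx'] at this
      exact hr2 ((Nat.prime_dvd_prime_iff_eq hrp Nat.prime_two).1 this)
    obtain ⟨g, -, hy⟩ := H x' x'.2 ⟨1, by rw [hxr]; simp⟩ hns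
    set y : GL (Fin 2) F := g⁻¹ * x' * g with hydef
    have hyr : y ^ r = 1 := by
      have : y = g⁻¹ * x' * (g⁻¹)⁻¹ := by rw [inv_inv]
      rw [this, conj_pow, hxr]
      group
    have hcard : Nat.card R = 8 := by
      obtain ⟨e⟩ := hR
      rw [Nat.card_congr e.toEquiv, Nat.card_eq_fintype_card, QuaternionGroup.card]
    have hzval : ((i * i : GL (Fin 2) F) : Matrix (Fin 2) (Fin 2) F) = -1 := hq.sqI
    have hcomm := commute_of_normalizer R hcard (i * i) (R.mul_mem hiR hiR)
      (by
        intro h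
        have h5 : (-1 : Matrix (Fin 2) (Fin 2) F) = 1 := by rw [← hzval, h]; rfl
        have h6 := congrFun (congrFun h5 0) 0
        simp at h6
        apply h2
        linear_combination (-1 : F) * h6)
      y
      (by
        rw [mul_inv_eq_iff_eq_mul]
        apply Units.ext
        rw [Units.val_mul, Units.val_mul (i * i), hzval]
        simp)
      hy r hyr hr2 hr3
    have hcI : (y : Matrix (Fin 2) (Fin 2) F) * (i : Matrix (Fin 2) (Fin 2) F) =
        (i : Matrix (Fin 2) (Fin 2) F) * (y : Matrix (Fin 2) (Fin 2) F) := by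
      have := hcomm i hiR
      rw [mul_inv_eq_iff_eq_mul] at this
      exact congrArg Units.val this
    have hcJ : (y : Matrix (Fin 2) (Fin 2) F) * (j : Matrix (Fin 2) (Fin 2) F) =
        (j : Matrix (Fin 2) (Fin 2) F) * (y : Matrix (Fin 2) (Fin 2) F) := by
      have := hcomm j hjR
      rw [mul_inv_eq_iff_eq_mul] at this
      exact congrArg Units.val this
    obtain ⟨c, hc⟩ := hq.scalar_of_commute h2 _ hcI hcJ
    apply hns c
    have hx : (x' : GL (Fin 2) F) = g * y * g⁻¹ := by rw [hydef]; group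
    rw [hx, Units.val_mul, Units.val_mul, hc, mul_smul_comm, mul_one, smul_mul_assoc,
      ← Units.val_mul, mul_inv_cancel, Units.val_one]
  · rintro (rfl | rfl)
    · -- involutions
      intro x hx ⟨z, hz⟩ hns
      have hdet := (mem_sl_iff x).1 hx
      rw [Units.val_pow_eq_pow_val, pow_two] at hz
      have ht := trace_of_sq_scalar _ hdet z hz hns
      obtain ⟨g, hg, hgx⟩ := conj_of_trace hodd x i hx ((mem_sl_iff i).2 (hq.det_I h2))
        (by rw [ht]; simpa using h4.symm) (by rw [ht, hq.trace_I h2])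
      exact ⟨g, hg, by rw [hgx]; exact hleN hiR⟩
    · -- elements of order three
      intro x hx ⟨z, hz⟩ hns
      have hdet := (mem_sl_iff x).1 hx
      rw [Units.val_pow_eq_pow_val, pow_succ, pow_two] at hz
      have ht := trace_of_cube_scalar _ hdet z hz hns
      -- the Hurwitz unit
      set u : GL (Fin 2) F := Matrix.SpecialLinearGroup.toGL
        (⟨QPair.U (i : Matrix (Fin 2) (Fin 2) F) (j : Matrix (Fin 2) (Fin 2) F), hq.det_U h2⟩ :
          Matrix.SpecialLinearGroup (Fin 2) F) with hu
      have huval : (u : Matrix (Fin 2) (Fin 2) F) =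
          QPair.U (i : Matrix (Fin 2) (Fin 2) F) (j : Matrix (Fin 2) (Fin 2) F) := rfl
      have hui : u * i * u⁻¹ = j := by
        rw [mul_inv_eq_iff_eq_mul]
        apply Units.ext
        rw [Units.val_mul, Units.val_mul, huval]
        exact hq.U_mul_I
      have huj : u * j * u⁻¹ = i * j := by
        rw [mul_inv_eq_iff_eq_mul]
        apply Units.ext
        rw [Units.val_mul, Units.val_mul, Units.val_mul, huval]
        exact hq.U_mul_J
      have huN : ∀ h ∈ R, u * h * u⁻¹ ∈ R := by
        intro h hh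
        obtain ⟨k, rfl | rfl⟩ := hgen h hh
        · rw [← conj_pow, hui]; exact R.pow_mem hjR k
        · have : u * (j * i ^ k) * u⁻¹ = (u * j * u⁻¹) * (u * i * u⁻¹) ^ k := by
            rw [conj_pow]; group
          rw [this, hui, huj]
          exact R.mul_mem (R.mul_mem hiR hjR) (R.pow_mem hjR k)
      have h14 : (1 : F) ^ 2 ≠ 4 := by
        intro h
        apply h3
        linear_combination (-1 : F) * h
      rcases ht with ht | ht
      · obtain ⟨g, hg, hgx⟩ := conj_of_trace hodd x u hx ((mem_sl_iff u).2 (hq.det_U h2))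
          (by rw [ht]; exact h14) (by rw [ht, huval, hq.trace_U h2])
        refine ⟨g, hg, ?_⟩
        rw [hgx]
        exact mem_normalizer_of_conj_mem R u huN
      · obtain ⟨g, hg, hgx⟩ := conj_of_trace hodd x (-u) hx
          ((mem_sl_iff (-u)).2 (by
            rw [Units.val_neg, Matrix.det_neg, huval, hq.det_U h2]; simp))
          (by rw [ht]; simpa using h14)
          (by rw [ht, Units.val_neg, Matrix.trace_neg, huval, hq.trace_U h2])
        refine ⟨g, hg, ?_⟩
        rw [hgx]
        apply mem_normalizer_of_conj_mem R (-u)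
        intro h hh
        have : -u * h * (-u)⁻¹ = u * h * u⁻¹ := by
          rw [mul_inv_eq_iff_eq_mul]
          have : u * h * u⁻¹ * -u = -(u * h * u⁻¹ * u) := by rw [mul_neg]
          rw [this, inv_mul_cancel_right, neg_mul]
        rw [this]
        exact huN h hh

end Cfsg.Agent.S5997
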