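import Cfsg.Statements.S5999
import Cfsg.Agent.Lib.Helper89.X3.A4U
import Cfsg.Agent.Lib.Helper62.X3.ADJU
import Cfsg.Agent.Lib.Helper22.X3.C1
import Cfsg.Agent.Lib.Helper74.X3.C2
import Cfsg.Agent.Lib.Helper4.X3.C3
import Cfsg.Agent.Lib.Helper89.X3.DG2
import Cfsg.Agent.Lib.Helper89.X3.DG3
import Cfsg.Agent.Lib.Helper89.X3.DGU
import Cfsg.Agent.Lib.Helper4.X3.E1
import Cfsg.Agent.Lib.Helper74.X3.E2
import Cfsg.Agent.Lib.Helper22.X3.E3
import Cfsg.Agent.Lib.Helper62.X3.ETAU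
import Cfsg.Agent.Lib.Helper89.X3.I2U
import Cfsg.Agent.Lib.Helper84.X3.N1
import Cfsg.Agent.Lib.Helper84.X3.N2
import Cfsg.Agent.Lib.Helper22.X3.OM
import Cfsg.Agent.Lib.Helper74.X3.ZS
import Cfsg.Agent.Lib.Helper62.X3.SCU

set_option autoImplicit false
open scoped MatrixGroups
open Cfsg

namespace Cfsg.Agent.S5999

open Cfsg.Agent.Lib.Helper99.X3

section aux
variable {F : Type*} [Field F]

local notation "M3" => Matrix (Fin 3) (Fin 3) F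

theorem det_one_of_mem {x : GL (Fin 3) F} (hx : x ∈ Cfsg.Geo.specialLinear (Fin 3) F) :
    (x : M3).det = 1 := by
  have h : Matrix.GeneralLinearGroup.det x = 1 := hx
  have := congrArg Units.val h
  simpa using this

theorem cube_of_pow {x : GL (Fin 3) F} (hx : x ∈ Cfsg.Geo.specialLinear (Fin 3) F) (r : ℕ) (z : F)
    (hz : ((x ^ r : GL (Fin 3) F) : M3) = z • (1 : M3)) : z ^ 3 = 1 := by
  have h1 := det_one_of_mem hx
  have h2 : ((x ^ r : GL (Fin 3) F) : M3).det = 1 := by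
    rw [Units.val_pow_eq_pow_val, Matrix.det_pow, h1, one_pow]
  rw [hz, Matrix.det_smul, Matrix.det_one] at h2
  simpa using h2

/-- a scalar multiple of an invertible matrix as an element of `GL` -/
theorem exists_smul (c : F) (hc : c ≠ 0) (x : GL (Fin 3) F) : ∃ n : GL (Fin 3) F, (n : M3) = c • (x : M3) := by
  refine ⟨⟨c • (x : M3), c⁻¹ • ((x⁻¹ : GL (Fin 3) F) : M3), ?_, ?_⟩, rfl⟩
  · rw [smul_mul_smul_comm, mul_inv_cancel₀ hc, one_smul]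
    exact x.mul_inv
  · rw [smul_mul_smul_comm, inv_mul_cancel₀ hc, one_smul]
    exact x.inv_mul

theorem pow_succ_of_cube {q : ℕ} (hq3 : q % 3 = 2) (c : F) (hc : c ^ 3 = 1) : c ^ (q + 1) = 1 := by
  obtain ⟨m, hm⟩ : 3 ∣ q + 1 := by omega
  rw [hm, pow_mul, hc, one_pow]

/-- the case `r = 2` -/
theorem case2 [Fintype F] {q : ℕ} (hF : Fintype.card F = q ^ 2) (hq3 : q % 3 = 2) (hq2 : q % 2 = 1)
    (h2 : (2 : F) ≠ 0) {R : Subgroup (GL (Fin 3) F)} {ζ : F} {P a b : GL (Fin 3) F}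
    (h : Std R ζ P a b) (hP : P ∈ Cfsg.GU 3 F q) (x : GL (Fin 3) F)
    (hx : x ∈ Cfsg.GU 3 F q ⊓ Cfsg.Geo.specialLinear (Fin 3) F) (z : F)
    (hz : ((x ^ 2 : GL (Fin 3) F) : M3) = z • (1 : M3)) (hns : ∀ z : F, (x : M3) ≠ z • (1 : M3)) :
    ∃ g ∈ Cfsg.GU 3 F q ⊓ Cfsg.Geo.specialLinear (Fin 3) F, g⁻¹ * x * g ∈ Cfsg.Geo.subgroupNormalizer R := by
  have hz3 := cube_of_pow hx.2 2 z hz
  have hz0 : z ≠ 0 := by
    rintro rfl
    simp at hz3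
  obtain ⟨y, hyx⟩ := exists_smul z hz0 x
  have hyU : y ∈ Cfsg.GU 3 F q := SCU hF x y hx.1 z (pow_succ_of_cube hq3 z hz3) hyx
  have hy : (y : M3) ^ 2 = 1 := by
    rw [hyx, smul_pow, ← Units.val_pow_eq_pow_val, hz, smul_smul]
    rw [show z ^ 2 * z = z ^ 3 by ring, hz3, one_smul]
  obtain ⟨Q₀, l₀, hl₀, hQ₀⟩ := DG2 h2 _ hy
  have hl₀' : ∀ i, l₀ i ^ (q + 1) = 1 := by
    intro i
    obtain ⟨m, hm⟩ : 2 ∣ q + 1 := by omega
    rcases hl₀ i with h | h <;> rw [h, hm, pow_mul] <;> simp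
  obtain ⟨Q, hQU, l, hl, hQ⟩ := DGU hF y hyU Q₀ l₀ hl₀' hQ₀
  have hl' : ∀ i, l i = 1 ∨ l i = -1 := by
    intro i
    obtain ⟨j, hj⟩ := hl i
    rw [hj]; exact hl₀ j
  have hxQ : (x : M3) = z ^ 2 • ((Q : M3) * Matrix.diagonal l * ((Q⁻¹ : GL (Fin 3) F) : M3)) := by
    rw [← hQ, hyx, smul_smul, show z ^ 2 * z = z ^ 3 by ring, hz3, one_smul]
  have hnl : ¬ (l 0 = l 1 ∧ l 1 = l 2) := by
    rintro ⟨h01, h12⟩
    apply hns (z ^ 2 * l 0)
    have hd : Matrix.diagonal l = l 0 • (1 : M3) := by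
      ext i j
      fin_cases i <;> fin_cases j <;> simp [Matrix.diagonal, h01, h12]
    rw [hxQ, hd]
    simp [smul_smul]
  obtain ⟨c, T, hTU, hc, hT⟩ := I2U hF h2 l hl' hnl
  refine ADJU hF R P hP x (Q * T) (mul_mem hQU hTU) (z ^ 2 * c) T0 ?_ ?_ (fun n hn => N2 h n _ hn)
  · intro d
    ext i j
    fin_cases i <;> fin_cases j <;> simp [T0, Matrix.mul_apply, Matrix.diagonal]
  · rw [hxQ, hT]
    simp only [mul_inv_rev, Units.val_mul, Matrix.mul_smul, Matrix.smul_mul, smul_smul, Matrix.mul_assoc]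

/-- the case `r = 3` -/
theorem case3 [Fintype F] {q : ℕ} (hF : Fintype.card F = q ^ 2) (hq9 : q % 9 = 8)
    {R : Subgroup (GL (Fin 3) F)} {ζ : F} {P a b : GL (Fin 3) F}
    (h : Std R ζ P a b) (hP : P ∈ Cfsg.GU 3 F q) (x : GL (Fin 3) F)
    (hx : x ∈ Cfsg.GU 3 F q ⊓ Cfsg.Geo.specialLinear (Fin 3) F) (z : F)
    (hz : ((x ^ 3 : GL (Fin 3) F) : M3) = z • (1 : M3)) :
    ∃ g ∈ Cfsg.GU 3 F q ⊓ Cfsg.Geo.specialLinear (Fin 3) F, g⁻¹ * x * g ∈ Cfsg.Geo.subgroupNormalizer R := by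
  have hq3 : q % 3 = 2 := by omega
  have hz3 := cube_of_pow hx.2 3 z hz
  have hz0 : z ≠ 0 := by
    rintro rfl
    simp at hz3
  obtain ⟨η, hη, hηN⟩ := ETAU hF hq9 z hz3
  have hη0 : η ≠ 0 := by
    rintro rfl
    apply hz0
    rw [← hη]; simp
  obtain ⟨y, hyx⟩ := exists_smul η⁻¹ (inv_ne_zero hη0) x
  have hyU : y ∈ Cfsg.GU 3 F q := SCU hF x y hx.1 η⁻¹ (by rw [inv_pow, hηN, inv_one]) hyx
  have hy : (y : M3) ^ 3 = 1 := by
    rw [hyx, smul_pow, ← Units.val_pow_eq_pow_val, hz, smul_smul, inv_pow, hη, inv_mul_cancel₀ hz0, one_smul]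
  obtain ⟨Q₀, l₀, hl₀, hQ₀⟩ := DG3 ζ h.ne h.cube _ hy
  obtain ⟨Q, hQU, l, hl, hQ⟩ := DGU hF y hyU Q₀ l₀ (fun i => pow_succ_of_cube hq3 _ (hl₀ i)) hQ₀
  have hl' : ∀ i, l i ^ 3 = 1 := by
    intro i
    obtain ⟨j, hj⟩ := hl i
    rw [hj]; exact hl₀ j
  have hxQ : (x : M3) = η • ((Q : M3) * Matrix.diagonal l * ((Q⁻¹ : GL (Fin 3) F) : M3)) := by
    rw [← hQ, hyx, smul_smul, mul_inv_cancel₀ hη0, one_smul]
  refine ADJU hF R P hP x Q hQU η (Matrix.diagonal l) ?_ hxQ (fun n hn => N1 h n _ l hl' hn)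
  intro d
  rw [Matrix.diagonal_mul_diagonal, Matrix.diagonal_mul_diagonal]
  congr 1
  ext i
  exact mul_comm _ _

/-- the case `r ≥ 5` -/
theorem case5 [Fintype F] (K : Subgroup (GL (Fin 3) F)) (hK : K ≤ Cfsg.Geo.specialLinear (Fin 3) F)
    {R : Subgroup (GL (Fin 3) F)} (hR : Nat.card R = 27) {ζ : F} {P a b : GL (Fin 3) F}
    (h : Std R ζ P a b) (r : ℕ) [Fact r.Prime] (hr2 : r ≠ 2) (hr3 : r ≠ 3)
    (hΩ : r ∣ (Cfsg.Geo.subgroupNormalizer R).relIndex K)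
    (hall : ∀ x ∈ K, (∃ z : F, ((x ^ r : GL (Fin 3) F) : M3) = z • (1 : M3)) →
      (∀ z : F, (x : M3) ≠ z • (1 : M3)) →
      ∃ g ∈ K, g⁻¹ * x * g ∈ Cfsg.Geo.subgroupNormalizer R) : False := by
  obtain ⟨x, hx, hxr, hns⟩ := C3 _ K hK r hr3 hΩ
  obtain ⟨g, -, hg⟩ := hall x hx ⟨1, by rw [hxr]; simp⟩ hns
  obtain ⟨z, hzR, hz1, hzs⟩ := ZS h
  have hyr : (g⁻¹ * x * g) ^ r = 1 := by
    have : (g⁻¹ * x * g) ^ r = g⁻¹ * x ^ r * g := by
      have := conj_pow (a := g⁻¹) (b := x) (i := r)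
      simpa using this
    rw [this, hxr]; simp
  have hzy : z * (g⁻¹ * x * g) = (g⁻¹ * x * g) * z := by
    apply Units.ext
    rw [Units.val_mul, Units.val_mul (g⁻¹ * x * g) z, hzs]
    simp
  have hcen := C1 R hR _ z hg r hr2 hr3 hyr hzR hz1 hzy
  have haR : a ∈ R := by rw [h.gen]; exact Subgroup.subset_closure (by simp)
  have hbR : b ∈ R := by rw [h.gen]; exact Subgroup.subset_closure (by simp)
  obtain ⟨c, hc⟩ := C2 h _ (hcen a haR) (hcen b hbR)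
  apply hns c
  have hx' : x = g * (g⁻¹ * x * g) * g⁻¹ := by group
  rw [hx', Units.val_mul, Units.val_mul, hc]
  simp

/-- the 3-part of the index -/
theorem case_idx [Fintype F] (K : Subgroup (GL (Fin 3) F)) (hK : K ≤ Cfsg.Geo.specialLinear (Fin 3) F)
    {R : Subgroup (GL (Fin 3) F)} (hRK : R ≤ K) (hR : Nat.card R = 27)
    (h3 : Fintype.card F % 3 = 1)
    (hΩ : 3 ∣ (Cfsg.Geo.subgroupNormalizer R).relIndex K) :
    Fintype.card F % 9 = 1 := by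
  by_contra h9
  apply E3 _ h3 h9
  rw [← E1]
  have hle : R ≤ Cfsg.Geo.subgroupNormalizer R ⊓ K :=
    le_inf (Subgroup.le_normalizer) hRK
  have h27 : 27 ∣ Nat.card (Cfsg.Geo.subgroupNormalizer R ⊓ K : Subgroup _) := by
    rw [← hR]; exact Subgroup.card_dvd_of_le hle
  have hmul : (Cfsg.Geo.subgroupNormalizer R).relIndex K *
      Nat.card (Cfsg.Geo.subgroupNormalizer R ⊓ K : Subgroup _) = Nat.card K := by
    rw [← Subgroup.inf_relIndex_right, mul_comm, ← Subgroup.relIndex_bot_left, ← Subgroup.relIndex_bot_left]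
    exact Subgroup.relIndex_mul_relIndex _ _ _ bot_le inf_le_right
  refine dvd_trans ?_ (Subgroup.card_dvd_of_le hK)
  rw [← hmul]
  exact mul_dvd_mul hΩ h27

end aux

theorem result {F : Type*} [Field F] [Fintype F] {p : ℕ} [Fact p.Prime] [CharP F p] (hF : Fintype.card F = p ^ 2) (hp : 5 ≤ p) (hp3 : p % 3 = 2)
    (R : Subgroup (GL (Fin 3) F)) (hRU : R ≤ Cfsg.GU 3 F p) (hR : Nat.card R = 27) (hRe : Monoid.exponent R = 3) (hRna : ¬ IsMulCommutative R)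
    (r : ℕ) [Fact r.Prime]
    (hΩ : r ∣ (Cfsg.Geo.subgroupNormalizer R).relIndex (Cfsg.GU 3 F p ⊓ Cfsg.Geo.specialLinear (Fin 3) F)) :
    (∀ x ∈ Cfsg.GU 3 F p ⊓ Cfsg.Geo.specialLinear (Fin 3) F, (∃ z : F, ((x ^ r : GL (Fin 3) F) : Matrix (Fin 3) (Fin 3) F) = z • (1 : Matrix (Fin 3) (Fin 3) F)) →
      (∀ z : F, (x : Matrix (Fin 3) (Fin 3) F) ≠ z • (1 : Matrix (Fin 3) (Fin 3) F)) →
      ∃ g ∈ Cfsg.GU 3 F p ⊓ Cfsg.Geo.specialLinear (Fin 3) F, g⁻¹ * x * g ∈ Cfsg.Geo.subgroupNormalizer R) ↔ (r = 2 ∨ (r = 3 ∧ p % 9 = 8)) := by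
  have hc3 : Fintype.card F % 3 = 1 := by
    rw [hF, Nat.pow_mod, hp3]
  obtain ⟨ω, hω, hω3⟩ := OM (F := F) hc3
  obtain ⟨ζ, P, a, b, h, hP⟩ := A4U hF hp3 R hRU hR hRe hRna ω hω hω3
  have hpp : p.Prime := Fact.out
  have hp2 : p % 2 = 1 := by
    rcases hpp.eq_two_or_odd with h | h
    · omega
    · exact h
  have h2 : (2 : F) ≠ 0 := by
    intro h2
    have : ((2 : ℕ) : F) = 0 := by exact_mod_cast h2
    rw [CharP.cast_eq_zero_iff F p] at this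
    have hp2 : p = 2 := ((Nat.prime_dvd_prime_iff_eq hpp Nat.prime_two).1 this)
    omega
  constructor
  · intro hall
    by_cases hr2 : r = 2
    · exact Or.inl hr2
    by_cases hr3 : r = 3
    · subst hr3
      refine Or.inr ⟨rfl, ?_⟩
      have h9 := case_idx _ inf_le_right (le_inf hRU (E2 h)) hR hc3 hΩ
      rw [hF, Nat.pow_mod] at h9
      have : p % 9 = 2 ∨ p % 9 = 5 ∨ p % 9 = 8 := by omega
      rcases this with h | h | h
      · rw [h] at h9; norm_num at h9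
      · rw [h] at h9; norm_num at h9
      · exact h
    · exact (case5 _ inf_le_right hR h r hr2 hr3 hΩ hall).elim
  · rintro (rfl | ⟨rfl, h9⟩)
    · rintro x hx ⟨z, hz⟩ hns
      exact case2 hF hp3 hp2 h2 h hP x hx z hz hns
    · rintro x hx ⟨z, hz⟩ -
      exact case3 hF h9 h hP x hx z hz

end Cfsg.Agent.S5999
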